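import Mathlib
import Cfsg.Statements.S0320
import Cfsg.Agent.Lib.Helper3.BNPair
import Cfsg.Agent.Lib.Helper3.Exchange

set_option autoImplicit false
open Cfsg

namespace Cfsg.Agent.S0320

open Cfsg.Agent.Lib.Helper3.BN Cfsg.Agent.Lib.Helper3.Exch

section
variable {G : Type*} [Group G] (P : Cfsg.BNPair G) [hN : ((P.B ⊓ P.N).subgroupOf P.N).Normal]

/-- the distinguished generators in the Weyl group -/
def gen (s : P.S) : P.N ⧸ (P.B ⊓ P.N).subgroupOf P.N :=
  QuotientGroup.mk (⟨(s : G), P.subset s.2⟩ : P.N)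

theorem val_mem (L : List P.S) : ∀ x ∈ L.map Subtype.val, x ∈ P.S := by
  intro x hx
  obtain ⟨s, _, rfl⟩ := List.mem_map.1 hx
  exact s.2

theorem mk_eq_iff (a b : P.N) :
    (QuotientGroup.mk a : P.N ⧸ (P.B ⊓ P.N).subgroupOf P.N) = QuotientGroup.mk b ↔
      Rel P (a : G) (b : G) := by
  rw [QuotientGroup.eq, Subgroup.mem_subgroupOf]
  constructor
  · intro h
    exact h.1
  · intro h
    exact ⟨h, (a⁻¹ * b).2⟩

theorem wp_gen (L : List P.S) :
    wp (gen P) L = QuotientGroup.mk (⟨(L.map Subtype.val).prod, prod_mem_N (val_mem P L)⟩ : P.N) := by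
  induction L with
  | nil => rfl
  | cons s L ih =>
    rw [wp_cons, ih]
    rfl

theorem wp_eq_iff (L L' : List P.S) :
    wp (gen P) L = wp (gen P) L' ↔ Rel P (L.map Subtype.val).prod (L'.map Subtype.val).prod := by
  rw [wp_gen, wp_gen, mk_eq_iff]

theorem exists_list {w : List G} (hw : ∀ x ∈ w, x ∈ P.S) : ∃ L : List P.S, L.map Subtype.val = w :=
  ⟨w.pmap (fun x hx => ⟨x, hx⟩) hw, by simp [List.map_pmap]⟩

theorem isRed_iff (L : List P.S) :
    IsRed (gen P) L ↔ len P (L.map Subtype.val).prod = L.length := by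
  constructor
  · intro h
    apply le_antisymm
    · simpa using len_le (Rep.self (P := P) (val_mem P L))
    · obtain ⟨w, hw, hl⟩ := exists_rep_len (prod_mem_N (val_mem P L))
      obtain ⟨L', rfl⟩ := exists_list P hw.1
      have := h L' ((wp_eq_iff P _ _).2 hw.2)
      rw [← hl]; simpa using this
  · intro h L' hL'
    rw [← h]
    have : Rep P P.S (L'.map Subtype.val) (L.map Subtype.val).prod :=
      ⟨val_mem P L', (wp_eq_iff P _ _).1 hL'⟩
    simpa using len_le this

theorem exchange_gen : Exchange (gen P) where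
  sq := by
    intro s
    show (QuotientGroup.mk ((⟨(s : G), P.subset s.2⟩ : P.N) * ⟨(s : G), P.subset s.2⟩) :
      P.N ⧸ (P.B ⊓ P.N).subgroupOf P.N) = QuotientGroup.mk 1
    rw [mk_eq_iff]
    have := inv_mem (P.sq_mem s s.2)
    show ((s : G) * (s : G))⁻¹ * 1 ∈ P.B
    rwa [mul_one]
  gen := by
    rw [eq_top_iff]
    intro q _
    obtain ⟨n, rfl⟩ := QuotientGroup.mk_surjective q
    obtain ⟨w, hw⟩ := exists_rep n.2
    obtain ⟨L, rfl⟩ := exists_list P hw.1
    have h1 : (QuotientGroup.mk n : P.N ⧸ (P.B ⊓ P.N).subgroupOf P.N) = wp (gen P) L := by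
      rw [wp_gen, mk_eq_iff]
      exact hw.2.symm
    rw [h1]
    exact list_prod_mem (fun x hx => by
      obtain ⟨s, _, rfl⟩ := List.mem_map.1 hx
      exact Subgroup.subset_closure ⟨s, rfl⟩)
  exch := by
    intro i L hL hnr
    rw [isRed_iff] at hL
    have hle : len P ((i : G) * (L.map Subtype.val).prod) ≤ len P (L.map Subtype.val).prod := by
      rw [isRed_iff] at hnr
      have h1 : len P ((i :: L).map Subtype.val).prod ≤ (i :: L).length := by
        simpa using len_le (Rep.self (P := P) (val_mem P (i :: L)))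
      simp only [List.map_cons, List.prod_cons, List.length_cons] at hnr h1
      omega
    obtain ⟨w1, s', w2, hw, hr⟩ := exchange i.2 _ (val_mem P L) hle
    obtain ⟨L1, L2', rfl, rfl, h2⟩ := List.map_eq_append_iff.1 hw
    obtain ⟨j, L2, rfl, rfl, rfl⟩ := List.map_eq_cons_iff.1 h2
    refine ⟨L1, j, L2, rfl, ?_⟩
    have e1 : gen P i * wp (gen P) L1 = wp (gen P) (i :: L1) := by rw [wp_cons]
    have e2 : wp (gen P) L1 * gen P j = wp (gen P) (L1 ++ [j]) := by rw [wp_append, wp_singleton]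
    rw [e1, e2, wp_eq_iff]
    simpa using hr

theorem gen_injective : Function.Injective (gen P) := by
  intro s s' h
  have := (mk_eq_iff P _ _).1 h
  exact Subtype.ext (P.inj s s.2 s' s'.2 this)

end

/-- The Weyl group `W = N / (B ⊓ N)` of a (B,N)-pair, with its distinguished involutions, is a Coxeter system. -/
theorem result {G : Type*} [Group G] (P : Cfsg.BNPair G)
    [hN : ((P.B ⊓ P.N).subgroupOf P.N).Normal] :
    ∃ (M : CoxeterMatrix P.S) (cs : CoxeterSystem M (P.N ⧸ (P.B ⊓ P.N).subgroupOf P.N)),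
      ∀ s : P.S, cs.simple s = QuotientGroup.mk (⟨(s : G), P.subset s.2⟩ : P.N) := by
  obtain ⟨M, cs, h, _⟩ := (exchange_gen P).exists_coxeterSystem (gen_injective P)
  exact ⟨M, cs, h⟩

end Cfsg.Agent.S0320
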