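import Mathlib
import Cfsg.Statements.S1460
import Cfsg.Agent.Lib.Helper10.Coprime

set_option autoImplicit false
open Cfsg Cfsg.Agent.Lib.Helper10 Cfsg.H1
open scoped Pointwise commutatorElement

namespace Cfsg.Agent.S1460

theorem mem_of_pow_mem_of_coprime {G : Type*} [Group G] (S : Subgroup G) (x : G) (m n : ℕ) (h : m.Coprime n)
    (hm : x ^ m ∈ S) (hn : x ^ n ∈ S) : x ∈ S := by
  have h1 : (1 : ℤ) = m * Nat.gcdA m n + n * Nat.gcdB m n := by
    have := Nat.gcd_eq_gcd_ab m n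
    rw [h] at this
    exact_mod_cast this
  have h2 : x = (x ^ m) ^ (Nat.gcdA m n) * (x ^ n) ^ (Nat.gcdB m n) := by
    rw [← zpow_natCast, ← zpow_natCast, ← zpow_mul, ← zpow_mul, ← zpow_add, ← h1, zpow_one]
  rw [h2]
  exact S.mul_mem (S.zpow_mem hm _) (S.zpow_mem hn _)

theorem partC {G : Type*} [Group G] [Finite G] [Group.IsSolvable G] (K U H : Subgroup G) [K.Normal] (hKU : K ⊔ U = ⊤) (hH : H ≤ U) (hcop : (Nat.card H).Coprime (Nat.card K)) :
    ∀ g : G, H.map (MulAut.conj g).toMonoidHom ≤ U → ∃ u ∈ U, ∃ c ∈ K ⊓ Subgroup.centralizer (H : Set G), g = u * c := by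
  intro g hg
  have hgtop : g ∈ ((U ⊔ K : Subgroup G) : Set G) := by rw [sup_comm, hKU]; trivial
  rw [Subgroup.mul_normal U K] at hgtop
  obtain ⟨u₀, hu₀, k, hk, rfl⟩ := Set.mem_mul.1 hgtop
  have hu₀' : u₀ ∈ U := hu₀
  have hk' : k ∈ K := hk
  have hkH : ∀ h ∈ H, k * h * k⁻¹ ∈ U := by
    intro h hh
    have h1 : (u₀ * k) * h * (u₀ * k)⁻¹ ∈ U := hg ⟨h, hh, rfl⟩
    have h2 := U.mul_mem (U.mul_mem (U.inv_mem hu₀') h1) hu₀'
    have e : u₀⁻¹ * ((u₀ * k) * h * (u₀ * k)⁻¹) * u₀ = k * h * k⁻¹ := by group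
    rwa [e] at h2
  set N := U ⊓ K with hN
  have hHN : H ≤ Subgroup.normalizer (N : Set G) := by
    rw [Subgroup.le_normalizer_iff]
    intro h hh n hn
    have hn' := Subgroup.mem_inf.1 hn
    exact Subgroup.mem_inf.2 ⟨U.mul_mem (U.mul_mem (hH hh) hn'.1) (U.inv_mem (hH hh)),
      ‹K.Normal›.conj_mem n hn'.2 h⟩
  have hB : MulAut.conj k • H ≤ N ⊔ H := by
    intro y hy
    rw [mem_conj_smul_iff] at hy
    set h := k⁻¹ * y * k with hh
    have e : y = (k * h * k⁻¹ * h⁻¹) * h := by rw [hh]; group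
    rw [e]
    apply Subgroup.mul_mem _ (le_sup_left (a := N) (b := H) _) (le_sup_right (a := N) (b := H) hy)
    refine Subgroup.mem_inf.2 ⟨U.mul_mem (hkH h hy) (U.inv_mem (hH hy)), ?_⟩
    have := K.mul_mem hk' (‹K.Normal›.conj_mem k⁻¹ (K.inv_mem hk') h)
    simpa [mul_assoc] using this
  have hcopN : (Nat.card N).Coprime (Nat.card H) :=
    Nat.Coprime.coprime_dvd_left (Subgroup.card_dvd_of_le inf_le_right) hcop.symm
  obtain ⟨w, hw, hwH⟩ := sz_internal N H (MulAut.conj k • H) hHN hB hcopN (card_conj_smul _ _)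
    (Or.inl inferInstance)
  have hw' := Subgroup.mem_inf.1 hw
  refine ⟨u₀ * w, U.mul_mem hu₀' hw'.1, w⁻¹ * k, ?_, by group⟩
  have hcK : w⁻¹ * k ∈ K := K.mul_mem (K.inv_mem hw'.2) hk'
  refine Subgroup.mem_inf.2 ⟨hcK, ?_⟩
  apply mem_centralizer_of_normalizes K H (by rw [Subgroup.normalizer_eq_top]; exact le_top)
    (Subgroup.inf_eq_bot_of_coprime hcop.symm) hcK
  rw [conj_mul_smul, ← hwH, ← conj_mul_smul]
  simp

theorem result {G : Type*} [Group G] [Finite G] [Group.IsSolvable G] (K U H : Subgroup G) [K.Normal] (hKU : K ⊔ U = ⊤) (hH : H ≤ U) (hcop : (Nat.card H).Coprime (Nat.card K)) :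
    H ⊓ commutator G = H ⊓ ⁅U, U⁆ ∧
      Subgroup.normalizer (H : Set G) = (K ⊓ Subgroup.centralizer (H : Set G)) ⊔ (U ⊓ Subgroup.normalizer (H : Set G)) ∧
      ∀ g : G, H.map (MulAut.conj g).toMonoidHom ≤ U → ∃ u ∈ U, ∃ c ∈ K ⊓ Subgroup.centralizer (H : Set G), g = u * c := by
  have hC := partC K U H hKU hH hcop
  refine ⟨?_, ?_, hC⟩
  · apply le_antisymm
    · -- `G' ≤ K ⊔ U'`
      have hG' : commutator G ≤ K ⊔ ⁅U, U⁆ := by
        rw [commutator_def, Subgroup.commutator_le]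
        intro a _ b _
        have ha : a ∈ ((K ⊔ U : Subgroup G) : Set G) := by rw [hKU]; trivial
        have hb : b ∈ ((K ⊔ U : Subgroup G) : Set G) := by rw [hKU]; trivial
        rw [Subgroup.normal_mul K U] at ha hb
        obtain ⟨k₁, hk₁, u₁, hu₁, rfl⟩ := Set.mem_mul.1 ha
        obtain ⟨k₂, hk₂, u₂, hu₂, rfl⟩ := Set.mem_mul.1 hb
        have h1 : (QuotientGroup.mk' K) ⁅k₁ * u₁, k₂ * u₂⁆ = (QuotientGroup.mk' K) ⁅u₁, u₂⁆ := by
          have q1 : (QuotientGroup.mk' K) k₁ = 1 := (QuotientGroup.eq_one_iff k₁).2 hk₁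
          have q2 : (QuotientGroup.mk' K) k₂ = 1 := (QuotientGroup.eq_one_iff k₂).2 hk₂
          rw [map_commutatorElement, map_commutatorElement, map_mul, map_mul, q1, q2, one_mul, one_mul]
        have h2 : ⁅k₁ * u₁, k₂ * u₂⁆ * ⁅u₁, u₂⁆⁻¹ ∈ K := by
          rw [← QuotientGroup.eq_one_iff]
          have : (QuotientGroup.mk' K) (⁅k₁ * u₁, k₂ * u₂⁆ * ⁅u₁, u₂⁆⁻¹) = 1 := by
            rw [map_mul, map_inv, h1, mul_inv_cancel]
          exact this
        have e : ⁅k₁ * u₁, k₂ * u₂⁆ = (⁅k₁ * u₁, k₂ * u₂⁆ * ⁅u₁, u₂⁆⁻¹) * ⁅u₁, u₂⁆ := by group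
        rw [e]
        exact Subgroup.mul_mem _ (le_sup_left (a := K) h2)
          (le_sup_right (a := K) (Subgroup.commutator_mem_commutator hu₁ hu₂))
      intro h hh
      have hh' := Subgroup.mem_inf.1 hh
      refine Subgroup.mem_inf.2 ⟨hh'.1, ?_⟩
      have hM : h ∈ ((K ⊔ ⁅U, U⁆ : Subgroup G) : Set G) := hG' hh'.2
      rw [Subgroup.normal_mul K ⁅U, U⁆] at hM
      obtain ⟨k, hk, d, hd, hkd⟩ := Set.mem_mul.1 hM
      have hk' : k ∈ K := hk
      have hd' : d ∈ ⁅U, U⁆ := hd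
      have hU'U : ⁅U, U⁆ ≤ U := Subgroup.commutator_le_self U
      have hkU : k ∈ U := by
        have : k = h * d⁻¹ := by rw [← hkd]; group
        rw [this]
        exact U.mul_mem (hH hh'.1) (U.inv_mem (hU'U hd'))
      have hUn : U ≤ Subgroup.normalizer ((⁅U, U⁆ : Subgroup G) : Set G) := by
        rw [Subgroup.le_normalizer_iff]
        intro u hu x hx
        have e : u * x * u⁻¹ = ⁅u, x⁆ * x := by rw [commutatorElement_def]; group
        rw [e]
        exact Subgroup.mul_mem _ (Subgroup.commutator_mem_commutator hu (hU'U hx)) hx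
      have hd2 : k * d * k⁻¹ ∈ ⁅U, U⁆ := (Subgroup.le_normalizer_iff.1 hUn) k hkU d hd'
      obtain ⟨d'', hd'', e⟩ := mul_pow_mem_mul ⁅U, U⁆ (k * d * k⁻¹) k hd2 (hUn hkU) (Nat.card K)
      have e' : k * d * k⁻¹ * k = h := by rw [← hkd]; group
      rw [e', pow_card_subgroup_eq_one K hk', mul_one] at e
      apply mem_of_pow_mem_of_coprime ⁅U, U⁆ h _ _ hcop
      · rw [pow_card_subgroup_eq_one H hh'.1]; exact Subgroup.one_mem _
      · rw [e]; exact hd''
    · apply inf_le_inf_left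
      rw [commutator_def]
      exact Subgroup.commutator_mono le_top le_top
  · apply le_antisymm
    · intro g hg
      have h1 : H.map (MulAut.conj g).toMonoidHom ≤ U := by
        rintro y ⟨h, hh, rfl⟩
        exact hH ((Subgroup.mem_normalizer_iff.1 hg h).1 hh)
      obtain ⟨u, hu, c, hc, rfl⟩ := hC g h1
      have hcN : c ∈ Subgroup.normalizer (H : Set G) :=
        Subgroup.centralizer_le_normalizer (H : Set G) (Subgroup.mem_inf.1 hc).2
      have huN : u ∈ Subgroup.normalizer (H : Set G) := by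
        have := Subgroup.mul_mem _ hg (Subgroup.inv_mem _ hcN)
        simpa using this
      exact Subgroup.mul_mem _ (le_sup_right (a := K ⊓ Subgroup.centralizer (H : Set G)) (Subgroup.mem_inf.2 ⟨hu, huN⟩))
        (le_sup_left (b := U ⊓ Subgroup.normalizer (H : Set G)) hc)
    · apply sup_le
      · exact inf_le_right.trans (Subgroup.centralizer_le_normalizer (H : Set G))
      · exact inf_le_right

end Cfsg.Agent.S1460
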