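import Mathlib
import Cfsg.Statements.S1461
import Cfsg.Agent.S1460
import Cfsg.Agent.H12.Cores
import Cfsg.Agent.H1.HallPrep

set_option autoImplicit false
open Cfsg Cfsg.Agent.Lib.Helper10 Cfsg.H1
open scoped Pointwise

namespace Cfsg.Agent.S1461

theorem step_even (p : ℕ) (G : Type*) [Group G] (n : ℕ) (h : Even n) :
    (upperPSeries p G (n+1)).1 = (pPrimeCore p (G ⧸ (upperPSeries p G n).1)).comap (QuotientGroup.mk' _) := by
  rw [upperPSeries]
  simp only [h, if_true]

theorem step_odd (p : ℕ) (G : Type*) [Group G] (n : ℕ) (h : ¬ Even n) :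
    (upperPSeries p G (n+1)).1 = (pCore p (G ⧸ (upperPSeries p G n).1)).comap (QuotientGroup.mk' _) := by
  rw [upperPSeries]
  simp only [h, if_false]

/-- In a group of `p`-length one there is a normal `p'`-subgroup `K` with `G = K N_G(S)`. -/
theorem frattini {G : Type*} [Group G] [Finite G] [Group.IsSolvable G] (p : ℕ) [hp : Fact p.Prime] (hpl : Cfsg.PLengthLE p 1 G) (S : Sylow p G) :
    ∃ K : Subgroup G, K.Normal ∧ (Nat.card K).Coprime p ∧ K ⊔ Subgroup.normalizer ((S : Subgroup G) : Set G) = ⊤ := by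
  set U₁ := (upperPSeries p G 1).1 with hU₁
  set U₂ := (upperPSeries p G 2).1 with hU₂
  have hn₁ : U₁.Normal := (upperPSeries p G 1).2
  have hn₂ : U₂.Normal := (upperPSeries p G 2).2
  have h0 : (upperPSeries p G 0).1 = ⊥ := rfl
  have e1 : U₁ = (pPrimeCore p (G ⧸ (upperPSeries p G 0).1)).comap (QuotientGroup.mk' _) := step_even p G 0 (by decide)
  have e2 : U₂ = (pCore p (G ⧸ U₁)).comap (QuotientGroup.mk' _) := step_odd p G 1 (by decide)
  have e3 : (⊤ : Subgroup G) = (pPrimeCore p (G ⧸ U₂)).comap (QuotientGroup.mk' _) := by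
    have : (upperPSeries p G (2 * 1 + 1)).1 = ⊤ := hpl
    rw [← this]
    exact step_even p G 2 (by decide)
  have c1 : (Nat.card U₁).Coprime p := by
    rw [e1, card_comap_mk']
    have hb : Nat.card (upperPSeries p G 0).1 = 1 := by
      have : Nat.card (⊥ : Subgroup G) = 1 := Subgroup.card_bot
      exact this
    rw [hb, mul_one]
    exact Cfsg.Agent.H12.pPrimeCore_coprime p
  obtain ⟨a, ha⟩ := (Cfsg.Agent.H12.pCore_isPGroup p (G ⧸ U₁)).exists_card_eq
  have c2 : Nat.card U₂ = p ^ a * Nat.card U₁ := by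
    rw [e2, card_comap_mk', ha]
  have c3 : (U₂.index).Coprime p := by
    have h1 : pPrimeCore p (G ⧸ U₂) = ⊤ := by
      have := congrArg (Subgroup.map (QuotientGroup.mk' U₂)) e3
      rw [Subgroup.map_comap_eq_self_of_surjective (QuotientGroup.mk'_surjective U₂),
        Subgroup.map_top_of_surjective _ (QuotientGroup.mk'_surjective U₂)] at this
      exact this.symm
    have h2 := Cfsg.Agent.H12.pPrimeCore_coprime (G := G ⧸ U₂) p
    rw [h1, Subgroup.card_top] at h2
    exact h2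
  have hU₁₂ : U₁ ≤ U₂ := by
    rw [e2]
    intro x hx
    rw [Subgroup.mem_comap]
    have : (QuotientGroup.mk' U₁) x = 1 := (QuotientGroup.eq_one_iff x).2 hx
    rw [this]; exact Subgroup.one_mem _
  have hSU₂ : (S : Subgroup G) ≤ U₂ := by
    intro s hs
    obtain ⟨k, hk⟩ := S.isPGroup' ⟨s, hs⟩
    have hk' : s ^ p ^ k = 1 := congrArg Subtype.val hk
    apply Cfsg.Agent.S1460.mem_of_pow_mem_of_coprime U₂ s (U₂.index) (p ^ k) (Nat.Coprime.pow_right k c3)
    · exact U₂.pow_index_mem s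
    · rw [hk']; exact U₂.one_mem
  have hcopS : (Nat.card U₁).Coprime (Nat.card (S : Subgroup G)) := by
    rw [S.card_eq_multiplicity]
    exact Nat.Coprime.pow_right _ c1
  have hSn : (S : Subgroup G) ≤ Subgroup.normalizer (U₁ : Set G) := by
    rw [Subgroup.normalizer_eq_top]; exact le_top
  have hsup : U₁ ⊔ (S : Subgroup G) = U₂ := by
    apply Subgroup.eq_of_le_of_card_ge (sup_le hU₁₂ hSU₂)
    rw [card_sup_eq_mul U₁ S hSn (Subgroup.inf_eq_bot_of_coprime hcopS), c2, mul_comm]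
    apply Nat.mul_le_mul_left
    apply Nat.le_of_dvd Nat.card_pos
    rw [S.card_eq_multiplicity]
    apply Nat.pow_dvd_pow
    have hd : p ^ a ∣ Nat.card G := by
      have : p ^ a ∣ Nat.card U₂ := by rw [c2]; exact Dvd.intro _ rfl
      exact this.trans (Subgroup.card_subgroup_dvd_card U₂)
    exact (hp.out.pow_dvd_iff_le_factorization Nat.card_pos.ne').1 hd
  refine ⟨U₁, hn₁, c1, ?_⟩
  rw [eq_top_iff]
  intro g _
  have hB : MulAut.conj g • (S : Subgroup G) ≤ U₁ ⊔ (S : Subgroup G) := by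
    rw [hsup]
    intro y hy
    rw [mem_conj_smul_iff] at hy
    have := hn₂.conj_mem _ (hSU₂ hy) g
    simpa [mul_assoc] using this
  obtain ⟨x, hx, hxS⟩ := sz_internal U₁ S (MulAut.conj g • (S : Subgroup G)) hSn hB hcopS (Cfsg.H1.card_conj_smul _ _)
    (Or.inl inferInstance)
  have hN : x⁻¹ * g ∈ Subgroup.normalizer ((S : Subgroup G) : Set G) := by
    have h1 : MulAut.conj (x⁻¹ * g) • (S : Subgroup G) = S := by
      rw [conj_mul_smul, ← hxS, ← conj_mul_smul]; simp
    rw [Subgroup.mem_normalizer_iff'']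
    intro h
    rw [← mem_conj_smul_iff, h1]
  have e : g = x * (x⁻¹ * g) := by group
  rw [e]
  exact Subgroup.mul_mem _ (le_sup_left (a := U₁) hx) (le_sup_right (a := U₁) hN)

theorem result {G : Type*} [Group G] [Finite G] [Group.IsSolvable G] (p : ℕ) [Fact p.Prime] (hpl : Cfsg.PLengthLE p 1 G) (S : Sylow p G) :
    ((S : Subgroup G) ≤ commutator G → (S : Subgroup G) ≤ ⁅Subgroup.normalizer ((S : Subgroup G) : Set G), Subgroup.normalizer ((S : Subgroup G) : Set G)⁆) ∧
      (∀ (Y : Set G) (x : G), Y ⊆ (S : Subgroup G) → (fun y => x * y * x⁻¹) '' Y ⊆ (S : Subgroup G) →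
        ∃ g ∈ Subgroup.normalizer ((S : Subgroup G) : Set G), ∃ c ∈ Subgroup.centralizer Y, g * c = x) ∧
      ∀ Q : Subgroup G, IsPGroup p Q → ∃ x ∈ Subgroup.centralizer ((Q ⊓ (S : Subgroup G) : Subgroup G) : Set G), Q.map (MulAut.conj x).toMonoidHom ≤ (S : Subgroup G) := by
  obtain ⟨K, hKn, hKp, hKU⟩ := frattini p hpl S
  have hcopH : ∀ H : Subgroup G, H ≤ (S : Subgroup G) → (Nat.card H).Coprime (Nat.card K) := by
    intro H hH
    apply Nat.Coprime.coprime_dvd_left (Subgroup.card_dvd_of_le hH)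
    rw [S.card_eq_multiplicity]
    exact (Nat.Coprime.pow_right _ hKp).symm
  have part2 : ∀ (Y : Set G) (x : G), Y ⊆ (S : Subgroup G) → (fun y => x * y * x⁻¹) '' Y ⊆ (S : Subgroup G) →
        ∃ g ∈ Subgroup.normalizer ((S : Subgroup G) : Set G), ∃ c ∈ Subgroup.centralizer Y, g * c = x := by
    intro Y x hY hxY
    have hH : Subgroup.closure Y ≤ (S : Subgroup G) := (Subgroup.closure_le _).2 hY
    have h1 := (Cfsg.Agent.S1460.result K (Subgroup.normalizer ((S : Subgroup G) : Set G)) (Subgroup.closure Y) hKU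
      (hH.trans Subgroup.le_normalizer) (hcopH _ hH)).2.2 x
    have h2 : (Subgroup.closure Y).map (MulAut.conj x).toMonoidHom ≤ Subgroup.normalizer ((S : Subgroup G) : Set G) := by
      rw [MonoidHom.map_closure]
      refine le_trans ?_ Subgroup.le_normalizer
      rw [Subgroup.closure_le]
      exact hxY
    obtain ⟨u, hu, c, hc, e⟩ := h1 h2
    refine ⟨u, hu, c, ?_, e.symm⟩
    exact Subgroup.centralizer_le Subgroup.subset_closure (Subgroup.mem_inf.1 hc).2
  refine ⟨?_, part2, ?_⟩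
  · intro hS
    have h1 := (Cfsg.Agent.S1460.result K (Subgroup.normalizer ((S : Subgroup G) : Set G)) S hKU
      Subgroup.le_normalizer (hcopH _ le_rfl)).1
    rw [inf_eq_left.2 hS] at h1
    exact h1.le.trans inf_le_right
  · intro Q hQ
    obtain ⟨P, hP⟩ := hQ.exists_le_sylow
    obtain ⟨g, hg⟩ := MulAction.exists_smul_eq G P S
    have hgQ : ∀ y ∈ Q, g * y * g⁻¹ ∈ (S : Subgroup G) := by
      intro y hy
      rw [← hg, Sylow.coe_subgroup_smul, mem_conj_smul_iff]
      have := hP hy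
      simpa [mul_assoc] using this
    obtain ⟨n, hn, c, hc, e⟩ := part2 ((Q ⊓ (S : Subgroup G) : Subgroup G) : Set G) g
      (fun y hy => (Subgroup.mem_inf.1 hy).2) (by
        rintro _ ⟨y, hy, rfl⟩
        exact hgQ y (Subgroup.mem_inf.1 hy).1)
    refine ⟨c, hc, ?_⟩
    rintro _ ⟨y, hy, rfl⟩
    change c * y * c⁻¹ ∈ (S : Subgroup G)
    have h1 := hgQ y hy
    rw [← e] at h1
    have h2 := (Subgroup.mem_normalizer_iff''.1 hn _).1 h1
    have e2 : n⁻¹ * (n * c * y * (n * c)⁻¹) * n = c * y * c⁻¹ := by group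
    rwa [e2] at h2

end Cfsg.Agent.S1461
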