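import Mathlib
import Cfsg.Agent.Lib.Helper18.Quad4
import Cfsg.Statements.S0287
-- import your own Cfsg.Agent.* helpers here

set_option autoImplicit false
open Cfsg

namespace Cfsg.Agent.S0287

/-- |GO^+_{2m}(q)| = 2 q^(m(m-1)) (q^m - 1) prod_{i=1}^{m-1} (q^(2i) - 1), m at least 1, all q. -/
theorem result {F : Type*} [Field F] [Fintype F] {q : ℕ} (hF : Fintype.card F = q) (m : ℕ) (hm : 1 ≤ m) : Nat.card (Cfsg.isometryGroup F (Cfsg.quadFormPlus m F)) = 2 * q ^ (m * (m - 1)) * (q ^ m - 1) * ∏ i ∈ Finset.range (m - 1), (q ^ (2 * (i + 1)) - 1) := by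
  have hq : 1 < q := by rw [← hF]; exact Fintype.one_lt_card
  rw [Cfsg.Agent.Lib.Helper18.card_isometry_plus, hF]
  have h1 : ∀ i, Cfsg.Agent.Lib.Helper18.oSeq q 1 1 (i + 1) - 1 = (q ^ (i + 1) - 1) * (q ^ i + 1) := by
    intro i
    have h2 : Cfsg.Agent.Lib.Helper18.oSeq q 1 1 (i + 1) = (q ^ (i + 1) - 1) * (q ^ i + 1) + 1 := by
      apply Nat.eq_of_mul_eq_mul_left (show 0 < q by omega)
      rw [Cfsg.Agent.Lib.Helper18.oSeq_closed _ _ _ (by omega)]
      have e1 : 1 ≤ q ^ (i + 1) := Nat.one_le_pow _ _ (by omega)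
      zify [e1]
      ring
    rw [h2, Nat.add_sub_cancel]
  simp_rw [h1]
  obtain ⟨k, rfl⟩ : ∃ k, m = k + 1 := ⟨m - 1, by omega⟩
  simp only [Nat.add_sub_cancel]
  induction k with
  | zero => simp; ring
  | succ k ih =>
    rw [Finset.prod_range_succ, ih (by omega), Finset.prod_range_succ (n := k)]
    have e1 : 1 ≤ q ^ (k + 1) := Nat.one_le_pow _ _ (by omega)
    have e2 : q ^ (2 * (k + 1)) - 1 = (q ^ (k + 1) - 1) * (q ^ (k + 1) + 1) := by
      have e3 : 1 ≤ q ^ (2 * (k + 1)) := Nat.one_le_pow _ _ (by omega)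
      zify [e1, e3]
      ring
    rw [e2]
    ring

end Cfsg.Agent.S0287
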