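import Mathlib
import Cfsg.Agent.Lib.Helper18.Quad5
import Cfsg.Statements.S0286
-- import your own Cfsg.Agent.* helpers here

set_option autoImplicit false
open Cfsg

namespace Cfsg.Agent.S0286

/-- |GO_{2m+1}(q)| = 2 q^(m^2) prod_{i=1}^{m} (q^(2i) - 1) for q odd. -/
theorem result {F : Type*} [Field F] [Fintype F] {q : ℕ} (hF : Fintype.card F = q) (hodd : Odd q) (m : ℕ) : Nat.card (Cfsg.isometryGroup F (Cfsg.quadFormOdd m F)) = 2 * q ^ (m ^ 2) * ∏ i ∈ Finset.range m, (q ^ (2 * (i + 1)) - 1) := by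
  have hq : 1 < q := by rw [← hF]; exact Fintype.one_lt_card
  have h2 : (2 : F) ≠ 0 := by
    apply Ring.two_ne_zero
    intro hc
    have := FiniteField.even_card_of_char_two hc
    rw [hF] at this
    rcases hodd with ⟨k, hk⟩
    omega
  rw [Cfsg.Agent.Lib.Helper18.card_isometry_odd h2, hF]
  have h1 : ∀ i, Cfsg.Agent.Lib.Helper18.oSeq q q 1 (i + 1) - 1 = q ^ (2 * (i + 1)) - 1 := by
    intro i
    have h3 : Cfsg.Agent.Lib.Helper18.oSeq q q 1 (i + 1) = q ^ (2 * (i + 1)) := by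
      apply Nat.eq_of_mul_eq_mul_left (show 0 < q by omega)
      rw [Cfsg.Agent.Lib.Helper18.oSeq_closed _ _ _ (by omega)]
      have e1 : 1 ≤ q ^ (i + 1) := Nat.one_le_pow _ _ (by omega)
      zify [e1]
      ring
    rw [h3]
  simp_rw [h1]
  have h4 : ∀ i, q ^ (2 * i) * q = q ^ (2 * i + 1) := fun i => (pow_succ q (2 * i)).symm
  simp_rw [h4]
  rw [Finset.prod_mul_distrib, Finset.prod_pow_eq_pow_sum]
  have h5 : ∑ i ∈ Finset.range m, (2 * i + 1) = m ^ 2 := by
    clear h1 h4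
    induction m with
    | zero => simp
    | succ k ih => rw [Finset.sum_range_succ, ih]; ring
  rw [h5]
  ring

end Cfsg.Agent.S0286
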