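import Mathlib
import Cfsg.Agent.Lib.Helper18.SpPerfect
import Cfsg.Agent.Lib.Helper15.Disc
import Cfsg.Statements.S0269
-- import your own Cfsg.Agent.* helpers here

set_option autoImplicit false
open Cfsg Cfsg.Agent.Lib.Helper18 Matrix Cfsg.Agent.H5Symp

namespace Cfsg.Agent.S0269

/-- Sp_{2m}(q) is perfect except for Sp_2(2), Sp_2(3) and Sp_4(2): stated as m at least 3, or m = 2 and q at least 3, or q at least 4. -/
theorem result {F : Type*} [Field F] [Fintype F] (m : ℕ) (h : 3 ≤ m ∨ (m = 2 ∧ 3 ≤ Fintype.card F) ∨ 4 ≤ Fintype.card F) : commutator (Matrix.symplecticGroup (Fin m) F) = ⊤ := by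
  classical
  by_cases h4 : 4 ≤ Fintype.card F
  · obtain ⟨a, ha⟩ : ∃ a : F, a ∉ ({0, 1, -1} : Finset F) := by
      by_contra hcon
      push Not at hcon
      have h1 : Fintype.card F ≤ ({0, 1, -1} : Finset F).card := by
        rw [← Finset.card_univ]
        exact Finset.card_le_card (fun x _ => hcon x)
      have h3 : ({0, 1, -1} : Finset F).card ≤ 3 := Finset.card_le_three
      omega
    simp only [Finset.mem_insert, Finset.mem_singleton, not_or] at ha
    refine sp_perfect_of_sq_ne_one ha.1 (fun h => ?_)
    rcases sq_eq_one_iff.1 h with h | h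
    · exact ha.2.1 h
    · exact ha.2.2 h
  · have hm2 : 2 ≤ m := by omega
    apply commutator_eq_top_of_tv
    intro v c
    have hne : ∀ i : Fin m, (Pi.single (Sum.inl i) 1 : Fin m ⊕ Fin m → F) ≠ 0 := by
      intro i h0
      have := congrFun h0 (Sum.inl i)
      simp at this
    apply tv_mem_of_tv_mem (hne ⟨0, by omega⟩) c
    by_cases h3 : 3 ≤ m
    · refine tv_mem_of_three (a := Pi.single (Sum.inl ⟨0, by omega⟩) 1)
        (b := Pi.single (Sum.inl ⟨1, by omega⟩) 1) (d := Pi.single (Sum.inl ⟨2, by omega⟩) 1)
        (y := -Pi.single (Sum.inr ⟨2, by omega⟩) 1) ?_ ?_ ?_ ?_ ?_ ?_ (hne _) ?_ c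
      · rw [form_single_inl]; simp
      · rw [form_single_inl]; simp
      · rw [form_single_inl]; simp
      · rw [form_neg_right, form_single_inr]; simp
      · rw [form_neg_right, form_single_inr]; simp
      · rw [form_neg_right, form_single_inr]; simp
      · intro h0
        have := congrFun h0 (Sum.inl ⟨0, by omega⟩)
        simp at this
    · have hF3 : Fintype.card F = 3 := by omega
      have h2 : (2 : F) ≠ 0 := Cfsg.Agent.Lib.Helper15.two_ne_zero_of_odd hF3 (by decide)
      have h01 : (⟨1, by omega⟩ : Fin m) ≠ ⟨0, by omega⟩ := by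
        simp [Fin.ext_iff]
      have key := tv_mem_of_two (F := F) (m := m) (a := Pi.single (Sum.inl ⟨0, by omega⟩) 1)
        (w := Pi.single (Sum.inl ⟨1, by omega⟩) 1)
        (y := (-(c / 2)) • Pi.single (Sum.inr ⟨1, by omega⟩) 1)
        (by rw [form_single_inl]; simp)
        (by
          rw [form_smul_right, form_single_inr, Pi.single_apply,
            if_neg (fun h => h01 (Sum.inl.inj h))]
          simp)
      rw [form_smul_right, form_single_inr] at key
      simp only [Pi.single_eq_same] at key
      have e : 2 * (-(c / 2) * -1) = c := by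
        field_simp
      rwa [e] at key

end Cfsg.Agent.S0269
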