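import Cfsg.Statements.S0780
import Cfsg.Agent.Lib.Helper15.SuGen3

set_option autoImplicit false
open Cfsg

namespace Cfsg.Agent.S0780


open Matrix Module Cfsg.Agent.H6 Cfsg.Agent.Lib.Helper29 Cfsg.Agent.Lib.Helper15

/-- the embedding of `SU` in `GL` -/
noncomputable def suToGL (n : ℕ) (F : Type*) [Field F] (q : ℕ) : ↥(Cfsg.SU n F q) →* GL (Fin n) F :=
  (Matrix.SpecialLinearGroup.toGL).comp (Cfsg.SU n F q).subtype

theorem suToGL_coe {n : ℕ} {F : Type*} [Field F] {q : ℕ} (A : ↥(Cfsg.SU n F q)) :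
    ((suToGL n F q A : GL (Fin n) F) : Matrix (Fin n) (Fin n) F) = (A.1 : Matrix (Fin n) (Fin n) F) := rfl

theorem suToGL_injective {n : ℕ} {F : Type*} [Field F] {q : ℕ} : Function.Injective (suToGL n F q) := by
  intro A B h
  apply Subtype.ext
  apply Subtype.ext
  have := congrArg (fun g : GL (Fin n) F => (g : Matrix (Fin n) (Fin n) F)) h
  exact this

theorem closure_eq_top_of_utv {F : Type*} [Field F] [Fintype F] {q n : ℕ}
    (h : Cfsg.GU n F q ⊓ Cfsg.Geo.specialLinear (Fin n) F ≤ utvGroup n q F)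
    (hF : Fintype.card F = q ^ 2) (S : Set ↥(Cfsg.SU n F q))
    (hS : ∀ (A : ↥(Cfsg.SU n F q)) (v : Fin n → F) (c : F), Cfsg.hermForm n F q v v = 0 → c + c ^ q = 0 →
      (∀ x, (A.1 : Matrix (Fin n) (Fin n) F) *ᵥ x = x + (c * Cfsg.hermForm n F q x v) • v) → A ∈ S) :
    Subgroup.closure S = ⊤ := by
  rw [eq_top_iff]
  intro A _
  have hA : suToGL n F q A ∈ Cfsg.GU n F q ⊓ Cfsg.Geo.specialLinear (Fin n) F := by
    exact ⟨A.2, (mem_specialLinear_iff _).2 A.1.2⟩
  have h1 := h hA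
  have h2 : utvGroup n q F ≤ (Subgroup.closure S).map (suToGL n F q) := by
    unfold utvGroup
    rw [Subgroup.closure_le]
    rintro _ ⟨v, c, hv, hc, rfl⟩
    have hm := utv_mem_SU hF v c hv hc
    refine ⟨Cfsg.Agent.Lib.Helper18.mkSU (utv q v c hv : Matrix (Fin n) (Fin n) F)
      ((mem_specialLinear_iff _).1 hm.2) hm.1, Subgroup.subset_closure ?_, ?_⟩
    · apply hS _ v c hv hc
      intro x
      exact utv_mulVec v c hv x
    · apply Units.ext
      rfl
  obtain ⟨B, hB, hBA⟩ := h2 h1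
  rw [← suToGL_injective hBA]
  exact hB


/-- Generation of SU_n(q), n ≥ 3, (n, q) ≠ (3, 2), by unitary transvections: the subgroup generated by the elements whose matrix is x ↦ x + c h(x, v) v with v isotropic is all of SU_n(q). -/
theorem result {F : Type*} [Field F] [Fintype F] {q : ℕ} (hF : Fintype.card F = q ^ 2) (n : ℕ) (hn : 3 ≤ n) (h32 : ¬ (n = 3 ∧ q = 2)) : Subgroup.closure {A : ↥(Cfsg.SU n F q) | ∃ (v : Fin n → F) (c : F), Cfsg.hermForm n F q v v = 0 ∧ ((A : Matrix.SpecialLinearGroup (Fin n) F) : Matrix (Fin n) (Fin n) F) = Cfsg.unitaryTransvection n q v c} = ⊤ := by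
  apply closure_eq_top_of_utv (su_le_utvGroup' hF hn h32) hF
  intro A v c hv hc hx
  refine ⟨v, c, hv, ?_⟩
  apply Matrix.toLin'.injective
  apply LinearMap.ext
  intro x
  rw [Matrix.toLin'_apply, Matrix.toLin'_apply, hx, unitaryTransvection_mulVec]

end Cfsg.Agent.S0780
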