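import Cfsg.Statements.S0283
import Cfsg.Agent.Lib.Helper15.SuSimple
import Cfsg.Agent.S0780

set_option autoImplicit false
open Cfsg

namespace Cfsg.Agent.S0283


open Matrix Module Cfsg.Agent.H6 Cfsg.Agent.Lib.Helper29 Cfsg.Agent.Lib.Helper15 Cfsg.Agent.S0780

variable {F : Type*} [Field F] [Fintype F] {n q : ℕ}

theorem suToGL_mem (A : ↥(Cfsg.SU n F q)) :
    suToGL n F q A ∈ Cfsg.GU n F q ⊓ Cfsg.Geo.specialLinear (Fin n) F :=
  ⟨A.2, (mem_specialLinear_iff _).2 A.1.2⟩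

theorem exists_suToGL_eq {x : GL (Fin n) F} (hx : x ∈ Cfsg.GU n F q ⊓ Cfsg.Geo.specialLinear (Fin n) F) :
    ∃ B : ↥(Cfsg.SU n F q), suToGL n F q B = x :=
  ⟨Cfsg.Agent.Lib.Helper18.mkSU (x : Matrix (Fin n) (Fin n) F) ((mem_specialLinear_iff _).1 hx.2) hx.1,
    Units.ext rfl⟩

theorem normal_le_center_or_eq_top (hF : Fintype.card F = q ^ 2) (hn : 3 ≤ n) (h32 : ¬ (n = 3 ∧ q = 2))
    (N : Subgroup ↥(Cfsg.SU n F q)) [hN : N.Normal] : N ≤ Subgroup.center _ ∨ N = ⊤ := by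
  have hMU : N.map (suToGL n F q) ≤ Cfsg.GU n F q ⊓ Cfsg.Geo.specialLinear (Fin n) F := by
    rintro _ ⟨A, -, rfl⟩
    exact suToGL_mem A
  have hnorm : ∀ x ∈ Cfsg.GU n F q ⊓ Cfsg.Geo.specialLinear (Fin n) F, ∀ m ∈ N.map (suToGL n F q),
      x * m * x⁻¹ ∈ N.map (suToGL n F q) := by
    rintro x hx _ ⟨A, hA, rfl⟩
    obtain ⟨B, rfl⟩ := exists_suToGL_eq hx
    exact ⟨B * A * B⁻¹, hN.conj_mem A hA B, by simp only [map_mul, map_inv]⟩
  by_cases h : ∃ A ∈ N, ∃ u : Fin n → F, Cfsg.hermForm n F q u u = 0 ∧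
      ¬ ∃ l : F, ((suToGL n F q A : GL (Fin n) F) : Matrix (Fin n) (Fin n) F) *ᵥ u = l • u
  · right
    obtain ⟨A, hA, u, hu, hAu⟩ := h
    have hle := su_le_of_normal hF hn h32 hMU hnorm (Subgroup.mem_map_of_mem _ hA) hu hAu
    rw [eq_top_iff]
    intro B _
    obtain ⟨A', hA', e⟩ := hle (suToGL_mem B)
    rw [← suToGL_injective e]
    exact hA'
  · left
    push Not at h
    intro A hA
    rw [Subgroup.mem_center_iff]
    intro B
    have hcen : utvGroup n q F ≤ Subgroup.centralizer {suToGL n F q A} := by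
      unfold utvGroup
      rw [Subgroup.closure_le]
      rintro _ ⟨v, c, hv, hc, rfl⟩
      rw [SetLike.mem_coe, Subgroup.mem_centralizer_iff]
      rintro _ rfl
      exact commute_utv_of_fix hF (suToGL_mem A).1 (fun u hu => h A hA u hu) v c hv
    have h1 := hcen (su_le_utvGroup' hF hn h32 (suToGL_mem B))
    rw [Subgroup.mem_centralizer_iff] at h1
    have h2 := h1 _ rfl
    apply suToGL_injective
    rw [map_mul, map_mul, h2]

theorem center_ne_top (hF : Fintype.card F = q ^ 2) (hn : 3 ≤ n) :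
    Subgroup.center ↥(Cfsg.SU n F q) ≠ ⊤ := by
  intro htop
  obtain ⟨v, hv0, -, hv⟩ := exists_isotropic_perp (q := q) hF (Fin.elim0 : Fin 0 → (Fin n → F)) (by omega)
  obtain ⟨θ, hθ0, hθ⟩ := exists_trace_zero hF
  obtain ⟨E, E', hE, hE', key, -⟩ := exists_ueich_comm hF hn hv hθ
  obtain ⟨B, rfl⟩ := exists_suToGL_eq hE
  obtain ⟨B', rfl⟩ := exists_suToGL_eq hE'
  have hB : B ∈ Subgroup.center ↥(Cfsg.SU n F q) := by rw [htop]; trivial
  have hcomm := (Subgroup.mem_center_iff.1 hB) B'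
  rw [← map_mul, ← map_mul, hcomm] at key
  have h1 : utv q v θ hv = 1 := by
    have := mul_right_cancel (a := 1) (b := suToGL n F q (B * B')) (c := utv q v θ hv) (by rw [one_mul]; exact key)
    exact this.symm
  obtain ⟨y, hy⟩ := exists_herm_ne_zero (q := q) hF hv0
  have h2 := utv_mulVec v θ hv y
  rw [h1, Units.val_one, Matrix.one_mulVec] at h2
  have h3 : (θ * Cfsg.hermForm n F q y v) • v = 0 := by
    have : y + 0 = y + (θ * Cfsg.hermForm n F q y v) • v := by rw [add_zero]; exact h2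
    exact (add_left_cancel this).symm
  rcases smul_eq_zero.1 h3 with h | h
  · exact (mul_ne_zero hθ0 hy) h
  · exact hv0 h


/-- PSU_n(q) is simple for n at least 3 and (n, q) other than (3, 2). -/
theorem result {F : Type*} [Field F] [Fintype F] {q : ℕ} (hF : Fintype.card F = q ^ 2) (n : ℕ) (hn : 3 ≤ n) (h : ¬ (n = 3 ∧ q = 2)) : IsSimpleGroup (Cfsg.PSU n F q) := by
  have hnt : Nontrivial (Cfsg.PSU n F q) := by
    rw [QuotientGroup.nontrivial_iff]
    exact center_ne_top hF hn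
  refine ⟨fun K hK => ?_⟩
  have hN : (K.comap (QuotientGroup.mk' (Subgroup.center ↥(Cfsg.SU n F q)))).Normal := hK.comap _
  rcases normal_le_center_or_eq_top hF hn h (K.comap (QuotientGroup.mk' (Subgroup.center ↥(Cfsg.SU n F q))))
    with h | h
  · left
    rw [eq_bot_iff]
    intro x hx
    obtain ⟨g, rfl⟩ := QuotientGroup.mk'_surjective _ x
    rw [Subgroup.mem_bot, QuotientGroup.mk'_apply, QuotientGroup.eq_one_iff]
    exact h hx
  · right
    rw [eq_top_iff]
    intro x _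
    obtain ⟨g, rfl⟩ := QuotientGroup.mk'_surjective _ x
    have : g ∈ K.comap (QuotientGroup.mk' (Subgroup.center ↥(Cfsg.SU n F q))) := by rw [h]; trivial
    exact this

end Cfsg.Agent.S0283
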