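import Mathlib
import Cfsg.Statements.S1003

set_option autoImplicit false
set_option maxHeartbeats 1000000
open Cfsg

namespace Cfsg.Agent.S1003

open scoped Pointwise

theorem f2 : (168:ℕ).factorization 2 = 3 := by
  have : (168:ℕ) = 2^3 * 21 := by norm_num
  rw [this, Nat.factorization_mul (by norm_num) (by norm_num),
    Nat.Prime.factorization_pow Nat.prime_two]
  simp [Nat.factorization_eq_zero_of_not_dvd]

theorem f3 : (168:ℕ).factorization 3 = 1 := by
  have : (168:ℕ) = 3^1 * 56 := by norm_num
  rw [this, Nat.factorization_mul (by norm_num) (by norm_num),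
    Nat.Prime.factorization_pow Nat.prime_three]
  simp [Nat.factorization_eq_zero_of_not_dvd]

theorem f7 : (168:ℕ).factorization 7 = 1 := by
  have : (168:ℕ) = 7^1 * 24 := by norm_num
  rw [this, Nat.factorization_mul (by norm_num) (by norm_num),
    Nat.Prime.factorization_pow (by norm_num : Nat.Prime 7)]
  simp [Nat.factorization_eq_zero_of_not_dvd]

theorem dvd_fact {G : Type*} [Group G] [Finite G] [IsSimpleGroup G] {p : ℕ} [Fact p.Prime]
    (P : Sylow p G) (h1 : (P : Subgroup G) ≠ ⊥) (h2 : (P : Subgroup G) ≠ ⊤) :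
    Nat.card G ∣ (Nat.card (Sylow p G)).factorial := by
  classical
  let f := MulAction.toPermHom G (Sylow p G)
  rcases f.normal_ker.eq_bot_or_eq_top with hb | ht
  · have hinj : Function.Injective f := (MonoidHom.ker_eq_bot_iff f).mp hb
    have := Subgroup.card_dvd_of_injective f hinj
    rwa [Nat.card_perm] at this
  · exfalso
    have hfix : ∀ g : G, g • P = P := fun g => by
      have hg : g ∈ f.ker := by rw [ht]; trivial
      have := congrArg (fun σ : Equiv.Perm (Sylow p G) => σ P) (MonoidHom.mem_ker.mp hg)
      simpa [f] using this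
    have hn : (P : Subgroup G).Normal := by
      rw [← Subgroup.normalizer_eq_top_iff, eq_top_iff]
      intro g _
      exact Sylow.smul_eq_iff_mem_normalizer.mp (hfix g)
    rcases hn.eq_bot_or_eq_top with h | h
    · exact h1 h
    · exact h2 h

theorem no_burnside {G : Type*} [Group G] [Finite G] [IsSimpleGroup G] {p : ℕ} [Fact p.Prime]
    (P : Sylow p G) (h1 : Nat.card P ≠ 1) (h2 : Nat.card P ≠ Nat.card G) :
    ¬ (Subgroup.normalizer ((P : Subgroup G) : Set G) ≤
      Subgroup.centralizer ((P : Subgroup G) : Set G)) := by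
  intro hP
  have hc := MonoidHom.ker_transferSylow_isComplement' P hP
  have hcard := hc.card_mul
  rcases (MonoidHom.transferSylow P hP).normal_ker.eq_bot_or_eq_top with hb | ht
  · rw [hb, Subgroup.card_bot, one_mul] at hcard
    exact h2 hcard
  · rw [ht, Subgroup.card_top] at hcard
    have hpos : 0 < Nat.card G := Nat.card_pos
    apply h1
    exact Nat.eq_of_mul_eq_mul_left hpos (by rw [hcard, mul_one])

theorem result {G : Type*} [Group G] [Finite G] [IsSimpleGroup G] (h : Nat.card G = 168) : Nat.card (Sylow 2 G) = 21 ∧ Nat.card (Sylow 3 G) = 28 ∧ Nat.card (Sylow 7 G) = 8 := by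
  classical
  haveI : Fact (Nat.Prime 2) := ⟨Nat.prime_two⟩
  haveI : Fact (Nat.Prime 3) := ⟨Nat.prime_three⟩
  haveI : Fact (Nat.Prime 7) := ⟨by norm_num⟩
  have c2 : ∀ P : Sylow 2 G, Nat.card P = 8 := fun P => by
    rw [P.card_eq_multiplicity, h, f2]; norm_num
  have c3 : ∀ P : Sylow 3 G, Nat.card P = 3 := fun P => by
    rw [P.card_eq_multiplicity, h, f3]; norm_num
  have c7 : ∀ P : Sylow 7 G, Nat.card P = 7 := fun P => by
    rw [P.card_eq_multiplicity, h, f7]; norm_num
  have nb : ∀ {p : ℕ} (P : Sylow p G) (k : ℕ), Nat.card P = k → k ≠ 1 → k ≠ 168 →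
      (P : Subgroup G) ≠ ⊥ ∧ (P : Subgroup G) ≠ ⊤ := by
    intro p P k hk h1 h2
    constructor
    · intro hb
      rw [hb] at hk
      simp at hk
      exact h1 hk.symm
    · intro ht
      rw [ht] at hk
      simp at hk
      omega
  -- index facts
  have i2 : ∀ P : Sylow 2 G, (P : Subgroup G).index = 21 := fun P => by
    have := (P : Subgroup G).card_mul_index
    rw [c2, h] at this; omega
  have i3 : ∀ P : Sylow 3 G, (P : Subgroup G).index = 56 := fun P => by
    have := (P : Subgroup G).card_mul_index
    rw [c3, h] at this; omega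
  have i7 : ∀ P : Sylow 7 G, (P : Subgroup G).index = 24 := fun P => by
    have := (P : Subgroup G).card_mul_index
    rw [c7, h] at this; omega
  obtain ⟨P2⟩ : Nonempty (Sylow 2 G) := inferInstance
  obtain ⟨P3⟩ : Nonempty (Sylow 3 G) := inferInstance
  obtain ⟨P7⟩ : Nonempty (Sylow 7 G) := inferInstance
  have d2 := dvd_fact P2 (nb P2 8 (c2 P2) (by norm_num) (by norm_num)).1
    (nb P2 8 (c2 P2) (by norm_num) (by norm_num)).2
  have d3 := dvd_fact P3 (nb P3 3 (c3 P3) (by norm_num) (by norm_num)).1
    (nb P3 3 (c3 P3) (by norm_num) (by norm_num)).2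
  have d7 := dvd_fact P7 (nb P7 7 (c7 P7) (by norm_num) (by norm_num)).1
    (nb P7 7 (c7 P7) (by norm_num) (by norm_num)).2
  rw [h] at d2 d3 d7
  have e2 := P2.card_dvd_index
  have e3 := P3.card_dvd_index
  have e7 := P7.card_dvd_index
  rw [i2] at e2
  rw [i3] at e3
  rw [i7] at e7
  have m2 := card_sylow_modEq_one 2 G
  have m3 := card_sylow_modEq_one 3 G
  have m7 := card_sylow_modEq_one 7 G
  have n7 : Nat.card (Sylow 7 G) = 8 := by
    generalize Nat.card (Sylow 7 G) = n at *
    have hle : n ≤ 24 := Nat.le_of_dvd (by norm_num) e7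
    unfold Nat.ModEq at m7
    interval_cases n <;> first | rfl | (exfalso; revert m7 e7 d7; decide)
  have n3' : Nat.card (Sylow 3 G) = 7 ∨ Nat.card (Sylow 3 G) = 28 := by
    generalize Nat.card (Sylow 3 G) = n at *
    have hle : n ≤ 56 := Nat.le_of_dvd (by norm_num) e3
    unfold Nat.ModEq at m3
    interval_cases n <;> first | (left; rfl) | (right; rfl) | (exfalso; revert m3 e3; decide) | (exfalso; revert d3; decide)
  have n2' : Nat.card (Sylow 2 G) = 7 ∨ Nat.card (Sylow 2 G) = 21 := by
    generalize Nat.card (Sylow 2 G) = n at *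
    have hle : n ≤ 21 := Nat.le_of_dvd (by norm_num) e2
    unfold Nat.ModEq at m2
    interval_cases n <;> first | (left; rfl) | (right; rfl) | (exfalso; revert m2 e2; decide) | (exfalso; revert d2; decide)
  have cN : ∀ {p : ℕ} [Fact p.Prime] (P : Sylow p G),
      Nat.card (Subgroup.normalizer ((P : Subgroup G) : Set G)) * Nat.card (Sylow p G) = 168 := by
    intro p _ P
    have h1 := P.card_eq_index_normalizer
    have h2 := (Subgroup.normalizer ((P : Subgroup G) : Set G)).card_mul_index
    rw [h] at h2
    rw [h1]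
    exact h2
  have n3 : Nat.card (Sylow 3 G) = 28 := by
    rcases n3' with h7 | h28
    · exfalso
      have hN7 : Nat.card (Subgroup.normalizer ((P7 : Subgroup G) : Set G)) = 21 := by
        have := cN P7
        rw [n7] at this; omega
      obtain ⟨x, hx⟩ := exists_prime_orderOf_dvd_card'
        (G := Subgroup.normalizer ((P7 : Subgroup G) : Set G)) 3 (by rw [hN7]; norm_num)
      have hxo : orderOf (x : G) = 3 := by rw [Subgroup.orderOf_coe]; exact hx
      let Q : Sylow 3 G := Sylow.ofCard (Subgroup.zpowers (x : G))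
        (by rw [Nat.card_zpowers, hxo, h, f3]; norm_num)
      have hQ : (Q : Subgroup G) = Subgroup.zpowers (x : G) := rfl
      have hNQ : Nat.card (Subgroup.normalizer ((Q : Subgroup G) : Set G)) = 24 := by
        have := cN Q
        rw [h7] at this; omega
      let F : ↥(P7 : Subgroup G) → Sylow 3 G := fun y => (y : G) • Q
      have hinj : Function.Injective F := by
        intro y y' hyy
        have h1 : ((y' : G)⁻¹ * (y : G)) • Q = Q := by
          rw [mul_smul]
          change (y' : G)⁻¹ • F y = Q
          rw [hyy]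
          exact inv_smul_smul _ _
        have h2 : (y' : G)⁻¹ * (y : G) ∈ Subgroup.normalizer ((Q : Subgroup G) : Set G) :=
          Sylow.smul_eq_iff_mem_normalizer.mp h1
        have h3 : orderOf ((y' : G)⁻¹ * (y : G)) ∣ 24 := by
          rw [← hNQ]; exact Subgroup.orderOf_dvd_natCard _ h2
        have h4 : orderOf ((y' : G)⁻¹ * (y : G)) ∣ 7 := by
          have := Subgroup.orderOf_dvd_natCard (P7 : Subgroup G) (mul_mem (inv_mem y'.2) y.2)
          rwa [c7 P7] at this
        have h5 : orderOf ((y' : G)⁻¹ * (y : G)) = 1 := by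
          have := Nat.dvd_gcd h3 h4
          simpa using this
        rw [orderOf_eq_one_iff, inv_mul_eq_one] at h5
        exact Subtype.ext h5.symm
      have hsurj : Function.Surjective F :=
        (Function.Injective.bijective_of_nat_card_le hinj (by rw [h7, c7])).2
      have hall : ∀ g : G, g * x * g⁻¹ ∈ Subgroup.normalizer ((P7 : Subgroup G) : Set G) := by
        intro g
        obtain ⟨y, hy⟩ := hsurj (g • Q)
        have h1 : MulAut.conj g • (x : G) ∈ MulAut.conj g • (Q : Subgroup G) :=
          Subgroup.smul_mem_pointwise_smul _ _ _ (Subgroup.mem_zpowers (x : G))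
        have h2 : ((g • Q : Sylow 3 G) : Subgroup G) = MulAut.conj g • (Q : Subgroup G) := rfl
        have h3 : ((F y : Sylow 3 G) : Subgroup G) = MulAut.conj (y : G) • (Q : Subgroup G) := rfl
        rw [← h2, ← hy, h3, Subgroup.mem_pointwise_smul_iff_inv_smul_mem] at h1
        have h4 : (MulAut.conj (y : G))⁻¹ • MulAut.conj g • (x : G) ∈
            Subgroup.normalizer ((P7 : Subgroup G) : Set G) := by
          have hle : (Q : Subgroup G) ≤ Subgroup.normalizer ((P7 : Subgroup G) : Set G) := by
            rw [hQ, Subgroup.zpowers_le]; exact x.2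
          exact hle h1
        have hyN : (y : G) ∈ Subgroup.normalizer ((P7 : Subgroup G) : Set G) :=
          Subgroup.le_normalizer y.2
        have h5 : g * x * g⁻¹ = (y : G) * ((MulAut.conj (y : G))⁻¹ • MulAut.conj g • (x : G)) *
            (y : G)⁻¹ := by
          simp only [MulAut.smul_def, MulAut.conj_apply, MulAut.conj_inv_apply]
          group
        rw [h5]
        exact mul_mem (mul_mem hyN h4) (inv_mem hyN)
      have hxc : (x : G) ∈ (Subgroup.normalizer ((P7 : Subgroup G) : Set G)).normalCore :=
        fun g => hall g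
      rcases (Subgroup.normalCore_normal
        (Subgroup.normalizer ((P7 : Subgroup G) : Set G))).eq_bot_or_eq_top with hb | ht
      · rw [hb, Subgroup.mem_bot] at hxc
        rw [hxc, orderOf_one] at hxo
        omega
      · have htop : Subgroup.normalizer ((P7 : Subgroup G) : Set G) = ⊤ :=
          top_le_iff.mp (ht ▸ Subgroup.normalCore_le _)
        rw [htop, Subgroup.card_top, h] at hN7
        omega
    · exact h28
  have n2 : Nat.card (Sylow 2 G) = 21 := by
    rcases n2' with h7 | h21
    · exfalso
      have hN2 : Nat.card (Subgroup.normalizer ((P2 : Subgroup G) : Set G)) = 24 := by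
        have := cN P2
        rw [h7] at this; omega
      obtain ⟨x, hx⟩ := exists_prime_orderOf_dvd_card'
        (G := Subgroup.normalizer ((P2 : Subgroup G) : Set G)) 3 (by rw [hN2]; norm_num)
      have hxo : orderOf (x : G) = 3 := by rw [Subgroup.orderOf_coe]; exact hx
      let Q : Sylow 3 G := Sylow.ofCard (Subgroup.zpowers (x : G))
        (by rw [Nat.card_zpowers, hxo, h, f3]; norm_num)
      have hQ : (Q : Subgroup G) = Subgroup.zpowers (x : G) := rfl
      have hNQ : Nat.card (Subgroup.normalizer ((Q : Subgroup G) : Set G)) = 6 := by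
        have := cN Q
        rw [n3] at this; omega
      have hconj : ∀ t ∈ (P2 : Subgroup G), (x : G) * t * (x : G)⁻¹ ∈ (P2 : Subgroup G) :=
        fun t ht => (Subgroup.mem_normalizer_iff.mp x.2 t).mp ht
      haveI : Fintype (P2 : Subgroup G) := Fintype.ofFinite _
      let f : Function.End (P2 : Subgroup G) := fun t => ⟨(x : G) * t * (x : G)⁻¹, hconj t t.2⟩
      have hx3 : (x : G) ^ 3 = 1 := by rw [← hxo]; exact pow_orderOf_eq_one _
      have hf3 : f ^ 3 ^ 1 = 1 := by
        rw [pow_one, pow_three]
        funext t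
        apply Subtype.ext
        change (x : G) * ((x : G) * ((x : G) * t * (x : G)⁻¹) * (x : G)⁻¹) * (x : G)⁻¹ = t
        have : (x : G) * ((x : G) * ((x : G) * t * (x : G)⁻¹) * (x : G)⁻¹) * (x : G)⁻¹ =
            (x : G) ^ 3 * t * ((x : G) ^ 3)⁻¹ := by
          simp only [pow_three, mul_inv_rev, mul_assoc]
        rw [this, hx3]; simp
      have hmod := Equiv.Perm.card_fixedPoints_modEq hf3
      obtain ⟨t, htf, ht1⟩ : ∃ t : (P2 : Subgroup G), f t = t ∧ t ≠ 1 := by
        by_contra hcon
        push_neg at hcon
        have hone : f 1 = 1 := Subtype.ext (by simp [f])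
        have hc1 : Fintype.card (Function.fixedPoints f) = 1 := by
          rw [Fintype.card_eq_one_iff]
          exact ⟨⟨1, hone⟩, fun y => Subtype.ext (hcon y.1 y.2)⟩
        rw [hc1, ← Nat.card_eq_fintype_card, c2] at hmod
        revert hmod; decide
      have hxt : (x : G) * t * (x : G)⁻¹ = t := congrArg Subtype.val htf
      have hcomm : Commute (x : G) (t : G) := by
        have : (x : G) * t = t * x := by
          calc (x : G) * t = ((x : G) * t * (x : G)⁻¹) * x := by group
            _ = t * x := by rw [hxt]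
        exact this
      have hxC : (x : G) ∈ Subgroup.centralizer ((Q : Subgroup G) : Set G) := by
        rw [Subgroup.mem_centralizer_iff]
        intro z hz
        obtain ⟨k, rfl⟩ := Subgroup.mem_zpowers_iff.mp (hQ ▸ hz)
        exact ((Commute.refl (x : G)).zpow_left k)
      have htC : (t : G) ∈ Subgroup.centralizer ((Q : Subgroup G) : Set G) := by
        rw [Subgroup.mem_centralizer_iff]
        intro z hz
        obtain ⟨k, rfl⟩ := Subgroup.mem_zpowers_iff.mp (hQ ▸ hz)
        exact (hcomm.zpow_left k)
      have hd3 : 3 ∣ Nat.card (Subgroup.centralizer ((Q : Subgroup G) : Set G)) := by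
        have := Subgroup.orderOf_dvd_natCard _ hxC
        rwa [hxo] at this
      have hd2 : 2 ∣ Nat.card (Subgroup.centralizer ((Q : Subgroup G) : Set G)) := by
        have h1 : orderOf (t : G) ∣ 2 ^ 3 := by
          have := Subgroup.orderOf_dvd_natCard _ t.2
          rw [c2] at this
          exact this
        obtain ⟨k, -, hk⟩ := (Nat.dvd_prime_pow Nat.prime_two).mp h1
        have hk0 : k ≠ 0 := by
          rintro rfl
          rw [pow_zero, orderOf_eq_one_iff] at hk
          exact ht1 (Subtype.ext hk)
        have h2 : 2 ∣ orderOf (t : G) := by rw [hk]; exact dvd_pow_self 2 hk0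
        exact h2.trans (Subgroup.orderOf_dvd_natCard _ htC)
      have hd6 : 6 ∣ Nat.card (Subgroup.centralizer ((Q : Subgroup G) : Set G)) := by omega
      have hle6 : 6 ≤ Nat.card (Subgroup.centralizer ((Q : Subgroup G) : Set G)) :=
        Nat.le_of_dvd Nat.card_pos hd6
      have hCN : Subgroup.centralizer ((Q : Subgroup G) : Set G) ≤
          Subgroup.normalizer ((Q : Subgroup G) : Set G) := Subgroup.centralizer_le_normalizer _
      have heq := Subgroup.eq_of_le_of_card_ge hCN (by rw [hNQ]; exact hle6)
      exact no_burnside Q (by rw [c3]; norm_num) (by rw [c3, h]; norm_num) (le_of_eq heq.symm)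
    · exact h21
  exact ⟨n2, n3, n7⟩

end Cfsg.Agent.S1003
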