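import Cfsg.Statements.S1012
import Cfsg.Agent.Tr.Syl3

set_option autoImplicit false
open Cfsg

namespace Cfsg.Agent.S1012

open Cfsg.Agent.Tr.Syl3

/-- A group of order 24 containing no element of order 6 is isomorphic to the symmetric group of degree 4. -/
theorem result {G : Type*} [Group G] [Finite G] (h : Nat.card G = 24) (h6 : ∀ g : G, orderOf g ≠ 6) : Nonempty (G ≃* Equiv.Perm (Fin 4)) := by
  classical
  have : Fact (Nat.Prime 3) := ⟨Nat.prime_three⟩
  have : Fact (Nat.Prime 2) := ⟨Nat.prime_two⟩
  have hno : ∀ x t : G, orderOf x = 3 → orderOf t = 2 → t * x ≠ x * t := by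
    intro x t hx ht hc
    have h1 : Commute t x := hc
    have := h1.orderOf_mul_eq_mul_orderOf_of_coprime (by rw [hx, ht]; decide)
    rw [hx, ht] at this
    exact h6 _ this
  have hcardP : ∀ P : Sylow 3 G, Nat.card P = 3 := by
    intro P
    rw [P.card_eq_multiplicity, h]
    have : (24 : ℕ).factorization 3 = 1 := by decide +kernel
    rw [this, pow_one]
  obtain ⟨P⟩ : Nonempty (Sylow 3 G) := inferInstance
  have hidx : (P : Subgroup G).index = 8 := by
    have := (P : Subgroup G).card_mul_index
    rw [hcardP P, h] at this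
    omega
  have hn1 := card_sylow_modEq_one 3 G
  have hn2 := P.card_dvd_index
  rw [hidx] at hn2
  have hn3 : Nat.card (Sylow 3 G) = 1 ∨ Nat.card (Sylow 3 G) = 4 := by
    have hle := Nat.le_of_dvd (by norm_num) hn2
    unfold Nat.ModEq at hn1
    generalize Nat.card (Sylow 3 G) = n at *
    interval_cases n <;> simp_all
  obtain ⟨x, hx⟩ := exists_prime_orderOf_dvd_card' (G := G) 3 (by rw [h]; decide)
  rcases hn3 with hn3 | hn3
  · exfalso
    have hsub : Subsingleton (Sylow 3 G) := (Nat.card_eq_one_iff_unique.1 hn3).1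
    have hN : (P : Subgroup G).Normal := Sylow.normal_of_subsingleton P
    obtain ⟨t, ht, htc⟩ := exists_involution_commute (P : Subgroup G) (hcardP P) (by rw [h]; decide)
    obtain ⟨y, hy⟩ := exists_prime_orderOf_dvd_card' (G := (P : Subgroup G)) 3 (by rw [hcardP P])
    exact hno (y : G) t (by rw [Subgroup.orderOf_coe, hy]) ht (htc y y.2)
  · let φ := MulAction.toPermHom G (Sylow 3 G)
    have hk3 : ¬ 3 ∣ Nat.card φ.ker := not_dvd_card_ker hcardP (by rw [hn3]; decide)
    have hnorm : Nat.card (Subgroup.normalizer ((P : Subgroup G) : Set G)) = 6 := by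
      have h1 := (Subgroup.normalizer ((P : Subgroup G) : Set G)).card_mul_index
      have h2 : (Subgroup.normalizer ((P : Subgroup G) : Set G)).index = 4 :=
        P.card_eq_index_normalizer.symm.trans hn3
      rw [h2, h] at h1
      omega
    have hk6 : Nat.card φ.ker ∣ 6 := by
      rw [← hnorm]
      exact Subgroup.card_dvd_of_le (ker_le_normalizer P)
    have hk : Nat.card φ.ker = 1 ∨ Nat.card φ.ker = 2 := by
      have hle := Nat.le_of_dvd (by norm_num) hk6
      generalize Nat.card φ.ker = n at *
      interval_cases n <;> simp_all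
    have hker : φ.ker = ⊥ := by
      rcases hk with hk | hk
      · exact Subgroup.card_eq_one.1 hk
      · exfalso
        obtain ⟨t, ht⟩ := exists_prime_orderOf_dvd_card' (G := φ.ker) 2 (by rw [hk])
        have ht1 : t ≠ 1 := by
          intro h1
          rw [h1, orderOf_one] at ht
          exact absurd ht (by decide)
        have hall : ∀ u : φ.ker, u = 1 ∨ u = t := by
          intro u
          by_contra hcon
          push Not at hcon
          have h3 : 2 < Nat.card φ.ker := by
            have : Fintype φ.ker := Fintype.ofFinite _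
            rw [Nat.card_eq_fintype_card]
            exact Fintype.two_lt_card_iff.2 ⟨1, t, u, ht1.symm, hcon.1.symm, hcon.2.symm⟩
          omega
        apply hno x (t : G) hx (by rw [Subgroup.orderOf_coe, ht])
        have hconj : x⁻¹ * (t : G) * x⁻¹⁻¹ ∈ φ.ker := (inferInstance : φ.ker.Normal).conj_mem _ t.2 _
        rcases hall ⟨_, hconj⟩ with h1 | h1
        · exfalso
          apply ht1
          have h2 : x⁻¹ * (t : G) * x⁻¹⁻¹ = 1 := congrArg Subtype.val h1
          apply Subtype.ext
          have : (t : G) = x * (x⁻¹ * (t : G) * x⁻¹⁻¹) * x⁻¹ := by group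
          rw [this, h2]; simp
        · have h2 : x⁻¹ * (t : G) * x⁻¹⁻¹ = t := congrArg Subtype.val h1
          calc (t : G) * x = x * (x⁻¹ * (t : G) * x⁻¹⁻¹) := by group
            _ = x * t := by rw [h2]
    have hinj : Function.Injective φ := (MonoidHom.ker_eq_bot_iff φ).1 hker
    have hcardS : Nat.card (Equiv.Perm (Sylow 3 G)) = 24 := by
      have : Fintype (Sylow 3 G) := Fintype.ofFinite _
      rw [Nat.card_eq_fintype_card, Fintype.card_perm, ← Nat.card_eq_fintype_card, hn3]
      rfl
    have hbij : Function.Bijective φ :=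
      (Nat.bijective_iff_injective_and_card φ).2 ⟨hinj, by rw [h, hcardS]⟩
    have e1 : G ≃* Equiv.Perm (Sylow 3 G) := MulEquiv.ofBijective φ hbij
    have e2 : Sylow 3 G ≃ Fin 4 := (Finite.equivFinOfCardEq hn3)
    exact ⟨e1.trans (Equiv.permCongrHom e2)⟩

end Cfsg.Agent.S1012
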