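import Cfsg.Statements.S0933
import Mathlib
import Cfsg.Agent.H25.IndCentral
import Cfsg.Agent.CharLib.Degree
import Cfsg.Agent.BlockLib.LocalRing

set_option autoImplicit false
open Cfsg

namespace Cfsg.Agent.S0933

open Classical in
/-- the induced central character as a sum of central characters over classes of `H` -/
theorem inducedCentralChar_eq_sum {G : Type*} [Group G] [Fintype G] (H : Subgroup G)
    (ξ : Cfsg.IrrCharacter H) (g : G) :
    Cfsg.inducedCentralChar H (ξ : H → ℂ) g = ∑ C : ConjClasses H,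
      (if IsConj g ((Quotient.out C : H) : G) then
        Cfsg.centralChar (ξ : H → ℂ) (Quotient.out C) else 0) := by
  rw [H25.inducedCentralChar_eq, Finset.sum_div]
  rw [CharLib.sum_eq_sum_conjClasses (fun h : H => (if IsConj g (h : G) then (ξ : H → ℂ) h else 0) /
    (ξ : H → ℂ) 1)]
  · refine Finset.sum_congr rfl fun C _ => ?_
    split_ifs
    · unfold Cfsg.centralChar
      ring
    · simp
  · intro h c
    have h1 : IsConj g ((c * h * c⁻¹ : H) : G) ↔ IsConj g (h : G) := by
      have hz : IsConj (h : G) ((c * h * c⁻¹ : H) : G) := isConj_iff.2 ⟨(c : G), by simp⟩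
      exact ⟨fun h => h.trans hz.symm, fun h => h.trans hz⟩
    simp only [h1, CharLib.isClassFunction_of_irr ξ.2 h c]

/-- Let H be a subgroup of the finite group G and ξ an irreducible character of H such that the induced function ξ^G is an irreducible character of G. Then, relative to any maximal ideal M of the algebraic integers containing the prime p, the block of ξ induces the block of ξ^G. -/
theorem result {G : Type*} [Group G] [Fintype G] (p : ℕ) [Fact p.Prime] (M : Ideal Cfsg.AlgInt) (hM : Cfsg.IsPModular p M) (H : Subgroup G) (ξ : Cfsg.IrrCharacter H) (hind : Cfsg.IsIrrCharacter G (Cfsg.indFun H (ξ : H → ℂ))) : Cfsg.IsInducedBlock M H (Cfsg.blockOf M (ξ : H → ℂ)) (Cfsg.blockOf M (Cfsg.indFun H (ξ : H → ℂ))) := by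
  classical
  have hprime : M.IsPrime := BlockLib.isPrime_of_isPModular hM
  have htop : M ≠ ⊤ := BlockLib.ne_top_of_isPModular hM
  refine ⟨⟨ξ, rfl⟩, ⟨⟨_, hind⟩, rfl⟩, ?_⟩
  intro ξ' hξ' χ' hχ' g
  have h1 : Cfsg.inducedCentralChar H (ξ' : H → ℂ) g - Cfsg.centralChar (χ' : G → ℂ) g =
      (Cfsg.inducedCentralChar H (ξ' : H → ℂ) g - Cfsg.inducedCentralChar H (ξ : H → ℂ) g) +
      (Cfsg.centralChar (Cfsg.indFun H (ξ : H → ℂ)) g - Cfsg.centralChar (χ' : G → ℂ) g) := by
    rw [← H25.inducedCentralChar_eq_centralChar]; ring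
  rw [h1]
  apply BlockLib.memLocalIdeal_add _ (hχ' g)
  rw [inducedCentralChar_eq_sum, inducedCentralChar_eq_sum, ← Finset.sum_sub_distrib]
  apply BlockLib.memLocalIdeal_sum
  intro C _
  split_ifs
  · have := BlockLib.memLocalIdeal_neg (hξ' (Quotient.out C))
    rwa [neg_sub] at this
  · rw [sub_zero]; exact BlockLib.memLocalIdeal_zero htop

end Cfsg.Agent.S0933
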