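import Mathlib
import Cfsg.Prelude.Def_Blocks
import Cfsg.Agent.BlockLib.KG.Transport
import Cfsg.Agent.S0918

set_option autoImplicit false

namespace Cfsg.Agent.S0919

open Cfsg Cfsg.Agent.H6 Cfsg.Agent.BlockLib Cfsg.Agent.CharLib

theorem result {G : Type*} [Group G] [Finite G] (p : ℕ) [Fact p.Prime] (M : Ideal Cfsg.AlgInt) (hM : Cfsg.IsPModular p M) (P H : Subgroup G) (hP : IsPGroup p P) (hPH : P ≤ H) (hCH : Subgroup.centralizer (P : Set G) ≤ H) (hHN : H ≤ Subgroup.normalizer (P : Set G)) (b : Set (Cfsg.IrrCharacter H)) (hb : Cfsg.IsPBlock M b) : Cfsg.InducedBlockDefined M H b := by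
  classical
  cases nonempty_fintype G
  letI : Fintype H := Fintype.ofFinite H
  haveI hprime := isPrime_of_isPModular hM
  haveI : CharP (ResField M) p := charP_resField hM
  have hne := ne_top_of_isPModular hM
  set ε := epsS M H b with hεdef
  have hε : CA.IsBlk H ε := isBlk_epsS hb
  have hbr : ∀ z ∈ (CA.cen (⊤ : Subgroup G) : Subalgebra (ResField M) (CA (ResField M) G)),
      CA.br P z ∈ (CA.cen H : Subalgebra (ResField M) (CA (ResField M) G)) := by
    intro z hz
    exact ⟨CA.supp_mono hCH (CA.br_mem_supp P z), CA.br_mem_fix hHN (CA.fix_anti le_top hz.2)⟩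
  have hfixP : ∀ z ∈ (CA.cen (⊤ : Subgroup G) : Subalgebra (ResField M) (CA (ResField M) G)),
      z ∈ (CA.fix P : Subalgebra (ResField M) (CA (ResField M) G)) :=
    fun z hz => CA.fix_anti le_top hz.2
  let Λ : (CA.cen (⊤ : Subgroup G) : Subalgebra (ResField M) (CA (ResField M) G)) →+* ResField M :=
    { toFun := fun z => CA.lam H ε (CA.br P (z : CA (ResField M) G))
      map_one' := by
        show CA.lam H ε (CA.br P (1 : CA (ResField M) G)) = 1
        rw [CA.br_one, CA.lam_one hε]
      map_mul' := fun z w => by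
        show CA.lam H ε (CA.br P ((z : CA (ResField M) G) * (w : CA (ResField M) G))) = _
        rw [CA.br_mul hP (hfixP z z.2) (hfixP w w.2), CA.lam_mul hε (hbr z z.2) (hbr w w.2)]
      map_zero' := by
        show CA.lam H ε (CA.br P (0 : CA (ResField M) G)) = 0
        rw [map_zero, CA.lam_zero hε]
      map_add' := fun z w => by
        show CA.lam H ε (CA.br P ((z : CA (ResField M) G) + (w : CA (ResField M) G))) = _
        rw [map_add, CA.lam_add hε (hbr z z.2) (hbr w w.2)] }
  have hΛ : ∀ z, Λ z = CA.lam H ε (CA.br P (z : CA (ResField M) G)) := fun z => rfl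
  have hΛsmul : ∀ (c : ResField M) z, Λ (c • z) = c * Λ z := by
    intro c z
    rw [hΛ, hΛ]
    show CA.lam H ε (CA.br P (c • (z : CA (ResField M) G))) = _
    rw [map_smul, CA.lam_smul hε (hbr z z.2)]
  let E : Set (IrrCharacter G) →
      (CA.cen (⊤ : Subgroup G) : Subalgebra (ResField M) (CA (ResField M) G)) :=
    fun B => ⟨eps M B, eps_mem_cen B⟩
  have hsumE : ∑ B ∈ pblocks M G, E B = 1 := by
    apply Subtype.ext
    rw [AddSubmonoidClass.coe_finset_sum]
    exact sum_eps_pblocks
  obtain ⟨B, hBmem, hB0⟩ : ∃ B ∈ pblocks M G, Λ (E B) ≠ 0 := by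
    by_contra hcon
    push Not at hcon
    have h1 : Λ (∑ B ∈ pblocks M G, E B) = 0 := by
      rw [map_sum]; exact Finset.sum_eq_zero hcon
    rw [hsumE, map_one] at h1
    exact one_ne_zero h1
  have hB : IsPBlock M B := mem_pblocks.mp hBmem
  have hB1 : Λ (E B) = 1 := by
    have h1 : E B * E B = E B := Subtype.ext (eps_mul_self hB)
    have h2 : Λ (E B) * Λ (E B) = Λ (E B) := by rw [← map_mul, h1]
    exact mul_left_cancel₀ hB0 (by rw [h2, mul_one])
  have key : ∀ χ ∈ B, ∀ f : G → ℂ, ∀ hf : IsClassFunction G f, RVal M f →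
      Λ ⟨red M f, red_mem_cen hf⟩ = redS M (omega (χ : G → ℂ) f) := by
    intro χ hχ f hf hfR
    obtain ⟨n, hn⟩ := isNilpotent_red_mul_eps hB hχ hf hfR
    have hnil : IsNilpotent ((⟨red M f, red_mem_cen hf⟩ : (CA.cen (⊤ : Subgroup G) :
        Subalgebra (ResField M) (CA (ResField M) G))) * E B -
        redS M (omega (χ : G → ℂ) f) • E B) := by
      refine ⟨n, Subtype.ext ?_⟩
      exact hn
    have h1 := (hnil.map Λ).eq_zero
    rw [map_sub, map_mul, hΛsmul, hB1, mul_one, mul_one, sub_eq_zero] at h1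
    exact h1
  refine ⟨B, (Cfsg.Agent.S0918.result p M hM P H hP hPH hCH hHN b hb B hB).mpr ?_⟩
  intro ξ hξ χ hχ g
  -- the class function on H
  let f' : H → ℂ := fun h =>
    if IsConj g (h : G) ∧ (h : G) ∈ Subgroup.centralizer (P : Set G) then 1 else 0
  have hconjC : ∀ (k h : H), (h : G) ∈ Subgroup.centralizer (P : Set G) →
      ((k * h * k⁻¹ : H) : G) ∈ Subgroup.centralizer (P : Set G) := by
    intro k h hh
    rw [Subgroup.mem_centralizer_iff] at hh ⊢
    intro u hu
    have hu' : (k : G)⁻¹ * u * (k : G)⁻¹⁻¹ ∈ P :=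
      (Subgroup.mem_normalizer_iff.mp (Subgroup.inv_mem _ (hHN k.2)) u).mp hu
    have h1 := hh _ hu'
    simp only [Subgroup.coe_mul, Subgroup.coe_inv]
    calc u * ((k : G) * (h : G) * (k : G)⁻¹)
        = (k : G) * (((k : G)⁻¹ * u * (k : G)⁻¹⁻¹) * (h : G)) * (k : G)⁻¹ := by group
      _ = (k : G) * ((h : G) * ((k : G)⁻¹ * u * (k : G)⁻¹⁻¹)) * (k : G)⁻¹ := by rw [h1]
      _ = (k : G) * (h : G) * (k : G)⁻¹ * u := by group
  have hf'cf : IsClassFunction H f' := by
    intro h k
    have h1 : IsConj g ((k * h * k⁻¹ : H) : G) ↔ IsConj g (h : G) := by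
      have hc : IsConj (h : G) ((k * h * k⁻¹ : H) : G) := isConj_iff.mpr ⟨(k : G), by simp⟩
      exact ⟨fun h' => h'.trans hc.symm, fun h' => h'.trans hc⟩
    have h2 : ((k * h * k⁻¹ : H) : G) ∈ Subgroup.centralizer (P : Set G) ↔
        (h : G) ∈ Subgroup.centralizer (P : Set G) := by
      refine ⟨fun hh => ?_, hconjC k h⟩
      have := hconjC k⁻¹ (k * h * k⁻¹) hh
      have h3 : k⁻¹ * (k * h * k⁻¹) * k⁻¹⁻¹ = h := by group
      rwa [h3] at this
    simp only [f', h1, h2]
  have hf'R : RVal M f' := by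
    intro h
    show MemLocalRing M (if _ then 1 else 0)
    split_ifs
    · exact memLocalRing_one hne
    · exact memLocalRing_zero hne
  have hcR : RVal M (classInd g) := by
    intro x
    rw [classInd_apply]
    split_ifs
    · exact memLocalRing_one hne
    · exact memLocalRing_zero hne
  have hbrred : CA.br P (red M (classInd g)) = CA.ext0 H (red M f') := by
    ext x
    by_cases hx : x ∈ Subgroup.centralizer (P : Set G)
    · rw [CA.br_apply_of_mem _ hx, CA.ext0_apply_mem H _ (hCH hx), red_apply, red_apply,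
        classInd_apply]
      show _ = redS M (if IsConj g x ∧ x ∈ Subgroup.centralizer (P : Set G) then 1 else 0)
      by_cases hc : IsConj g x
      · rw [if_pos hc, if_pos ⟨hc, hx⟩]
      · rw [if_neg hc, if_neg (fun h => hc h.1)]
    · rw [CA.br_apply_of_not_mem _ hx]
      by_cases hxH : x ∈ H
      · rw [CA.ext0_apply_mem H _ hxH, red_apply]
        show _ = redS M (if IsConj g x ∧ x ∈ Subgroup.centralizer (P : Set G) then 1 else 0)
        rw [if_neg (fun h => hx h.2), redS_zero]
      · rw [CA.ext0_apply_not_mem H _ hxH]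
  have h1 := key χ hχ (classInd g) (isClassFunction_classInd g) hcR
  rw [hΛ] at h1
  simp only at h1
  rw [hbrred, lam_epsS hb hξ hf'cf hf'R, omega_classInd (isClassFunction_of_irr χ.2)] at h1
  have hom : omega (ξ : H → ℂ) f' = brauerCentralChar P H (ξ : H → ℂ) g := by
    rw [brauerCentralChar, Cfsg.Agent.S0918.finsum_mem_eq_sum_ite, omega, Finset.sum_div]
    refine Finset.sum_congr rfl fun h _ => ?_
    show (if IsConj g (h : G) ∧ (h : G) ∈ Subgroup.centralizer (P : Set G) then (1 : ℂ) else 0) *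
        (ξ : H → ℂ) h / (ξ : H → ℂ) 1 =
      (if IsConj g (h : G) ∧ (h : G) ∈ Subgroup.centralizer (P : Set G) then
        (ξ : H → ℂ) h / (ξ : H → ℂ) 1 else 0)
    split_ifs <;> ring
  rw [hom] at h1
  rw [← redS_eq_iff _ (memLocalRing_of_isIntegral hne (isIntegral_centralChar_irr χ.2 g))]
  · exact h1
  · rw [← hom]
    exact memLocalRing_omega ξ.2 hf'cf hf'R

end Cfsg.Agent.S0919
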