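import Cfsg.Statements.S0971
import Cfsg.Agent.H25.Cover2
import Cfsg.Agent.S0919

set_option autoImplicit false
open Cfsg

namespace Cfsg.Agent.S0971

/-- Let Q be a normal p-subgroup of the finite group G, let N = Q ⊔ C_G(Q) (a normal subgroup) and let b be a block of N relative to a maximal ideal M of the algebraic integers containing p. Then b induces some block of G, and every block B of G containing a character whose restriction to N has a constituent in b is induced by b. -/
theorem result {G : Type*} [Group G] [Fintype G] (p : ℕ) [Fact p.Prime] (M : Ideal Cfsg.AlgInt) (hM : Cfsg.IsPModular p M) (Q : Subgroup G) [Q.Normal] (hQ : IsPGroup p Q) [Fintype ↥(Q ⊔ Subgroup.centralizer (Q : Set G))] (b : Set (Cfsg.IrrCharacter ↥(Q ⊔ Subgroup.centralizer (Q : Set G)))) (hb : Cfsg.IsPBlock M b) : Cfsg.InducedBlockDefined M (Q ⊔ Subgroup.centralizer (Q : Set G)) b ∧ ∀ B : Set (Cfsg.IrrCharacter G), Cfsg.IsPBlock M B → (∃ χ ∈ B, ∃ θ ∈ b, Cfsg.classInner (fun n : ↥(Q ⊔ Subgroup.centralizer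 (Q : Set G)) => (χ : G → ℂ) n) (θ : ↥(Q ⊔ Subgroup.centralizer (Q : Set G)) → ℂ) ≠ 0) → Cfsg.IsInducedBlock M (Q ⊔ Subgroup.centralizer (Q : Set G)) b B := by
  open Cfsg.Agent.BlockLib Cfsg.Agent.H25 Cfsg.Agent.CharLib in
  have hP' : M.IsPrime := isPrime_of_isPModular hM
  have hch : CharP (ResField M) p := charP_resField hM
  have hQn : Q.Normal := inferInstance
  have hQN : Q ≤ Q ⊔ Subgroup.centralizer (Q : Set G) := le_sup_left
  have hCN : Subgroup.centralizer (Q : Set G) ≤ Q ⊔ Subgroup.centralizer (Q : Set G) := le_sup_right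
  have htop : (⊤ : Subgroup G) ≤ Subgroup.normalizer (Q : Set G) := by
    rw [Subgroup.normalizer_eq_top]
  have hNN : Q ⊔ Subgroup.centralizer (Q : Set G) ≤ Subgroup.normalizer (Q : Set G) :=
    le_top.trans htop
  have hnorm : (Q ⊔ Subgroup.centralizer (Q : Set G)).Normal := inferInstance
  refine ⟨Cfsg.Agent.S0919.result p M hM Q _ hQ hQN hCN hNN b hb, ?_⟩
  intro B hB hcov
  have hεB := isBlk_eps hB
  have hs : eps M B ∈ CA.supp (Subgroup.centralizer (Q : Set G)) :=
    CA.idem_mem_supp_centralizer hQ le_top htop hεB.mem hεB.idem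
  rw [isInducedBlock_iff_lam_br hM hQ hQN hCN hNN hb hB, CA.br_eq_self hs]
  have hs' : eps M B ∈ CA.supp (Q ⊔ Subgroup.centralizer (Q : Set G)) := CA.supp_mono hCN hs
  rw [← CA.mul_eq_self_iff_lam (isBlk_epsS hb) (mem_cen_of_mem_cen_top hεB.mem hs') hεB.idem]
  exact mul_eq_of_covers_of_supp hB hb hcov hs'

end Cfsg.Agent.S0971
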