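import Cfsg.Statements.S4436
import Cfsg.Agent.H25.FongReynolds2
import Cfsg.Agent.S0917
import Cfsg.Agent.Lib.Helper23.MinMax

set_option autoImplicit false
open Cfsg

namespace Cfsg.Agent.S4436

/-- Let N be a normal subgroup of the finite group G, b a block of N (relative to a maximal ideal M of the algebraic integers containing p), T the stabilizer of b in G, N ≤ T, and B′ a block of T covering b (some member of B′ has a constituent in b on restriction to N) that induces the block B of G. Then every defect group of B′ is a defect group of B, and for every ψ ∈ B′ the induced character ψ^G is an irreducible character of G lying in B with the same height as ψ. -/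
theorem result {G : Type*} [Group G] [Fintype G] (p : ℕ) [Fact p.Prime] (M : Ideal Cfsg.AlgInt) (hM : Cfsg.IsPModular p M) (N : Subgroup G) [hN : N.Normal] [Fintype N] (b : Set (Cfsg.IrrCharacter N)) (hb : Cfsg.IsPBlock M b) (T : Subgroup G) [Fintype T] (hT : ∀ g : G, g ∈ T ↔ ∀ θ ∈ b, ∀ θ' : Cfsg.IrrCharacter N, (∀ n : N, (θ' : N → ℂ) n = (θ : N → ℂ) ⟨g * n * g⁻¹, hN.conj_mem n n.2 g⟩) → θ' ∈ b) (hNT : N ≤ T) (B' : Set (Cfsg.IrrCharacter T)) (hB' : Cfsg.IsPBlock M B') (hcov : (∃ ψ ∈ B', ∃ θ ∈ b, Cfsg.classInner (fun n : N => (ψ : T → ℂ) ⟨(n : G), hNT n.2⟩) (θ : N → ℂ) ≠ 0)) (B : Set (Cfsg.IrrCharacter G)) (hind : Cfsg.IsInducedBlock M T B' B) : (∀ D : Subgroup T, Cfsg.IsDefectGroup p M B' D → Cfsg.IsDefectGroup p M B (D.map T.subtype)) ∧ ∀ ψ ∈ B', ∃ χ ∈ B, (χ : G → ℂ) = Cfsg.indFun T (ψ : T → ℂ) ∧ Cfsg.blockHeight p B (χ : G → ℂ) = Cfsg.blockHeight p B' (ψ : T → ℂ) := by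
  classical
  have hPr := Cfsg.Agent.BlockLib.isPrime_of_isPModular hM
  have hp := hM.1
  have hT' : Cfsg.Agent.H25.IsStab T b := hT
  have hcov' : Cfsg.Agent.H25.CoversLe hNT B' b := hcov
  have hB := hind.2.1
  have hmem := hcov'.mem_iff hM hT' hb hNT hB' hind
  -- degrees
  have hdeg : ∀ (χ : Cfsg.IrrCharacter G) (ψ : Cfsg.IrrCharacter T),
      (χ : G → ℂ) = Cfsg.indFun T (ψ : T → ℂ) →
      (Cfsg.charDegree (χ : G → ℂ)).factorization p =
        T.index.factorization p + (Cfsg.charDegree (ψ : T → ℂ)).factorization p := by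
    intro χ ψ h
    have h1 : Cfsg.charDegree (χ : G → ℂ) = T.index * Cfsg.charDegree (ψ : T → ℂ) := by
      have h2 : ((Cfsg.charDegree (χ : G → ℂ) : ℕ) : ℂ) =
          ((T.index * Cfsg.charDegree (ψ : T → ℂ) : ℕ) : ℂ) := by
        push_cast
        rw [Cfsg.Agent.Lib.Helper23.charDegree_cast_irr, Cfsg.Agent.Lib.Helper23.charDegree_cast_irr,
          h, Cfsg.Agent.CharLib.H2.indFun_apply_one]
      exact_mod_cast h2
    rw [h1, Nat.factorization_mul Subgroup.index_ne_zero_of_finite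
      (Cfsg.Agent.Lib.Helper23.charDegree_pos_irr ψ).ne']
    rfl
  have hmin : Cfsg.Agent.Lib.Helper23.MinMax.minExp p B =
      T.index.factorization p + Cfsg.Agent.Lib.Helper23.MinMax.minExp p B' := by
    apply le_antisymm
    · obtain ⟨ψ₁, hψ₁, h1⟩ := Cfsg.Agent.Lib.Helper23.MinMax.exists_minExp (p := p)
        (Cfsg.Agent.BlockLib.pb_nonempty hB')
      have hirr := hcov'.irr_indFun hT' hb hNT hB' hψ₁
      have h2 : (⟨_, hirr⟩ : Cfsg.IrrCharacter G) ∈ B := (hmem _).2 ⟨ψ₁, hψ₁, rfl⟩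
      have h3 := Cfsg.Agent.Lib.Helper23.MinMax.minExp_le (p := p) h2
      rw [hdeg ⟨_, hirr⟩ ψ₁ rfl, h1] at h3
      exact h3
    · obtain ⟨χ₀, hχ₀, h1⟩ := Cfsg.Agent.Lib.Helper23.MinMax.exists_minExp (p := p)
        (Cfsg.Agent.BlockLib.pb_nonempty hB)
      obtain ⟨ψ₀, hψ₀, h2⟩ := (hmem χ₀).1 hχ₀
      rw [← h1, hdeg χ₀ ψ₀ h2]
      exact Nat.add_le_add_left (Cfsg.Agent.Lib.Helper23.MinMax.minExp_le hψ₀) _
  refine ⟨?_, ?_⟩
  · intro D hD
    obtain ⟨E, hE, hle⟩ := Cfsg.Agent.S0917.result p M hM T B' hB' B hB hind D hD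
    have c1 := Cfsg.Agent.Lib.Helper23.MinMax.card_of_isDefectGroup hM hB' hD
    have c2 := Cfsg.Agent.Lib.Helper23.MinMax.card_of_isDefectGroup hM hB hE
    have hd : Cfsg.blockDefect p B = Cfsg.blockDefect p B' := by
      rw [Cfsg.Agent.Lib.Helper23.MinMax.blockDefect_eq, Cfsg.Agent.Lib.Helper23.MinMax.blockDefect_eq,
        hmin]
      have e1 := congrArg (fun n => n.factorization p) (Subgroup.card_mul_index T)
      simp only [Nat.factorization_mul Nat.card_pos.ne' Subgroup.index_ne_zero_of_finite,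
        Finsupp.add_apply] at e1
      omega
    have c3 : Nat.card (D.map T.subtype) = Nat.card D :=
      Subgroup.card_map_of_injective (Subgroup.subtype_injective _)
    have : D.map T.subtype = E :=
      Subgroup.eq_of_le_of_card_ge hle (by rw [c3, c1, c2, hd])
    rw [this]
    exact hE
  · intro ψ hψ
    have hirr := hcov'.irr_indFun hT' hb hNT hB' hψ
    refine ⟨⟨_, hirr⟩, (hmem _).2 ⟨ψ, hψ, rfl⟩, rfl, ?_⟩
    have h1 := hdeg ⟨_, hirr⟩ ψ rfl
    change (Cfsg.charDegree (Cfsg.indFun T (ψ : T → ℂ))).factorization p -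
      Cfsg.Agent.Lib.Helper23.MinMax.minExp p B =
      (Cfsg.charDegree (ψ : T → ℂ)).factorization p - Cfsg.Agent.Lib.Helper23.MinMax.minExp p B'
    change (Cfsg.charDegree (Cfsg.indFun T (ψ : T → ℂ))).factorization p = _ at h1
    rw [h1, hmin]
    omega

end Cfsg.Agent.S4436
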