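import Cfsg.Statements.S0543
import Mathlib
import Cfsg.Agent.S0004
import Cfsg.Agent.S0007

set_option autoImplicit false
open Pointwise
open Cfsg

namespace Cfsg.Agent.S0543

open Subgroup in
theorem index_iInf {G : Type*} [Group G] [Finite G] (L : Nat.Primes → Subgroup G)
    (hL : Cfsg.IsComplementSystem L) (T : Finset Nat.Primes) :
    (⨅ p ∈ T, L p).index = ∏ p ∈ T, (p : ℕ) ^ (Nat.card G).factorization p := by
  induction T using Finset.induction_on with
  | empty => simp
  | insert q T hq ih =>
    rw [Finset.iInf_insert, Finset.prod_insert hq]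
    have hc : (L q).index.Coprime (⨅ p ∈ T, L p).index := by
      rw [ih, hL q]
      apply Nat.Coprime.prod_right
      intro p hp
      apply Nat.coprime_pow_primes _ _ q.2 p.2
      intro e
      exact hq ((Subtype.ext e : q = p) ▸ hp)
    rw [(Cfsg.Agent.S0007.result _ _ hc).1, ih, hL q]

open Subgroup in
theorem card_of_index {G : Type*} [Group G] [Finite G] (H : Subgroup G) (q : ℕ)
    (h : H.index = q ^ (Nat.card G).factorization q) :
    Nat.card H = Nat.card G / q ^ (Nat.card G).factorization q := by
  have h1 := H.card_mul_index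
  rw [h] at h1
  have hpos : 0 < q ^ (Nat.card G).factorization q := by
    rw [← h]
    exact Nat.pos_of_ne_zero index_ne_zero_of_finite
  exact (Nat.div_eq_of_eq_mul_left hpos h1.symm).symm

open Subgroup Pointwise in
theorem conj_finset {G : Type*} [Group G] [Finite G] [Group.IsSolvable G]
    (K L : Nat.Primes → Subgroup G) (hK : Cfsg.IsComplementSystem K)
    (hL : Cfsg.IsComplementSystem L) (T : Finset Nat.Primes) :
    ∃ g : G, ∀ p ∈ T, MulAut.conj g • K p = L p := by
  induction T using Finset.induction_on with
  | empty => exact ⟨1, by simp⟩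
  | insert q T hq ih =>
    obtain ⟨g, hg⟩ := ih
    have hc : (L q).index.Coprime (⨅ p ∈ T, L p).index := by
      rw [index_iInf L hL, hL q]
      apply Nat.Coprime.prod_right
      intro p hp
      apply Nat.coprime_pow_primes _ _ q.2 p.2
      intro e
      exact hq ((Subtype.ext e : q = p) ▸ hp)
    obtain ⟨x₀, hx₀⟩ := Cfsg.Agent.S0004.result (G := G)
      (Nat.card G / (q : ℕ) ^ (Nat.card G).factorization q)
      ((q : ℕ) ^ (Nat.card G).factorization q)
      (Nat.div_mul_cancel (Nat.ordProj_dvd _ _)).symm
      ((Nat.coprime_ordCompl q.2 Nat.card_pos.ne').symm.pow_right _)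
      (K q) (L q) (card_of_index _ _ (hK q)) (card_of_index _ _ (hL q))
    obtain ⟨l, hl, d, hd, e⟩ := (Cfsg.Agent.S0007.result _ _ hc).2 (x₀ * g⁻¹)
    refine ⟨d * g, ?_⟩
    intro p hp
    rw [Finset.mem_insert] at hp
    rcases hp with rfl | hp
    · have : d * g = l⁻¹ * x₀ := by
        rw [eq_inv_mul_iff_mul_eq, ← mul_assoc, ← e]
        group
      rw [this, map_mul, mul_smul, hx₀, Subgroup.conj_smul_eq_self_of_mem (inv_mem hl)]
    · rw [map_mul, mul_smul, hg p hp, conj_smul_eq_self_of_mem]
      exact (Subgroup.mem_iInf.1 ((Subgroup.mem_iInf.1 hd) p)) hp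

/-- In a finite solvable group any two Hall complement systems are simultaneously conjugate: one element conjugates every member of the first system to the corresponding member of the second. -/
theorem result {G : Type*} [Group G] [Finite G] [Group.IsSolvable G] (K L : Nat.Primes → Subgroup G) (hK : Cfsg.IsComplementSystem K) (hL : Cfsg.IsComplementSystem L) : ∃ g : G, ∀ p : Nat.Primes, MulAut.conj g • K p = L p := by
  classical
  have hfin : Set.Finite {p : Nat.Primes | (p : ℕ) ∣ Nat.card G} := by
    apply Set.Finite.of_injOn (f := fun p : Nat.Primes => (p : ℕ))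
      (t := ((Nat.card G).divisors : Set ℕ))
    · intro p hp
      simp only [Finset.mem_coe, Nat.mem_divisors]
      exact ⟨hp, Nat.card_pos.ne'⟩
    · intro p _ q _ h
      exact Subtype.ext h
    · exact Finset.finite_toSet _
  obtain ⟨g, hg⟩ := conj_finset K L hK hL hfin.toFinset
  refine ⟨g, fun p => ?_⟩
  by_cases hp : (p : ℕ) ∣ Nat.card G
  · exact hg p (by simpa using hp)
  · have h0 : (Nat.card G).factorization p = 0 := Nat.factorization_eq_zero_of_not_dvd hp
    have h1 := hK p
    have h2 := hL p
    rw [h0, pow_zero, Subgroup.index_eq_one] at h1 h2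
    rw [h1, h2]
    exact Subgroup.Normal.conj_smul_eq_self _ _

end Cfsg.Agent.S0543
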