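import Cfsg.Statements.S0572
import Mathlib
import Cfsg.Agent.H1.Ito

set_option autoImplicit false
open Cfsg

namespace Cfsg.Agent.S0572

open Subgroup
open scoped Pointwise commutatorElement

/-- Itô's Theorem: if a group G is the product AB of two abelian subgroups, then the commutator subgroup of G is abelian, i.e. the second term of the derived series is trivial. -/
theorem result {G : Type*} [Group G] (A B : Subgroup G) [IsMulCommutative A] [IsMulCommutative B] (hAB : ∀ g : G, ∃ a ∈ A, ∃ b ∈ B, g = a * b) : derivedSeries G 2 = ⊥ := by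
  have hA' : IsMulCommutative A := inferInstance
  have hB' : IsMulCommutative B := inferInstance
  have hA : ∀ x ∈ A, ∀ y ∈ A, x * y = y * x := fun x hx y hy =>
    congrArg Subtype.val ((isMulCommutative_iff.1 hA') ⟨x, hx⟩ ⟨y, hy⟩)
  have hB : ∀ x ∈ B, ∀ y ∈ B, x * y = y * x := fun x hx y hy =>
    congrArg Subtype.val ((isMulCommutative_iff.1 hB') ⟨x, hx⟩ ⟨y, hy⟩)
  have hNc : IsMulCommutative (⁅A, B⁆ : Subgroup G) := by
    rw [Subgroup.commutator_def]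
    apply isMulCommutative_closure
    rintro _ ⟨a, ha, b, hb, rfl⟩ _ ⟨a₁, ha₁, b₁, hb₁, rfl⟩
    have key := Cfsg.H1.ito_key A B hA hB hAB ha (A.inv_mem ha₁) hb (B.inv_mem hb₁)
    have h1 : ⁅a₁, b₁⁆ = (b₁⁻¹ * a₁⁻¹)⁻¹ * (a₁⁻¹ * b₁⁻¹) := by
      simp only [commutatorElement_def]; group
    rw [h1]
    calc ⁅a, b⁆ * ((b₁⁻¹ * a₁⁻¹)⁻¹ * (a₁⁻¹ * b₁⁻¹))
        = (b₁⁻¹ * a₁⁻¹)⁻¹ * ((b₁⁻¹ * a₁⁻¹) * ⁅a, b⁆ * (b₁⁻¹ * a₁⁻¹)⁻¹) * (a₁⁻¹ * b₁⁻¹) := by group
      _ = (b₁⁻¹ * a₁⁻¹)⁻¹ * ((a₁⁻¹ * b₁⁻¹) * ⁅a, b⁆ * (a₁⁻¹ * b₁⁻¹)⁻¹) * (a₁⁻¹ * b₁⁻¹) := by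
          rw [key]
      _ = _ := by group
  have hNn : (⁅A, B⁆ : Subgroup G).Normal := by
    rw [← normalizer_eq_top_iff, eq_top_iff]
    intro g _
    obtain ⟨a, ha, b, hb, rfl⟩ := hAB g
    exact mul_mem (normalizer_commutator_ge_left A B ha) (normalizer_commutator_ge_right A B hb)
  have hq : ∀ x y : G ⧸ (⁅A, B⁆ : Subgroup G), x * y = y * x := by
    intro x y
    obtain ⟨g, rfl⟩ := QuotientGroup.mk'_surjective _ x
    obtain ⟨g', rfl⟩ := QuotientGroup.mk'_surjective _ y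
    obtain ⟨a, ha, b, hb, rfl⟩ := hAB g
    obtain ⟨a', ha', b', hb', rfl⟩ := hAB g'
    have cAB : ∀ x ∈ A, ∀ y ∈ B, Commute (QuotientGroup.mk' ⁅A, B⁆ x) (QuotientGroup.mk' ⁅A, B⁆ y) := by
      intro x hx y hy
      have : QuotientGroup.mk' ⁅A, B⁆ ⁅x, y⁆ = 1 := by
        rw [← MonoidHom.mem_ker, QuotientGroup.ker_mk']
        exact commutator_mem_commutator hx hy
      rw [map_commutatorElement, commutatorElement_eq_one_iff_mul_comm] at this
      exact this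
    have cAA : ∀ x ∈ A, ∀ y ∈ A, Commute (QuotientGroup.mk' ⁅A, B⁆ x) (QuotientGroup.mk' ⁅A, B⁆ y) := by
      intro x hx y hy
      exact (show Commute x y from hA x hx y hy).map _
    have cBB : ∀ x ∈ B, ∀ y ∈ B, Commute (QuotientGroup.mk' ⁅A, B⁆ x) (QuotientGroup.mk' ⁅A, B⁆ y) := by
      intro x hx y hy
      exact (show Commute x y from hB x hx y hy).map _
    rw [map_mul, map_mul]
    exact ((cAA a ha a' ha').mul_right (cAB a ha b' hb')).mul_left
      (((cAB a' ha' b hb).symm).mul_right (cBB b hb b' hb'))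
  have hle : ⁅(⊤ : Subgroup G), ⊤⁆ ≤ ⁅A, B⁆ := by
    rw [commutator_le]
    intro x _ y _
    rw [← QuotientGroup.eq_one_iff]
    change QuotientGroup.mk' ⁅A, B⁆ ⁅x, y⁆ = 1
    rw [map_commutatorElement, commutatorElement_eq_one_iff_mul_comm]
    exact hq _ _
  rw [derivedSeries_succ, derivedSeries_one, _root_.commutator_def, eq_bot_iff]
  refine le_trans (commutator_mono hle hle) ?_
  rw [commutator_le]
  intro x hx y hy
  rw [mem_bot, commutatorElement_eq_one_iff_mul_comm]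
  exact congrArg Subtype.val ((isMulCommutative_iff.1 hNc) ⟨x, hx⟩ ⟨y, hy⟩)

end Cfsg.Agent.S0572
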