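import Cfsg.Statements.S4669
import Cfsg.Agent.H25.CentralDefect2
import Cfsg.Agent.Lib.Helper23.Trunc5

set_option autoImplicit false
open Cfsg

namespace Cfsg.Agent.S4669

/-- Fix a prime p and a maximal ideal M of the algebraic integers containing p. If the p-block B of the finite group G has a defect group P contained in the centre of G, then B has p-regular rank one (a single irreducible Brauer character). -/
theorem result {G : Type*} [Group G] [Fintype G] (p : ℕ) [Fact p.Prime] (M : Ideal Cfsg.AlgInt) (hM : Cfsg.IsPModular p M) (B : Set (Cfsg.IrrCharacter G)) (hB : Cfsg.IsPBlock M B) (P : Subgroup G) (hD : Cfsg.IsDefectGroup p M B P) (hPZ : P ≤ Subgroup.center G) : Cfsg.blockRank p B = 1 := by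
  classical
  have hPr := Cfsg.Agent.BlockLib.isPrime_of_isPModular hM
  have hp := hM.1
  obtain ⟨χ₀, hχ₀⟩ := Cfsg.Agent.BlockLib.pb_nonempty hB
  have himg : (fun χ : Cfsg.IrrCharacter G => Cfsg.pRegularPart p (χ : G → ℂ)) '' B =
      {Cfsg.pRegularPart p (χ₀ : G → ℂ)} := by
    ext f
    simp only [Set.mem_image, Set.mem_singleton_iff]
    constructor
    · rintro ⟨χ, hχ, rfl⟩
      rw [Cfsg.Agent.Lib.Helper23.Trunc.pRegularPart_eq_trunc,
        Cfsg.Agent.Lib.Helper23.Trunc.pRegularPart_eq_trunc]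
      exact (Cfsg.Agent.H25.cd_inner_and_trunc hM hB hD hPZ hχ hχ₀).2
    · rintro rfl
      exact ⟨χ₀, hχ₀, rfl⟩
  unfold Cfsg.blockRank
  rw [himg]
  apply finrank_span_singleton
  intro h0
  have h1 := congrFun h0 1
  rw [Cfsg.Agent.Lib.Helper23.Trunc.pRegularPart_eq_trunc,
    Cfsg.Agent.Lib.Helper23.Trunc.trunc_one hp, one_mul] at h1
  exact Cfsg.Agent.CharLib.irr_apply_one_ne_zero χ₀ h1

end Cfsg.Agent.S4669
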