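import Cfsg.Statements.S4710
import Cfsg.Agent.Lib.Helper23.Trunc6

set_option autoImplicit false
open Cfsg

namespace Cfsg.Agent.S4710

open Cfsg

open Cfsg Cfsg.Agent.CharLib Cfsg.Agent.BlockLib Cfsg.Agent.Lib.Helper23 Cfsg.Agent.Lib.Helper23.Trunc Cfsg.Agent.Lib.Helper23.MinMax
open scoped ComplexConjugate

/-- Let p be a prime, M a maximal ideal of the algebraic integers containing p, and B a p-block of defect d of the finite group G containing k irreducible characters. If B contains a character of positive height then 2k ≤ p^(2d − 2); and every character in B has height 0 when d ≤ 1 and height at most d − 2 when d ≥ 2. -/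
theorem result {G : Type*} [Group G] [Finite G] (p : ℕ) [Fact p.Prime] (M : Ideal Cfsg.AlgInt) (hM : Cfsg.IsPModular p M) (B : Set (Cfsg.IrrCharacter G)) (hB : Cfsg.IsPBlock M B) (d : ℕ) (hd : Cfsg.blockDefect p B = d) : ((∃ χ ∈ B, 0 < Cfsg.blockHeight p B (χ : G → ℂ)) → 2 * Nat.card B ≤ p ^ (2 * d - 2)) ∧ ∀ χ ∈ B, (d ≤ 1 → Cfsg.blockHeight p B (χ : G → ℂ) = 0) ∧ (2 ≤ d → Cfsg.blockHeight p B (χ : G → ℂ) ≤ d - 2) := by
  classical
  cases nonempty_fintype G
  have hp : p.Prime := Fact.out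
  have hMp := isPrime_of_isPModular hM
  have htop := ne_top_of_isPModular hM
  have hne := nonempty_of_isPBlock htop hB
  obtain ⟨χ0, hχ0, hh⟩ := exists_minExp (p := p) hne
  set e := minExp p B with he
  set a := (Nat.card G).factorization p with ha
  have hea : e ≤ a := minExp_le_card hne
  have hd' : d = a - e := by rw [← hd]; exact blockDefect_eq p B
  have hht : ∀ ν : IrrCharacter G, Cfsg.blockHeight p B (ν : G → ℂ) =
      (charDegree (ν : G → ℂ)).factorization p - e := fun ν => rfl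
  have hdega : ∀ ν : IrrCharacter G, (charDegree (ν : G → ℂ)).factorization p ≤ a := fun ν =>
    (Nat.factorization_le_iff_dvd (charDegree_pos_irr ν).ne' Nat.card_pos.ne').2
      (charDegree_dvd_card ν) p
  -- heights
  have hheight : ∀ χ ∈ B, (d ≤ 1 → Cfsg.blockHeight p B (χ : G → ℂ) = 0) ∧
      (2 ≤ d → Cfsg.blockHeight p B (χ : G → ℂ) ≤ d - 2) := by
    intro χ hχ
    have hmin := minExp_le (p := p) hχ
    have h1 := hdega χ
    by_cases hc : a ≤ 1 + (charDegree (χ : G → ℂ)).factorization p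
    · have h2 := factorization_le_of_defect_le_one hM hB hχ hχ0 hc
      rw [hh] at h2
      constructor
      · intro _; rw [hht]; omega
      · intro _; rw [hht]; omega
    · constructor
      · intro _; rw [hht]; omega
      · intro _; rw [hht]; omega
  refine ⟨?_, hheight⟩
  rintro ⟨χ, hχ, hpos⟩
  set h := Cfsg.blockHeight p B (χ : G → ℂ) with hhdef
  have hχdeg : (charDegree (χ : G → ℂ)).factorization p = e + h := by
    have := minExp_le (p := p) hχ
    rw [hhdef, hht]; omega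
  have hd2 : 2 ≤ d := by
    by_contra hc
    have := (hheight χ hχ).1 (by omega)
    omega
  have hhd : h ≤ d - 2 := (hheight χ hχ).2 hd2
  -- integers attached to χ0
  have hz : ∀ ν : IrrCharacter G, ∃ z : ℤ,
      classInner (trunc p ((p : ℂ) ^ d) (χ0 : G → ℂ)) (ν : G → ℂ) = z := fun ν =>
    exists_int_classInner_trunc hp χ0 ν d (by omega)
  choose z hz using hz
  have hzsum := sum_sq_int_eq χ0 d hz
  have hzval : ∀ ν ∈ B, z ν ≠ 0 ∧ e + (z ν).natAbs.factorization p =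
      (charDegree (ν : G → ℂ)).factorization p := fun ν hν =>
    val_of_unit hM χ0 ν (by omega) (hz ν) (not_memLocalIdeal_omega_cf hM hB hχ0 hh hν)
  -- integers attached to χ
  have hy : ∀ ν : IrrCharacter G, ∃ y : ℤ,
      classInner (trunc p ((p : ℂ) ^ (d - h)) (χ : G → ℂ)) (ν : G → ℂ) = y := fun ν =>
    exists_int_classInner_trunc hp χ ν (d - h) (by omega)
  choose y hy using hy
  have hysum := sum_sq_int_eq χ (d - h) hy
  -- y ν ≠ 0 for ν of height zero
  have hy0 : ∀ ν ∈ B, Cfsg.blockHeight p B (ν : G → ℂ) = 0 → y ν ≠ 0 := by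
    intro ν hν hν0 hyν
    have hνdeg : (charDegree (ν : G → ℂ)).factorization p = e := by
      have := minExp_le (p := p) hν
      rw [hht] at hν0; omega
    obtain ⟨w, hw⟩ := exists_int_classInner_trunc hp ν χ d (by omega)
    have hwval := val_of_unit hM ν χ (j := d) (e' := e) (by omega) hw
      (not_memLocalIdeal_omega_cf hM hB hν hνdeg hχ)
    -- [p^d χ~, ν] = p^h y ν = 0
    have h1 : classInner (trunc p ((p : ℂ) ^ d) (χ : G → ℂ)) (ν : G → ℂ) = ((0 : ℤ) : ℂ) := by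
      have : (p : ℂ) ^ d = (p : ℂ) ^ h * (p : ℂ) ^ (d - h) := by
        rw [← pow_add]; congr 1; omega
      rw [this, trunc_smul, classInner_smul_left, hy ν, hyν]
      simp
    have := int_symm χ ν d h1 hw
    exact hwval.1 this.symm
  set BB := Finset.univ.filter (fun ν : IrrCharacter G => ν ∈ B) with hBB
  have hcard : Nat.card B = BB.card := by
    rw [Nat.card_eq_fintype_card, Fintype.card_subtype]
  set B0 := BB.filter (fun ν : IrrCharacter G => Cfsg.blockHeight p B (ν : G → ℂ) = 0) with hB0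
  set B1 := BB.filter (fun ν : IrrCharacter G => ¬ Cfsg.blockHeight p B (ν : G → ℂ) = 0) with hB1
  have hcardsplit : BB.card = B0.card + B1.card := by
    rw [hB0, hB1, Finset.card_filter_add_card_filter_not]
  have hmemBB : ∀ ν, ν ∈ BB ↔ ν ∈ B := fun ν => by simp [hBB]
  have hχ0B0 : χ0 ∈ B0 := by
    rw [hB0, Finset.mem_filter, hmemBB]
    exact ⟨hχ0, by rw [hht, hh]; omega⟩
  have hχB0 : χ ∉ B0 := by
    rw [hB0, Finset.mem_filter]
    rintro ⟨_, h0⟩
    omega
  -- bound for B0 through y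
  have hb0 : (B0.card : ℤ) + y χ ^ 2 ≤ (p : ℤ) ^ (d - h) * y χ := by
    rw [← hysum]
    have h1 : ∑ ν ∈ insert χ B0, y ν ^ 2 ≤ ∑ ν : IrrCharacter G, y ν ^ 2 :=
      Finset.sum_le_sum_of_subset_of_nonneg (Finset.subset_univ _) (fun ν _ _ => sq_nonneg _)
    rw [Finset.sum_insert hχB0] at h1
    have h3 : (B0.card : ℤ) ≤ ∑ ν ∈ B0, y ν ^ 2 := by
      have : (B0.card : ℤ) = ∑ ν ∈ B0, (1 : ℤ) := by simp
      rw [this]
      apply Finset.sum_le_sum
      intro ν hν
      rw [hB0, Finset.mem_filter, hmemBB] at hν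
      have := hy0 ν hν.1 hν.2
      have h5 : 0 < y ν ^ 2 := by positivity
      omega
    omega
  have hb0' : 4 * (B0.card : ℤ) ≤ ((p : ℤ) ^ (d - h)) ^ 2 := by
    nlinarith [sq_nonneg ((p : ℤ) ^ (d - h) - 2 * y χ)]
  -- bound for B1 through z
  have hb1 : z χ0 ^ 2 + (p : ℤ) ^ 2 * (B1.card : ℤ) ≤ (p : ℤ) ^ d * z χ0 := by
    rw [← hzsum]
    have hχ0B1 : χ0 ∉ B1 := by
      rw [hB1, Finset.mem_filter]
      rintro ⟨_, h0⟩
      exact h0 (by rw [hht, hh]; omega)
    have h1 : ∑ ν ∈ insert χ0 B1, z ν ^ 2 ≤ ∑ ν : IrrCharacter G, z ν ^ 2 :=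
      Finset.sum_le_sum_of_subset_of_nonneg (Finset.subset_univ _) (fun ν _ _ => sq_nonneg _)
    rw [Finset.sum_insert hχ0B1] at h1
    have h3 : (p : ℤ) ^ 2 * (B1.card : ℤ) ≤ ∑ ν ∈ B1, z ν ^ 2 := by
      have : (p : ℤ) ^ 2 * (B1.card : ℤ) = ∑ ν ∈ B1, (p : ℤ) ^ 2 := by simp [mul_comm]
      rw [this]
      apply Finset.sum_le_sum
      intro ν hν
      rw [hB1, Finset.mem_filter, hmemBB] at hν
      obtain ⟨k1, k2⟩ := hzval ν hν.1
      have hν1 : 1 ≤ (z ν).natAbs.factorization p := by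
        have := hν.2
        rw [hht] at this
        omega
      have hzn : (z ν).natAbs ≠ 0 := Int.natAbs_ne_zero.2 k1
      have hdvd : p ^ 1 ∣ (z ν).natAbs := (hp.pow_dvd_iff_le_factorization hzn).2 hν1
      rw [pow_one] at hdvd
      have hle := Nat.le_of_dvd (Nat.pos_of_ne_zero hzn) hdvd
      have hle2 : p ^ 2 ≤ (z ν).natAbs ^ 2 := Nat.pow_le_pow_left hle 2
      have h6 : ((p ^ 2 : ℕ) : ℤ) ≤ (((z ν).natAbs ^ 2 : ℕ) : ℤ) := by exact_mod_cast hle2
      push_cast at h6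
      rw [sq_abs] at h6
      exact h6
    omega
  have hb1' : 4 * ((p : ℤ) ^ 2 * (B1.card : ℤ)) ≤ ((p : ℤ) ^ d) ^ 2 := by
    nlinarith [sq_nonneg ((p : ℤ) ^ d - 2 * z χ0)]
  -- combine
  set Q := (p : ℤ) ^ (d - 1) with hQ
  have hQpos : 0 < Q := pow_pos (by exact_mod_cast hp.pos) _
  have hpd : (p : ℤ) ^ d = p * Q := by
    rw [hQ, ← pow_succ']; congr 1; omega
  have hp1 : (1 : ℤ) ≤ p := by exact_mod_cast hp.one_le
  have hpdh : (p : ℤ) ^ (d - h) ≤ Q := by
    rw [hQ]
    exact pow_le_pow_right₀ hp1 (by omega)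
  have hpdh0 : (0 : ℤ) ≤ (p : ℤ) ^ (d - h) := by positivity
  have h4 : 4 * (B0.card : ℤ) ≤ Q ^ 2 := by nlinarith
  have h5 : 4 * (B1.card : ℤ) ≤ Q ^ 2 := by
    rw [hpd] at hb1'
    have hp2 : (0 : ℤ) < (p : ℤ) ^ 2 := by positivity
    have : (p : ℤ) ^ 2 * (4 * (B1.card : ℤ)) ≤ (p : ℤ) ^ 2 * Q ^ 2 := by nlinarith
    exact le_of_mul_le_mul_left this hp2
  rw [hcard, hcardsplit]
  have hfin : ((2 * (B0.card + B1.card) : ℕ) : ℤ) ≤ ((p ^ (2 * d - 2) : ℕ) : ℤ) := by
    push_cast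
    have : (p : ℤ) ^ (2 * d - 2) = Q ^ 2 := by
      rw [hQ, ← pow_mul]; congr 1; omega
    rw [this]
    omega
  exact_mod_cast hfin

end Cfsg.Agent.S4710
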