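import Cfsg.Statements.S4716
import Cfsg.Agent.Lib.Helper23.Contrib3

set_option autoImplicit false
open Cfsg

namespace Cfsg.Agent.S4716

open Cfsg Cfsg.Agent.CharLib Cfsg.Agent.BlockLib Cfsg.Agent.Lib.Helper23 Cfsg.Agent.Lib.Helper23.MinMax Cfsg.Agent.Lib.Helper23.Contrib

/-- Let p be a prime, M a maximal ideal of the algebraic integers containing p, and B a p-block of defect d of the finite group G all of whose irreducible characters have height zero. Let y be a p-element, C = C_G(y), and b a block of C inducing B and having the same defect d (a major subsection). Then k(B)^2 ≤ p^(2d)·l(b), where k(B) is the number of irreducible characters in B and l(b) the p-regular rank of b (its number of irreducible Brauer characters); in particular (y = 1) k(B)^2 ≤ p^(2d)·l(B). -/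
theorem result {G : Type*} [Group G] [Finite G] (p : ℕ) [Fact p.Prime] (M : Ideal Cfsg.AlgInt) (hM : Cfsg.IsPModular p M) (B : Set (Cfsg.IrrCharacter G)) (hB : Cfsg.IsPBlock M B) (d : ℕ) (hd : Cfsg.blockDefect p B = d) (hh : ∀ χ ∈ B, Cfsg.blockHeight p B (χ : G → ℂ) = 0) (y : G) (hy : ∃ k : ℕ, orderOf y = p ^ k) (b : Set (Cfsg.IrrCharacter ↥(Subgroup.centralizer ({y} : Set G)))) (hind : Cfsg.IsInducedBlock M (Subgroup.centralizer ({y} : Set G)) b B) (hbd : Cfsg.blockDefect p b = d) : Nat.card B ^ 2 ≤ p ^ (2 * d) * Cfsg.blockRank p b := by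
  classical
  cases nonempty_fintype G
  obtain ⟨s, hs⟩ := hy
  have h := card_height_zero_sq_le hM hs hind
  rw [hbd] at h
  have hcard : Nat.card B = (Finset.univ.filter (fun χ : IrrCharacter G => χ ∈ B ∧
      (charDegree (χ : G → ℂ)).factorization p = minExp p B)).card := by
    rw [Nat.card_eq_fintype_card, Fintype.card_subtype]
    congr 1
    ext χ
    simp only [Finset.mem_filter, Finset.mem_univ, true_and]
    constructor
    · intro hχ
      refine ⟨hχ, ?_⟩
      have h1 := minExp_le (p := p) hχ
      have h2 : (charDegree (χ : G → ℂ)).factorization p - minExp p B = 0 := hh χ hχ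
      omega
    · exact fun h => h.1
  rw [hcard]
  exact h

end Cfsg.Agent.S4716
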