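import Cfsg.Statements.S4726
import Cfsg.Agent.BlockLib.KG.IndDef
import Cfsg.Agent.BlockLib.KG.DefSubTr
import Cfsg.Agent.H6.FirstMainTr

set_option autoImplicit false
open Cfsg Cfsg.Agent.BlockLib

namespace Cfsg.Agent.S4726

/-- Let p be a prime, M a maximal ideal of the algebraic integers containing p, H a subgroup of the finite group G and b a p-block of H with defect group D₀ such that C_G(D₀) ≤ H. Then b induces a block of G, and for every block B of G induced by b there is a defect group D of B with Z(D) ≤ Z(D₀) ≤ D₀ ≤ D (as subgroups of G). In particular, if the defect groups of B are abelian then D₀ is a defect group of B. -/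
theorem result {G : Type*} [Group G] [Finite G] (p : ℕ) [Fact p.Prime] (M : Ideal Cfsg.AlgInt) (hM : Cfsg.IsPModular p M) (H : Subgroup G) (b : Set (Cfsg.IrrCharacter ↥H)) (hb : Cfsg.IsPBlock M b) (D₀ : Subgroup ↥H) (hD₀ : Cfsg.IsDefectGroup p M b D₀) (hC : Subgroup.centralizer ((D₀.map H.subtype : Subgroup G) : Set G) ≤ H) : Cfsg.InducedBlockDefined M H b ∧ ∀ B : Set (Cfsg.IrrCharacter G), Cfsg.IsInducedBlock M H b B → (∃ D : Subgroup G, Cfsg.IsDefectGroup p M B D ∧ (Subgroup.center ↥D).map D.subtype ≤ ((Subgroup.center ↥D₀).map D₀.subtype).map H.subtype ∧ ((Subgroup.center ↥D₀).map D₀.subtype).map H.subtype ≤ D₀.map H.subtype ∧ D₀.map H.subtype ≤ D) ∧ (∀ D : Subgroup G, Cfsg.IsDefectGroup p M B D → IsMulCommutative ↥D → Cfsg.IsDefectGroup p M B (D₀.map H.subtype)) := by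
  classical
  letI := Fintype.ofFinite G
  haveI := isPrime_of_isPModular hM
  haveI := charP_resField hM
  letI : Fintype H := Fintype.ofFinite _
  have hQ := (isDefectGroup_sub_iff hb D₀).mp hD₀
  have hb₀ := isBlk_epsS hb
  refine ⟨?_, fun B hB => ?_⟩
  · obtain ⟨b', hb', h⟩ := CA.exists_induced hQ.isPGroup hQ.le hC hb₀ (hQ.br_ne_zero hb₀)
      (Cfsg.Agent.H6.IndBlk.trunc M H) (Cfsg.Agent.H6.IndBlk.trunc_mem_cen H)
      (Cfsg.Agent.H6.IndBlk.br_trunc hC)
    obtain ⟨B, hB, rfl⟩ := exists_eps_eq hb'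
    exact ⟨B, (Cfsg.Agent.H6.IndBlk.isInducedBlock_iff hb hB).mpr h⟩
  · obtain ⟨P, hP, hQP, hPC⟩ := CA.exists_isDefGrp_of_induced hC hb₀ hQ (isBlk_eps hB.2.1)
      (Cfsg.Agent.H6.IndBlk.trunc M H) (Cfsg.Agent.H6.IndBlk.trunc_mem_cen H)
      (Cfsg.Agent.H6.IndBlk.br_trunc hC) ((Cfsg.Agent.H6.IndBlk.isInducedBlock_iff hb hB.2.1).mp hB)
    refine ⟨⟨P, (isDefectGroup_iff hB.2.1 P).mpr hP, ?_, ?_, hQP⟩, ?_⟩
    · rintro _ ⟨z, hz, rfl⟩
      have hzc : ∀ q ∈ P, q * (z : G) = (z : G) * q := fun q hq =>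
        congrArg Subtype.val (Subgroup.mem_center_iff.mp hz ⟨q, hq⟩)
      have hzC : (z : G) ∈ Subgroup.centralizer ((CA.up H D₀ : Subgroup G) : Set G) :=
        Subgroup.mem_centralizer_iff.mpr fun q hq => hzc q (hQP hq)
      obtain ⟨h, hh, hhz⟩ := hPC ⟨z.2, hzC⟩
      refine ⟨h, ⟨⟨h, hh⟩, ?_, rfl⟩, hhz⟩
      apply Subgroup.mem_center_iff.mpr
      intro d
      apply Subtype.ext
      apply Subtype.ext
      have h1 := hzc (d : G) (hQP ⟨d.1, d.2, rfl⟩)
      have hhz' : (h : G) = (z : G) := hhz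
      show ((d : H) : G) * (h : G) = (h : G) * ((d : H) : G)
      rw [hhz']
      exact h1
    · rintro _ ⟨_, ⟨d, -, rfl⟩, rfl⟩
      exact ⟨d.1, d.2, rfl⟩
    · intro D hD hcomm
      rw [isDefectGroup_iff hB.2.1] at hD ⊢
      obtain ⟨x, -, rfl⟩ := hD.conj (isBlk_eps hB.2.1) hP
      have habel : ∀ a ∈ CA.cjs x D, ∀ c ∈ CA.cjs x D, a * c = c * a := by
        intro a ha c hc
        have h1 : (x⁻¹ * a * x) * (x⁻¹ * c * x) = (x⁻¹ * c * x) * (x⁻¹ * a * x) :=
          congrArg Subtype.val (hcomm.is_comm.comm (⟨_, CA.mem_cjs.mp ha⟩ : D)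
            ⟨_, CA.mem_cjs.mp hc⟩)
        calc a * c = x * ((x⁻¹ * a * x) * (x⁻¹ * c * x)) * x⁻¹ := by group
          _ = x * ((x⁻¹ * c * x) * (x⁻¹ * a * x)) * x⁻¹ := by rw [h1]
          _ = c * a := by group
      have hle : CA.cjs x D ≤ CA.up H D₀ := fun a ha =>
        hPC ⟨ha, Subgroup.mem_centralizer_iff.mpr fun q hq => habel q (hQP hq) a ha⟩
      have heq : D₀.map H.subtype = CA.cjs x D := le_antisymm hQP hle
      rw [heq]
      exact hP

end Cfsg.Agent.S4726
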