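import Mathlib
import Cfsg.Prelude.Def_Blocks
import Cfsg.Agent.S0907
import Cfsg.Agent.S0909
import Cfsg.Agent.S0189
import Cfsg.Agent.CharLib.L.Linear

set_option autoImplicit false

namespace Cfsg.Agent.S0914

open Cfsg Cfsg.Agent.CharLib Cfsg.Agent.BlockLib
open scoped ComplexConjugate

theorem result {G : Type*} [Group G] [Finite G] (p : ℕ) [Fact p.Prime] (M : Ideal Cfsg.AlgInt) (hM : Cfsg.IsPModular p M) (χ : Cfsg.IrrCharacter G) : ¬ p ∣ Nat.card G / Cfsg.charDegree (χ : G → ℂ) ↔ Cfsg.blockOf M (χ : G → ℂ) = {χ} := by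
  classical
  cases nonempty_fintype G
  have hp : p.Prime := Fact.out
  have hprime := isPrime_of_isPModular hM
  have hne := ne_top_of_isPModular hM
  obtain ⟨d, hd0, hd, hdvd⟩ := Cfsg.Agent.CharLib.L.irr_degree_dvd χ
  have hdeg : Cfsg.charDegree (χ : G → ℂ) = d := by
    unfold Cfsg.charDegree
    rw [hd]; simp
  rw [hdeg]
  obtain ⟨m, hm⟩ := hdvd
  have hdiv : Nat.card G / d = m := by rw [hm]; exact Nat.mul_div_cancel_left m hd0
  rw [hdiv]
  have hself : χ ∈ blockOf M (χ : G → ℂ) := SameBlock.refl' hne _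
  have hd0' : (d : ℂ) ≠ 0 := by exact_mod_cast hd0.ne'
  have hm0 : m ≠ 0 := by
    intro h
    rw [h, mul_zero] at hm
    exact Nat.card_pos.ne' hm
  have hm0' : (m : ℂ) ≠ 0 := by exact_mod_cast hm0
  constructor
  · intro hpm
    apply Set.Subset.antisymm
    · apply Cfsg.Agent.S0909.result p M hM {χ} _ χ rfl
      intro g
      have h1 : blockCoeff ({χ} : Set (IrrCharacter G)) g = (m : ℂ)⁻¹ * conj ((χ : G → ℂ) g) := by
        rw [blockCoeff, finsum_mem_singleton, hd, hm]
        push_cast
        field_simp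
      rw [h1]
      apply memLocalRing_mul (memLocalRing_natCast_inv hM hpm)
      apply memLocalRing_of_isIntegral hne
      have := isCharacter_isIntegral (isCharacter_conj (isCharacter_of_irr χ.2)) g
      exact this
    · intro ψ hψ
      rw [Set.mem_singleton_iff] at hψ
      rw [hψ]; exact hself
  · intro hB hpm
    have hvan : ∀ y : G, p ∣ orderOf y → (χ : G → ℂ) y = 0 := by
      intro y hy
      have h1 := Cfsg.Agent.S0907.result p M hM (blockOf M (χ : G → ℂ)) ⟨χ, rfl⟩ 1 y
        (by rw [orderOf_one]; exact hp.one_lt.ne' ∘ Nat.dvd_one.mp) hy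
      rw [hB, finsum_mem_singleton, hd] at h1
      rcases mul_eq_zero.mp h1 with h | h
      · exact absurd h hd0'
      · simpa using h
    obtain ⟨P⟩ : Nonempty (Sylow p G) := inferInstance
    obtain ⟨k, hk⟩ := Cfsg.Agent.S0189.result p P (χ : G → ℂ) (isCharacter_of_irr χ.2) (by
      intro g hg hg1
      apply hvan
      obtain ⟨j, hj⟩ := (IsPGroup.iff_orderOf.mp P.2) ⟨g, hg⟩
      rw [Subgroup.orderOf_mk] at hj
      rw [hj]
      apply dvd_pow_self
      intro h0
      rw [h0, pow_zero, orderOf_eq_one_iff] at hj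
      exact hg1 hj)
    rw [hd] at hk
    have hk' : d = Nat.card P * k := by exact_mod_cast hk
    have h2 := (P : Subgroup G).card_mul_index
    rw [hm, hk'] at h2
    have h3 : (P : Subgroup G).index = k * m := by
      apply Nat.eq_of_mul_eq_mul_left (Nat.card_pos (α := P))
      rw [h2]; ring
    apply P.not_dvd_index
    rw [h3]
    exact Dvd.dvd.mul_left hpm k

end Cfsg.Agent.S0914
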