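import Cfsg.Statements.S0944
import Mathlib
import Cfsg.Agent.H25.Codeg

set_option autoImplicit false
open Cfsg

namespace Cfsg.Agent.S0944

/-- Let χ be an irreducible character of the finite group G and u an involution. Then χ u is a rational integer n with n ≡ χ 1 (mod 2). -/
theorem result {G : Type*} [Group G] [Finite G] (χ : Cfsg.IrrCharacter G) (u : G) (hu : orderOf u = 2) : ∃ n : ℤ, (χ : G → ℂ) u = (n : ℂ) ∧ (2 : ℤ) ∣ (Cfsg.charDegree (χ : G → ℂ) : ℤ) - n := by
  classical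
  obtain ⟨n, ρ, hρ, hχ⟩ := χ.2
  obtain ⟨b, μ, hμ, hb, hc⟩ := CharLib.character_eq_sum_eigen ρ u
  rw [hu] at hμ
  have hdeg : Cfsg.charDegree (χ : G → ℂ) = Module.finrank ℂ (Fin n → ℂ) := by
    apply H25.charDegree_of_apply_one
    rw [← hχ, Representation.char_one]
  have hpm : ∀ i, ∃ k : ℤ, μ i = (k : ℂ) ∧ (2 : ℤ) ∣ 1 - k := by
    intro i
    have h1 : (μ i - 1) * (μ i + 1) = 0 := by linear_combination hμ i
    rcases mul_eq_zero.1 h1 with h2 | h2
    · exact ⟨1, by push_cast; linear_combination h2, by norm_num⟩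
    · exact ⟨-1, by push_cast; linear_combination h2, by norm_num⟩
  choose k hk hk2 using hpm
  refine ⟨∑ i, k i, ?_, ?_⟩
  · rw [← hχ, hc]
    push_cast
    exact Finset.sum_congr rfl fun i _ => hk i
  · rw [hdeg]
    have : ((Module.finrank ℂ (Fin n → ℂ) : ℕ) : ℤ) - ∑ i, k i =
        ∑ i : Fin (Module.finrank ℂ (Fin n → ℂ)), (1 - k i) := by
      rw [Finset.sum_sub_distrib]
      simp
    rw [this]
    exact Finset.dvd_sum fun i _ => hk2 i

end Cfsg.Agent.S0944
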