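import Mathlib
import Cfsg.Statements.S0947
import Cfsg.Agent.H6.SectionFormula
import Cfsg.Agent.S0925
import Cfsg.Agent.S0939

set_option autoImplicit false
open Cfsg Cfsg.Agent.BlockLib Cfsg.Agent.CharLib Cfsg.Agent.H6 Cfsg.Agent.H6.BlockSection

namespace Cfsg.Agent.S0947

open scoped ComplexConjugate

theorem blockPart_sub {K : Type*} [Group K] [Fintype K] (b : Set (IrrCharacter K)) (η₁ η₂ : K → ℂ)
    (y : K) : blockPart b (η₁ - η₂) y = blockPart b η₁ y - blockPart b η₂ y := by
  classical
  rw [blockPart_eq_filter, blockPart_eq_filter, blockPart_eq_filter, ← Finset.sum_sub_distrib]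
  refine Finset.sum_congr rfl fun ξ _ => ?_
  rw [classInner_sub_left, sub_mul]

theorem blockPart_congr_reg {K : Type*} [Group K] [Fintype K] {p : ℕ} {M : Ideal AlgInt}
    (hM : IsPModular p M) {b : Set (IrrCharacter K)} (hb : IsPBlock M b) {η₁ η₂ : K → ℂ}
    (h : ∀ c, ¬ p ∣ orderOf c → η₁ c = η₂ c) {y : K} (hy : ¬ p ∣ orderOf y) :
    blockPart b η₁ y = blockPart b η₂ y := by
  have h1 := blockPart_reg_eq_zero hM hb (η := η₁ - η₂)
    (fun c hc => by rw [Pi.sub_apply, h c hc, sub_self]) hy
  rw [blockPart_sub] at h1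
  exact sub_eq_zero.mp h1

/-- the block part of a class indicator at the class -/
theorem blockPart_indicator {K : Type*} [Group K] [Fintype K] (B : Set (IrrCharacter K))
    [DecidablePred (· ∈ B)] (u : K) [DecidablePred (IsConj u)] :
    blockPart B (fun t => if IsConj u t then (1 : ℂ) else 0) u =
      (Nat.card (Subgroup.centralizer ({u} : Set K)) : ℂ)⁻¹ *
        ((∑ ζ ∈ Finset.univ.filter (· ∈ B), ‖(ζ : K → ℂ) u‖ ^ 2 : ℝ) : ℂ) := by
  rw [blockPart_eq_filter, Complex.ofReal_sum, Finset.mul_sum]
  refine Finset.sum_congr rfl fun ζ _ => ?_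
  rw [classInner_indicator u (isClassFunction_of_irr ζ.2)]
  have h2 : (Nat.card K : ℂ) = (Nat.card (Subgroup.centralizer ({u} : Set K)) : ℂ) *
      ((Subgroup.centralizer {u}).index : ℂ) := by
    rw [← Nat.cast_mul, Subgroup.card_mul_index]
  have h3 := index_centralizer_ne_zero u
  have h5 : (Nat.card (Subgroup.centralizer ({u} : Set K)) : ℂ) ≠ 0 := by
    exact_mod_cast Nat.card_pos.ne'
  have h6 : (((‖(ζ : K → ℂ) u‖ ^ 2 : ℝ)) : ℂ) = (ζ : K → ℂ) u * conj ((ζ : K → ℂ) u) := by
    rw [Complex.mul_conj, Complex.normSq_eq_norm_sq]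
  rw [h2, h6]
  field_simp

theorem card_centralizer_mul {G : Type*} [Group G] [Finite G] {p : ℕ} (hp : p.Prime) {z : G}
    (y : Subgroup.centralizer ({z} : Set G)) (hpp : IsPPart p (z * (y : G)) z) :
    Nat.card (Subgroup.centralizer ({z * (y : G)} : Set G)) =
      Nat.card (Subgroup.centralizer ({y} : Set (Subgroup.centralizer ({z} : Set G)))) := by
  have h1 : (Subgroup.centralizer ({y} : Set (Subgroup.centralizer ({z} : Set G)))).map
      (Subgroup.centralizer ({z} : Set G)).subtype = Subgroup.centralizer ({z * (y : G)} : Set G) := by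
    ext g
    constructor
    · rintro ⟨h, hh, rfl⟩
      have e1 := Subgroup.mem_centralizer_singleton_iff.mp h.2
      have e2 := congrArg Subtype.val (Subgroup.mem_centralizer_singleton_iff.mp hh)
      simp only [Subgroup.coe_mul] at e2
      rw [Subgroup.mem_centralizer_singleton_iff]
      show (h : G) * (z * (y : G)) = z * (y : G) * (h : G)
      rw [← mul_assoc, e1, mul_assoc, e2, mul_assoc]
    · intro hg
      have e0 : Commute g (z * (y : G)) := Subgroup.mem_centralizer_singleton_iff.mp hg
      obtain ⟨e, he⟩ := exists_pPart_exp G hp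
      have e1 : Commute g z := by
        rw [(he _).2 z hpp]
        exact e0.zpow_right e
      have e2 : Commute g (y : G) := by
        have : (y : G) = z⁻¹ * (z * (y : G)) := by group
        rw [this]
        exact (e1.inv_right).mul_right e0
      refine ⟨⟨g, Subgroup.mem_centralizer_singleton_iff.mpr e1⟩, ?_, rfl⟩
      exact Subgroup.mem_centralizer_singleton_iff.mpr (Subtype.ext e2)
  rw [← h1]
  exact Nat.card_congr (Subgroup.equivMapOfInjective _ _ (Subgroup.subtype_injective _)).symm.toEquiv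

/-- sum of squares of degrees of the characters trivial on a normal subgroup -/
theorem sum_sq_of_ker {K : Type*} [Group K] [Fintype K] (N : Subgroup K) [N.Normal]
    [DecidablePred fun χ : IrrCharacter K => ∀ n ∈ N, (χ : K → ℂ) n = (χ : K → ℂ) 1] :
    ∑ χ ∈ Finset.univ.filter (fun χ : IrrCharacter K => ∀ n ∈ N, (χ : K → ℂ) n = (χ : K → ℂ) 1),
      (χ : K → ℂ) 1 ^ 2 = (N.index : ℂ) := by
  classical
  haveI : Fintype (K ⧸ N) := Fintype.ofFinite _
  rw [Subgroup.index_eq_card, ← sum_irr_sq (G := K ⧸ N)]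
  symm
  refine Finset.sum_nbij (fun ψ : IrrCharacter (K ⧸ N) =>
    (⟨fun x => (ψ : K ⧸ N → ℂ) (QuotientGroup.mk' N x), isIrrCharacter_comp_of_surjective ψ.2
      (QuotientGroup.mk' N) (QuotientGroup.mk'_surjective N)⟩ : IrrCharacter K)) ?_ ?_ ?_ ?_
  · intro ψ _
    rw [Finset.mem_filter]
    refine ⟨Finset.mem_univ _, fun n hn => ?_⟩
    show (ψ : K ⧸ N → ℂ) (QuotientGroup.mk' N n) = (ψ : K ⧸ N → ℂ) (QuotientGroup.mk' N 1)
    rw [map_one]
    exact congrArg _ ((QuotientGroup.eq_one_iff n).2 hn)
  · intro ψ _ ψ' _ h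
    apply Subtype.ext
    funext q
    obtain ⟨x, rfl⟩ := QuotientGroup.mk'_surjective N q
    exact congrFun (congrArg Subtype.val h) x
  · intro χ hχ
    have hχ' := (Finset.mem_filter.mp hχ).2
    obtain ⟨ψ, hψ⟩ := H25.exists_quotient_irr χ N (fun n hn => hχ' n hn)
    refine ⟨ψ, Finset.mem_coe.mpr (Finset.mem_univ _), ?_⟩
    apply Subtype.ext
    funext x
    exact hψ x
  · intro ψ _
    show _ = (ψ : K ⧸ N → ℂ) (QuotientGroup.mk' N 1) ^ 2
    rw [map_one]

/-- Let z ≠ 1 be a p-element of the finite group G with centralizer H, and fix a maximal ideal M of the algebraic integers containing p. (i) For every y ∈ H of order prime to p, the sum over ζ in the principal block of G of |ζ (z * y)|² equals the sum over χ in the principal block of H of |χ y|². (ii) If moreover H has a normal p-complement (its largest normal subgroup of order prime to p has p-power index), that common value is the largest power of p dividing the order of H. -/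
theorem result {G : Type*} [Group G] [Finite G] (p : ℕ) [Fact p.Prime] (M : Ideal Cfsg.AlgInt) (hM : Cfsg.IsPModular p M) (z : G) (hz : ∃ k : ℕ, orderOf z = p ^ k) (hz1 : z ≠ 1) (y : Subgroup.centralizer ({z} : Set G)) (hy : ¬ p ∣ orderOf y) : (∑ᶠ ζ ∈ Cfsg.principalBlock M G, ‖(ζ : G → ℂ) (z * (y : G))‖ ^ 2 = ∑ᶠ χ ∈ Cfsg.principalBlock M (Subgroup.centralizer ({z} : Set G)), ‖(χ : Subgroup.centralizer ({z} : Set G) → ℂ) y‖ ^ 2) ∧ ((∃ k : ℕ, (Cfsg.pPrimeCore p (Subgroup.centralizer ({z} : Set G))).index = p ^ k) → ∑ᶠ ζ ∈ Cfsg.principalBlock M G, ‖(ζ : G → ℂ) (z * (y : G))‖ ^ 2 = ((p ^ (Nat.card (Subgroup.centralizer ({z} : Set G))).factorization p : ℕ) : ℝ)) := by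
  classical
  cases nonempty_fintype G
  haveI := isPrime_of_isPModular hM
  haveI : Fintype (Subgroup.centralizer ({z} : Set G)) := Fintype.ofFinite _
  have hp : p.Prime := Fact.out
  obtain ⟨k, hk⟩ := hz
  have hcz : ∀ d : Subgroup.centralizer ({z} : Set G), (d : G) * z = z * (d : G) :=
    fun d => Subgroup.mem_centralizer_singleton_iff.mp d.2
  have hpp : ∀ c : Subgroup.centralizer ({z} : Set G), ¬ p ∣ orderOf c → IsPPart p (z * (c : G)) z :=
    fun c hc => ⟨c, rfl, (hcz c).symm, ⟨k, hk⟩, by rwa [Subgroup.orderOf_coe]⟩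
  have hb : IsPBlock M (principalBlock M (Subgroup.centralizer ({z} : Set G))) :=
    ⟨⟨fun _ => 1, isIrrCharacter_one⟩, rfl⟩
  have part1 : (∑ ζ ∈ Finset.univ.filter (· ∈ principalBlock M G), ‖(ζ : G → ℂ) (z * (y : G))‖ ^ 2 : ℝ)
      = ∑ χ ∈ Finset.univ.filter (· ∈ principalBlock M (Subgroup.centralizer ({z} : Set G))),
        ‖(χ : Subgroup.centralizer ({z} : Set G) → ℂ) y‖ ^ 2 := by
    have h1 := blockPart_section_principal hM (isClassFunction_indicator (z * (y : G))) hk y hy
    have h2 : blockPart (principalBlock M (Subgroup.centralizer ({z} : Set G)))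
        (fun c : Subgroup.centralizer ({z} : Set G) =>
          if IsConj (z * (y : G)) (z * (c : G)) then (1 : ℂ) else 0) y =
        blockPart (principalBlock M (Subgroup.centralizer ({z} : Set G)))
        (fun c : Subgroup.centralizer ({z} : Set G) => if IsConj y c then (1 : ℂ) else 0) y := by
      apply blockPart_congr_reg hM hb _ hy
      intro c hc
      have : IsConj (z * (y : G)) (z * (c : G)) ↔ IsConj y c := by
        constructor
        · intro h
          obtain ⟨g, hg⟩ := isConj_iff.mp h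
          have e1 := Cfsg.Agent.S0925.isPPart_conj (hpp y hy) g
          rw [hg] at e1
          have e2 : g * z * g⁻¹ = z := isPPart_unique hp e1 (hpp c hc)
          have e3 : g * z = z * g := by
            calc g * z = (g * z * g⁻¹) * g := by group
              _ = z * g := by rw [e2]
          refine isConj_iff.mpr ⟨⟨g, Subgroup.mem_centralizer_singleton_iff.mpr e3⟩, ?_⟩
          apply Subtype.ext
          show g * (y : G) * g⁻¹ = (c : G)
          calc g * (y : G) * g⁻¹ = (g * z * g⁻¹)⁻¹ * (g * (z * (y : G)) * g⁻¹) := by group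
            _ = (c : G) := by rw [e2, hg]; group
        · intro h
          obtain ⟨d, hd⟩ := isConj_iff.mp h
          refine isConj_iff.mpr ⟨(d : G), ?_⟩
          rw [← hd]
          show (d : G) * (z * (y : G)) * (d : G)⁻¹ = z * ((d : G) * (y : G) * (d : G)⁻¹)
          rw [← mul_assoc, hcz d]
          group
      simp only [this]
    rw [h2, blockPart_indicator, blockPart_indicator, card_centralizer_mul hp y (hpp y hy)] at h1
    have h5 : (Nat.card (Subgroup.centralizer ({y} : Set (Subgroup.centralizer ({z} : Set G)))) : ℂ)⁻¹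
        ≠ 0 := by
      apply inv_ne_zero
      exact_mod_cast Nat.card_pos.ne'
    exact_mod_cast mul_left_cancel₀ h5 h1
  rw [finsum_mem_eq_finite_toFinset_sum _ (Set.toFinite _),
    finsum_mem_eq_finite_toFinset_sum _ (Set.toFinite _)]
  have t1 : (Set.toFinite (principalBlock M G)).toFinset
      = Finset.univ.filter (· ∈ principalBlock M G) := by ext; simp
  have t2 : (Set.toFinite (principalBlock M (Subgroup.centralizer ({z} : Set G)))).toFinset
      = Finset.univ.filter (· ∈ principalBlock M (Subgroup.centralizer ({z} : Set G))) := by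
    ext; simp
  rw [t1, t2]
  refine ⟨part1, ?_⟩
  rintro ⟨k', hk'⟩
  rw [part1]
  have hchar : (pPrimeCore p (Subgroup.centralizer ({z} : Set G))).Characteristic :=
    H12.pPrimeCore_characteristic p _
  haveI hKn : (pPrimeCore p (Subgroup.centralizer ({z} : Set G))).Normal := inferInstance
  have hKp : ¬ p ∣ Nat.card (pPrimeCore p (Subgroup.centralizer ({z} : Set G))) :=
    H12.not_dvd_card_pPrimeCore p
  have hyK : y ∈ pPrimeCore p (Subgroup.centralizer ({z} : Set G)) := by
    rw [← QuotientGroup.eq_one_iff]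
    have e1 : ((y : Subgroup.centralizer ({z} : Set G) ⧸
        pPrimeCore p (Subgroup.centralizer ({z} : Set G)))) ^ orderOf y = 1 := by
      rw [← QuotientGroup.mk_pow, pow_orderOf_eq_one]; rfl
    have e2 : ((y : Subgroup.centralizer ({z} : Set G) ⧸
        pPrimeCore p (Subgroup.centralizer ({z} : Set G)))) ^ (p ^ k') = 1 := by
      rw [← hk', Subgroup.index_eq_card]
      exact pow_card_eq_one'
    have e3 : Nat.Coprime (orderOf y) (p ^ k') :=
      Nat.Coprime.pow_right k' ((Nat.Prime.coprime_iff_not_dvd hp).mpr hy).symm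
    have e4 := pow_gcd_eq_one.mpr ⟨e1, e2⟩
    rwa [e3, pow_one] at e4
  have hS := Cfsg.Agent.S0939.result p M hM (G := Subgroup.centralizer ({z} : Set G)) ⟨k', hk'⟩
  have e5 : (((∑ χ ∈ Finset.univ.filter
      (· ∈ principalBlock M (Subgroup.centralizer ({z} : Set G))),
        ‖(χ : Subgroup.centralizer ({z} : Set G) → ℂ) y‖ ^ 2 : ℝ)) : ℂ) =
      ((pPrimeCore p (Subgroup.centralizer ({z} : Set G))).index : ℂ) := by
    rw [← sum_sq_of_ker, Complex.ofReal_sum]
    refine Finset.sum_congr ?_ fun χ hχ => ?_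
    · ext χ
      rw [Finset.mem_filter, Finset.mem_filter, hS]
      rfl
    · have h6 : (((‖(χ : Subgroup.centralizer ({z} : Set G) → ℂ) y‖ ^ 2 : ℝ)) : ℂ) =
          (χ : Subgroup.centralizer ({z} : Set G) → ℂ) y *
            conj ((χ : Subgroup.centralizer ({z} : Set G) → ℂ) y) := by
        rw [Complex.mul_conj, Complex.normSq_eq_norm_sq]
      rw [h6, (Finset.mem_filter.mp hχ).2 y hyK, conj_irr_apply_one, sq]
  have e6 : (Nat.card (Subgroup.centralizer ({z} : Set G))).factorization p = k' := by
    rw [← Subgroup.card_mul_index (pPrimeCore p (Subgroup.centralizer ({z} : Set G))), hk',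
      Nat.factorization_mul Nat.card_pos.ne' (pow_pos hp.pos _).ne', Finsupp.add_apply,
      Nat.factorization_eq_zero_of_not_dvd hKp, zero_add, hp.factorization_pow,
      Finsupp.single_eq_same]
  rw [e6, ← hk']
  exact_mod_cast e5

end Cfsg.Agent.S0947
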