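import Cfsg.Statements.S4665
import Cfsg.Agent.Lib.Helper23.Trunc5

set_option autoImplicit false
open Cfsg

namespace Cfsg.Agent.S4665

open Cfsg

open Cfsg Cfsg.Agent.CharLib Cfsg.Agent.BlockLib Cfsg.Agent.Lib.Helper23 Cfsg.Agent.Lib.Helper23.Trunc Cfsg.Agent.Lib.Helper23.MinMax
open scoped ComplexConjugate

/-- Fix a prime p, a maximal ideal M of the algebraic integers containing p, and a p-block B of the finite group G, and let p^a be the p-part of the order of G. Let χ be an integer combination of the irreducible characters in B. If the function that agrees with χ on p-regular elements and vanishes on p-singular elements is again an integer combination of the irreducible characters in B, then p^a divides χ(1). -/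
theorem result {G : Type*} [Group G] [Fintype G] (p : ℕ) [Fact p.Prime] (M : Ideal Cfsg.AlgInt) (hM : Cfsg.IsPModular p M) (B : Set (Cfsg.IrrCharacter G)) (hB : Cfsg.IsPBlock M B) (χ : G → ℂ) (hχ : (∃ n : Cfsg.IrrCharacter G → ℤ, ∀ g : G, χ g = ∑ᶠ ψ ∈ B, (n ψ : ℂ) * (ψ : G → ℂ) g)) (h0 : (∃ n : Cfsg.IrrCharacter G → ℤ, ∀ g : G, Cfsg.pRegularPart p χ g = ∑ᶠ ψ ∈ B, (n ψ : ℂ) * (ψ : G → ℂ) g)) : ∃ k : ℤ, χ 1 = (p ^ (Nat.card G).factorization p : ℂ) * k := by
  classical
  have hp : p.Prime := Fact.out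
  obtain ⟨n, hn⟩ := h0
  have hgen : IsGeneralizedCharacter G (Cfsg.pRegularPart p χ) := by
    rw [isGeneralizedCharacter_iff]
    refine ⟨fun ψ => if ψ ∈ B then n ψ else 0, ?_⟩
    funext g
    rw [hn g, finsum_mem_eq_sum_filter'', Finset.sum_filter, Finset.sum_apply]
    apply Finset.sum_congr rfl
    intro ψ _
    by_cases h : ψ ∈ B
    · simp [h]
    · simp [h]
  obtain ⟨k, hk⟩ := pow_dvd_of_vanish hp hgen (fun g hg => by rw [pRegularPart_apply, if_pos hg])
  refine ⟨k, ?_⟩
  rw [← hk, pRegularPart_apply, if_neg]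
  rw [orderOf_one]
  exact hp.one_lt.ne' ∘ Nat.dvd_one.1

end Cfsg.Agent.S4665
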