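import Cfsg.Statements.S4666
import Cfsg.Agent.Lib.Helper23.Trunc5

set_option autoImplicit false
open Cfsg

namespace Cfsg.Agent.S4666

open Cfsg

open Cfsg Cfsg.Agent.CharLib Cfsg.Agent.BlockLib Cfsg.Agent.Lib.Helper23 Cfsg.Agent.Lib.Helper23.Trunc Cfsg.Agent.Lib.Helper23.MinMax
open scoped ComplexConjugate

/-- Fix a prime p and a maximal ideal M of the algebraic integers containing p, and a p-block B of the finite group G of defect d. For every integer combination χ of the irreducible characters in B, p^d times the function that agrees with χ on p-regular elements and vanishes elsewhere is again an integer combination of the irreducible characters in B. -/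
theorem result {G : Type*} [Group G] [Fintype G] (p : ℕ) [Fact p.Prime] (M : Ideal Cfsg.AlgInt) (hM : Cfsg.IsPModular p M) (B : Set (Cfsg.IrrCharacter G)) (hB : Cfsg.IsPBlock M B) (χ : G → ℂ) (hχ : (∃ n : Cfsg.IrrCharacter G → ℤ, ∀ g : G, χ g = ∑ᶠ ψ ∈ B, (n ψ : ℂ) * (ψ : G → ℂ) g)) : (∃ n : Cfsg.IrrCharacter G → ℤ, ∀ g : G, (p ^ Cfsg.blockDefect p B : ℂ) * Cfsg.pRegularPart p χ g = ∑ᶠ ψ ∈ B, (n ψ : ℂ) * (ψ : G → ℂ) g) := by
  classical
  have hp : p.Prime := Fact.out
  obtain ⟨n, hn⟩ := hχ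
  set d := Cfsg.blockDefect p B with hd
  have hd' : d = (Nat.card G).factorization p - minExp p B := blockDefect_eq p B
  have hz : ∀ ψ : IrrCharacter G, ψ ∈ B → ∀ ν : IrrCharacter G, ∃ z : ℤ,
      classInner (trunc p ((p : ℂ) ^ d) (ψ : G → ℂ)) (ν : G → ℂ) = z := fun ψ hψ ν =>
    exists_int_classInner_trunc hp ψ ν d (by have := minExp_le (p := p) hψ; omega)
  choose z hz using hz
  set BB := Finset.univ.filter (fun ν : IrrCharacter G => ν ∈ B) with hBB
  refine ⟨fun ξ => ∑ ψ ∈ BB.attach, n ψ.1 * z ψ.1 (Finset.mem_filter.1 ψ.2).2 ξ, ?_⟩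
  intro g
  rw [finsum_mem_eq_sum_filter'', pRegularPart_apply, hn g, finsum_mem_eq_sum_filter'']
  have key : ∀ ψ : BB, (if p ∣ orderOf g then 0 else (p : ℂ) ^ d * (ψ.1 : G → ℂ) g) =
      ∑ ξ ∈ BB, (z ψ.1 (Finset.mem_filter.1 ψ.2).2 ξ : ℂ) * (ξ : G → ℂ) g := by
    intro ψ
    have h := congrFun (trunc_eq_sum_block hM hB ((p : ℂ) ^ d) (Finset.mem_filter.1 ψ.2).2) g
    rw [trunc_apply] at h
    rw [h, Finset.sum_apply]
    apply Finset.sum_congr rfl
    intro ξ _
    rw [Pi.smul_apply, hz, smul_eq_mul]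
  have h1 : (p : ℂ) ^ d * (if p ∣ orderOf g then 0 else ∑ a ∈ BB, (n a : ℂ) * (a : G → ℂ) g) =
      ∑ ψ ∈ BB.attach, (n ψ.1 : ℂ) * (if p ∣ orderOf g then 0 else (p : ℂ) ^ d * (ψ.1 : G → ℂ) g) := by
    rw [Finset.sum_attach BB (fun ψ => (n ψ : ℂ) * (if p ∣ orderOf g then 0 else (p : ℂ) ^ d * (ψ : G → ℂ) g))]
    split_ifs
    · simp
    · rw [Finset.mul_sum]
      apply Finset.sum_congr rfl
      intro a _
      ring
  rw [h1]
  simp only [key]
  push_cast
  simp only [Finset.mul_sum, Finset.sum_mul]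
  rw [Finset.sum_comm]
  apply Finset.sum_congr rfl
  intro ξ _
  apply Finset.sum_congr rfl
  intro ψ _
  ring

end Cfsg.Agent.S4666
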