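import Mathlib
import Cfsg.Statements.S4675
import Cfsg.Agent.S4665
import Cfsg.Agent.S4666
import Cfsg.Agent.S4667
import Cfsg.Agent.Lib.Helper23.MinMax
import Cfsg.Agent.BlockLib.KG.RedBlocks

set_option autoImplicit false
open Cfsg
open scoped ComplexConjugate

namespace Cfsg.Agent.S4675

open Cfsg.Agent.CharLib Cfsg.Agent.BlockLib Cfsg.Agent.Lib.Helper23 Cfsg.Agent.Lib.Helper23.Trunc
  Cfsg.Agent.Lib.Helper23.MinMax

theorem exists_bezout {ι : Type*} [DecidableEq ι] (s : Finset ι) (d : ι → ℕ) :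
    ∃ n : ι → ℤ, ∑ i ∈ s, n i * (d i : ℤ) = (s.gcd d : ℕ) := by
  induction s using Finset.induction_on with
  | empty => exact ⟨fun _ => 0, by simp⟩
  | insert a s ha ih =>
    obtain ⟨n, hn⟩ := ih
    refine ⟨fun i => if i = a then Nat.gcdA (d a) (s.gcd d) else Nat.gcdB (d a) (s.gcd d) * n i, ?_⟩
    rw [Finset.sum_insert ha, Finset.gcd_insert]
    simp only [if_true]
    have h1 : ∑ i ∈ s, (if i = a then Nat.gcdA (d a) (s.gcd d) else Nat.gcdB (d a) (s.gcd d) * n i)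
        * (d i : ℤ) = Nat.gcdB (d a) (s.gcd d) * ∑ i ∈ s, n i * (d i : ℤ) := by
      rw [Finset.mul_sum]
      refine Finset.sum_congr rfl fun i hi => ?_
      rw [if_neg (fun h : i = a => ha (h ▸ hi)), mul_assoc]
    rw [h1, hn]
    have h2 := Nat.gcd_eq_gcd_ab (d a) (s.gcd d)
    rw [show GCDMonoid.gcd (d a) (s.gcd d) = Nat.gcd (d a) (s.gcd d) from rfl, h2]
    ring

theorem exists_gcd_data {ι : Type*} [DecidableEq ι] (s : Finset ι) (v : ι → ℕ)
    (h : ∃ i ∈ s, v i ≠ 0) :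
    ∃ (g : ℕ) (d : ι → ℕ) (n : ι → ℤ), 0 < g ∧ (∀ i ∈ s, v i = g * d i) ∧
      ∑ i ∈ s, n i * (d i : ℤ) = 1 := by
  obtain ⟨i0, hi0, hv0⟩ := h
  obtain ⟨d, hd, hd1⟩ := Finset.extract_gcd v ⟨i0, hi0⟩
  obtain ⟨n, hn⟩ := exists_bezout s d
  refine ⟨s.gcd v, d, n, ?_, hd, by rw [hn, hd1]; rfl⟩
  rw [Nat.pos_iff_ne_zero]
  intro h0
  apply hv0
  rw [hd i0 hi0, h0, zero_mul]

/-- Fix a prime p and a maximal ideal M of the algebraic integers containing p. Let B be a p-block of the finite group G with defect group P and p-regular rank one (a single irreducible Brauer character). Then there are a function φ on G that is, on the p-regular elements, an integer combination of the members of B, and natural numbers d_χ (χ ∈ B), such that every χ ∈ B agrees with d_χ·φ on the p-regular elements and Σ_{χ ∈ B} d_χ² equals the order of P (the single Cartan invariant of B is the order of P). -/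
theorem result {G : Type*} [Group G] [Fintype G] (p : ℕ) [Fact p.Prime] (M : Ideal Cfsg.AlgInt) (hM : Cfsg.IsPModular p M) (B : Set (Cfsg.IrrCharacter G)) (hB : Cfsg.IsPBlock M B) (P : Subgroup G) (hP : Cfsg.IsDefectGroup p M B P) (hl : Cfsg.blockRank p B = 1) : ∃ φ : G → ℂ, ∃ d : Cfsg.IrrCharacter G → ℕ, (∃ n : Cfsg.IrrCharacter G → ℤ, ∀ x : G, Cfsg.IsPRegular p x → φ x = ∑ᶠ ψ ∈ B, (n ψ : ℂ) * (ψ : G → ℂ) x) ∧ (∀ χ ∈ B, ∀ x : G, Cfsg.IsPRegular p x → (χ : G → ℂ) x = (d χ : ℂ) * φ x) ∧ ∑ᶠ χ ∈ B, d χ ^ 2 = Nat.card P := by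
  classical
  have hp : p.Prime := Fact.out
  haveI := isPrime_of_isPModular hM
  obtain ⟨χ0, hχ0⟩ := pb_nonempty hB
  set s : Finset (IrrCharacter G) := Finset.univ.filter (· ∈ B) with hs
  have hmem : ∀ χ, χ ∈ s ↔ χ ∈ B := fun χ => by rw [hs, Finset.mem_filter]; simp
  obtain ⟨g, d, n, hg, hd, hn⟩ := exists_gcd_data s (fun χ => charDegree (χ : G → ℂ))
    ⟨χ0, (hmem χ0).mpr hχ0, (charDegree_pos_irr χ0).ne'⟩
  have hgC : (g : ℂ) ≠ 0 := by exact_mod_cast hg.ne'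
  have hdeg : ∀ χ ∈ B, (χ : G → ℂ) 1 = (g : ℂ) * (d χ : ℂ) := by
    intro χ hχ
    rw [← charDegree_cast_irr, hd χ ((hmem χ).mpr hχ)]
    push_cast
    ring
  have hχ01 : (χ0 : G → ℂ) 1 ≠ 0 := irr_apply_one_ne_zero χ0
  have hone : ¬ p ∣ orderOf (1 : G) := by
    rw [orderOf_one]; exact hp.one_lt.ne' ∘ Nat.dvd_one.1
  -- proportionality
  have hprop : ∀ χ ∈ B, pRegularPart p (χ : G → ℂ)
      = ((χ : G → ℂ) 1 / (χ0 : G → ℂ) 1) • pRegularPart p (χ0 : G → ℂ) := by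
    intro χ hχ
    set V := Submodule.span ℂ ((fun χ : IrrCharacter G => pRegularPart p (χ : G → ℂ)) '' B) with hV
    have hv0mem : pRegularPart p (χ0 : G → ℂ) ∈ V := Submodule.subset_span ⟨χ0, hχ0, rfl⟩
    have hvmem : pRegularPart p (χ : G → ℂ) ∈ V := Submodule.subset_span ⟨χ, hχ, rfl⟩
    have hv0 : (⟨_, hv0mem⟩ : V) ≠ 0 := by
      intro h
      have h1 : pRegularPart p (χ0 : G → ℂ) = 0 := congrArg Subtype.val h
      have h2 := congrFun h1 1
      rw [pRegularPart_apply, if_neg hone] at h2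
      exact hχ01 h2
    obtain ⟨c, hc⟩ := (finrank_eq_one_iff_of_nonzero' _ hv0).mp hl ⟨_, hvmem⟩
    have hc' : c • pRegularPart p (χ0 : G → ℂ) = pRegularPart p (χ : G → ℂ) :=
      congrArg Subtype.val hc
    have h1 := congrFun hc' 1
    rw [Pi.smul_apply, pRegularPart_apply, pRegularPart_apply, if_neg hone, if_neg hone,
      smul_eq_mul] at h1
    rw [← hc', ← h1]
    congr 1
    field_simp
  set φ : G → ℂ := ((g : ℂ) / (χ0 : G → ℂ) 1) • pRegularPart p (χ0 : G → ℂ) with hφ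
  have hφsing : ∀ x : G, p ∣ orderOf x → φ x = 0 := by
    intro x hx
    rw [hφ, Pi.smul_apply, pRegularPart_apply, if_pos hx, smul_zero]
  have hpart : ∀ χ ∈ B, ∀ x : G, pRegularPart p (χ : G → ℂ) x = (d χ : ℂ) * φ x := by
    intro χ hχ x
    rw [hprop χ hχ, hφ, Pi.smul_apply, Pi.smul_apply, hdeg χ hχ, smul_eq_mul, smul_eq_mul]
    field_simp
  have hval : ∀ χ ∈ B, ∀ x : G, ¬ p ∣ orderOf x → (χ : G → ℂ) x = (d χ : ℂ) * φ x := by
    intro χ hχ x hx
    rw [← hpart χ hχ x, pRegularPart_apply, if_neg hx]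
  have hnC : ∑ χ ∈ s, (n χ : ℂ) * (d χ : ℂ) = 1 := by exact_mod_cast hn
  set c : ℕ := ∑ χ ∈ s, d χ ^ 2 with hc
  set S : ℂ := ∑ x : G, φ x * φ x⁻¹ with hS
  have hGC : (Nat.card G : ℂ) ≠ 0 := by exact_mod_cast Nat.card_pos.ne'
  -- (a)
  have ha : (Nat.card G : ℂ) = (c : ℂ) * S := by
    have h1 := Cfsg.Agent.S4667.result p M hM B hB
    rw [hl, Nat.cast_one, mul_one] at h1
    rw [h1, hS, Finset.mul_sum]
    refine Finset.sum_congr rfl fun x _ => ?_
    rw [finsum_mem_eq_sum_filter'', ← hs, hc]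
    push_cast
    rw [Finset.sum_mul]
    refine Finset.sum_congr rfl fun χ hχ => ?_
    have hχB := (hmem χ).mp hχ
    rw [hpart χ hχB]
    by_cases hx : p ∣ orderOf x
    · rw [hφsing x hx]; ring
    · rw [hval χ hχB x⁻¹ (by rwa [orderOf_inv])]; ring
  have hc0 : (c : ℂ) ≠ 0 := by
    intro h
    rw [h, zero_mul] at ha
    exact hGC ha
  set D := blockDefect p B with hD
  -- (b)
  have hb : ∀ ψ ∈ B, ∀ ψ' ∈ B, ∃ m : ℤ, ((p ^ D * d ψ * d ψ' : ℕ) : ℤ) = (c : ℤ) * m := by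
    intro ψ hψ ψ' hψ'
    obtain ⟨m, hm⟩ := Cfsg.Agent.S4666.result p M hM B hB (ψ : G → ℂ)
      ⟨fun ψ'' => if ψ'' = ψ then 1 else 0, fun x => by
        rw [finsum_mem_eq_sum_filter'', ← hs, Finset.sum_eq_single ψ]
        · simp
        · intro b _ hb; simp [hb]
        · intro h; exact absurd ((hmem ψ).mpr hψ) h⟩
    refine ⟨m ψ', ?_⟩
    have h1 : classInner (fun x => (p ^ D : ℂ) * pRegularPart p (ψ : G → ℂ) x) (ψ' : G → ℂ)
        = (m ψ' : ℂ) := by
      have h2 : (fun x => (p ^ D : ℂ) * pRegularPart p (ψ : G → ℂ) x)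
          = fun x => ∑ ψ'' ∈ s, (m ψ'' : ℂ) * (ψ'' : G → ℂ) x := by
        funext x
        rw [hm x, finsum_mem_eq_sum_filter'']
      rw [h2, classInner]
      simp only [Finset.sum_mul]
      rw [Finset.sum_comm, Finset.mul_sum, Finset.sum_eq_single ψ']
      · have h3 := classInner_irr_self ψ'.2
        rw [classInner] at h3
        simp only [mul_assoc]
        rw [← Finset.mul_sum, mul_left_comm, h3, mul_one]
      · intro b _ hb
        have h3 := classInner_irr_ne b.2 ψ'.2 (fun h => hb (Subtype.ext h))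
        rw [classInner] at h3
        simp only [mul_assoc]
        rw [← Finset.mul_sum, mul_left_comm, h3, mul_zero]
      · intro h; exact absurd ((hmem ψ').mpr hψ') h
    have h4 : classInner (fun x => (p ^ D : ℂ) * pRegularPart p (ψ : G → ℂ) x) (ψ' : G → ℂ)
        = (Nat.card G : ℂ)⁻¹ * ((p ^ D : ℂ) * d ψ * d ψ' * S) := by
      rw [classInner, hS, Finset.mul_sum]
      have h6 : ∀ x : G, (p ^ D : ℂ) * pRegularPart p (ψ : G → ℂ) x * conj ((ψ' : G → ℂ) x)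
          = (p ^ D : ℂ) * d ψ * d ψ' * (φ x * φ x⁻¹) := by
        intro x
        rw [hpart ψ hψ, ← isCharacter_inv (isCharacter_of_irr ψ'.2)]
        by_cases hx : p ∣ orderOf x
        · rw [hφsing x hx]; ring
        · rw [hval ψ' hψ' x⁻¹ (by rwa [orderOf_inv])]; ring
      simp only [h6]
      rw [Finset.mul_sum, Finset.mul_sum]
    rw [h4, ha] at h1
    have h5 : ((p ^ D * d ψ * d ψ' : ℕ) : ℂ) = (c : ℂ) * (m ψ' : ℂ) := by
      rw [← h1]
      have hS0 : S ≠ 0 := by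
        intro h
        rw [h, mul_zero] at ha
        exact hGC ha
      push_cast
      field_simp
    exact_mod_cast h5
  have hcdvd : c ∣ p ^ D := by
    choose! m hm using hb
    have h1 : ((p ^ D : ℕ) : ℤ) = (c : ℤ) * ∑ ψ ∈ s, ∑ ψ' ∈ s, n ψ * n ψ' * m ψ ψ' := by
      have h2 : ((p ^ D : ℕ) : ℤ) = ((p ^ D : ℕ) : ℤ) * (∑ ψ ∈ s, n ψ * (d ψ : ℤ)) *
          (∑ ψ' ∈ s, n ψ' * (d ψ' : ℤ)) := by rw [hn]; ring
      rw [h2, mul_assoc, Finset.sum_mul_sum, Finset.mul_sum, Finset.mul_sum]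
      refine Finset.sum_congr rfl fun ψ hψ => ?_
      rw [Finset.mul_sum, Finset.mul_sum]
      refine Finset.sum_congr rfl fun ψ' hψ' => ?_
      have h3 := hm ψ ((hmem ψ).mp hψ) ψ' ((hmem ψ').mp hψ')
      push_cast at h3 ⊢
      linear_combination (n ψ * n ψ') * h3
    exact Int.natCast_dvd_natCast.mp ⟨_, h1⟩
  -- (c)
  have hΦsing : ∀ y : G, p ∣ orderOf y → ∑ ψ ∈ s, (d ψ : ℂ) * (ψ : G → ℂ) y = 0 := by
    intro y hy
    have h1 := blockCoeff_eq_zero_of_singular hM hB hy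
    rw [blockCoeff, finsum_mem_eq_sum_filter'', ← hs] at h1
    have h2 : ∑ ψ ∈ s, (ψ : G → ℂ) 1 * conj ((ψ : G → ℂ) y) = 0 := by
      rcases mul_eq_zero.mp h1 with h | h
      · exact absurd (inv_eq_zero.mp h) hGC
      · exact h
    have h3 := congrArg conj h2
    rw [map_sum, map_zero] at h3
    have h4 : (g : ℂ) * ∑ ψ ∈ s, (d ψ : ℂ) * (ψ : G → ℂ) y = 0 := by
      rw [← h3, Finset.mul_sum]
      refine Finset.sum_congr rfl fun ψ hψ => ?_
      rw [map_mul, Complex.conj_conj, conj_irr_apply_one, hdeg ψ ((hmem ψ).mp hψ)]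
      ring
    rcases mul_eq_zero.mp h4 with h | h
    · exact absurd h hgC
    · exact h
  have hpa : p ^ (Nat.card G).factorization p ∣ g * c := by
    obtain ⟨k, hk⟩ := Cfsg.Agent.S4665.result p M hM B hB
      (fun x => ∑ ψ ∈ s, (d ψ : ℂ) * (ψ : G → ℂ) x)
      ⟨fun ψ => (d ψ : ℤ), fun x => by
        rw [finsum_mem_eq_sum_filter'', ← hs]
        simp⟩
      ⟨fun ψ => (d ψ : ℤ), fun x => by
        rw [finsum_mem_eq_sum_filter'', ← hs, pRegularPart_apply]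
        split_ifs with hx
        · rw [← hΦsing x hx]; simp
        · simp⟩
    have h1 : ((g * c : ℕ) : ℂ) = ((p ^ (Nat.card G).factorization p : ℕ) : ℂ) * (k : ℂ) := by
      push_cast
      rw [← hk, hc]
      push_cast
      rw [Finset.mul_sum]
      refine Finset.sum_congr rfl fun ψ hψ => ?_
      rw [hdeg ψ ((hmem ψ).mp hψ)]
      ring
    have h2 : ((g * c : ℕ) : ℤ) = ((p ^ (Nat.card G).factorization p : ℕ) : ℤ) * k := by
      exact_mod_cast h1
    exact Int.natCast_dvd_natCast.mp ⟨_, h2⟩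
  have hcN : c ≠ 0 := by
    intro h
    apply hc0
    rw [h]; simp
  have hdvdc : p ^ D ∣ c := by
    obtain ⟨χ1, hχ1, hmin⟩ := exists_minExp (p := p) (pb_nonempty hB)
    have h1 : g ∣ charDegree (χ1 : G → ℂ) := ⟨_, hd χ1 ((hmem χ1).mpr hχ1)⟩
    have h2 : g.factorization p ≤ minExp p B := by
      rw [← hmin]
      exact (Nat.factorization_le_iff_dvd hg.ne' (charDegree_pos_irr χ1).ne').mpr h1 p
    have h3 := (hp.pow_dvd_iff_le_factorization (Nat.mul_ne_zero hg.ne' hcN)).mp hpa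
    rw [Nat.factorization_mul hg.ne' hcN, Finsupp.add_apply] at h3
    rw [hp.pow_dvd_iff_le_factorization hcN, hD, blockDefect_eq]
    omega
  have hceq : c = p ^ D := Nat.dvd_antisymm hcdvd hdvdc
  refine ⟨φ, d, ⟨n, fun x hx => ?_⟩, fun χ hχ x hx => hval χ hχ x hx, ?_⟩
  · rw [finsum_mem_eq_sum_filter'', ← hs]
    have h1 : ∑ ψ ∈ s, (n ψ : ℂ) * (ψ : G → ℂ) x = (∑ ψ ∈ s, (n ψ : ℂ) * (d ψ : ℂ)) * φ x := by
      rw [Finset.sum_mul]
      refine Finset.sum_congr rfl fun ψ hψ => ?_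
      rw [hval ψ ((hmem ψ).mp hψ) x hx]
      ring
    rw [h1, hnC, one_mul]
  · rw [finsum_mem_eq_sum_filter'', ← hs, ← hc, hceq, card_of_isDefectGroup hM hB hP]

end Cfsg.Agent.S4675
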