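import Cfsg.Statements.S4733
import Cfsg.Agent.Lib.Helper23.Defect01

set_option autoImplicit false
open Cfsg

namespace Cfsg.Agent.S4733

open Cfsg Cfsg.Agent.CharLib Cfsg.Agent.BlockLib Cfsg.Agent.Lib.Helper23 Cfsg.Agent.Lib.Helper23.MinMax Cfsg.Agent.Lib.Helper23.Defect01

/-- Let p be a prime, M a maximal ideal of the algebraic integers containing p, and B a p-block of the finite group G with k irreducible characters and p-regular rank l (the number of irreducible Brauer characters). Then l ≤ k, and the following are equivalent: B has defect 0; k = l = 1; k = l. -/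
theorem result {G : Type*} [Group G] [Finite G] (p : ℕ) [Fact p.Prime] (M : Ideal Cfsg.AlgInt) (hM : Cfsg.IsPModular p M) (B : Set (Cfsg.IrrCharacter G)) (hB : Cfsg.IsPBlock M B) : Cfsg.blockRank p B ≤ Nat.card B ∧ (Cfsg.blockDefect p B = 0 ↔ (Nat.card B = 1 ∧ Cfsg.blockRank p B = 1)) ∧ (Cfsg.blockDefect p B = 0 ↔ Nat.card B = Cfsg.blockRank p B) := by
  have hp := hM.1
  have hne := nonempty_of_isPBlock (ne_top_of_isPModular hM) hB
  have hle := blockRank_le_card p B
  have hpos := blockRank_pos hp hne
  have hback : Nat.card B = Cfsg.blockRank p B → Cfsg.blockDefect p B = 0 := fun h =>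
    defect_zero_of_vanish hp hne (vanish_of_card_eq_rank hM hB h)
  have hfor : Cfsg.blockDefect p B = 0 → Nat.card B = 1 ∧ Cfsg.blockRank p B = 1 := by
    intro h
    have h1 := Cfsg.Agent.S4494.result p M hM B hB
    rw [h, mul_zero, pow_zero] at h1
    omega
  refine ⟨hle, ⟨hfor, fun h => hback (by omega)⟩, ⟨fun h => ?_, hback⟩⟩
  have := hfor h
  omega

end Cfsg.Agent.S4733
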