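import Mathlib
import Cfsg.Statements.S4637
import Cfsg.Agent.H6.KleinBlkA
import Cfsg.Agent.H6.KleinParity
import Cfsg.Agent.H6.KleinAct
import Cfsg.Agent.BlockLib.KG.ConstrainedChar
import Cfsg.Agent.BlockLib.KG.ExtFirstMain
import Cfsg.Agent.S4733
import Cfsg.Agent.S4675

set_option autoImplicit false
open Cfsg

namespace Cfsg.Agent.S4637

open Cfsg.Agent.BlockLib Cfsg.Agent.CharLib Cfsg.Agent.Lib.Helper23.MinMax
open Cfsg.Agent.H6.SubsecCount Cfsg.Agent.H6.SubsecTr Cfsg.Agent.H6.KleinBlk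
open Cfsg.Agent.H6.KleinAct Cfsg.Agent.H6.KleinParity

local notation "C(" P ")" => Subgroup.centralizer (SetLike.coe P)
local notation "N(" P ")" => Subgroup.normalizer (SetLike.coe P)
local notation "Ce(" g ")" => Subgroup.centralizer (Singleton.singleton g : Set _)

/-- Let B be a block of the finite group G relative to a maximal ideal M of the algebraic integers containing 2, with a Klein four defect group P. Let c be a block of C_G(P) inducing B, T the stabilizer of c in N_G(P) and e the index of C_G(P) in T (the inertial index). Then e is 1 or 3, B contains exactly four irreducible characters, and the 2-regular rank of B (its number of irreducible Brauer characters) equals e. -/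
theorem result {G : Type*} [Group G] [Finite G] (M : Ideal Cfsg.AlgInt) (hM : Cfsg.IsPModular 2 M) (B : Set (Cfsg.IrrCharacter G)) (hB : Cfsg.IsPBlock M B) (P : Subgroup G) (hPD : Cfsg.IsDefectGroup 2 M B P) (hV : IsKleinFour P) (c : Set (Cfsg.IrrCharacter (Subgroup.centralizer (P : Set G)))) (hc : Cfsg.IsInducedBlock M (Subgroup.centralizer (P : Set G)) c B) (T : Subgroup G) (hT : ∀ g : G, g ∈ T ↔ (g ∈ Subgroup.normalizer (P : Set G) ∧ Cfsg.StabilizesBlock (Subgroup.centralizer (P : Set G)) c g)) (e : ℕ) (he : (Subgroup.centralizer (P : Set G)).relIndex T = e) : (e = 1 ∨ e = 3) ∧ Nat.card B = 4 ∧ Cfsg.blockRank 2 B = e := by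
  classical
  letI := Fintype.ofFinite G
  haveI : Fact (Nat.Prime 2) := ⟨Nat.prime_two⟩
  haveI := isPrime_of_isPModular hM
  haveI := charP_resField hM
  haveI := hV
  have hDG := (isDefectGroup_iff hB P).mp hPD
  have hP : IsPGroup 2 P := by
    obtain ⟨g, -, hg⟩ := hDG
    exact hg.1
  have hblk := hc.1
  have hBPOf : CA.IsBPOf 2 (eps M B) P (epsS M C(P) c) :=
    ⟨⟨hP, isBlk_epsS hblk⟩, isBlk_eps hB, (isInducedBlock_centralizer_iff_br hP hblk hB).mp hc⟩
  have hmax := CA.isMaxBP_of_isDefGrp hBPOf hDG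
  have hnd := hmax.not_dvd_relIndex
  have hab : IsMulCommutative P := IsKleinFour.isMulCommutative
  have hPC : P ≤ C(P) := by
    intro x hx
    rw [Subgroup.mem_centralizer_iff]
    intro y hy
    exact congrArg Subtype.val (hab.is_comm.comm (⟨y, hy⟩ : P) ⟨x, hx⟩)
  rw [sup_eq_right.mpr hPC] at hnd
  have hTeq : T = CA.stab P (epsS M C(P) c) := eq_stab hblk hT
  rw [← hTeq] at hnd
  have hTN : T ≤ N(P) := fun g hg => ((hT g).mp hg).1
  obtain ⟨h13, htr⟩ := klein_main hTN hnd
  rw [he] at h13 htr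
  have hcardP : Nat.card P = 4 := IsKleinFour.card_four
  obtain ⟨u, huP, hu1, -⟩ := exists_third (P := P) (u := 1)
  have hup : ∃ k : ℕ, orderOf u = 2 ^ k := by
    have h1 : orderOf u ∣ 2 ^ 2 := by
      have := Subgroup.orderOf_dvd_natCard P huP
      rwa [hcardP] at this
    obtain ⟨k, -, hk⟩ := (Nat.dvd_prime_pow Nat.prime_two).mp h1
    exact ⟨k, hk⟩
  obtain ⟨X, huX, hX, hXrep⟩ := Cfsg.Agent.Lib.Helper23.Subsect.exists_rep_set 2 u hup
  have hsum := Cfsg.Agent.S4511.result 2 M hM B hB X hX hXrep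
  have h1X : (1 : G) ∈ X := by
    obtain ⟨w, ⟨hwX, hc⟩, -⟩ := hXrep 1 ⟨0, by simp⟩
    obtain ⟨c, hc⟩ := isConj_iff.mp hc
    rw [← hc] at hwX
    simpa using hwX
  rw [← Finset.add_sum_erase X _ h1X,
    setOf_induced_of_eq_top 2 (centralizer_singleton_eq_top (Subgroup.one_mem _)) hB,
    finsum_mem_singleton, blockRank_topBlk] at hsum
  have hL : ∀ x ∈ X.erase 1, ∑ᶠ b ∈ {b : Set (IrrCharacter Ce(x)) | IsInducedBlock M Ce(x) b B},
      blockRank 2 b = (bel (eps M B) x).card := by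
    intro x hx
    obtain ⟨hx1, hxX⟩ := Finset.mem_erase.mp hx
    rw [← card_induced_eq (InvSyl.isPGroup_zpowers (hX x hxX)) hB]
    have h1 : ∑ᶠ b ∈ {b : Set (IrrCharacter Ce(x)) | IsInducedBlock M Ce(x) b B},
        blockRank 2 b = ∑ᶠ b ∈ {b : Set (IrrCharacter Ce(x)) | IsInducedBlock M Ce(x) b B}, 1 :=
      finsum_mem_congr rfl (fun b hb =>
        (subsection_rank_one hM hB hPD hcardP hab (hX x hxX) hx1 hb).1)
    rw [h1, finsum_mem_eq_finite_toFinset_sum _ (Set.toFinite _), Finset.sum_const, smul_eq_mul,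
      mul_one, ← Set.ncard_eq_toFinset_card _ (Set.toFinite _)]
    rfl
  rw [Finset.sum_congr rfl hL] at hsum
  have heq := centralizer_singleton_eq u
  obtain ⟨γ, hγ⟩ := (Cfsg.Agent.S0958.result 2 M hM (Subgroup.zpowers u) Ce(u)
    (InvSyl.isPGroup_zpowers hup)
    (sup_le (by rw [Subgroup.zpowers_le, Subgroup.mem_centralizer_singleton_iff]) heq.ge)
    (by rw [heq]; exact CA.centralizer_le_normalizer' _) B hB).mpr
    ⟨P, hPD, 1, by
      rw [MonoidHom.map_zpowers, Subgroup.zpowers_le]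
      simpa using huP⟩
  obtain ⟨hγ1, hγd⟩ := subsection_rank_one hM hB hPD hcardP hab hup hu1 hγ
  have hd2 := blockDefect_eq_two hM hB hPD hcardP
  have hk4 := card_le_four hM hB hd2 hup hγ hγd hγ1
  have hall : ∀ χ ∈ B, (charDegree (χ : G → ℂ)).factorization 2 = minExp 2 B := by
    intro χ hχ
    have h1 := minExp_le (p := 2) hχ
    have h2 : (charDegree (χ : G → ℂ)).factorization 2 - minExp 2 B = 0 :=
      Nat.le_zero.mp (((Cfsg.Agent.S4710.result 2 M hM B hB 2 hd2).2 χ hχ).2 le_rfl)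
    omega
  obtain ⟨k, hk⟩ := hup
  have heven : Even (Nat.card B) := even_card hM hk hγ hall (by omega)
  have hpos := Cfsg.Agent.Lib.Helper23.Defect01.blockRank_pos (p := 2) Nat.prime_two
    (pb_nonempty hB)
  refine ⟨h13, ?_⟩
  rcases h13 with h1 | h3
  · have hst : CA.stab P (epsS M C(P) c) ≤ C(P) := by
      rw [← hTeq]
      exact Subgroup.relIndex_eq_one.mp (he.trans h1)
    have hge := le_sum_card_bel hmax hPC X (fun g hg => by
      obtain ⟨j, hj⟩ := hg ⟨g, Subgroup.mem_zpowers g⟩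
      have h2 : g ^ 2 ^ j = 1 := congrArg Subtype.val hj
      obtain ⟨i, -, hi⟩ := (Nat.dvd_prime_pow Nat.prime_two).mp (orderOf_dvd_of_pow_eq_one h2)
      obtain ⟨x, ⟨hx, hc⟩, -⟩ := hXrep g ⟨i, hi⟩
      exact ⟨x, hx, hc⟩) hst
    rw [hcardP] at hge
    omega
  · have hle := sum_card_bel_le_one hmax X (fun x hx => InvSyl.isPGroup_zpowers (hX x hx))
      (fun x hx y hy hc => (hXrep x (hX x hx)).unique ⟨hx, IsConj.refl x⟩ ⟨hy, hc⟩)
      (by rw [← hTeq]; exact htr h3)
    have hne : Nat.card B ≠ blockRank 2 B := by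
      intro h
      have := ((Cfsg.Agent.S4733.result 2 M hM B hB).2.2).mpr h
      omega
    have hk2 : Nat.card B ≠ 2 := by
      intro h2
      have hl1 : blockRank 2 B = 1 := by omega
      obtain ⟨φ, d, -, hd, hdsum⟩ := Cfsg.Agent.S4675.result 2 M hM B hB P hPD hl1
      have hd0 : ∀ χ ∈ B, d χ ≠ 0 := by
        intro χ hχ h0
        have := hd χ hχ 1 (by simp [IsPRegular])
        rw [h0, Nat.cast_zero, zero_mul] at this
        exact irr_apply_one_ne_zero χ this
      obtain ⟨χ₁, χ₂, hne12, hB12⟩ := Set.ncard_eq_two.mp (show B.ncard = 2 from h2)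
      rw [hB12, finsum_mem_pair hne12, hcardP] at hdsum
      have h1 := hd0 χ₁ (by rw [hB12]; simp)
      have h2 := hd0 χ₂ (by rw [hB12]; simp)
      have h3 : d χ₁ ≤ 2 := by nlinarith
      have h4 : d χ₂ ≤ 2 := by nlinarith
      interval_cases d χ₁ <;> interval_cases d χ₂ <;> omega
    obtain ⟨m, hm⟩ := heven
    omega

end Cfsg.Agent.S4637
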