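import Cfsg.Statements.S1517
import Mathlib
import Cfsg.Agent.Lib.Helper10.CohUnif
-- import your own Cfsg.Agent.* helpers here

set_option autoImplicit false
open Cfsg

namespace Cfsg.Agent.S1517

open Cfsg.Agent.CharLib Cfsg.Agent.Lib.Helper10

/-- Let (S, τ, R) be a coherence system from L to G such that φ 1 = ψ 1 for all φ, ψ ∈ S. Then (S, L minus 1, τ) is coherent. -/
theorem result {L : Type*} [Group L] [Fintype L] {G : Type*} [Group G] [Fintype G] (S : Set (L → ℂ)) (τ : (L → ℂ) → (G → ℂ)) (R : (L → ℂ) → Finset (G → ℂ)) (hS : Cfsg.IsCoherenceSystem S τ R) (hdeg : ∀ φ ∈ S, ∀ ψ ∈ S, φ 1 = ψ 1) : Cfsg.IsCoherent S {1}ᶜ τ := by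
  classical
  obtain ⟨χ, hχ⟩ := hS.nonempty
  have hτ := hS.isometry
  obtain ⟨n, hnpos, hn⟩ := cs_norm_nat hS hχ
  have hχb : Cfsg.conjFun χ ∈ S := hS.conj_mem χ hχ
  have hδ : χ - Cfsg.conjFun χ ∈ zspanOn S {1}ᶜ := cs_sub_conj_mem hS hχ hχ hχb
  have hmem : ∀ ξ ∈ S, χ - ξ ∈ zspanOn S {1}ᶜ := fun ξ hξ => cs_sub_mem hS hχ hξ (hdeg χ hχ ξ hξ)
  have generic : ∀ c : (G → ℂ) → ℤ, ∑ α ∈ R χ, c α = n → ∑ α ∈ R χ, c α ^ 2 = n →
      IsGeneralizedCharacter G (∑ α ∈ R χ, (c α : ℂ) • α) ∧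
      classInner (∑ α ∈ R χ, (c α : ℂ) • α) (∑ α ∈ R χ, (c α : ℂ) • α) = n ∧
      classInner (∑ α ∈ R χ, (c α : ℂ) • α) (τ (χ - Cfsg.conjFun χ)) = n := by
    intro c h1 h2
    refine ⟨?_, ?_, ?_⟩
    · apply isGeneralizedCharacter_sum
      intro α hα
      exact isGeneralizedCharacter_intCast_smul (hS.virtual χ hχ α hα) _
    · rw [inner_comb_self _ _ _ (cs_R_one hS hχ) (cs_R_zero hS hχ)]
      have : ∑ α ∈ R χ, c α * c α = n := by rw [← h2]; exact Finset.sum_congr rfl fun α _ => by ring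
      rw [this]; simp
    · rw [hS.sum_eq χ hχ, sum_eq_comb, inner_comb_self _ _ _ (cs_R_one hS hχ) (cs_R_zero hS hχ)]
      simp only [mul_one]
      rw [h1]; simp
  by_cases hex : ∃ ξ₀ ∈ S, ξ₀ ≠ χ ∧ ξ₀ ≠ Cfsg.conjFun χ
  · obtain ⟨ξ₀, hξ₀, h1, h2⟩ := hex
    obtain ⟨n₀, -, hn₀⟩ := cs_norm_nat hS hξ₀
    obtain ⟨c₀, e₀, hdec₀, s1, s2, s3, s4⟩ := cs_split2 hS hχ hξ₀ h1 h2 (hdeg χ hχ ξ₀ hξ₀) hn hn₀
    obtain ⟨gX1, gX2, gX3⟩ := generic c₀ s1 s2
    apply cs_uniform_of_X hS hdeg hχ gX1 (gX2.trans hn.symm)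
    intro ξ hξ hne
    rw [hn]
    have hd0 := cs_R_disjoint hS hχ hξ₀ h1 h2
    have hXY₀ : classInner (∑ α ∈ R χ, (c₀ α : ℂ) • α) (∑ β ∈ R ξ₀, (e₀ β : ℂ) • β) = 0 :=
      inner_comb_zero _ _ _ _ (fun α hα β hβ => classInner_eq_zero_symm (hd0 β hβ α hα))
    by_cases c1 : ξ = Cfsg.conjFun χ
    · rw [c1]; exact gX3
    by_cases c2 : ξ = ξ₀
    · rw [c2, hdec₀, classInner_sub_right, gX2, hXY₀, sub_zero]
    by_cases c3 : ξ = Cfsg.conjFun ξ₀
    · have e1 : χ - ξ = (χ - ξ₀) + (ξ₀ - Cfsg.conjFun ξ₀) := by rw [c3]; abel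
      rw [e1, lio_add hτ (hmem ξ₀ hξ₀) (cs_sub_conj_mem hS hξ₀ hξ₀ (hS.conj_mem ξ₀ hξ₀)), hdec₀,
        hS.sum_eq ξ₀ hξ₀, classInner_add_right, classInner_sub_right, gX2, hXY₀, sum_eq_comb,
        inner_comb_zero _ _ _ _ (fun α hα β hβ => classInner_eq_zero_symm (hd0 β hβ α hα))]
      ring
    · obtain ⟨nξ, -, hnξ⟩ := cs_norm_nat hS hξ
      obtain ⟨c, e, hdec, -⟩ := cs_split2 hS hχ hξ hne c1 (hdeg χ hχ ξ hξ) hn hnξ
      have hd1 := cs_R_disjoint hS hχ hξ hne c1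
      have hd2 := cs_R_disjoint hS hξ₀ hξ c2 c3
      have key := lio_inner hτ (hmem ξ₀ hξ₀) (hmem ξ hξ)
      rw [hdec₀, hdec, classInner_sub_left, classInner_sub_right, classInner_sub_right,
        inner_comb_zero (R χ) (R ξ) c₀ e (fun α hα β hβ => classInner_eq_zero_symm (hd1 β hβ α hα)),
        inner_comb_zero (R ξ₀) (R χ) e₀ c (fun α hα β hβ => hd0 α hα β hβ),
        inner_comb_zero (R ξ₀) (R ξ) e₀ e (fun α hα β hβ => classInner_eq_zero_symm (hd2 β hβ α hα)),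
        classInner_sub_left, classInner_sub_right, classInner_sub_right, hn,
        hS.orthogonal χ hχ ξ hξ (Ne.symm hne), hS.orthogonal ξ₀ hξ₀ χ hχ h1,
        hS.orthogonal ξ₀ hξ₀ ξ hξ (Ne.symm c2)] at key
      rw [hdec, classInner_sub_right,
        inner_comb_zero (R χ) (R ξ) c₀ e (fun α hα β hβ => classInner_eq_zero_symm (hd1 β hβ α hα))]
      linear_combination key
  · push Not at hex
    have hcard : (R χ).card = 2 * n := by
      have h1 := lio_inner hτ hδ hδ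
      rw [hS.sum_eq χ hχ, sum_eq_comb, inner_comb_self _ _ _ (cs_R_one hS hχ) (cs_R_zero hS hχ),
        classInner_sub_left, classInner_sub_right, classInner_sub_right, hn, cs_orth_conj hS hχ,
        classInner_eq_zero_symm (cs_orth_conj hS hχ), cs_norm_conj hS hχ, hn] at h1
      simp only [mul_one, Finset.sum_const, nsmul_eq_mul] at h1
      have : (((R χ).card : ℕ) : ℂ) = ((2 * n : ℕ) : ℂ) := by
        push_cast; push_cast at h1; rw [h1]; ring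
      exact_mod_cast this
    obtain ⟨E, hE, hEcard⟩ := Finset.exists_subset_card_eq (s := R χ) (n := n) (by omega)
    have s1 : ∑ α ∈ R χ, (if α ∈ E then (1 : ℤ) else 0) = n := by
      rw [Finset.sum_ite_mem, Finset.inter_eq_right.2 hE]
      simp [hEcard]
    have s2 : ∑ α ∈ R χ, (if α ∈ E then (1 : ℤ) else 0) ^ 2 = n := by
      rw [← s1]
      refine Finset.sum_congr rfl fun α _ => ?_
      split_ifs <;> simp
    obtain ⟨gX1, gX2, gX3⟩ := generic (fun α => if α ∈ E then (1 : ℤ) else 0) s1 s2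
    apply cs_uniform_of_X hS hdeg hχ gX1 (gX2.trans hn.symm)
    intro ξ hξ hne
    rw [hn, hex ξ hξ hne]
    exact gX3

end Cfsg.Agent.S1517
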