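import Mathlib
import Cfsg.Statements.S1498
import Cfsg.Agent.Lib.Helper10.Pow

set_option autoImplicit false
open Cfsg Cfsg.Agent.Lib.Helper10

namespace Cfsg.Agent.S1498

theorem map_le {G : Type*} [Group G] [Finite G] (A : Set G) (L : Subgroup G) (H : G → Subgroup G) (hD : Cfsg.DadeHypothesis A L H) (a : G) (ha : a ∈ A) (x : G) (hx : x ∈ L) :
    (H a).map (MulAut.conj x).toMonoidHom ≤ H (x * a * x⁻¹) := by
  rintro y ⟨u, hu, rfl⟩
  change x * u * x⁻¹ ∈ H (x * a * x⁻¹)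
  set b := x * a * x⁻¹ with hb
  have hbA : b ∈ A := hD.conj_mem x hx a ha
  have hau : a * u = u * a := by
    have := hD.le_centralizer a ha hu
    rw [Subgroup.mem_centralizer_iff] at this
    exact this a rfl
  have hy : x * u * x⁻¹ ∈ H b ⊔ (L ⊓ Subgroup.centralizer ({b} : Set G)) := by
    rw [hD.sup_eq b hbA, Subgroup.mem_centralizer_iff]
    intro z hz
    rw [Set.mem_singleton_iff.1 hz, hb]
    calc x * a * x⁻¹ * (x * u * x⁻¹) = x * (a * u) * x⁻¹ := by group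
      _ = x * (u * a) * x⁻¹ := by rw [hau]
      _ = x * u * x⁻¹ * (x * a * x⁻¹) := by group
  have hC : (L ⊓ Subgroup.centralizer ({b} : Set G)) ≤ Subgroup.normalizer (H b : Set G) := by
    rw [Subgroup.le_normalizer_iff]
    intro c hc n hn
    exact hD.conj_mem_H b hbA c (Subgroup.mem_inf.1 hc).2 n hn
  apply mem_of_mem_sup_of_pow (H b) _ hC (hD.inf_eq_bot b hbA) hy (Nat.card (H a))
  · rw [conj_pow, pow_card_subgroup_eq_one _ hu]; simp
  · exact hD.coprime a ha b hbA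

theorem result {G : Type*} [Group G] [Finite G] (A : Set G) (L : Subgroup G) (H : G → Subgroup G) (hD : Cfsg.DadeHypothesis A L H) (a : G) (ha : a ∈ A) (x : G) (hx : x ∈ L) : H (x * a * x⁻¹) = (H a).map (MulAut.conj x).toMonoidHom := by
  apply le_antisymm _ (map_le A L H hD a ha x hx)
  intro y hy
  have hbA : x * a * x⁻¹ ∈ A := hD.conj_mem x hx a ha
  have h1 := map_le A L H hD (x * a * x⁻¹) hbA x⁻¹ (L.inv_mem hx)
  have h2 : x⁻¹ * (x * a * x⁻¹) * x⁻¹⁻¹ = a := by group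
  rw [h2] at h1
  have h3 : x⁻¹ * y * x⁻¹⁻¹ ∈ H a := h1 ⟨y, hy, rfl⟩
  refine ⟨x⁻¹ * y * x⁻¹⁻¹, h3, ?_⟩
  change x * (x⁻¹ * y * x⁻¹⁻¹) * x⁻¹ = y
  group

end Cfsg.Agent.S1498
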