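import Mathlib
import Cfsg.Statements.S1499
import Cfsg.Agent.Lib.Helper10.Pow

set_option autoImplicit false
open Cfsg Cfsg.Agent.Lib.Helper10

namespace Cfsg.Agent.S1499

theorem key {G : Type*} [Group G] [Finite G] (A : Set G) (L : Subgroup G) (H : G → Subgroup G) (hD : Cfsg.DadeHypothesis A L H) (a b : G) (ha : a ∈ A) (hb : b ∈ A)
    (u v g : G) (hu : u ∈ H a) (hv : v ∈ H b) (h : g * (a * u) * g⁻¹ = b * v) : g * a * g⁻¹ = b := by
  set l := Nat.card ↥(L ⊓ Subgroup.centralizer ({a} : Set G)) * Nat.card ↥(L ⊓ Subgroup.centralizer ({b} : Set G)) with hl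
  set m := Nat.card (H a) * Nat.card (H b) with hm
  have hcop : l.Coprime m := by
    rw [hl, hm]
    apply Nat.Coprime.mul_left <;> apply Nat.Coprime.mul_right
    · exact (hD.coprime a ha a ha).symm
    · exact (hD.coprime b hb a ha).symm
    · exact (hD.coprime a ha b hb).symm
    · exact (hD.coprime b hb b hb).symm
  obtain ⟨k, hk⟩ := pow_crt l m hcop
  have haC : a ∈ L ⊓ Subgroup.centralizer ({a} : Set G) :=
    Subgroup.mem_inf.2 ⟨hD.subset ha, by rw [Subgroup.mem_centralizer_iff]; intro x hx; rw [Set.mem_singleton_iff.1 hx]⟩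
  have hbC : b ∈ L ⊓ Subgroup.centralizer ({b} : Set G) :=
    Subgroup.mem_inf.2 ⟨hD.subset hb, by rw [Subgroup.mem_centralizer_iff]; intro x hx; rw [Set.mem_singleton_iff.1 hx]⟩
  have hal : a ^ l = 1 := by rw [hl, pow_mul, pow_card_subgroup_eq_one _ haC, one_pow]
  have hbl : b ^ l = 1 := by rw [hl, mul_comm, pow_mul, pow_card_subgroup_eq_one _ hbC, one_pow]
  have hum : u ^ m = 1 := by rw [hm, pow_mul, pow_card_subgroup_eq_one _ hu, one_pow]
  have hvm : v ^ m = 1 := by rw [hm, mul_comm, pow_mul, pow_card_subgroup_eq_one _ hv, one_pow]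
  have hau : a * u = u * a := by
    have := hD.le_centralizer a ha hu
    rw [Subgroup.mem_centralizer_iff] at this
    exact this a rfl
  have hbv : b * v = v * b := by
    have := hD.le_centralizer b hb hv
    rw [Subgroup.mem_centralizer_iff] at this
    exact this b rfl
  have h1 := hk a u hau hal hum
  have h2 := hk b v hbv hbl hvm
  have h3 := congrArg (fun z => z ^ k) h
  simp only [conj_pow, h1, h2] at h3
  exact h3

theorem result {G : Type*} [Group G] [Finite G] (A : Set G) (L : Subgroup G) (H : G → Subgroup G) (hD : Cfsg.DadeHypothesis A L H) (a b : G) (ha : a ∈ A) (hb : b ∈ A) : ((∃ u ∈ H a, ∃ v ∈ H b, ∃ g : G, g * (a * u) * g⁻¹ = b * v) → ∃ x ∈ L, x * a * x⁻¹ = b) ∧ Subgroup.normalizer ((fun u : G => a * u) '' (H a : Set G)) = Subgroup.centralizer ({a} : Set G) := by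
  constructor
  · rintro ⟨u, hu, v, hv, g, h⟩
    have h1 := key A L H hD a b ha hb u v g hu hv h
    obtain ⟨x, hx, hx'⟩ := hD.fusion a ha g (by rw [h1]; exact hb)
    exact ⟨x, hx, by rw [hx', h1]⟩
  · apply le_antisymm
    · intro g hg
      rw [Subgroup.mem_set_normalizer_iff] at hg
      have h1 : a ∈ (fun u : G => a * u) '' (H a : Set G) := ⟨1, (H a).one_mem, by simp⟩
      obtain ⟨v, hv, hv'⟩ := (hg a).1 h1
      have h2 := key A L H hD a a ha ha 1 v g (H a).one_mem hv (by simpa using hv'.symm)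
      rw [Subgroup.mem_centralizer_iff]
      intro x hx
      rw [Set.mem_singleton_iff.1 hx]
      calc a * g = (g * a * g⁻¹) * g := by rw [h2]
        _ = g * a := by group
    · have hfor : ∀ c ∈ Subgroup.centralizer ({a} : Set G), ∀ n ∈ (fun u : G => a * u) '' (H a : Set G),
          c * n * c⁻¹ ∈ (fun u : G => a * u) '' (H a : Set G) := by
        rintro c hc n ⟨u, hu, rfl⟩
        refine ⟨c * u * c⁻¹, hD.conj_mem_H a ha c hc u hu, ?_⟩
        rw [Subgroup.mem_centralizer_iff] at hc
        have hca : a * c = c * a := hc a rfl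
        change a * (c * u * c⁻¹) = c * (a * u) * c⁻¹
        calc a * (c * u * c⁻¹) = (a * c) * u * c⁻¹ := by group
          _ = (c * a) * u * c⁻¹ := by rw [hca]
          _ = c * (a * u) * c⁻¹ := by group
      intro c hc
      rw [Subgroup.mem_set_normalizer_iff]
      intro n
      constructor
      · exact hfor c hc n
      · intro h
        have := hfor c⁻¹ (Subgroup.inv_mem _ hc) _ h
        simpa [mul_assoc] using this

end Cfsg.Agent.S1499
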