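import Cfsg.Statements.S1474
import Cfsg.Agent.Lib.Helper10.FrobCN
import Cfsg.Agent.S0039
-- import your own Cfsg.Agent.* helpers here

set_option autoImplicit false
open Cfsg Cfsg.Agent.Lib.Helper10
set_option linter.style.haveILetI false

namespace Cfsg.Agent.S1474

/-- Let G be a finite group in which every non-identity element has nilpotent centralizer, not itself nilpotent, and having a nontrivial normal Sylow p-subgroup for some prime p. Let H be the largest normal nilpotent Hall subgroup of G. Then H is a nontrivial proper normal subgroup with a complement E that is a Frobenius complement in G (no non-identity element of E centralizes a non-identity element of H), and G/H is nilpotent. -/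
theorem result {G : Type*} [Group G] [Finite G] (hCN : Cfsg.IsCNGroup G) (hnn : ¬ Group.IsNilpotent G) (p : ℕ) [Fact p.Prime] (P : Sylow p G)
    (hP1 : (P : Subgroup G) ≠ ⊥) (hPn : (P : Subgroup G).Normal) :
    Cfsg.fittingHall G ≠ ⊥ ∧ Cfsg.fittingHall G ≠ ⊤ ∧
      (∃ E : Subgroup G, Subgroup.IsComplement' (Cfsg.fittingHall G) E ∧ Cfsg.IsFrobeniusComplement E ∧
        ∀ e ∈ E, e ≠ 1 → Cfsg.fittingHall G ⊓ Subgroup.centralizer ({e} : Set G) = ⊥) ∧
      Group.IsNilpotent (G ⧸ Cfsg.fittingHall G) := by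
  obtain ⟨hHnil, hHall⟩ := fittingHall_spec (G := G)
  set H := fittingHall G with hH
  have hPH : (P : Subgroup G) ≤ H := le_fittingHall hPn P.2.isNilpotent P.card_coprime_index
  have hH1 : H ≠ ⊥ := fun h0 => hP1 (eq_bot_iff.2 (h0 ▸ hPH))
  have hHtop : H ≠ ⊤ := by
    intro h0
    apply hnn
    rw [h0] at hHnil
    exact Group.nilpotent_of_mulEquiv Subgroup.topEquiv
  obtain ⟨E, hE⟩ := Subgroup.exists_right_complement'_of_coprime hHall
  have hcop : (Nat.card H).Coprime (Nat.card E) := by
    rw [← hE.symm.index_eq_card]; exact hHall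
  have hfpf : ∀ e ∈ E, e ≠ 1 → H ⊓ Subgroup.centralizer ({e} : Set G) = ⊥ := fun e he he1 =>
    cn_fpf hCN H E hHnil hH1 hcop (fun N h1 h2 h3 => le_fittingHall h1 h2 h3) he he1
  have hE1 : E ≠ ⊥ := by
    intro h0
    rw [h0, Subgroup.isComplement'_bot_right] at hE
    exact hHtop hE
  refine ⟨hH1, hHtop, ⟨E, hE, (Cfsg.Agent.S0039.result H E hE hH1 hE1).2 hfpf, hfpf⟩, ?_⟩
  haveI hEnil := cn_compl_nilpotent hCN H E hHnil hH1 hE hfpf
  exact Group.nilpotent_of_mulEquiv hE.symm.QuotientMulEquiv.symm

end Cfsg.Agent.S1474
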