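import Mathlib
import Cfsg.Statements.S1496
import Cfsg.Agent.Lib.Helper10.Coprime

set_option autoImplicit false
open Cfsg Cfsg.Agent.Lib.Helper10 Cfsg.H1
open scoped Pointwise

namespace Cfsg.Agent.S1496

theorem result {G : Type*} [Group G] [Finite G] (H : Subgroup G) (g : G) (hg : g ∈ Subgroup.normalizer (H : Set G)) (hcop : Nat.Coprime (orderOf g) (Nat.card H)) (h : G) (hh : h ∈ H) : ∃ x ∈ H, ∃ c ∈ H, c * g = g * c ∧ x * (h * g) * x⁻¹ = c * g := by
  set A := Subgroup.zpowers g with hAdef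
  set n := orderOf g with hn
  set m := Nat.card H with hm
  have hcardA : Nat.card A = n := Nat.card_zpowers g
  have hA : A ≤ Subgroup.normalizer (H : Set G) := by
    rw [hAdef, Subgroup.zpowers_le]; exact hg
  have hcop' : (Nat.card H).Coprime (Nat.card A) := by rw [hcardA]; exact hcop.symm
  have hHA : H ⊓ A = ⊥ := Subgroup.inf_eq_bot_of_coprime hcop'
  have hgA : g ∈ A := Subgroup.mem_zpowers g
  obtain ⟨k, hk1, hk0⟩ := Nat.chineseRemainder hcop 1 0
  set y := h * g with hy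
  set u := y ^ k with hu
  obtain ⟨hk, hkH, hyk⟩ := mul_pow_mem_mul H h g hh hg k
  have hgk : g ^ k = g := by
    have : g ^ k = g ^ 1 := by rw [pow_eq_pow_iff_modEq]; exact hk1
    rw [this, pow_one]
  have hu' : u = hk * g := by rw [hu, hy, hyk, hgk]
  obtain ⟨hn', hnH, hyn⟩ := mul_pow_mem_mul H h g hh hg n
  have hynH : y ^ n ∈ H := by rw [hy, hyn, hn, pow_orderOf_eq_one, mul_one]; exact hnH
  have hun : u ^ n = 1 := by
    obtain ⟨t, ht⟩ := (Nat.modEq_zero_iff_dvd.1 hk0)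
    rw [hu, ← pow_mul, ht, mul_comm m t, mul_assoc, mul_comm m n, mul_comm t, pow_mul, pow_mul,
      pow_card_subgroup_eq_one H hynH, one_pow]
  have hordu : orderOf u = n := by
    apply Nat.dvd_antisymm (orderOf_dvd_of_pow_eq_one hun)
    rw [hn]
    apply orderOf_dvd_of_pow_eq_one
    obtain ⟨h', h'H, e⟩ := mul_pow_mem_mul H hk g hkH hg (orderOf u)
    rw [← hu', pow_orderOf_eq_one] at e
    have : g ^ orderOf u ∈ H ⊓ A := by
      refine Subgroup.mem_inf.2 ⟨?_, A.pow_mem hgA _⟩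
      have : g ^ orderOf u = h'⁻¹ := eq_inv_of_mul_eq_one_right e.symm
      rw [this]; exact H.inv_mem h'H
    rwa [hHA, Subgroup.mem_bot] at this
  have hB : Subgroup.zpowers u ≤ H ⊔ A := by
    rw [Subgroup.zpowers_le, hu']
    exact Subgroup.mul_mem _ (le_sup_left (a := H) (b := A) hkH) (le_sup_right (a := H) (b := A) hgA)
  have hsolv : Group.IsSolvable A := by
    apply Group.isSolvable_of_comm
    intro a b
    have : IsMulCommutative (Subgroup.zpowers g) := inferInstance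
    exact Subtype.ext (setLike_mul_comm (s := Subgroup.zpowers g) a.2 b.2)
  obtain ⟨x₀, hx₀, hx₀A⟩ := sz_internal H A (Subgroup.zpowers u) hA hB hcop'
    (by rw [Nat.card_zpowers, hordu, hcardA]) (Or.inr hsolv)
  have hxu : x₀⁻¹ * u * x₀ ∈ A := by
    rw [← mem_conj_smul_iff, hx₀A]; exact Subgroup.mem_zpowers u
  have hconjH : ∀ z ∈ H, g * z * g⁻¹ ∈ H := fun z hz => (Subgroup.mem_normalizer_iff.1 hg z).1 hz
  have hxug : x₀⁻¹ * u * x₀ = g := by
    have h1 : x₀⁻¹ * u * x₀ * g⁻¹ ∈ H ⊓ A := by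
      refine Subgroup.mem_inf.2 ⟨?_, A.mul_mem hxu (A.inv_mem hgA)⟩
      have e : x₀⁻¹ * u * x₀ * g⁻¹ = x₀⁻¹ * hk * (g * x₀ * g⁻¹) := by rw [hu']; group
      rw [e]
      exact H.mul_mem (H.mul_mem (H.inv_mem hx₀) hkH) (hconjH _ hx₀)
    rw [hHA, Subgroup.mem_bot] at h1
    exact mul_inv_eq_one.1 h1
  refine ⟨x₀⁻¹, H.inv_mem hx₀, x₀⁻¹ * h * (g * x₀ * g⁻¹), ?_, ?_, ?_⟩
  · exact H.mul_mem (H.mul_mem (H.inv_mem hx₀) hh) (hconjH _ hx₀)
  · have e1 : x₀⁻¹ * h * (g * x₀ * g⁻¹) * g = x₀⁻¹ * y * x₀ := by rw [hy]; group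
    have e2 : (x₀⁻¹ * y * x₀) ^ k = g := by
      have := conj_pow (a := x₀⁻¹) (b := y) (i := k)
      rw [inv_inv] at this
      rw [this, ← hu, hxug]
    have e3 : Commute (x₀⁻¹ * y * x₀) g := by
      rw [← e2]
      exact (Commute.refl _).pow_right k
    have e4 : (x₀⁻¹ * h * (g * x₀ * g⁻¹) * g) * g = g * (x₀⁻¹ * h * (g * x₀ * g⁻¹) * g) := by
      rw [e1]; exact e3.eq
    have := mul_right_cancel (a := x₀⁻¹ * h * (g * x₀ * g⁻¹) * g) (b := g) (c := g * (x₀⁻¹ * h * (g * x₀ * g⁻¹)))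
      (by rw [e4]; group)
    exact this
  · rw [hy]; group

end Cfsg.Agent.S1496
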