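import Mathlib
import Cfsg.Statements.S1512
import Cfsg.Agent.S1496

set_option autoImplicit false
open Cfsg Cfsg.Agent.Lib.Helper10

namespace Cfsg.Agent.S1512

theorem result {L : Type*} [Group L] [Finite L] (K W₂ : Subgroup L) [hK : K.Normal] (x : L) (hx1 : x ≠ 1) (hx : Nat.Coprime (orderOf x) (Nat.card K)) (hC : ∀ y ∈ Subgroup.zpowers x, y ≠ 1 → K ⊓ Subgroup.centralizer ({y} : Set L) = W₂) : Nat.card {C : ConjClasses K // ConjClasses.map (MulEquiv.toMonoidHom ((MulAut.conjNormal x : MulAut K))) C = C} ≤ Nat.card W₂ := by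
  have hW : K ⊓ Subgroup.centralizer ({x} : Set L) = W₂ := hC x (Subgroup.mem_zpowers x) hx1
  have hWK : W₂ ≤ K := by rw [← hW]; exact inf_le_left
  have key : ∀ C : {C : ConjClasses K // ConjClasses.map (MulEquiv.toMonoidHom ((MulAut.conjNormal x : MulAut K))) C = C},
      ∃ w : W₂, ConjClasses.mk (⟨(w : L), hWK w.2⟩ : K) = C.1 := by
    rintro ⟨C, hCinv⟩
    obtain ⟨k, rfl⟩ := ConjClasses.exists_rep C
    change ConjClasses.mk ((MulAut.conjNormal x : MulAut K) k) = ConjClasses.mk k at hCinv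
    rw [ConjClasses.mk_eq_mk_iff_isConj, isConj_iff] at hCinv
    obtain ⟨h, hh⟩ := hCinv
    have hh' : (h : L) * (x * k * x⁻¹) * (h : L)⁻¹ = k := by
      have := congrArg (fun z : K => (z : L)) hh
      simpa using this
    obtain ⟨z, hz, c, hc, hcx, hzc⟩ := Cfsg.Agent.S1496.result K x (Subgroup.normalizer_eq_top K ▸ Subgroup.mem_top x) hx h h.2
    -- `h x` commutes with `k`
    have h1 : ((h : L) * x) * k = k * ((h : L) * x) := by
      calc ((h : L) * x) * k = ((h : L) * (x * k * x⁻¹) * (h : L)⁻¹) * ((h : L) * x) := by group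
        _ = k * ((h : L) * x) := by rw [hh']
    set k' : L := z * k * z⁻¹ with hk'
    have h2 : (c * x) * k' = k' * (c * x) := by
      rw [← hzc, hk']
      calc z * ((h : L) * x) * z⁻¹ * (z * k * z⁻¹) = z * (((h : L) * x) * k) * z⁻¹ := by group
        _ = z * (k * ((h : L) * x)) * z⁻¹ := by rw [h1]
        _ = z * k * z⁻¹ * (z * ((h : L) * x) * z⁻¹) := by group
    obtain ⟨j, hj⟩ := pow_crt (orderOf x) (Nat.card K) hx
    have h3 : (x * c) ^ j = x := hj x c hcx.symm (pow_orderOf_eq_one x) (pow_card_subgroup_eq_one K hc)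
    have h4 : Commute x k' := by
      rw [← h3, ← hcx]
      exact (show Commute (c * x) k' from h2).pow_left j
    have hk'K : k' ∈ K := K.mul_mem (K.mul_mem hz k.2) (K.inv_mem hz)
    have hk'W : k' ∈ W₂ := by
      rw [← hW]
      refine Subgroup.mem_inf.2 ⟨hk'K, ?_⟩
      rw [Subgroup.mem_centralizer_iff]
      intro y hy
      rw [Set.mem_singleton_iff.1 hy]
      exact h4.eq
    refine ⟨⟨k', hk'W⟩, ?_⟩
    rw [ConjClasses.mk_eq_mk_iff_isConj, isConj_comm, isConj_iff]
    exact ⟨⟨z, hz⟩, Subtype.ext (by simp [hk'])⟩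
  choose f hf using key
  apply Nat.card_le_card_of_injective f
  intro C D hCD
  apply Subtype.ext
  rw [← hf C, ← hf D, hCD]

end Cfsg.Agent.S1512
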