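import Cfsg.Statements.S1528
import Mathlib
import Cfsg.Agent.Lib.Helper10.FixedIrr
-- import your own Cfsg.Agent.* helpers here

set_option autoImplicit false
open Cfsg
open Cfsg.Agent.CharLib Cfsg.Agent.CharLib.H2 Cfsg.Agent.Lib.Helper10

namespace Cfsg.Agent.S1528

/-- Let N be a normal subgroup of the finite group G such that every element of G commuting with a non-identity element of N lies in N. If χ is an irreducible character of G with χ n ≠ χ 1 for some n ∈ N, then χ is the function induced from some irreducible character of N. -/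
theorem result {G : Type*} [Group G] [Fintype G] (N : Subgroup G) [N.Normal] (hC : ∀ n ∈ N, n ≠ 1 → Subgroup.centralizer ({n} : Set G) ≤ N) (χ : G → ℂ) (hχ : Cfsg.IsIrrCharacter G χ) (hker : ∃ n ∈ N, χ n ≠ χ 1) : ∃ φ : N → ℂ, Cfsg.IsIrrCharacter N φ ∧ χ = Cfsg.indFun N φ := by
  classical
  haveI : Fintype N := Fintype.ofFinite N
  have hN : N.Normal := inferInstance
  have hcl : IsClassFunction G χ := isClassFunction_of_irr hχ
  have hclN : IsClassFunction N (fun n : N => χ n) := by
    intro g h
    exact hcl g h
  -- a non-principal constituent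
  have hex : ∃ φ : IrrCharacter N, (φ : N → ℂ) ≠ (fun _ => 1) ∧ classInner (fun n : N => χ n) φ ≠ 0 := by
    by_contra hno
    push Not at hno
    obtain ⟨n, hn, hne⟩ := hker
    have h1 := classFunction_eq_sum hclN
    rw [Finset.sum_eq_single (⟨fun _ => 1, isIrrCharacter_one⟩ : IrrCharacter N)] at h1
    · have h2 := congrFun h1 ⟨n, hn⟩
      have h3 := congrFun h1 1
      simp only [Pi.smul_apply, smul_eq_mul, mul_one, OneMemClass.coe_one] at h2 h3
      exact hne (h2.trans h3.symm)
    · intro φ _ hφ
      rw [hno φ (fun h => hφ (Subtype.ext h)), zero_smul]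
    · intro h
      exact absurd (Finset.mem_univ _) h
  obtain ⟨φ, hφ1, hφ⟩ := hex
  have hstab : Nat.card {g : G // H2.conjFun hN φ g = φ} = Nat.card N := by
    apply Nat.card_congr
    refine Equiv.subtypeEquivRight (fun g => ?_)
    constructor
    · intro hg
      obtain ⟨k, hk1, hk⟩ := (fixed_irr_iff_fixed_class hN g).1 ⟨φ, φ.2, hφ1, hg⟩
      obtain ⟨c, hc⟩ := isConj_iff.mp hk
      have e : (c : G) * (g * k * g⁻¹) * (c : G)⁻¹ = k := congrArg Subtype.val hc
      have e2 : (k : G) * ((c : G) * g) = ((c : G) * g) * k := by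
        calc (k : G) * ((c : G) * g) = ((c : G) * (g * k * g⁻¹) * (c : G)⁻¹) * ((c : G) * g) := by rw [e]
          _ = ((c : G) * g) * k := by group
      have h3 : (c : G) * g ∈ Subgroup.centralizer ({(k : G)} : Set G) := by
        rw [Subgroup.mem_centralizer_iff]
        intro x hx
        rw [Set.mem_singleton_iff] at hx
        rw [hx]
        exact e2
      have h4 := hC k k.2 (fun h => hk1 (Subtype.ext h)) h3
      have := N.mul_mem (N.inv_mem c.2) h4
      simpa using this
    · intro hg
      exact conjFun_of_mem hN (isClassFunction_of_irr φ.2) hg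
  have hirr : IsIrrCharacter G (indFun N (φ : N → ℂ)) := by
    apply isIrrCharacter_of_norm_one (isCharacter_indFun N (isCharacter_of_irr φ.2))
    have h1 := card_mul_norm_indFun hN φ.2
    rw [hstab] at h1
    have h0 := card_subgroup_ne_zero N
    exact mul_left_cancel₀ h0 (by rw [h1, mul_one])
  refine ⟨φ, φ.2, ?_⟩
  by_contra hne
  have h1 := classInner_irr_ne hirr hχ (fun h => hne h.symm)
  rw [frobenius_reciprocity N _ hcl, ← classInner_conj_symm] at h1
  apply hφ
  simpa using h1

end Cfsg.Agent.S1528
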