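import Cfsg.Statements.S0590
import Cfsg.Agent.Lib.Helper13.EA

set_option autoImplicit false
open Cfsg

namespace Cfsg.Agent.S0590

open Cfsg.Agent.Lib.Helper13
open scoped commutatorElement

/-- Quadratic action on an elementary abelian p-group forces the acting group modulo the kernel of the action to be elementary abelian. -/
theorem result {G : Type*} [Group G] [Finite G] {p : ℕ} [Fact p.Prime] (V H : Subgroup G) (hV : Cfsg.IsElementaryAbelian p V) (hHV : H ≤ Subgroup.normalizer (V : Set G)) (hq : ⁅⁅V, H⁆, H⁆ = ⊥) : ⁅H, H⁆ ≤ Subgroup.centralizer (V : Set G) ∧ ∀ a ∈ H, a ^ p ∈ Subgroup.centralizer (V : Set G) := by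
  constructor
  · rw [← Subgroup.commutator_eq_bot_iff_le_centralizer]
    apply Subgroup.commutator_commutator_eq_bot_of_rotate
    · rw [Subgroup.commutator_comm H V]; exact hq
    · exact hq
  · intro a ha
    rw [Subgroup.mem_centralizer_iff]
    intro v hv
    have hc : ⁅v, a⁆ ∈ ⁅V, H⁆ := Subgroup.commutator_mem_commutator hv ha
    have hcV : ⁅v, a⁆ ∈ V := (Subgroup.le_normalizer_iff_commutator_le_left.mp hHV) hc
    have hcc : a * ⁅v, a⁆ = ⁅v, a⁆ * a :=
      Subgroup.mem_centralizer_iff.mp ((Subgroup.commutator_eq_bot_iff_le_centralizer.mp hq) hc) a ha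
    have h1 : v * a * v⁻¹ = ⁅v, a⁆ * a := by rw [commutatorElement_def]; group
    have h2 : v * a ^ p * v⁻¹ = a ^ p := by
      rw [← conj_pow, h1, (show Commute ⁅v, a⁆ a from hcc.symm).mul_pow, hV.2 _ hcV, one_mul]
    calc v * a ^ p = (v * a ^ p * v⁻¹) * v := by group
      _ = a ^ p * v := by rw [h2]

end Cfsg.Agent.S0590
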