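import Cfsg.Statements.S0444
import Mathlib
import Cfsg.Agent.Lib.Helper18.PermEmb

set_option autoImplicit false
open Cfsg

namespace Cfsg.Agent.S0444

open Subgroup

/-- Two members of a set of 3-transpositions which do not commute generate a subgroup isomorphic to the symmetric group on three letters. -/
theorem result {G : Type*} [Group G] {E : Set G} (hE : Cfsg.IsThreeTranspositionSet E) {d e : G} (hd : d ∈ E) (he : e ∈ E) (h : ¬ Commute d e) : Nonempty (Subgroup.closure ({d, e} : Set G) ≃* Equiv.Perm (Fin 3)) := by
  classical
  obtain ⟨hord, hprod⟩ := hE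
  have hd2 : d * d = 1 := by
    have := pow_orderOf_eq_one d
    rwa [hord d hd, pow_two] at this
  have he2 : e * e = 1 := by
    have := pow_orderOf_eq_one e
    rwa [hord e he, pow_two] at this
  have hdinv : d⁻¹ = d := inv_eq_of_mul_eq_one_left hd2
  have heinv : e⁻¹ = e := inv_eq_of_mul_eq_one_left he2
  have h3 : (d * e) ^ 3 = 1 := by
    rcases hprod d hd e he with h2 | h3
    · exfalso
      apply h
      rw [pow_two] at h2
      have : d * e = (d * e)⁻¹ := eq_inv_of_mul_eq_one_left h2
      rw [mul_inv_rev, hdinv, heinv] at this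
      exact this
    · exact h3
  have hbraid : e * d * e = d * e * d := by
    have h4 : d * e * (d * e) * (d * e) = 1 := by rw [← h3]; simp only [pow_succ, pow_zero, one_mul]
    calc e * d * e = d⁻¹ * (d * e * (d * e) * (d * e)) * e⁻¹ * d⁻¹ := by group
      _ = d * e * d := by rw [h4, hdinv, heinv]; group
  set H := closure ({d, e} : Set G) with hH
  have hdH : d ∈ H := subset_closure (by simp)
  have heH : e ∈ H := subset_closure (by simp)
  set S : Finset G := {1, d, e, d * e, e * d, d * e * d} with hS
  have hmulD : ∀ y ∈ S, d * y ∈ S := by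
    intro y hy
    simp only [hS, Finset.mem_insert, Finset.mem_singleton] at hy ⊢
    rcases hy with rfl | rfl | rfl | rfl | rfl | rfl
    · simp
    · left; exact hd2
    · simp
    · right; right; left; rw [← mul_assoc, hd2, one_mul]
    · right; right; right; right; right; rw [mul_assoc]
    · right; right; right; right; left; rw [mul_assoc d e d, ← mul_assoc, hd2, one_mul]
  have hmulE : ∀ y ∈ S, e * y ∈ S := by
    intro y hy
    simp only [hS, Finset.mem_insert, Finset.mem_singleton] at hy ⊢
    rcases hy with rfl | rfl | rfl | rfl | rfl | rfl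
    · simp
    · simp
    · left; exact he2
    · right; right; right; right; right; rw [← mul_assoc, hbraid]
    · right; left; rw [← mul_assoc, he2, one_mul]
    · right; right; right; left; rw [← hbraid, mul_assoc e d e, ← mul_assoc, he2, one_mul]
  have hHS : ∀ x ∈ H, x ∈ S := by
    intro x hx
    induction hx using closure_induction_left with
    | one => simp [hS]
    | mul_left x hx y _ ih =>
      rcases hx with rfl | rfl
      · exact hmulD y ih
      · exact hmulE y ih
    | inv_mul_cancel x hx y _ ih =>
      rcases hx with rfl | rfl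
      · rw [hdinv]; exact hmulD y ih
      · rw [heinv]; exact hmulE y ih
  have hfin : Finite H := by
    apply Set.Finite.subset (Finset.finite_toSet S)
    intro x hx
    exact hHS x hx
  have hle : Nat.card H ≤ 6 := by
    have h5 : (H : Set G).ncard ≤ (S : Set G).ncard :=
      Set.ncard_le_ncard (fun x hx => hHS x hx) (Finset.finite_toSet S)
    rw [Set.ncard_coe_finset] at h5
    exact h5.trans Finset.card_le_six
  have h2dvd : 2 ∣ Nat.card H := by
    have := orderOf_dvd_natCard (⟨d, hdH⟩ : H)
    rwa [Subgroup.orderOf_mk, hord d hd] at this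
  have hde1 : d * e ≠ 1 := by
    intro h5
    apply h
    have : d = e⁻¹ := eq_inv_of_mul_eq_one_left h5
    rw [heinv] at this
    rw [this]
  have h3dvd : 3 ∣ Nat.card H := by
    have h6 : orderOf (d * e) = 3 := orderOf_eq_prime h3 hde1
    have := orderOf_dvd_natCard (⟨d * e, H.mul_mem hdH heH⟩ : H)
    rwa [Subgroup.orderOf_mk, h6] at this
  have hcard : Nat.card H = 6 := by
    have h6 : 6 ∣ Nat.card H := Nat.Coprime.mul_dvd_of_dvd_of_dvd (by norm_num) h2dvd h3dvd
    have hpos : 0 < Nat.card H := Nat.card_pos
    exact le_antisymm hle (Nat.le_of_dvd hpos h6)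
  set d' : H := ⟨d, hdH⟩ with hd'
  set e' : H := ⟨e, heH⟩ with he'
  set D : Subgroup H := zpowers d' with hD
  have hDcard : Nat.card D = 2 := by
    rw [hD, Nat.card_zpowers, Subgroup.orderOf_mk, hord d hd]
  have hidx : D.index = 3 := by
    have := D.card_mul_index
    rw [hDcard, hcard] at this
    omega
  have hcore : D.normalCore = ⊥ := by
    by_contra hne
    have h7 : D.normalCore = D := by
      have : Fact (Nat.card D).Prime := ⟨by rw [hDcard]; exact Nat.prime_two⟩
      have h8 := Subgroup.eq_bot_or_eq_top_of_prime_card (D.normalCore.subgroupOf D)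
      rcases h8 with h8 | h8
      · exfalso
        apply hne
        rw [subgroupOf_eq_bot, disjoint_iff, inf_eq_left.mpr D.normalCore_le] at h8
        exact h8
      · exact le_antisymm D.normalCore_le (subgroupOf_eq_top.mp h8)
    have h8 : D.Normal := h7 ▸ D.normalCore_normal
    have h9 : e' * d' * e'⁻¹ ∈ D := h8.conj_mem d' (mem_zpowers d') e'
    obtain ⟨k, hk⟩ := mem_zpowers_iff.mp h9
    have hk' : d ^ k = e * d * e⁻¹ := by
      have := congrArg Subtype.val hk
      simpa using this
    have hdd : d ^ (2 : ℤ) = 1 := by
      rw [zpow_ofNat, pow_two, hd2]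
    apply h
    rcases Int.even_or_odd' k with ⟨m, rfl | rfl⟩
    · rw [zpow_mul, hdd, one_zpow] at hk'
      have : d = 1 := by
        have h10 : d = e⁻¹ * (e * d * e⁻¹) * e := by group
        rw [h10, ← hk']; group
      rw [this]; exact Commute.one_left e
    · rw [zpow_add, zpow_mul, hdd, one_zpow, one_mul, zpow_one] at hk'
      have : d * e = e * d := by
        calc d * e = e * d * e⁻¹ * e := by rw [← hk']
          _ = e * d := by group
      exact this
  refine Cfsg.Agent.Lib.Helper18.mulEquiv_perm_of_injective
    (MulAction.toPermHom H (H ⧸ D)) ?_ 3 ?_ ?_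
  · rw [← MonoidHom.ker_eq_bot_iff, ← normalCore_eq_ker, hcore]
  · rw [← index_eq_card, hidx]
  · rw [hcard]; rfl

end Cfsg.Agent.S0444
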