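import Cfsg.Statements.S0755
import Mathlib
-- import your own Cfsg.Agent.* helpers here
import Cfsg.Agent.H5.Herm

set_option autoImplicit false
open Cfsg

namespace Cfsg.Agent.S0755

open Cfsg.Agent.H5Herm


/-- Classification of Hermitian forms over finite fields: if σ is a non-identity involutive automorphism of the finite field F and B is a non-degenerate conjugate-symmetric σ-sesquilinear form on the finite-dimensional space V, then V has a B-orthonormal basis. -/
theorem result {F V : Type*} [Field F] [Finite F] [AddCommGroup V] [Module F V] [FiniteDimensional F V] (σ : F →+* F) (hσ : σ ≠ RingHom.id F) (hσ2 : ∀ a : F, σ (σ a) = a) (B : V →ₛₗ[σ] V →ₗ[F] F) (hS : B.IsSymm) (hB : B.Nondegenerate) : ∃ b : Module.Basis (Fin (Module.finrank F V)) F V, ∀ i j, B (b i) (b j) = if i = j then 1 else 0 := by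
  classical
  obtain ⟨b, hb⟩ := exists_orthonormal σ hσ hσ2 _ V B hS hB.1 rfl
  have hli : LinearIndependent F b := by
    rw [Fintype.linearIndependent_iff]
    intro c hc j
    have := congrArg (fun z => B (b j) z) hc
    simpa [map_sum, hb] using this
  have hcard : Fintype.card (Fin (Module.finrank F V)) = Module.finrank F V := Fintype.card_fin _
  refine ⟨Module.Basis.mk hli (le_of_eq (hli.span_eq_top_of_card_eq_finrank' hcard).symm), ?_⟩
  intro i j
  simp only [Module.Basis.coe_mk]
  exact hb i j

end Cfsg.Agent.S0755
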