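import Cfsg.Statements.S0237
import Mathlib

set_option autoImplicit false
open Cfsg

namespace Cfsg.Agent.S0237

/-- If x is real (conjugate to x⁻¹) in a finite group G, the number of g with g x g⁻¹ = x⁻¹ equals |C_G(x)|. -/
theorem result {G : Type*} [Group G] [Finite G] (x : G) (hreal : IsConj x x⁻¹) : Nat.card {g : G // g * x * g⁻¹ = x⁻¹} = Nat.card (Subgroup.centralizer ({x} : Set G)) := by
  obtain ⟨g₀, hg₀⟩ := isConj_iff.mp hreal
  apply Nat.card_congr
  exact
    { toFun := fun g => ⟨g₀⁻¹ * g.1, by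
        rw [Subgroup.mem_centralizer_singleton_iff]
        have h1 : g.1 * x * g.1⁻¹ = g₀ * x * g₀⁻¹ := by rw [g.2, hg₀]
        calc g₀⁻¹ * g.1 * x = g₀⁻¹ * (g.1 * x * g.1⁻¹) * g.1 := by group
          _ = g₀⁻¹ * (g₀ * x * g₀⁻¹) * g.1 := by rw [h1]
          _ = x * (g₀⁻¹ * g.1) := by group⟩
      invFun := fun c => ⟨g₀ * c.1, by
        have hc := Subgroup.mem_centralizer_singleton_iff.mp c.2
        calc g₀ * c.1 * x * (g₀ * c.1)⁻¹ = g₀ * (c.1 * x) * c.1⁻¹ * g₀⁻¹ := by group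
          _ = g₀ * (x * c.1) * c.1⁻¹ * g₀⁻¹ := by rw [hc]
          _ = g₀ * x * g₀⁻¹ := by group
          _ = x⁻¹ := hg₀⟩
      left_inv := fun g => by simp
      right_inv := fun c => by simp }

end Cfsg.Agent.S0237
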