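import Cfsg.Statements.S0236
import Mathlib
import Cfsg.Agent.Lib.Helper2.Dihedral

set_option autoImplicit false
open Cfsg

namespace Cfsg.Agent.S0236

/-- If x is an involution, the number of ordered pairs (u, v) of involutions with uv = x, plus one, equals the number of involutions in the centralizer of x. -/
theorem result {G : Type*} [Group G] [Finite G] (x : G) (hx : orderOf x = 2) : Nat.card {p : G × G // orderOf p.1 = 2 ∧ orderOf p.2 = 2 ∧ p.1 * p.2 = x} + 1 = Nat.card {t : G // orderOf t = 2 ∧ Commute t x} := by
  classical
  have hx2 := Cfsg.Agent.Lib.Helper2.sq_eq_one_of_orderOf_two hx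
  have hxi := Cfsg.Agent.Lib.Helper2.inv_eq_self_of_orderOf_two hx
  have e : {t : G // orderOf t = 2 ∧ Commute t x} ≃
      Option {p : G × G // orderOf p.1 = 2 ∧ orderOf p.2 = 2 ∧ p.1 * p.2 = x} :=
    { toFun := fun t => if h : t.1 = x then none else some ⟨(t.1, t.1 * x), t.2.1, by
          obtain ⟨t, ht, htx⟩ := t
          simp only at h ⊢
          have ht2 := Cfsg.Agent.Lib.Helper2.sq_eq_one_of_orderOf_two ht
          rw [Cfsg.Agent.Lib.Helper2.orderOf_eq_two_iff]
          constructor
          · calc t * x * (t * x) = t * (x * t) * x := by group
              _ = t * (t * x) * x := by rw [htx.eq]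
              _ = (t * t) * (x * x) := by group
              _ = 1 := by rw [ht2, hx2, one_mul]
          · intro h1
            apply h
            calc t = t * (x * x) := by rw [hx2, mul_one]
              _ = (t * x) * x := by group
              _ = x := by rw [h1, one_mul], by
          have ht2 := Cfsg.Agent.Lib.Helper2.sq_eq_one_of_orderOf_two t.2.1
          simp only
          rw [← mul_assoc, ht2, one_mul]⟩
      invFun := fun o => match o with
        | none => ⟨x, hx, Commute.refl x⟩
        | some p => ⟨p.1.1, p.2.1, by
            obtain ⟨⟨u, v⟩, hu, hv, huv⟩ := p
            simp only at hu hv huv ⊢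
            have hu2 := Cfsg.Agent.Lib.Helper2.sq_eq_one_of_orderOf_two hu
            have hui := Cfsg.Agent.Lib.Helper2.inv_eq_self_of_orderOf_two hu
            have hvi := Cfsg.Agent.Lib.Helper2.inv_eq_self_of_orderOf_two hv
            have h1 : v * u = u * v := by
              have : (u * v)⁻¹ = u * v := by rw [huv, hxi]
              rw [mul_inv_rev, hui, hvi] at this
              exact this
            show u * x = x * u
            rw [← huv, mul_assoc, h1]⟩
      left_inv := by
        intro t
        by_cases h : t.1 = x
        · simp only [dif_pos h]
          exact Subtype.ext h.symm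
        · simp only [dif_neg h]
      right_inv := by
        intro o
        cases o with
        | none => simp
        | some p =>
          obtain ⟨⟨u, v⟩, hu, hv, huv⟩ := p
          simp only at hu hv huv
          have hu2 := Cfsg.Agent.Lib.Helper2.sq_eq_one_of_orderOf_two hu
          have hne : u ≠ x := by
            intro h
            have hv1 : v = 1 := by
              have : u * v = u * 1 := by rw [huv, h, mul_one]
              exact mul_left_cancel this
            exact Cfsg.Agent.Lib.Helper2.ne_one_of_orderOf_two hv hv1
          simp only [dif_neg hne]
          congr 1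
          apply Subtype.ext
          simp only
          rw [← huv, ← mul_assoc, hu2, one_mul] }
  rw [Nat.card_congr e, Finite.card_option]

end Cfsg.Agent.S0236
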