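import Cfsg.Statements.S0238
import Mathlib
import Cfsg.Agent.Lib.Helper2.Dihedral
import Cfsg.Agent.S0236
import Cfsg.Agent.S0237

set_option autoImplicit false
open Cfsg

namespace Cfsg.Agent.S0238

/-- For every x in a finite group G, the number c of ordered pairs (u, v) of involutions with uv = x is at most |C_G(x)|; c = 0 when x is not conjugate to x⁻¹; and c + 2 ≤ |C_G(x)| when x is an involution. -/
theorem result {G : Type*} [Group G] [Finite G] (x : G) : Nat.card {p : G × G // orderOf p.1 = 2 ∧ orderOf p.2 = 2 ∧ p.1 * p.2 = x} ≤ Nat.card (Subgroup.centralizer ({x} : Set G)) ∧ (¬ IsConj x x⁻¹ → Nat.card {p : G × G // orderOf p.1 = 2 ∧ orderOf p.2 = 2 ∧ p.1 * p.2 = x} = 0) ∧ (orderOf x = 2 → Nat.card {p : G × G // orderOf p.1 = 2 ∧ orderOf p.2 = 2 ∧ p.1 * p.2 = x} + 2 ≤ Nat.card (Subgroup.centralizer ({x} : Set G))) := by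
  classical
  set P := {p : G × G // orderOf p.1 = 2 ∧ orderOf p.2 = 2 ∧ p.1 * p.2 = x} with hP
  have hinvert : ∀ p : P, p.1.1 * x * p.1.1⁻¹ = x⁻¹ := by
    rintro ⟨⟨u, v⟩, hu, hv, huv⟩
    simp only at hu hv huv ⊢
    have hu2 := Cfsg.Agent.Lib.Helper2.sq_eq_one_of_orderOf_two hu
    have hui := Cfsg.Agent.Lib.Helper2.inv_eq_self_of_orderOf_two hu
    have hvi := Cfsg.Agent.Lib.Helper2.inv_eq_self_of_orderOf_two hv
    rw [← huv, mul_inv_rev, hui, hvi, ← mul_assoc, hu2, one_mul]
  have hinj : Function.Injective (fun p : P => (⟨p.1.1, hinvert p⟩ : {g : G // g * x * g⁻¹ = x⁻¹})) := by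
    rintro ⟨⟨u, v⟩, hu, hv, huv⟩ ⟨⟨u', v'⟩, hu', hv', huv'⟩ h
    simp only at huv huv'
    have h1 : u = u' := congrArg Subtype.val h
    subst h1
    have h2 : v = v' := mul_left_cancel (huv.trans huv'.symm)
    subst h2
    rfl
  have hnotreal : ¬ IsConj x x⁻¹ → Nat.card P = 0 := by
    intro hn
    have : IsEmpty P := ⟨fun p => hn (isConj_iff.mpr ⟨p.1.1, hinvert p⟩)⟩
    exact Nat.card_of_isEmpty
  refine ⟨?_, hnotreal, ?_⟩
  · by_cases hreal : IsConj x x⁻¹
    · rw [← Cfsg.Agent.S0237.result x hreal]
      exact Nat.card_le_card_of_injective _ hinj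
    · rw [hnotreal hreal]
      exact Nat.zero_le _
  · intro hx
    have h1 := Cfsg.Agent.S0236.result x hx
    have h2 : Nat.card {t : G // orderOf t = 2 ∧ Commute t x} + 1 ≤
        Nat.card (Subgroup.centralizer ({x} : Set G)) := by
      rw [← Finite.card_option]
      apply Nat.card_le_card_of_injective
        (fun o : Option {t : G // orderOf t = 2 ∧ Commute t x} => match o with
          | none => (1 : Subgroup.centralizer ({x} : Set G))
          | some t => ⟨t.1, Subgroup.mem_centralizer_singleton_iff.mpr t.2.2.eq⟩)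
      intro a b hab
      cases a with
      | none =>
        cases b with
        | none => rfl
        | some t =>
          exfalso
          have : (1 : G) = t.1 := congrArg Subtype.val hab
          exact Cfsg.Agent.Lib.Helper2.ne_one_of_orderOf_two t.2.1 this.symm
      | some s =>
        cases b with
        | none =>
          exfalso
          have : s.1 = (1 : G) := congrArg Subtype.val hab
          exact Cfsg.Agent.Lib.Helper2.ne_one_of_orderOf_two s.2.1 this
        | some t =>
          have : s.1 = t.1 :=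
            congrArg (Subtype.val : Subgroup.centralizer ({x} : Set G) → G) hab
          rw [Subtype.ext this]
    have h1' : Nat.card P + 1 = Nat.card {t : G // orderOf t = 2 ∧ Commute t x} := h1
    omega

end Cfsg.Agent.S0238
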