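import Mathlib
import Cfsg.Statements.S1005
import Cfsg.Agent.S1003
import Cfsg.Agent.CharLib.Orth

set_option autoImplicit false
set_option maxHeartbeats 1000000
open Cfsg

namespace Cfsg.Agent.S1005

open Cfsg.Agent.S1003 Cfsg.Agent.CharLib

theorem ord_conj {G : Type*} [Group G] (c a : G) : orderOf (c * a * c⁻¹) = orderOf a := by
  have := orderOf_injective (MulAut.conj c).toMonoidHom (MulAut.conj c).injective a
  simpa using this

theorem self_mem_cent {G : Type*} [Group G] (x : G) : x ∈ Subgroup.centralizer ({x} : Set G) := by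
  rw [Subgroup.mem_centralizer_iff]
  intro z hz
  rw [Set.mem_singleton_iff] at hz
  rw [hz]

theorem mem_cent_iff {G : Type*} [Group G] (x g : G) :
    g ∈ Subgroup.centralizer ({x} : Set G) ↔ x * g = g * x := by
  rw [Subgroup.mem_centralizer_iff]
  constructor
  · intro h; exact h x rfl
  · intro h z hz
    rw [Set.mem_singleton_iff] at hz
    rw [hz]; exact h

theorem cent_card {G : Type*} [Group G] [Finite G] [IsSimpleGroup G] {p r : ℕ} [Fact p.Prime]
    (hr : r.Prime) (x : G) (hx : orderOf x = p)
    (Q : Sylow p G) (hQ : (Q : Subgroup G) = Subgroup.zpowers x)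
    (hN : Nat.card (Subgroup.normalizer ((Q : Subgroup G) : Set G)) = p * r)
    (hG : p ≠ Nat.card G) :
    Nat.card (Subgroup.centralizer ({x} : Set G)) = p := by
  have hp : p.Prime := Fact.out
  have hC : Subgroup.centralizer ({x} : Set G) =
      Subgroup.centralizer ((Q : Subgroup G) : Set G) := by
    rw [hQ]
    ext g
    rw [mem_cent_iff, Subgroup.mem_centralizer_iff]
    constructor
    · intro h z hz
      obtain ⟨k, rfl⟩ := Subgroup.mem_zpowers_iff.mp hz
      exact (Commute.zpow_left (show Commute x g from h) k)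
    · intro h
      exact h _ (Subgroup.mem_zpowers _)
  have hle : Subgroup.centralizer ((Q : Subgroup G) : Set G) ≤
      Subgroup.normalizer ((Q : Subgroup G) : Set G) := Subgroup.centralizer_le_normalizer _
  have hcQ : Nat.card (Q : Subgroup G) = p := by rw [hQ, Nat.card_zpowers, hx]
  have hne : Subgroup.centralizer ((Q : Subgroup G) : Set G) ≠
      Subgroup.normalizer ((Q : Subgroup G) : Set G) := by
    intro heq
    exact no_burnside Q (by rw [hcQ]; exact hp.one_lt.ne') (by rw [hcQ]; exact hG)
      (le_of_eq heq.symm)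
  have hd1 : Nat.card (Subgroup.centralizer ((Q : Subgroup G) : Set G)) ∣ p * r := by
    have := Subgroup.card_dvd_of_le hle
    rwa [hN] at this
  have hd2 : p ∣ Nat.card (Subgroup.centralizer ((Q : Subgroup G) : Set G)) := by
    have h1 : x ∈ Subgroup.centralizer ((Q : Subgroup G) : Set G) := by
      rw [← hC]; exact self_mem_cent x
    have := Subgroup.orderOf_dvd_natCard _ h1
    rwa [hx] at this
  rw [hC]
  obtain ⟨d, hd⟩ := hd2
  rw [hd] at hd1
  have hdr : d ∣ r := Nat.dvd_of_mul_dvd_mul_left hp.pos hd1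
  rcases (Nat.dvd_prime hr).mp hdr with h1 | h1
  · rw [hd, h1, mul_one]
  · exfalso
    apply hne
    exact Subgroup.eq_of_le_of_card_ge hle (by rw [hN, hd, h1])

theorem result {G : Type*} [Group G] [Finite G] [IsSimpleGroup G] (h : Nat.card G = 168) : (∀ g : G, orderOf g = 1 ∨ orderOf g = 2 ∨ orderOf g = 3 ∨ orderOf g = 4 ∨ orderOf g = 7) ∧ Nat.card {g : G // orderOf g = 2} = 21 ∧ ∀ s t : G, orderOf s = 2 → orderOf t = 2 → IsConj s t := by
  classical
  haveI : Fact (Nat.Prime 2) := ⟨Nat.prime_two⟩
  haveI : Fact (Nat.Prime 3) := ⟨Nat.prime_three⟩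
  haveI : Fact (Nat.Prime 7) := ⟨by norm_num⟩
  obtain ⟨n2, n3, n7⟩ := Cfsg.Agent.S1003.result h
  have c2 : ∀ P : Sylow 2 G, Nat.card (P : Subgroup G) = 8 := fun P => by
    rw [P.card_eq_multiplicity, h, f2]; norm_num
  have cN : ∀ {p : ℕ} [Fact p.Prime] (P : Sylow p G),
      Nat.card (Subgroup.normalizer ((P : Subgroup G) : Set G)) * Nat.card (Sylow p G) = 168 := by
    intro p _ P
    have h1 := P.card_eq_index_normalizer
    have h2 := (Subgroup.normalizer ((P : Subgroup G) : Set G)).card_mul_index
    rw [h] at h2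
    rw [h1]
    exact h2
  have C3 : ∀ x : G, orderOf x = 3 → Nat.card (Subgroup.centralizer ({x} : Set G)) = 3 := by
    intro x hx
    let Q : Sylow 3 G := Sylow.ofCard (Subgroup.zpowers x)
      (by rw [Nat.card_zpowers, hx, h, f3]; norm_num)
    have hNQ : Nat.card (Subgroup.normalizer ((Q : Subgroup G) : Set G)) = 3 * 2 := by
      have := cN Q
      rw [n3] at this; omega
    exact cent_card Nat.prime_two x hx Q rfl hNQ (by rw [h]; norm_num)
  have N7 : ∀ Q : Sylow 7 G, Nat.card (Subgroup.normalizer ((Q : Subgroup G) : Set G)) = 7 * 3 := by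
    intro Q
    have := cN Q
    rw [n7] at this; omega
  have C7 : ∀ x : G, orderOf x = 7 → Nat.card (Subgroup.centralizer ({x} : Set G)) = 7 := by
    intro x hx
    let Q : Sylow 7 G := Sylow.ofCard (Subgroup.zpowers x)
      (by rw [Nat.card_zpowers, hx, h, f7]; norm_num)
    exact cent_card Nat.prime_three x hx Q rfl (N7 Q) (by rw [h]; norm_num)
  have T_nonab : ∀ T : Sylow 2 G,
      ¬ (∀ a ∈ (T : Subgroup G), ∀ b ∈ (T : Subgroup G), a * b = b * a) := by
    intro T hab
    have hNT : Nat.card (Subgroup.normalizer ((T : Subgroup G) : Set G)) = 8 := by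
      have := cN T
      rw [n2] at this; omega
    have hNT' : (T : Subgroup G) = Subgroup.normalizer ((T : Subgroup G) : Set G) :=
      Subgroup.eq_of_le_of_card_ge Subgroup.le_normalizer (by rw [hNT, c2])
    apply no_burnside T (by rw [c2]; norm_num) (by rw [c2, h]; norm_num)
    intro g hg
    rw [← hNT'] at hg
    rw [Subgroup.mem_centralizer_iff]
    intro z hz
    exact hab z hz g hg
  have hpowcase : ∀ (g : G) (p : ℕ), p ∣ orderOf g →
      (∀ x : G, orderOf x = p → Nat.card (Subgroup.centralizer ({x} : Set G)) = p) →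
      orderOf g = p := by
    intro g p hpd hC
    obtain ⟨k, hk⟩ := hpd
    have hk0 : k ≠ 0 := by
      rintro rfl
      rw [mul_zero] at hk
      exact (orderOf_pos g).ne' hk
    have hx : orderOf (g ^ k) = p := by
      rw [orderOf_pow_of_dvd hk0 ⟨p, by rw [hk, mul_comm]⟩, hk]
      exact Nat.mul_div_cancel _ (Nat.pos_of_ne_zero hk0)
    have hg : g ∈ Subgroup.centralizer ({g ^ k} : Set G) := by
      rw [mem_cent_iff]
      exact (Commute.pow_left (Commute.refl g) k)
    have := Subgroup.orderOf_dvd_natCard _ hg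
    rw [hC _ hx] at this
    exact Nat.dvd_antisymm this ⟨k, hk⟩
  have cop21 : ∀ n : ℕ, ¬ 3 ∣ n → ¬ 7 ∣ n → n ∣ 168 → n ∣ 8 := by
    intro n h3 h7 hd
    have hcop : Nat.Coprime n 21 := by
      have h21 : (21 : ℕ) = 3 * 7 := by norm_num
      rw [h21]
      exact Nat.Coprime.mul_right
        (Nat.Coprime.symm ((Nat.Prime.coprime_iff_not_dvd Nat.prime_three).mpr h3))
        (Nat.Coprime.symm ((Nat.Prime.coprime_iff_not_dvd (by norm_num)).mpr h7))
    have h168 : n ∣ 8 * 21 := by norm_num; exact hd
    exact hcop.dvd_of_dvd_mul_right h168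
  have hord : ∀ g : G, orderOf g = 1 ∨ orderOf g = 2 ∨ orderOf g = 3 ∨ orderOf g = 4 ∨
      orderOf g = 7 := by
    intro g
    have hd : orderOf g ∣ 168 := h ▸ orderOf_dvd_natCard g
    by_cases h7 : 7 ∣ orderOf g
    · right; right; right; right
      exact hpowcase g 7 h7 C7
    · by_cases h3 : 3 ∣ orderOf g
      · right; right; left
        exact hpowcase g 3 h3 C3
      · have hd8 : orderOf g ∣ 8 := cop21 _ h3 h7 hd
        have hle : orderOf g ≤ 8 := Nat.le_of_dvd (by norm_num) hd8
        have hpos := orderOf_pos g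
        have h8 : orderOf g ≠ 8 := by
          intro h8
          let T : Sylow 2 G := Sylow.ofCard (Subgroup.zpowers g)
            (by rw [Nat.card_zpowers, h8, h, f2]; norm_num)
          apply T_nonab T
          intro a ha b hb
          obtain ⟨i, rfl⟩ := Subgroup.mem_zpowers_iff.mp (show a ∈ Subgroup.zpowers g from ha)
          obtain ⟨j, rfl⟩ := Subgroup.mem_zpowers_iff.mp (show b ∈ Subgroup.zpowers g from hb)
          rw [← zpow_add, ← zpow_add, add_comm]
        generalize orderOf g = n at *
        interval_cases n <;> first | omega | (exfalso; revert hd8; decide)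
  have C2 : ∀ w : G, (orderOf w = 2 ∨ orderOf w = 4) →
      Nat.card (Subgroup.centralizer ({w} : Set G)) ∣ 8 := by
    intro w hw
    have hd : Nat.card (Subgroup.centralizer ({w} : Set G)) ∣ 168 := by
      have := Subgroup.card_subgroup_dvd_card (Subgroup.centralizer ({w} : Set G))
      rwa [h] at this
    have key : ∀ p : ℕ, [Fact p.Prime] → ¬ (2 ∣ p) → ¬ (4 ∣ p) →
        (∀ x : G, orderOf x = p → Nat.card (Subgroup.centralizer ({x} : Set G)) = p) →
        ¬ p ∣ Nat.card (Subgroup.centralizer ({w} : Set G)) := by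
      intro p _ hp2 hp4 hC hpd
      obtain ⟨v, hv⟩ := exists_prime_orderOf_dvd_card'
        (G := Subgroup.centralizer ({w} : Set G)) p hpd
      have hvo : orderOf (v : G) = p := by rw [Subgroup.orderOf_coe]; exact hv
      have hwv : w ∈ Subgroup.centralizer ({(v : G)} : Set G) := by
        rw [mem_cent_iff]
        exact ((mem_cent_iff w v).mp v.2).symm
      have := Subgroup.orderOf_dvd_natCard _ hwv
      rw [hC _ hvo] at this
      rcases hw with hw | hw
      · rw [hw] at this; exact hp2 this
      · rw [hw] at this; exact hp4 this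
    exact cop21 _ (key 3 (by decide) (by decide) C3) (key 7 (by decide) (by decide) C7) hd
  have LA : ∀ T : Sylow 2 G, ∀ w ∈ (T : Subgroup G),
      (∀ t ∈ (T : Subgroup G), t * w = w * t) → orderOf w ≠ 4 := by
    intro T w hw hcen h4
    apply T_nonab T
    have hwc : (⟨w, hw⟩ : (T : Subgroup G)) ∈ Subgroup.center (T : Subgroup G) := by
      rw [Subgroup.mem_center_iff]
      intro t
      exact Subtype.ext (hcen t t.2)
    have hd4 : 4 ∣ Nat.card (Subgroup.center (T : Subgroup G)) := by
      have := Subgroup.orderOf_dvd_natCard _ hwc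
      rwa [Subgroup.orderOf_mk, h4] at this
    have hmul := (Subgroup.center (T : Subgroup G)).card_mul_index
    rw [c2] at hmul
    have hidx : (Subgroup.center (T : Subgroup G)).index = 1 ∨
        (Subgroup.center (T : Subgroup G)).index = 2 := by
      obtain ⟨k, hk⟩ := hd4
      rw [hk] at hmul
      have hdvd : (Subgroup.center (T : Subgroup G)).index ∣ 2 := ⟨k, by nlinarith⟩
      exact (Nat.dvd_prime Nat.prime_two).mp hdvd
    haveI : IsCyclic ((T : Subgroup G) ⧸ Subgroup.center (T : Subgroup G)) := by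
      rcases hidx with h1 | h2
      · have hc1 : Nat.card ((T : Subgroup G) ⧸ Subgroup.center (T : Subgroup G)) = 1 := h1
        haveI : Subsingleton ((T : Subgroup G) ⧸ Subgroup.center (T : Subgroup G)) :=
          (Nat.card_eq_one_iff_unique.mp hc1).1
        infer_instance
      · exact isCyclic_of_prime_card (p := 2) h2
    intro a ha b hb
    have := commutative_of_cyclic_center_quotient
      (QuotientGroup.mk' (Subgroup.center (T : Subgroup G))) (by rw [QuotientGroup.ker_mk'])
      ⟨a, ha⟩ ⟨b, hb⟩
    exact congrArg Subtype.val this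
  obtain ⟨T⟩ : Nonempty (Sylow 2 G) := inferInstance
  have hT8 : ∀ t ∈ (T : Subgroup G), orderOf t ∣ 8 := by
    intro t ht
    have := Subgroup.orderOf_dvd_natCard _ ht
    rwa [c2] at this
  obtain ⟨y, hyT, hy4⟩ : ∃ y ∈ (T : Subgroup G), orderOf y = 4 := by
    by_contra hcon
    push_neg at hcon
    have hsq : ∀ t ∈ (T : Subgroup G), t * t = 1 := by
      intro t ht
      have hd := hT8 t ht
      have h4 := hcon t ht
      rcases hord t with h1 | h1 | h1 | h1 | h1
      · rw [orderOf_eq_one_iff] at h1; rw [h1, one_mul]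
      · rw [← pow_two, ← h1]; exact pow_orderOf_eq_one t
      · exfalso; rw [h1] at hd; revert hd; decide
      · exact absurd h1 h4
      · exfalso; rw [h1] at hd; revert hd; decide
    apply T_nonab T
    intro a ha b hb
    have h1 := hsq (a * b) (mul_mem ha hb)
    have h2 := hsq a ha
    have h3 := hsq b hb
    calc a * b = a * (a * b * (a * b)) * b := by rw [h1, mul_one]
      _ = (a * a) * (b * a) * (b * b) := by group
      _ = b * a := by rw [h2, h3, one_mul, mul_one]
  obtain ⟨z, hzT, hzc, hz1⟩ : ∃ z ∈ (T : Subgroup G),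
      (∀ t ∈ (T : Subgroup G), t * z = z * t) ∧ z ≠ 1 := by
    haveI : Nontrivial (T : Subgroup G) :=
      Finite.one_lt_card_iff_nontrivial.mp (by rw [c2]; norm_num)
    haveI := T.isPGroup'.center_nontrivial
    obtain ⟨c, hc⟩ := exists_ne (1 : Subgroup.center (T : Subgroup G))
    refine ⟨((c : (T : Subgroup G)) : G), (c : (T : Subgroup G)).2, ?_, ?_⟩
    · intro t ht
      have := Subgroup.mem_center_iff.mp c.2 ⟨t, ht⟩
      exact congrArg Subtype.val this
    · intro h1
      apply hc
      exact Subtype.ext (Subtype.ext h1)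
  have hz2 : orderOf z = 2 := by
    have hd := hT8 z hzT
    rcases hord z with h1 | h1 | h1 | h1 | h1
    · rw [orderOf_eq_one_iff] at h1; exact absurd h1 hz1
    · exact h1
    · exfalso; rw [h1] at hd; revert hd; decide
    · exact absurd h1 (LA T z hzT hzc)
    · exfalso; rw [h1] at hd; revert hd; decide
  have hCz : Nat.card (Subgroup.centralizer ({z} : Set G)) = 8 := by
    have h1 := C2 z (Or.inl hz2)
    have h2 : (T : Subgroup G) ≤ Subgroup.centralizer ({z} : Set G) := by
      intro t ht
      rw [mem_cent_iff]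
      exact (hzc t ht).symm
    have h3 := Subgroup.card_le_of_le h2
    rw [c2] at h3
    exact Nat.le_antisymm (Nat.le_of_dvd (by norm_num) h1) h3
  have hCy : Nat.card (Subgroup.centralizer ({y} : Set G)) = 4 := by
    have h1 := C2 y (Or.inr hy4)
    have h2 : 4 ∣ Nat.card (Subgroup.centralizer ({y} : Set G)) := by
      have := Subgroup.orderOf_dvd_natCard _ (self_mem_cent y)
      rwa [hy4] at this
    have h8 : Nat.card (Subgroup.centralizer ({y} : Set G)) ≠ 8 := by
      intro h8
      let T' : Sylow 2 G := Sylow.ofCard (Subgroup.centralizer ({y} : Set G))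
        (by rw [h8, h, f2]; norm_num)
      exact LA T' y (self_mem_cent y) (fun t ht => ((mem_cent_iff y t).mp ht).symm) hy4
    generalize Nat.card (Subgroup.centralizer ({y} : Set G)) = n at *
    have hle : n ≤ 8 := Nat.le_of_dvd (by norm_num) h1
    interval_cases n <;> first | rfl | omega | (exfalso; revert h1; decide)
  obtain ⟨x3, hx3⟩ := exists_prime_orderOf_dvd_card' (G := G) 3 (by rw [h]; norm_num)
  obtain ⟨x7, hx7⟩ := exists_prime_orderOf_dvd_card' (G := G) 7 (by rw [h]; norm_num)
  have hnc : ¬ IsConj x7 x7⁻¹ := by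
    intro hc
    obtain ⟨g, hg⟩ := isConj_iff.mp hc
    let Q : Sylow 7 G := Sylow.ofCard (Subgroup.zpowers x7)
      (by rw [Nat.card_zpowers, hx7, h, f7]; norm_num)
    have e1 : ∀ k : ℤ, g * x7 ^ k * g⁻¹ = x7 ^ (-k) := by
      intro k
      rw [← conj_zpow, hg, inv_zpow, zpow_neg]
    have hgN : g ∈ Subgroup.normalizer ((Q : Subgroup G) : Set G) := by
      rw [Subgroup.mem_normalizer_iff]
      intro n
      constructor
      · intro hn
        obtain ⟨k, rfl⟩ := Subgroup.mem_zpowers_iff.mp (show n ∈ Subgroup.zpowers x7 from hn)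
        rw [e1]
        exact Subgroup.zpow_mem_zpowers x7 _
      · intro hn
        obtain ⟨k, hk⟩ := Subgroup.mem_zpowers_iff.mp
          (show g * n * g⁻¹ ∈ Subgroup.zpowers x7 from hn)
        have h1 : g * x7 ^ (-k) * g⁻¹ = g * n * g⁻¹ := by rw [e1, neg_neg, hk]
        have h2 : x7 ^ (-k) = n := mul_left_cancel (mul_right_cancel h1)
        rw [← h2]
        exact Subgroup.zpow_mem_zpowers x7 _
    have ho21 : orderOf g ∣ 21 := by
      have := Subgroup.orderOf_dvd_natCard _ hgN
      rwa [N7 Q] at this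
    have hg2 : g ^ 2 ∈ Subgroup.centralizer ({x7} : Set G) := by
      rw [mem_cent_iff]
      have h1 : g * x7 = x7⁻¹ * g := by rw [← hg]; group
      have h2 : g * x7⁻¹ = x7 * g := by
        have : x7 = g * x7⁻¹ * g⁻¹ := by
          calc x7 = (x7⁻¹)⁻¹ := (inv_inv _).symm
            _ = (g * x7 * g⁻¹)⁻¹ := by rw [hg]
            _ = g * x7⁻¹ * g⁻¹ := by group
        calc g * x7⁻¹ = (g * x7⁻¹ * g⁻¹) * g := by group
          _ = x7 * g := by rw [← this]
      calc x7 * g ^ 2 = (x7 * g) * g := by rw [pow_two, mul_assoc]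
        _ = g * x7⁻¹ * g := by rw [h2]
        _ = g * (x7⁻¹ * g) := by rw [mul_assoc]
        _ = g * (g * x7) := by rw [h1]
        _ = g ^ 2 * x7 := by rw [pow_two, mul_assoc]
    have hg22 : g ^ 22 ∈ Subgroup.centralizer ({x7} : Set G) := by
      have : g ^ 22 = (g ^ 2) ^ 11 := by rw [← pow_mul]
      rw [this]
      exact Subgroup.pow_mem _ hg2 11
    have hg21 : g ^ 21 = 1 := orderOf_dvd_iff_pow_eq_one.mp ho21
    have hgC : g ∈ Subgroup.centralizer ({x7} : Set G) := by
      have : g ^ 22 = g := by rw [pow_succ, hg21, one_mul]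
      rwa [this] at hg22
    rw [mem_cent_iff] at hgC
    have h3 : x7 = x7⁻¹ := by
      rw [← hg, ← hgC]; group
    have h4 : x7 ^ 2 = 1 := by
      rw [pow_two]
      nth_rewrite 1 [h3]
      exact inv_mul_cancel x7
    have := orderOf_dvd_of_pow_eq_one h4
    rw [hx7] at this
    revert this; decide
  haveI : Fintype G := Fintype.ofFinite G
  have hcl : ∀ a : G, (Finset.univ.filter (fun g : G => IsConj a g)).card *
      Nat.card (Subgroup.centralizer ({a} : Set G)) = 168 := by
    intro a
    have h1 := card_isConj_eq_index a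
    have h2 := (Subgroup.centralizer ({a} : Set G)).card_mul_index
    rw [Nat.card_eq_fintype_card, Fintype.card_subtype] at h1
    rw [h1, mul_comm, h2, h]
  have hsub : ∀ (a : G) (k : ℕ), orderOf a = k →
      Finset.univ.filter (fun g : G => IsConj a g) ⊆
      Finset.univ.filter (fun g : G => orderOf g = k) := by
    intro a k hk g hg
    rw [Finset.mem_filter] at hg ⊢
    obtain ⟨c, hc⟩ := isConj_iff.mp hg.2
    exact ⟨Finset.mem_univ _, by rw [← hc, ord_conj, hk]⟩
  have htot := Finset.card_eq_sum_card_fiberwise (f := fun g : G => orderOf g)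
    (s := Finset.univ) (t := ({1, 2, 3, 4, 7} : Finset ℕ)) (by
      intro g _
      have := hord g
      simp only [Finset.coe_insert, Finset.coe_singleton, Set.mem_insert_iff,
        Set.mem_singleton_iff]
      exact this)
  rw [Finset.card_univ, ← Nat.card_eq_fintype_card, h,
    Finset.sum_insert (by decide), Finset.sum_insert (by decide), Finset.sum_insert (by decide),
    Finset.sum_insert (by decide), Finset.sum_singleton] at htot
  have a1 : 1 ≤ (Finset.univ.filter (fun g : G => orderOf g = 1)).card :=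
    Finset.card_pos.mpr ⟨1, by simp⟩
  have a2 := Finset.card_le_card (hsub z 2 hz2)
  have a3 := Finset.card_le_card (hsub x3 3 hx3)
  have a4 := Finset.card_le_card (hsub y 4 hy4)
  have b2 := hcl z
  have b3 := hcl x3
  have b4 := hcl y
  have b7 := hcl x7
  have b7' := hcl x7⁻¹
  rw [hCz] at b2
  rw [C3 _ hx3] at b3
  rw [hCy] at b4
  rw [C7 _ hx7] at b7
  rw [C7 _ (by rw [orderOf_inv]; exact hx7)] at b7'
  have a7 : (Finset.univ.filter (fun g : G => IsConj x7 g)).card +
      (Finset.univ.filter (fun g : G => IsConj x7⁻¹ g)).card ≤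
      (Finset.univ.filter (fun g : G => orderOf g = 7)).card := by
    rw [← Finset.card_union_of_disjoint]
    · apply Finset.card_le_card
      apply Finset.union_subset (hsub x7 7 hx7) (hsub x7⁻¹ 7 (by rw [orderOf_inv]; exact hx7))
    · rw [Finset.disjoint_left]
      intro w hw1 hw2
      rw [Finset.mem_filter] at hw1 hw2
      exact hnc (hw1.2.trans hw2.2.symm)
  have hA2 : (Finset.univ.filter (fun g : G => orderOf g = 2)).card ≤
      (Finset.univ.filter (fun g : G => IsConj z g)).card := by omega
  have heq := Finset.eq_of_subset_of_card_le (hsub z 2 hz2) hA2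
  refine ⟨hord, ?_, ?_⟩
  · rw [Nat.card_eq_fintype_card, Fintype.card_subtype, ← heq]
    omega
  · intro s t hs ht
    have h1 : s ∈ Finset.univ.filter (fun g : G => IsConj z g) := by
      rw [heq, Finset.mem_filter]; exact ⟨Finset.mem_univ _, hs⟩
    have h2 : t ∈ Finset.univ.filter (fun g : G => IsConj z g) := by
      rw [heq, Finset.mem_filter]; exact ⟨Finset.mem_univ _, ht⟩
    rw [Finset.mem_filter] at h1 h2
    exact h1.2.symm.trans h2.2

end Cfsg.Agent.S1005
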