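import Cfsg.Statements.S5025
import Cfsg.Agent.H25.RootSet

set_option autoImplicit false
open Cfsg

namespace Cfsg.Agent.S5025

/-- Let S be a set of abstract root subgroups of G, A ∈ S and B a rank one partner of A in S. If z ≠ 1 centralizes ⟨A, B⟩, then no product z a with a a non-identity element of A is a non-identity element of a member of S. -/
theorem result {G : Type*} [Group G] {S : Set (Subgroup G)} (hS : Cfsg.IsRootSubgroupSet S)
    {A B : Subgroup G} (hA : A ∈ S) (hB : B ∈ Cfsg.rankOnePartners S A) {z : G}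
    (hz : z ∈ Subgroup.centralizer ((A ⊔ B : Subgroup G) : Set G)) (hz1 : z ≠ 1) :
    ∀ a ∈ A, a ≠ 1 → z * a ∉ Cfsg.rootElements S := by
  rintro a ha ha1 ⟨hd1, E, hE, hdE⟩
  obtain ⟨hBS, hp⟩ := hB
  have hzc : ∀ x ∈ A ⊔ B, z * x = x * z := by
    intro x hx
    rw [Subgroup.mem_centralizer_iff] at hz
    exact (hz x hx).symm
  have hzc' : ∀ x ∈ A ⊔ B, z⁻¹ * x = x * z⁻¹ := by
    intro x hx
    have := hzc x hx
    calc z⁻¹ * x = z⁻¹ * (x * z) * z⁻¹ := by group
      _ = z⁻¹ * (z * x) * z⁻¹ := by rw [this]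
      _ = x * z⁻¹ := by group
  -- d = z * a commutes with A
  have hdA : ∀ a' ∈ A, (z * a) * a' = a' * (z * a) := by
    intro a' ha'
    rw [mul_assoc, H25.Root.comm hS hA ha ha', ← mul_assoc, hzc a' (Subgroup.mem_sup_left ha'),
      mul_assoc]
  -- Step 1 : [E, A] = 1
  have hEA : ⁅E, A⁆ = ⊥ := by
    rcases hS.pair E hE A hA with h | h | h
    · exact h
    · exact absurd (H25.RankOne.eq_one_of_conjBy_eq h hdE (H25.conjBy_of_central hdA)) hd1
    · exact (H25.RootComm.false_of_left_comm hS h hdE hd1 hdA).elim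
  have hBd : ∀ y : G, y ∈ A → conjBy B (z * y) = conjBy B y := by
    intro y hy
    rw [H25.conjBy_mul]
    apply H25.conjBy_of_central
    intro c hc
    exact hzc c (H25.conjBy_le_of_mem le_sup_right (Subgroup.mem_sup_left hy) hc)
  rcases hS.pair E hE B hBS with h | h | h
  · have h1 : conjBy B (z * a) = B :=
      H25.conjBy_of_central (fun b hb => H25.comm_of_commutator_eq_bot h hdE hb)
    rw [hBd a ha] at h1
    exact ha1 (H25.RankOne.eq_one_of_conjBy_eq hp ha h1)
  · obtain ⟨b, hb, hb1, hEb⟩ := h.cond_left (z * a) hdE hd1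
    obtain ⟨b', hb', hb1', hAb⟩ := hp.cond_left a ha ha1
    have e1 : conjBy B (z * a)⁻¹ = conjBy B a⁻¹ := by
      rw [mul_inv_rev, H25.conjBy_mul]
      congr 1
      apply H25.conjBy_of_central
      intro c hc
      exact hzc' c (Subgroup.mem_sup_right hc)
    rw [e1, ← hAb, H25.conjBy_eq_iff, inv_inv, H25.conjBy_conjBy] at hEb
    by_cases hcase : conjBy A (b * b'⁻¹) = A
    · rw [hcase] at hEb
      rw [hEb] at hdE
      have hzA : z ∈ A := by
        have := A.mul_mem hdE (A.inv_mem ha)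
        simpa using this
      apply hz1
      apply H25.RankOne.eq_one_of_conjBy_eq hp hzA
      exact H25.conjBy_of_central (fun c hc => hzc c (Subgroup.mem_sup_right hc))
    · have hmem : conjBy A (b * b'⁻¹) ∈ unipotentSubgroups A B :=
        H25.RankOne.conjBy_mem_unipotent H25.RankOne.left_mem_unipotent
          (Subgroup.mem_sup_right (B.mul_mem hb (B.inv_mem hb')))
      have hp2 : IsRankOnePair A (conjBy A (b * b'⁻¹)) :=
        H25.RankOne.pair_of_unipotents hp H25.RankOne.left_mem_unipotent hmem (Ne.symm hcase)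
      rw [← hEb] at hp2
      apply ha1
      apply H25.RankOne.eq_one_of_conjBy_eq hp2 ha
      exact H25.conjBy_of_central
        (fun c hc => (H25.comm_of_commutator_eq_bot hEA hc ha).symm)
  · obtain ⟨b, hb, hb1⟩ := H25.RankOne.exists_ne_one (RankOnePair_symm hp)
    have hc := h.2.1 _ (H25.commutator_mem hdE hb) b (Subgroup.mem_sup_right hb)
    have e1 : z * a * b * (z * a)⁻¹ * b⁻¹ = a * b * a⁻¹ * b⁻¹ := by
      have h1 : a * b * a⁻¹ ∈ A ⊔ B :=
        mul_mem (mul_mem (Subgroup.mem_sup_left ha) (Subgroup.mem_sup_right hb))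
          (inv_mem (Subgroup.mem_sup_left ha))
      calc z * a * b * (z * a)⁻¹ * b⁻¹ = (z * (a * b * a⁻¹)) * z⁻¹ * b⁻¹ := by group
        _ = ((a * b * a⁻¹) * z) * z⁻¹ * b⁻¹ := by rw [hzc _ h1]
        _ = a * b * a⁻¹ * b⁻¹ := by group
    rw [e1] at hc
    exact H25.RankOne.commutator_not_comm hp ha ha1 hb hb1 hc

end Cfsg.Agent.S5025
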