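import Cfsg.Statements.S5028
import Cfsg.Agent.H25.RootSet

set_option autoImplicit false
open Cfsg

namespace Cfsg.Agent.S5028

/-- Let S be a set of abstract root subgroups of G and A a member of S having a rank one partner in S. Then A meets every other member of S trivially. -/
theorem result {G : Type*} [Group G] {S : Set (Subgroup G)} (hS : Cfsg.IsRootSubgroupSet S)
    {A : Subgroup G} (hA : ¬ Cfsg.IsIsolatedIn (Cfsg.FAdj S) S A) (hAS : A ∈ S) : ∀ B ∈ S, A ⊓ B = ⊥ ∨ A = B := by
  intro B hB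
  obtain ⟨C, hC, hp⟩ := H25.Root.exists_partner hA hAS
  by_contra hcon
  push Not at hcon
  obtain ⟨hne, hAB⟩ := hcon
  obtain ⟨⟨x, hx⟩, hx1'⟩ := Subgroup.ne_bot_iff_exists_ne_one.1 hne
  have hx1 : x ≠ 1 := fun h => hx1' (Subtype.ext h)
  obtain ⟨hxA, hxB⟩ := hx
  rcases hS.pair B hB C hC with h | h | h
  · apply hx1
    apply H25.RankOne.eq_one_of_conjBy_eq hp hxA
    exact H25.conjBy_of_central (fun c hc => H25.comm_of_commutator_eq_bot h hxB hc)
  · obtain ⟨c, hc, hc1, hBc⟩ := h.cond_left x hxB hx1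
    obtain ⟨c', hc', hc1', hAc⟩ := hp.cond_left x hxA hx1
    rw [← hAc, H25.conjBy_eq_iff, inv_inv, H25.conjBy_conjBy] at hBc
    by_cases hcase : conjBy A (c * c'⁻¹) = A
    · rw [hcase] at hBc
      exact hAB hBc.symm
    · have hmem : conjBy A (c * c'⁻¹) ∈ unipotentSubgroups A C :=
        H25.RankOne.conjBy_mem_unipotent H25.RankOne.left_mem_unipotent
          (Subgroup.mem_sup_right (C.mul_mem hc (C.inv_mem hc')))
      have hp2 : IsRankOnePair A (conjBy A (c * c'⁻¹)) :=
        H25.RankOne.pair_of_unipotents hp H25.RankOne.left_mem_unipotent hmem (Ne.symm hcase)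
      rw [← hBc] at hp2
      exact hx1 (H25.RankOne.eq_one_of_mem_of_mem hp2 hxA hxB)
  · obtain ⟨c, hc, hc1⟩ := H25.RankOne.exists_ne_one (RankOnePair_symm hp)
    exact H25.RankOne.commutator_not_comm hp hxA hx1 hc hc1
      (h.2.1 _ (H25.commutator_mem hxB hc) c (Subgroup.mem_sup_right hc))

end Cfsg.Agent.S5028
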