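import Cfsg.Statements.S4455
import Mathlib
import Cfsg.Agent.Lib.Helper10.PResChar
-- import your own Cfsg.Agent.* helpers here

set_option autoImplicit false
open Cfsg
open Cfsg.Agent.CharLib Cfsg.Agent.CharLib.H2 Cfsg.Agent.Lib.Helper10 Cfsg.Agent.Lib.Helper16 Cfsg.Agent.Lib.Helper23

namespace Cfsg.Agent.S4455

/-- Fix a prime p and a finite group G. Let s be the sum of χ(1)² over the irreducible characters χ of G whose degree is not divisible by p and whose determinantal order o(χ) is not divisible by p. Then the order of O^p(G), the subgroup generated by the elements of order prime to p, is congruent to s modulo p. -/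
theorem result {G : Type*} [Group G] [Finite G] (p : ℕ) (hp : p.Prime) : (Nat.card (Cfsg.pResidual p G) : ℤ) ≡ (∑ᶠ χ ∈ {χ : Cfsg.IrrCharacter G | ¬ p ∣ Cfsg.charDegree (χ : G → ℂ) ∧ ¬ p ∣ Cfsg.detOrder (χ : G → ℂ)}, (Cfsg.charDegree (χ : G → ℂ) : ℤ) ^ 2) [ZMOD p] := by
  classical
  cases nonempty_fintype G
  haveI : Fact p.Prime := ⟨hp⟩
  refine (card_pResidual_modEq (G := G) p).trans ?_
  set hN := (pResidual_normal (G := G) (p := p)) with hhN
  obtain ⟨k, hk⟩ := index_pResidual (G := G) p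
  have hcopk : ∀ m : ℕ, ¬ p ∣ m → Nat.Coprime (pResidual p G).index m := by
    intro m hm
    rw [hk]
    exact Nat.Coprime.pow_left k ((Nat.Prime.coprime_iff_not_dvd hp).2 hm)
  -- restriction of a member of the set is irreducible
  have hres : ∀ χ : IrrCharacter G, ¬ p ∣ charDegree (χ : G → ℂ) →
      IsIrrCharacter ↥(pResidual p G) (fun n : ↥(pResidual p G) => (χ : G → ℂ) n) := by
    intro χ hχ
    have hc := isCharacter_restrict (isCharacter_of_irr χ.2) (pResidual p G)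
    have h0 : (fun n : ↥(pResidual p G) => (χ : G → ℂ) n) ≠ 0 := by
      intro h
      have := congrFun h 1
      exact irr_apply_one_ne_zero χ this
    obtain ⟨θ, hθ⟩ := exists_constituent hc h0
    have h1 := Cfsg.Agent.S0887.result (pResidual p G) χ χ.2 θ θ.2 hθ _ _ (charDegree_cast_irr χ).symm
      (charDegree_cast_irr θ).symm
    obtain ⟨⟨c, hc'⟩, h3⟩ := h1
    have hθpos := charDegree_pos_irr θ
    rw [hc', Nat.mul_div_cancel_left _ hθpos, hk] at h3
    obtain ⟨j, -, hj⟩ := (Nat.dvd_prime_pow hp).1 h3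
    have hj0 : j = 0 := by
      by_contra hne
      apply hχ
      rw [hc', hj]
      exact Dvd.dvd.mul_left (dvd_pow_self p hne) _
    rw [hj0, pow_zero] at hj
    rw [hj, mul_one] at hc'
    have h4 := isCharacter_sub_irr hc θ.2 hθ
    have h5 : ((fun n : ↥(pResidual p G) => (χ : G → ℂ) n) - (θ : ↥(pResidual p G) → ℂ)) = 0 := by
      apply Cfsg.Agent.Lib.Helper10.isCharacter_eq_zero_of_apply_one h4
      rw [Pi.sub_apply]
      show (χ : G → ℂ) 1 - _ = 0
      rw [← charDegree_cast_irr χ, ← charDegree_cast_irr θ, hc', sub_self]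
    rw [sub_eq_zero.1 h5]
    exact θ.2
  have hext : ∀ θ : IrrCharacter ↥(pResidual p G),
      (∀ g : G, H2.conjFun hN (θ : ↥(pResidual p G) → ℂ) g = θ) → ¬ p ∣ charDegree (θ : ↥(pResidual p G) → ℂ) →
      ∃ χ : IrrCharacter G, (∀ n : ↥(pResidual p G), (χ : G → ℂ) n = (θ : ↥(pResidual p G) → ℂ) n) ∧
        detOrder (χ : G → ℂ) = detOrder (θ : ↥(pResidual p G) → ℂ) ∧
        ∀ χ' : IrrCharacter G, (∀ n : ↥(pResidual p G), (χ' : G → ℂ) n = (θ : ↥(pResidual p G) → ℂ) n) →
          ¬ p ∣ detOrder (χ' : G → ℂ) → χ' = χ := by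
    intro θ hinv hdeg
    obtain ⟨χ, ⟨h1, h2, h3⟩, h4⟩ := Cfsg.Agent.S0867.result (pResidual p G) θ θ.2
      (fun g n => congrFun (hinv g) n) _ (charDegree_cast_irr θ).symm
      (hcopk _ (fun h => (hp.dvd_mul.1 h).elim (not_dvd_detOrder_pResidual p (isCharacter_of_irr θ.2)) hdeg))
    exact ⟨⟨χ, h1⟩, h2, h3, fun χ' h5 h6 => Subtype.ext (h4 χ' χ'.2 h5 (hcopk _ h6))⟩
  rw [finsum_mem_eq_toFinset_sum]
  have hsum : ∑ χ ∈ {χ : Cfsg.IrrCharacter G | ¬ p ∣ Cfsg.charDegree (χ : G → ℂ) ∧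
        ¬ p ∣ Cfsg.detOrder (χ : G → ℂ)}.toFinset, (Cfsg.charDegree (χ : G → ℂ) : ℤ) ^ 2 =
      ∑ θ ∈ Finset.univ.filter (fun θ : IrrCharacter ↥(pResidual p G) =>
      (∀ g : G, H2.conjFun hN (θ : ↥(pResidual p G) → ℂ) g = θ) ∧
        ¬ p ∣ charDegree (θ : ↥(pResidual p G) → ℂ)), (charDegree (θ : ↥(pResidual p G) → ℂ) : ℤ) ^ 2 := by
    refine Finset.sum_bij (fun (χ : IrrCharacter G) hχ =>
      (⟨_, hres χ (Set.mem_toFinset.1 hχ).1⟩ : IrrCharacter ↥(pResidual p G))) ?_ ?_ ?_ ?_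
    · intro χ hχ
      rw [Finset.mem_filter]
      refine ⟨Finset.mem_univ _, ?_, ?_⟩
      · intro g
        funext n
        exact isClassFunction_of_irr χ.2 n g
      · exact (Set.mem_toFinset.1 hχ).1
    · intro χ₁ h₁ χ₂ h₂ heq
      have hm₁ := Set.mem_toFinset.1 h₁
      have hm₂ := Set.mem_toFinset.1 h₂
      obtain ⟨χ, -, -, huniq⟩ := hext ⟨_, hres χ₁ hm₁.1⟩ (by
        intro g
        funext n
        exact isClassFunction_of_irr χ₁.2 n g) hm₁.1
      rw [huniq χ₁ (fun n => rfl) hm₁.2, huniq χ₂ (fun n => (congrFun (congrArg Subtype.val heq) n).symm) hm₂.2]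
    · intro θ hθ
      obtain ⟨-, hinv, hdeg⟩ := Finset.mem_filter.1 hθ
      obtain ⟨χ, h1, h2, -⟩ := hext θ hinv hdeg
      have hd : charDegree (χ : G → ℂ) = charDegree (θ : ↥(pResidual p G) → ℂ) := by
        have := h1 1
        unfold charDegree
        rw [← this]; rfl
      refine ⟨χ, ?_, ?_⟩
      · rw [Set.mem_toFinset]
        refine ⟨?_, ?_⟩
        · rw [hd]; exact hdeg
        · rw [h2]; exact not_dvd_detOrder_pResidual p (isCharacter_of_irr θ.2)
      · apply Subtype.ext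
        funext n
        exact h1 n
    · intro χ hχ
      rfl
  rw [hsum]

end Cfsg.Agent.S4455
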