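import Cfsg.Statements.S4456
import Mathlib
import Cfsg.Agent.S4455
import Cfsg.Agent.Lib.Helper10.LinChar
-- import your own Cfsg.Agent.* helpers here

set_option autoImplicit false
open Cfsg
open Cfsg.Agent.CharLib Cfsg.Agent.CharLib.L Cfsg.Agent.Lib.Helper10 Cfsg.Agent.Lib.Helper16 Cfsg.Agent.Lib.Helper23

namespace Cfsg.Agent.S4456

theorem detChar_of_degree_one {G : Type*} [Group G] [Finite G] {χ : G → ℂ} (hχ : Cfsg.IsCharacter G χ)
    (h1 : χ 1 = 1) : Cfsg.detChar χ = χ := by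
  obtain ⟨n, ρ, rfl⟩ := hχ
  rw [Cfsg.Agent.H6.detChar_eq]
  funext g
  have hn : Module.finrank ℂ (Fin n → ℂ) = 1 := by
    have : (Module.finrank ℂ (Fin n → ℂ) : ℂ) = 1 := by rw [← Representation.char_one ρ, h1]
    exact_mod_cast this
  have h2 := end_eq_trace_smul hn (ρ g)
  conv_lhs => rw [h2]
  rw [LinearMap.det_smul, hn, pow_one, map_one, mul_one]
  rfl

/-- Let p be a prime and G a finite group such that p divides the degree of every irreducible character of G of degree greater than one. Then G has a normal p-complement: a normal subgroup of order prime to p whose index is a power of p. -/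
theorem result {G : Type*} [Group G] [Finite G] (p : ℕ) (hp : p.Prime) (hdeg : ∀ χ : Cfsg.IrrCharacter G, Cfsg.charDegree (χ : G → ℂ) ≠ 1 → p ∣ Cfsg.charDegree (χ : G → ℂ)) : ∃ N : Subgroup G, N.Normal ∧ (Nat.card N).Coprime p ∧ ∃ k : ℕ, N.index = p ^ k := by
  classical
  haveI : Fact p.Prime := ⟨hp⟩
  have hmain := Cfsg.Agent.S4455.result (G := G) p hp
  -- the group of linear characters
  let ι : (G →* ℂˣ) →* (G → ℂ) :=
    { toFun := fun l g => (l g : ℂ)
      map_one' := by funext g; simp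
      map_mul' := by intro a b; funext g; simp }
  have hι : Function.Injective ι := fun a b h => lin_fun_injective h
  set m := ordCompl[p] (Nat.card (G →* ℂˣ)) with hm
  let Λ₀ : Subgroup (G →* ℂˣ) := (powMonoidHom m : (G →* ℂˣ) →* (G →* ℂˣ)).ker
  have hΛ₀ : ∀ l : G →* ℂˣ, l ∈ Λ₀ ↔ ¬ p ∣ orderOf l := by
    intro l
    rw [MonoidHom.mem_ker, powMonoidHom_apply]
    constructor
    · intro h hdvd
      exact Nat.not_dvd_ordCompl hp Nat.card_pos.ne' (hdvd.trans (orderOf_dvd_of_pow_eq_one h))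
    · intro h
      have h2 : orderOf l ∣ p ^ (Nat.card (G →* ℂˣ)).factorization p * m := by
        rw [hm, Nat.ordProj_mul_ordCompl_eq_self]
        exact orderOf_dvd_natCard l
      have h3 : Nat.Coprime (orderOf l) p := ((Nat.Prime.coprime_iff_not_dvd hp).2 h).symm
      exact orderOf_dvd_iff_pow_eq_one.1 ((Nat.Coprime.pow_right _ h3).dvd_of_dvd_mul_left h2)
  have hΛ₀card : ¬ p ∣ Nat.card Λ₀ := by
    intro h
    obtain ⟨x, hx⟩ := exists_prime_orderOf_dvd_card' p h
    have h1 := (hΛ₀ x).1 x.2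
    rw [Subgroup.orderOf_coe, hx] at h1
    exact h1 dvd_rfl
  have hdetOrder : ∀ l : G →* ℂˣ, Cfsg.detOrder (ι l) = orderOf l := by
    intro l
    unfold Cfsg.detOrder
    have h1 : Cfsg.detChar (ι l) = ι l :=
      detChar_of_degree_one (isCharacter_of_irr (isIrrCharacter_of_hom l)) (by
        show ((l 1 : ℂˣ) : ℂ) = 1
        rw [map_one]; rfl)
    rw [h1]
    exact orderOf_injective ι hι l
  have hcard : Nat.card {χ : Cfsg.IrrCharacter G | ¬ p ∣ Cfsg.charDegree (χ : G → ℂ) ∧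
      ¬ p ∣ Cfsg.detOrder (χ : G → ℂ)} = Nat.card Λ₀ := by
    symm
    have hdeg1 : ∀ l : G →* ℂˣ, Cfsg.charDegree (ι l) = 1 := by
      intro l
      unfold Cfsg.charDegree
      simp [ι]
    apply Nat.card_congr
    refine Equiv.ofBijective (fun l : Λ₀ => ⟨⟨ι l, isIrrCharacter_of_hom l.1⟩, ?_, ?_⟩) ⟨?_, ?_⟩
    · show ¬ p ∣ Cfsg.charDegree (ι l)
      rw [hdeg1]
      exact hp.one_lt.ne' ∘ Nat.dvd_one.1
    · show ¬ p ∣ Cfsg.detOrder (ι l)
      rw [hdetOrder]
      exact (hΛ₀ l).1 l.2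
    · intro a b h
      have h1 : ι a = ι b := congrArg (fun z => (z.1 : G → ℂ)) h
      exact Subtype.ext (hι h1)
    · rintro ⟨χ, hχ1, hχ2⟩
      have hd1 : Cfsg.charDegree (χ : G → ℂ) = 1 := by
        by_contra h
        exact hχ1 (hdeg χ h)
      have h1 : (χ : G → ℂ) 1 = 1 := by
        rw [← charDegree_cast_irr χ, hd1]; simp
      have h2 := irr_mul_of_apply_one_eq_one χ h1
      let f : G →* ℂ := { toFun := χ, map_one' := h1, map_mul' := h2 }
      have hf : ι f.toHomUnits = χ := by funext g; rfl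
      refine ⟨⟨f.toHomUnits, ?_⟩, ?_⟩
      · rw [hΛ₀, ← hdetOrder, hf]
        exact hχ2
      · apply Subtype.ext
        apply Subtype.ext
        exact hf
  have hsum : (∑ᶠ χ ∈ {χ : Cfsg.IrrCharacter G | ¬ p ∣ Cfsg.charDegree (χ : G → ℂ) ∧
      ¬ p ∣ Cfsg.detOrder (χ : G → ℂ)}, (Cfsg.charDegree (χ : G → ℂ) : ℤ) ^ 2) = (Nat.card Λ₀ : ℤ) := by
    rw [← hcard, finsum_mem_eq_toFinset_sum, Nat.card_eq_fintype_card, ← Set.toFinset_card]
    rw [Finset.card_eq_sum_ones]
    push_cast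
    refine Finset.sum_congr rfl fun χ hχ => ?_
    have hd1 : Cfsg.charDegree (χ : G → ℂ) = 1 := by
      by_contra h
      exact (Set.mem_toFinset.1 hχ).1 (hdeg χ h)
    rw [hd1]; simp
  rw [hsum] at hmain
  refine ⟨Cfsg.pResidual p G, inferInstance, ?_, index_pResidual p⟩
  rw [Nat.coprime_comm, Nat.Prime.coprime_iff_not_dvd hp]
  intro h
  apply hΛ₀card
  have h1 : (p : ℤ) ∣ (Nat.card (Cfsg.pResidual p G) : ℤ) := by exact_mod_cast h
  have h2 := (Int.ModEq.dvd_iff hmain).1 h1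
  exact_mod_cast h2

end Cfsg.Agent.S4456
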