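import Cfsg.Statements.S5420
import Cfsg.Agent.Lib.Helper27.Basic

set_option autoImplicit false
open Cfsg
open Cfsg.Agent.Lib.Helper27

namespace Cfsg.Agent.S5420

/-- Common core: `Q` a 2-group with `C_G(Q)` a 2-group (its centre), `C_G(Z) ≤ N_G(Q)`; an odd order subgroup `K` normalized
by `Q` and centralizing `Z` is trivial. -/
theorem trivial_of_centralizes {G : Type*} [Group G] [Finite G] (Q : Subgroup G) (hQ2 : IsPGroup 2 Q)
    (hL2 : Subgroup.centralizer (Q : Set G) = ((Subgroup.center ↥Q).map Q.subtype))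
    (hL3 : Subgroup.centralizer (((Subgroup.center ↥Q).map Q.subtype) : Set G) ≤ Subgroup.normalizer (Q : Set G))
    (K : Subgroup G) (hK : Odd (Nat.card K)) (hQK : Q ≤ Subgroup.normalizer (K : Set G))
    (hKZ : K ≤ Subgroup.centralizer (((Subgroup.center ↥Q).map Q.subtype) : Set G)) : K = ⊥ := by
  have hKc := coprime_two_of_odd hK
  have hKN : K ≤ Subgroup.normalizer (Q : Set G) := hKZ.trans hL3
  have hKQ : K ≤ Subgroup.centralizer (Q : Set G) := by
    intro k hk
    rw [Subgroup.mem_centralizer_iff]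
    intro q hq
    -- commutator q k q⁻¹ k⁻¹ ∈ K ∩ Q
    have h1 : q * k * q⁻¹ * k⁻¹ ∈ K :=
      K.mul_mem ((Subgroup.mem_normalizer_iff.mp (hQK hq) k).mp hk) (K.inv_mem hk)
    have h2 : q * k * q⁻¹ * k⁻¹ ∈ Q := by
      have : k * q⁻¹ * k⁻¹ ∈ Q := (Subgroup.mem_normalizer_iff.mp (hKN hk) q⁻¹).mp (Q.inv_mem hq)
      have h3 := Q.mul_mem hq this
      have e : q * (k * q⁻¹ * k⁻¹) = q * k * q⁻¹ * k⁻¹ := by group
      rwa [e] at h3
    have h4 := eq_one_of_mem_of_mem_pGroup hKc hQ2 h1 h2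
    calc q * k = (q * k * q⁻¹ * k⁻¹) * (k * q) := by group
      _ = k * q := by rw [h4, one_mul]
  rw [hL2] at hKQ
  rw [eq_bot_iff]
  intro k hk
  have hkQ : k ∈ Q := Subgroup.map_subtype_le _ (hKQ hk)
  exact eq_one_of_mem_of_mem_pGroup hKc hQ2 hk hkQ

/-- Let Q be an extraspecial 2-subgroup of the finite group G whose centralizer in G is its centre Z and which is normal in the centralizer of Z. If Z lies in the largest normal 2-subgroup of G, then Q is a large extraspecial 2-subgroup of G: it normalizes no non-trivial subgroup of G of odd order. -/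
theorem result {G : Type*} [Group G] [Finite G] (Q : Subgroup G) (hL1 : Cfsg.IsExtraspecial 2 ↥Q) (hL2 : Subgroup.centralizer (Q : Set G) = ((Subgroup.center ↥Q).map Q.subtype)) (hL3 : Subgroup.centralizer (((Subgroup.center ↥Q).map Q.subtype) : Set G) ≤ Subgroup.normalizer (Q : Set G)) (hZ : ((Subgroup.center ↥Q).map Q.subtype) ≤ Cfsg.pCore 2 G) : Cfsg.IsLargeExtraspecial Q := by
  refine ⟨hL1, hL2, hL3, ?_⟩
  intro K hK hQK
  apply trivial_of_centralizes Q hL1.1.1 hL2 hL3 K hK hQK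
  have hKc := coprime_two_of_odd hK
  intro k hk
  rw [Subgroup.mem_centralizer_iff]
  intro z hz
  have hzQ : z ∈ Q := Subgroup.map_subtype_le _ hz
  have h1 : z * k * z⁻¹ * k⁻¹ ∈ K :=
    K.mul_mem ((Subgroup.mem_normalizer_iff.mp (hQK hzQ) k).mp hk) (K.inv_mem hk)
  have h2 : z * k * z⁻¹ * k⁻¹ ∈ Cfsg.pCore 2 G := by
    have hn := pCore_normal 2 G
    have : k * z⁻¹ * k⁻¹ ∈ Cfsg.pCore 2 G := hn.conj_mem _ ((Cfsg.pCore 2 G).inv_mem (hZ hz)) k
    have h3 := (Cfsg.pCore 2 G).mul_mem (hZ hz) this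
    have e : z * (k * z⁻¹ * k⁻¹) = z * k * z⁻¹ * k⁻¹ := by group
    rwa [e] at h3
  have h4 := eq_one_of_mem_of_mem_pGroup hKc (isPGroup_pCore 2 G) h1 h2
  calc z * k = (z * k * z⁻¹ * k⁻¹) * (k * z) := by group
    _ = k * z := by rw [h4, one_mul]

end Cfsg.Agent.S5420
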