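import Cfsg.Statements.S5421
import Cfsg.Agent.Lib.Helper27.Invol
import Cfsg.Agent.S5420

set_option autoImplicit false
open Cfsg
open Cfsg.Agent.Lib.Helper27
open scoped commutatorElement

namespace Cfsg.Agent.S5421

/-- Let Q be an extraspecial 2-subgroup of the finite group G whose centralizer in G is its centre Z and which is normal in the centralizer of Z. If some involution b of Q outside Z has Z inside the largest normal 2-subgroup of the centralizer of b, then Q is a large extraspecial 2-subgroup of G. -/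
theorem result {G : Type*} [Group G] [Finite G] (Q : Subgroup G) (hL1 : Cfsg.IsExtraspecial 2 ↥Q) (hL2 : Subgroup.centralizer (Q : Set G) = ((Subgroup.center ↥Q).map Q.subtype)) (hL3 : Subgroup.centralizer (((Subgroup.center ↥Q).map Q.subtype) : Set G) ≤ Subgroup.normalizer (Q : Set G)) (b : G) (hbQ : b ∈ Q) (hbZ : b ∉ ((Subgroup.center ↥Q).map Q.subtype)) (hb : orderOf b = 2) (hZ : ((Subgroup.center ↥Q).map Q.subtype) ≤ (Cfsg.pCore 2 ↥(Subgroup.centralizer ({b} : Set G))).map (Subgroup.centralizer ({b} : Set G)).subtype) : Cfsg.IsLargeExtraspecial Q := by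
  refine ⟨hL1, hL2, hL3, ?_⟩
  intro K hK hQK
  have hKc := coprime_two_of_odd hK
  set Z := (Subgroup.center ↥Q).map Q.subtype with hZdef
  have hZQ : Z ≤ Q := Subgroup.map_subtype_le _
  have hZcard : Nat.card Z = 2 := by
    rw [hZdef, Subgroup.card_map_of_injective Q.subtype_injective, hL1.2]
  have hZcen : ∀ z ∈ Z, ∀ q ∈ Q, q * z = z * q := by
    rintro _ ⟨z, hz, rfl⟩ q hq
    have := Subgroup.mem_center_iff.mp hz ⟨q, hq⟩
    exact congrArg Subtype.val this
  -- step 1
  have step1 : K ⊓ Subgroup.centralizer (Z : Set G) = ⊥ := by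
    apply Cfsg.Agent.S5420.trivial_of_centralizes Q hL1.1.1 hL2 hL3
    · have hdvd : Nat.card (K ⊓ Subgroup.centralizer (Z : Set G) : Subgroup G) ∣ Nat.card K :=
        Subgroup.card_dvd_of_le inf_le_left
      exact Odd.of_dvd_nat hK hdvd
    · intro q hq
      rw [Subgroup.mem_normalizer_iff]
      have key : ∀ q ∈ Q, ∀ k, k ∈ K ⊓ Subgroup.centralizer (Z : Set G) →
          q * k * q⁻¹ ∈ K ⊓ Subgroup.centralizer (Z : Set G) := by
        intro q hq k hk
        refine Subgroup.mem_inf.mpr ⟨(Subgroup.mem_normalizer_iff.mp (hQK hq) k).mp hk.1, ?_⟩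
        rw [Subgroup.mem_centralizer_iff]
        intro z hz
        have h1 := hZcen z hz q hq
        have h2 : z * k = k * z := (Subgroup.mem_centralizer_iff.mp hk.2) z hz
        have h3 : q⁻¹ * z = z * q⁻¹ := by
          calc q⁻¹ * z = q⁻¹ * (z * q) * q⁻¹ := by group
            _ = q⁻¹ * (q * z) * q⁻¹ := by rw [h1]
            _ = z * q⁻¹ := by group
        calc z * (q * k * q⁻¹) = (z * q) * k * q⁻¹ := by group
          _ = (q * z) * k * q⁻¹ := by rw [h1]
          _ = q * (z * k) * q⁻¹ := by group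
          _ = q * (k * z) * q⁻¹ := by rw [h2]
          _ = q * k * (z * q⁻¹) := by group
          _ = q * k * (q⁻¹ * z) := by rw [h3]
          _ = q * k * q⁻¹ * z := by group
      intro k
      constructor
      · exact key q hq k
      · intro h
        have := key q⁻¹ (Q.inv_mem hq) _ h
        have e : q⁻¹ * (q * k * q⁻¹) * q⁻¹⁻¹ = k := by group
        rwa [e] at this
    · exact inf_le_right
  -- step 2
  have step2 : ∀ k ∈ K, b * k = k * b → k = 1 := by
    intro k hk hkb
    have hkC : k ∈ Subgroup.centralizer ({b} : Set G) := by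
      rw [Subgroup.mem_centralizer_singleton_iff]; exact hkb.symm
    have : k ∈ K ⊓ Subgroup.centralizer (Z : Set G) := by
      refine Subgroup.mem_inf.mpr ⟨hk, ?_⟩
      rw [Subgroup.mem_centralizer_iff]
      intro z hz
      have h1 : z * k * z⁻¹ * k⁻¹ ∈ K :=
        K.mul_mem ((Subgroup.mem_normalizer_iff.mp (hQK (hZQ hz)) k).mp hk) (K.inv_mem hk)
      obtain ⟨z', hz', hzz'⟩ := hZ hz
      have hn := pCore_normal 2 ↥(Subgroup.centralizer ({b} : Set G))
      have h2 : z' * (⟨k, hkC⟩ * z'⁻¹ * ⟨k, hkC⟩⁻¹) ∈ Cfsg.pCore 2 ↥(Subgroup.centralizer ({b} : Set G)) :=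
        Subgroup.mul_mem _ hz' (hn.conj_mem _ (Subgroup.inv_mem _ hz') _)
      obtain ⟨n, hn'⟩ := (isPGroup_pCore 2 ↥(Subgroup.centralizer ({b} : Set G))) ⟨_, h2⟩
      have h3 : (z * k * z⁻¹ * k⁻¹) ^ (2 ^ n) = 1 := by
        have h4 := congrArg (fun x : Cfsg.pCore 2 ↥(Subgroup.centralizer ({b} : Set G)) => ((x : ↥(Subgroup.centralizer ({b} : Set G))) : G)) hn'
        simp only [Subgroup.coe_pow, Subgroup.coe_mul, Subgroup.coe_inv, Subgroup.coe_one] at h4
        have hzz'' : (z' : G) = z := hzz'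
        rw [hzz''] at h4
        rw [← h4]
        congr 1
        group
      have h4 := eq_one_of_coprime hKc h1 h3
      calc z * k = (z * k * z⁻¹ * k⁻¹) * (k * z) := by group
        _ = k * z := by rw [h4, one_mul]
    rw [step1] at this
    exact this
  -- find q with q b q⁻¹ = z b
  obtain ⟨z, hzZ, hz1⟩ := exists_ne_one_of_card_two Z hZcard
  have hexq : ∃ q ∈ Q, q * b * q⁻¹ * b⁻¹ = z := by
    by_contra hcon
    push Not at hcon
    apply hbZ
    refine Subgroup.mem_map.mpr ⟨⟨b, hbQ⟩, ?_, rfl⟩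
    rw [Subgroup.mem_center_iff]
    rintro ⟨q, hq⟩
    apply Subtype.ext
    show q * b = b * q
    have hcomm : ⁅(⟨q, hq⟩ : Q), ⟨b, hbQ⟩⁆ ∈ Subgroup.center Q := by
      rw [← hL1.1.2.2, commutator_def]
      exact Subgroup.commutator_mem_commutator (Subgroup.mem_top _) (Subgroup.mem_top _)
    have hcZ : q * b * q⁻¹ * b⁻¹ ∈ Z := ⟨_, hcomm, rfl⟩
    have h1 : q * b * q⁻¹ * b⁻¹ = 1 := by
      by_contra h1
      exact hcon q hq (eq_of_card_two Z hZcard hcZ hzZ h1 hz1)
    calc q * b = (q * b * q⁻¹ * b⁻¹) * (b * q) := by group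
      _ = b * q := by rw [h1, one_mul]
  obtain ⟨q, hq, hqb⟩ := hexq
  have hb2 := sq_of_order_two hb
  have hbinv := inv_of_order_two hb
  set b' := q * b * q⁻¹ with hb'
  have hb'z : b' = z * b := by
    calc b' = (q * b * q⁻¹ * b⁻¹) * b := by rw [hb']; group
      _ = z * b := by rw [hqb]
  have hb'2 : b' * b' = 1 := by
    rw [hb']
    calc q * b * q⁻¹ * (q * b * q⁻¹) = q * (b * b) * q⁻¹ := by group
      _ = 1 := by rw [hb2]; group
  have hb'Q : b' ∈ Q := Q.mul_mem (Q.mul_mem hq hbQ) (Q.inv_mem hq)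
  have step2' : ∀ k ∈ K, b' * k = k * b' → k = 1 := by
    intro k hk hkb
    have h1 : q⁻¹ * k * q ∈ K := (Subgroup.mem_normalizer_iff''.mp (hQK hq) k).mp hk
    have h2 := step2 _ h1 (by
      calc b * (q⁻¹ * k * q) = q⁻¹ * (b' * k) * q := by rw [hb']; group
        _ = q⁻¹ * (k * b') * q := by rw [hkb]
        _ = q⁻¹ * k * q * b := by rw [hb']; group)
    calc k = q * (q⁻¹ * k * q) * q⁻¹ := by group
      _ = 1 := by rw [h2]; group
  have inv1 := inverts_of_fpf K b hb2 (hQK hbQ) step2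
  have inv2 := inverts_of_fpf K b' hb'2 (hQK hb'Q) step2'
  rw [eq_bot_iff]
  intro k hk
  have hkc : k ∈ K ⊓ Subgroup.centralizer (Z : Set G) := by
    refine Subgroup.mem_inf.mpr ⟨hk, ?_⟩
    rw [Subgroup.mem_centralizer_iff]
    intro y hy
    by_cases hy1 : y = 1
    · rw [hy1]; simp
    · have hyz : y = z := eq_of_card_two Z hZcard hy hzZ hy1 hz1
      have hz' : z = b' * b := by
        rw [hb'z, mul_assoc, hb2, mul_one]
      have e1 := inv1 k hk
      have e2 := inv2 k⁻¹ (K.inv_mem hk)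
      rw [inv_inv] at e2
      have e3 : z * k * z⁻¹ = k := by
        rw [hz']
        calc b' * b * k * (b' * b)⁻¹ = b' * (b * k * b⁻¹) * b'⁻¹ := by group
          _ = k := by rw [e1, e2]
      rw [hyz]
      calc z * k = (z * k * z⁻¹) * z := by group
        _ = k * z := by rw [e3]
  rw [step1] at hkc
  exact hkc

end Cfsg.Agent.S5421
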