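import Mathlib
import Cfsg.Statements.S0384
import Cfsg.Agent.Lib.Helper3.Dodecad

set_option autoImplicit false
open scoped Pointwise
open Cfsg

namespace Cfsg.Agent.S0384

/-- A dodecad stabiliser is sharply 5-transitive on the dodecad. -/
theorem result (d : Finset Cfsg.GolayPt) (hd : d ∈ Cfsg.dodecads) (x y : Fin 5 ↪ Cfsg.GolayPt) (hx : ∀ i, x i ∈ d) (hy : ∀ i, y i ∈ d) : ∃! g : MulAction.stabilizer Cfsg.M24 d, ∀ i, ((g : Cfsg.M24) : Equiv.Perm Cfsg.GolayPt) (x i) = y i := by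
  open Cfsg.Agent.Lib.Helper28 Cfsg.Agent.Lib.Helper3.Dod in
  obtain ⟨g, hg, hgd, hgx⟩ := exists_of_lists hd (List.ofFn x) (List.ofFn y) (by simp)
    (List.nodup_ofFn.2 x.injective) (fun z hz => by obtain ⟨i, rfl⟩ := (List.mem_ofFn' _ _).1 hz; exact hx i) (by simp)
    (List.nodup_ofFn.2 y.injective) (fun z hz => by obtain ⟨i, rfl⟩ := (List.mem_ofFn' _ _).1 hz; exact hy i)
  rw [List.map_ofFn, List.ofFn_inj] at hgx
  refine ⟨⟨⟨g, hg⟩, hgd⟩, fun i => congrFun hgx i, ?_⟩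
  rintro ⟨⟨g', hg'⟩, hgd'⟩ h'
  apply Subtype.ext
  apply Subtype.ext
  show g' = g
  have hgd'' : g' • d = d := hgd'
  have h'' : ∀ i, g' (x i) = y i := h'
  have : g⁻¹ * g' = 1 := by
    apply eq_one_of_fixes hd (List.ofFn x) (by simp) (List.nodup_ofFn.2 x.injective)
      (fun z hz => by obtain ⟨i, rfl⟩ := (List.mem_ofFn' _ _).1 hz; exact hx i) (M24.mul_mem (M24.inv_mem hg) hg')
    · rw [mul_smul, hgd'', inv_smul_eq_iff, hgd]
    · intro z hz
      rw [List.mem_ofFn] at hz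
      obtain ⟨i, rfl⟩ := hz
      rw [Equiv.Perm.mul_apply, h'', Equiv.Perm.inv_eq_iff_eq]
      exact (congrFun hgx i).symm
  rwa [inv_mul_eq_one, eq_comm] at this

end Cfsg.Agent.S0384
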