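import Mathlib
import Cfsg.Statements.S0385
import Cfsg.Agent.Lib.Helper28.M24Trans

set_option autoImplicit false
open Cfsg

namespace Cfsg.Agent.S0385

open Cfsg.Agent.Lib.Helper28

theorem inter_cases {o d : Finset GolayPt} (ho : o ∈ octads) (hd : d ∈ dodecads) :
    (o ∩ d).card = 2 ∨ (o ∩ d).card = 4 ∨ (o ∩ d).card = 6 := by
  rw [mem_octads_iff] at ho
  rw [mem_dodecads_iff] at hd
  have h1 := popc_xor_add (mk o) (mk d)
  have h2 := popc_cases (isCode_xor ho.1 hd.1)
  have h3 : (o ∩ d).card ≤ 8 := by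
    calc (o ∩ d).card ≤ o.card := Finset.card_le_card Finset.inter_subset_left
      _ = 8 := by rw [card_eq_popc, ho.2]
  rw [card_eq_popc, mk_inter] at h3 ⊢
  rw [ho.2, hd.2] at h1
  omega


/-- The 6-point intersections of octads with a fixed dodecad form a Steiner system S(5, 6, 12) on the dodecad. -/
theorem result (d : Finset Cfsg.GolayPt) (hd : d ∈ Cfsg.dodecads) : Cfsg.IsSteinerSystem 5 6 {h : Finset {p : Cfsg.GolayPt // p ∈ d} | ∃ o ∈ Cfsg.octads, (o ∩ d).card = 6 ∧ h = Finset.subtype (fun p => p ∈ d) o} := by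
  have hB := octads_steiner
  constructor
  · rintro h ⟨o, ho, h6, rfl⟩
    rw [Finset.card_subtype, Finset.filter_mem_eq_inter, h6]
  · intro s hs
    set S : Finset GolayPt := s.map (Function.Embedding.subtype _) with hS
    have hSd : S ⊆ d := by
      intro x hx
      rw [hS, Finset.mem_map] at hx
      obtain ⟨y, _, rfl⟩ := hx
      exact y.2
    have hScard : S.card = 5 := by rw [hS, Finset.card_map, hs]
    obtain ⟨o, ⟨ho1, ho2⟩, ho3⟩ := hB.2 S hScard
    have h6 : (o ∩ d).card = 6 := by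
      have h5 : 5 ≤ (o ∩ d).card := by
        rw [← hScard]
        exact Finset.card_le_card (Finset.subset_inter ho2 hSd)
      rcases inter_cases ho1 hd with h | h | h <;> omega
    refine ⟨Finset.subtype (fun p => p ∈ d) o, ⟨⟨o, ho1, h6, rfl⟩, ?_⟩, ?_⟩
    · intro x hx
      rw [Finset.mem_subtype]
      exact ho2 (Finset.mem_map_of_mem _ hx)
    · rintro c' ⟨⟨c, hc, _, rfl⟩, hsc⟩
      have : c = o := by
        apply ho3 c ⟨hc, ?_⟩
        intro x hx
        rw [hS, Finset.mem_map] at hx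
        obtain ⟨y, hy, rfl⟩ := hx
        exact Finset.mem_subtype.1 (hsc hy)
      rw [this]

end Cfsg.Agent.S0385
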