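import Mathlib
import Cfsg.Statements.S0382
import Cfsg.Agent.Lib.Helper3.Dodecad

set_option autoImplicit false
open scoped Pointwise
open Cfsg

namespace Cfsg.Agent.S0382

/-- A dodecad stabiliser in the group of the length-24 code has order 95040 = 2^6·3^3·5·11. -/
theorem result (d : Finset Cfsg.GolayPt) (hd : d ∈ Cfsg.dodecads) : Nat.card (MulAction.stabilizer Cfsg.M24 d) = 95040 := by
  open Cfsg.Agent.Lib.Helper28 Cfsg.Agent.Lib.Helper3.Dod in
  have horb : MulAction.orbit M24 d = dodecads := by
    ext e
    constructor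
    · rintro ⟨g, rfl⟩
      exact smul_mem_dodecads g.2 hd
    · intro he
      obtain ⟨g, hg, h⟩ := exists_smul_eq hd he
      exact ⟨⟨g, hg⟩, h⟩
  have h1 := Subgroup.card_mul_index (MulAction.stabilizer M24 d)
  rw [MulAction.index_stabilizer, horb, ncard_dodecads, card_M24] at h1
  omega

end Cfsg.Agent.S0382
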