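import Mathlib
import Cfsg.Statements.S1600
import Cfsg.Agent.Lib.Helper3.OrbitTool2
import Cfsg.Agent.Lib.Helper3.M12
import Cfsg.Agent.Lib.Helper3.M11Compl
import Cfsg.Agent.Lib.Helper3.StabCard

set_option autoImplicit false
open scoped Pointwise
open Cfsg

namespace Cfsg.Agent.S1600

open Cfsg.Agent.Lib.Helper28 Cfsg.Agent.Lib.Helper3.M24T Cfsg.Agent.Lib.Helper3.Orb Cfsg.Agent.Lib.Helper3 Cfsg.Agent.Lib.Helper3.Dod

theorem exists_lists_le {d : Finset GolayPt} (hd : d ∈ dodecads) (xs ys : List GolayPt)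
    (hlen : xs.length = ys.length) (h5 : xs.length ≤ 5) (hx2 : xs.Nodup) (hx3 : ∀ x ∈ xs, x ∈ d)
    (hy2 : ys.Nodup) (hy3 : ∀ x ∈ ys, x ∈ d) : ∃ g ∈ M24, g • d = d ∧ xs.map g = ys := by
  have hc : d.card = 12 := hd.2
  obtain ⟨xs', a1, a2, a3⟩ := extend_list (by omega) xs hx2 hx3 h5
  obtain ⟨ys', b1, b2, b3⟩ := extend_list (by omega) ys hy2 hy3 (hlen ▸ h5)
  obtain ⟨g, hg, hgd, hgx⟩ := exists_of_lists hd _ _ a1 a2 a3 b1 b2 b3
  rw [List.map_append] at hgx
  exact ⟨g, hg, hgd, (List.append_inj hgx (by simp [hlen])).1⟩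

/-- The pointwise stabiliser of three points of a dodecad inside the dodecad stabiliser (order 72) is transitive on the complementary dodecad. -/
theorem result (d : Finset Cfsg.GolayPt) (hd : d ∈ Cfsg.dodecads) (p q r : Cfsg.GolayPt) (hp : p ∈ d) (hq : q ∈ d) (hr : r ∈ d) (hpq : p ≠ q) (hpr : p ≠ r) (hqr : q ≠ r) : Nat.card ↥(MulAction.stabilizer Cfsg.M24 d ⊓ MulAction.stabilizer Cfsg.M24 p ⊓ MulAction.stabilizer Cfsg.M24 q ⊓ MulAction.stabilizer Cfsg.M24 r) = 72 ∧ ∀ x ∉ d, ∀ y ∉ d, ∃ g ∈ (MulAction.stabilizer Cfsg.M24 d ⊓ MulAction.stabilizer Cfsg.M24 p ⊓ MulAction.stabilizer Cfsg.M24 q ⊓ MulAction.stabilizer Cfsg.M24 r), ((g : ↥Cfsg.M24) : Equiv.Perm Cfsg.GolayPt) x = y := by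
  have hc : d.card = 12 := hd.2
  have hmem : ∀ (g : Equiv.Perm GolayPt), g • d = d → ∀ x ∈ d, g x ∈ d := by
    intro g hg x hx
    rw [← hg, mem_smul_finset_iff]
    exact hx
  constructor
  · have c1 := M12.card_stab hd
    have c2 := StabCard.card_inf_stabilizer_mul (MulAction.stabilizer Cfsg.M24 d) p
    have c3 := StabCard.card_inf_stabilizer_mul
      (MulAction.stabilizer Cfsg.M24 d ⊓ MulAction.stabilizer Cfsg.M24 p) q
    have c4 := StabCard.card_inf_stabilizer_mul
      (MulAction.stabilizer Cfsg.M24 d ⊓ MulAction.stabilizer Cfsg.M24 p ⊓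
        MulAction.stabilizer Cfsg.M24 q) r
    have o2 : MulAction.orbit ↥(MulAction.stabilizer Cfsg.M24 d) p = ↑d := by
      ext x
      constructor
      · rintro ⟨⟨⟨g, hg⟩, hgd⟩, rfl⟩
        exact hmem g hgd p hp
      · intro hx
        obtain ⟨g, hg, hgd, hgx⟩ := exists_lists_le hd [p] [x] rfl (by simp) (by simp) (by simpa using hp)
          (by simp) (by simpa using hx)
        simp only [List.map_cons, List.map_nil, List.cons.injEq, and_true] at hgx
        exact ⟨⟨⟨g, hg⟩, hgd⟩, hgx⟩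
    have o3 : MulAction.orbit ↥(MulAction.stabilizer Cfsg.M24 d ⊓ MulAction.stabilizer Cfsg.M24 p) q =
        ↑(d.erase p) := by
      ext x
      constructor
      · rintro ⟨⟨⟨g, hg⟩, hgd, hgp⟩, rfl⟩
        have hgp' : g p = p := hgp
        rw [Finset.mem_coe, Finset.mem_erase]
        refine ⟨fun h => hpq ?_, hmem g hgd q hq⟩
        have h' : g q = p := h
        exact (g.injective (h'.trans hgp'.symm)).symm
      · intro hx
        rw [Finset.mem_coe, Finset.mem_erase] at hx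
        obtain ⟨g, hg, hgd, hgx⟩ := exists_lists_le hd [p, q] [p, x] rfl (by simp) (by simp [hpq])
          (by simp [hp, hq]) (by simp [Ne.symm hx.1]) (by simp [hp, hx.2])
        simp only [List.map_cons, List.map_nil, List.cons.injEq, and_true] at hgx
        exact ⟨⟨⟨g, hg⟩, hgd, hgx.1⟩, hgx.2⟩
    have o4 : MulAction.orbit ↥(MulAction.stabilizer Cfsg.M24 d ⊓ MulAction.stabilizer Cfsg.M24 p ⊓
        MulAction.stabilizer Cfsg.M24 q) r = ↑((d.erase p).erase q) := by
      ext x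
      constructor
      · rintro ⟨⟨⟨g, hg⟩, ⟨hgd, hgp⟩, hgq⟩, rfl⟩
        have hgp' : g p = p := hgp
        have hgq' : g q = q := hgq
        rw [Finset.mem_coe, Finset.mem_erase, Finset.mem_erase]
        refine ⟨fun h => hqr ?_, fun h => hpr ?_, hmem g hgd r hr⟩
        · have h' : g r = q := h
          exact (g.injective (h'.trans hgq'.symm)).symm
        · have h' : g r = p := h
          exact (g.injective (h'.trans hgp'.symm)).symm
      · intro hx
        rw [Finset.mem_coe, Finset.mem_erase, Finset.mem_erase] at hx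
        obtain ⟨g, hg, hgd, hgx⟩ := exists_lists_le hd [p, q, r] [p, q, x] rfl (by simp)
          (by simp [hpq, hpr, hqr]) (by simp [hp, hq, hr])
          (by simp [hpq, Ne.symm hx.1, Ne.symm hx.2.1]) (by simp [hp, hq, hx.2.2])
        simp only [List.map_cons, List.map_nil, List.cons.injEq, and_true] at hgx
        exact ⟨⟨⟨g, hg⟩, ⟨hgd, hgx.1⟩, hgx.2.1⟩, hgx.2.2⟩
    rw [o2, Set.ncard_coe_finset, hc, c1] at c2
    rw [o3, Set.ncard_coe_finset, Finset.card_erase_of_mem hp, hc] at c3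
    rw [o4, Set.ncard_coe_finset, Finset.card_erase_of_mem (Finset.mem_erase.2 ⟨Ne.symm hpq, hq⟩),
      Finset.card_erase_of_mem hp, hc] at c4
    omega
  · intro x hx y hy
    obtain ⟨g, hg, hgd, hgf, hgx⟩ := M11C.exists_fix3 hd
      ⟨![p, q, r], by
        intro i j hij
        fin_cases i <;> fin_cases j <;> simp_all⟩
      (by
        intro i
        fin_cases i
        · exact hp
        · exact hq
        · exact hr) hx hy
    exact ⟨⟨g, hg⟩, ⟨⟨⟨hgd, hgf 0⟩, hgf 1⟩, hgf 2⟩, hgx⟩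

end Cfsg.Agent.S1600
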