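import Mathlib
import Cfsg.Statements.S0351

set_option autoImplicit false
open Cfsg

namespace Cfsg.Agent.S0351

/-- Derived design: removing a point p from the blocks through p of an S(t+1, k+1, v) yields an S(t, k, v-1) on the points other than p. -/
theorem result {α : Type*} [Fintype α] [DecidableEq α] {t k : ℕ} {B : Set (Finset α)} (hB : Cfsg.IsSteinerSystem (t + 1) (k + 1) B) (p : α) : Cfsg.IsSteinerSystem t k {b' : Finset {a : α // a ≠ p} | ∃ b ∈ B, p ∈ b ∧ b' = Finset.subtype (fun a => a ≠ p) b} := by
---
  constructor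
  · rintro b' ⟨b, hb, hpb, rfl⟩
    rw [Finset.card_subtype, Finset.filter_ne', Finset.card_erase_of_mem hpb, hB.1 b hb]
    rfl
  · intro s hs
    set S : Finset α := insert p (s.map (Function.Embedding.subtype _)) with hS
    have hpS : p ∉ s.map (Function.Embedding.subtype (fun a => a ≠ p)) := by
      intro h
      rw [Finset.mem_map] at h
      obtain ⟨x, _, hx⟩ := h
      exact x.2 hx
    have hScard : S.card = t + 1 := by
      rw [hS, Finset.card_insert_of_notMem hpS, Finset.card_map, hs]
    obtain ⟨b, ⟨hb1, hb2⟩, hb3⟩ := hB.2 S hScard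
    have hpb : p ∈ b := hb2 (Finset.mem_insert_self _ _)
    refine ⟨Finset.subtype (fun a => a ≠ p) b, ⟨⟨b, hb1, hpb, rfl⟩, ?_⟩, ?_⟩
    · intro x hx
      rw [Finset.mem_subtype]
      apply hb2
      apply Finset.mem_insert_of_mem
      exact Finset.mem_map_of_mem _ hx
    · rintro c' ⟨⟨c, hc, hpc, rfl⟩, hsc⟩
      have : c = b := by
        apply hb3 c ⟨hc, ?_⟩
        intro x hx
        rw [hS, Finset.mem_insert] at hx
        rcases hx with rfl | hx
        · exact hpc
        · rw [Finset.mem_map] at hx
          obtain ⟨y, hy, rfl⟩ := hx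
          exact Finset.mem_subtype.1 (hsc hy)
      rw [this]

end Cfsg.Agent.S0351
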