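import Cfsg.Statements.S0369
import Cfsg.Agent.Lib.Helper28.M24Trans

set_option autoImplicit false
open Cfsg

namespace Cfsg.Agent.S0369

/-- The group of the length-24 code coincides with the automorphism group of its octad system. -/
theorem result : Cfsg.M24 = Cfsg.setSystemAut Cfsg.octads := by
  open Lib.Helper28 in
  open scoped Pointwise in
  have hfin : (octads : Set (Finset GolayPt)).Finite := Set.toFinite _
  ext g
  show g ∈ M24 ↔ g ∈ MulAction.stabilizer (Equiv.Perm GolayPt) octads
  rw [MulAction.mem_stabilizer_set_iff_smul_set_subset hfin]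
  constructor
  · rintro hg _ ⟨o, ho, rfl⟩
    exact Lib.Helper28.smul_mem_octads hg ho
  · intro h
    rw [Lib.Helper28.mem_M24_iff]
    simp only [Lib.Helper28.mapsCode, List.all_eq_true]
    intro b hb
    have hb8 : ∀ b ∈ Lib.Helper28.B12, Lib.Helper28.isOct b = true := by decide +kernel
    have h1 : g • Lib.Helper28.un b ∈ octads :=
      h (Set.smul_mem_smul_set (Lib.Helper28.un_mem_octads (hb8 b hb)))
    rw [Lib.Helper28.mem_octads_iff, Lib.Helper28.mk_smul,
      Lib.Helper28.mk_un (Lib.Helper28.B12_lt b hb)] at h1
    exact h1.1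

end Cfsg.Agent.S0369
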