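import Cfsg.Statements.S0430
import Cfsg.Agent.Lib.Helper28.HSGraphC
import Cfsg.Agent.S0410

set_option autoImplicit false
open Cfsg

namespace Cfsg.Agent.S0430

/-- Uniqueness of the strongly regular graph with parameters (100, 22, 0, 6). -/
theorem result {V W : Type*} [Fintype V] [Fintype W] {G : SimpleGraph V} {H : SimpleGraph W} [DecidableRel G.Adj] [DecidableRel H.Adj] (hG : G.IsSRGWith 100 22 0 6) (hH : H.IsSRGWith 100 22 0 6) : Nonempty (G ≃g H) := by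
  classical
  have hG' := Cfsg.Agent.Lib.Helper28.HSGraph.isHSG_of_srg hG
  have hH' := Cfsg.Agent.Lib.Helper28.HSGraph.isHSG_of_srg hH
  obtain ⟨x⟩ : Nonempty V := Fintype.card_pos_iff.1 (by rw [hG.card]; decide)
  obtain ⟨y⟩ : Nonempty W := Fintype.card_pos_iff.1 (by rw [hH.card]; decide)
  obtain ⟨f, _⟩ := Cfsg.Agent.Lib.Helper28.HSGraph.reconstruct hG' x
  obtain ⟨g, _⟩ := Cfsg.Agent.Lib.Helper28.HSGraph.reconstruct hH' y
  obtain ⟨e, he⟩ := Cfsg.Agent.S0410.result (Cfsg.Agent.Lib.Helper28.HSGraph.card_Pt hG' x)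
    (Cfsg.Agent.Lib.Helper28.HSGraph.card_Pt hH' y)
    (Cfsg.Agent.Lib.Helper28.HSGraph.steiner hG' x) (Cfsg.Agent.Lib.Helper28.HSGraph.steiner hH' y)
  obtain ⟨k, _⟩ := Cfsg.Agent.Lib.Helper28.HSGraph.pbg_iso e he
  exact ⟨(f.trans k).trans g.symm⟩

end Cfsg.Agent.S0430
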