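import Cfsg.Statements.S1593
import Cfsg.Agent.Lib.Helper28.TGolay

set_option autoImplicit false
open Cfsg

namespace Cfsg.Agent.S1593

/-- The only sign changes preserving the length-12 ternary code are the identity and negation of all coordinates. -/
theorem result (c : Cfsg.ArrayPt → (ZMod 3)ˣ) (h : (∀ x ∈ Cfsg.ternaryGolayCode, Cfsg.monomialMap 1 c x ∈ Cfsg.ternaryGolayCode)) : (∀ p, c p = 1) ∨ (∀ p, c p = -1) := by
  have key : ∀ (j : Fin 6) (p : Cfsg.ArrayPt), Cfsg.Agent.Lib.Helper28.TGolay.G j p ≠ 0 →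
      c p = c (Cfsg.Agent.Lib.Helper28.TGolay.info j) := by
    intro j p hp
    have hG : Cfsg.Agent.Lib.Helper28.TGolay.G j ∈ Cfsg.ternaryGolayCode :=
      (Cfsg.Agent.Lib.Helper28.TGolay.mem_iff _).2 (Cfsg.Agent.Lib.Helper28.TGolay.G_isW j)
    have h1 := h _ hG
    have h2 : ((c (Cfsg.Agent.Lib.Helper28.TGolay.info j) : (ZMod 3)ˣ) : ZMod 3) •
        Cfsg.Agent.Lib.Helper28.TGolay.G j ∈ Cfsg.ternaryGolayCode := Submodule.smul_mem _ _ hG
    have h3 := Cfsg.Agent.Lib.Helper28.TGolay.eq_of_info h1 h2 (by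
      intro k
      show ((c (Cfsg.Agent.Lib.Helper28.TGolay.info k) : (ZMod 3)ˣ) : ZMod 3) *
        Cfsg.Agent.Lib.Helper28.TGolay.G j (Cfsg.Agent.Lib.Helper28.TGolay.info k) =
        ((c (Cfsg.Agent.Lib.Helper28.TGolay.info j) : (ZMod 3)ˣ) : ZMod 3) *
        Cfsg.Agent.Lib.Helper28.TGolay.G j (Cfsg.Agent.Lib.Helper28.TGolay.info k)
      rw [Cfsg.Agent.Lib.Helper28.TGolay.G_info]
      by_cases hjk : j = k
      · rw [hjk]
      · rw [if_neg hjk, mul_zero, mul_zero])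
    have h4 := congrFun h3 p
    have h5 : ((c p : (ZMod 3)ˣ) : ZMod 3) * Cfsg.Agent.Lib.Helper28.TGolay.G j p =
        ((c (Cfsg.Agent.Lib.Helper28.TGolay.info j) : (ZMod 3)ˣ) : ZMod 3) *
        Cfsg.Agent.Lib.Helper28.TGolay.G j p := h4
    exact Units.ext (mul_right_cancel₀ hp h5)
  have e0 := key 0 (1, 2) (by decide +kernel)
  have e1 := key 1 (1, 2) (by decide +kernel)
  have e2 := key 2 (1, 2) (by decide +kernel)
  have e3 := key 3 (1, 2) (by decide +kernel)
  have e4 := key 4 (1, 2) (by decide +kernel)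
  have e5 := key 5 (2, 2) (by decide +kernel)
  have e6 := key 0 (2, 2) (by decide +kernel)
  have hall : ∀ j, c (Cfsg.Agent.Lib.Helper28.TGolay.info j) = c (Cfsg.Agent.Lib.Helper28.TGolay.info 0) := by
    intro j
    fin_cases j
    · rfl
    · exact e1.symm.trans e0
    · exact e2.symm.trans e0
    · exact e3.symm.trans e0
    · exact e4.symm.trans e0
    · exact e5.symm.trans e6
  have hex : ∀ p, ∃ j, Cfsg.Agent.Lib.Helper28.TGolay.G j p ≠ 0 := by decide +kernel
  have hc : ∀ p, c p = c (Cfsg.Agent.Lib.Helper28.TGolay.info 0) := by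
    intro p
    obtain ⟨j, hj⟩ := hex p
    rw [key j p hj, hall]
  have hu : ∀ u : (ZMod 3)ˣ, u = 1 ∨ u = -1 := by decide
  rcases hu (c (Cfsg.Agent.Lib.Helper28.TGolay.info 0)) with h1 | h1
  · left
    intro p
    rw [hc, h1]
  · right
    intro p
    rw [hc, h1]

end Cfsg.Agent.S1593
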