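import Mathlib
import Cfsg.Statements.S4512
import Cfsg.Agent.H6.KleinBlock
import Cfsg.Agent.S0942

set_option autoImplicit false
open Cfsg Cfsg.Agent.BlockLib Cfsg.Agent.CharLib Cfsg.Agent.H6 Cfsg.Agent.H6.KleinFour

namespace Cfsg.Agent.S4512

theorem sq_eq_one_of_two_element {G : Type*} [Group G] [Finite G] (P : Sylow 2 G)
    (hexp : ∀ x : P, x * x = 1) {x : G} {k : ℕ} (hk : orderOf x = 2 ^ k) : x * x = 1 := by
  haveI : Fact (Nat.Prime 2) := ⟨Nat.prime_two⟩
  have hp : IsPGroup 2 (Subgroup.zpowers x) := by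
    rw [IsPGroup.iff_card, Nat.card_zpowers, hk]
    exact ⟨k, rfl⟩
  obtain ⟨Q, hQ⟩ := hp.exists_le_sylow
  obtain ⟨g, hg⟩ := MulAction.exists_smul_eq G P Q
  have hx : x ∈ (Q : Subgroup G) := hQ (Subgroup.mem_zpowers x)
  rw [← hg, Sylow.coe_subgroup_smul, Subgroup.mem_smul_pointwise_iff_exists] at hx
  obtain ⟨s, hs, rfl⟩ := hx
  have h1 : s * s = 1 := congrArg Subtype.val (hexp ⟨s, hs⟩)
  rw [← smul_mul', h1, smul_one]

/-- characters of the principal block are constant on the 2-singular elements -/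
theorem apply_singular {G : Type*} [Group G] [Finite G] {M : Ideal AlgInt} (hM : IsPModular 2 M)
    (P : Sylow 2 G) (hP : Nat.card P = 4) (hexp : ∀ x : P, x * x = 1)
    (hone : ∀ s t : G, orderOf s = 2 → orderOf t = 2 → IsConj s t) {z : G} (hzP : z ∈ P)
    (hz : orderOf z = 2) {ζ : IrrCharacter G} (hζ : ζ ∈ principalBlock M G) {u : G}
    (hu : 2 ∣ orderOf u) : (ζ : G → ℂ) u = (ζ : G → ℂ) z := by
  haveI : Fact (Nat.Prime 2) := ⟨Nat.prime_two⟩
  have hcl := isClassFunction_of_irr ζ.2
  obtain ⟨x, ⟨y, hxy, hcomm, ⟨k, hk⟩, hy⟩, -⟩ := exists_isPPart Nat.prime_two u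
  have hx1 : x ≠ 1 := by
    rintro rfl
    rw [one_mul] at hxy
    rw [hxy] at hy
    exact hy hu
  have hx2 : orderOf x = 2 :=
    orderOf_eq_prime (by rw [pow_two]; exact sq_eq_one_of_two_element P hexp hk) hx1
  obtain ⟨c, hc⟩ := isConj_iff.mp (hone x z hx2 hz)
  have hz1 : z ≠ 1 := by
    rintro rfl
    rw [orderOf_one] at hz
    omega
  obtain ⟨⟨k', hk'⟩, -⟩ := centralizer_involution P hP hexp hzP hz1
  -- the conjugated odd part
  have hy'C : c * y * c⁻¹ ∈ Subgroup.centralizer ({z} : Set G) := by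
    rw [Subgroup.mem_centralizer_singleton_iff, ← hc]
    have h1 : c * y * c⁻¹ * (c * x * c⁻¹) = c * (y * x) * c⁻¹ := by group
    have h2 : c * x * c⁻¹ * (c * y * c⁻¹) = c * (x * y) * c⁻¹ := by group
    rw [h1, h2, hcomm.eq]
  have hy'o : ¬ 2 ∣ orderOf (⟨c * y * c⁻¹, hy'C⟩ : Subgroup.centralizer ({z} : Set G)) := by
    rw [Subgroup.orderOf_mk]
    have : orderOf (c * y * c⁻¹) = orderOf y := (MulAut.conj c).orderOf_eq y
    rwa [this]
  have hchar : (pPrimeCore 2 (Subgroup.centralizer ({z} : Set G))).Characteristic :=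
    H12.pPrimeCore_characteristic 2 _
  haveI hKn : (pPrimeCore 2 (Subgroup.centralizer ({z} : Set G))).Normal := inferInstance
  have hyK : (⟨c * y * c⁻¹, hy'C⟩ : Subgroup.centralizer ({z} : Set G)) ∈
      pPrimeCore 2 (Subgroup.centralizer ({z} : Set G)) := by
    rw [← QuotientGroup.eq_one_iff]
    have e1 : (((⟨c * y * c⁻¹, hy'C⟩ : Subgroup.centralizer ({z} : Set G)) :
        Subgroup.centralizer ({z} : Set G) ⧸ pPrimeCore 2 (Subgroup.centralizer ({z} : Set G)))) ^
        orderOf (⟨c * y * c⁻¹, hy'C⟩ : Subgroup.centralizer ({z} : Set G)) = 1 := by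
      rw [← QuotientGroup.mk_pow, pow_orderOf_eq_one]; rfl
    have e2 : (((⟨c * y * c⁻¹, hy'C⟩ : Subgroup.centralizer ({z} : Set G)) :
        Subgroup.centralizer ({z} : Set G) ⧸ pPrimeCore 2 (Subgroup.centralizer ({z} : Set G)))) ^
        (2 ^ k') = 1 := by
      rw [← hk', Subgroup.index_eq_card]
      exact pow_card_eq_one'
    have e3 : Nat.Coprime (orderOf (⟨c * y * c⁻¹, hy'C⟩ : Subgroup.centralizer ({z} : Set G)))
        (2 ^ k') :=
      Nat.Coprime.pow_right k' ((Nat.Prime.coprime_iff_not_dvd Nat.prime_two).mpr hy'o).symm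
    have e4 := pow_gcd_eq_one.mpr ⟨e1, e2⟩
    rwa [e3, pow_one] at e4
  have key := Cfsg.Agent.S0942.result 2 M hM z ⟨1, by rw [hz, pow_one]⟩ (c * y * c⁻¹)
    ⟨⟨c * y * c⁻¹, hy'C⟩, hyK, rfl⟩ ζ hζ
  rw [← key, ← hcl u c, ← hxy, ← hc]
  congr 1
  group

/-- If G is a finite group with a Sylow 2-subgroup that is a Klein four-group and a single conjugacy class of involutions, then its principal 2-block (relative to a maximal ideal M of the algebraic integers containing 2) has 2-regular rank 3: the restrictions of its irreducible characters to the elements of odd order span a space of dimension 3 (it has three irreducible Brauer characters). -/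
theorem result {G : Type*} [Group G] [Finite G] (M : Ideal Cfsg.AlgInt) (hM : Cfsg.IsPModular 2 M) (P : Sylow 2 G)
    (hP : Nat.card P = 4) (hexp : ∀ x : P, x * x = 1)
    (hone : ∀ s t : G, orderOf s = 2 → orderOf t = 2 → IsConj s t) :
    Cfsg.blockRank 2 (Cfsg.principalBlock M G) = 3 := by
  classical
  cases nonempty_fintype G
  haveI : Fact (Nat.Prime 2) := ⟨Nat.prime_two⟩
  haveI := isPrime_of_isPModular hM
  obtain ⟨z, hzP, hz⟩ := exists_involution P hP hexp
  obtain ⟨n, hn, hpm, hcard4, horth⟩ := klein_structure hM P hP hexp hone hzP hz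
  -- the linear map
  let v : principalBlock M G → G → ℂ := fun ζ => pRegularPart 2 ((ζ : IrrCharacter G) : G → ℂ)
  have hrange : LinearMap.range (Fintype.linearCombination ℂ v) =
      Submodule.span ℂ ((fun χ : IrrCharacter G => pRegularPart 2 (χ : G → ℂ)) ''
        principalBlock M G) := by
    rw [Fintype.range_linearCombination, Set.image_eq_range]
  rw [blockRank, ← hrange]
  have hrn := LinearMap.finrank_range_add_finrank_ker (Fintype.linearCombination ℂ v)
  have hcardι : Fintype.card (principalBlock M G) = 4 := by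
    rw [← hcard4, Fintype.card_subtype]
  rw [Module.finrank_fintype_fun_eq_card, hcardι] at hrn
  -- sums over the subtype
  have hsub : ∀ f : IrrCharacter G → ℂ, ∑ ζ : principalBlock M G, f ζ =
      ∑ ζ ∈ Finset.univ.filter (· ∈ principalBlock M G), f ζ := by
    intro f
    exact (Finset.sum_subtype (p := (· ∈ principalBlock M G))
      (Finset.univ.filter (· ∈ principalBlock M G)) (fun x => by simp) f).symm
  let n' : principalBlock M G → ℂ := fun ζ => (n ζ : ℂ)
  have hlc : ∀ (c : principalBlock M G → ℂ) (g : G), Fintype.linearCombination ℂ v c g =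
      ∑ ζ : principalBlock M G, c ζ * pRegularPart 2 ((ζ : IrrCharacter G) : G → ℂ) g := by
    intro c g
    rw [Fintype.linearCombination_apply, Finset.sum_apply]
    rfl
  have hreg : ∀ (f : G → ℂ) (g : G), ¬ 2 ∣ orderOf g → pRegularPart 2 f g = f g := by
    intro f g hg
    have hg' : IsPRegular 2 g := hg
    rw [pRegularPart, if_pos hg']
  have hsing : ∀ (f : G → ℂ) (g : G), 2 ∣ orderOf g → pRegularPart 2 f g = 0 := by
    intro f g hg
    have hg' : ¬ IsPRegular 2 g := fun h => h hg
    rw [pRegularPart, if_neg hg']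
  have hn'ker : n' ∈ LinearMap.ker (Fintype.linearCombination ℂ v) := by
    rw [LinearMap.mem_ker]
    funext g
    rw [hlc]
    by_cases hg : 2 ∣ orderOf g
    · simp only [hsing _ g hg, mul_zero, Finset.sum_const_zero, Pi.zero_apply]
    · simp only [hreg _ g hg]
      rw [hsub (fun ζ => (n ζ : ℂ) * (ζ : G → ℂ) g), horth g hg]
      rfl
  have hn'sq : ∑ ζ : principalBlock M G, n' ζ * n' ζ = 4 := by
    have h1 : ∀ ζ : principalBlock M G, n' ζ * n' ζ = 1 := by
      intro ζ
      rcases hpm ζ ζ.2 with h | h <;> simp [n', h]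
    simp only [h1, Finset.sum_const, Finset.card_univ, hcardι]
    norm_num
  have hker : LinearMap.ker (Fintype.linearCombination ℂ v) = Submodule.span ℂ {n'} := by
    apply le_antisymm
    · intro c hc
      rw [LinearMap.mem_ker] at hc
      rw [Submodule.mem_span_singleton]
      obtain ⟨t, ht⟩ : ∃ t : ℂ, t = ∑ ζ : principalBlock M G, c ζ * n' ζ := ⟨_, rfl⟩
      refine ⟨t / 4, ?_⟩
      -- the function `∑ (c - (t/4) n') ζ` vanishes
      have hzero : ∑ ζ : principalBlock M G, (c ζ - t / 4 * n' ζ) •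
          ((ζ : IrrCharacter G) : G → ℂ) = 0 := by
        funext g
        rw [Finset.sum_apply]
        simp only [Pi.smul_apply, smul_eq_mul, Pi.zero_apply, sub_mul, Finset.sum_sub_distrib]
        by_cases hg : 2 ∣ orderOf g
        · have h1 : ∀ ζ : principalBlock M G, ((ζ : IrrCharacter G) : G → ℂ) g = n' ζ := by
            intro ζ
            rw [apply_singular hM P hP hexp hone hzP hz ζ.2 hg, hn]
          simp only [h1, mul_assoc]
          rw [← Finset.mul_sum, hn'sq, ← ht]
          ring
        · have h1 := congrFun hc g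
          have h2 := congrFun (LinearMap.mem_ker.mp hn'ker) g
          rw [hlc] at h1 h2
          simp only [hreg _ g hg, Pi.zero_apply] at h1 h2
          simp only [mul_assoc]
          rw [h1, ← Finset.mul_sum, h2]
          ring
      have hli : LinearIndependent ℂ (fun ζ : principalBlock M G =>
          ((ζ : IrrCharacter G) : G → ℂ)) :=
        (linearIndependent_irr (G := G)).comp _ Subtype.val_injective
      have h3 := Fintype.linearIndependent_iff.mp hli _ hzero
      funext ζ
      have := h3 ζ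
      rw [Pi.smul_apply, smul_eq_mul]
      linear_combination -this
    · rw [Submodule.span_singleton_le_iff_mem]
      exact hn'ker
  have hn'0 : n' ≠ 0 := by
    intro h
    rw [h] at hn'sq
    simp at hn'sq
  rw [hker, finrank_span_singleton hn'0] at hrn
  omega

end Cfsg.Agent.S4512
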