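import Cfsg.Statements.S1184
import Cfsg.Agent.Lib.Helper8.Isolated

set_option autoImplicit false
open Cfsg

namespace Cfsg.Agent.S1184

/-- Let z be an isolated involution of the finite group G. If s and t are distinct conjugates of z, then st does not commute with z. -/
theorem result {G : Type*} [Group G] [Finite G] (z : G) (hz : Cfsg.IsIsolatedInvolution z) (g h : G) (hne : g * z * g⁻¹ ≠ h * z * h⁻¹) : ¬ Commute (g * z * g⁻¹ * (h * z * h⁻¹)) z := by
  intro hc
  have hzz := Cfsg.Agent.Lib.Helper8.IsIso.mul_self hz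
  have hzi := Cfsg.Agent.Lib.Helper8.IsIso.inv hz
  set s := g * z * g⁻¹ with hs
  set t := h * z * h⁻¹ with ht
  have hss : s * s = 1 := Cfsg.Agent.Lib.Helper8.conj_mul_self hzz g
  have htt : t * t = 1 := Cfsg.Agent.Lib.Helper8.conj_mul_self hzz h
  have hsiso : Cfsg.IsIsolatedInvolution s := Cfsg.Agent.Lib.Helper8.IsIso.conj hz g
  have hrodd : Odd (orderOf (s * t)) := by
    have := Cfsg.Agent.Lib.Helper8.IsIso.odd_mul_conj hsiso (h * g⁻¹)
    have e : h * g⁻¹ * s * (h * g⁻¹)⁻¹ = t := by rw [hs, ht]; group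
    rwa [e] at this
  have hyodd : Odd (orderOf (z * s)) := Cfsg.Agent.Lib.Helper8.IsIso.odd_mul_conj hz g
  have hsr : s * (s * t) * s = (s * t)⁻¹ := by
    have := Cfsg.Agent.Lib.Helper8.conj_mul_pow' hss htt 1
    simpa using this
  have hinv : (z * s) * (s * t) * (z * s)⁻¹ = (s * t)⁻¹ := by
    have hc' : z * (s * t)⁻¹ = (s * t)⁻¹ * z := (hc.symm.inv_right).eq
    rw [mul_inv_rev, hzi, Cfsg.Agent.Lib.Helper8.inv_eq_self_of_mul_self hss]
    calc z * s * (s * t) * (s * z) = z * (s * (s * t) * s) * z := by group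
      _ = z * (s * t)⁻¹ * z := by rw [hsr]
      _ = (s * t)⁻¹ * (z * z) := by rw [hc']; group
      _ = (s * t)⁻¹ := by rw [hzz, mul_one]
  have h1 := Cfsg.Agent.Lib.Helper8.eq_one_of_inverted_by_odd hinv hyodd hrodd
  apply hne
  calc s = s * (t * t) := by rw [htt, mul_one]
    _ = (s * t) * t := by group
    _ = t := by rw [h1, one_mul]

end Cfsg.Agent.S1184
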