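import Cfsg.Statements.S1123
import Cfsg.Agent.Lib.Helper8.RankOne

set_option autoImplicit false
open Cfsg

namespace Cfsg.Agent.S1123

open Cfsg.Agent.Lib.Helper8 MulAction

/-- In the rank-one set-up (`G` finite and doubly transitive on `Ω`, `t` an involution moving `a`, `Q` normal in `G_a` with `G_a = Q D`, `Q ⊓ D = 1` for the two-point stabiliser `D = G_a ⊓ G_{t • a}`, `|Q|` even, `|D|` odd), there is a unique pair `(s, r)` with `s` an involution of `G_a`, `r ∈ Q` and `t s t = r⁻¹ t r`. -/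
theorem result {G Ω : Type*} [Group G] [Finite G] [MulAction G Ω] {a : Ω} {t : G} {Q : Subgroup G}
    (hS : Cfsg.IsRankOneSetup G Ω a t Q) :
    ∃! p : G × G, p.1 ∈ Cfsg.involutionsIn (MulAction.stabilizer G a : Set G) ∧ p.2 ∈ Q ∧
      t * p.1 * t = p.2⁻¹ * t * p.2 := by
  have htt := hS.mul_self
  have hti := RO.t_inv hS
  obtain ⟨c, hc, hcu⟩ := RO.exists_fix hS hS.ne_one htt
  have hca : c ≠ a := by
    rintro rfl; exact hS.not_mem hc
  obtain ⟨r, hr, hrc⟩ := RO.Q_trans hS (RO.ta_ne hS) hca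
  -- `r • (t • a) = c`
  refine ⟨(t * r⁻¹ * t * r * t, r), ⟨⟨?_, ?_, ?_⟩, hr, ?_⟩, ?_⟩
  · show (t * r⁻¹ * t * r * t) • a = a
    rw [mul_smul, mul_smul, mul_smul, mul_smul, hrc, hc, ← hrc, inv_smul_smul, RO.tta hS]
  · intro h
    have h' : t * r⁻¹ * t * r * t = 1 := h
    apply hS.ne_one
    have : t = r * t⁻¹ * (t * r⁻¹ * t * r * t) * t⁻¹ * r⁻¹ := by group
    rw [this, h', hti]
    calc r * t * 1 * t * r⁻¹ = r * (t * t) * r⁻¹ := by group
      _ = 1 := by rw [htt]; group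
  · show t * r⁻¹ * t * r * t * (t * r⁻¹ * t * r * t) = 1
    calc t * r⁻¹ * t * r * t * (t * r⁻¹ * t * r * t)
        = t * r⁻¹ * t * r * t * (t⁻¹ * r⁻¹ * t⁻¹ * r * t⁻¹) := by rw [hti]
      _ = 1 := by group
  · show t * (t * r⁻¹ * t * r * t) * t = r⁻¹ * t * r
    calc t * (t * r⁻¹ * t * r * t) * t = t⁻¹ * (t * r⁻¹ * t * r * t) * t⁻¹ := by rw [hti]
      _ = r⁻¹ * t * r := by group
  · rintro ⟨s, r'⟩ ⟨⟨hs, hs1, hss⟩, hr', heq⟩
    simp only at hs hs1 hss hr' heq
    -- the fixed point of `r'⁻¹ t r'` is `r'⁻¹ c`; that of `t s t` is `t a`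
    have h1 : (t * s * t) • (t • a) = t • a := by
      rw [mul_smul, mul_smul, RO.tta hS]
      have : s • a = a := hs
      rw [this]
    rw [heq, mul_smul, mul_smul] at h1
    have h2 : t • (r' • t • a) = r' • t • a := by
      calc t • r' • t • a = r' • (r'⁻¹ • t • r' • t • a) := by rw [smul_inv_smul]
        _ = r' • t • a := by rw [h1]
    have h3 := hcu _ h2
    have h4 : r' = r := RO.Q_unique hS (RO.ta_ne hS) hr' hr (by rw [h3, hrc])
    have h5 : s = t * r⁻¹ * t * r * t := by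
      calc s = t⁻¹ * (t * s * t) * t⁻¹ := by group
        _ = t * (t * s * t) * t := by rw [hti]
        _ = t * (r'⁻¹ * t * r') * t := by rw [heq]
        _ = t * r⁻¹ * t * r * t := by rw [h4]; group
    rw [h4, h5]

end Cfsg.Agent.S1123
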