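import Cfsg.Statements.S1126
import Cfsg.Agent.Lib.Helper8.RankOne3

set_option autoImplicit false
open Cfsg

namespace Cfsg.Agent.S1126

open Cfsg.Agent.Lib.Helper8 MulAction

/-- In the rank-one set-up (`G` finite and doubly transitive on `Ω`, `t` an involution moving `a`, `Q` normal in `G_a` with `G_a = Q D`, `Q ⊓ D = 1` for the two-point stabiliser `D = G_a ⊓ G_{t • a}`, `|Q|` even, `|D|` odd), a subset `X ⊆ D` fixing at least three points of `Ω` is conjugate by an element of `D` into `V = C_D(t)`. -/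
theorem result {G Ω : Type*} [Group G] [Finite G] [MulAction G Ω] {a : Ω} {t : G} {Q : Subgroup G}
    (hS : Cfsg.IsRankOneSetup G Ω a t Q)
    (X : Set G) (hX : X ⊆ ((MulAction.stabilizer G a ⊓ MulAction.stabilizer G (t • a)) : Set G))
    (h3 : ∃ b c d : Ω, b ≠ c ∧ b ≠ d ∧ c ≠ d ∧ ∀ x ∈ X, x • b = b ∧ x • c = c ∧ x • d = d) :
    ∃ k ∈ (MulAction.stabilizer G a ⊓ MulAction.stabilizer G (t • a)), ∀ x ∈ X, (k * x * k⁻¹) * t = t * (k * x * k⁻¹) := by
  obtain ⟨w, hw, hww, hwa, hwb⟩ := RO.exists_invol_swap_cent hS hX h3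
  obtain ⟨l, hl, hlw⟩ := RO.swap_invol_conj hS hww hwa hwb
  refine ⟨l, hl.1, ?_⟩
  intro x hx
  have h1 := Subgroup.mem_centralizer_iff.mp hw x hx
  rw [← hlw]
  calc l * x * l⁻¹ * (l * w * l⁻¹) = l * (x * w) * l⁻¹ := by group
    _ = l * (w * x) * l⁻¹ := by rw [h1]
    _ = l * w * l⁻¹ * (l * x * l⁻¹) := by group

end Cfsg.Agent.S1126
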