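import Cfsg.Statements.S0014
import Mathlib
-- import your own Cfsg.Agent.* helpers here
import Cfsg.Agent.H1.Small2

set_option autoImplicit false
open Cfsg

namespace Cfsg.Agent.S0014


theorem mem_comm {P : Type*} [Group P] (x y : P) : x * y * x⁻¹ * y⁻¹ ∈ commutator P := by
  rw [commutator_def, ← commutatorElement_def]
  exact Subgroup.commutator_mem_commutator (Subgroup.mem_top x) (Subgroup.mem_top y)

theorem step {G : Type*} [Group G] [Finite G] (p : ℕ) [Fact p.Prime] (hG : IsPGroup p G)
    (H : Subgroup G) (hH : frattini G ≤ H) (s : G) :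
    H.relIndex (H ⊔ Subgroup.zpowers s) ∣ p := by
  obtain ⟨h1, h2⟩ := Cfsg.H1.frattini_pgroup_ge p hG
  haveI : H.Normal := by
    constructor
    intro h hh g
    have : g * h * g⁻¹ = (g * h * g⁻¹ * h⁻¹) * h := by group
    rw [this]
    exact H.mul_mem (hH (h1 (mem_comm g h))) hh
  have e1 : H.relIndex (H ⊔ Subgroup.zpowers s)
      = Nat.card ↥((H ⊔ Subgroup.zpowers s).map (QuotientGroup.mk' H)) := by
    calc H.relIndex (H ⊔ Subgroup.zpowers s)
        = ((⊥ : Subgroup (G ⧸ H)).comap (QuotientGroup.mk' H)).relIndex (H ⊔ Subgroup.zpowers s) := by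
          rw [MonoidHom.comap_bot, QuotientGroup.ker_mk']
      _ = (⊥ : Subgroup (G ⧸ H)).relIndex ((H ⊔ Subgroup.zpowers s).map (QuotientGroup.mk' H)) :=
          Subgroup.relIndex_comap _ _ _
      _ = _ := Subgroup.relIndex_bot_left _
  have e2 : (H ⊔ Subgroup.zpowers s).map (QuotientGroup.mk' H)
      = Subgroup.zpowers (QuotientGroup.mk' H s) := by
    rw [Subgroup.map_sup, MonoidHom.map_zpowers,
      (Subgroup.map_eq_bot_iff _).mpr (by rw [QuotientGroup.ker_mk']), bot_sup_eq]
  rw [e1, e2, Nat.card_zpowers]
  apply orderOf_dvd_of_pow_eq_one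
  rw [← map_pow]
  exact (QuotientGroup.eq_one_iff _).mpr (hH (h2 s))

theorem ins {G : Type*} [Group G] [DecidableEq G] (s : G) (T : Finset G) :
    frattini G ⊔ Subgroup.closure ((insert s T : Finset G) : Set G)
      = (frattini G ⊔ Subgroup.closure (T : Set G)) ⊔ Subgroup.zpowers s := by
  rw [Finset.coe_insert, Set.insert_eq, Subgroup.closure_union, Subgroup.zpowers_eq_closure,
    sup_comm (Subgroup.closure {s}), sup_assoc]


/-- Burnside's basis Theorem: in a finite p-group whose Frattini quotient has order p ^ n, every generating set contains n elements that already generate, and no set with fewer than n elements generates. -/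
theorem result {G : Type*} [Group G] [Finite G] (p n : ℕ) [Fact p.Prime]
    (hG : IsPGroup p G) (hn : (frattini G).index = p ^ n) :
    (∀ S : Finset G, Subgroup.closure (S : Set G) = ⊤ → ∃ T : Finset G, T ⊆ S ∧ T.card = n ∧ Subgroup.closure (T : Set G) = ⊤) ∧
    (∀ T : Finset G, Subgroup.closure (T : Set G) = ⊤ → n ≤ T.card) := by
  classical
  have hp : p.Prime := Fact.out
  constructor
  · intro S hS
    have claim : ∀ k, k ≤ n → ∃ T : Finset G, T ⊆ S ∧ T.card = k ∧
        (frattini G ⊔ Subgroup.closure (T : Set G)).index = p ^ (n - k) := by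
      intro k
      induction k with
      | zero =>
        intro _
        exact ⟨∅, Finset.empty_subset _, rfl, by simpa using hn⟩
      | succ k ih =>
        intro hk
        obtain ⟨T, hTS, hTk, hTi⟩ := ih (by omega)
        set H := frattini G ⊔ Subgroup.closure (T : Set G) with hH
        have hHtop : H ≠ ⊤ := by
          intro h
          rw [h, Subgroup.index_top] at hTi
          have : 1 < p ^ (n - k) := Nat.one_lt_pow (by omega) hp.one_lt
          omega
        obtain ⟨s, hsS, hsH⟩ : ∃ s ∈ S, s ∉ H := by
          by_contra hall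
          push_neg at hall
          apply hHtop
          rw [eq_top_iff, ← hS, Subgroup.closure_le]
          exact fun s hs => hall s hs
        have hsT : s ∉ T := fun h => hsH ((le_sup_right : _ ≤ H) (Subgroup.subset_closure h))
        refine ⟨insert s T, Finset.insert_subset hsS hTS, by rw [Finset.card_insert_of_notMem hsT, hTk], ?_⟩
        rw [ins, ← hH]
        have h1 : H.relIndex (H ⊔ Subgroup.zpowers s) * (H ⊔ Subgroup.zpowers s).index = H.index :=
          Subgroup.relIndex_mul_index le_sup_left
        have h2 : H.relIndex (H ⊔ Subgroup.zpowers s) = p := by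
          rcases (Nat.dvd_prime hp).mp (step p hG H le_sup_left s) with h | h
          · exfalso
            apply hsH
            exact Subgroup.relIndex_eq_one.mp h ((le_sup_right : _ ≤ H ⊔ Subgroup.zpowers s)
              (Subgroup.mem_zpowers s))
          · exact h
        rw [h2, hTi] at h1
        apply Nat.eq_of_mul_eq_mul_left hp.pos
        rw [h1, ← pow_succ']
        congr 1
        omega
    obtain ⟨T, hTS, hTn, hTi⟩ := claim n le_rfl
    refine ⟨T, hTS, hTn, ?_⟩
    rw [Nat.sub_self, pow_zero, Subgroup.index_eq_one, sup_comm] at hTi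
    exact frattini_nongenerating hTi
  · have claim : ∀ T : Finset G,
        p ^ n ∣ (frattini G ⊔ Subgroup.closure (T : Set G)).index * p ^ T.card := by
      intro T
      induction T using Finset.induction_on with
      | empty => simp [hn]
      | insert s T hsT ih =>
        rw [ins, Finset.card_insert_of_notMem hsT]
        set H := frattini G ⊔ Subgroup.closure (T : Set G) with hH
        have h1 : H.relIndex (H ⊔ Subgroup.zpowers s) * (H ⊔ Subgroup.zpowers s).index = H.index :=
          Subgroup.relIndex_mul_index le_sup_left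
        refine ih.trans ?_
        rw [← h1]
        obtain ⟨c, hc⟩ := step p hG H le_sup_left s
        refine ⟨c, ?_⟩
        calc (H ⊔ Subgroup.zpowers s).index * p ^ (T.card + 1)
            = (H ⊔ Subgroup.zpowers s).index * p ^ T.card * p := by rw [pow_succ]; ring
          _ = (H ⊔ Subgroup.zpowers s).index * p ^ T.card * (H.relIndex (H ⊔ Subgroup.zpowers s) * c) := by
              rw [← hc]
          _ = _ := by ring
    intro T hT
    have h := claim T
    rw [hT, sup_top_eq, Subgroup.index_top, one_mul] at h
    exact (Nat.pow_dvd_pow_iff_le_right hp.one_lt).mp h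

end Cfsg.Agent.S0014
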