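import Cfsg.Statements.S0054
import Mathlib

set_option autoImplicit false
open Cfsg

namespace Cfsg.Agent.S0054

/-- A regular normal subgroup of a finite 2-transitive group is elementary abelian: it is commutative and all its elements have order dividing one prime. -/
theorem result {G : Type*} [Group G] [Finite G]
    {X : Type*} [Nonempty X] [MulAction G X] (h2 : MulAction.IsMultiplyPretransitive G X 2)
    (N : Subgroup G) [N.Normal] (htrans : MulAction.IsPretransitive N X) (hreg : ∀ x : X, MulAction.stabilizer N x = ⊥) :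
    IsMulCommutative N ∧ ∃ p : ℕ, p.Prime ∧ ∀ n ∈ N, n ^ p = 1 := by
  classical
  obtain ⟨x⟩ : Nonempty X := inferInstance
  have h2' : ∀ {a b c d : X} (_ : a ≠ b) (_ : c ≠ d), ∃ g : G, g • a = c ∧ g • b = d :=
    MulAction.is_two_pretransitive_iff.1 h2
  have hregx : ∀ n ∈ N, n • x = x → n = 1 := by
    intro n hn h
    have h1 : (⟨n, hn⟩ : N) ∈ MulAction.stabilizer N x := h
    rw [hreg x, Subgroup.mem_bot] at h1
    exact congrArg Subtype.val h1
  have hconj : ∀ n ∈ N, ∀ n' ∈ N, n ≠ 1 → n' ≠ 1 → ∃ g : G, g * n * g⁻¹ = n' := by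
    intro n hn n' hn' h1 h1'
    have hx1 : x ≠ n • x := fun h => h1 (hregx n hn h.symm)
    have hx2 : x ≠ n' • x := fun h => h1' (hregx n' hn' h.symm)
    obtain ⟨g, hg1, hg2⟩ := h2' hx1 hx2
    refine ⟨g, ?_⟩
    have h3 : (n'⁻¹ * (g * n * g⁻¹)) • x = x := by
      have hg1' : g⁻¹ • x = x := by rw [inv_smul_eq_iff, hg1]
      rw [mul_smul, mul_smul, mul_smul, hg1', hg2, inv_smul_smul]
    have h4 := hregx _ (N.mul_mem (N.inv_mem hn') (‹N.Normal›.conj_mem n hn g)) h3
    rw [inv_mul_eq_one] at h4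
    exact h4.symm
  by_cases hN : Nat.card N = 1
  · have hall : ∀ n ∈ N, n = 1 := by
      intro n hn
      have := (Nat.card_eq_one_iff_unique.1 hN).1
      exact congrArg Subtype.val (Subsingleton.elim (⟨n, hn⟩ : N) 1)
    refine ⟨⟨⟨fun a b => ?_⟩⟩, 2, Nat.prime_two, fun n hn => by rw [hall n hn, one_pow]⟩
    have ha := hall a a.2
    have hb := hall b b.2
    apply Subtype.ext
    simp [ha, hb]
  set p := (Nat.card N).minFac with hp
  have hpP : p.Prime := Nat.minFac_prime hN
  haveI : Fact p.Prime := ⟨hpP⟩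
  obtain ⟨z0, hz0⟩ := exists_prime_orderOf_dvd_card' (G := N) p (Nat.minFac_dvd _)
  have hz01 : (z0 : G) ≠ 1 := by
    intro h
    have : z0 = 1 := Subtype.ext h
    rw [this, orderOf_one] at hz0
    exact hpP.one_lt.ne hz0
  have hpow : ∀ n ∈ N, n ^ p = 1 := by
    intro n hn
    by_cases h1 : n = 1
    · rw [h1, one_pow]
    obtain ⟨g, hg⟩ := hconj z0 z0.2 n hn hz01 h1
    rw [← hg, conj_pow]
    have : (z0 : G) ^ p = 1 := by
      have := pow_orderOf_eq_one z0
      rw [hz0] at this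
      exact congrArg Subtype.val this
    rw [this]; group
  refine ⟨?_, p, hpP, hpow⟩
  have hPG : IsPGroup p N := by
    intro n
    refine ⟨1, ?_⟩
    apply Subtype.ext
    simpa using hpow n n.2
  haveI : Nontrivial N := ⟨⟨z0, 1, fun h => hz01 (congrArg Subtype.val h)⟩⟩
  haveI := hPG.center_nontrivial
  obtain ⟨z, hz⟩ := exists_ne (1 : Subgroup.center N)
  have hz1 : ((z : N) : G) ≠ 1 := by
    intro h
    apply hz
    apply Subtype.ext
    apply Subtype.ext
    exact h
  have hzc : ∀ m ∈ N, m * ((z : N) : G) = ((z : N) : G) * m := by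
    intro m hm
    have := Subgroup.mem_center_iff.1 z.2 ⟨m, hm⟩
    exact congrArg Subtype.val this
  have hcomm : ∀ a ∈ N, ∀ b ∈ N, a * b = b * a := by
    intro a ha b hb
    by_cases h1 : a = 1
    · rw [h1]; simp
    obtain ⟨g, hg⟩ := hconj _ (z : N).2 a ha hz1 h1
    have hb' : g⁻¹ * b * g ∈ N := by
      have := ‹N.Normal›.conj_mem b hb g⁻¹
      simpa using this
    have h3 := hzc _ hb'
    rw [← hg]
    calc g * ((z : N) : G) * g⁻¹ * b = g * (((z : N) : G) * (g⁻¹ * b * g)) * g⁻¹ := by group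
      _ = g * ((g⁻¹ * b * g) * ((z : N) : G)) * g⁻¹ := by rw [h3]
      _ = b * (g * ((z : N) : G) * g⁻¹) := by group
  exact ⟨⟨fun a b => Subtype.ext (hcomm a a.2 b b.2)⟩⟩

end Cfsg.Agent.S0054
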