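import Cfsg.Statements.S0098
import Cfsg.Agent.Tr.EP2
import Cfsg.Agent.H20.Extra3

set_option autoImplicit false
open Cfsg

namespace Cfsg.Agent.S0098

open Cfsg.Agent.Tr.EPp in
theorem exists_EP {E : Type*} [Group E] [Finite E] {p : ℕ} [hp : Fact p.Prime]
    (h : Cfsg.IsExtraspecial p E) (he : Monoid.exponent E = p) : ∃ z : E, EP p E z := by
  have hcyc : IsCyclic (Subgroup.center E) := isCyclic_of_prime_card h.2
  obtain ⟨g, hg⟩ := hcyc.exists_generator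
  have hord : orderOf g = p := by
    rw [orderOf_eq_card_of_forall_mem_zpowers hg, h.2]
  have hmem : ∀ c ∈ Subgroup.center E, ∃ k : ℕ, c = (g : E) ^ k := by
    intro c hc
    have h1 := hg ⟨c, hc⟩
    rw [← mem_powers_iff_mem_zpowers] at h1
    obtain ⟨k, hk⟩ := h1
    exact ⟨k, by rw [← Subgroup.coe_pow]; exact (congrArg Subtype.val hk).symm⟩
  refine ⟨g, ⟨?_, ?_, ?_, ?_, ?_⟩⟩
  · rw [Subgroup.orderOf_coe, hord]
  · intro t
    exact Subgroup.mem_center_iff.1 g.2 t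
  · intro a b
    obtain ⟨k, hk⟩ := hmem _ (Cfsg.Agent.H20.IsExtraspecial.comm_mem_center h a⁻¹ b⁻¹)
    refine ⟨k, ?_⟩
    rw [← hk]
    group
  · intro t ht
    obtain ⟨k, hk⟩ := hmem t (Subgroup.mem_center_iff.2 ht)
    rw [hk]
    exact Subgroup.npow_mem_zpowers _ _
  · intro t
    rw [← he]
    exact Monoid.pow_exponent_eq_one t

/-- For odd p, extraspecial p-groups of exponent p are determined up to isomorphism by their order. -/
theorem result {E₁ : Type*} {E₂ : Type*} [Group E₁] [Group E₂] [Finite E₁] [Finite E₂] {p : ℕ} [Fact p.Prime] (hp : p ≠ 2) (h₁ : Cfsg.IsExtraspecial p E₁) (h₂ : Cfsg.IsExtraspecial p E₂) (he₁ : Monoid.exponent E₁ = p) (he₂ : Monoid.exponent E₂ = p) (hc : Nat.card E₁ = Nat.card E₂) : Nonempty (E₁ ≃* E₂) := by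
  obtain ⟨z₁, hz₁⟩ := exists_EP h₁ he₁
  obtain ⟨z₂, hz₂⟩ := exists_EP h₂ he₂
  obtain ⟨e, -⟩ := Cfsg.Agent.Tr.EPp.iso_aux _ E₁ z₁ E₂ z₂ hz₁ hz₂ rfl hc.symm
  exact ⟨e⟩

end Cfsg.Agent.S0098
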