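import Cfsg.Statements.S0099
import Cfsg.Agent.Tr.ES4

set_option autoImplicit false
open Cfsg

namespace Cfsg.Agent.S0099

/-- Among three extraspecial 2-groups of equal order, some two are isomorphic. -/
theorem result {E₁ : Type*} {E₂ : Type*} {E₃ : Type*} [Group E₁] [Group E₂] [Group E₃] [Finite E₁] [Finite E₂] [Finite E₃] (h₁ : Cfsg.IsExtraspecial 2 E₁) (h₂ : Cfsg.IsExtraspecial 2 E₂) (h₃ : Cfsg.IsExtraspecial 2 E₃) (h12 : Nat.card E₁ = Nat.card E₂) (h23 : Nat.card E₂ = Nat.card E₃) : Nonempty (E₁ ≃* E₂) ∨ Nonempty (E₂ ≃* E₃) ∨ Nonempty (E₁ ≃* E₃) := by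
  obtain ⟨m₁, _, c₁, k₁⟩ := Cfsg.Agent.Tr.E2.extraspecial_count h₁
  obtain ⟨m₂, _, c₂, k₂⟩ := Cfsg.Agent.Tr.E2.extraspecial_count h₂
  obtain ⟨m₃, _, c₃, k₃⟩ := Cfsg.Agent.Tr.E2.extraspecial_count h₃
  have e12 : m₁ = m₂ := by
    have : 2 ^ (2 * m₁ + 1) = 2 ^ (2 * m₂ + 1) := by rw [← c₁, ← c₂, h12]
    have := Nat.pow_right_injective (le_refl 2) this
    omega
  have e23 : m₂ = m₃ := by
    have : 2 ^ (2 * m₂ + 1) = 2 ^ (2 * m₃ + 1) := by rw [← c₂, ← c₃, h23]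
    have := Nat.pow_right_injective (le_refl 2) this
    omega
  subst e12 e23
  rcases k₁ with k₁ | k₁ <;> rcases k₂ with k₂ | k₂ <;> rcases k₃ with k₃ | k₃
  · exact Or.inl (Cfsg.Agent.Tr.E2.extraspecial_iso h₁ h₂ h12 (by omega))
  · exact Or.inl (Cfsg.Agent.Tr.E2.extraspecial_iso h₁ h₂ h12 (by omega))
  · exact Or.inr (Or.inr (Cfsg.Agent.Tr.E2.extraspecial_iso h₁ h₃ (h12.trans h23) (by omega)))
  · exact Or.inr (Or.inl (Cfsg.Agent.Tr.E2.extraspecial_iso h₂ h₃ h23 (by omega)))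
  · exact Or.inr (Or.inl (Cfsg.Agent.Tr.E2.extraspecial_iso h₂ h₃ h23 (by omega)))
  · exact Or.inr (Or.inr (Cfsg.Agent.Tr.E2.extraspecial_iso h₁ h₃ (h12.trans h23) (by omega)))
  · exact Or.inl (Cfsg.Agent.Tr.E2.extraspecial_iso h₁ h₂ h12 (by omega))
  · exact Or.inl (Cfsg.Agent.Tr.E2.extraspecial_iso h₁ h₂ h12 (by omega))

end Cfsg.Agent.S0099
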