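import Cfsg.Statements.S0106
import Cfsg.Agent.Tr.QuatAut
import Cfsg.Agent.Tr.SL23
import Cfsg.Agent.Tr.Frobenius
import Cfsg.Agent.H9.FStar2

set_option autoImplicit false
set_option linter.style.haveILetI false
open Cfsg

namespace Cfsg.Agent.S0106

open Subgroup Cfsg.Agent.Tr Cfsg.Agent.Tr.MC
open scoped Pointwise

/-- A finite group with generalized quaternion Sylow 2-subgroups either has a normal 2-complement or has a section isomorphic to SL(2,3). -/
theorem result {G : Type*} [Group G] [Finite G] (T : Sylow 2 G) (n : ℕ) (hn : 1 ≤ n) (hT : Nonempty ((T : Subgroup G) ≃* QuaternionGroup (2 ^ n))) : Cfsg.HasNormalPComplement 2 G ∨ ∃ (H K : Subgroup G) (hK : (K.subgroupOf H).Normal), Nonempty ((H ⧸ K.subgroupOf H) ≃* Matrix.SpecialLinearGroup (Fin 2) (ZMod 3)) := by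
  haveI : Fact (Nat.Prime 2) := ⟨Nat.prime_two⟩
  obtain ⟨eT⟩ := hT
  by_cases hnpc : Cfsg.HasNormalPComplement 2 G
  · exact Or.inl hnpc
  right
  rw [hasNormalPComplement_iff_frob] at hnpc
  unfold Frob at hnpc
  push Not at hnpc
  obtain ⟨Q, hQ2, g, hgN, hgodd, hgC⟩ := hnpc
  have hodd : Odd (orderOf g) := Nat.coprime_two_right.mp hgodd
  -- unique involution in `T`
  have hd := dat_quaternion (m := n + 1) (by omega)
  rw [Nat.add_sub_cancel] at hd
  have hd' := Dat.of_equiv eT hd
  have huT : ∀ x y : (T : Subgroup G), orderOf x = 2 → orderOf y = 2 → x = y := by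
    intro x y hx hy
    have h2 : (eT.symm (QuaternionGroup.xa 0)) ^ 2 = (eT.symm (QuaternionGroup.a 1)) ^ 2 ^ (n + 1 - 1) := by
      rw [← map_pow, ← map_pow]
      congr 1
      rw [Nat.add_sub_cancel, QuaternionGroup.a_one_pow, sq, QuaternionGroup.xa_mul_xa]
      simp
    have hc : eT.symm (QuaternionGroup.xa 0) * eT.symm (QuaternionGroup.a 1) *
        (eT.symm (QuaternionGroup.xa 0))⁻¹ = (eT.symm (QuaternionGroup.a 1))⁻¹ := by
      rw [← map_inv, ← map_mul, ← map_mul, ← map_inv]
      congr 1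
      rw [mul_inv_eq_iff_eq_mul, eq_inv_mul_iff_mul_eq]
      simp
    rw [hd'.involution_of_quat (by omega) h2 hc hx, hd'.involution_of_quat (by omega) h2 hc hy]
  have huQ : ∀ x y : Q, orderOf x = 2 → orderOf y = 2 → x = y := by
    obtain ⟨R, hR⟩ := hQ2.exists_le_sylow
    obtain ⟨h, rfl⟩ := MulAction.exists_smul_eq G T R
    have hmem : ∀ x ∈ Q, h⁻¹ * x * h ∈ (T : Subgroup G) := by
      intro x hx
      have := hR hx
      rw [Sylow.coe_subgroup_smul, Subgroup.mem_pointwise_smul_iff_inv_smul_mem] at this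
      simpa using this
    intro x y hx hy
    have hox : ∀ z : Q, orderOf z = 2 →
        orderOf (⟨h⁻¹ * z * h, hmem z z.2⟩ : (T : Subgroup G)) = 2 := by
      intro z hz
      rw [← Subgroup.orderOf_coe]
      have : h⁻¹ * (z : G) * h = MulAut.conj h⁻¹ (z : G) := by simp
      show orderOf (h⁻¹ * (z : G) * h) = 2
      rw [this, MulEquiv.orderOf_eq, Subgroup.orderOf_coe, hz]
    have := huT _ _ (hox x hx) (hox y hy)
    have h2 : h⁻¹ * (x : G) * h = h⁻¹ * (y : G) * h := congrArg Subtype.val this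
    apply Subtype.ext
    exact mul_left_cancel (mul_right_cancel h2)
  rcases isPGroup_aut_of_unique_involution hQ2 huQ with haut | ⟨⟨e⟩⟩
  · exfalso
    apply hgC
    set α := Q.normalizerMonoidHom ⟨g, hgN⟩ with hα
    have h1 : α ^ orderOf g = 1 := by
      rw [hα, ← map_pow]
      have : (⟨g, hgN⟩ : normalizer (Q : Set G)) ^ orderOf g = 1 := by
        apply Subtype.ext
        simp [pow_orderOf_eq_one]
      rw [this, map_one]
    obtain ⟨s, hs⟩ := haut α
    have h2 : orderOf α ∣ 1 := by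
      have a1 := orderOf_dvd_of_pow_eq_one h1
      have a2 := orderOf_dvd_of_pow_eq_one hs
      have a3 : Nat.Coprime (orderOf g) (2 ^ s) := Nat.Coprime.pow_right s hgodd
      have := Nat.dvd_gcd a1 a2
      rwa [a3] at this
    have h3 : α = 1 := orderOf_eq_one_iff.mp (Nat.dvd_one.mp h2)
    have h4 : (⟨g, hgN⟩ : normalizer (Q : Set G)) ∈ Q.normalizerMonoidHom.ker := h3
    rw [normalizerMonoidHom_ker] at h4
    exact h4
  · set H0 := Q ⊔ zpowers g with hH0
    have hzn : zpowers g ≤ normalizer (Q : Set G) := zpowers_le.mpr hgN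
    have hH0n : H0 ≤ normalizer (Q : Set G) := sup_le le_normalizer hzn
    have hQH : Q ≤ H0 := le_sup_left
    have hgH : g ∈ H0 := (le_sup_right : zpowers g ≤ H0) (mem_zpowers g)
    haveI : (Q.subgroupOf H0).Normal := (normal_subgroupOf_iff_le_normalizer hQH).mpr hH0n
    obtain ⟨ψ, hψ⟩ := SL23.exists_surj (Q.subgroupOf H0) ((subgroupOfEquivOfLe hQH).trans e)
      (⟨g, hgH⟩ : H0) (by rw [Subgroup.orderOf_mk]; exact hodd)
      (by
        by_contra hcon
        push Not at hcon
        apply hgC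
        rw [mem_centralizer_iff]
        intro y hy
        have := hcon ⟨y, hQH hy⟩ (mem_subgroupOf.mpr hy)
        have h2 : g * y * g⁻¹ = y := congrArg Subtype.val this
        calc y * g = g * y * g⁻¹ * g := by rw [h2]
          _ = g * y := by group)
      (by
        intro h
        obtain ⟨y, hy, z, hz, hyz⟩ := (Cfsg.H9.mem_sup_of_le_normalizer hzn).mp h.2
        obtain ⟨k, rfl⟩ := mem_zpowers_iff.mp hz
        refine ⟨⟨y, hQH hy⟩, mem_subgroupOf.mpr hy, k, ?_⟩
        apply Subtype.ext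
        simp [hyz])
    set K := ψ.ker.map H0.subtype with hK
    have hEq : K.subgroupOf H0 = ψ.ker := comap_map_eq_self_of_injective H0.subtype_injective _
    haveI hKn : (K.subgroupOf H0).Normal := by rw [hEq]; infer_instance
    exact ⟨H0, K, hKn, ⟨(QuotientGroup.quotientMulEquivOfEq hEq).trans
      (QuotientGroup.quotientKerEquivOfSurjective ψ hψ)⟩⟩

end Cfsg.Agent.S0106
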