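import Cfsg.Statements.S0109
import Cfsg.Agent.Lib.Helper13.Amb4
import Cfsg.Agent.Lib.Helper13.S4Class2

set_option autoImplicit false
open Cfsg

namespace Cfsg.Agent.S0109

/-- The Thompson factorization Theorem for solvable groups states that, with p odd (and abelian Sylow 2-subgroups when p = 3) and no nontrivial normal subgroup of order prime to p, every element of G is a product of an element normalizing J(P) and an element centralizing the elements of order dividing p in the centre of P. -/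
theorem result {G : Type*} [Group G] [Finite G] {p : ℕ} [Fact p.Prime] (hp : p ≠ 2) (hs : Group.IsSolvable G) (h3 : p = 3 → ∀ T : Sylow 2 G, IsMulCommutative T) (hF : ∀ N : Subgroup G, N.Normal → Nat.Coprime (Nat.card N) p → N = ⊥) (P : Sylow p G) (g : G) : ∃ a ∈ Subgroup.normalizer (Cfsg.thompsonSubgroupOf p (P : Subgroup G) : Set G), ∃ c ∈ Subgroup.centralizer {x : G | x ∈ (P : Subgroup G) ∧ (∀ y ∈ (P : Subgroup G), x * y = y * x) ∧ x ^ p = 1}, g = a * c := by
  open Cfsg.Agent.Lib.Helper13 Subgroup in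
  have hO : pPrimeCore p G = ⊥ := hF _ (Cfsg.H1.pPrimeCore_normal p) (Cfsg.H9.pPrimeCore_coprime p)
  have hc : centralizer (pCore p G : Set G) ≤ pCore p G := constrained_of_solvable hO
  obtain ⟨hVn, hVE, -⟩ := Cfsg.Agent.S0601.result (p := p) hc
  change (VOm p G).Normal at hVn
  change IsElementaryAbelian p (VOm p G) at hVE
  have hOp : pCore p (G ⧸ centralizer (VOm p G : Set G)) = ⊥ := Cfsg.Agent.S0600.result _ hVE (VOm_gen p G)
  have hS1 := selfcent_of_solvable hOp
  have hall : ∀ A ∈ maxElementaryAbelianSubgroups p G, A ≤ centralizer (VOm p G : Set G) := by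
    intro A hA
    by_contra hcon
    have hbo := Cfsg.Agent.S0606.result _ hVE A hA
    obtain ⟨hp23, -⟩ := exists_SL_section _ hVE hS1 hbo hcon
    rcases hp23 with rfl | rfl
    · exact hp rfl
    · obtain ⟨T, hT, hTc⟩ := exists_nonabelian_of_offender _ hVE hS1 hbo hcon
      have : Fact (Nat.Prime 2) := ⟨Nat.prime_two⟩
      obtain ⟨Q, hQ⟩ := hT.exists_le_sylow
      apply hTc
      have hQc := h3 rfl Q
      refine ⟨⟨?_⟩⟩
      intro x y
      apply Subtype.ext
      exact congrArg (fun z : ↥(Q : Subgroup G) => (z : G)) (hQc.is_comm.comm ⟨x.1, hQ x.2⟩ ⟨y.1, hQ y.2⟩)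
  have hJ : thompsonSubgroupOf p (P : Subgroup G) ≤ centralizer (VOm p G : Set G) := by
    obtain ⟨A, hA, hAS⟩ := exists_maxEA_le_sylow P
    exact (thompsonOf_le hA hAS).trans (sSup_le hall)
  have hJeq := thompsonOf_eq_of_le (p := p) (inf_le_left : (P : Subgroup G) ⊓ centralizer (VOm p G : Set G) ≤ P)
    (le_inf (thompsonOf_le_self _) hJ)
  obtain ⟨c, hcC, m, hm, hg⟩ := frattini_inf P (centralizer (VOm p G : Set G)) g⁻¹
  refine ⟨m⁻¹, inv_mem ?_, c⁻¹, inv_mem ?_, ?_⟩
  · have h5 := normalizer_le_normalizer_thompsonOf (p := p) _ hm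
    rwa [hJeq] at h5
  · rw [mem_centralizer_iff]
    intro x hx
    apply mem_centralizer_iff.mp hcC
    apply le_iSup (fun S : Sylow p G =>
      omegaOne p ((S : Subgroup G) ⊓ centralizer ((S : Subgroup G) : Set G))) P
    apply mem_omegaOne _ hx.2.2
    refine mem_inf.mpr ⟨hx.1, ?_⟩
    rw [mem_centralizer_iff]
    intro y hy
    exact (hx.2.1 y hy).symm
  · rw [← mul_inv_rev, ← hg, inv_inv]

end Cfsg.Agent.S0109
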