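import Cfsg.Statements.S0110
import Cfsg.Agent.Lib.Helper27.Extra2

set_option autoImplicit false
open Cfsg

namespace Cfsg.Agent.S0110

theorem result {G : Type*} [Group G] [Finite G] {p : ℕ} [Fact p.Prime] (hG : IsPGroup p G) (E : Subgroup G) (hE : Cfsg.IsExtraspecial p E) (h : ⁅(⊤ : Subgroup G), E⁆ ≤ E ⊓ Subgroup.centralizer (E : Set G)) : E ⊔ Subgroup.centralizer (E : Set G) = ⊤ := by
  rw [eq_top_iff]
  intro g _
  apply Cfsg.Agent.Lib.Helper27.Extra.mem_sup_centralizer E hE g
  intro x hx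
  exact h (Subgroup.commutator_mem_commutator (Subgroup.mem_top g) hx)

end Cfsg.Agent.S0110
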