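import Cfsg.Statements.S0114
import Cfsg.Agent.Tr.MC8
-- import your own Cfsg.Agent.* helpers here

set_option autoImplicit false
open Cfsg

open Cfsg.Agent.Tr.MC

namespace Cfsg.Agent.S0114

/-- The central quotient of a 2-group of maximal class is dihedral. -/
theorem result {X : Type*} [Group X] [Finite X] (n : ℕ) (hn : 3 ≤ n) (hX : Nat.card X = 2 ^ n) (hc : Group.nilpotencyClass X = n - 1) : Nonempty (X ⧸ Subgroup.center X ≃* DihedralGroup (2 ^ (n - 2))) := by
  obtain ⟨m, rfl⟩ : ∃ m, n = m + 2 := ⟨n - 2, by omega⟩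
  have hm : 1 ≤ m := by omega
  obtain ⟨-, a, b, h⟩ := dat_of_class (m := m + 1) (by omega) hX hc
  obtain ⟨hq, hconj⟩ := h.quotient hm
  have hb2 : (b : X ⧸ Subgroup.center X) ^ 2 = 1 := by
    rw [← QuotientGroup.mk_pow, QuotientGroup.eq_one_iff]
    rcases h.sq_eq (by omega) with h2 | h2
    · rw [h2]; exact Subgroup.one_mem _
    · rw [h2]; exact h.z_mem_center (by omega)
  have := dihedral_of hq.index hq.nmem hb2 hconj
  rwa [hq.ord] at this

end Cfsg.Agent.S0114
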