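import Cfsg.Statements.S0115
import Cfsg.Agent.Tr.MC8
-- import your own Cfsg.Agent.* helpers here

set_option autoImplicit false
open Cfsg

open Cfsg.Agent.Tr.MC

namespace Cfsg.Agent.S0115

/-- A 2-group of order 2^n, n ≥ 3, is of maximal class exactly when its commutator quotient is a Klein four-group. -/
theorem result {X : Type*} [Group X] [Finite X] (n : ℕ) (hn : 3 ≤ n) (hX : Nat.card X = 2 ^ n) : Group.nilpotencyClass X = n - 1 ↔ IsKleinFour (X ⧸ commutator X) := by
  obtain ⟨m, rfl⟩ : ∃ m, n = m + 1 := ⟨n - 1, by omega⟩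
  have hm : 2 ≤ m := by omega
  constructor
  · intro hc
    obtain ⟨hidx, a, b, h⟩ := dat_of_class (m := m) hm hX hc
    exact h.isKleinFour hm hidx
  · intro hK
    have hidx : (commutator X).index = 4 := by
      rw [Subgroup.index_eq_card]; exact hK.card_four
    obtain ⟨a, b, h⟩ := dat_of_index_four hm hX hidx
    exact Dat.nilpotencyClass m (by omega) h

end Cfsg.Agent.S0115
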