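import Cfsg.Statements.S0124
import Mathlib
-- import your own Cfsg.Agent.* helpers here

set_option autoImplicit false
open Cfsg

namespace Cfsg.Agent.S0124

variable {R : Type*} [Group R]

theorem cpow {w : R} (hw : ∀ g, w * g = g * w) (k : ℕ) (g : R) : w ^ k * g = g * w ^ k :=
  (Commute.pow_left (show Commute w g from hw g) k).eq

theorem powL {u v w : R} (hw : ∀ g, w * g = g * w) (h : u * v = v * u * w) (k : ℕ) :
    u ^ k * v = v * u ^ k * w ^ k := by
  induction k with
  | zero => simp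
  | succ k ih =>
    calc u ^ (k+1) * v = u ^ k * (u * v) := by rw [pow_succ, mul_assoc]
      _ = (u ^ k * v) * u * w := by rw [h]; simp only [mul_assoc]
      _ = v * u ^ k * (w ^ k * u) * w := by rw [ih]; simp only [mul_assoc]
      _ = v * u ^ (k+1) * w ^ (k+1) := by
        rw [cpow hw k u, pow_succ, pow_succ]; simp only [mul_assoc]

theorem powR {u v w : R} (hw : ∀ g, w * g = g * w) (h : u * v = v * u * w) (n : ℕ) :
    u * v ^ n = v ^ n * u * w ^ n := by
  induction n with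
  | zero => simp
  | succ n ih =>
    calc u * v ^ (n+1) = (u * v ^ n) * v := by rw [pow_succ, mul_assoc]
      _ = v ^ n * u * (w ^ n * v) := by rw [ih]; simp only [mul_assoc]
      _ = v ^ n * (u * v) * w ^ n := by rw [cpow hw n v]; simp only [mul_assoc]
      _ = v ^ (n+1) * u * w ^ (n+1) := by
        rw [h, pow_succ, pow_succ' w]; simp only [mul_assoc]

theorem lemC {x y c e : R} (he : ∀ g, e * g = g * e) (h1 : y * x = x * y * c)
    (h3 : c * y = y * c * e) (n : ℕ) :
    y ^ n * x = x * y ^ n * c ^ n * e ^ (n.choose 2) := by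
  induction n with
  | zero => simp
  | succ n ih =>
    have hB := powR he h3 n
    have hch : (n+1).choose 2 = n + n.choose 2 := by
      rw [Nat.choose_succ_succ' n 1, Nat.choose_one_right]
    calc y ^ (n+1) * x = y * (y ^ n * x) := by rw [pow_succ', mul_assoc]
      _ = (y * x) * y ^ n * c ^ n * e ^ (n.choose 2) := by rw [ih]; simp only [mul_assoc]
      _ = x * y * (c * y ^ n) * c ^ n * e ^ (n.choose 2) := by rw [h1]; simp only [mul_assoc]
      _ = x * (y * y ^ n) * c * (e ^ n * c ^ n) * e ^ (n.choose 2) := by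
        rw [hB]; simp only [mul_assoc]
      _ = x * y ^ (n+1) * c ^ (n+1) * e ^ ((n+1).choose 2) := by
        rw [cpow he n, hch, pow_add e, pow_succ' y, pow_succ' c]; simp only [mul_assoc]

theorem lemD {x y c d e : R} (hd : ∀ g, d * g = g * d) (he : ∀ g, e * g = g * e)
    (h1 : y * x = x * y * c) (h2 : c * x = x * c * d) (h3 : c * y = y * c * e) (n : ℕ) :
    (x * y) ^ n = x ^ n * y ^ n * c ^ (n.choose 2) * d ^ (n.choose 3)
      * e ^ (n.choose 2 + 2 * n.choose 3) := by
  induction n with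
  | zero => simp
  | succ n ih =>
    have hch2 : (n+1).choose 2 = n + n.choose 2 := by
      rw [Nat.choose_succ_succ' n 1, Nat.choose_one_right]
    have hch3 : (n+1).choose 3 = n.choose 2 + n.choose 3 := by
      rw [Nat.choose_succ_succ' n 2]
    obtain ⟨K, hK⟩ : ∃ K, K = n.choose 2 := ⟨_, rfl⟩
    obtain ⟨A, hA⟩ : ∃ A, A = n.choose 3 := ⟨_, rfl⟩
    rw [hch2, hch3, ← hK, ← hA]
    rw [← hK, ← hA] at ih
    obtain ⟨B, hB⟩ : ∃ B, B = K + 2 * A := ⟨_, rfl⟩
    rw [← hB] at ih
    have t1 : d ^ A * e ^ B * (x * y) = x * y * (d ^ A * e ^ B) := by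
      rw [mul_assoc, cpow he B (x * y), ← mul_assoc, cpow hd A (x * y), mul_assoc]
    have t2 : e ^ (n + K) * (e ^ K * (d ^ K * (d ^ A * e ^ B)))
        = d ^ (K + A) * e ^ (n + K + 2 * (K + A)) := by
      have : n + K + 2 * (K + A) = (n + K) + (K + B) := by rw [hB]; ring
      calc e ^ (n + K) * (e ^ K * (d ^ K * (d ^ A * e ^ B)))
          = e ^ (n + K) * (e ^ K * (d ^ (K + A) * e ^ B)) := by rw [pow_add d, mul_assoc]
        _ = e ^ (n + K) * (d ^ (K + A) * (e ^ K * e ^ B)) := by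
          rw [← mul_assoc (e ^ K), cpow he K, mul_assoc]
        _ = d ^ (K + A) * (e ^ (n + K) * (e ^ K * e ^ B)) := by
          rw [← mul_assoc, cpow he (n + K), mul_assoc]
        _ = _ := by rw [this, pow_add e (n + K), pow_add e K]
    calc (x * y) ^ (n+1) = (x * y) ^ n * (x * y) := pow_succ _ _
      _ = x ^ n * y ^ n * c ^ K * (d ^ A * e ^ B * (x * y)) := by rw [ih]; simp only [mul_assoc]
      _ = x ^ n * y ^ n * (c ^ K * x) * y * (d ^ A * e ^ B) := by rw [t1]; simp only [mul_assoc]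
      _ = x ^ n * (y ^ n * x) * c ^ K * (d ^ K * y) * (d ^ A * e ^ B) := by
        rw [powL hd h2 K]; simp only [mul_assoc]
      _ = x ^ n * (y ^ n * x) * c ^ K * y * (d ^ K * (d ^ A * e ^ B)) := by
        rw [cpow hd K y]; simp only [mul_assoc]
      _ = x ^ n * x * y ^ n * c ^ n * (e ^ K * (c ^ K * y)) * (d ^ K * (d ^ A * e ^ B)) := by
        rw [lemC he h1 h3 n, ← hK]; simp only [mul_assoc]
      _ = x ^ (n+1) * y ^ n * (c ^ (n + K) * y) * (e ^ K * (d ^ K * (d ^ A * e ^ B))) := by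
        rw [cpow he K, pow_succ, pow_add]; simp only [mul_assoc]
      _ = x ^ (n+1) * y ^ (n+1) * c ^ (n + K)
            * (e ^ (n + K) * (e ^ K * (d ^ K * (d ^ A * e ^ B)))) := by
        rw [powL he h3 (n + K), pow_succ y]; simp only [mul_assoc]
      _ = _ := by rw [t2]; simp only [mul_assoc]

theorem pow_of_dvd {a : R} {p m : ℕ} (h : a ^ p = 1) (hm : p ∣ m) : a ^ m = 1 := by
  obtain ⟨k, rfl⟩ := hm
  rw [pow_mul, h, one_pow]

theorem mem_c (x y : R) : y⁻¹ * x⁻¹ * y * x ∈ commutator R := by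
  have := Subgroup.commutator_mem_commutator (Subgroup.mem_top y⁻¹) (Subgroup.mem_top x⁻¹)
  rw [commutatorElement_def] at this
  simpa [commutator_def] using this

theorem mem_d {c : R} (hc : c ∈ commutator R) (x : R) :
    c⁻¹ * x⁻¹ * c * x ∈ ⁅commutator R, (⊤ : Subgroup R)⁆ := by
  have := Subgroup.commutator_mem_commutator (inv_mem hc) (Subgroup.mem_top x⁻¹)
  rw [commutatorElement_def] at this
  simpa using this

theorem core {p : ℕ} (h2 : p ∣ p.choose 2)
    (hcen : ∀ a ∈ ⁅commutator R, (⊤ : Subgroup R)⁆,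
      (∀ g, a * g = g * a) ∧ (a ^ p = 1 → a ^ (p.choose 3) = 1))
    (x y : R) :
    (x ^ p = 1 → y ^ p = 1 → (x * y) ^ p = 1) ∧
    ((y⁻¹ * x⁻¹ * y * x) ^ p = 1 → (∀ a ∈ ⁅commutator R, (⊤ : Subgroup R)⁆, a ^ p = 1) →
      (x * y) ^ p = x ^ p * y ^ p) := by
  have hcm : y⁻¹ * x⁻¹ * y * x ∈ commutator R := mem_c x y
  obtain ⟨c, hc⟩ : ∃ c, c = y⁻¹ * x⁻¹ * y * x := ⟨_, rfl⟩
  rw [← hc] at hcm ⊢
  have hdm := mem_d hcm x
  have hem := mem_d hcm y
  obtain ⟨d, hd⟩ : ∃ d, d = c⁻¹ * x⁻¹ * c * x := ⟨_, rfl⟩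
  obtain ⟨e, he⟩ : ∃ e, e = c⁻¹ * y⁻¹ * c * y := ⟨_, rfl⟩
  rw [← hd] at hdm
  rw [← he] at hem
  have h1 : y * x = x * y * c := by rw [hc]; group
  have h2' : c * x = x * c * d := by rw [hd]; group
  have h3 : c * y = y * c * e := by rw [he]; group
  have hdc := (hcen d hdm).1
  have hec := (hcen e hem).1
  have hD := lemD hdc hec h1 h2' h3 p
  have fin : c ^ p = 1 → d ^ p = 1 → e ^ p = 1 → (x * y) ^ p = x ^ p * y ^ p := by
    intro a b c'
    rw [hD, pow_of_dvd a h2, (hcen d hdm).2 b, pow_add, pow_of_dvd c' h2, mul_comm 2, pow_mul,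
      (hcen e hem).2 c']
    simp
  constructor
  · intro hx hy
    have e1 : e ^ p = 1 := by
      have := powR hec h3 p
      rw [hy] at this
      simpa using this
    have d1 : d ^ p = 1 := by
      have := powR hdc h2' p
      rw [hx] at this
      simpa using this
    have c1 : c ^ p = 1 := by
      have := lemC hec h1 h3 p
      rw [hy, pow_of_dvd e1 h2] at this
      simpa using this
    rw [fin c1 d1 e1, hx, hy, one_mul]
  · intro a b
    exact fin a (b d hdm) (b e hem)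

theorem expo {p : ℕ} (h2 : p ∣ p.choose 2)
    (hcen : ∀ a ∈ ⁅commutator R, (⊤ : Subgroup R)⁆,
      (∀ g, a * g = g * a) ∧ (a ^ p = 1 → a ^ (p.choose 3) = 1))
    (g : R) (hg : g ∈ Subgroup.closure {x : R | x ^ p = 1}) : g ^ p = 1 := by
  induction hg using Subgroup.closure_induction with
  | mem x hx => exact hx
  | one => exact one_pow p
  | mul x y _ _ hx hy => exact (core h2 hcen x y).1 hx hy
  | inv x _ hx => rw [inv_pow, hx, inv_one]

theorem cen3 {p : ℕ} (hpp : p.Prime) (hp : 3 < p)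
    (hcl : ⁅⁅commutator R, (⊤ : Subgroup R)⁆, (⊤ : Subgroup R)⁆ = ⊥) :
    ∀ a ∈ ⁅commutator R, (⊤ : Subgroup R)⁆,
      (∀ g, a * g = g * a) ∧ (a ^ p = 1 → a ^ (p.choose 3) = 1) := by
  intro a ha
  refine ⟨fun g => ?_, fun h => pow_of_dvd h (hpp.dvd_choose_self (by norm_num) hp)⟩
  have := Subgroup.commutator_mem_commutator ha (Subgroup.mem_top g)
  rw [hcl, Subgroup.mem_bot, commutatorElement_def] at this
  calc a * g = (a * g * a⁻¹ * g⁻¹) * (g * a) := by group
    _ = g * a := by rw [this, one_mul]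


/-- For p > 3, in a p-group of class at most three the elements of order dividing p generate a subgroup of exponent dividing p. -/
theorem result {R : Type*} [Group R] [Finite R] {p : ℕ} [Fact p.Prime] (hp : 3 < p) (hR : IsPGroup p R) (hcl : ⁅⁅commutator R, (⊤ : Subgroup R)⁆, (⊤ : Subgroup R)⁆ = ⊥) (g : R) (hg : g ∈ Subgroup.closure {x : R | x ^ p = 1}) : g ^ p = 1 := by
  have hpp := (Fact.out : p.Prime)
  exact expo (hpp.dvd_choose_self (by norm_num) (by omega)) (cen3 hpp hp hcl) g hg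

end Cfsg.Agent.S0124
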