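import Cfsg.Statements.S0123
import Mathlib
-- import your own Cfsg.Agent.* helpers here
import Cfsg.Agent.S0124

set_option autoImplicit false
open Cfsg

namespace Cfsg.Agent.S0123



/-- For a p-group of small class relative to p (class ≤ 2 with p odd, or class ≤ 3 with p > 3) whose derived subgroup is generated by elements of order dividing p, the p-th power map is multiplicative. -/
theorem result {R : Type*} [Group R] [Finite R] {p : ℕ} [Fact p.Prime] (hR : IsPGroup p R) (hcl : (p ≠ 2 ∧ ⁅commutator R, (⊤ : Subgroup R)⁆ = ⊥) ∨ (3 < p ∧ ⁅⁅commutator R, (⊤ : Subgroup R)⁆, (⊤ : Subgroup R)⁆ = ⊥)) (hder : commutator R ≤ Subgroup.closure {x : R | x ^ p = 1}) (x y : R) : (x * y) ^ p = x ^ p * y ^ p := by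
  have hpp := (Fact.out : p.Prime)
  have key : p ∣ p.choose 2 ∧ ∀ a ∈ ⁅commutator R, (⊤ : Subgroup R)⁆,
      (∀ g, a * g = g * a) ∧ (a ^ p = 1 → a ^ (p.choose 3) = 1) := by
    rcases hcl with ⟨h2, h⟩ | ⟨h3, h⟩
    · refine ⟨hpp.dvd_choose_self (by norm_num) (lt_of_le_of_ne hpp.two_le (Ne.symm h2)),
        fun a ha => ?_⟩
      rw [h, Subgroup.mem_bot] at ha
      subst ha
      simp
    · exact ⟨hpp.dvd_choose_self (by norm_num) (by omega), Cfsg.Agent.S0124.cen3 hpp h3 h⟩
  have hexp := Cfsg.Agent.S0124.expo key.1 key.2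
  refine (Cfsg.Agent.S0124.core key.1 key.2 x y).2 (hexp _ (hder (Cfsg.Agent.S0124.mem_c x y)))
    (fun a ha => hexp a (hder ?_))
  exact Subgroup.commutator_le_left _ _ ha

end Cfsg.Agent.S0123
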