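import Cfsg.Statements.S0157
import Mathlib
import Cfsg.Agent.CharLib.Sub
import Cfsg.Agent.CharLib.Perm

set_option autoImplicit false
open Cfsg

namespace Cfsg.Agent.S0157

/-- For a transitive action of a finite group on a finite set with at least two points: the action is 2-transitive if and only if the function sending g to (number of fixed points of g) − 1 is an irreducible character. -/
theorem result {G : Type*} [Group G] [Finite G] (X : Type*) [MulAction G X] [Finite X] [MulAction.IsPretransitive G X] (hX : 2 ≤ Nat.card X) : Cfsg.IsIrrCharacter G (fun g => (Nat.card (MulAction.fixedBy X g) : ℂ) - 1) ↔ MulAction.IsMultiplyPretransitive G X 2 := by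
  classical
  cases nonempty_fintype G
  cases nonempty_fintype X
  set π : G → ℂ := fun g => (Nat.card (MulAction.fixedBy X g) : ℂ) with hπ
  have hπchar : IsCharacter G π := Cfsg.Agent.CharLib.isCharacter_fixedBy X
  have hone : IsIrrCharacter G (fun _ => (1 : ℂ)) := Cfsg.Agent.CharLib.isIrrCharacter_one
  have hG0 : (Nat.card G : ℂ) ≠ 0 := Cfsg.Agent.CharLib.card_ne_zero_complex
  -- ⟨π, 1⟩ = 1
  have hA : classInner π (fun _ => (1 : ℂ)) = 1 := by
    have h1 := MulAction.sum_card_fixedBy_eq_card_orbits_mul_card_group G X
    have h2 : Fintype.card (Quotient (MulAction.orbitRel G X)) = 1 := by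
      rw [Fintype.card_eq_one_iff]
      have hne : Nonempty X := by
        by_contra hcon
        rw [not_nonempty_iff] at hcon
        simp at hX
      obtain ⟨x⟩ := hne
      refine ⟨Quotient.mk'' x, ?_⟩
      intro q
      induction q using Quotient.inductionOn' with
      | h y =>
        apply Quotient.sound'
        exact MulAction.exists_smul_eq G x y
    rw [h2, one_mul] at h1
    rw [classInner]
    simp only [map_one, mul_one, hπ, Nat.card_eq_fintype_card]
    rw [← Nat.cast_sum, h1]
    rw [← Nat.card_eq_fintype_card]
    field_simp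
  -- ⟨π, π⟩ = number of orbits on pairs
  set r := Fintype.card (Quotient (MulAction.orbitRel G (X × X))) with hr
  have hB : classInner π π = r := by
    have h1 := MulAction.sum_card_fixedBy_eq_card_orbits_mul_card_group G (X × X)
    have h2 : ∀ g : G, Fintype.card (MulAction.fixedBy (X × X) g) =
        Fintype.card (MulAction.fixedBy X g) * Fintype.card (MulAction.fixedBy X g) := by
      intro g
      rw [← Fintype.card_prod]
      apply Fintype.card_congr
      exact
        { toFun := fun p => (⟨p.1.1, congrArg Prod.fst p.2⟩, ⟨p.1.2, congrArg Prod.snd p.2⟩)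
          invFun := fun p => ⟨(p.1.1, p.2.1), Prod.ext p.1.2 p.2.2⟩
          left_inv := fun p => rfl
          right_inv := fun p => rfl }
    simp only [h2] at h1
    rw [classInner]
    simp only [hπ, Nat.card_eq_fintype_card, map_natCast]
    have h3 : ∑ g : G, (Fintype.card (MulAction.fixedBy X g) : ℂ) *
        (Fintype.card (MulAction.fixedBy X g) : ℂ) = (r : ℂ) * (Fintype.card G : ℂ) := by
      exact_mod_cast h1
    rw [h3]
    rw [← Nat.card_eq_fintype_card (α := G)]
    field_simp
  have hA' : classInner (fun _ => (1 : ℂ)) π = 1 := by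
    rw [← Cfsg.Agent.CharLib.classInner_conj_symm, hA, map_one]
  have hsub : (fun g => (Nat.card (MulAction.fixedBy X g) : ℂ) - 1) = π - (fun _ => (1 : ℂ)) := rfl
  have hC : classInner (π - fun _ => (1 : ℂ)) (π - fun _ => (1 : ℂ)) = (r : ℂ) - 1 := by
    rw [Cfsg.Agent.CharLib.classInner_sub_left, Cfsg.Agent.CharLib.classInner_sub_right,
      Cfsg.Agent.CharLib.classInner_sub_right, hA, hA', hB,
      Cfsg.Agent.CharLib.classInner_irr_self hone]
    ring
  have hD : IsCharacter G (π - fun _ => (1 : ℂ)) :=
    Cfsg.Agent.CharLib.H2.isCharacter_sub_irr hπchar hone (by rw [hA]; exact one_ne_zero)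
  have hE : IsIrrCharacter G (π - fun _ => (1 : ℂ)) ↔ r = 2 := by
    constructor
    · intro h
      have := Cfsg.Agent.CharLib.classInner_irr_self h
      rw [hC] at this
      have h2 : (r : ℂ) = 2 := by linear_combination this
      exact_mod_cast h2
    · intro h
      apply Cfsg.Agent.CharLib.isIrrCharacter_of_norm_one hD
      rw [hC, h]
      norm_num
  rw [hsub, hE]
  -- orbits on pairs
  let f : Quotient (MulAction.orbitRel G (X × X)) → Bool :=
    Quotient.lift (fun p : X × X => decide (p.1 = p.2)) (by
      rintro ⟨a, b⟩ ⟨c, d⟩ ⟨g, hg⟩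
      have h1 : g • c = a := congrArg Prod.fst hg
      have h2 : g • d = b := congrArg Prod.snd hg
      simp only [decide_eq_decide]
      rw [← h1, ← h2]
      exact smul_left_cancel_iff g)
  have hfsurj : Function.Surjective f := by
    obtain ⟨a, b, hab⟩ : ∃ a b : X, a ≠ b := by
      have : 1 < Fintype.card X := by rw [← Nat.card_eq_fintype_card]; omega
      exact Fintype.exists_pair_of_one_lt_card this
    intro t
    cases t
    · exact ⟨Quotient.mk'' (a, b), by simp [f, Quotient.mk'', hab]⟩
    · exact ⟨Quotient.mk'' (a, a), by simp [f, Quotient.mk'']⟩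
  have hF : r = 2 ↔ Function.Injective f := by
    constructor
    · intro h
      have : Function.Bijective f := by
        rw [Fintype.bijective_iff_surjective_and_card]
        exact ⟨hfsurj, by rw [← hr, h]; rfl⟩
      exact this.1
    · intro h
      rw [hr, Fintype.card_of_bijective ⟨h, hfsurj⟩]
      rfl
  rw [hF, MulAction.is_two_pretransitive_iff]
  constructor
  · intro hinj a b c d hab hcd
    have h1 : f (Quotient.mk'' (c, d)) = f (Quotient.mk'' (a, b)) := by
      simp [f, Quotient.mk'', hab, hcd]
    have h2 := Quotient.exact' (hinj h1)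
    obtain ⟨g, hg⟩ := h2
    exact ⟨g, congrArg Prod.fst hg, congrArg Prod.snd hg⟩
  · intro h2t q q' hq
    induction q using Quotient.inductionOn' with
    | h p =>
      induction q' using Quotient.inductionOn' with
      | h p' =>
        obtain ⟨a, b⟩ := p
        obtain ⟨c, d⟩ := p'
        have hq' : decide (a = b) = decide (c = d) := hq
        apply Quotient.sound'
        by_cases hab : a = b
        · have hcd : c = d := by simpa [hab] using hq'
          subst hab; subst hcd
          obtain ⟨g, hg⟩ := MulAction.exists_smul_eq G c a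
          exact ⟨g, Prod.ext hg hg⟩
        · have hcd : c ≠ d := by
            intro hcd
            apply hab
            simpa [hcd] using hq'
          obtain ⟨g, hg1, hg2⟩ := h2t hcd hab
          exact ⟨g, Prod.ext hg1 hg2⟩

end Cfsg.Agent.S0157
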