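import Cfsg.Statements.S0159
import Mathlib
import Cfsg.Agent.CharLib.Orth

set_option autoImplicit false
open Cfsg

namespace Cfsg.Agent.S0159

/-- The number of solutions of s * s = 1 in a finite group equals the sum, over the irreducible characters χ, of (the average over s of χ (s * s)) times χ 1. -/
theorem result {G : Type*} [Group G] [Fintype G] : (Nat.card {s : G // s * s = 1} : ℂ) = ∑ᶠ χ : Cfsg.IrrCharacter G, ((Nat.card G : ℂ)⁻¹ * ∑ s : G, (χ : G → ℂ) (s * s)) * (χ : G → ℂ) 1 := by
  classical
  rw [finsum_eq_sum_of_fintype]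
  -- θ g = number of square roots of g
  let θ : G → ℂ := fun g => ∑ s : G, if s * s = g then 1 else 0
  have hθ : IsClassFunction G θ := by
    intro g h
    show ∑ s : G, (if s * s = h * g * h⁻¹ then (1 : ℂ) else 0) = ∑ s : G, if s * s = g then 1 else 0
    refine Fintype.sum_equiv (MulAut.conj h⁻¹).toEquiv _ _ ?_
    intro s
    simp only [MulEquiv.toEquiv_eq_coe, MulEquiv.coe_toEquiv, MulAut.conj_apply, inv_inv]
    have : s * s = h * g * h⁻¹ ↔ h⁻¹ * s * h * (h⁻¹ * s * h) = g := by
      constructor
      · intro e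
        calc h⁻¹ * s * h * (h⁻¹ * s * h) = h⁻¹ * (s * s) * h := by group
          _ = g := by rw [e]; group
      · intro e
        rw [← e]; group
    simp only [this]
  have hin : ∀ χ : IrrCharacter G, classInner θ χ =
      (Nat.card G : ℂ)⁻¹ * ∑ s : G, (starRingEnd ℂ) ((χ : G → ℂ) (s * s)) := by
    intro χ
    rw [classInner]
    congr 1
    simp only [θ, Finset.sum_mul]
    rw [Finset.sum_comm]
    refine Finset.sum_congr rfl fun s _ => ?_
    simp
  have h1 := congrFun (Cfsg.Agent.CharLib.classFunction_eq_sum hθ) 1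
  simp only [Finset.sum_apply, Pi.smul_apply, smul_eq_mul, hin] at h1
  have h2 : θ 1 = (Nat.card {s : G // s * s = 1} : ℂ) := by
    simp only [θ]
    rw [Finset.sum_boole, Nat.card_eq_fintype_card, Fintype.card_subtype]
  rw [h2] at h1
  have h3 := congrArg (starRingEnd ℂ) h1
  rw [map_natCast, map_sum] at h3
  rw [h3]
  refine Finset.sum_congr rfl fun χ _ => ?_
  rw [map_mul, map_mul, map_inv₀, map_natCast, map_sum, Cfsg.Agent.CharLib.conj_irr_apply_one]
  simp

end Cfsg.Agent.S0159
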