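import Cfsg.Statements.S0162
import Mathlib
import Cfsg.Agent.S0161
import Cfsg.Agent.CharLib.Degree
import Cfsg.Agent.CharLib.Orth

set_option autoImplicit false
open Cfsg

namespace Cfsg.Agent.S0162

/-- If a finite group has odd order, its order is congruent to its number of conjugacy classes modulo 16. -/
theorem result {G : Type*} [Group G] [Finite G] (hodd : Odd (Nat.card G)) : Nat.card G ≡ Nat.card (ConjClasses G) [MOD 16] := by
  classical
  cases nonempty_fintype G
  choose d hdpos hd using (Cfsg.Agent.CharLib.irr_apply_one_nat (G := G))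
  have hdvd : ∀ χ : IrrCharacter G, d χ ∣ Nat.card G := by
    intro χ
    obtain ⟨n, ρ, hρ, h⟩ := χ.2
    have h1 : ((d χ : ℕ) : ℂ) = (Module.finrank ℂ (Fin n → ℂ) : ℂ) := by
      rw [← hd χ, ← h, Representation.char_one]
    have h2 : d χ = Module.finrank ℂ (Fin n → ℂ) := by exact_mod_cast h1
    rw [h2]
    exact Cfsg.Agent.CharLib.finrank_dvd_card ρ
  have hdodd : ∀ χ, Odd (d χ) := fun χ => Odd.of_dvd_nat hodd (hdvd χ)
  have hsum : ∑ χ : IrrCharacter G, d χ ^ 2 = Nat.card G := by
    have h1 := Cfsg.Agent.CharLib.sum_irr_sq (G := G)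
    simp only [hd] at h1
    exact_mod_cast h1
  have hk : Fintype.card (IrrCharacter G) = Nat.card (ConjClasses G) := by
    rw [← Nat.card_eq_fintype_card, Cfsg.Agent.CharLib.card_irrCharacter]
  let f : IrrCharacter G → ℕ := fun χ => (d χ ^ 2 - 1) / 8
  have hf : ∀ χ, d χ ^ 2 = 8 * f χ + 1 := by
    intro χ
    obtain ⟨m, hm⟩ := hdodd χ
    have h8 : 8 ∣ d χ ^ 2 - 1 := by
      rw [hm]
      have : (2 * m + 1) ^ 2 - 1 = 4 * (m * (m + 1)) := by
        have : (2 * m + 1) ^ 2 = 4 * (m * (m + 1)) + 1 := by ring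
        omega
      rw [this]
      obtain ⟨t, ht⟩ := Nat.even_mul_succ_self m
      rw [ht]
      exact ⟨t, by ring⟩
    have hpos : 1 ≤ d χ ^ 2 := Nat.one_le_pow _ _ (hdpos χ)
    have := Nat.mul_div_cancel' h8
    simp only [f]
    omega
  let c : IrrCharacter G → IrrCharacter G := fun χ =>
    ⟨fun g => (starRingEnd ℂ) ((χ : G → ℂ) g), Cfsg.Agent.CharLib.isIrrCharacter_conj χ.2⟩
  have hdc : ∀ χ, d (c χ) = d χ := by
    intro χ
    have h1 : ((d (c χ) : ℕ) : ℂ) = (d χ : ℂ) := by
      rw [← hd (c χ), ← hd χ]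
      exact Cfsg.Agent.CharLib.conj_irr_apply_one χ
    exact_mod_cast h1
  have hz : ∑ χ : IrrCharacter G, (f χ : ZMod 2) = 0 := by
    refine Finset.sum_involution (fun χ _ => c χ) ?_ ?_ ?_ ?_
    · intro χ _
      have : f (c χ) = f χ := by simp only [f, hdc]
      rw [this]
      exact CharTwo.add_self_eq_zero _
    · intro χ _ hne hcχ
      apply hne
      have hreal : ∀ g : G, ((χ : G → ℂ) g).im = 0 := by
        intro g
        have := congrFun (congrArg Subtype.val hcχ) g
        exact Complex.conj_eq_iff_im.mp this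
      have h1 := Cfsg.Agent.S0161.result hodd χ hreal
      have h2 : ((d χ : ℕ) : ℂ) = 1 := by rw [← hd χ, h1]
      have h3 : d χ = 1 := by exact_mod_cast h2
      simp [f, h3]
    · intro χ _; exact Finset.mem_univ _
    · intro χ _
      apply Subtype.ext
      funext g
      simp [c]
  have hz2 : ((∑ χ : IrrCharacter G, f χ : ℕ) : ZMod 2) = 0 := by
    push_cast
    exact hz
  rw [ZMod.natCast_eq_zero_iff] at hz2
  obtain ⟨m, hm⟩ := hz2
  have hfinal : Nat.card G = 16 * m + Nat.card (ConjClasses G) := by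
    rw [← hsum, ← hk]
    simp only [hf]
    rw [Finset.sum_add_distrib, ← Finset.mul_sum, hm]
    simp
    ring
  rw [hfinal]
  exact (Nat.modEq_iff_dvd' (by omega)).mpr ⟨m, by omega⟩ |>.symm

end Cfsg.Agent.S0162
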