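import Cfsg.Statements.S0167
import Mathlib
import Cfsg.Agent.CharLib.PermLemma

set_option autoImplicit false
open Cfsg

namespace Cfsg.Agent.S0167

/-- An element g of a finite group is a commutator if and only if the sum over the irreducible characters χ of χ g / χ 1 is nonzero. -/
theorem result {G : Type*} [Group G] [Finite G] (g : G) : (∃ a b : G, g = a * b * a⁻¹ * b⁻¹) ↔ ∑ᶠ χ : Cfsg.IrrCharacter G, (χ : G → ℂ) g / (χ : G → ℂ) 1 ≠ 0 := by
  classical
  cases nonempty_fintype G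
  rw [finsum_eq_sum_of_fintype]
  let N : G → ℂ := fun g => ∑ p : G × G, if p.1 * p.2 * p.1⁻¹ * p.2⁻¹ = g then 1 else 0
  have hN : IsClassFunction G N := by
    intro g h
    show ∑ p : G × G, (if p.1 * p.2 * p.1⁻¹ * p.2⁻¹ = h * g * h⁻¹ then (1 : ℂ) else 0) =
      ∑ p : G × G, if p.1 * p.2 * p.1⁻¹ * p.2⁻¹ = g then 1 else 0
    refine Fintype.sum_equiv ((MulAut.conj h⁻¹).toEquiv.prodCongr (MulAut.conj h⁻¹).toEquiv) _ _ ?_
    rintro ⟨a, b⟩
    simp only [MulEquiv.toEquiv_eq_coe, Equiv.prodCongr_apply, MulEquiv.coe_toEquiv, Prod.map_apply,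
      MulAut.conj_apply, inv_inv]
    have : a * b * a⁻¹ * b⁻¹ = h * g * h⁻¹ ↔
        h⁻¹ * a * h * (h⁻¹ * b * h) * (h⁻¹ * a * h)⁻¹ * (h⁻¹ * b * h)⁻¹ = g := by
      constructor
      · intro e
        calc h⁻¹ * a * h * (h⁻¹ * b * h) * (h⁻¹ * a * h)⁻¹ * (h⁻¹ * b * h)⁻¹
            = h⁻¹ * (a * b * a⁻¹ * b⁻¹) * h := by group
          _ = g := by rw [e]; group
      · intro e
        rw [← e]; group
    simp only [this]
  have hcard : (Nat.card G : ℂ) ≠ 0 := Cfsg.Agent.CharLib.card_ne_zero_complex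
  have hin : ∀ χ : IrrCharacter G, classInner N χ = (Nat.card G : ℂ) / (χ : G → ℂ) 1 := by
    intro χ
    have hχ1 := Cfsg.Agent.CharLib.irr_apply_one_ne_zero χ
    have h1 : ∑ g : G, N g * (starRingEnd ℂ) ((χ : G → ℂ) g) =
        ∑ p : G × G, (starRingEnd ℂ) ((χ : G → ℂ) (p.1 * p.2 * p.1⁻¹ * p.2⁻¹)) := by
      simp only [N, Finset.sum_mul]
      rw [Finset.sum_comm]
      refine Finset.sum_congr rfl fun s _ => ?_
      simp
    have h2 : ∑ p : G × G, ((χ : G → ℂ) (p.1 * p.2 * p.1⁻¹ * p.2⁻¹)) =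
        (Nat.card G : ℂ) * (Nat.card G : ℂ) / (χ : G → ℂ) 1 := by
      rw [Fintype.sum_prod_type, Finset.sum_comm]
      simp only [Cfsg.Agent.CharLib.sum_irr_conj_mul]
      have h3 := Cfsg.Agent.CharLib.classInner_irr_self χ.2
      rw [classInner] at h3
      have h4 : ∑ g : G, (χ : G → ℂ) g * (starRingEnd ℂ) ((χ : G → ℂ) g) = (Nat.card G : ℂ) := by
        field_simp at h3
        exact h3
      rw [← Finset.sum_div]
      congr 1
      rw [← h4, Finset.mul_sum]
      refine Finset.sum_congr rfl fun b _ => ?_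
      rw [Cfsg.Agent.CharLib.isCharacter_inv (Cfsg.Agent.CharLib.isCharacter_of_irr χ.2)]
      rw [h4]
      ring
    rw [classInner, h1, ← map_sum, h2, map_div₀, map_mul, map_natCast,
      Cfsg.Agent.CharLib.conj_irr_apply_one]
    field_simp
  have h1 := congrFun (Cfsg.Agent.CharLib.classFunction_eq_sum hN) g
  simp only [Finset.sum_apply, Pi.smul_apply, smul_eq_mul, hin] at h1
  have h2 : N g = (Nat.card G : ℂ) * ∑ χ : IrrCharacter G, (χ : G → ℂ) g / (χ : G → ℂ) 1 := by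
    rw [h1, Finset.mul_sum]
    refine Finset.sum_congr rfl fun χ _ => ?_
    ring
  have h3 : N g = ((Finset.univ.filter
      (fun p : G × G => p.1 * p.2 * p.1⁻¹ * p.2⁻¹ = g)).card : ℂ) := by
    simp only [N]
    rw [Finset.sum_boole]
  constructor
  · rintro ⟨a, b, hab⟩ h0
    rw [h0, mul_zero, h3] at h2
    have h4 : (Finset.univ.filter (fun p : G × G => p.1 * p.2 * p.1⁻¹ * p.2⁻¹ = g)).card = 0 := by
      exact_mod_cast h2
    rw [Finset.card_eq_zero] at h4
    have h5 : (a, b) ∈ Finset.univ.filter (fun p : G × G => p.1 * p.2 * p.1⁻¹ * p.2⁻¹ = g) := by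
      simp [hab]
    rw [h4] at h5
    simp at h5
  · intro hne
    have h4 : N g ≠ 0 := by
      rw [h2]
      exact mul_ne_zero hcard hne
    rw [h3] at h4
    have h5 : (Finset.univ.filter (fun p : G × G => p.1 * p.2 * p.1⁻¹ * p.2⁻¹ = g)).card ≠ 0 := by
      exact_mod_cast h4
    obtain ⟨⟨a, b⟩, hp⟩ := Finset.card_pos.mp (Nat.pos_of_ne_zero h5)
    simp only [Finset.mem_filter, Finset.mem_univ, true_and] at hp
    exact ⟨a, b, hp.symm⟩

end Cfsg.Agent.S0167
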