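import Cfsg.Statements.S0170
import Mathlib
import Cfsg.Agent.CharLib.Exceptional

set_option autoImplicit false
open Cfsg

namespace Cfsg.Agent.S0170

/-- Exceptional characters. Let S be a subset of a finite group contained in its normalizer N and meeting its conjugates by elements outside N only in the identity. Given n ≥ 2 distinct irreducible characters of N of equal degree that vanish on N away from S, there exist a sign ε and n distinct irreducible characters θ_i of G such that inducing χ_i − χ_j to G gives ε (θ_i − θ_j) for all i, j. -/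
theorem result {G : Type*} [Group G] [Fintype G] (S : Set G) (hSN : S ⊆ Subgroup.normalizer S) (hTI : ∀ g : G, g ∉ Subgroup.normalizer S → ∀ s ∈ S, g * s * g⁻¹ ∈ S → s = 1) (n : ℕ) (hn : 2 ≤ n) (χ : Fin n → (Subgroup.normalizer S → ℂ)) (hirr : ∀ i, Cfsg.IsIrrCharacter (Subgroup.normalizer S) (χ i)) (hinj : Function.Injective χ) (hvan : ∀ i, ∀ x : Subgroup.normalizer S, (x : G) ∉ S → χ i x = 0) (hdeg : ∀ i j, χ i 1 = χ j 1) : ∃ ε : ℂ, (ε = 1 ∨ ε = -1) ∧ ∃ θ : Fin n → (G → ℂ), (∀ i, Cfsg.IsIrrCharacter G (θ i)) ∧ Function.Injective θ ∧ ∀ i j, Cfsg.indFun (Subgroup.normalizer S) (χ i) - Cfsg.indFun (Subgroup.normalizer S) (χ j) = ε • (θ i - θ j) := by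
  classical
  have : Fintype (Subgroup.normalizer S) := Fintype.ofFinite _
  let i₀ : Fin n := ⟨0, by omega⟩
  let τ : Fin n → (G → ℂ) := fun i =>
    Cfsg.indFun (Subgroup.normalizer S) (χ i) - Cfsg.indFun (Subgroup.normalizer S) (χ i₀)
  have hτ : ∀ i, τ i = Cfsg.indFun (Subgroup.normalizer S) (χ i - χ i₀) := by
    intro i
    rw [Cfsg.Agent.CharLib.H2.indFun_sub]
  have hcl : ∀ i, IsClassFunction (Subgroup.normalizer S) (χ i - χ i₀) := fun i =>
    Cfsg.Agent.CharLib.isClassFunction_sub (Cfsg.Agent.CharLib.isClassFunction_of_irr (hirr i))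
      (Cfsg.Agent.CharLib.isClassFunction_of_irr (hirr i₀))
  have hv : ∀ i, ∀ x : Subgroup.normalizer S, (x : G) ∉ S → (χ i - χ i₀) x = 0 := by
    intro i x hx
    rw [Pi.sub_apply, hvan i x hx, hvan i₀ x hx, sub_zero]
  have h1 : ∀ i, (χ i - χ i₀) 1 = 0 := by
    intro i
    rw [Pi.sub_apply, hdeg i i₀, sub_self]
  obtain ⟨ε, hε, μ, hμ, hμinj, hμτ⟩ := Cfsg.Agent.CharLib.H2.exceptional_isometry n i₀ τ
    (by simp [τ])
    (fun i => ⟨_, _, Cfsg.Agent.CharLib.H2.isCharacter_indFun _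
      (Cfsg.Agent.CharLib.isCharacter_of_irr (hirr i)),
      Cfsg.Agent.CharLib.H2.isCharacter_indFun _
      (Cfsg.Agent.CharLib.isCharacter_of_irr (hirr i₀)), rfl⟩)
    (by
      intro i
      simp only [τ, Pi.sub_apply, Cfsg.Agent.CharLib.H2.indFun_apply_one]
      rw [hdeg i i₀, sub_self])
    (by
      intro i j hi hj
      rw [hτ i, hτ j, Cfsg.Agent.CharLib.H2.indFun_isometry_on_TI S hTI _ _ (hcl j) (hv i) (hv j) (h1 i)]
      have key := Cfsg.Agent.CharLib.H2.classInner_sub_sub_irr (G := Subgroup.normalizer S)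
        ⟨χ i, hirr i⟩ ⟨χ i₀, hirr i₀⟩ ⟨χ j, hirr j⟩ ⟨χ i₀, hirr i₀⟩
      simp only at key
      rw [key]
      have e1 : ((⟨χ i, hirr i⟩ : IrrCharacter (Subgroup.normalizer S)) = ⟨χ j, hirr j⟩) ↔ i = j := by
        constructor
        · intro h; exact hinj (congrArg Subtype.val h)
        · intro h; subst h; rfl
      have e2 : ¬ ((⟨χ i, hirr i⟩ : IrrCharacter (Subgroup.normalizer S)) = ⟨χ i₀, hirr i₀⟩) := by
        intro h; exact hi (hinj (congrArg Subtype.val h))
      have e3 : ¬ ((⟨χ i₀, hirr i₀⟩ : IrrCharacter (Subgroup.normalizer S)) = ⟨χ j, hirr j⟩) := by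
        intro h; exact hj (hinj (congrArg Subtype.val h)).symm
      rw [if_neg e2, if_neg e3, if_pos trivial]
      by_cases hij : i = j
      · rw [if_pos hij, if_pos (e1.mpr hij)]; norm_num
      · rw [if_neg hij, if_neg (fun h => hij (e1.mp h))]; norm_num)
  refine ⟨ε, hε, μ, hμ, hμinj, ?_⟩
  intro i j
  have e1 : Cfsg.indFun (Subgroup.normalizer S) (χ i) - Cfsg.indFun (Subgroup.normalizer S) (χ j) =
      τ i - τ j := by simp [τ]
  rw [e1, hμτ i, hμτ j, ← smul_sub]
  congr 1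
  abel

end Cfsg.Agent.S0170
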