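import Cfsg.Statements.S0172
import Mathlib
-- import your own Cfsg.Agent.* helpers here

set_option autoImplicit false
open Cfsg

namespace Cfsg.Agent.S0172

theorem cp_sum (X : Type*) [Group X] [Fintype X] :
    Nat.card {p : X × X // Commute p.1 p.2} = ∑ x : X, Nat.card {y : X // Commute x y} := by
  rw [Nat.card_congr (Equiv.subtypeProdEquivSigmaSubtype (fun x y : X => Commute x y)), Nat.card_sigma]

theorem sum_adj {X : Type*} [Fintype X] [DecidableEq X] (x0 : X) (f g : X → ℕ) (a b : ℕ)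
    (h : ∀ x, f x + (if x = x0 then a else 0) = g x + (if x = x0 then b else 0)) :
    (∑ x, f x) + a = (∑ x, g x) + b := by
  have := Finset.sum_congr rfl (fun x (_ : x ∈ Finset.univ) => h x)
  rw [Finset.sum_add_distrib, Finset.sum_add_distrib, Finset.sum_ite_eq', Finset.sum_ite_eq'] at this
  simpa using this

theorem card_one (X : Type*) [Group X] : Nat.card {y : X // Commute (1 : X) y} = Nat.card X :=
  Nat.card_congr (Equiv.subtypeUnivEquiv (fun y => Commute.one_left y))

theorem card_sub {G : Type*} [Group G] (L : Subgroup G) (x : L)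
    (h : ∀ y : G, Commute (x : G) y → y ∈ L) :
    Nat.card {y : G // Commute (x : G) y} = Nat.card {y : L // Commute x y} := by
  apply Nat.card_congr
  exact
    { toFun := fun y => ⟨⟨y.1, h y.1 y.2⟩, Subtype.ext y.2.eq⟩
      invFun := fun y => ⟨y.1.1, congrArg Subtype.val y.2.eq⟩
      left_inv := fun y => rfl
      right_inv := fun y => rfl }

theorem card_conj {G : Type*} [Group G] (g x : G) :
    Nat.card {y : G // Commute (g * x * g⁻¹) y} = Nat.card {y : G // Commute x y} := by
  apply Nat.card_congr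
  symm
  apply Equiv.subtypeEquiv (MulAut.conj g).toEquiv
  intro y
  exact (Commute.conj_iff g).symm


/-- Class number of a Frobenius group: if G = K H with K normal, K ⊓ H trivial and no non-identity element of H commuting with a non-identity element of K, then |H| * k(G) + 1 = |H| * k(H) + k(K), where k denotes the number of conjugacy classes. -/
theorem result {G : Type*} [Group G] [Finite G] (K H : Subgroup G) [K.Normal] (hKH : K ⊓ H = ⊥) (hKH' : K ⊔ H = ⊤) (hfpf : ∀ h ∈ H, h ≠ 1 → ∀ k ∈ K, h * k = k * h → k = 1) : Nat.card H * Nat.card (ConjClasses G) + 1 = Nat.card H * Nat.card (ConjClasses H) + Nat.card (ConjClasses K) := by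
  classical
  haveI := Fintype.ofFinite G
  haveI := Fintype.ofFinite ↥K
  haveI := Fintype.ofFinite ↥H
  have hKn : K.Normal := inferInstance
  have hdec : ∀ g : G, ∃ k ∈ K, ∃ h ∈ H, k * h = g := by
    intro g
    have : g ∈ K ⊔ H := hKH' ▸ Subgroup.mem_top g
    exact Subgroup.mem_sup_of_normal_left.mp this
  have hinter : ∀ g, g ∈ K → g ∈ H → g = 1 := by
    intro g h1 h2
    have : g ∈ K ⊓ H := ⟨h1, h2⟩
    rw [hKH] at this
    exact Subgroup.mem_bot.mp this
  have hconj : ∀ h ∈ H, h ≠ 1 → ∀ k ∈ K, ∃ k1 ∈ K, k * h = k1 * h * k1⁻¹ := by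
    intro h hh h1 k hk
    let f : K → K := fun k1 => ⟨k1 * h * (k1 : G)⁻¹ * h⁻¹, by
      have : (k1 : G) * h * (k1 : G)⁻¹ * h⁻¹ = k1 * (h * (k1 : G)⁻¹ * h⁻¹) := by group
      rw [this]
      exact K.mul_mem k1.2 (hKn.conj_mem _ (K.inv_mem k1.2) h)⟩
    have finj : Function.Injective f := by
      intro a b hab
      have e0 : (a : G) * h * (a : G)⁻¹ * h⁻¹ = b * h * (b : G)⁻¹ * h⁻¹ := congrArg Subtype.val hab
      have h2 : (a : G) * h * (a : G)⁻¹ = b * h * (b : G)⁻¹ := mul_right_cancel e0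
      have h3 : h * ((b : G)⁻¹ * a) = ((b : G)⁻¹ * a) * h := by
        calc h * ((b : G)⁻¹ * a) = (b : G)⁻¹ * (b * h * (b : G)⁻¹) * a := by group
          _ = (b : G)⁻¹ * (a * h * (a : G)⁻¹) * a := by rw [h2]
          _ = (b : G)⁻¹ * a * h := by group
      have h4 := hfpf h hh h1 ((b : G)⁻¹ * a) (K.mul_mem (K.inv_mem b.2) a.2) h3
      exact Subtype.ext (inv_mul_eq_one.mp h4).symm
    obtain ⟨k1, hk1⟩ := (Finite.injective_iff_surjective.mp finj) ⟨k, hk⟩
    refine ⟨k1, k1.2, ?_⟩
    have e0 : (k1 : G) * h * (k1 : G)⁻¹ * h⁻¹ = k := congrArg Subtype.val hk1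
    rw [← e0]; group
  have hCH : ∀ h ∈ H, h ≠ 1 → ∀ y, Commute h y → y ∈ H := by
    intro h hh h1 y hy
    obtain ⟨k', hk', h', hh', rfl⟩ := hdec y
    have e : h * (k' * h') = (k' * h') * h := hy.eq
    have h2 : k'⁻¹ * (h * k' * h⁻¹) = h' * h * h'⁻¹ * h⁻¹ := by
      calc k'⁻¹ * (h * k' * h⁻¹) = k'⁻¹ * (h * (k' * h')) * h'⁻¹ * h⁻¹ := by group
        _ = k'⁻¹ * ((k' * h') * h) * h'⁻¹ * h⁻¹ := by rw [e]
        _ = h' * h * h'⁻¹ * h⁻¹ := by group
    have h3 : k'⁻¹ * (h * k' * h⁻¹) = 1 :=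
      hinter _ (K.mul_mem (K.inv_mem hk') (hKn.conj_mem k' hk' h))
        (h2 ▸ H.mul_mem (H.mul_mem (H.mul_mem hh' hh) (H.inv_mem hh')) (H.inv_mem hh))
    have h4 : h * k' = k' * h := by
      calc h * k' = k' * (k'⁻¹ * (h * k' * h⁻¹)) * h := by group
        _ = k' * h := by rw [h3, mul_one]
    have h5 := hfpf h hh h1 k' hk' h4
    rw [h5, one_mul]; exact hh'
  have hCK : ∀ x ∈ K, x ≠ 1 → ∀ y, Commute x y → y ∈ K := by
    intro x hx x1 y hy
    obtain ⟨k, hk, h, hh, rfl⟩ := hdec y
    by_cases h1 : h = 1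
    · rw [h1, mul_one]; exact hk
    · exfalso
      obtain ⟨k1, hk1, e⟩ := hconj h hh h1 k hk
      rw [e] at hy
      have h2 : h * (k1⁻¹ * x * k1) = (k1⁻¹ * x * k1) * h := by
        have e2 : x * (k1 * h * k1⁻¹) = (k1 * h * k1⁻¹) * x := hy.eq
        calc h * (k1⁻¹ * x * k1) = k1⁻¹ * ((k1 * h * k1⁻¹) * x) * k1 := by group
          _ = k1⁻¹ * (x * (k1 * h * k1⁻¹)) * k1 := by rw [e2]
          _ = (k1⁻¹ * x * k1) * h := by group
      have h3 := hfpf h hh h1 (k1⁻¹ * x * k1) (by
        have := hKn.conj_mem x hx k1⁻¹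
        rwa [inv_inv] at this) h2
      apply x1
      calc x = k1 * (k1⁻¹ * x * k1) * k1⁻¹ := by group
        _ = 1 := by rw [h3]; group
  -- the bijection K × H ≃ G
  have hbij : Function.Bijective (fun q : K × H => (q.1 : G) * (q.2 : G)) := by
    constructor
    · rintro ⟨a, b⟩ ⟨c, d⟩ hq
      have hq' : (a : G) * b = c * d := hq
      have e1 : (c : G)⁻¹ * a = d * (b : G)⁻¹ := by
        calc (c : G)⁻¹ * a = (c : G)⁻¹ * (a * b) * (b : G)⁻¹ := by group
          _ = (c : G)⁻¹ * (c * d) * (b : G)⁻¹ := by rw [hq']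
          _ = d * (b : G)⁻¹ := by group
      have e2 : (c : G)⁻¹ * a = 1 :=
        hinter _ (K.mul_mem (K.inv_mem c.2) a.2) (e1 ▸ H.mul_mem d.2 (H.inv_mem b.2))
      have e3 : (d : G) * (b : G)⁻¹ = 1 := e1 ▸ e2
      have e4 : (c : G) = a := inv_mul_eq_one.mp e2
      have e5 : (d : G) = b := mul_inv_eq_one.mp e3
      exact Prod.ext (Subtype.ext e4.symm) (Subtype.ext e5.symm)
    · intro g
      obtain ⟨k, hk, h, hh, rfl⟩ := hdec g
      exact ⟨(⟨k, hk⟩, ⟨h, hh⟩), rfl⟩
  let e : K × H ≃ G := Equiv.ofBijective _ hbij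
  have hcardG : Nat.card G = Nat.card K * Nat.card H := by
    rw [← Nat.card_congr e, Nat.card_prod]
  have sK : (∑ k : K, Nat.card {y : G // Commute (k : G) y}) + Nat.card K
      = (∑ k : K, Nat.card {y : K // Commute k y}) + Nat.card G := by
    apply sum_adj 1
    intro k
    by_cases hk : k = 1
    · subst hk
      simp only [if_true, Subgroup.coe_one]
      rw [card_one, card_one, add_comm]
    · simp only [if_neg hk, add_zero]
      exact card_sub K k (hCK k k.2 (fun h => hk (Subtype.ext h)))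
  have sH : (∑ h : H, ∑ k : K, Nat.card {y : G // Commute ((k : G) * (h : G)) y})
        + (Nat.card K * Nat.card H + Nat.card K)
      = (∑ h : H, Nat.card K * Nat.card {y : H // Commute h y})
        + ((∑ k : K, Nat.card {y : K // Commute k y}) + Nat.card G) := by
    apply sum_adj 1
    intro h
    by_cases hh : h = 1
    · subst hh
      simp only [if_true, Subgroup.coe_one, mul_one]
      rw [card_one, ← sK]
      ring
    · simp only [if_neg hh, add_zero]
      have hh' : (h : G) ≠ 1 := fun h0 => hh (Subtype.ext h0)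
      have : ∀ k : K, Nat.card {y : G // Commute ((k : G) * (h : G)) y}
          = Nat.card {y : H // Commute h y} := by
        intro k
        obtain ⟨k1, _, e1⟩ := hconj h h.2 hh' k k.2
        rw [e1, card_conj]
        exact card_sub H h (hCH h h.2 hh')
      rw [Finset.sum_congr rfl (fun k _ => this k), Finset.sum_const, Finset.card_univ,
        smul_eq_mul, ← Nat.card_eq_fintype_card (α := ↥K)]
  have tG : Nat.card (ConjClasses G) * Nat.card G
      = ∑ h : H, ∑ k : K, Nat.card {y : G // Commute ((k : G) * (h : G)) y} := by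
    rw [← card_comm_eq_card_conjClasses_mul_card, cp_sum,
      ← Equiv.sum_comp e (fun x => Nat.card {y : G // Commute x y}), Fintype.sum_prod_type_right]
    rfl
  have tK : Nat.card (ConjClasses K) * Nat.card K = ∑ k : K, Nat.card {y : K // Commute k y} := by
    rw [← card_comm_eq_card_conjClasses_mul_card, cp_sum]
  have tH : Nat.card (ConjClasses H) * Nat.card H = ∑ h : H, Nat.card {y : H // Commute h y} := by
    rw [← card_comm_eq_card_conjClasses_mul_card, cp_sum]
  rw [← tG, ← Finset.mul_sum, ← tH, ← tK, hcardG] at sH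
  apply Nat.eq_of_mul_eq_mul_left (Nat.card_pos : 0 < Nat.card K)
  nlinarith [sH]

end Cfsg.Agent.S0172
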