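import Cfsg.Statements.S0173
import Mathlib
import Cfsg.Agent.CharLib.PermLemma

set_option autoImplicit false
open Cfsg

namespace Cfsg.Agent.S0173

/-- Brauer's permutation lemma for a single automorphism: the number of conjugacy classes mapped to themselves equals the number of irreducible complex characters χ with χ ∘ α = χ. -/
theorem result {G : Type*} [Group G] [Finite G] (α : G ≃* G) : Nat.card {C : ConjClasses G // ConjClasses.map α.toMonoidHom C = C} = Nat.card {χ : Cfsg.IrrCharacter G // (χ : G → ℂ) ∘ α = (χ : G → ℂ)} := by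
  cases nonempty_fintype G
  have key := Cfsg.Agent.CharLib.card_fixed_irr_eq_card_fixed_classes (G := G)
    (fun χ => ⟨fun g => (χ : G → ℂ) (α.toMonoidHom g),
      Cfsg.Agent.CharLib.isIrrCharacter_comp_of_surjective χ.2 α.toMonoidHom α.surjective⟩)
    (fun g => α g)
    (fun χ g => rfl)
  have e1 : Nat.card {χ : Cfsg.IrrCharacter G // (χ : G → ℂ) ∘ α = (χ : G → ℂ)} =
      Nat.card {χ : IrrCharacter G // (⟨fun g => (χ : G → ℂ) (α.toMonoidHom g),
      Cfsg.Agent.CharLib.isIrrCharacter_comp_of_surjective χ.2 α.toMonoidHom α.surjective⟩ :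
        IrrCharacter G) = χ} := by
    apply Nat.card_congr
    refine Equiv.subtypeEquivRight (fun χ => ?_)
    constructor
    · intro h
      apply Subtype.ext
      exact h
    · intro h
      exact congrArg Subtype.val h
  rw [e1, key]
  apply Nat.card_congr
  refine Equiv.subtypeEquivRight (fun C => ?_)
  constructor
  · intro h g hg
    subst hg
    exact ConjClasses.mk_eq_mk_iff_isConj.mp h
  · intro h
    obtain ⟨g, rfl⟩ := ConjClasses.mk_surjective C
    exact ConjClasses.mk_eq_mk_iff_isConj.mpr (h g rfl)

end Cfsg.Agent.S0173
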