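import Cfsg.Statements.S0181
import Mathlib
import Cfsg.Agent.CharLib.Orth

set_option autoImplicit false
open Cfsg

namespace Cfsg.Agent.S0181

/-- Let H be a normal subgroup of a finite group G and ρ an irreducible complex representation whose kernel does not contain H. If g commutes with no non-identity element of H, then the character of ρ vanishes at g. -/
theorem result {G : Type*} [Group G] [Finite G] {V : Type*} [AddCommGroup V] [Module ℂ V] [FiniteDimensional ℂ V] (ρ : Representation ℂ G V) [ρ.IsIrreducible] (H : Subgroup G) [H.Normal] (hker : ∃ h ∈ H, ρ h ≠ LinearMap.id) (g : G) (hg : ∀ h ∈ H, h * g = g * h → h = 1) : ρ.character g = 0 := by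
  classical
  cases nonempty_fintype G
  have hρ : ρ.IsIrreducible := inferInstance
  let π : G →* G ⧸ H := QuotientGroup.mk' H
  have hπ : Function.Surjective π := QuotientGroup.mk'_surjective H
  let infl : IrrCharacter (G ⧸ H) → IrrCharacter G := fun ψ =>
    ⟨fun x => (ψ : G ⧸ H → ℂ) (π x), Cfsg.Agent.CharLib.isIrrCharacter_comp_of_surjective ψ.2 π hπ⟩
  have hinj : Function.Injective infl := by
    intro ψ ψ' h
    apply Subtype.ext
    funext q
    obtain ⟨x, rfl⟩ := hπ q
    exact congrFun (congrArg Subtype.val h) x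
  let χ₀ : IrrCharacter G := ⟨ρ.character, Cfsg.Agent.CharLib.isIrrCharacter_char ρ hρ⟩
  have hχ₀ : χ₀ ∉ Finset.univ.image infl := by
    intro hmem
    obtain ⟨ψ, _, hψ⟩ := Finset.mem_image.mp hmem
    obtain ⟨h, hh, hne⟩ := hker
    apply hne
    rw [← Cfsg.Agent.CharLib.character_eq_finrank_iff, ← Representation.char_one ρ]
    have e1 : ρ.character h = (ψ : G ⧸ H → ℂ) (π h) := (congrFun (congrArg Subtype.val hψ) h).symm
    have e2 : ρ.character 1 = (ψ : G ⧸ H → ℂ) (π 1) := (congrFun (congrArg Subtype.val hψ) 1).symm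
    have e3 : π h = π 1 := by
      rw [map_one]
      exact (QuotientGroup.eq_one_iff h).mpr hh
    rw [e1, e2, e3]
  let w : IrrCharacter G → ℝ := fun χ => Complex.normSq ((χ : G → ℂ) g)
  have hw : ∑ χ : IrrCharacter G, w χ = (Nat.card (Subgroup.centralizer ({g} : Set G)) : ℝ) := by
    have h1 := Cfsg.Agent.CharLib.sum_irr_mul_conj_self g
    simp only [Complex.mul_conj] at h1
    exact_mod_cast h1
  have hw2 : ∑ ψ : IrrCharacter (G ⧸ H), w (infl ψ) =
      (Nat.card (Subgroup.centralizer ({π g} : Set (G ⧸ H))) : ℝ) := by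
    have h1 := Cfsg.Agent.CharLib.sum_irr_mul_conj_self (π g)
    simp only [Complex.mul_conj] at h1
    exact_mod_cast h1
  have hle : Nat.card (Subgroup.centralizer ({g} : Set G)) ≤
      Nat.card (Subgroup.centralizer ({π g} : Set (G ⧸ H))) := by
    let f : Subgroup.centralizer ({g} : Set G) → Subgroup.centralizer ({π g} : Set (G ⧸ H)) :=
      fun c => ⟨π c, by
        have hc := Subgroup.mem_centralizer_singleton_iff.mp c.2
        rw [Subgroup.mem_centralizer_singleton_iff, ← map_mul, ← map_mul, hc]⟩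
    apply Nat.card_le_card_of_injective f
    intro c c' hcc
    have e1 : π (c : G) = π (c' : G) := congrArg Subtype.val hcc
    have e2 : (c : G)⁻¹ * c' ∈ H := QuotientGroup.eq.mp e1
    have hc := Subgroup.mem_centralizer_singleton_iff.mp c.2
    have hc' := Subgroup.mem_centralizer_singleton_iff.mp c'.2
    have e3 : (c : G)⁻¹ * c' ∈ Subgroup.centralizer ({g} : Set G) :=
      (Subgroup.centralizer ({g} : Set G)).mul_mem
        ((Subgroup.centralizer ({g} : Set G)).inv_mem c.2) c'.2
    have e4 := Subgroup.mem_centralizer_singleton_iff.mp e3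
    have e5 := hg _ e2 e4
    apply Subtype.ext
    exact inv_mul_eq_one.mp e5
  have hsub : ∑ χ ∈ insert χ₀ (Finset.univ.image infl), w χ ≤ ∑ χ : IrrCharacter G, w χ :=
    Finset.sum_le_sum_of_subset_of_nonneg (Finset.subset_univ _)
      (fun χ _ _ => Complex.normSq_nonneg _)
  rw [Finset.sum_insert hχ₀, Finset.sum_image (fun a _ b _ h => hinj h), hw, hw2] at hsub
  have hle' : (Nat.card (Subgroup.centralizer ({g} : Set G)) : ℝ) ≤
      (Nat.card (Subgroup.centralizer ({π g} : Set (G ⧸ H))) : ℝ) := by exact_mod_cast hle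
  have h0 : w χ₀ ≤ 0 := by linarith
  have h1 : w χ₀ = 0 := le_antisymm h0 (Complex.normSq_nonneg _)
  exact Complex.normSq_eq_zero.mp h1

end Cfsg.Agent.S0181
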