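import Cfsg.Statements.S0187
import Mathlib
import Cfsg.Agent.CharLib.Orth

set_option autoImplicit false
open Cfsg

namespace Cfsg.Agent.S0187

/-- A finite group is commutative if and only if every irreducible complex character has degree 1. -/
theorem result {G : Type*} [Group G] [Finite G] : (∀ a b : G, a * b = b * a) ↔ ∀ χ : Cfsg.IrrCharacter G, (χ : G → ℂ) 1 = 1 := by
  constructor
  · intro hcomm χ
    obtain ⟨n, ρ, hρ, h⟩ := χ.2
    have : IsMulCommutative G := ⟨⟨hcomm⟩⟩
    rw [← h, Representation.char_one,
      Representation.IsIrreducible.finrank_eq_one_of_isMulCommutative ρ]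
    simp
  · intro hall
    have h1 := Cfsg.Agent.CharLib.sum_irr_sq (G := G)
    simp only [hall, one_pow, Finset.sum_const, Finset.card_univ, nsmul_eq_mul, mul_one] at h1
    have h2 : Fintype.card (IrrCharacter G) = Nat.card G := by exact_mod_cast h1
    rw [← Nat.card_eq_fintype_card, Cfsg.Agent.CharLib.card_irrCharacter] at h2
    -- the quotient map is a bijection
    have hsurj : Function.Surjective (ConjClasses.mk : G → ConjClasses G) :=
      ConjClasses.mk_surjective
    have hbij : Function.Bijective (ConjClasses.mk : G → ConjClasses G) := by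
      cases nonempty_fintype G
      have : Fintype (ConjClasses G) := Fintype.ofFinite _
      rw [Fintype.bijective_iff_surjective_and_card]
      refine ⟨hsurj, ?_⟩
      rw [← Nat.card_eq_fintype_card, ← Nat.card_eq_fintype_card, h2]
    intro a b
    have h3 : ConjClasses.mk (a * b * a⁻¹) = ConjClasses.mk b :=
      (ConjClasses.mk_eq_mk_iff_isConj.mpr (isConj_iff.mpr ⟨a, rfl⟩)).symm
    have h4 := hbij.1 h3
    calc a * b = a * b * a⁻¹ * a := by group
      _ = b * a := by rw [h4]

end Cfsg.Agent.S0187
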