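import Cfsg.Statements.S0190
import Mathlib
import Cfsg.Agent.CharLib.Ind

set_option autoImplicit false
open Cfsg

namespace Cfsg.Agent.S0190

/-- For a transitive action of a finite group on X, the permutation character g ↦ (number of fixed points of g) is the function induced from the principal character of the stabilizer of any point. -/
theorem result {G : Type*} [Group G] [Fintype G] (X : Type*) [MulAction G X] [Finite X] [MulAction.IsPretransitive G X] (x : X) : (fun g : G => (Nat.card (MulAction.fixedBy X g) : ℂ)) = Cfsg.indFun (MulAction.stabilizer G x) (fun _ => 1) := by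
  classical
  cases nonempty_fintype X
  funext g
  set S := MulAction.stabilizer G x with hS
  rw [Cfsg.Agent.CharLib.H2.indFun_apply]
  have h1 : ∀ y : G, Cfsg.extendByZero S (fun _ => (1 : ℂ)) (y⁻¹ * g * y) =
      if g • (y • x) = y • x then 1 else 0 := by
    intro y
    have hiff : y⁻¹ * g * y ∈ S ↔ g • (y • x) = y • x := by
      rw [hS, MulAction.mem_stabilizer_iff, mul_smul, mul_smul, inv_smul_eq_iff]
    by_cases h : g • (y • x) = y • x
    · rw [if_pos h, Cfsg.Agent.CharLib.H2.extendByZero_of_mem S _ (hiff.mpr h)]
    · rw [if_neg h, Cfsg.Agent.CharLib.H2.extendByZero_of_not_mem S _ (fun h' => h (hiff.mp h'))]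
  simp only [h1]
  -- fibre the sum over z = y • x
  have h2 : ∑ y : G, (if g • (y • x) = y • x then (1 : ℂ) else 0) =
      ∑ z : X, ∑ y ∈ Finset.univ.filter (fun y : G => y • x = z),
        (if g • z = z then (1 : ℂ) else 0) := by
    rw [← Finset.sum_fiberwise Finset.univ (fun y : G => y • x)]
    refine Finset.sum_congr rfl fun z _ => ?_
    refine Finset.sum_congr rfl fun y hy => ?_
    rw [(Finset.mem_filter.mp hy).2]
  have h3 : ∀ z : X, (Finset.univ.filter (fun y : G => y • x = z)).card = Nat.card S := by
    intro z
    obtain ⟨y₀, hy₀⟩ := MulAction.exists_smul_eq G x z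
    rw [Nat.card_eq_fintype_card, ← Fintype.card_subtype]
    apply Fintype.card_congr
    exact
      { toFun := fun y => ⟨y₀⁻¹ * y.1, by
          rw [hS, MulAction.mem_stabilizer_iff, mul_smul, y.2, ← hy₀, inv_smul_smul]⟩
        invFun := fun s => ⟨y₀ * s.1, by
          rw [mul_smul, MulAction.mem_stabilizer_iff.mp s.2, hy₀]⟩
        left_inv := fun y => by simp
        right_inv := fun s => by simp }
  rw [h2]
  simp only [Finset.sum_const, h3, nsmul_eq_mul]
  rw [← Finset.mul_sum, Finset.sum_boole, ← mul_assoc,
    inv_mul_cancel₀ (Cfsg.Agent.CharLib.H2.card_subgroup_ne_zero S), one_mul,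
    Nat.card_eq_fintype_card]
  congr 1
  rw [← Fintype.card_subtype]
  rfl

end Cfsg.Agent.S0190
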