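import Cfsg.Statements.S0192
import Mathlib
import Cfsg.Agent.CharLib.Orth

set_option autoImplicit false
open Cfsg

namespace Cfsg.Agent.S0192

/-- Brauer's generation criterion. Let G be a finite simple group, H₁ and H₂ subgroups, and χ a non-principal irreducible character. If the multiplicity of the principal character in χ restricted to H₁ ⊓ H₂ is less than the sum of the corresponding multiplicities for H₁ and H₂, then H₁ and H₂ do not generate G. -/
theorem result {G : Type*} [Group G] [Fintype G] [IsSimpleGroup G] (H₁ H₂ : Subgroup G) [Fintype H₁] [Fintype H₂] [Fintype ↥(H₁ ⊓ H₂)] (χ : G → ℂ) (hχ : Cfsg.IsIrrCharacter G χ) (hχ1 : χ ≠ fun _ => 1) (hlt : (Cfsg.classInner (fun x : ↥(H₁ ⊓ H₂) => χ x) (fun _ => 1)).re < (Cfsg.classInner (fun x : H₁ => χ x) (fun _ => 1)).re + (Cfsg.classInner (fun x : H₂ => χ x) (fun _ => 1)).re) : H₁ ⊔ H₂ ≠ ⊤ := by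
  classical
  intro htop
  obtain ⟨n, ρ, hρ, rfl⟩ := hχ
  -- invariants of the restriction to a subgroup
  let I : Subgroup G → Submodule ℂ (Fin n → ℂ) := fun K =>
    Representation.invariants (ρ.comp K.subtype : Representation ℂ K (Fin n → ℂ))
  have hI : ∀ (K : Subgroup G) [Fintype K],
      classInner (fun x : K => ρ.character x) (fun _ => 1) = (Module.finrank ℂ (I K) : ℂ) := by
    intro K _
    have : Invertible (Nat.card K : ℂ) :=
      invertibleOfNonzero (by exact_mod_cast Nat.card_pos.ne')
    rw [← Representation.card_inv_mul_sum_char_eq_finrank, classInner]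
    simp only [map_one, mul_one]
    rfl
  rw [hI, hI, hI] at hlt
  simp only [Complex.natCast_re] at hlt
  have hlt' : Module.finrank ℂ (I (H₁ ⊓ H₂)) < Module.finrank ℂ (I H₁) + Module.finrank ℂ (I H₂) := by
    exact_mod_cast hlt
  have hmemI : ∀ (K : Subgroup G) (v : Fin n → ℂ), v ∈ I K ↔ ∀ g ∈ K, ρ g v = v := by
    intro K v
    constructor
    · intro h g hg
      exact h ⟨g, hg⟩
    · intro h g
      exact h g g.2
  have hsup : I H₁ ⊔ I H₂ ≤ I (H₁ ⊓ H₂) := by
    apply sup_le
    · intro v hv
      rw [hmemI] at hv ⊢
      intro g hg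
      exact hv g hg.1
    · intro v hv
      rw [hmemI] at hv ⊢
      intro g hg
      exact hv g hg.2
  have hinf : I H₁ ⊓ I H₂ = ⊥ := by
    have h1 : I H₁ ⊓ I H₂ ≤ Representation.invariants ρ := by
      intro v hv
      have hv1 := (hmemI H₁ v).mp hv.1
      have hv2 := (hmemI H₂ v).mp hv.2
      let K : Subgroup G :=
        { carrier := {g | ρ g v = v}
          mul_mem' := by
            intro a b ha hb
            show ρ (a * b) v = v
            rw [map_mul, Module.End.mul_apply, hb, ha]
          one_mem' := by
            show ρ 1 v = v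
            simp
          inv_mem' := by
            intro a ha
            show ρ a⁻¹ v = v
            have ha' : ρ a v = v := ha
            calc ρ a⁻¹ v = ρ a⁻¹ (ρ a v) := by rw [ha']
              _ = v := by rw [← Module.End.mul_apply, ← map_mul, inv_mul_cancel, map_one,
                    Module.End.one_apply] }
      have hK : H₁ ⊔ H₂ ≤ K := sup_le (fun g hg => hv1 g hg) (fun g hg => hv2 g hg)
      intro g
      exact hK (by rw [htop]; trivial)
    have h2 : Module.finrank ℂ (Representation.invariants ρ) = 0 := by
      have : Invertible (Nat.card G : ℂ) :=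
        invertibleOfNonzero Cfsg.Agent.CharLib.card_ne_zero_complex
      have h3 := Cfsg.Agent.CharLib.classInner_irr_ne
        (Cfsg.Agent.CharLib.isIrrCharacter_char ρ hρ) Cfsg.Agent.CharLib.isIrrCharacter_one hχ1
      have h4 := Representation.card_inv_mul_sum_char_eq_finrank ρ
      rw [classInner] at h3
      simp only [map_one, mul_one] at h3
      rw [h3] at h4
      exact_mod_cast h4.symm
    have h3 : Representation.invariants ρ = ⊥ := Submodule.finrank_eq_zero.mp h2
    rw [h3] at h1
    exact le_bot_iff.mp h1
  have h5 := Submodule.finrank_sup_add_finrank_inf_eq (I H₁) (I H₂)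
  rw [hinf, finrank_bot, add_zero] at h5
  have h6 := Submodule.finrank_mono hsup
  omega

end Cfsg.Agent.S0192
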