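import Cfsg.Statements.S0194
import Mathlib
import Cfsg.Agent.CharLib.Clifford
import Cfsg.Agent.S0161

set_option autoImplicit false
open scoped ComplexConjugate
open Cfsg

namespace Cfsg.Agent.S0194

/-- Let G have odd order, H be a normal subgroup and θ a non-principal irreducible character of H. Then the function induced from θ is orthogonal to its complex conjugate. -/
theorem result {G : Type*} [Group G] [Fintype G] (hodd : Odd (Nat.card G)) (H : Subgroup G) [H.Normal] (θ : H → ℂ) (hθ : Cfsg.IsIrrCharacter H θ) (hθ1 : θ ≠ fun _ => 1) : Cfsg.classInner (fun g => conj (Cfsg.indFun H θ g)) (Cfsg.indFun H θ) = 0 := by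
  classical
  have hN : H.Normal := inferInstance
  have : Fintype H := Fintype.ofFinite H
  have h1 : (fun g => conj (Cfsg.indFun H θ g)) = Cfsg.indFun H (fun h => conj (θ h)) := by
    funext g
    rw [Cfsg.Agent.CharLib.H2.indFun_apply, Cfsg.Agent.CharLib.H2.indFun_apply, map_mul, map_inv₀,
      map_natCast, map_sum]
    congr 1
    refine Finset.sum_congr rfl fun x _ => ?_
    by_cases hx : x⁻¹ * g * x ∈ H
    · rw [Cfsg.Agent.CharLib.H2.extendByZero_of_mem H _ hx,
        Cfsg.Agent.CharLib.H2.extendByZero_of_mem H _ hx]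
    · rw [Cfsg.Agent.CharLib.H2.extendByZero_of_not_mem H _ hx,
        Cfsg.Agent.CharLib.H2.extendByZero_of_not_mem H _ hx, map_zero]
  rw [h1, Cfsg.Agent.CharLib.H2.classInner_indFun_indFun hN]
  apply mul_eq_zero_of_right
  apply Finset.sum_eq_zero
  intro x _
  apply Cfsg.Agent.CharLib.classInner_irr_ne (Cfsg.Agent.CharLib.isIrrCharacter_conj hθ)
    (Cfsg.Agent.CharLib.H2.isIrrCharacter_conjFun hN hθ x)
  intro hx
  -- conj θ = θ^x
  have h2 : Cfsg.Agent.CharLib.H2.conjFun hN θ (x * x) = θ := by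
    rw [← Cfsg.Agent.CharLib.H2.conjFun_conjFun, ← hx, Cfsg.Agent.CharLib.H2.conjFun_conj, ← hx]
    funext n
    simp
  have hxo : Odd (orderOf x) := Odd.of_dvd_nat hodd (orderOf_dvd_natCard x)
  obtain ⟨k, hk⟩ := hxo
  have h3 := Cfsg.Agent.CharLib.H2.conjFun_pow_of_fixed hN h2 (k + 1)
  have h4 : (x * x) ^ (k + 1) = x := by
    rw [← pow_two, ← pow_mul]
    have : 2 * (k + 1) = orderOf x + 1 := by omega
    rw [this, pow_add, pow_orderOf_eq_one, one_mul, pow_one]
  rw [h4] at h3
  rw [h3] at hx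
  have hHodd : Odd (Nat.card H) := Odd.of_dvd_nat hodd (Subgroup.card_subgroup_dvd_card H)
  apply hθ1
  exact Cfsg.Agent.S0161.result hHodd ⟨θ, hθ⟩ (fun g => Complex.conj_eq_iff_im.mp (congrFun hx g))

end Cfsg.Agent.S0194
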