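import Cfsg.Statements.S0196
import Mathlib

set_option autoImplicit false
open Cfsg

namespace Cfsg.Agent.S0196

/-- Let A be a subgroup of a finite group G that equals the centralizer of each of its non-identity elements, and let N be its normalizer. Then the index of A in N divides |A| − 1 (N/A permutes the non-identity elements of A in orbits of full length). -/
theorem result {G : Type*} [Group G] [Finite G] (A : Subgroup G) (hA : ∀ x ∈ A, x ≠ 1 → Subgroup.centralizer ({x} : Set G) = A) : (A.subgroupOf (Subgroup.normalizer (A : Set G))).index ∣ Nat.card A - 1 := by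
  classical
  set N := Subgroup.normalizer (A : Set G) with hN
  let X := {a : A // a ≠ 1}
  have hmem : ∀ (n : N) (a : A), (n : G) * a * (n : G)⁻¹ ∈ A := by
    intro n a
    exact (Subgroup.mem_normalizer_iff.mp n.2 a).mp a.2
  let act : MulAction N X :=
    { smul := fun n a => ⟨⟨(n : G) * a.1 * (n : G)⁻¹, hmem n a.1⟩, by
        intro h
        apply a.2
        have h1 : (n : G) * a.1 * (n : G)⁻¹ = 1 := congrArg Subtype.val h
        apply Subtype.ext
        have : ((a.1 : A) : G) = (n : G)⁻¹ * ((n : G) * a.1 * (n : G)⁻¹) * n := by group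
        rw [this, h1]; simp⟩
      one_smul := by
        intro a
        apply Subtype.ext; apply Subtype.ext
        show ((1 : N) : G) * a.1 * ((1 : N) : G)⁻¹ = a.1
        simp
      mul_smul := by
        intro m n a
        apply Subtype.ext; apply Subtype.ext
        show ((m * n : N) : G) * a.1 * ((m * n : N) : G)⁻¹ =
          (m : G) * ((n : G) * a.1 * (n : G)⁻¹) * (m : G)⁻¹
        simp [mul_assoc] }
  have hstab : ∀ a : X, MulAction.stabilizer N a = A.subgroupOf N := by
    intro a
    ext n
    rw [MulAction.mem_stabilizer_iff, Subgroup.mem_subgroupOf]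
    have ha1 : ((a.1 : A) : G) ≠ 1 := fun h => a.2 (Subtype.ext h)
    have hC := hA a.1 a.1.2 ha1
    constructor
    · intro h
      have h1 : (n : G) * a.1 * (n : G)⁻¹ = a.1 := congrArg (fun x : X => ((x.1 : A) : G)) h
      rw [← hC, Subgroup.mem_centralizer_singleton_iff]
      calc (n : G) * a.1 = ((n : G) * a.1 * (n : G)⁻¹) * n := by group
        _ = a.1 * n := by rw [h1]
    · intro h
      rw [← hC, Subgroup.mem_centralizer_singleton_iff] at h
      apply Subtype.ext; apply Subtype.ext
      show (n : G) * a.1 * (n : G)⁻¹ = a.1
      rw [h]; group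
  have hcard : Nat.card X = Nat.card A - 1 := by
    have : Fintype A := Fintype.ofFinite A
    rw [Nat.card_eq_fintype_card, Nat.card_eq_fintype_card, Fintype.card_subtype_compl,
      Fintype.card_subtype_eq]
  have : Fintype (MulAction.orbitRel.Quotient N X) := Fintype.ofFinite _
  rw [← hcard, Nat.card_congr (MulAction.selfEquivSigmaOrbits N X), Nat.card_sigma]
  apply Finset.dvd_sum
  intro ω _
  rw [Nat.card_coe_set_eq, ← MulAction.index_stabilizer, hstab]

end Cfsg.Agent.S0196
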