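import Cfsg.Statements.S0201
import Cfsg.Agent.Lib.Helper8.ZS10
import Cfsg.Agent.Lib.Helper8.Fus
import Cfsg.Agent.Lib.Helper2.GenQuat

set_option autoImplicit false
open Cfsg

namespace Cfsg.Agent.S0201

/-- Brauer–Suzuki Theorem: if a Sylow 2-subgroup of a finite group is generalized quaternion (of order at least 8) and the group has no nontrivial normal subgroup of odd order, then its centre has order 2. -/
theorem result {G : Type*} [Group G] [Finite G] (S : Sylow 2 G) (n : ℕ) (e : (S : Subgroup G) ≃* QuaternionGroup (2 ^ (n + 1))) (hO : ∀ N : Subgroup G, N.Normal → Odd (Nat.card N) → N = ⊥) : Nat.card (Subgroup.center G) = 2 := by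
  classical
  haveI : Fact (Nat.Prime 2) := ⟨Nat.prime_two⟩
  have hm0 : (2 ^ (n + 1) : ℕ) ≠ 0 := by positivity
  haveI : NeZero (2 ^ (n + 1) : ℕ) := ⟨hm0⟩
  obtain ⟨α, β, h⟩ := Cfsg.Agent.Lib.Helper2.exists_GQ (S : Subgroup G) (2 ^ (n + 1)) e
  set m := 2 ^ (n + 1) with hm
  have hm2 : 2 ≤ m := by
    rw [hm, pow_succ]
    have : 1 ≤ 2 ^ n := Nat.one_le_two_pow
    omega
  set t := α ^ m with ht
  have hot : orderOf t = 2 := h.orderOf_pow_m hm0
  have htS : t ∈ S := (S : Subgroup G).pow_mem h.hα m
  have hiso : ∀ g : G, g * t * g⁻¹ ∈ S → g * t * g⁻¹ = t := by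
    intro g hg
    apply h.eq_of_orderOf_eq_two hm0 hg
    have := orderOf_injective (MulAut.conj g).toMonoidHom (MulAut.conj g).injective t
    simpa [hot] using this
  have hI := Cfsg.Agent.Lib.Helper8.ZS.iso_of_sylow S t hot hiso
  have hcore : pPrimeCore 2 G = ⊥ := hO _ (Cfsg.Agent.Lib.Helper8.ZS.pPrimeCore_two_normal G)
    (Cfsg.Agent.Lib.Helper8.ZS.odd_card_pPrimeCore_two G)
  have htc : t ∈ Subgroup.center G := by
    rw [Subgroup.mem_center_iff]
    intro g
    have h1 := Cfsg.Agent.Lib.Helper8.ZS.zstar hI g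
    rw [hcore, Subgroup.mem_bot] at h1
    have h2 : t * g = g * t := by
      have := congrArg (· * g * t) h1
      simpa [mul_assoc] using this
    exact h2.symm
  have key : ∀ z ∈ Subgroup.center G, z ∈ Subgroup.zpowers t := by
    intro z hz
    have hzc : ∀ g : G, g * z = z * g := fun g => Subgroup.mem_center_iff.mp hz g
    -- `z` is a 2-element
    obtain ⟨a, k, hk, hak⟩ := Nat.exists_eq_two_pow_mul_odd (orderOf_pos z).ne'
    have hw : z ^ (2 ^ a) = 1 := by
      have hn : (Subgroup.zpowers (z ^ (2 ^ a))).Normal := by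
        constructor
        intro x hx g
        obtain ⟨j, rfl⟩ := Subgroup.mem_zpowers_iff.mp hx
        have hc : Commute g z := hzc g
        have : g * (z ^ 2 ^ a) ^ j * g⁻¹ = (z ^ 2 ^ a) ^ j := by
          rw [((hc.pow_right _).zpow_right j).eq, mul_inv_cancel_right]
        rw [this]; exact hx
      have hodd : Odd (Nat.card (Subgroup.zpowers (z ^ (2 ^ a)))) := by
        rw [Nat.card_zpowers, orderOf_pow_of_dvd (by positivity) (by rw [hak]; exact Dvd.intro _ rfl),
          hak, Nat.mul_div_cancel_left _ (by positivity)]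
        exact hk
      have := hO _ hn hodd
      rw [Subgroup.zpowers_eq_bot] at this
      exact this
    obtain ⟨j, -, hj⟩ := (Nat.dvd_prime_pow Nat.prime_two).mp (orderOf_dvd_of_pow_eq_one hw)
    obtain ⟨c, hc⟩ := Cfsg.Agent.Lib.Helper8.exists_conj_mem_sylow S hj
    have hzS : z ∈ S := by
      rwa [hzc c, mul_inv_cancel_right] at hc
    have hzα : z ∈ Subgroup.zpowers α := by
      by_contra hcon
      have h1 := h.conj_of_not_mem hzS hcon (Subgroup.mem_zpowers α)
      rw [← hzc α, mul_inv_cancel_right] at h1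
      have h2 : α ^ 2 = 1 := by
        rw [pow_two]
        nth_rewrite 1 [h1]
        exact inv_mul_cancel α
      have h3 := orderOf_dvd_of_pow_eq_one h2
      rw [h.ord] at h3
      have := Nat.le_of_dvd (by norm_num) h3
      omega
    have h1 := h.conj_beta hzα
    rw [hzc β, mul_inv_cancel_right] at h1
    have h2 : z * z = 1 := by
      nth_rewrite 1 [h1]
      exact inv_mul_cancel z
    by_cases hz1 : z = 1
    · rw [hz1]; exact Subgroup.one_mem _
    · have := h.eq_of_orderOf_eq_two hm0 hzS (Cfsg.Agent.Lib.Helper8.ZS.orderOf_eq_two_of h2 hz1)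
      rw [this]; exact Subgroup.mem_zpowers _
  have heq : Subgroup.center G = Subgroup.zpowers t :=
    le_antisymm key ((Subgroup.zpowers_le).mpr htc)
  rw [heq, Nat.card_zpowers, hot]

end Cfsg.Agent.S0201
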