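import Cfsg.Statements.S0203
import Mathlib
import Cfsg.Agent.Lib.Helper2.KleinSylow

set_option autoImplicit false
open Cfsg

namespace Cfsg.Agent.S0203

/-- If a Sylow 2-subgroup P of a finite group G is a Klein four-group, then G has three classes of involutions if and only if P has a normal complement in G. -/
theorem result {G : Type*} [Group G] [Finite G] (P : Sylow 2 G) (hP : IsKleinFour (P : Subgroup G)) : Nat.card {C : ConjClasses G // ∃ t : G, orderOf t = 2 ∧ ConjClasses.mk t = C} = 3 ↔ ∃ N : Subgroup G, N.Normal ∧ Subgroup.IsComplement' N (P : Subgroup G) := by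
  have : Fact (Nat.Prime 2) := ⟨Nat.prime_two⟩
  constructor
  · intro h3
    rcases Cfsg.Agent.Lib.Helper2.klein_classes P hP with ⟨-, h⟩ | ⟨hinj, -⟩
    · rw [h] at h3; omega
    · have hNC : Subgroup.normalizer (P : Set G) ≤ Subgroup.centralizer (P : Set G) := by
        intro n hn
        rw [Subgroup.mem_centralizer_iff]
        intro h hh
        have h1 : n * h * n⁻¹ ∈ P := (Subgroup.mem_normalizer_iff.mp hn h).mp hh
        have h2 := hinj h hh _ h1 (isConj_iff.mpr ⟨n, rfl⟩)
        exact (mul_inv_eq_iff_eq_mul.mp h2.symm).symm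
      exact ⟨(MonoidHom.transferSylow P hNC).ker, inferInstance,
        MonoidHom.ker_transferSylow_isComplement' P hNC⟩
  · rintro ⟨N, hN, hc⟩
    rcases Cfsg.Agent.Lib.Helper2.klein_classes P hP with ⟨⟨a, b, ha, hb, hab, hconj⟩, -⟩ | ⟨-, h⟩
    · exfalso
      apply hab
      obtain ⟨g, hg⟩ := isConj_iff.mp hconj
      obtain ⟨⟨n, p⟩, hnp, -⟩ := Subgroup.isComplement_iff_existsUnique.mp hc g
      simp only at hnp
      have h1 : (p : G) * a * (p : G)⁻¹ = a := by
        rw [Cfsg.Agent.Lib.Helper2.klein_comm hP p.2 ha, mul_inv_cancel_right]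
      have h2 : (n : G) * a * (n : G)⁻¹ = b := by
        rw [← hg, ← hnp]
        calc (n : G) * a * (n : G)⁻¹ = (n : G) * ((p : G) * a * (p : G)⁻¹) * (n : G)⁻¹ := by rw [h1]
          _ = _ := by group
      have h3 : b * a⁻¹ ∈ N := by
        rw [← h2]
        have : (n : G) * a * (n : G)⁻¹ * a⁻¹ = (n : G) * (a * (n : G)⁻¹ * a⁻¹) := by group
        rw [this]
        exact N.mul_mem n.2 (hN.conj_mem _ (N.inv_mem n.2) a)
      have h4 : b * a⁻¹ ∈ (P : Subgroup G) := mul_mem hb (inv_mem ha)
      have h5 : b * a⁻¹ ∈ N ⊓ (P : Subgroup G) := ⟨h3, h4⟩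
      rw [hc.disjoint.eq_bot, Subgroup.mem_bot] at h5
      exact (mul_inv_eq_one.mp h5).symm
    · exact h

end Cfsg.Agent.S0203
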