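import Cfsg.Statements.S0211
import Mathlib
import Cfsg.Agent.Lib.Helper2.Dihedral

set_option autoImplicit false
open Cfsg

namespace Cfsg.Agent.S0211

/-- Let x, y be involutions with xy of even order n and z = (xy)^(n/2). Then xz is conjugate to x by an element of the subgroup generated by x, y if and only if 4 divides n. -/
theorem result {G : Type*} [Group G] [Finite G] (x y : G) (hx : orderOf x = 2) (hy : orderOf y = 2) (heven : Even (orderOf (x * y))) : (∃ d ∈ Subgroup.closure ({x, y} : Set G), d * x * d⁻¹ = x * (x * y) ^ (orderOf (x * y) / 2)) ↔ 4 ∣ orderOf (x * y) := by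
  have hx2 := Cfsg.Agent.Lib.Helper2.sq_eq_one_of_orderOf_two hx
  have hy2 := Cfsg.Agent.Lib.Helper2.sq_eq_one_of_orderOf_two hy
  obtain ⟨m, hm⟩ := heven
  have hpos : 0 < orderOf (x * y) := orderOf_pos _
  have hdiv : orderOf (x * y) / 2 = m := by omega
  rw [hdiv]
  have hz2 : (x * y) ^ m * (x * y) ^ m = 1 := by
    rw [← pow_add, ← hm, pow_orderOf_eq_one]
  have hzinv : ((x * y) ^ m)⁻¹ = (x * y) ^ m := inv_eq_of_mul_eq_one_left hz2
  have hxz : x * (x * y) ^ m = (x * y) ^ (m : ℤ) * x := by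
    have h1 := Cfsg.Agent.Lib.Helper2.x_mul_zpow hx2 hy2 (m : ℤ)
    rw [zpow_natCast, hzinv] at h1
    rw [zpow_natCast]
    exact h1
  rw [hxz]
  constructor
  · rintro ⟨d, hd, hdx⟩
    obtain ⟨k, hk⟩ := Cfsg.Agent.Lib.Helper2.conj_x_of_mem hx2 hy2 hd
    rw [hdx] at hk
    have h2 : (x * y) ^ (m : ℤ) = (x * y) ^ (2 * k) := mul_right_cancel hk
    have h3 : (x * y) ^ (2 * k - m) = 1 := by
      rw [zpow_sub, ← h2, mul_inv_cancel]
    have h4 := orderOf_dvd_iff_zpow_eq_one.mpr h3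
    rw [hm] at h4 ⊢
    obtain ⟨c, hc⟩ := h4
    push_cast at hc
    have h5 : (2 : ℤ) ∣ m := ⟨k - c * m, by linarith⟩
    obtain ⟨t, ht⟩ := h5
    have h6 : (4 : ℤ) ∣ ((m + m : ℕ) : ℤ) := ⟨t, by push_cast; linarith⟩
    exact_mod_cast h6
  · rintro ⟨c, hc⟩
    refine ⟨(x * y) ^ (c : ℤ), ?_, ?_⟩
    · exact (Cfsg.Agent.Lib.Helper2.mem_closure_pair_iff hx2 hy2 _).mpr ⟨c, Or.inl rfl⟩
    · rw [Cfsg.Agent.Lib.Helper2.conj_zpow_x hx2 hy2]
      have : (2 * (c : ℤ)) = (m : ℤ) := by omega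
      rw [this]

end Cfsg.Agent.S0211
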