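import Cfsg.Statements.S0212
import Mathlib
import Cfsg.Agent.Lib.Helper2.BrauerFowler

set_option autoImplicit false
open Cfsg

namespace Cfsg.Agent.S0212

/-- The Brauer–Fowler bound: if G is a finite simple group and t an involution of G whose centralizer has order n, then |G| ≤ (2n^2)!. -/
theorem result {G : Type*} [Group G] [Finite G] [IsSimpleGroup G] (t : G) (ht : orderOf t = 2) : Nat.card G ≤ Nat.factorial (2 * (Nat.card (Subgroup.centralizer ({t} : Set G))) ^ 2) := by
  set n := Nat.card (Subgroup.centralizer ({t} : Set G)) with hn
  have hnpos : 0 < n := Nat.card_pos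
  have heven : Even (Nat.card G) := by
    rw [even_iff_two_dvd, ← ht]; exact orderOf_dvd_natCard t
  rcases (inferInstance : (Subgroup.center G).Normal).eq_bot_or_eq_top with hc | hc
  · have hZ : Odd (Nat.card (Subgroup.center G)) := by
      rw [hc, Subgroup.card_bot]; exact odd_one
    obtain ⟨H, hH, h⟩ := Cfsg.Agent.Lib.Helper2.brauerFowler_index heven hZ
    have hle := Cfsg.Agent.Lib.Helper2.card_le_factorial_index H hH
    refine hle.trans (Nat.factorial_le ?_)
    rcases h with h | h
    · rw [h]; nlinarith
    · have hmn := Cfsg.Agent.Lib.Helper2.card_le_involutions_mul_centralizer t ht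
      rw [← hn] at hmn
      set m := Nat.card {t : G // orderOf t = 2} with hm
      set g := Nat.card G with hg
      have hgpos : 0 < g := Nat.card_pos
      have hmpos : 0 < m := by
        rcases Nat.eq_zero_or_pos m with h0 | h0
        · rw [h0] at hmn; omega
        · exact h0
      have h1 : g ^ 2 + g * m ≤ (m * n) ^ 2 + (m * n) * m := by
        have := Nat.pow_le_pow_left hmn 2
        have := Nat.mul_le_mul_right m hmn
        omega
      have h2 : m ^ 2 * (2 * H.index) < m ^ 2 * (n * (n + 1)) := by nlinarith
      have h3 : 2 * H.index < n * (n + 1) := Nat.lt_of_mul_lt_mul_left h2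
      nlinarith
  · have : Subgroup.centralizer ({t} : Set G) = ⊤ := by
      rw [Subgroup.centralizer_eq_top_iff_subset, hc]
      exact Set.subset_univ _
    have hng : n = Nat.card G := by rw [hn, this, Subgroup.card_top]
    rw [← hng]
    calc n ≤ 2 * n ^ 2 := by nlinarith
      _ ≤ Nat.factorial (2 * n ^ 2) := Nat.self_le_factorial _

end Cfsg.Agent.S0212
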