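import Cfsg.Statements.S0213
import Mathlib
import Cfsg.Agent.Lib.Helper2.Dihedral
import Cfsg.Agent.Lib.Helper2.CyclicInv
import Cfsg.Agent.S0208
import Cfsg.Agent.S0209
import Cfsg.Agent.CharLib.Orth

set_option autoImplicit false
open Cfsg

namespace Cfsg.Agent.S0213

/-- Thompson Order Formula, two-class case: if every involution of the finite group G is conjugate to exactly one of the non-conjugate involutions x₁, x₂, and nᵢ is the number of pairs (u, v) with u conjugate to x₁, v conjugate to x₂ and xᵢ in the cyclic group generated by uv, then |G| = |C(x₂)| n₁ + |C(x₁)| n₂. -/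
theorem result {G : Type*} [Group G] [Finite G] (x₁ x₂ : G) (h₁ : orderOf x₁ = 2) (h₂ : orderOf x₂ = 2) (hnc : ¬ IsConj x₁ x₂) (hall : ∀ t : G, orderOf t = 2 → IsConj x₁ t ∨ IsConj x₂ t) : Nat.card G = Nat.card (Subgroup.centralizer ({x₂} : Set G)) * Nat.card {p : G × G // IsConj x₁ p.1 ∧ IsConj x₂ p.2 ∧ x₁ ∈ Subgroup.zpowers (p.1 * p.2)} + Nat.card (Subgroup.centralizer ({x₁} : Set G)) * Nat.card {p : G × G // IsConj x₁ p.1 ∧ IsConj x₂ p.2 ∧ x₂ ∈ Subgroup.zpowers (p.1 * p.2)} := by
  classical
  have := Fintype.ofFinite G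
  set n : G → ℕ := fun z => Nat.card {p : G × G // IsConj x₁ p.1 ∧ IsConj x₂ p.2 ∧
    z ∈ Subgroup.zpowers (p.1 * p.2)} with hn
  change Nat.card G = Nat.card (Subgroup.centralizer ({x₂} : Set G)) * n x₁ +
    Nat.card (Subgroup.centralizer ({x₁} : Set G)) * n x₂
  have hord : ∀ (x : G), orderOf x = 2 → ∀ y, IsConj x y → orderOf y = 2 := by
    intro x hx y hxy
    obtain ⟨g, rfl⟩ := isConj_iff.mp hxy
    have := orderOf_injective (MulAut.conj g).toMonoidHom (MulAut.conj g).injective x
    rw [← hx, ← this]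
    simp
  -- invariance of n under conjugation
  have hN : ∀ z z' : G, IsConj z z' → n z = n z' := by
    intro z z' hzz
    obtain ⟨g, rfl⟩ := isConj_iff.mp hzz
    apply Nat.card_congr
    refine Equiv.subtypeEquiv
      (Equiv.prodCongr (MulAut.conj g).toEquiv (MulAut.conj g).toEquiv) ?_
    rintro ⟨u, v⟩
    simp only [Equiv.prodCongr_apply, Prod.map_apply, MulEquiv.toEquiv_eq_coe, EquivLike.coe_coe,
      MulAut.conj_apply]
    have e1 : ∀ x w : G, IsConj x w ↔ IsConj x (g * w * g⁻¹) := by
      intro x w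
      have hw : IsConj w (g * w * g⁻¹) := isConj_iff.mpr ⟨g, rfl⟩
      exact ⟨fun h => h.trans hw, fun h => h.trans hw.symm⟩
    have e2 : z ∈ Subgroup.zpowers (u * v) ↔
        g * z * g⁻¹ ∈ Subgroup.zpowers (g * u * g⁻¹ * (g * v * g⁻¹)) := by
      have : g * u * g⁻¹ * (g * v * g⁻¹) = g * (u * v) * g⁻¹ := by group
      rw [this, Subgroup.mem_zpowers_iff, Subgroup.mem_zpowers_iff]
      constructor
      · rintro ⟨k, rfl⟩
        exact ⟨k, conj_zpow⟩
      · rintro ⟨k, hk⟩
        refine ⟨k, ?_⟩
        rw [conj_zpow] at hk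
        exact mul_left_cancel (mul_right_cancel hk)
    rw [← e1, ← e1, ← e2]
  set A := Finset.univ.filter (fun b : G => IsConj x₁ b) with hA
  set B := Finset.univ.filter (fun b : G => IsConj x₂ b) with hB
  have hAcard : A.card = (Subgroup.centralizer ({x₁} : Set G)).index := by
    rw [← Cfsg.Agent.CharLib.card_isConj_eq_index]
    symm
    apply Nat.subtype_card
    intro x
    simp [hA]
  have hBcard : B.card = (Subgroup.centralizer ({x₂} : Set G)).index := by
    rw [← Cfsg.Agent.CharLib.card_isConj_eq_index]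
    symm
    apply Nat.subtype_card
    intro x
    simp [hB]
  have hdisj : Disjoint A B := by
    rw [Finset.disjoint_left]
    intro z hzA hzB
    simp only [hA, hB, Finset.mem_filter, Finset.mem_univ, true_and] at hzA hzB
    exact hnc (hzA.trans hzB.symm)
  set f : G × G → G := fun p => (p.1 * p.2) ^ (orderOf (p.1 * p.2) / 2) with hf
  have hfinv : ∀ p ∈ A ×ˢ B, orderOf (f p) = 2 := by
    rintro ⟨u, v⟩ hp
    simp only [hA, hB, Finset.mem_product, Finset.mem_filter, Finset.mem_univ, true_and] at hp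
    have hu := hord x₁ h₁ u hp.1
    have hv := hord x₂ h₂ v hp.2
    have heven : Even (orderOf (u * v)) := by
      rw [← Nat.not_odd_iff_even]
      intro hodd
      obtain ⟨d, -, hd⟩ := Cfsg.Agent.S0208.result u v hu hv hodd
      exact hnc ((hp.1.trans (isConj_iff.mpr ⟨d, hd⟩)).trans hp.2.symm)
    exact (Cfsg.Agent.S0209.result u v hu hv heven).1
  have hmaps : ∀ p ∈ A ×ˢ B, f p ∈ A ∪ B := by
    intro p hp
    simp only [hA, hB, Finset.mem_union, Finset.mem_filter, Finset.mem_univ, true_and]
    exact hall _ (hfinv p hp)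
  have hfib : ∀ z ∈ A ∪ B, ((A ×ˢ B).filter (fun p => f p = z)).card = n z := by
    intro z hz
    have hz2 : orderOf z = 2 := by
      simp only [hA, hB, Finset.mem_union, Finset.mem_filter, Finset.mem_univ, true_and] at hz
      rcases hz with hz | hz
      · exact hord x₁ h₁ z hz
      · exact hord x₂ h₂ z hz
    symm
    apply Nat.subtype_card
    intro p
    rw [Finset.mem_filter]
    constructor
    · rintro ⟨hp, hfp⟩
      have hp' := hp
      simp only [hA, hB, Finset.mem_product, Finset.mem_filter, Finset.mem_univ, true_and] at hp'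
      refine ⟨hp'.1, hp'.2, ?_⟩
      rw [← hfp]
      exact Subgroup.npow_mem_zpowers _ _
    · rintro ⟨hp1, hp2, hz⟩
      have hp : p ∈ A ×ˢ B := by
        simp only [hA, hB, Finset.mem_product, Finset.mem_filter, Finset.mem_univ, true_and]
        exact ⟨hp1, hp2⟩
      refine ⟨hp, ?_⟩
      have hfm : f p ∈ Subgroup.zpowers (p.1 * p.2) := Subgroup.npow_mem_zpowers _ _
      have o1 : orderOf (⟨f p, hfm⟩ : Subgroup.zpowers (p.1 * p.2)) = 2 := by
        rw [Subgroup.orderOf_mk]; exact hfinv p hp
      have o2 : orderOf (⟨z, hz⟩ : Subgroup.zpowers (p.1 * p.2)) = 2 := by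
        rw [Subgroup.orderOf_mk]; exact hz2
      exact congrArg Subtype.val (Cfsg.Agent.Lib.Helper2.eq_of_orderOf_two_of_isCyclic o1 o2)
  have hcount : A.card * B.card = A.card * n x₁ + B.card * n x₂ := by
    rw [← Finset.card_product, Finset.card_eq_sum_card_fiberwise hmaps,
      Finset.sum_congr rfl hfib, Finset.sum_union hdisj]
    congr 1
    · rw [Finset.sum_congr rfl (g := fun _ => n x₁), Finset.sum_const, smul_eq_mul]
      intro z hz
      simp only [hA, Finset.mem_filter, Finset.mem_univ, true_and] at hz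
      exact (hN _ _ hz).symm
    · rw [Finset.sum_congr rfl (g := fun _ => n x₂), Finset.sum_const, smul_eq_mul]
      intro z hz
      simp only [hB, Finset.mem_filter, Finset.mem_univ, true_and] at hz
      exact (hN _ _ hz).symm
  have i1 := (Subgroup.centralizer ({x₁} : Set G)).index_mul_card
  have i2 := (Subgroup.centralizer ({x₂} : Set G)).index_mul_card
  rw [← hAcard] at i1
  rw [← hBcard] at i2
  set c₁ := Nat.card (Subgroup.centralizer ({x₁} : Set G))
  set c₂ := Nat.card (Subgroup.centralizer ({x₂} : Set G))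
  set g := Nat.card G
  have hgpos : 0 < g := Nat.card_pos
  have hfinal : g * g = g * (c₂ * n x₁ + c₁ * n x₂) := by
    calc g * g = (A.card * c₁) * (B.card * c₂) := by rw [i1, i2]
      _ = (A.card * B.card) * (c₁ * c₂) := by ring
      _ = (A.card * n x₁ + B.card * n x₂) * (c₁ * c₂) := by rw [hcount]
      _ = (A.card * c₁) * (c₂ * n x₁) + (B.card * c₂) * (c₁ * n x₂) := by ring
      _ = g * (c₂ * n x₁ + c₁ * n x₂) := by rw [i1, i2]; ring
  exact Nat.eq_of_mul_eq_mul_left hgpos hfinal

end Cfsg.Agent.S0213
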