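import Cfsg.Statements.S0216
import Mathlib
import Cfsg.Agent.Lib.Helper2.Isolated

set_option autoImplicit false
open Cfsg

namespace Cfsg.Agent.S0216

/-- For an involution u in a Sylow 2-subgroup P of a finite group G, the following are equivalent: no G-conjugate of u other than u lies in P; every commutator of u with an element of G has odd order. -/
theorem result {G : Type*} [Group G] [Finite G] (P : Sylow 2 G) (u : G) (hu : orderOf u = 2) (huP : u ∈ P) : (∀ g : G, g * u * g⁻¹ ∈ P → g * u * g⁻¹ = u) ↔ (∀ g : G, Odd (orderOf (u * g * u⁻¹ * g⁻¹))) := by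
  have hu2 := Cfsg.Agent.Lib.Helper2.sq_eq_one_of_orderOf_two hu
  have hui := Cfsg.Agent.Lib.Helper2.inv_eq_self_of_orderOf_two hu
  constructor
  · intro hiso g
    have := Cfsg.Agent.Lib.Helper2.isolated_odd hu2 hiso (isConj_iff.mpr ⟨g, rfl⟩)
    rw [hui]
    rwa [← mul_assoc, ← mul_assoc] at this
  · intro hodd g hg
    have h1 := hodd g
    have hmem : u * g * u⁻¹ * g⁻¹ ∈ P := by
      have := mul_mem huP hg
      rw [hui]
      rwa [← mul_assoc, ← mul_assoc] at this
    obtain ⟨k, hk⟩ := P.2 ⟨_, hmem⟩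
    have hk' : (u * g * u⁻¹ * g⁻¹) ^ (2 ^ k) = 1 := congrArg Subtype.val hk
    have h2 : orderOf (u * g * u⁻¹ * g⁻¹) ∣ 2 ^ k := orderOf_dvd_of_pow_eq_one hk'
    have h3 : Nat.Coprime (orderOf (u * g * u⁻¹ * g⁻¹)) (2 ^ k) :=
      Nat.Coprime.pow_right k (Nat.coprime_two_right.mpr h1)
    have h4 := Nat.Coprime.eq_one_of_dvd h3 h2
    rw [orderOf_eq_one_iff, hui] at h4
    have h5 : u * (g * u * g⁻¹) = 1 := by rw [← h4]; group
    exact (eq_inv_of_mul_eq_one_right h5).trans hui

end Cfsg.Agent.S0216
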