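import Cfsg.Statements.S0220
import Mathlib
import Cfsg.Agent.Lib.Helper2.IndexTwo
import Cfsg.Agent.Lib.Helper2.CyclicInv
import Cfsg.Agent.Lib.Helper2.Dihedral

set_option autoImplicit false
open Cfsg

namespace Cfsg.Agent.S0220

theorem aux {G : Type*} [Group G] [Finite G] (x : G) (hx : orderOf x = 2) (C : Subgroup G)
    (hC : C = Subgroup.centralizer ({x} : Set G)) (S : Sylow 2 ↥C)
    (hS : IsCyclic (S : Subgroup ↥C)) : ∃ H : Subgroup G, H.index = 2 := by
  classical
  have : Fact (Nat.Prime 2) := ⟨Nat.prime_two⟩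
  have hxC : x ∈ C := by rw [hC]; exact Subgroup.mem_centralizer_singleton_iff.mpr rfl
  have hcomm : ∀ c ∈ C, c * x = x * c := fun c hc => Subgroup.mem_centralizer_singleton_iff.mp (hC ▸ hc)
  set S' : Subgroup G := (S : Subgroup C).map C.subtype with hS'
  have hS'p : IsPGroup 2 S' := S.2.map _
  obtain ⟨T, hT⟩ := hS'p.exists_le_sylow
  have hmax : (T : Subgroup G).subgroupOf C = S := by
    apply S.is_maximal' (T.2.comap_subtype)
    exact Subgroup.map_le_iff_le_comap.mp hT
  -- x lies in S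
  have hxS : (⟨x, hxC⟩ : C) ∈ (S : Subgroup C) := by
    set X : Subgroup C := Subgroup.zpowers ⟨x, hxC⟩ with hX
    have hXn : X.Normal := by
      refine ⟨fun n hn g => ?_⟩
      obtain ⟨k, rfl⟩ := hn
      have h1 : Commute g (⟨x, hxC⟩ : C) := Subtype.ext (hcomm g.1 g.2)
      have h2 : g * (⟨x, hxC⟩ : C) ^ k * g⁻¹ = (⟨x, hxC⟩ : C) ^ k := by
        rw [mul_inv_eq_iff_eq_mul]; exact (h1.zpow_right k).eq
      simp only at h2 ⊢
      rw [h2]
      exact Subgroup.zpow_mem_zpowers _ _
    have hXp : IsPGroup 2 X := by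
      apply IsPGroup.of_card (n := 1)
      rw [hX, Nat.card_zpowers, pow_one, ← hx]
      exact Subgroup.orderOf_mk x hxC
    have h3 := S.is_maximal' (S.2.to_sup_of_normal_right hXp) le_sup_left
    rw [← h3]
    exact Subgroup.mem_sup_right (Subgroup.mem_zpowers _)
  have hxT : x ∈ (T : Subgroup G) := hT ⟨⟨x, hxC⟩, hxS, rfl⟩
  have hx1 : x ≠ 1 := Cfsg.Agent.Lib.Helper2.ne_one_of_orderOf_two hx
  have : Nontrivial (T : Subgroup G) := ⟨⟨⟨x, hxT⟩, 1, fun h => hx1 (congrArg Subtype.val h)⟩⟩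
  have hcn : Nontrivial (Subgroup.center (T : Subgroup G)) := T.2.center_nontrivial
  have hcp : IsPGroup 2 (Subgroup.center (T : Subgroup G)) := T.2.to_subgroup _
  have h2dvd : 2 ∣ Nat.card (Subgroup.center (T : Subgroup G)) := by
    rcases hcp.card_eq_or_dvd with h | h
    · exfalso
      have := (Nat.card_eq_one_iff_unique.mp h).1
      exact not_subsingleton _ this
    · exact h
  obtain ⟨z, hz⟩ := exists_prime_orderOf_dvd_card' 2 h2dvd
  have hz2 : orderOf (z.1.1 : G) = 2 := by
    rw [Subgroup.orderOf_coe, Subgroup.orderOf_coe, hz]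
  have hzc : ∀ t ∈ (T : Subgroup G), t * z.1.1 = z.1.1 * t := by
    intro t ht
    have := Subgroup.mem_center_iff.mp z.2 ⟨t, ht⟩
    exact congrArg Subtype.val this
  have hzC : z.1.1 ∈ C := by
    rw [hC]; exact Subgroup.mem_centralizer_singleton_iff.mpr (hzc x hxT).symm
  have hzS : (⟨z.1.1, hzC⟩ : C) ∈ (S : Subgroup C) := by
    rw [← hmax, Subgroup.mem_subgroupOf]
    exact z.1.2
  have hzx : z.1.1 = x := by
    have h1 : orderOf (⟨⟨z.1.1, hzC⟩, hzS⟩ : (S : Subgroup C)) = 2 := by
      rw [← Subgroup.orderOf_coe, ← Subgroup.orderOf_coe]; exact hz2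
    have h2 : orderOf (⟨⟨x, hxC⟩, hxS⟩ : (S : Subgroup C)) = 2 := by
      rw [← Subgroup.orderOf_coe, ← Subgroup.orderOf_coe]; exact hx
    have := Cfsg.Agent.Lib.Helper2.eq_of_orderOf_two_of_isCyclic h1 h2
    exact congrArg (fun w : (S : Subgroup C) => (w.1.1 : G)) this
  have hTC : (T : Subgroup G) ≤ C := by
    intro t ht
    rw [hC, Subgroup.mem_centralizer_singleton_iff, ← hzx]
    exact hzc t ht
  have hTS : S' = (T : Subgroup G) := by
    apply le_antisymm hT
    intro t ht
    have : (⟨t, hTC ht⟩ : C) ∈ (S : Subgroup C) := by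
      rw [← hmax, Subgroup.mem_subgroupOf]; exact ht
    exact ⟨⟨t, hTC ht⟩, this, rfl⟩
  have hcyc : IsCyclic S' :=
    isCyclic_of_surjective _ (C.subtype.subgroupMap_surjective (S : Subgroup C))
  have heven : Even (Nat.card G) := by
    rw [even_iff_two_dvd, ← hx]; exact orderOf_dvd_natCard x
  exact Cfsg.Agent.Lib.Helper2.exists_index_two_of_cyclic_sylow heven T (hTS ▸ hcyc)

/-- If x is an involution of a finite group G and a Sylow 2-subgroup of the centralizer of x is cyclic, then G has a subgroup of index 2; in particular G is not simple unless it has order 2. -/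
theorem result {G : Type*} [Group G] [Finite G] (x : G) (hx : orderOf x = 2) (S : Sylow 2 ↥(Subgroup.centralizer ({x} : Set G))) (hS : IsCyclic (S : Subgroup ↥(Subgroup.centralizer ({x} : Set G)))) : ∃ H : Subgroup G, H.index = 2 := by
  exact aux x hx _ rfl S hS

end Cfsg.Agent.S0220
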