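import Mathlib
import Cfsg.Statements.S0221
import Cfsg.Agent.H9.NFour
import Cfsg.Agent.S0111

set_option autoImplicit false
open Cfsg
open scoped commutatorElement Pointwise

namespace Cfsg.Agent.S0221

/-- Let G be a finite group with no subgroup of index 2 whose 2-rank is at least 3 (it contains an elementary abelian subgroup of order 8). Then the centralizer of every involution of G also contains an elementary abelian subgroup of order 8. -/
theorem result {G : Type*} [Group G] [Finite G] (hno : ∀ H : Subgroup G, H.index ≠ 2) (hrank : ∃ E : Subgroup G, Nat.card E = 8 ∧ ∀ e ∈ E, e ^ 2 = 1) (x : G) (hx : orderOf x = 2) : ∃ E : Subgroup G, E ≤ Subgroup.centralizer ({x} : Set G) ∧ Nat.card E = 8 ∧ ∀ e ∈ E, e ^ 2 = 1 := by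
  classical
  haveI : Fact (Nat.Prime 2) := ⟨Nat.prime_two⟩
  obtain ⟨E, hE8, hE2⟩ := hrank
  have hxp : IsPGroup 2 (Subgroup.zpowers x) :=
    IsPGroup.of_card (n := 1) (by rw [Nat.card_zpowers, hx, pow_one])
  obtain ⟨P, hxP⟩ := hxp.exists_le_sylow
  have hxP' : x ∈ (P : Subgroup G) := hxP (Subgroup.mem_zpowers x)
  have hEp : IsPGroup 2 E := IsPGroup.of_card (n := 3) (by rw [hE8]; norm_num)
  obtain ⟨Q, hEQ⟩ := hEp.exists_le_sylow
  obtain ⟨g, hg⟩ := MulAction.exists_smul_eq G Q P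
  set E' := E.map (MulAut.conj g).toMonoidHom with hE'
  have hE'P : E' ≤ P := by
    rintro _ ⟨e, he, rfl⟩
    have h1 : MulAut.conj g • e ∈ MulAut.conj g • (Q : Subgroup G) :=
      Subgroup.smul_mem_pointwise_smul e _ _ (hEQ he)
    rw [← Sylow.coe_subgroup_smul, hg] at h1
    exact h1
  have hE'8 : Nat.card E' = 8 := by
    rw [hE', Subgroup.card_map_of_injective (MulAut.conj g).injective, hE8]
  have hE'2 : ∀ e ∈ E', e ^ 2 = 1 := by
    rintro _ ⟨e, he, rfl⟩
    rw [← map_pow, hE2 e he, map_one]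
  set E'' := E'.subgroupOf (P : Subgroup G) with hE''
  have hE''8 : Nat.card E'' = 8 := by
    rw [hE'', Nat.card_congr (Subgroup.subgroupOfEquivOfLe hE'P).toEquiv, hE'8]
  have hE''2 : ∀ e ∈ E'', e ^ 2 = 1 := by
    intro e he
    apply Subtype.ext
    have := hE'2 e (Subgroup.mem_subgroupOf.mp he)
    simpa using this
  have hPp : IsPGroup 2 ↥(P : Subgroup G) := P.isPGroup'
  obtain ⟨U, hUn, hU4, hU2⟩ := Cfsg.H9.NFour.exists_normal_four hPp E'' (by omega) hE''2
  have hU4' : Nat.card U = 2 ^ 2 := by rw [hU4]; norm_num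
  have hUea : IsMulCommutative U ∧ ∀ a ∈ U, a ^ 2 = 1 := ⟨Cfsg.H9.NFour.comm_of_sq U hU2, hU2⟩
  have hidx := Cfsg.H9.NFour.index_centralizer_dvd (p := 2) hPp U hU2 hU4'
  set T'' := Subgroup.centralizer (U : Set ↥(P : Subgroup G)) with hT''
  set T := T''.map (P : Subgroup G).subtype with hT
  have hTP : T ≤ P := Subgroup.map_subtype_le T''
  obtain ⟨g', hg'⟩ : ∃ g' : G, g' * x * g'⁻¹ ∈ T := by
    by_cases hxT : x ∈ T
    · exact ⟨1, by simpa using hxT⟩
    · have hi2 : T''.index = 2 := by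
        rcases (Nat.dvd_prime Nat.prime_two).mp hidx with h | h
        · exfalso
          apply hxT
          rw [Subgroup.index_eq_one] at h
          exact ⟨⟨x, hxP'⟩, by rw [h]; exact Subgroup.mem_top _, rfl⟩
        · exact h
      have hrel : T.relIndex (P : Subgroup G) = 2 := by
        rw [Subgroup.relIndex, hT, Subgroup.subgroupOf,
          Subgroup.comap_map_eq_self_of_injective (Subgroup.subtype_injective _), hi2]
      rcases Cfsg.Agent.S0111.result P T hTP hrel x hx hxP' hxT with ⟨M, -, hM, -⟩ | h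
      · exact absurd hM (hno M)
      · exact h
  obtain ⟨y, hyT, hy⟩ := hg'
  have hy' : (y : G) = g' * x * g'⁻¹ := hy
  have hy2 : y ^ 2 = 1 := by
    apply Subtype.ext
    have h1 : x ^ 2 = 1 := by rw [← hx]; exact pow_orderOf_eq_one x
    show ((y ^ 2 : ↥(P : Subgroup G)) : G) = 1
    rw [Subgroup.coe_pow, hy', conj_pow, h1, mul_one, mul_inv_cancel]
  obtain ⟨W, hWea, hW4, hWy⟩ : ∃ W : Subgroup ↥(P : Subgroup G),
      (IsMulCommutative W ∧ ∀ a ∈ W, a ^ 2 = 1) ∧ 2 ^ 2 < Nat.card W ∧ ∀ w ∈ W, w * y = y * w := by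
    by_cases hyU : y ∈ U
    · obtain ⟨W, hWC, hWea, hW⟩ := Cfsg.H9.NFour.r3_centralizer (p := 2) hPp U hUea hU4' E''
        ⟨Cfsg.H9.NFour.comm_of_sq E'' hE''2, hE''2⟩ (by rw [hE''8]; norm_num)
      exact ⟨W, hWea, hW, fun w hw => ((Subgroup.mem_centralizer_iff.mp (hWC hw)) y hyU).symm⟩
    · have hZ2 : ∀ a ∈ Subgroup.zpowers y, a ^ 2 = 1 := by
        intro a ha
        obtain ⟨k, rfl⟩ := Subgroup.mem_zpowers_iff.mp ha
        rw [← zpow_natCast, ← zpow_mul, mul_comm, zpow_mul, zpow_natCast, hy2, one_zpow]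
      have hW := Cfsg.H9.NFour.sup_ea (p := 2) (Subgroup.zpowers y) U
        ⟨Cfsg.H9.NFour.comm_of_sq _ hZ2, hZ2⟩ hUea (by
          intro a ha b hb
          obtain ⟨k, rfl⟩ := Subgroup.mem_zpowers_iff.mp ha
          have hc : Commute y b := ((Subgroup.mem_centralizer_iff.mp hyT) b hb).symm
          exact (hc.zpow_left k).eq)
      have hyW : y ∈ Subgroup.zpowers y ⊔ U :=
        le_sup_left (a := Subgroup.zpowers y) (Subgroup.mem_zpowers y)
      refine ⟨Subgroup.zpowers y ⊔ U, hW, ?_, ?_⟩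
      · by_contra hcon
        have h1 : U = Subgroup.zpowers y ⊔ U :=
          Subgroup.eq_of_le_of_card_ge le_sup_right (by rw [hU4']; exact not_lt.mp hcon)
        exact hyU (h1 ▸ hyW)
      · intro w hw
        exact congrArg Subtype.val (hW.1.is_comm.comm ⟨w, hw⟩ ⟨y, hyW⟩)
  obtain ⟨W₈, hW₈W, hW₈⟩ := Sylow.exists_subgroup_le_card_pow_prime_of_le_card (n := 3)
    Nat.prime_two hPp (H := W) (by
      obtain ⟨j, hj⟩ := (hPp.to_subgroup W).exists_card_eq
      rw [hj] at hW4 ⊢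
      have := (Nat.pow_lt_pow_iff_right (by norm_num : 1 < 2)).mp hW4
      exact Nat.pow_le_pow_right (by norm_num) (by omega))
  refine ⟨(W₈.map (P : Subgroup G).subtype).map (MulAut.conj g'⁻¹).toMonoidHom, ?_, ?_, ?_⟩
  · rintro _ ⟨_, ⟨w, hw, rfl⟩, rfl⟩
    rw [Subgroup.mem_centralizer_singleton_iff]
    have h1 : (w : G) * (g' * x * g'⁻¹) = (g' * x * g'⁻¹) * w := by
      rw [← hy']
      exact congrArg Subtype.val (hWy w (hW₈W hw))
    show g'⁻¹ * (w : G) * g'⁻¹⁻¹ * x = x * (g'⁻¹ * (w : G) * g'⁻¹⁻¹)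
    calc g'⁻¹ * (w : G) * g'⁻¹⁻¹ * x = g'⁻¹ * ((w : G) * (g' * x * g'⁻¹)) * g' := by group
      _ = g'⁻¹ * ((g' * x * g'⁻¹) * w) * g' := by rw [h1]
      _ = x * (g'⁻¹ * (w : G) * g'⁻¹⁻¹) := by group
  · rw [Subgroup.card_map_of_injective (MulAut.conj g'⁻¹).injective,
      Subgroup.card_map_of_injective (Subgroup.subtype_injective _), hW₈]
    norm_num
  · rintro _ ⟨_, ⟨w, hw, rfl⟩, rfl⟩
    rw [← map_pow, ← map_pow, hWea.2 w (hW₈W hw), map_one, map_one]

end Cfsg.Agent.S0221
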