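import Cfsg.Statements.S0226
import Mathlib
import Cfsg.Agent.Lib.Helper2.Dihedral

set_option autoImplicit false
open Cfsg

namespace Cfsg.Agent.S0226

/-- A finite group of even order has an odd number of involutions. -/
theorem result {G : Type*} [Group G] [Finite G] (heven : Even (Nat.card G)) : Odd (Nat.card {t : G // orderOf t = 2}) := by
  classical
  cases nonempty_fintype G
  have h1 := Equiv.Perm.card_fixedPoints_modEq (α := G) (f := (fun g : G => g⁻¹)) (p := 2) (n := 1)
    (by
      funext g
      show (fun g : G => g⁻¹) ((fun g : G => g⁻¹)^[1] g) = g
      simp)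
  -- fixed points of inversion: 1 and the involutions
  have h2 : Fintype.card (Function.fixedPoints (fun g : G => g⁻¹)) =
      Fintype.card {t : G // orderOf t = 2} + 1 := by
    have e : Function.fixedPoints (fun g : G => g⁻¹) ≃ Option {t : G // orderOf t = 2} :=
      { toFun := fun g => if h : g.1 = 1 then none else some ⟨g.1, by
          rw [Cfsg.Agent.Lib.Helper2.orderOf_eq_two_iff]
          refine ⟨?_, h⟩
          have : g.1⁻¹ = g.1 := g.2
          calc g.1 * g.1 = g.1⁻¹ * g.1 := by rw [this]
            _ = 1 := inv_mul_cancel _⟩
        invFun := fun o => match o with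
          | none => ⟨1, by simp [Function.mem_fixedPoints, Function.IsFixedPt]⟩
          | some t => ⟨t.1, Cfsg.Agent.Lib.Helper2.inv_eq_self_of_orderOf_two t.2⟩
        left_inv := by
          intro g
          by_cases h : g.1 = 1
          · simp only [dif_pos h]
            exact Subtype.ext h.symm
          · simp only [dif_neg h]
        right_inv := by
          intro o
          cases o with
          | none => simp
          | some t =>
            have : t.1 ≠ 1 := Cfsg.Agent.Lib.Helper2.ne_one_of_orderOf_two t.2
            simp [this] }
    rw [Fintype.card_congr e, Fintype.card_option]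
  rw [h2, ← Nat.card_eq_fintype_card, ← Nat.card_eq_fintype_card] at h1
  have h3 : Nat.card G % 2 = 0 := Nat.even_iff.mp heven
  have h4 : (Nat.card {t : G // orderOf t = 2} + 1) % 2 = 0 := by
    rw [← h3]; exact h1.symm
  rw [Nat.odd_iff]
  omega

end Cfsg.Agent.S0226
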