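import Cfsg.Statements.S0229
import Mathlib
import Cfsg.Agent.Lib.Helper2.Isolated
import Cfsg.Agent.S0208
import Cfsg.Agent.S0209
import Cfsg.Agent.S0211

set_option autoImplicit false
open Cfsg

namespace Cfsg.Agent.S0229

/-- Let t be an involution of a Sylow 2-subgroup S of a finite group G, conjugate in G to no other element of S, and let s be an involution of G not conjugate to t. Then the order of st is twice an odd number. -/
theorem result {G : Type*} [Group G] [Finite G] (S : Sylow 2 G) (t : G) (ht : orderOf t = 2) (htS : t ∈ S) (hiso : ∀ g : G, g * t * g⁻¹ ∈ S → g * t * g⁻¹ = t) (s : G) (hs : orderOf s = 2) (hns : ¬ IsConj s t) : orderOf (s * t) % 4 = 2 := by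
  have ht2 := Cfsg.Agent.Lib.Helper2.sq_eq_one_of_orderOf_two ht
  have hti := Cfsg.Agent.Lib.Helper2.inv_eq_self_of_orderOf_two ht
  have hsi := Cfsg.Agent.Lib.Helper2.inv_eq_self_of_orderOf_two hs
  have hinv : s * t = (t * s)⁻¹ := by rw [mul_inv_rev, hti, hsi]
  rw [hinv, orderOf_inv]
  have hnodd : ¬ Odd (orderOf (t * s)) := by
    intro hodd
    obtain ⟨d, -, hd⟩ := Cfsg.Agent.S0208.result t s ht hs hodd
    exact hns (isConj_iff.mpr ⟨d, hd⟩ : IsConj t s).symm
  have heven : Even (orderOf (t * s)) := Nat.not_odd_iff_even.mp hnodd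
  have hn4 : ¬ 4 ∣ orderOf (t * s) := by
    intro h4
    obtain ⟨d, -, hd⟩ := (Cfsg.Agent.S0211.result t s ht hs heven).mpr h4
    obtain ⟨hz, -, -⟩ := Cfsg.Agent.S0209.result t s ht hs heven
    set z := (t * s) ^ (orderOf (t * s) / 2) with hzdef
    have hz2 := Cfsg.Agent.Lib.Helper2.sq_eq_one_of_orderOf_two hz
    have hconj : IsConj t (t * z) := isConj_iff.mpr ⟨d, hd⟩
    have ht'2 : (t * z) * (t * z) = 1 := by
      rw [← hd]
      calc d * t * d⁻¹ * (d * t * d⁻¹) = d * (t * t) * d⁻¹ := by group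
        _ = 1 := by rw [ht2]; group
    have hpow : (t * (t * z)) ^ (2 ^ 1) = 1 := by
      rw [← mul_assoc, ht2, one_mul, pow_one, pow_two, hz2]
    have := Cfsg.Agent.Lib.Helper2.isolated_eq hiso hconj
      (Cfsg.Agent.Lib.Helper2.isPGroup_closure_pair ht2 ht'2 1 hpow)
    exact Cfsg.Agent.Lib.Helper2.ne_one_of_orderOf_two hz (mul_eq_left.mp this)
  obtain ⟨c, hc⟩ := heven
  omega

end Cfsg.Agent.S0229
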