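import Cfsg.Statements.S0230
import Mathlib
import Cfsg.Agent.Lib.Helper2.Dihedral
import Cfsg.Agent.S0208
import Cfsg.Agent.S0209
import Cfsg.Agent.CharLib.Orth

set_option autoImplicit false
open Cfsg

namespace Cfsg.Agent.S0230

/-- Let G be a finite group with two non-conjugate involutions, and let t be an involution whose centralizer has maximal order among centralizers of involutions. Then |G| < |C_G(t)|^3. -/
theorem result {G : Type*} [Group G] [Finite G] (s t : G) (hs : orderOf s = 2) (ht : orderOf t = 2) (hnc : ¬ IsConj s t) (hmax : ∀ u : G, orderOf u = 2 → Nat.card (Subgroup.centralizer ({u} : Set G)) ≤ Nat.card (Subgroup.centralizer ({t} : Set G))) : Nat.card G < Nat.card (Subgroup.centralizer ({t} : Set G)) ^ 3 := by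
  classical
  have := Fintype.ofFinite G
  set m := Nat.card (Subgroup.centralizer ({t} : Set G)) with hm
  have hcz : ∀ z : G, (Finset.univ.filter (fun b : G => Commute b z)).card =
      Nat.card (Subgroup.centralizer ({z} : Set G)) := by
    intro z
    symm
    apply Nat.subtype_card
    intro x
    simp only [Finset.mem_filter, Finset.mem_univ, true_and]
    rw [Subgroup.mem_centralizer_singleton_iff]
    rfl
  set A := Finset.univ.filter (fun b : G => IsConj t b) with hA
  set I := Finset.univ.filter (fun z : G => orderOf z = 2 ∧ Commute z s) with hI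
  have hAcard : A.card = (Subgroup.centralizer ({t} : Set G)).index := by
    rw [← Cfsg.Agent.CharLib.card_isConj_eq_index]
    symm
    apply Nat.subtype_card
    intro x
    simp [hA]
  have hsub : A ⊆ I.biUnion (fun z => Finset.univ.filter (fun b : G => Commute b z)) := by
    intro b hb
    have hb' : IsConj t b := by simpa [hA] using hb
    have hb2 : orderOf b = 2 := by
      obtain ⟨g, rfl⟩ := isConj_iff.mp hb'
      have := orderOf_injective (MulAut.conj g).toMonoidHom (MulAut.conj g).injective t
      rw [← ht, ← this]
      simp
    have heven : Even (orderOf (s * b)) := by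
      rw [← Nat.not_odd_iff_even]
      intro hodd
      obtain ⟨d, -, hd⟩ := Cfsg.Agent.S0208.result s b hs hb2 hodd
      exact hnc ((isConj_iff.mpr ⟨d, hd⟩ : IsConj s b).trans hb'.symm)
    obtain ⟨hz, hzs, hzb⟩ := Cfsg.Agent.S0209.result s b hs hb2 heven
    rw [Finset.mem_biUnion]
    refine ⟨(s * b) ^ (orderOf (s * b) / 2), ?_, ?_⟩
    · simp only [hI, Finset.mem_filter, Finset.mem_univ, true_and]
      exact ⟨hz, hzs⟩
    · simp only [Finset.mem_filter, Finset.mem_univ, true_and]
      exact hzb.symm
  have h1 : A.card ≤ I.card * m := by
    calc A.card ≤ _ := Finset.card_le_card hsub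
      _ ≤ ∑ z ∈ I, (Finset.univ.filter (fun b : G => Commute b z)).card := Finset.card_biUnion_le
      _ ≤ ∑ z ∈ I, m := by
          apply Finset.sum_le_sum
          intro z hz
          rw [hcz]
          apply hmax
          simp only [hI, Finset.mem_filter, Finset.mem_univ, true_and] at hz
          exact hz.1
      _ = I.card * m := by rw [Finset.sum_const, smul_eq_mul]
  have h2 : I.card < m := by
    calc I.card < (Finset.univ.filter (fun b : G => Commute b s)).card := by
          apply Finset.card_lt_card
          rw [Finset.ssubset_iff_of_subset]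
          · refine ⟨1, by simp, ?_⟩
            simp [hI]
          · intro z hz
            simp only [hI, Finset.mem_filter, Finset.mem_univ, true_and] at hz ⊢
            exact hz.2
      _ = Nat.card (Subgroup.centralizer ({s} : Set G)) := hcz s
      _ ≤ m := hmax s hs
  have h3 : Nat.card G = m * A.card := by
    rw [hAcard, hm, Subgroup.card_mul_index]
  have hmpos : 0 < m := Nat.card_pos
  rw [h3]
  calc m * A.card ≤ m * (I.card * m) := Nat.mul_le_mul_left _ h1
    _ < m * (m * m) := by
        apply Nat.mul_lt_mul_of_pos_left _ hmpos
        exact Nat.mul_lt_mul_of_pos_right h2 hmpos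
    _ = m ^ 3 := by ring

end Cfsg.Agent.S0230
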