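import Cfsg.Statements.S0231
import Mathlib
import Cfsg.Agent.Lib.Helper2.Isolated
import Cfsg.Agent.S0208
import Cfsg.Agent.S0209

set_option autoImplicit false
open scoped Pointwise
open Cfsg

namespace Cfsg.Agent.S0231

/-- Let T be a Sylow 2-subgroup of the finite group G which is not normal and which intersects every other Sylow 2-subgroup trivially. Then G has a single conjugacy class of involutions. -/
theorem result {G : Type*} [Group G] [Finite G] (T : Sylow 2 G) (hnn : ¬ (T : Subgroup G).Normal) (hTI : ∀ g : G, MulAut.conj g • (T : Subgroup G) ≠ T → MulAut.conj g • (T : Subgroup G) ⊓ T = ⊥) (s t : G) (hs : orderOf s = 2) (ht : orderOf t = 2) : IsConj s t := by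
  classical
  have : Fact (Nat.Prime 2) := ⟨Nat.prime_two⟩
  -- distinct Sylow 2-subgroups meet trivially
  have hU : ∀ (Q₁ Q₂ : Sylow 2 G) (w : G), w ≠ 1 → w ∈ Q₁ → w ∈ Q₂ → Q₁ = Q₂ := by
    intro Q₁ Q₂ w hw h1 h2
    obtain ⟨a, rfl⟩ := MulAction.exists_smul_eq G T Q₁
    obtain ⟨b, rfl⟩ := MulAction.exists_smul_eq G T Q₂
    by_contra hne
    rw [Cfsg.Agent.Lib.Helper2.mem_sylow_smul_iff] at h1 h2
    have hne' : MulAut.conj (b⁻¹ * a) • (T : Subgroup G) ≠ T := by
      intro h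
      apply hne
      have h3 : (b⁻¹ * a) • T = T := by
        apply Sylow.ext
        rw [Sylow.coe_subgroup_smul]; exact h
      rw [mul_smul, inv_smul_eq_iff] at h3
      exact h3
    have h4 := hTI _ hne'
    have h5 : b⁻¹ * w * b ∈ MulAut.conj (b⁻¹ * a) • (T : Subgroup G) ⊓ T := by
      refine ⟨?_, h2⟩
      have : b⁻¹ * w * b ∈ (b⁻¹ * a) • T := by
        rw [Cfsg.Agent.Lib.Helper2.mem_sylow_smul_iff]
        have : (b⁻¹ * a)⁻¹ * (b⁻¹ * w * b) * (b⁻¹ * a) = a⁻¹ * w * a := by group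
        rwa [this]
      have h6 : b⁻¹ * w * b ∈ (((b⁻¹ * a) • T : Sylow 2 G) : Subgroup G) := this
      rwa [Sylow.coe_subgroup_smul] at h6
    rw [h4, Subgroup.mem_bot] at h5
    apply hw
    have : w = b * (b⁻¹ * w * b) * b⁻¹ := by group
    rw [this, h5]; group
  -- commuting involutions lie in the same Sylow subgroup
  have hW : ∀ (Q : Sylow 2 G) (a z : G), a * a = 1 → z * z = 1 → a ≠ 1 → Commute z a → a ∈ Q →
      z ∈ Q := by
    intro Q a z ha hz ha1 hc haQ
    have hp : IsPGroup 2 (Subgroup.closure ({a, z} : Set G)) := by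
      apply Cfsg.Agent.Lib.Helper2.isPGroup_closure_pair ha hz 1
      rw [pow_one, pow_two]
      calc a * z * (a * z) = a * (z * a) * z := by group
        _ = a * (a * z) * z := by rw [hc.eq]
        _ = (a * a) * (z * z) := by group
        _ = 1 := by rw [ha, hz, one_mul]
    obtain ⟨R, hR⟩ := hp.exists_le_sylow
    have h1 : a ∈ R := hR (Subgroup.subset_closure (by simp))
    have h2 : z ∈ R := hR (Subgroup.subset_closure (by simp))
    rw [hU Q R a ha1 haQ h1]
    exact h2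
  -- non-conjugate involutions lie in the same Sylow subgroup
  have hV : ∀ (Q₁ Q₂ : Sylow 2 G) (a b : G), orderOf a = 2 → orderOf b = 2 → ¬ IsConj a b →
      a ∈ Q₁ → b ∈ Q₂ → Q₁ = Q₂ := by
    intro Q₁ Q₂ a b ha hb hnc h1 h2
    have heven : Even (orderOf (a * b)) := by
      rw [← Nat.not_odd_iff_even]
      intro hodd
      obtain ⟨d, -, hd⟩ := Cfsg.Agent.S0208.result a b ha hb hodd
      exact hnc (isConj_iff.mpr ⟨d, hd⟩)
    obtain ⟨hz, hza, hzb⟩ := Cfsg.Agent.S0209.result a b ha hb heven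
    set z := (a * b) ^ (orderOf (a * b) / 2)
    have hz2 := Cfsg.Agent.Lib.Helper2.sq_eq_one_of_orderOf_two hz
    exact hU Q₁ Q₂ z (Cfsg.Agent.Lib.Helper2.ne_one_of_orderOf_two hz)
      (hW Q₁ a z (Cfsg.Agent.Lib.Helper2.sq_eq_one_of_orderOf_two ha) hz2
        (Cfsg.Agent.Lib.Helper2.ne_one_of_orderOf_two ha) hza h1)
      (hW Q₂ b z (Cfsg.Agent.Lib.Helper2.sq_eq_one_of_orderOf_two hb) hz2
        (Cfsg.Agent.Lib.Helper2.ne_one_of_orderOf_two hb) hzb h2)
  by_contra hnc
  have hsp : IsPGroup 2 (Subgroup.zpowers s) := by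
    apply IsPGroup.of_card (n := 1)
    rw [Nat.card_zpowers, hs, pow_one]
  have htp : IsPGroup 2 (Subgroup.zpowers t) := by
    apply IsPGroup.of_card (n := 1)
    rw [Nat.card_zpowers, ht, pow_one]
  obtain ⟨Q, hQ⟩ := hsp.exists_le_sylow
  obtain ⟨Q', hQ'⟩ := htp.exists_le_sylow
  have hsQ : s ∈ Q := hQ (Subgroup.mem_zpowers s)
  have htQ' : t ∈ Q' := hQ' (Subgroup.mem_zpowers t)
  have hQQ' := hV Q Q' s t hs ht hnc hsQ htQ'
  subst hQQ'
  -- Q is fixed by every g
  have hfix : ∀ g : G, g • Q = Q := by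
    intro g
    have hs' : orderOf (g * s * g⁻¹) = 2 := by
      have := orderOf_injective (MulAut.conj g).toMonoidHom (MulAut.conj g).injective s
      rw [← hs, ← this]
      simp
    have hnc' : ¬ IsConj (g * s * g⁻¹) t := by
      intro h
      exact hnc ((isConj_iff.mpr ⟨g, rfl⟩ : IsConj s (g * s * g⁻¹)).trans h)
    apply hV (g • Q) Q _ t hs' ht hnc' _ htQ'
    rw [Cfsg.Agent.Lib.Helper2.mem_sylow_smul_iff]
    have : g⁻¹ * (g * s * g⁻¹) * g = s := by group
    rwa [this]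
  obtain ⟨h, hh⟩ := MulAction.exists_smul_eq G Q T
  rw [hfix h] at hh
  subst hh
  apply hnn
  rw [← Subgroup.normalizer_eq_top_iff, eq_top_iff]
  intro g _
  exact Sylow.smul_eq_iff_mem_normalizer.mp (hfix g)

end Cfsg.Agent.S0231
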