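import Cfsg.Statements.S0232
import Mathlib
import Cfsg.Agent.Lib.Helper2.BrauerFowler
import Cfsg.Agent.Lib.Helper2.IndexTwo

set_option autoImplicit false
open Cfsg

namespace Cfsg.Agent.S0232

theorem of_index_two {G : Type*} [Group G] [Finite G] (hgt : 2 < Nat.card G) (K : Subgroup G)
    (hK : K.index = 2) : ∃ H : Subgroup G, H ≠ ⊤ ∧ Nat.card G < (Nat.card H) ^ 3 := by
  refine ⟨K, ?_, ?_⟩
  · rintro rfl
    rw [Subgroup.index_top] at hK
    omega
  · have h := K.index_mul_card
    rw [hK] at h
    rw [← h] at hgt ⊢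
    set k := Nat.card K
    have hk : 2 ≤ k := by omega
    have : 4 * k ≤ k ^ 3 := by nlinarith [Nat.mul_le_mul hk hk]
    omega

theorem aux.{u} (n : ℕ) : ∀ (G : Type u) [Group G] [Finite G], Nat.card G = n → Even (Nat.card G) →
    2 < Nat.card G → ∃ H : Subgroup G, H ≠ ⊤ ∧ Nat.card G < (Nat.card H) ^ 3 := by
  induction n using Nat.strong_induction_on with
  | _ n ih =>
  intro G _ _ hn heven hgt
  have : Fact (Nat.Prime 2) := ⟨Nat.prime_two⟩
  by_cases h2 : ∃ K : Subgroup G, K.index = 2
  · obtain ⟨K, hK⟩ := h2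
    exact of_index_two hgt K hK
  by_cases hZ : Odd (Nat.card (Subgroup.center G))
  · obtain ⟨H, hH, h⟩ := Cfsg.Agent.Lib.Helper2.brauerFowler_index heven hZ
    rcases h with h | h
    · exact (h2 ⟨H, h⟩).elim
    obtain ⟨t, ht⟩ := exists_prime_orderOf_dvd_card' (G := G) 2 heven.two_dvd
    have hmc := Cfsg.Agent.Lib.Helper2.card_le_involutions_mul_centralizer t ht
    have hCne : Subgroup.centralizer ({t} : Set G) ≠ ⊤ := by
      intro h
      have hxc : t ∈ Subgroup.center G := by
        rw [Subgroup.centralizer_eq_top_iff_subset] at h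
        exact h rfl
      have h3 : orderOf (⟨t, hxc⟩ : Subgroup.center G) = 2 := by
        rw [Subgroup.orderOf_mk, ht]
      have h4 : 2 ∣ Nat.card (Subgroup.center G) := h3 ▸ orderOf_dvd_natCard _
      exact (Nat.not_even_iff_odd.mpr hZ) (even_iff_two_dvd.mpr h4)
    by_contra hcon
    push Not at hcon
    have hh := hcon H hH
    have hc := hcon _ hCne
    have hrh := H.index_mul_card
    set g := Nat.card G
    set m := Nat.card {t : G // orderOf t = 2}
    set c := Nat.card (Subgroup.centralizer ({t} : Set G))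
    set h' := Nat.card H
    set r := H.index
    have hgpos : 0 < g := Nat.card_pos
    have hcpos : 0 < c := Nat.card_pos
    have hmg : m ≤ g := by
      exact Nat.card_le_card_of_injective (fun t : {t : G // orderOf t = 2} => t.1)
        Subtype.val_injective
    -- r m² < g²
    have h1 : r * m ^ 2 < g ^ 2 := by nlinarith
    -- m² < g h
    have h3 : g * m ^ 2 < g * (g * h') := by
      calc g * m ^ 2 = h' * (r * m ^ 2) := by rw [← hrh]; ring
        _ < h' * g ^ 2 := Nat.mul_lt_mul_of_pos_left h1 Nat.card_pos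
        _ = g * (g * h') := by ring
    have h4 : m ^ 2 < g * h' := Nat.lt_of_mul_lt_mul_left h3
    have h5 : g ^ 2 ≤ m ^ 2 * c ^ 2 := by
      calc g ^ 2 ≤ (m * c) ^ 2 := Nat.pow_le_pow_left hmc 2
        _ = m ^ 2 * c ^ 2 := by ring
    have h6 : g * g < g * (h' * c ^ 2) := by
      calc g * g = g ^ 2 := by ring
        _ ≤ m ^ 2 * c ^ 2 := h5
        _ < (g * h') * c ^ 2 := Nat.mul_lt_mul_of_pos_right h4 (by positivity)
        _ = g * (h' * c ^ 2) := by ring
    have h7 : g < h' * c ^ 2 := Nat.lt_of_mul_lt_mul_left h6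
    have h8 : g ^ 3 < (h' * c ^ 2) ^ 3 := Nat.pow_lt_pow_left h7 (by norm_num)
    have h9 : (h' * c ^ 2) ^ 3 ≤ g ^ 3 := by
      calc (h' * c ^ 2) ^ 3 = h' ^ 3 * (c ^ 3) ^ 2 := by ring
        _ ≤ g * g ^ 2 := Nat.mul_le_mul hh (Nat.pow_le_pow_left hc 2)
        _ = g ^ 3 := by ring
    omega
  · -- central involution
    rw [Nat.not_odd_iff_even] at hZ
    obtain ⟨z, hz⟩ := exists_prime_orderOf_dvd_card' (G := Subgroup.center G) 2 hZ.two_dvd
    set N : Subgroup G := Subgroup.zpowers (z : G) with hN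
    have hzo : orderOf (z : G) = 2 := by rw [Subgroup.orderOf_coe, hz]
    have hNn : N.Normal := by
      refine ⟨fun n hn g => ?_⟩
      obtain ⟨k, rfl⟩ := hn
      have h1 : Commute g (z : G) := (Subgroup.mem_center_iff.mp z.2 g)
      have h3 : g * (z : G) ^ k * g⁻¹ = (z : G) ^ k := by
        rw [mul_inv_eq_iff_eq_mul]; exact (h1.zpow_right k).eq
      simp only at h3 ⊢
      rw [h3]
      exact Subgroup.zpow_mem_zpowers _ _
    have hNcard : Nat.card N = 2 := by rw [hN, Nat.card_zpowers, hzo]
    have hQ : Nat.card (G ⧸ N) * 2 = Nat.card G := by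
      rw [← hNcard]; exact N.index_mul_card
    by_cases hq : Even (Nat.card (G ⧸ N))
    · by_cases hq2 : 2 < Nat.card (G ⧸ N)
      · obtain ⟨H', hH', hlt⟩ := ih (Nat.card (G ⧸ N)) (by omega) (G ⧸ N) rfl hq hq2
        refine ⟨H'.comap (QuotientGroup.mk' N), ?_, ?_⟩
        · intro h
          apply hH'
          have := Subgroup.index_comap_of_surjective H' (QuotientGroup.mk'_surjective N)
          rw [h, Subgroup.index_top] at this
          exact Subgroup.index_eq_one.mp this.symm
        · have h3 := Subgroup.index_comap_of_surjective H' (QuotientGroup.mk'_surjective N)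
          have h4 := (H'.comap (QuotientGroup.mk' N)).index_mul_card
          have h5 := H'.index_mul_card
          rw [h3, ← hQ, ← h5, mul_assoc] at h4
          have h6 : Nat.card (H'.comap (QuotientGroup.mk' N)) = Nat.card H' * 2 :=
            Nat.eq_of_mul_eq_mul_left (Nat.pos_of_ne_zero H'.index_ne_zero_of_finite) h4
          rw [h6, ← hQ]
          set a := Nat.card H'
          have : (a * 2) ^ 3 = 8 * a ^ 3 := by ring
          omega
      · exfalso
        have h4 : Nat.card G = 2 ^ (1 + 1) := by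
          obtain ⟨k, hk⟩ := hq
          omega
        have hb : (⊥ : Subgroup G).index = 2 ^ (1 + 1) := by
          rw [Subgroup.index_bot, h4]
        obtain ⟨K, -, hK⟩ := Cfsg.Agent.Lib.Helper2.exists_index_two_of_normal ⊥ 1 hb
        exact h2 ⟨K, hK⟩
    · exfalso
      rw [Nat.not_even_iff_odd] at hq
      obtain ⟨T⟩ : Nonempty (Sylow 2 G) := inferInstance
      obtain ⟨k, hk⟩ := T.2.exists_card_eq
      have hd : Nat.card T ∣ Nat.card G := Subgroup.card_subgroup_dvd_card _
      have h2d : 2 ∣ Nat.card T := T.dvd_card_of_dvd_card heven.two_dvd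
      have hcop : Nat.Coprime (2 ^ k) (Nat.card (G ⧸ N)) :=
        Nat.Coprime.pow_left k (Nat.coprime_two_left.mpr hq)
      rw [hk, ← hQ] at hd
      have hd2 : 2 ^ k ∣ 2 := hcop.dvd_of_dvd_mul_left hd
      have hT2 : Nat.card T = 2 := by
        rw [hk] at h2d ⊢
        exact Nat.dvd_antisymm hd2 h2d
      have hcyc : IsCyclic (T : Subgroup G) := isCyclic_of_prime_card hT2
      obtain ⟨K, hK⟩ := Cfsg.Agent.Lib.Helper2.exists_index_two_of_cyclic_sylow heven T hcyc
      exact h2 ⟨K, hK⟩


/-- A finite group G of even order greater than 2 has a proper subgroup H with |G| < |H|^3. -/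
theorem result {G : Type*} [Group G] [Finite G] (heven : Even (Nat.card G)) (hgt : 2 < Nat.card G) : ∃ H : Subgroup G, H ≠ ⊤ ∧ Nat.card G < (Nat.card H) ^ 3 := by
  exact aux (Nat.card G) G rfl heven hgt

end Cfsg.Agent.S0232
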