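import Cfsg.Statements.S0233
import Mathlib
import Cfsg.Agent.Lib.Helper2.BrauerFowler

set_option autoImplicit false
open Cfsg

namespace Cfsg.Agent.S0233

/-- Let G be a finite group of even order with exactly n involutions whose centre has odd order, and put a = |G|/n. Then G has a proper subgroup H with |G : H| = 2 or |G : H| < a(a+1)/2; over ℕ the latter reads 2·|G:H|·n² < |G|·(|G| + n). -/
theorem result {G : Type*} [Group G] [Finite G] (heven : Even (Nat.card G)) (hZ : Odd (Nat.card (Subgroup.center G))) : ∃ H : Subgroup G, H ≠ ⊤ ∧ (H.index = 2 ∨ 2 * H.index * (Nat.card {t : G // orderOf t = 2}) ^ 2 < Nat.card G * (Nat.card G + Nat.card {t : G // orderOf t = 2})) := by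
  obtain ⟨H, hH, h⟩ := Cfsg.Agent.Lib.Helper2.brauerFowler_index heven hZ
  refine ⟨H, hH, ?_⟩
  rcases h with h | h
  · exact Or.inl h
  · right
    have hg : 0 < Nat.card G := Nat.card_pos
    nlinarith

end Cfsg.Agent.S0233
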