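import Cfsg.Statements.S0234
import Mathlib
import Cfsg.Agent.Lib.Helper2.BrauerFowler
import Cfsg.Agent.Lib.Helper2.SimpleSmallIndex
import Cfsg.Agent.S0494

set_option autoImplicit false
open Cfsg

namespace Cfsg.Agent.S0234

/-- In a finite simple group G of even order greater than 2, the number n of involutions satisfies 3n < |G|. -/
theorem result {G : Type*} [Group G] [Finite G] [IsSimpleGroup G] (heven : Even (Nat.card G)) (hgt : 2 < Nat.card G) : 3 * Nat.card {t : G // orderOf t = 2} < Nat.card G := by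
  by_contra hcon
  push Not at hcon
  have hno2 := Cfsg.Agent.Lib.Helper2.no_index_two_of_simple (G := G) hgt
  have hc := Cfsg.Agent.Lib.Helper2.center_eq_bot_of_simple (G := G) heven hgt
  have hZ : Odd (Nat.card (Subgroup.center G)) := by
    rw [hc, Subgroup.card_bot]; exact odd_one
  obtain ⟨H, hH, h⟩ := Cfsg.Agent.Lib.Helper2.brauerFowler_index heven hZ
  rcases h with h | h
  · exact hno2 H h
  have hdvd := Cfsg.Agent.Lib.Helper2.two_mul_card_dvd_factorial_index hgt H hH
  have hfac : ∀ K : Subgroup G, K ≠ ⊤ → 2 * Nat.card G ∣ Nat.factorial K.index :=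
    fun K hK => Cfsg.Agent.Lib.Helper2.two_mul_card_dvd_factorial_index hgt K hK
  set g := Nat.card G with hg
  set m := Nat.card {t : G // orderOf t = 2} with hm
  have hr : H.index ≤ 5 := by
    by_contra hr
    push Not at hr
    have h6 : 6 ≤ H.index := hr
    have h1 : g ^ 2 + g * m ≤ 12 * m ^ 2 := by nlinarith
    have h2 : 2 * 6 * m ^ 2 ≤ 2 * H.index * m ^ 2 := by
      apply Nat.mul_le_mul_right; omega
    have hgpos : 0 < g := by omega
    nlinarith
  have h60 : g ∣ 60 := by
    have h1 : Nat.factorial H.index ∣ Nat.factorial 5 := Nat.factorial_dvd_factorial hr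
    have h2 : 2 * g ∣ 2 * 60 := hdvd.trans h1
    exact Nat.dvd_of_mul_dvd_mul_left (by norm_num) h2
  have key : ∀ n < 61, n ∣ 60 → n % 2 = 0 → 2 < n →
      n = 4 ∨ n = 6 ∨ n = 10 ∨ n = 12 ∨ n = 20 ∨ n = 30 ∨ n = 60 := by
    intro n hn
    interval_cases n <;> simp
  rcases key g (Nat.lt_succ_of_le (Nat.le_of_dvd (by norm_num) h60)) h60
    (Nat.even_iff.mp heven) hgt with h | h | h | h | h | h | h
  · have hb : (⊥ : Subgroup G).index = 2 ^ (1 + 1) := by
      rw [Subgroup.index_bot, ← hg, h]; norm_num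
    obtain ⟨K, -, hK⟩ := Cfsg.Agent.Lib.Helper2.exists_index_two_of_normal ⊥ 1 hb
    exact hno2 K hK
  · obtain ⟨K, hK⟩ := Cfsg.Agent.Lib.Helper2.exists_index_two_of_two_mul_odd (G := G) 3
      (by decide) (by rw [← hg, h])
    exact hno2 K hK
  · obtain ⟨K, hK⟩ := Cfsg.Agent.Lib.Helper2.exists_index_two_of_two_mul_odd (G := G) 5
      (by decide) (by rw [← hg, h])
    exact hno2 K hK
  · have : Fact (Nat.Prime 2) := ⟨Nat.prime_two⟩
    obtain ⟨K, hK⟩ := Sylow.exists_subgroup_card_pow_prime (G := G) 2 (n := 2)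
      (by rw [← hg, h]; norm_num)
    have hi := K.index_mul_card
    rw [hK, ← hg, h] at hi
    have hi3 : K.index = 3 := by omega
    have hKne : K ≠ ⊤ := by
      rintro rfl
      rw [Subgroup.index_top] at hi3; omega
    have := hfac K hKne
    rw [hi3, h] at this
    revert this; decide
  · have : Fact (Nat.Prime 5) := ⟨by norm_num⟩
    obtain ⟨K, hK⟩ := Sylow.exists_subgroup_card_pow_prime (G := G) 5 (n := 1)
      (by rw [← hg, h]; norm_num)
    have hi := K.index_mul_card
    rw [hK, ← hg, h] at hi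
    have hi3 : K.index = 4 := by omega
    have hKne : K ≠ ⊤ := by
      rintro rfl
      rw [Subgroup.index_top] at hi3; omega
    have := hfac K hKne
    rw [hi3, h] at this
    revert this; decide
  · obtain ⟨K, hK⟩ := Cfsg.Agent.Lib.Helper2.exists_index_two_of_two_mul_odd (G := G) 15
      (by decide) (by rw [← hg, h])
    exact hno2 K hK
  · obtain ⟨e⟩ := Cfsg.Agent.S0494.result (G := G) (by rw [← hg, h])
    have hm15 : m = 15 := by
      rw [hm, ← Cfsg.Agent.Lib.Helper2.card_involutions_alternating_five]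
      exact Nat.card_congr (e.toEquiv.subtypeEquiv (fun t => by
        rw [MulEquiv.toEquiv_eq_coe, EquivLike.coe_coe, MulEquiv.orderOf_eq]))
    omega

end Cfsg.Agent.S0234
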