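import Cfsg.Statements.S0235
import Mathlib
import Cfsg.Agent.Lib.Helper2.Dihedral

set_option autoImplicit false
open Cfsg

namespace Cfsg.Agent.S0235

/-- If x² ≠ 1, the ordered pairs (u, v) of involutions with uv = x correspond bijectively to the involutions t with t x t⁻¹ = x⁻¹ (via (u, v) ↦ u), so the two counts agree. -/
theorem result {G : Type*} [Group G] [Finite G] (x : G) (hx : x ^ 2 ≠ 1) : Nat.card {p : G × G // orderOf p.1 = 2 ∧ orderOf p.2 = 2 ∧ p.1 * p.2 = x} = Nat.card {t : G // orderOf t = 2 ∧ t * x * t⁻¹ = x⁻¹} := by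
  apply Nat.card_congr
  exact
    { toFun := fun p => ⟨p.1.1, p.2.1, by
        obtain ⟨⟨u, v⟩, hu, hv, huv⟩ := p
        simp only at hu hv huv ⊢
        have hu2 := Cfsg.Agent.Lib.Helper2.sq_eq_one_of_orderOf_two hu
        have hui := Cfsg.Agent.Lib.Helper2.inv_eq_self_of_orderOf_two hu
        have hvi := Cfsg.Agent.Lib.Helper2.inv_eq_self_of_orderOf_two hv
        rw [← huv, mul_inv_rev, hui, hvi, ← mul_assoc, hu2, one_mul]⟩
      invFun := fun t => ⟨(t.1, t.1 * x), t.2.1, by
        obtain ⟨t, ht, htx⟩ := t
        simp only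
        have ht2 := Cfsg.Agent.Lib.Helper2.sq_eq_one_of_orderOf_two ht
        have hti := Cfsg.Agent.Lib.Helper2.inv_eq_self_of_orderOf_two ht
        rw [Cfsg.Agent.Lib.Helper2.orderOf_eq_two_iff]
        constructor
        · rw [hti] at htx
          calc t * x * (t * x) = (t * x * t) * x := by group
            _ = 1 := by rw [htx, inv_mul_cancel]
        · intro h
          apply hx
          have : x = t := by
            calc x = t * (t * x) := by rw [← mul_assoc, ht2, one_mul]
              _ = t := by rw [h, mul_one]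
          rw [this, pow_two, ht2], by
        have ht2 := Cfsg.Agent.Lib.Helper2.sq_eq_one_of_orderOf_two t.2.1
        simp only
        rw [← mul_assoc, ht2, one_mul]⟩
      left_inv := by
        rintro ⟨⟨u, v⟩, hu, hv, huv⟩
        simp only at hu hv huv
        have hu2 := Cfsg.Agent.Lib.Helper2.sq_eq_one_of_orderOf_two hu
        apply Subtype.ext
        simp only
        rw [← huv, ← mul_assoc, hu2, one_mul]
      right_inv := fun t => rfl }

end Cfsg.Agent.S0235
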