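import Cfsg.Statements.S0240
import Mathlib
import Cfsg.Agent.Lib.Helper2.Dihedral

set_option autoImplicit false
open Cfsg

namespace Cfsg.Agent.S0240

/-- Let G be a finite group with n involutions and H a subgroup with |H|·(n+1) > |G|. Then some nontrivial h ∈ H is strongly real in G: an involution t of G satisfies t h t⁻¹ = h⁻¹. -/
theorem result {G : Type*} [Group G] [Finite G] (H : Subgroup G) (hH : Nat.card G < Nat.card H * (Nat.card {t : G // orderOf t = 2} + 1)) : ∃ h : G, h ∈ H ∧ h ≠ 1 ∧ ∃ t : G, orderOf t = 2 ∧ t * h * t⁻¹ = h⁻¹ := by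
  classical
  cases nonempty_fintype G
  -- pigeonhole on cosets
  let f : Option {t : G // orderOf t = 2} → G ⧸ H := fun o => match o with
    | none => ((1 : G) : G ⧸ H)
    | some t => ((t.1 : G) : G ⧸ H)
  have hcard : Fintype.card (G ⧸ H) < Fintype.card (Option {t : G // orderOf t = 2}) := by
    rw [Fintype.card_option, ← Nat.card_eq_fintype_card, ← Nat.card_eq_fintype_card]
    have h1 := Subgroup.card_eq_card_quotient_mul_card_subgroup H
    rw [h1, mul_comm] at hH
    exact Nat.lt_of_mul_lt_mul_left hH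
  obtain ⟨a, b, hab, hf⟩ := Fintype.exists_ne_map_eq_of_card_lt f hcard
  have key : ∀ t : {t : G // orderOf t = 2}, ((1 : G) : G ⧸ H) = ((t.1 : G) : G ⧸ H) →
      ∃ h : G, h ∈ H ∧ h ≠ 1 ∧ ∃ t : G, orderOf t = 2 ∧ t * h * t⁻¹ = h⁻¹ := by
    intro t ht
    have h1 : (1 : G)⁻¹ * t.1 ∈ H := QuotientGroup.eq.mp ht
    rw [inv_one, one_mul] at h1
    refine ⟨t.1, h1, Cfsg.Agent.Lib.Helper2.ne_one_of_orderOf_two t.2, t.1, t.2, ?_⟩
    rw [mul_inv_cancel_right, Cfsg.Agent.Lib.Helper2.inv_eq_self_of_orderOf_two t.2]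
  cases a with
  | none =>
    cases b with
    | none => exact absurd rfl hab
    | some t => exact key t hf
  | some s =>
    cases b with
    | none => exact key s hf.symm
    | some t =>
      have h1 : s.1⁻¹ * t.1 ∈ H := QuotientGroup.eq.mp hf
      have hsi := Cfsg.Agent.Lib.Helper2.inv_eq_self_of_orderOf_two s.2
      have hti := Cfsg.Agent.Lib.Helper2.inv_eq_self_of_orderOf_two t.2
      have hs2 := Cfsg.Agent.Lib.Helper2.sq_eq_one_of_orderOf_two s.2
      rw [hsi] at h1
      refine ⟨s.1 * t.1, h1, ?_, s.1, s.2, ?_⟩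
      · intro h
        apply hab
        have : t.1 = s.1 := by
          calc t.1 = s.1 * (s.1 * t.1) := by rw [← mul_assoc, hs2, one_mul]
            _ = s.1 := by rw [h, mul_one]
        rw [Subtype.ext this]
      · rw [mul_inv_rev, hsi, hti, ← mul_assoc, hs2, one_mul]

end Cfsg.Agent.S0240
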