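import Cfsg.Statements.S0241
import Mathlib
import Cfsg.Agent.Lib.Helper2.Dihedral

set_option autoImplicit false
open Cfsg

namespace Cfsg.Agent.S0241

/-- If x ≠ 1 is conjugate to x⁻¹ in a finite group G and |C_G(x)| is odd, then some involution t satisfies t x t⁻¹ = x⁻¹. -/
theorem result {G : Type*} [Group G] [Finite G] (x : G) (hx : x ≠ 1) (hreal : IsConj x x⁻¹) (hodd : Odd (Nat.card (Subgroup.centralizer ({x} : Set G)))) : ∃ t : G, orderOf t = 2 ∧ t * x * t⁻¹ = x⁻¹ := by
  obtain ⟨g, hg⟩ := isConj_iff.mp hreal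
  -- conjugation by powers of g
  have hpow : ∀ k : ℕ, g ^ k * x * (g ^ k)⁻¹ = if Even k then x else x⁻¹ := by
    intro k
    induction k with
    | zero => simp
    | succ k ih =>
      have e : g ^ (k + 1) * x * (g ^ (k + 1))⁻¹ = g * (g ^ k * x * (g ^ k)⁻¹) * g⁻¹ := by
        rw [pow_succ']; group
      rw [e, ih]
      by_cases hk : Even k
      · rw [if_pos hk, if_neg (by rw [Nat.even_add_one]; simpa using hk), hg]
      · rw [if_neg hk, if_pos (by rw [Nat.even_add_one]; exact hk)]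
        have : g * x⁻¹ * g⁻¹ = (g * x * g⁻¹)⁻¹ := by group
        rw [this, hg, inv_inv]
  obtain ⟨a, m, hm, ho⟩ := Nat.exists_eq_two_pow_mul_odd (orderOf_pos g).ne'
  set t := g ^ m with ht
  have htx : t * x * t⁻¹ = x⁻¹ := by
    rw [ht, hpow m, if_neg (Nat.not_even_iff_odd.mpr hm)]
  have ht2mem : t * t ∈ Subgroup.centralizer ({x} : Set G) := by
    rw [Subgroup.mem_centralizer_singleton_iff]
    have h2 := hpow (m + m)
    have hev : Even (m + m) := ⟨m, rfl⟩
    rw [if_pos hev, pow_add, ← ht] at h2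
    calc t * t * x = (t * t * x * (t * t)⁻¹) * (t * t) := by group
      _ = x * (t * t) := by rw [h2]
  have ht2a : (t * t) ^ (2 ^ a) = 1 := by
    rw [← pow_two, ← pow_mul, ht, ← pow_mul]
    have : m * (2 * 2 ^ a) = orderOf g * 2 := by rw [ho]; ring
    rw [this, pow_mul, pow_orderOf_eq_one, one_pow]
  have ht2 : t * t = 1 := by
    have h1 : orderOf (t * t) ∣ 2 ^ a := orderOf_dvd_of_pow_eq_one ht2a
    have h2 : orderOf (t * t) ∣ Nat.card (Subgroup.centralizer ({x} : Set G)) := by
      have := orderOf_dvd_natCard (⟨t * t, ht2mem⟩ : Subgroup.centralizer ({x} : Set G))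
      rwa [Subgroup.orderOf_mk] at this
    have h3 : Odd (orderOf (t * t)) := Odd.of_dvd_nat hodd h2
    have h4 : orderOf (t * t) = 1 := by
      obtain ⟨j, _, hj⟩ := (Nat.dvd_prime_pow Nat.prime_two).mp h1
      rw [hj] at h3 ⊢
      rcases Nat.eq_zero_or_pos j with h0 | h0
      · rw [h0, pow_zero]
      · exfalso
        have : Even (2 ^ j) := (Nat.even_pow' h0.ne').mpr even_two
        exact (Nat.not_even_iff_odd.mpr h3) this
    exact orderOf_eq_one_iff.mp h4
  refine ⟨t, Cfsg.Agent.Lib.Helper2.orderOf_eq_two_iff.mpr ⟨ht2, ?_⟩, htx⟩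
  intro h1
  rw [h1] at htx
  simp only [one_mul, inv_one, mul_one] at htx
  -- x = x⁻¹, so x has order dividing 2, but x lies in its centralizer of odd order
  have hx2 : x * x = 1 := by
    nth_rewrite 1 [htx]
    exact inv_mul_cancel x
  have hxo : orderOf x = 2 := Cfsg.Agent.Lib.Helper2.orderOf_eq_two_iff.mpr ⟨hx2, hx⟩
  have hxmem : x ∈ Subgroup.centralizer ({x} : Set G) := by
    rw [Subgroup.mem_centralizer_singleton_iff]
  have h2 : orderOf x ∣ Nat.card (Subgroup.centralizer ({x} : Set G)) := by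
    have := orderOf_dvd_natCard (⟨x, hxmem⟩ : Subgroup.centralizer ({x} : Set G))
    rwa [Subgroup.orderOf_mk] at this
  rw [hxo] at h2
  exact (Nat.not_even_iff_odd.mpr hodd) (even_iff_two_dvd.mpr h2)

end Cfsg.Agent.S0241
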