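import Mathlib
import Cfsg.Agent.Lib.Helper18.PermSp2
import Cfsg.Agent.Lib.Helper18.Symp2
import Cfsg.Statements.S0247
-- import your own Cfsg.Agent.* helpers here

set_option autoImplicit false
open Cfsg Cfsg.Agent.Lib.Helper18 Matrix

namespace Cfsg.Agent.S0247

/-- Sp_4(2) is isomorphic to the symmetric group S_6. -/
theorem result {F : Type*} [Field F] [Fintype F] (hF : Fintype.card F = 2) : Nonempty (Matrix.symplecticGroup (Fin 2) F ≃* Equiv.Perm (Fin 6)) := by
  classical
  have h2 : (2 : F) = 0 := by
    have := Nat.cast_card_eq_zero F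
    rw [hF] at this
    exact_mod_cast this
  obtain ⟨f, hf⟩ := exists_perm_embedding_sp (F := F) (m := 2) h2 le_rfl
  have hcard : Nat.card (Matrix.symplecticGroup (Fin 2) F) = 720 := by
    rw [card_Sp_eq_prod, hF]
    simp [Finset.prod_range_succ]
  have hcard2 : Nat.card (Equiv.Perm (Fin (2 * 2 + 2))) = 720 := by
    rw [Nat.card_eq_fintype_card, Fintype.card_perm, Fintype.card_fin]
    rfl
  have hbij : Function.Bijective f := by
    have : Finite (Matrix.symplecticGroup (Fin 2) F) := Nat.finite_of_card_ne_zero (by omega)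
    exact (Nat.bijective_iff_injective_and_card f).mpr ⟨hf, by rw [hcard, hcard2]⟩
  exact ⟨(MulEquiv.ofBijective f hbij).symm⟩

end Cfsg.Agent.S0247
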