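import Mathlib
import Cfsg.Agent.Lib.Helper18.PermEmb
import Cfsg.Statements.S0250
-- import your own Cfsg.Agent.* helpers here

set_option autoImplicit false
open Cfsg

namespace Cfsg.Agent.S0250

/-- SL_2(2) is isomorphic to S_3. -/
theorem result {F : Type*} [Field F] [Fintype F] (hF : Fintype.card F = 2) : Nonempty (Matrix.SpecialLinearGroup (Fin 2) F ≃* Equiv.Perm (Fin 3)) := by
  have h1 := Cfsg.Agent.Lib.Helper18.card_SL2 (F := F)
  rw [hF] at h1
  have hc := Cfsg.Agent.Lib.Helper18.card_center_SL (F := F) 2 (by norm_num)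
  rw [hF] at hc
  norm_num at hc
  refine Cfsg.Agent.Lib.Helper18.mulEquiv_perm_of_injective
    (MulAction.toPermHom (Matrix.SpecialLinearGroup (Fin 2) F) (Projectivization F (Fin 2 → F))) ?_ 3 ?_ ?_
  · rw [← MonoidHom.ker_eq_bot_iff, Projectivization.SL_mulAction_ker]
    exact hc
  · rw [Cfsg.Agent.Lib.Helper18.card_proj_line, hF]
  · rw [h1]; rfl

end Cfsg.Agent.S0250
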