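import Mathlib
import Cfsg.Agent.Lib.Helper18.PermEmb
import Cfsg.Statements.S0251
-- import your own Cfsg.Agent.* helpers here

set_option autoImplicit false
open Cfsg

namespace Cfsg.Agent.S0251

/-- PSL_2(3) is isomorphic to A_4. -/
theorem result {F : Type*} [Field F] [Fintype F] (hF : Fintype.card F = 3) : Nonempty (Matrix.ProjectiveSpecialLinearGroup (Fin 2) F ≃* alternatingGroup (Fin 4)) := by
  have h1 := Cfsg.Agent.Lib.Helper18.card_PSL2 (F := F)
  rw [hF] at h1
  have h2 : Nat.card (Matrix.ProjectiveSpecialLinearGroup (Fin 2) F) = 12 := by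
    norm_num at h1; omega
  refine Cfsg.Agent.Lib.Helper18.mulEquiv_alternating_of_injective _
    Matrix.ProjectiveSpecialLinearGroup.toPermHom_injective 4 ?_ ?_
  · rw [Cfsg.Agent.Lib.Helper18.card_proj_line, hF]
  · rw [h2]; rfl

end Cfsg.Agent.S0251
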