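import Mathlib
import Cfsg.Agent.Lib.Helper18.Simple60
import Cfsg.Statements.S0253
-- import your own Cfsg.Agent.* helpers here

set_option autoImplicit false
open Cfsg

namespace Cfsg.Agent.S0253

/-- PSL_2(5) is isomorphic to A_5. -/
theorem result {F : Type*} [Field F] [Fintype F] (hF : Fintype.card F = 5) : Nonempty (Matrix.ProjectiveSpecialLinearGroup (Fin 2) F ≃* alternatingGroup (Fin 5)) := by
  have h1 := Cfsg.Agent.Lib.Helper18.card_PSL2 (F := F)
  rw [hF] at h1
  have h2 : Nat.card (Matrix.ProjectiveSpecialLinearGroup (Fin 2) F) = 60 := by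
    norm_num at h1; omega
  have : IsSimpleGroup (Matrix.ProjectiveSpecialLinearGroup (Fin 2) F) :=
    Matrix.ProjectiveSpecialLinearGroup.rank_two_simple (by rw [Nat.card_eq_fintype_card, hF]; norm_num)
  have : Finite (Matrix.ProjectiveSpecialLinearGroup (Fin 2) F) := Nat.finite_of_card_ne_zero (by rw [h2]; norm_num)
  exact Cfsg.Agent.Lib.Helper18.simple60 h2

end Cfsg.Agent.S0253
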