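import Mathlib
import Cfsg.Agent.Lib.Helper18.A5Pres
import Cfsg.Statements.S0254
-- import your own Cfsg.Agent.* helpers here

set_option autoImplicit false
open Cfsg

namespace Cfsg.Agent.S0254

open Matrix

abbrev Zi := ℤ√(-1)
def I0 : Zi := ⟨0, 1⟩
def X0 : Matrix (Fin 2) (Fin 2) Zi := !![1, 1; 0, 1]
def Y0 : Matrix (Fin 2) (Fin 2) Zi := !![0, -1 + I0; -1 - I0, 1 + I0]
theorem X0_pow : X0 ^ 3 = 1 + (3 : Zi) • !![0, 1; 0, 0] := by decide +kernel
theorem Y0_pow : Y0 ^ 5 = 1 + (3 : Zi) • !![⟨1,4⟩, ⟨-4,-4⟩; ⟨4,-4⟩, ⟨-3,8⟩] := by decide +kernel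
theorem XY0_pow : (X0 * Y0) ^ 2 = -1 + (3 : Zi) • 1 := by decide +kernel
theorem Y0_det : Y0.det = 1 + 3 * (-1) := by decide +kernel
theorem X0_det : X0.det = 1 := by decide +kernel

theorem map_add_three {F : Type*} [Field F] (f : Zi →+* F) (h3 : (3 : F) = 0)
    (B M : Matrix (Fin 2) (Fin 2) Zi) : f.mapMatrix (B + (3 : Zi) • M) = f.mapMatrix B := by
  rw [map_add]
  have : f.mapMatrix ((3 : Zi) • M) = 0 := by
    ext i j
    have h3' : f 3 = 0 := by rw [map_ofNat, h3]
    simp [h3']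
  rw [this, add_zero]


/-- PSL_2(9) is isomorphic to A_6. -/
theorem result {F : Type*} [Field F] [Fintype F] (hF : Fintype.card F = 9) : Nonempty (Matrix.ProjectiveSpecialLinearGroup (Fin 2) F ≃* alternatingGroup (Fin 6)) := by
  have hchar : CharP F 3 := by
    obtain ⟨p, hp⟩ := CharP.exists F
    obtain ⟨n, hpp, hn⟩ := FiniteField.card F p
    rw [hF] at hn
    have h1 : p ∣ 9 := by rw [hn]; exact dvd_pow_self p n.pos.ne'
    have h2 : p ∣ 3 := by
      have : p ∣ 3 ^ 2 := by simpa using h1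
      exact hpp.dvd_of_dvd_pow this
    have := (Nat.prime_dvd_prime_iff_eq hpp Nat.prime_three).mp h2
    rw [← this]; exact hp
  have h3 : (3 : F) = 0 := by
    have := CharP.cast_eq_zero F 3
    simpa using this
  obtain ⟨i, hi⟩ : IsSquare (-1 : F) := by
    rw [FiniteField.isSquare_neg_one_iff, hF]; norm_num
  let f : Zi →+* F := Zsqrtd.lift ⟨i, by simp [← hi]⟩
  let x : Matrix.SpecialLinearGroup (Fin 2) F := ⟨f.mapMatrix X0, by
    rw [← RingHom.map_det, X0_det, map_one]⟩
  let y : Matrix.SpecialLinearGroup (Fin 2) F := ⟨f.mapMatrix Y0, by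
    have h3' : f 3 = 0 := by rw [map_ofNat, h3]
    rw [← RingHom.map_det, Y0_det]; simp [h3']⟩
  have hx : x ^ 3 = 1 := by
    apply Subtype.ext
    rw [Matrix.SpecialLinearGroup.coe_pow]
    change (f.mapMatrix X0) ^ 3 = 1
    rw [← map_pow, X0_pow, map_add_three f h3, map_one]
  have hy : y ^ 5 = 1 := by
    apply Subtype.ext
    rw [Matrix.SpecialLinearGroup.coe_pow]
    change (f.mapMatrix Y0) ^ 5 = 1
    rw [← map_pow, Y0_pow, map_add_three f h3, map_one]
  have hxy : (((x * y) ^ 2 : Matrix.SpecialLinearGroup (Fin 2) F) : Matrix (Fin 2) (Fin 2) F) = -1 := by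
    rw [Matrix.SpecialLinearGroup.coe_pow, Matrix.SpecialLinearGroup.coe_mul]
    change (f.mapMatrix X0 * f.mapMatrix Y0) ^ 2 = -1
    rw [← map_mul, ← map_pow, XY0_pow, map_add_three f h3, map_neg, map_one]
  let G := Matrix.ProjectiveSpecialLinearGroup (Fin 2) F
  let xb : G := QuotientGroup.mk x
  let yb : G := QuotientGroup.mk y
  have hxb : xb ^ 3 = 1 := by
    change (QuotientGroup.mk x : G) ^ 3 = 1
    rw [← QuotientGroup.mk_pow, hx]; rfl
  have hyb : yb ^ 5 = 1 := by
    change (QuotientGroup.mk y : G) ^ 5 = 1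
    rw [← QuotientGroup.mk_pow, hy]; rfl
  have hxyb : (xb * yb) ^ 2 = 1 := by
    change ((QuotientGroup.mk x : G) * QuotientGroup.mk y) ^ 2 = 1
    rw [← QuotientGroup.mk_mul, ← QuotientGroup.mk_pow, QuotientGroup.eq_one_iff,
      Matrix.SpecialLinearGroup.mem_center_iff]
    refine ⟨-1, by simp, ?_⟩
    rw [hxy]
    ext a b; fin_cases a <;> fin_cases b <;> simp
  have hxb1 : xb ≠ 1 := by
    intro h
    change (QuotientGroup.mk x : G) = 1 at h
    rw [QuotientGroup.eq_one_iff, Matrix.SpecialLinearGroup.mem_center_iff] at h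
    obtain ⟨r, -, hr⟩ := h
    have := congrFun (congrFun hr 0) 1
    simp [x, X0] at this
  obtain ⟨φ, hφa, hφb⟩ := Cfsg.Agent.Lib.Helper18.exists_hom_A5 xb yb hxb hyb hxyb
  have hA5 : IsSimpleGroup (alternatingGroup (Fin 5)) := alternatingGroup.isSimpleGroup (by simp)
  have hφinj : Function.Injective φ := by
    rw [← MonoidHom.ker_eq_bot_iff]
    rcases φ.normal_ker.eq_bot_or_eq_top with h | h
    · exact h
    · exfalso
      apply hxb1
      rw [← hφa]
      have : Cfsg.Agent.Lib.Helper18.a5a ∈ φ.ker := by rw [h]; trivial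
      exact this
  have hcardG : Nat.card G = 360 := by
    have h1 := Cfsg.Agent.Lib.Helper18.card_PSL2 (F := F)
    rw [hF] at h1
    norm_num at h1
    change 2 * Nat.card G = 720 at h1
    omega
  have hGs : IsSimpleGroup G :=
    Matrix.ProjectiveSpecialLinearGroup.rank_two_simple (by rw [Nat.card_eq_fintype_card, hF]; norm_num)
  have hcardR : Nat.card φ.range = 60 := by
    rw [Nat.card_congr (MonoidHom.ofInjective hφinj).symm.toEquiv, Cfsg.Agent.Lib.Helper18.card_A5]
  have hidx : φ.range.index = 6 := by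
    have := Subgroup.card_mul_index φ.range
    rw [hcardR, hcardG] at this
    omega
  have hne : φ.range ≠ ⊤ := by
    intro h; rw [h, Subgroup.index_top] at hidx; omega
  have hfin : Finite (G ⧸ φ.range) := by
    apply Nat.finite_of_card_ne_zero
    change φ.range.index ≠ 0
    rw [hidx]; norm_num
  exact Cfsg.Agent.Lib.Helper18.mulEquiv_alternating_of_injective _
    (Cfsg.Agent.Lib.Helper18.toPermHom_injective_of_simple φ.range hne) 6 hidx (by rw [hcardG]; rfl)

end Cfsg.Agent.S0254
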