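import Mathlib
import Cfsg.Agent.Lib.Helper18.Carm8
import Cfsg.Agent.Lib.Helper18.Pres168
import Cfsg.Agent.Lib.Helper18.SLGen
import Cfsg.Agent.S0243
import Cfsg.Statements.S0256
-- import your own Cfsg.Agent.* helpers here

set_option autoImplicit false
open Cfsg

namespace Cfsg.Agent.S0256

open Matrix

def M0 : Matrix.SpecialLinearGroup (Fin 4) (ZMod 2) := ⟨!![0, 1, 0, 0; 1, 1, 0, 0; 0, 0, 0, 1; 0, 0, 1, 1], by decide +kernel⟩
def M1 : Matrix.SpecialLinearGroup (Fin 4) (ZMod 2) := ⟨!![1, 1, 0, 0; 1, 0, 0, 0; 1, 0, 1, 1; 1, 1, 1, 0], by decide +kernel⟩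
def M2 : Matrix.SpecialLinearGroup (Fin 4) (ZMod 2) := ⟨!![0, 0, 1, 0; 1, 1, 1, 1; 1, 0, 1, 0; 1, 1, 0, 0], by decide +kernel⟩
def M3 : Matrix.SpecialLinearGroup (Fin 4) (ZMod 2) := ⟨!![1, 0, 1, 0; 0, 0, 1, 1; 1, 0, 0, 0; 1, 1, 1, 1], by decide +kernel⟩
def M4 : Matrix.SpecialLinearGroup (Fin 4) (ZMod 2) := ⟨!![0, 1, 1, 0; 0, 1, 1, 1; 1, 0, 0, 1; 1, 1, 0, 1], by decide +kernel⟩
def M5 : Matrix.SpecialLinearGroup (Fin 4) (ZMod 2) := ⟨!![1, 1, 1, 0; 1, 0, 1, 1; 0, 0, 1, 1; 0, 0, 1, 0], by decide +kernel⟩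
def MM : Fin 6 → Matrix.SpecialLinearGroup (Fin 4) (ZMod 2) := ![M0, M1, M2, M3, M4, M5]

theorem MM_cube : ∀ i, MM i ^ 3 = 1 := by decide +kernel
theorem MM_pair : ∀ i j, i ≠ j → (MM i * MM j) ^ 2 = 1 := by decide +kernel

theorem MM_transv : ∀ (i j : Fin 4) (hij : i ≠ j), ∃ l : List (Fin 6),
    (Matrix.SpecialLinearGroup.transvection hij (1 : ZMod 2)) = (l.map MM).prod := by
  intro i j hij
  fin_cases i <;> fin_cases j
  · exact absurd rfl hij
  · exact ⟨[0, 1, 2, 5, 0, 1, 3, 4], Subtype.ext (by rw [Matrix.SpecialLinearGroup.transvection_coe]; decide +kernel)⟩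
  · exact ⟨[1, 0, 2, 4, 4, 2, 3, 3, 1, 5, 5], Subtype.ext (by rw [Matrix.SpecialLinearGroup.transvection_coe]; decide +kernel)⟩
  · exact ⟨[0, 1, 2, 4, 3, 1, 2, 5], Subtype.ext (by rw [Matrix.SpecialLinearGroup.transvection_coe]; decide +kernel)⟩
  · exact ⟨[0, 1, 4, 5, 0, 1, 2, 3], Subtype.ext (by rw [Matrix.SpecialLinearGroup.transvection_coe]; decide +kernel)⟩
  · exact absurd rfl hij
  · exact ⟨[0, 1, 2, 4, 3, 1, 2, 5, 5, 0], Subtype.ext (by rw [Matrix.SpecialLinearGroup.transvection_coe]; decide +kernel)⟩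
  · exact ⟨[1, 0, 2, 3, 1, 4, 5, 3], Subtype.ext (by rw [Matrix.SpecialLinearGroup.transvection_coe]; decide +kernel)⟩
  · exact ⟨[1, 0, 2, 3, 5, 4, 2, 3], Subtype.ext (by rw [Matrix.SpecialLinearGroup.transvection_coe]; decide +kernel)⟩
  · exact ⟨[0, 1, 2, 4, 3, 5, 2, 4], Subtype.ext (by rw [Matrix.SpecialLinearGroup.transvection_coe]; decide +kernel)⟩
  · exact absurd rfl hij
  · exact ⟨[0, 1, 3, 5, 0, 1, 2, 4], Subtype.ext (by rw [Matrix.SpecialLinearGroup.transvection_coe]; decide +kernel)⟩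
  · exact ⟨[0, 2, 1, 3, 0, 2, 4, 5, 5, 4], Subtype.ext (by rw [Matrix.SpecialLinearGroup.transvection_coe]; decide +kernel)⟩
  · exact ⟨[1, 0, 2, 3, 4, 5, 2, 3], Subtype.ext (by rw [Matrix.SpecialLinearGroup.transvection_coe]; decide +kernel)⟩
  · exact ⟨[0, 1, 4, 5, 0, 1, 3, 2], Subtype.ext (by rw [Matrix.SpecialLinearGroup.transvection_coe]; decide +kernel)⟩
  · exact absurd rfl hij

abbrev rels8 : Set (FreeGroup (Fin 6)) :=
  {r | (∃ i, r = FreeGroup.of i ^ 3) ∨ (∃ i j, i ≠ j ∧ r = (FreeGroup.of i * FreeGroup.of j) ^ 2)}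

theorem lift_rels8 {H : Type*} [Group H] (y : Fin 6 → H) (h3 : ∀ i, y i ^ 3 = 1)
    (h2 : ∀ i j, i ≠ j → (y i * y j) ^ 2 = 1) : ∀ r ∈ rels8, FreeGroup.lift y r = 1 := by
  rintro r (⟨i, rfl⟩ | ⟨i, j, hij, rfl⟩)
  · simp [h3]
  · simp [h2 i j hij]

theorem pres8_card : Finite (PresentedGroup rels8) ∧ Nat.card (PresentedGroup rels8) ≤ 20160 := by
  have h := Cfsg.Agent.Lib.Helper18.carm_bound8 (G := PresentedGroup rels8) PresentedGroup.of
    (fun i => by
      have : PresentedGroup.mk rels8 (FreeGroup.of i ^ 3) = 1 :=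
        PresentedGroup.one_of_mem (Or.inl ⟨i, rfl⟩)
      simpa [PresentedGroup.of] using this)
    (fun i j hij => by
      have : PresentedGroup.mk rels8 ((FreeGroup.of i * FreeGroup.of j) ^ 2) = 1 :=
        PresentedGroup.one_of_mem (Or.inr ⟨i, j, hij, rfl⟩)
      simpa [PresentedGroup.of] using this)
  rw [PresentedGroup.closure_range_of] at h
  obtain ⟨h1, h2⟩ := h
  have e : (⊤ : Subgroup (PresentedGroup rels8)) ≃ PresentedGroup rels8 := Subgroup.topEquiv.toEquiv
  exact ⟨Finite.of_equiv _ e, by rwa [Subgroup.card_top] at h2⟩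

def Y8 : Fin 6 → alternatingGroup (Fin 8) := fun i =>
  ⟨Equiv.swap 0 1 * Equiv.swap 1 (Fin.castLE (by norm_num : 6 ≤ 8) i + 2), by
    rw [Equiv.Perm.mem_alternatingGroup]; revert i; decide +kernel⟩

theorem Y8_cube : ∀ i, Y8 i ^ 3 = 1 := by
  intro i; apply Subtype.ext; revert i; decide +kernel
theorem Y8_pair : ∀ i j, i ≠ j → (Y8 i * Y8 j) ^ 2 = 1 := by
  intro i j hij; apply Subtype.ext; revert i j; decide +kernel
theorem Y8_ne : Y8 0 ≠ 1 := by
  intro h; have := congrArg Subtype.val h; revert this; decide +kernel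

theorem map_transvection {R F : Type*} [Field R] [Field F] (f : R →+* F) {i j : Fin 4} (hij : i ≠ j)
    (c : R) : Matrix.SpecialLinearGroup.map f (Matrix.SpecialLinearGroup.transvection hij c) =
      Matrix.SpecialLinearGroup.transvection hij (f c) := by
  apply Subtype.ext
  ext a b
  simp [Matrix.SpecialLinearGroup.map_apply_coe, Matrix.SpecialLinearGroup.transvection_coe,
    Matrix.one_apply, Matrix.single_apply]
  split_ifs <;> simp


/-- PSL_4(2) is isomorphic to A_8. -/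
theorem result {F : Type*} [Field F] [Fintype F] (hF : Fintype.card F = 2) : Nonempty (Matrix.ProjectiveSpecialLinearGroup (Fin 4) F ≃* alternatingGroup (Fin 8)) := by
  have hcK : CharP F 2 := Cfsg.Agent.Lib.Helper18.charP_of_card_eq_prime_pow 2 1 (by norm_num) (by simpa using hF)
  have hGs : IsSimpleGroup (Matrix.ProjectiveSpecialLinearGroup (Fin 4) F) :=
    Cfsg.Agent.Lib.Helper18.PSL_isSimpleGroup (by simp)
  have hGc : Nat.card (Matrix.ProjectiveSpecialLinearGroup (Fin 4) F) = 20160 := by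
    have h1 := Cfsg.Agent.S0243.result (F := F) hF 4 (by norm_num)
    simp [Fin.prod_univ_four] at h1
    exact h1
  let f : ZMod 2 →+* F := ZMod.castHom (dvd_refl 2) F
  let μ : Matrix.SpecialLinearGroup (Fin 4) (ZMod 2) →* Matrix.SpecialLinearGroup (Fin 4) F :=
    Matrix.SpecialLinearGroup.map f
  let π0 : Matrix.SpecialLinearGroup (Fin 4) (ZMod 2) →* Matrix.ProjectiveSpecialLinearGroup (Fin 4) F :=
    (QuotientGroup.mk' _).comp μ
  have hl := lift_rels8 (fun i => π0 (MM i)) (fun i => by rw [← map_pow, MM_cube, map_one])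
    (fun i j hij => by rw [← map_mul, ← map_pow, MM_pair i j hij, map_one])
  let π : PresentedGroup rels8 →* Matrix.ProjectiveSpecialLinearGroup (Fin 4) F := PresentedGroup.toGroup hl
  obtain ⟨hfin, hcard⟩ := pres8_card
  have h01 : ∀ c : F, c = 0 ∨ c = 1 := by
    intro c
    have := FiniteField.pow_card c
    rw [hF] at this
    have h : c * (c - 1) = 0 := by linear_combination this
    rcases mul_eq_zero.mp h with h | h
    · left; exact h
    · right; linear_combination h
  have hsurj : Function.Surjective π := by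
    intro g
    obtain ⟨A, rfl⟩ := QuotientGroup.mk_surjective g
    refine Cfsg.Agent.Lib.Helper18.SL_transvection_induction
      (fun A => ∃ w, π w = (QuotientGroup.mk A : Matrix.ProjectiveSpecialLinearGroup (Fin 4) F)) ?_ ?_ A
    · intro i j hij c
      rcases h01 c with rfl | rfl
      · exact ⟨1, by rw [map_one, Matrix.SpecialLinearGroup.transvection_coeff_zero]; rfl⟩
      · obtain ⟨l, hl'⟩ := MM_transv i j hij
        refine ⟨(l.map PresentedGroup.of).prod, ?_⟩
        have h1 : Matrix.SpecialLinearGroup.transvection hij (1 : F) = μ (Matrix.SpecialLinearGroup.transvection hij (1 : ZMod 2)) := by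
          rw [show μ = Matrix.SpecialLinearGroup.map f from rfl, map_transvection, map_one]
        rw [h1, hl']
        change _ = π0 ((l.map MM).prod)
        rw [map_list_prod, map_list_prod, List.map_map, List.map_map]
        congr 1
        apply List.map_congr_left
        intro k _
        simp [π]
    · rintro A B ⟨w1, h1⟩ ⟨w2, h2⟩
      exact ⟨w1 * w2, by rw [map_mul, h1, h2]; rfl⟩
  have hbij := Cfsg.Agent.Lib.Helper18.bijective_of_surjective_of_card_le π hsurj (by rw [hGc]; exact hcard)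
  let e1 := MulEquiv.ofBijective π hbij
  have hPs : IsSimpleGroup (PresentedGroup rels8) := e1.isSimpleGroup
  have hPc : Nat.card (PresentedGroup rels8) = 20160 := by rw [Nat.card_congr e1.toEquiv, hGc]
  let ψ : PresentedGroup rels8 →* alternatingGroup (Fin 8) :=
    PresentedGroup.toGroup (lift_rels8 Y8 Y8_cube Y8_pair)
  have hψinj : Function.Injective ψ := by
    rw [← MonoidHom.ker_eq_bot_iff]
    rcases ψ.normal_ker.eq_bot_or_eq_top with h | h
    · exact h
    · exfalso
      apply Y8_ne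
      have : (PresentedGroup.of 0 : PresentedGroup rels8) ∈ ψ.ker := by rw [h]; trivial
      rw [MonoidHom.mem_ker] at this
      simpa [ψ] using this
  have hA8 : Nat.card (alternatingGroup (Fin 8)) = 20160 := by
    have := two_mul_nat_card_alternatingGroup (α := Fin 8)
    rw [Nat.card_eq_fintype_card (α := Equiv.Perm (Fin 8)), Fintype.card_perm, Fintype.card_fin] at this
    have h8 : Nat.factorial 8 = 40320 := rfl
    omega
  have hψbij : Function.Bijective ψ := by
    rw [Nat.bijective_iff_injective_and_card]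
    exact ⟨hψinj, by rw [hPc, hA8]⟩
  exact ⟨e1.symm.trans (MulEquiv.ofBijective ψ hψbij)⟩

end Cfsg.Agent.S0256
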