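import Mathlib
import Cfsg.Agent.Lib.Helper18.SL2Quat
import Cfsg.Agent.Lib.Helper18.SL2b
import Cfsg.Statements.S0261
-- import your own Cfsg.Agent.* helpers here

set_option autoImplicit false
open Cfsg

namespace Cfsg.Agent.S0261

theorem transvection_pow {F : Type*} [Field F] {i j : Fin 2} (hij : i ≠ j) (c : F) (n : ℕ) :
    (Matrix.SpecialLinearGroup.transvection hij c) ^ n =
      Matrix.SpecialLinearGroup.transvection hij (n • c) := by
  induction n with
  | zero => simp [Matrix.SpecialLinearGroup.transvection_coeff_zero]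
  | succ n ih => rw [pow_succ, ih, succ_nsmul, Matrix.SpecialLinearGroup.transvection_add]

theorem not_isCyclic_sylow {F : Type*} [Field F] [Fintype F] (hF : Odd (Fintype.card F))
    (P : Sylow 2 (Matrix.SpecialLinearGroup (Fin 2) F)) :
    ¬ IsCyclic (P : Subgroup (Matrix.SpecialLinearGroup (Fin 2) F)) := by
  intro hcyc
  have : Fact (Nat.Prime 2) := ⟨Nat.prime_two⟩
  have hcard := Cfsg.Agent.Lib.Helper18.card_SL2 (F := F)
  have h2 : 2 ∣ Nat.card (Matrix.SpecialLinearGroup (Fin 2) F) := by
    rw [hcard]
    apply Dvd.dvd.mul_left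
    apply Dvd.dvd.mul_right
    obtain ⟨m, hm⟩ := hF
    exact ⟨m + 1, by omega⟩
  have hmin : (Nat.card (Matrix.SpecialLinearGroup (Fin 2) F)).minFac = 2 :=
    (Nat.minFac_eq_two_iff _).mpr h2
  have hcompl := IsCyclic.isComplement' hmin hcyc
  set φ := MonoidHom.transferSylow P (hcyc.normalizer_le_centralizer hmin) with hφ
  obtain ⟨k, hk⟩ := IsPGroup.iff_card.mp P.isPGroup'
  have htriv : ∀ A, φ A = 1 := by
    intro A
    refine Matrix.SL2.transvection_induction (fun A => φ A = 1) ?_ ?_ A
    · intro i j hij c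
      have h1 : (Matrix.SpecialLinearGroup.transvection hij c) ^ (Fintype.card F) = 1 := by
        rw [transvection_pow, nsmul_eq_mul, Nat.cast_card_eq_zero, zero_mul,
          Matrix.SpecialLinearGroup.transvection_coeff_zero]
      have h3 : orderOf (φ (Matrix.SpecialLinearGroup.transvection hij c)) ∣ Fintype.card F :=
        (orderOf_map_dvd φ _).trans (orderOf_dvd_of_pow_eq_one h1)
      have h4 : orderOf (φ (Matrix.SpecialLinearGroup.transvection hij c)) ∣ 2 ^ k := by
        rw [← hk]; exact orderOf_dvd_natCard _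
      have hcop : Nat.Coprime (Fintype.card F) (2 ^ k) := by
        apply Nat.Coprime.pow_right
        exact (Nat.coprime_two_right).mpr hF
      have := Nat.dvd_gcd h3 h4
      rw [hcop.gcd_eq_one, Nat.dvd_one, orderOf_eq_one_iff] at this
      exact this
    · intro A B hA hB
      simp only [map_mul, hA, hB, mul_one]
  have hker : φ.ker = ⊤ := by
    rw [eq_top_iff]; intro A _; exact htriv A
  rw [hker] at hcompl
  have h5 := hcompl.card_mul_card
  rw [Subgroup.card_top] at h5
  have hpos : 0 < Nat.card (Matrix.SpecialLinearGroup (Fin 2) F) := Nat.card_pos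
  have h6 : Nat.card (P : Subgroup (Matrix.SpecialLinearGroup (Fin 2) F)) = 1 := by
    nlinarith
  have h7 := P.ne_bot_of_dvd_card h2
  exact h7 (Subgroup.card_eq_one.mp h6)


/-- For q odd, the Sylow 2-subgroups of SL_2(q) are generalised quaternion. -/
theorem result {F : Type*} [Field F] [Fintype F] (hF : Odd (Fintype.card F)) (P : Sylow 2 (Matrix.SpecialLinearGroup (Fin 2) F)) : ∃ k : ℕ, 1 ≤ k ∧ Nonempty ((P : Subgroup (Matrix.SpecialLinearGroup (Fin 2) F)) ≃* QuaternionGroup (2 ^ k)) := by
  have hchar : ringChar F ≠ 2 := by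
    intro h
    have := FiniteField.even_card_iff_char_two.mp h
    rw [Nat.odd_iff] at hF
    omega
  have h2ne : (2 : F) ≠ 0 := Ring.two_ne_zero hchar
  let K := AlgebraicClosure F
  have hinj : Function.Injective (algebraMap F K) := (algebraMap F K).injective
  have h2K : (2 : K) ≠ 0 := by
    intro h0
    apply h2ne
    apply hinj
    rw [map_ofNat, h0, map_zero]
  let ρ : (P : Subgroup (Matrix.SpecialLinearGroup (Fin 2) F)) →* Matrix.SpecialLinearGroup (Fin 2) K :=
    (Matrix.SpecialLinearGroup.map (algebraMap F K)).comp (P : Subgroup (Matrix.SpecialLinearGroup (Fin 2) F)).subtype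
  have hρ : Function.Injective ρ := by
    intro x y hxy
    apply Subtype.ext
    ext i j
    have := congrArg (fun g : Matrix.SpecialLinearGroup (Fin 2) K => g i j) hxy
    simp only [ρ, MonoidHom.comp_apply, Subgroup.subtype_apply, Matrix.SpecialLinearGroup.map_apply_coe,
      RingHom.mapMatrix_apply, Matrix.map_apply] at this
    exact hinj this
  rcases Cfsg.Agent.Lib.Helper18.cyclic_or_quaternion h2K P.isPGroup' ρ hρ with h | h
  · exact absurd h (not_isCyclic_sylow hF P)
  · exact h

end Cfsg.Agent.S0261
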