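import Mathlib
import Cfsg.Agent.Lib.Helper18.SL2b
import Cfsg.Agent.Lib.Helper18.SLCard2
import Cfsg.Agent.S0261
import Cfsg.Statements.S0257
-- import your own Cfsg.Agent.* helpers here

set_option autoImplicit false
open Cfsg

namespace Cfsg.Agent.S0257

open Cfsg.Agent.Lib.Helper18 in
theorem normalizer_le_centralizer_US {F : Type*} [Field F] [Fintype F] (hF : Fintype.card F = 3)
    (g : Matrix.SpecialLinearGroup (Fin 2) F)
    (hg : g ∈ Subgroup.normalizer ((US : Subgroup (Matrix.SpecialLinearGroup (Fin 2) F)) : Set _)) :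
    g ∈ Subgroup.centralizer ((US : Subgroup (Matrix.SpecialLinearGroup (Fin 2) F)) : Set _) := by
  rw [Subgroup.mem_normalizer_iff] at hg
  have h1 := (hg (TS 1)).mp (mem_US.mpr ⟨1, rfl⟩)
  obtain ⟨y, hy⟩ := mem_US.mp h1
  have h2 : g * TS 1 = TS y * g := by rw [hy]; group
  have h3 := congrArg (fun A : Matrix.SpecialLinearGroup (Fin 2) F => (A : Matrix (Fin 2) (Fin 2) F) 1 1) h2
  simp only [mul_TS_entries, TS_mul_entries] at h3
  have hc : g 1 0 = 0 := by simpa using h3
  have hd := det_SL2 g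
  rw [hc, mul_zero, sub_zero] at hd
  have ha0 : g 0 0 ≠ 0 := by
    intro h; rw [h, zero_mul] at hd; exact zero_ne_one hd
  have ha2 : g 0 0 ^ 2 = 1 := by
    have := FiniteField.pow_card_sub_one_eq_one (g 0 0) ha0
    rwa [hF] at this
  have had : g 0 0 = g 1 1 := by
    have : g 0 0 * (g 0 0 - g 1 1) = 0 := by linear_combination ha2 - hd
    exact sub_eq_zero.mp ((mul_eq_zero.mp this).resolve_left ha0)
  rw [Subgroup.mem_centralizer_iff]
  intro h hh
  obtain ⟨x, rfl⟩ := mem_US.mp hh
  have h4 := conj_TS_of_upper hc x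
  rw [← had, mul_div_assoc, mul_comm, div_mul_cancel₀ _ ha0] at h4
  rw [mul_inv_eq_iff_eq_mul] at h4
  exact h4.symm


/-- SL_2(3) has a normal subgroup of index 3 isomorphic to the quaternion group of order 8, and its centre has order 2. -/
theorem result {F : Type*} [Field F] [Fintype F] (hF : Fintype.card F = 3) : (∃ Q : Subgroup (Matrix.SpecialLinearGroup (Fin 2) F), Q.Normal ∧ Q.index = 3 ∧ Nonempty (Q ≃* QuaternionGroup 2)) ∧ Nat.card (Subgroup.center (Matrix.SpecialLinearGroup (Fin 2) F)) = 2 := by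
  have : Fact (Nat.Prime 3) := ⟨Nat.prime_three⟩
  have : Fact (Nat.Prime 2) := ⟨Nat.prime_two⟩
  have hchar : CharP F 3 := by
    obtain ⟨p, hp⟩ := CharP.exists F
    obtain ⟨n, hpp, hn⟩ := FiniteField.card F p
    rw [hF] at hn
    have : p ∣ 3 := by rw [hn]; exact dvd_pow_self p n.pos.ne'
    have := (Nat.prime_dvd_prime_iff_eq hpp Nat.prime_three).mp this
    rw [← this]; exact hp
  have hcard := Cfsg.Agent.Lib.Helper18.card_SL2 (F := F)
  rw [hF] at hcard
  norm_num at hcard
  constructor
  · obtain ⟨U, hU⟩ := Cfsg.Agent.Lib.Helper18.exists_sylow_eq_US (F := F) 3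
    have hNC : Subgroup.normalizer ((U : Subgroup (Matrix.SpecialLinearGroup (Fin 2) F)) : Set (Matrix.SpecialLinearGroup (Fin 2) F)) ≤
        Subgroup.centralizer ((U : Subgroup (Matrix.SpecialLinearGroup (Fin 2) F)) : Set (Matrix.SpecialLinearGroup (Fin 2) F)) := by
      rw [hU]
      exact fun g hg => normalizer_le_centralizer_US hF g hg
    have hcompl := MonoidHom.ker_transferSylow_isComplement' U hNC
    set Q := (MonoidHom.transferSylow U hNC).ker with hQ
    have hUcard : Nat.card (U : Subgroup (Matrix.SpecialLinearGroup (Fin 2) F)) = 3 := by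
      rw [Cfsg.Agent.Lib.Helper18.card_sylow_SL2 3 U, hF]
    have hQcard : Nat.card Q = 2 ^ 3 := by
      have := hcompl.card_mul_card
      rw [hUcard, hcard] at this
      omega
    refine ⟨Q, MonoidHom.normal_ker _, ?_, ?_⟩
    · rw [hcompl.symm.index_eq_card, hUcard]
    · obtain ⟨P, hP⟩ := (IsPGroup.of_card hQcard).exists_le_sylow
      have hPcard : Nat.card P = 2 ^ 3 :=
        Cfsg.Agent.Lib.Helper18.sylow_card_of_card_eq (m := 3) (by rw [hcard]; norm_num) (by norm_num) P
      have hQP : Q = P := Subgroup.eq_of_le_of_card_ge hP (by rw [hPcard, hQcard])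
      obtain ⟨k, hk, ⟨e⟩⟩ := Cfsg.Agent.S0261.result (by rw [hF]; decide) P
      have hk1 : k = 1 := by
        have h1 := Nat.card_congr e.toEquiv
        have : NeZero (2 ^ k) := ⟨by positivity⟩
        rw [hPcard, Nat.card_eq_fintype_card, QuaternionGroup.card] at h1
        have h2 : 2 ^ k = 2 ^ 1 := by omega
        exact Nat.pow_right_injective (le_refl 2) h2
      subst hk1
      exact ⟨(MulEquiv.subgroupCongr hQP).trans e⟩
  · rw [Cfsg.Agent.Lib.Helper18.card_center_SL 2 (by norm_num), hF]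
    rfl

end Cfsg.Agent.S0257
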