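import Mathlib
import Cfsg.Agent.Lib.Helper18.SL2Cyc
import Cfsg.Statements.S0262
-- import your own Cfsg.Agent.* helpers here

set_option autoImplicit false
open Cfsg

namespace Cfsg.Agent.S0262

/-- For an odd prime r different from the characteristic, the Sylow r-subgroups of SL_2(q) are cyclic. -/
theorem result {F : Type*} [Field F] [Fintype F] (p : ℕ) [Fact p.Prime] [CharP F p] (r : ℕ) [Fact r.Prime] (hr : r ≠ 2) (hrp : r ≠ p) (R : Sylow r (Matrix.SpecialLinearGroup (Fin 2) F)) : IsCyclic (R : Subgroup (Matrix.SpecialLinearGroup (Fin 2) F)) := by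
  have hr' := Fact.out (p := r.Prime)
  have hp' := Fact.out (p := p.Prime)
  let K := AlgebraicClosure F
  have hinj : Function.Injective (algebraMap F K) := (algebraMap F K).injective
  have hchar : CharP K p := charP_of_injective_algebraMap hinj p
  have hrK : (r : K) ≠ 0 := by
    intro h0
    rw [CharP.cast_eq_zero_iff K p r] at h0
    exact hrp ((Nat.prime_dvd_prime_iff_eq hp' hr').mp h0).symm
  let ρ : (R : Subgroup (Matrix.SpecialLinearGroup (Fin 2) F)) →* Matrix.SpecialLinearGroup (Fin 2) K :=
    (Matrix.SpecialLinearGroup.map (algebraMap F K)).comp (R : Subgroup (Matrix.SpecialLinearGroup (Fin 2) F)).subtype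
  have hρ : Function.Injective ρ := by
    intro x y hxy
    apply Subtype.ext
    ext i j
    have := congrArg (fun g : Matrix.SpecialLinearGroup (Fin 2) K => g i j) hxy
    simp only [ρ, MonoidHom.comp_apply, Subgroup.subtype_apply, Matrix.SpecialLinearGroup.map_apply_coe,
      RingHom.mapMatrix_apply, Matrix.map_apply] at this
    exact hinj this
  exact Cfsg.Agent.Lib.Helper18.isCyclic_of_odd_pgroup r hr hrK R.isPGroup' ρ hρ

end Cfsg.Agent.S0262
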