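import Mathlib
import Cfsg.Agent.Lib.Helper18.SLCard
import Cfsg.Statements.S0265
-- import your own Cfsg.Agent.* helpers here

set_option autoImplicit false
open Cfsg

namespace Cfsg.Agent.S0265

/-- |PGL_n(q)| = |SL_n(q)|: GL_n modulo its centre (the q-1 non-zero scalars) has the same order as the kernel of det. -/
theorem result {F : Type*} [Field F] [Fintype F] (n : ℕ) : Nat.card (Matrix.ProjGenLinGroup (Fin n) F) = Nat.card (Matrix.SpecialLinearGroup (Fin n) F) := by
  classical
  rcases Nat.eq_zero_or_pos n with rfl | hn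
  · have h1 : Subsingleton (Matrix.GeneralLinearGroup (Fin 0) F) := ⟨fun a b => by ext i; exact i.elim0⟩
    have h2 : Subsingleton (Matrix.ProjGenLinGroup (Fin 0) F) :=
      Matrix.ProjGenLinGroup.mk_surjective.subsingleton
    have h3 : Subsingleton (Matrix.SpecialLinearGroup (Fin 0) F) := ⟨fun a b => by ext i; exact i.elim0⟩
    rw [Nat.card_unique, Nat.card_unique]
  · have : Nonempty (Fin n) := ⟨⟨0, hn⟩⟩
    have h1 := Cfsg.Agent.Lib.Helper18.card_GL_eq (n := Fin n) (F := F)
    have h2 : Nat.card (Matrix.GeneralLinearGroup (Fin n) F) =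
        Nat.card (Matrix.ProjGenLinGroup (Fin n) F) *
          Nat.card (Subgroup.center (Matrix.GeneralLinearGroup (Fin n) F)) :=
      Subgroup.card_eq_card_quotient_mul_card_subgroup _
    have h3 : Nat.card (Subgroup.center (Matrix.GeneralLinearGroup (Fin n) F)) = Fintype.card F - 1 := by
      rw [Matrix.GeneralLinearGroup.center_eq_range_scalar]
      have hinj : Function.Injective (Matrix.GeneralLinearGroup.scalar (Fin n) : Fˣ →* _) := by
        intro a b hab
        have := congrArg (fun g : Matrix.GeneralLinearGroup (Fin n) F => (g : Matrix (Fin n) (Fin n) F) ⟨0, hn⟩ ⟨0, hn⟩) hab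
        simpa [Units.ext_iff] using this
      rw [Nat.card_congr (MonoidHom.ofInjective hinj).symm.toEquiv, Nat.card_eq_fintype_card,
        Fintype.card_units]
    rw [h3, h1, mul_comm] at h2
    have hq : 0 < Fintype.card F - 1 := by
      have := Fintype.one_lt_card (α := F)
      omega
    exact (Nat.eq_of_mul_eq_mul_right hq h2).symm

end Cfsg.Agent.S0265
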