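import Cfsg.Statements.S0266
import Cfsg.Agent.Tr.ProjLine

set_option autoImplicit false
open Cfsg

namespace Cfsg.Agent.S0266

open scoped LinearAlgebra.Projectivization MatrixGroups
open Projectivization Matrix Cfsg.Agent.Tr.ProjLine

variable {F : Type*} [Field F]

theorem mk_smul (g : GL (Fin 2) F) (x : ℙ F (Fin 2 → F)) :
    (ProjGenLinGroup.mk g : Matrix.ProjGenLinGroup (Fin 2) F) • x = g • x := by
  induction x using Projectivization.ind with | _ v hv => rfl

theorem mk_eq_one_of_fix (B : GL (Fin 2) F) (h0 : B • (P0 : ℙ F (Fin 2 → F)) = P0)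
    (h1 : B • (P1 : ℙ F (Fin 2 → F)) = P1) (h2 : B • (P2 : ℙ F (Fin 2 → F)) = P2) :
    (ProjGenLinGroup.mk B : Matrix.ProjGenLinGroup (Fin 2) F) = 1 := by
  obtain ⟨h01, h10, h00⟩ := scalar_of_fix B h0 h1 h2
  have hdet : B.1.det ≠ 0 := by
    have := (Matrix.isUnit_iff_isUnit_det _).1 B.isUnit
    exact this.ne_zero
  have hne : B.1 0 0 ≠ 0 := by
    intro h
    apply hdet
    rw [det_fin_two, h01, h, zero_mul, zero_mul, sub_zero]
  have hB : B = GeneralLinearGroup.scalar (Fin 2) (Units.mk0 _ hne) := by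
    apply Units.ext
    ext i j
    fin_cases i <;> fin_cases j <;> simp [h01, h10, ← h00]
  rw [hB]
  exact ProjGenLinGroup.mk_scalar _

/-- PGL_2(F) is sharply 3-transitive on the projective line: it is 3-transitive and the stabiliser of three distinct points is trivial. -/
theorem result {F : Type*} [Field F] : MulAction.IsMultiplyPretransitive (Matrix.ProjGenLinGroup (Fin 2) F) (Projectivization F (Fin 2 → F)) 3 ∧ ∀ (g : Matrix.ProjGenLinGroup (Fin 2) F) (a b c : Projectivization F (Fin 2 → F)), a ≠ b → a ≠ c → b ≠ c → g • a = a → g • b = b → g • c = c → g = 1 := by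
  constructor
  · constructor
    intro x y
    obtain ⟨g, g0, g1, g2⟩ := exists_std (x 0) (x 1) (x 2) (fun h => absurd (x.injective h) (by decide))
      (fun h => absurd (x.injective h) (by decide)) (fun h => absurd (x.injective h) (by decide))
    obtain ⟨k, k0, k1, k2⟩ := exists_std (y 0) (y 1) (y 2) (fun h => absurd (y.injective h) (by decide))
      (fun h => absurd (y.injective h) (by decide)) (fun h => absurd (y.injective h) (by decide))
    refine ⟨ProjGenLinGroup.mk (k * g⁻¹), ?_⟩
    ext i
    rw [Function.Embedding.smul_apply, mk_smul, mul_smul]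
    fin_cases i
    · change k • g⁻¹ • x 0 = y 0
      rw [← g0, inv_smul_smul, k0]
    · change k • g⁻¹ • x 1 = y 1
      rw [← g1, inv_smul_smul, k1]
    · change k • g⁻¹ • x 2 = y 2
      rw [← g2, inv_smul_smul, k2]
  · intro g a b c hab hac hbc ha hb hc
    induction g using Matrix.ProjGenLinGroup.induction_on with | mk A =>
    rw [mk_smul] at ha hb hc
    obtain ⟨h, h0, h1, h2⟩ := exists_std a b c hab hac hbc
    have hB := mk_eq_one_of_fix (h⁻¹ * A * h)
      (by rw [mul_smul, mul_smul, h0, ha, ← h0, inv_smul_smul])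
      (by rw [mul_smul, mul_smul, h1, hb, ← h1, inv_smul_smul])
      (by rw [mul_smul, mul_smul, h2, hc, ← h2, inv_smul_smul])
    rw [map_mul, map_mul, map_inv] at hB
    have : (ProjGenLinGroup.mk A : Matrix.ProjGenLinGroup (Fin 2) F) =
        ProjGenLinGroup.mk h * ((ProjGenLinGroup.mk h)⁻¹ * ProjGenLinGroup.mk A * ProjGenLinGroup.mk h) *
          (ProjGenLinGroup.mk h)⁻¹ := by group
    rw [this, hB, mul_one, mul_inv_cancel]

end Cfsg.Agent.S0266
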