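import Cfsg.Statements.S0267
import Cfsg.Agent.Tr.ProjLine

set_option autoImplicit false
open Cfsg

namespace Cfsg.Agent.S0267

open scoped LinearAlgebra.Projectivization MatrixGroups
open Projectivization Matrix Cfsg.Agent.Tr.ProjLine

variable {F : Type*} [Field F]

theorem sl_smul_zero (s : SpecialLinearGroup (Fin 2) F) (v : Fin 2 → F) :
    (s • v) 0 = s.1 0 0 * v 0 + s.1 0 1 * v 1 := by
  change (s.1 *ᵥ v) 0 = _
  simp [Matrix.mulVec, dotProduct, Fin.sum_univ_two]

theorem sl_smul_one (s : SpecialLinearGroup (Fin 2) F) (v : Fin 2 → F) :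
    (s • v) 1 = s.1 1 0 * v 0 + s.1 1 1 * v 1 := by
  change (s.1 *ᵥ v) 1 = _
  simp [Matrix.mulVec, dotProduct, Fin.sum_univ_two]

theorem smul_eq_of_scalar (s : SpecialLinearGroup (Fin 2) F) (A : GL (Fin 2) F) (c : F)
    (h : s.1 = c • A.1) (x : ℙ F (Fin 2 → F)) : s • x = A • x := by
  induction x using Projectivization.ind with | _ v hv =>
  rw [smul_mk, smul_mk, mk_eq_iff, sl_smul_zero, sl_smul_one, smul_zero', smul_one', h]
  simp only [Matrix.smul_apply, smul_eq_mul]
  ring

/-- the embedding attached to three distinct points. -/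
def emb (a b c : ℙ F (Fin 2 → F)) (hab : a ≠ b) (hac : a ≠ c) (hbc : b ≠ c) :
    Fin 3 ↪ ℙ F (Fin 2 → F) :=
  ⟨![a, b, c], by
    intro i j h
    fin_cases i <;> fin_cases j <;> simp_all [eq_comm]⟩

/-- SL_2(q) is 3-transitive on the q+1 points of the projective line if and only if q is even. -/
theorem result {F : Type*} [Field F] [Fintype F] : MulAction.IsMultiplyPretransitive (Matrix.SpecialLinearGroup (Fin 2) F) (Projectivization F (Fin 2 → F)) 3 ↔ ringChar F = 2 := by
  constructor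
  · intro h3
    by_contra hchar
    obtain ⟨ν, hν⟩ := FiniteField.exists_nonsquare hchar
    have hν0 : ν ≠ 0 := by
      rintro rfl
      exact hν (IsSquare.zero)
    have hne : (![ν, 1] : Fin 2 → F) ≠ 0 := fun h => one_ne_zero (congrFun h 1)
    have h01 : (P0 : ℙ F (Fin 2 → F)) ≠ P1 := by
      unfold P0 P1
      rw [Ne, mk_eq_iff]; simp
    have h02 : (P0 : ℙ F (Fin 2 → F)) ≠ P2 := by
      unfold P0 P2
      rw [Ne, mk_eq_iff]; simp
    have h12 : (P1 : ℙ F (Fin 2 → F)) ≠ P2 := by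
      unfold P1 P2
      rw [Ne, mk_eq_iff]; simp
    have h0ν : (P0 : ℙ F (Fin 2 → F)) ≠ Projectivization.mk F ![ν, 1] hne := by
      unfold P0
      rw [Ne, mk_eq_iff]; simp
    have h1ν : (P1 : ℙ F (Fin 2 → F)) ≠ Projectivization.mk F ![ν, 1] hne := by
      unfold P1
      rw [Ne, mk_eq_iff]; simpa using hν0.symm
    obtain ⟨s, hs⟩ := h3.exists_smul_eq (emb P0 P1 P2 h01 h02 h12) (emb P0 P1 _ h01 h0ν h1ν)
    have e0 : s • (P0 : ℙ F (Fin 2 → F)) = P0 := congrArg (fun f => f 0) hs
    have e1 : s • (P1 : ℙ F (Fin 2 → F)) = P1 := congrArg (fun f => f 1) hs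
    have e2 : s • (P2 : ℙ F (Fin 2 → F)) = Projectivization.mk F ![ν, 1] hne := congrArg (fun f => f 2) hs
    unfold P0 at e0
    unfold P1 at e1
    unfold P2 at e2
    rw [smul_mk, mk_eq_iff, sl_smul_zero, sl_smul_one] at e0 e1 e2
    simp only [cons_val_zero, cons_val_one, cons_val_fin_one, mul_one, mul_zero, add_zero, zero_add] at e0 e1 e2
    have hdet := s.2
    rw [det_fin_two, e1, ← e0] at hdet
    rw [e1, ← e0] at e2
    simp only [add_zero, zero_add, mul_zero, sub_zero] at hdet e2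
    apply hν
    refine ⟨s.1 0 0, ?_⟩
    calc ν = (s.1 0 0 * s.1 1 1) * ν := by rw [hdet, one_mul]
      _ = s.1 0 0 * (s.1 1 1 * ν) := by ring
      _ = s.1 0 0 * s.1 0 0 := by rw [← e2]
  · intro hchar
    constructor
    intro x y
    obtain ⟨g, g0, g1, g2⟩ := exists_std (x 0) (x 1) (x 2) (fun h => absurd (x.injective h) (by decide))
      (fun h => absurd (x.injective h) (by decide)) (fun h => absurd (x.injective h) (by decide))
    obtain ⟨k, k0, k1, k2⟩ := exists_std (y 0) (y 1) (y 2) (fun h => absurd (y.injective h) (by decide))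
      (fun h => absurd (y.injective h) (by decide)) (fun h => absurd (y.injective h) (by decide))
    set A : GL (Fin 2) F := k * g⁻¹ with hA
    have hdet : A.1.det ≠ 0 := ((Matrix.isUnit_iff_isUnit_det _).1 A.isUnit).ne_zero
    obtain ⟨c, hc⟩ := FiniteField.isSquare_of_char_two hchar (A.1.det)⁻¹
    let s : SpecialLinearGroup (Fin 2) F := ⟨c • A.1, by
      rw [Matrix.det_smul, Fintype.card_fin, pow_two, ← hc, inv_mul_cancel₀ hdet]⟩
    refine ⟨s, ?_⟩
    ext i
    rw [Function.Embedding.smul_apply, smul_eq_of_scalar s A c rfl, hA, mul_smul]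
    fin_cases i
    · change k • g⁻¹ • x 0 = y 0
      rw [← g0, inv_smul_smul, k0]
    · change k • g⁻¹ • x 1 = y 1
      rw [← g1, inv_smul_smul, k1]
    · change k • g⁻¹ • x 2 = y 2
      rw [← g2, inv_smul_smul, k2]

end Cfsg.Agent.S0267
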