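import Mathlib
import Cfsg.Statements.S0268
-- import your own Cfsg.Agent.* helpers here

set_option autoImplicit false
open Cfsg

namespace Cfsg.Agent.S0268

/-- For q odd, -1 is the unique involution of SL_2(q). -/
theorem result {F : Type*} [Field F] [Fintype F] (hF : Odd (Fintype.card F)) (g : Matrix.SpecialLinearGroup (Fin 2) F) (h1 : g ≠ 1) (h2 : g * g = 1) : (g : Matrix (Fin 2) (Fin 2) F) = -1 := by
  have hchar : ringChar F ≠ 2 := by
    intro h
    have := FiniteField.even_card_iff_char_two.mp h
    rw [Nat.odd_iff] at hF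
    omega
  have h2ne : (2 : F) ≠ 0 := Ring.two_ne_zero hchar
  have hinv : g = g⁻¹ := eq_inv_of_mul_eq_one_left h2
  have hdet := g.det_coe
  rw [Matrix.det_fin_two] at hdet
  have e00 : g 0 0 = g 1 1 := by
    have := congrArg (fun x : Matrix.SpecialLinearGroup (Fin 2) F => x 0 0) hinv
    simpa [Matrix.SpecialLinearGroup.SL2_inv_expl] using this
  have e01 : g 0 1 = - g 0 1 := by
    have := congrArg (fun x : Matrix.SpecialLinearGroup (Fin 2) F => x 0 1) hinv
    simpa [Matrix.SpecialLinearGroup.SL2_inv_expl] using this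
  have e10 : g 1 0 = - g 1 0 := by
    have := congrArg (fun x : Matrix.SpecialLinearGroup (Fin 2) F => x 1 0) hinv
    simpa [Matrix.SpecialLinearGroup.SL2_inv_expl] using this
  have b0 : g 0 1 = 0 := by
    have : 2 * g 0 1 = 0 := by linear_combination e01
    exact (mul_eq_zero.mp this).resolve_left h2ne
  have c0 : g 1 0 = 0 := by
    have : 2 * g 1 0 = 0 := by linear_combination e10
    exact (mul_eq_zero.mp this).resolve_left h2ne
  have ha : (g 0 0 - 1) * (g 0 0 + 1) = 0 := by
    change (g 0 0) * (g 1 1) - (g 0 1) * (g 1 0) = 1 at hdet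
    rw [b0, c0, ← e00] at hdet
    linear_combination hdet
  rcases mul_eq_zero.mp ha with h | h
  · exfalso
    apply h1
    ext i j
    fin_cases i <;> fin_cases j
    · simpa using sub_eq_zero.mp h
    · simpa using b0
    · simpa using c0
    · simpa using (e00.symm.trans (sub_eq_zero.mp h))
  · have ha' : g 0 0 = -1 := eq_neg_of_add_eq_zero_left h
    ext i j
    fin_cases i <;> fin_cases j
    · simpa using ha'
    · simpa using b0
    · simpa using c0
    · simpa using (e00.symm.trans ha')

end Cfsg.Agent.S0268
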