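import Cfsg.Statements.S0274
import Cfsg.Agent.H12.Dk19

set_option autoImplicit false
open Cfsg
open Cfsg.Agent.H12.Dk

namespace Cfsg.Agent.S0274

/-- Dickson's Theorem for SL_2: if p is odd and H is a subgroup of SL_2(q), q a power of p, with more than one Sylow p-subgroup, then H contains a copy of SL_2(p). -/
theorem result {F : Type*} [Field F] [Fintype F] (p : ℕ) [Fact p.Prime] [CharP F p] (hp : p ≠ 2) (H : Subgroup (Matrix.SpecialLinearGroup (Fin 2) F)) (hH : 1 < Nat.card (Sylow p H)) : ∃ K : Subgroup (Matrix.SpecialLinearGroup (Fin 2) F), K ≤ H ∧ Nonempty (K ≃* Matrix.SpecialLinearGroup (Fin 2) (ZMod p)) := by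

  have hfinSL : Finite (Matrix.SpecialLinearGroup (Fin 2) F) := by
    have : Finite (Matrix (Fin 2) (Fin 2) F) := inferInstance
    exact Subtype.finite
  obtain ⟨P⟩ : Nonempty (Sylow p H) := inferInstance
  have hex : ∃ x ∈ (P : Subgroup H), x ∉ Cfsg.pCore p ↥H := by
    by_contra hcon
    push Not at hcon
    have hle : (P : Subgroup H) ≤ Cfsg.pCore p ↥H := hcon
    have heq : (P : Subgroup H) = Cfsg.pCore p ↥H := le_antisymm hle (Cfsg.Agent.H12.pCore_le_sylow P)
    have hn : (P : Subgroup H).Normal := by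
      rw [heq]
      have := Cfsg.Agent.H12.pCore_characteristic p ↥H
      infer_instance
    have := Sylow.unique_of_normal P hn
    rw [Nat.card_unique] at hH
    exact lt_irrefl _ hH
  obtain ⟨x, hxP, hx⟩ := hex
  have hxp : ∃ n : ℕ, x ^ (p ^ n) = 1 := by
    obtain ⟨n, hn⟩ := P.2 ⟨x, hxP⟩
    exact ⟨n, congrArg Subtype.val hn⟩
  obtain ⟨g, l, hl, hln⟩ := baer_suzuki_elt p hxp hx
  have hlG : (l : Matrix.SpecialLinearGroup (Fin 2) F) ∈ Subgroup.closure {(x : Matrix.SpecialLinearGroup (Fin 2) F),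
      (g : Matrix.SpecialLinearGroup (Fin 2) F) * x * (g : Matrix.SpecialLinearGroup (Fin 2) F)⁻¹} := by
    have h1 : H.subtype l ∈ (Subgroup.closure {x, g * x * g⁻¹}).map H.subtype :=
      Subgroup.mem_map_of_mem _ hl
    rw [MonoidHom.map_closure, Set.image_pair] at h1
    exact h1
  obtain ⟨n, hn⟩ := hxp
  have hn' : (x : Matrix.SpecialLinearGroup (Fin 2) F) ^ (p ^ n) = 1 := congrArg Subtype.val hn
  obtain ⟨K, hK, hiso⟩ := dickson_sl2p p hp (x := (x : Matrix.SpecialLinearGroup (Fin 2) F))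
    (y := (g : Matrix.SpecialLinearGroup (Fin 2) F) * x * (g : Matrix.SpecialLinearGroup (Fin 2) F)⁻¹) ⟨n, hn'⟩
    ⟨n, by rw [conj_pow, hn']; simp⟩ ⟨l, hlG, fun m hm => hln m (Subtype.ext hm)⟩
  refine ⟨K, hK.trans ?_, hiso⟩
  rw [Subgroup.closure_le]
  rintro z (rfl | hz)
  · exact x.2
  · rw [Set.mem_singleton_iff] at hz
    subst hz
    exact mul_mem (mul_mem g.2 x.2) (inv_mem g.2)

end Cfsg.Agent.S0274
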