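import Mathlib
import Cfsg.Agent.Lib.Helper18.PermEmb
import Cfsg.Agent.S0268
import Cfsg.Statements.S0276
-- import your own Cfsg.Agent.* helpers here

set_option autoImplicit false
open Cfsg

namespace Cfsg.Agent.S0276

theorem sq_of_pow_four {F : Type*} [Field F] (g : Matrix.SpecialLinearGroup (Fin 2) F)
    (h : ((g ^ 4 : Matrix.SpecialLinearGroup (Fin 2) F) : Matrix (Fin 2) (Fin 2) F) = -1) :
    IsSquare (2 : F) := by
  set M : Matrix (Fin 2) (Fin 2) F := (g : Matrix (Fin 2) (Fin 2) F) with hM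
  have hdet : M 0 0 * M 1 1 - M 0 1 * M 1 0 = 1 := by
    have := g.det_coe
    rwa [Matrix.det_fin_two] at this
  have h4 : M * M * (M * M) = -1 := by
    have : ((g ^ 4 : Matrix.SpecialLinearGroup (Fin 2) F) : Matrix (Fin 2) (Fin 2) F) = M * M * (M * M) := by
      rw [Matrix.SpecialLinearGroup.coe_pow]
      simp only [pow_succ, pow_zero, one_mul, mul_assoc, hM]
    rw [← this, h]
  have h00 := congrFun (congrFun h4 0) 0
  have h11 := congrFun (congrFun h4 1) 1
  simp only [Matrix.mul_apply, Fin.sum_univ_two, Matrix.neg_apply, Matrix.one_apply_eq] at h00 h11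
  generalize M 0 0 = a at *
  generalize M 0 1 = b at *
  generalize M 1 0 = c at *
  generalize M 1 1 = d at *
  have key : ((a + d) ^ 2 - 2) ^ 2 = 0 := by
    linear_combination h00 + h11 + ((a ^ 2 + b * c) + (a ^ 2 + a * d - 1) + (d ^ 2 + b * c) + (d ^ 2 + a * d - 1) + 2 * (a + d) ^ 2) * hdet
  have key2 : (a + d) ^ 2 - 2 = 0 := by
    exact pow_eq_zero_iff (two_ne_zero) |>.mp key
  exact ⟨a + d, by linear_combination -key2⟩


/-- For q = 3 or 5 mod 8 the Sylow 2-subgroups of PSL_2(q) are elementary abelian of order 4. -/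
theorem result {F : Type*} [Field F] [Fintype F] {q : ℕ} (hF : Fintype.card F = q) (hq : q % 8 = 3 ∨ q % 8 = 5) (P : Sylow 2 (Matrix.ProjectiveSpecialLinearGroup (Fin 2) F)) : IsKleinFour (P : Subgroup (Matrix.ProjectiveSpecialLinearGroup (Fin 2) F)) := by
  subst hF
  have hodd : Odd (Fintype.card F) := by
    rw [Nat.odd_iff]; omega
  have hnsq : ¬ IsSquare (2 : F) := by
    rw [FiniteField.isSquare_two_iff]
    omega
  have h1 := Cfsg.Agent.Lib.Helper18.card_PSL2 (F := F)
  have hgcd : Nat.gcd 2 (Fintype.card F - 1) = 2 := by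
    apply Nat.gcd_eq_left
    rw [Nat.odd_iff] at hodd
    omega
  rw [hgcd] at h1
  have : Finite (Matrix.ProjectiveSpecialLinearGroup (Fin 2) F) := by
    apply Nat.finite_of_card_ne_zero
    intro h0
    rw [h0] at h1
    have hq : 1 < Fintype.card F := Fintype.one_lt_card
    have : 0 < Fintype.card F * ((Fintype.card F + 1) * (Fintype.card F - 1)) := by
      have : 0 < Fintype.card F - 1 := by omega
      positivity
    omega
  have hcard : Nat.card P = 2 ^ 2 := by
    rcases hq with hq | hq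
    · obtain ⟨k, hk⟩ : ∃ k, Fintype.card F = 8 * k + 3 := ⟨Fintype.card F / 8, by omega⟩
      rw [hk] at h1
      refine Cfsg.Agent.Lib.Helper18.sylow_card_of_card_eq (m := (8 * k + 3) * ((2 * k + 1) * (4 * k + 1))) ?_ ?_ P
      · have e : 8 * k + 3 - 1 = 2 * (4 * k + 1) := by omega
        rw [e] at h1
        have : 2 * Nat.card (Matrix.ProjectiveSpecialLinearGroup (Fin 2) F) =
          2 * (2 ^ 2 * ((8 * k + 3) * ((2 * k + 1) * (4 * k + 1)))) := by rw [h1]; ring
        omega
      · rw [← even_iff_two_dvd, Nat.not_even_iff_odd]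
        exact Odd.mul ⟨4 * k + 1, by ring⟩ (Odd.mul ⟨k, by ring⟩ ⟨2 * k, by ring⟩)
    · obtain ⟨k, hk⟩ : ∃ k, Fintype.card F = 8 * k + 5 := ⟨Fintype.card F / 8, by omega⟩
      rw [hk] at h1
      refine Cfsg.Agent.Lib.Helper18.sylow_card_of_card_eq (m := (8 * k + 5) * ((4 * k + 3) * (2 * k + 1))) ?_ ?_ P
      · have e : 8 * k + 5 - 1 = 4 * (2 * k + 1) := by omega
        rw [e] at h1
        have : 2 * Nat.card (Matrix.ProjectiveSpecialLinearGroup (Fin 2) F) =
          2 * (2 ^ 2 * ((8 * k + 5) * ((4 * k + 3) * (2 * k + 1)))) := by rw [h1]; ring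
        omega
      · rw [← even_iff_two_dvd, Nat.not_even_iff_odd]
        exact Odd.mul ⟨4 * k + 2, by ring⟩ (Odd.mul ⟨2 * k + 1, by ring⟩ ⟨k, by ring⟩)
  have hsq : ∀ x : (P : Subgroup (Matrix.ProjectiveSpecialLinearGroup (Fin 2) F)), x ^ 2 = 1 := by
    intro x
    have hx4 : x ^ 4 = 1 := by
      have := pow_card_eq_one' (G := (P : Subgroup (Matrix.ProjectiveSpecialLinearGroup (Fin 2) F))) (x := x)
      rw [hcard] at this
      simpa using this
    obtain ⟨g, hg⟩ := QuotientGroup.mk_surjective (x : Matrix.ProjectiveSpecialLinearGroup (Fin 2) F)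
    have hg4 : g ^ 4 ∈ Subgroup.center (Matrix.SpecialLinearGroup (Fin 2) F) := by
      rw [← QuotientGroup.eq_one_iff, QuotientGroup.mk_pow, hg]
      have := congrArg Subtype.val hx4
      simpa using this
    rw [Matrix.SpecialLinearGroup.mem_center_iff] at hg4
    obtain ⟨r, hr, hr2⟩ := hg4
    simp only [Fintype.card_fin] at hr
    have hr' : r = 1 ∨ r = -1 := by
      have : (r - 1) * (r + 1) = 0 := by linear_combination hr
      rcases mul_eq_zero.mp this with h | h
      · left; linear_combination h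
      · right; linear_combination h
    have hg41 : g ^ 4 = 1 := by
      rcases hr' with rfl | rfl
      · apply Subtype.ext
        rw [← hr2]; simp
      · exfalso
        apply hnsq
        apply sq_of_pow_four g
        rw [← hr2]; simp
        ext i j; fin_cases i <;> fin_cases j <;> simp
    have hg2 : g ^ 2 ∈ Subgroup.center (Matrix.SpecialLinearGroup (Fin 2) F) := by
      by_cases h1 : g ^ 2 = 1
      · rw [h1]; exact one_mem _
      · have := Cfsg.Agent.S0268.result hodd (g ^ 2) h1 (by rw [← pow_add]; exact hg41)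
        rw [Matrix.SpecialLinearGroup.mem_center_iff]
        exact ⟨-1, by simp, by rw [this]; simp; ext i j; fin_cases i <;> fin_cases j <;> simp⟩
    rw [← QuotientGroup.eq_one_iff, QuotientGroup.mk_pow, hg] at hg2
    apply Subtype.ext
    simpa using hg2
  refine ⟨by rw [hcard]; norm_num, ?_⟩
  have hdvd : Monoid.exponent (P : Subgroup (Matrix.ProjectiveSpecialLinearGroup (Fin 2) F)) ∣ 2 :=
    Monoid.exponent_dvd_of_forall_pow_eq_one hsq
  rcases (Nat.Prime.eq_one_or_self_of_dvd Nat.prime_two _ hdvd) with h | h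
  · exfalso
    rw [Monoid.exp_eq_one_iff] at h
    have := Nat.card_eq_one_iff_unique.mpr ⟨h, ⟨1⟩⟩
    rw [hcard] at this
    norm_num at this
  · exact h

end Cfsg.Agent.S0276
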