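import Mathlib
import Cfsg.Agent.Lib.Helper18.FieldEmb
import Cfsg.Agent.Lib.Helper18.Herm4
import Cfsg.Agent.Lib.Helper18.SL2b
import Cfsg.Agent.S0278
import Cfsg.Statements.S0281
-- import your own Cfsg.Agent.* helpers here

set_option autoImplicit false
open Cfsg Cfsg.Agent.Lib.Helper18 Matrix

namespace Cfsg.Agent.S0281

theorem two_J {F : Type*} [Field F] (A : Matrix (Fin 2) (Fin 2) F) :
    Aᵀ * !![0, 1; -1, 0] * A = A.det • !![0, 1; -1, 0] := by
  ext i j
  fin_cases i <;> fin_cases j <;>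
    simp [Matrix.mul_apply, Fin.sum_univ_two, Matrix.det_fin_two] <;> ring

theorem exists_T {F : Type*} [Field F] [Fintype F] {q : ℕ} (hF : Fintype.card F = q ^ 2) :
    ∃ (T : Matrix (Fin 2) (Fin 2) F) (ε : F), T.det ≠ 0 ∧
      Tᵀ * T.map (· ^ q) = ε • !![0, 1; -1, 0] := by
  classical
  have hq := herm_q_pos hF
  obtain ⟨ε, hε0, hε⟩ := exists_skew hF
  have hneg : (-1 : F) ^ q = -1 := by
    have := herm_sub_pow hF (0 : F) 1
    rw [zero_sub, zero_pow (by omega), one_pow, zero_sub] at this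
    exact this
  obtain ⟨β, hβ0, hβ⟩ := herm_norm_surj hF (-1 : F) hneg (by simp)
  obtain ⟨ζ, hζ1, hζ⟩ : ∃ ζ : F, ζ ≠ 1 ∧ ζ ^ (q + 1) = 1 := by
    by_contra hcon
    push Not at hcon
    have h1 := herm_card_norm_one hF
    have : Subsingleton {a : F // a ^ (q + 1) = 1} := by
      constructor
      intro a b
      apply Subtype.ext
      have ha : a.1 = 1 := by
        by_contra h
        exact hcon a.1 h a.2
      have hb : b.1 = 1 := by
        by_contra h
        exact hcon b.1 h b.2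
      rw [ha, hb]
    have h2 := Finite.card_le_one_iff_subsingleton.2 this
    omega
  have hζ0 : ζ ≠ 0 := by
    rintro rfl
    rw [zero_pow (by omega)] at hζ
    exact zero_ne_one hζ
  have hγ : 1 - ζ ^ q ≠ 0 := by
    intro h
    have h1 : ζ ^ q = 1 := (sub_eq_zero.1 h).symm
    rw [pow_succ, h1, one_mul] at hζ
    exact hζ1 hζ
  obtain ⟨l, hl⟩ : ∃ l : F, l = (ε / (1 - ζ ^ q)) ^ q := ⟨_, rfl⟩
  have hlq : l ^ q * (1 - ζ ^ q) = ε := by
    rw [hl, herm_pow_pow hF]
    field_simp
  have hl0 : l ≠ 0 := by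
    rintro rfl
    rw [zero_pow (by omega), zero_mul] at hlq
    exact hε0 hlq.symm
  have hl1 : l * (1 - ζ) = -ε := by
    have h1 : ε ^ q = -ε := by linear_combination hε
    rw [← h1, ← hlq, mul_pow, herm_pow_pow hF, herm_sub_pow hF, one_pow, herm_pow_pow hF]
  refine ⟨!![1, l; β, l * β * ζ], ε, ?_, ?_⟩
  · rw [Matrix.det_fin_two_of]
    have : 1 * (l * β * ζ) - l * β = l * β * (ζ - 1) := by ring
    rw [this]
    exact mul_ne_zero (mul_ne_zero hl0 hβ0) (sub_ne_zero.2 hζ1)
  · rw [pow_succ] at hβ hζ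
    ext a b
    fin_cases a <;> fin_cases b <;>
      simp [Matrix.mul_apply, Fin.sum_univ_two, mul_pow]
    · linear_combination hβ
    · linear_combination hlq + l ^ q * ζ ^ q * hβ
    · linear_combination hl1 + l * ζ * hβ
    · linear_combination l * l ^ q * (ζ ^ q * ζ) * hβ - l * l ^ q * hζ

/-- SU_2(q) is isomorphic to SL_2(q). -/
theorem result {F K : Type*} [Field F] [Fintype F] [Field K] [Fintype K] {q : ℕ} (hF : Fintype.card F = q ^ 2) (hK : Fintype.card K = q) : Nonempty (Cfsg.SU 2 F q ≃* Matrix.SpecialLinearGroup (Fin 2) K) := by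
  classical
  obtain ⟨i⟩ := exists_ringHom_of_card_sq hK hF
  obtain ⟨T, ε, hT, hH⟩ := exists_T hF
  have hTS : T * T⁻¹ = 1 := Matrix.mul_nonsing_inv T (isUnit_iff_ne_zero.2 hT)
  have hST : T⁻¹ * T = 1 := Matrix.nonsing_inv_mul T (isUnit_iff_ne_zero.2 hT)
  have hfix : ∀ A : Matrix (Fin 2) (Fin 2) K, (A.map i).map (· ^ q) = A.map i := by
    intro A
    ext a b
    simp only [Matrix.map_apply]
    rw [← map_pow, ← hK, FiniteField.pow_card]
  have hmapmul : ∀ A B : Matrix (Fin 2) (Fin 2) F,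
      (A * B).map (· ^ q) = A.map (· ^ q) * B.map (· ^ q) := by
    intro A B
    exact Matrix.map_mul (f := hermFrob hF)
  have hdet : ∀ A : Matrix.SpecialLinearGroup (Fin 2) K, (T * A.1.map i * T⁻¹).det = 1 := by
    intro A
    rw [Matrix.det_mul, Matrix.det_mul, mul_right_comm, ← Matrix.det_mul, hTS, Matrix.det_one,
      one_mul]
    have := (i.map_det A.1).symm
    rw [A.2, map_one] at this
    exact this
  have hmem : ∀ A : Matrix.SpecialLinearGroup (Fin 2) K,
      (⟨T * A.1.map i * T⁻¹, hdet A⟩ : Matrix.SpecialLinearGroup (Fin 2) F) ∈ Cfsg.SU 2 F q := by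
    intro A
    refine (mem_SU_iff hF (⟨_, hdet A⟩ : Matrix.SpecialLinearGroup (Fin 2) F)).2 ?_
    show (T * A.1.map i * T⁻¹)ᵀ * (T * A.1.map i * T⁻¹).map (· ^ q) = 1
    have hA1 : (A.1.map i).det = 1 := by
      have := (i.map_det A.1).symm
      rw [A.2, map_one] at this
      exact this
    rw [hmapmul, hmapmul, hfix, Matrix.transpose_mul, Matrix.transpose_mul]
    calc (T⁻¹)ᵀ * ((A.1.map i)ᵀ * Tᵀ) * (T.map (· ^ q) * A.1.map i * (T⁻¹).map (· ^ q))
        = (T⁻¹)ᵀ * ((A.1.map i)ᵀ * (Tᵀ * T.map (· ^ q)) * A.1.map i) * (T⁻¹).map (· ^ q) := by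
          simp only [Matrix.mul_assoc]
      _ = (T⁻¹)ᵀ * (Tᵀ * T.map (· ^ q)) * (T⁻¹).map (· ^ q) := by
          rw [hH, Matrix.mul_smul, Matrix.smul_mul, two_J, hA1, one_smul]
      _ = (T * T⁻¹)ᵀ * (T * T⁻¹).map (· ^ q) := by
          rw [hmapmul, Matrix.transpose_mul]
          simp only [Matrix.mul_assoc]
      _ = 1 := by
          rw [hTS, Matrix.transpose_one, one_mul]
          exact Matrix.map_one (hermFrob hF) (map_zero _) (map_one _)
  let φ : Matrix.SpecialLinearGroup (Fin 2) K →* Cfsg.SU 2 F q :=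
    MonoidHom.mk' (fun A => ⟨⟨T * A.1.map i * T⁻¹, hdet A⟩, hmem A⟩) (by
      intro A B
      apply Subtype.ext
      apply Subtype.ext
      show T * (A * B).1.map i * T⁻¹ = (T * A.1.map i * T⁻¹) * (T * B.1.map i * T⁻¹)
      rw [Matrix.SpecialLinearGroup.coe_mul, Matrix.map_mul]
      calc T * (A.1.map i * B.1.map i) * T⁻¹
          = T * A.1.map i * 1 * (B.1.map i * T⁻¹) := by
            simp only [Matrix.mul_assoc, Matrix.one_mul]
        _ = _ := by
            rw [← hST]
            simp only [Matrix.mul_assoc])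
  have hinj : Function.Injective φ := by
    intro A B hAB
    have h1 : T * A.1.map i * T⁻¹ = T * B.1.map i * T⁻¹ :=
      congrArg (fun x : Cfsg.SU 2 F q => (x.1.1 : Matrix (Fin 2) (Fin 2) F)) hAB
    have h2 : A.1.map i = B.1.map i := by
      have := congrArg (fun M => T⁻¹ * M * T) h1
      simp only [Matrix.mul_assoc, hST, Matrix.mul_one] at this
      simp only [← Matrix.mul_assoc, hST, Matrix.one_mul] at this
      exact this
    apply Subtype.ext
    ext a b
    apply i.injective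
    have := congrFun (congrFun h2 a) b
    simpa using this
  have hq := herm_q_pos hF
  have hcard : Nat.card (Matrix.SpecialLinearGroup (Fin 2) K) = Nat.card (Cfsg.SU 2 F q) := by
    have h1 := Cfsg.Agent.S0278.result hF 2 (by norm_num)
    have h2 := card_SL2 (F := K)
    rw [hK] at h2
    rw [h2]
    simp [-Nat.card_eq_fintype_card, Finset.prod_range_succ] at h1
    apply Nat.eq_of_mul_eq_mul_left (show 0 < q + 1 by omega)
    rw [h1]
    have : q ^ 2 - 1 = (q + 1) * (q - 1) := by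
      have := Nat.sq_sub_sq q 1
      rw [one_pow] at this
      exact this
    rw [this]
    ring
  exact ⟨(MulEquiv.ofBijective φ ((Nat.bijective_iff_injective_and_card φ).2 ⟨hinj, hcard⟩)).symm⟩

end Cfsg.Agent.S0281
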