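import Mathlib
import Cfsg.Agent.Lib.Helper18.Herm
import Cfsg.Statements.S0285
-- import your own Cfsg.Agent.* helpers here

set_option autoImplicit false
open Cfsg

namespace Cfsg.Agent.S0285

/-- The standard Hermitian form on F^n, |F| = q^2, has exactly (q^n - (-1)^n)(q^(n-1) + (-1)^n) non-zero isotropic vectors; counting the zero vector too: -/
theorem result {F : Type*} [Field F] [Fintype F] {q : ℕ} (hF : Fintype.card F = q ^ 2) (n : ℕ) : Nat.card {v : Fin n → F // Cfsg.hermForm n F q v v = 0} = (if Even n then (q ^ n - 1) * (q ^ (n - 1) + 1) else (q ^ n + 1) * (q ^ (n - 1) - 1)) + 1 := by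
  have hq := Cfsg.Agent.Lib.Helper18.herm_q_pos hF
  have hB := Cfsg.Agent.Lib.Helper18.herm_count_zero_int hF n
  have h1 : 1 ≤ q ^ n := Nat.one_le_pow _ _ (by omega)
  apply Nat.eq_of_mul_eq_mul_right (show 0 < q by omega)
  rcases n with _ | m
  · simp at hB ⊢
    exact_mod_cast hB
  · have h2 : 1 ≤ q ^ m := Nat.one_le_pow _ _ (by omega)
    split_ifs with he
    · rw [he.neg_one_pow] at hB
      simp only [Nat.add_sub_cancel]
      zify [h1, h2]
      rw [hB]
      ring
    · rw [(Nat.not_even_iff_odd.mp he).neg_one_pow] at hB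
      simp only [Nat.add_sub_cancel]
      zify [h1, h2]
      rw [hB]
      ring

end Cfsg.Agent.S0285
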