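import Mathlib
import Cfsg.Agent.Lib.Helper18.Quad1
import Cfsg.Statements.S0289
-- import your own Cfsg.Agent.* helpers here

set_option autoImplicit false
open Cfsg

namespace Cfsg.Agent.S0289

/-- The hyperbolic quadratic form on F^(2m), m at least 1, has q^(2m-1) + q^m - q^(m-1) zeros (that is, (q^m - 1)(q^(m-1) + 1) non-zero isotropic vectors). -/
theorem result {F : Type*} [Field F] [Fintype F] {q : ℕ} (hF : Fintype.card F = q) (m : ℕ) (hm : 1 ≤ m) : Nat.card {v : Fin m ⊕ Fin m → F // Cfsg.quadFormPlus m F v = 0} = q ^ (2 * m - 1) + q ^ m - q ^ (m - 1) := by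
  have hq : 1 < q := by rw [← hF]; exact Fintype.one_lt_card
  let e : (Fin m ⊕ Fin m → F) ≃ (Fin m → F) × (Fin m → F) × Unit :=
    { toFun := fun v => (v ∘ Sum.inl, v ∘ Sum.inr, ())
      invFun := fun p => Sum.elim p.1 p.2.1
      left_inv := fun v => by ext (i | i) <;> rfl
      right_inv := fun p => rfl }
  have h1 : Nat.card {v : Fin m ⊕ Fin m → F // Cfsg.quadFormPlus m F v = 0}
      = Nat.card {p : (Fin m → F) × (Fin m → F) × Unit //
          ∑ i, p.1 i * p.2.1 i + (fun _ : Unit => (0 : F)) p.2.2 = 0} := by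
    apply Nat.card_congr
    refine e.subtypeEquiv (fun v => ?_)
    show _ ↔ ∑ i, v (Sum.inl i) * v (Sum.inr i) + 0 = 0
    rw [add_zero]
    rfl
  have h2 := Cfsg.Agent.Lib.Helper18.card_dot_add (F := F) (ι := Fin m) (fun _ : Unit => (0 : F)) 0
  rw [← h1, hF, Fintype.card_fin] at h2
  have h3 : Nat.card {z : Unit // (fun _ : Unit => (0 : F)) z = 0} = 1 := by
    simp
  rw [h3] at h2
  simp only [Nat.card_unique, mul_one] at h2
  apply Nat.eq_of_mul_eq_mul_left (show 0 < q by omega)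
  rw [h2]
  obtain ⟨k, rfl⟩ : ∃ k, m = k + 1 := ⟨m - 1, by omega⟩
  have e1 : 1 ≤ q ^ (k + 1) := Nat.one_le_pow _ _ (by omega)
  have e2 : q ^ (k + 1 - 1) ≤ q ^ (2 * (k + 1) - 1) + q ^ (k + 1) :=
    le_trans (Nat.pow_le_pow_right (by omega) (by omega)) (Nat.le_add_left _ _)
  zify [e1, e2]
  have e3 : 2 * (k + 1) - 1 = 2 * k + 1 := by omega
  rw [e3, Nat.add_sub_cancel]
  ring

end Cfsg.Agent.S0289
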