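import Mathlib
import Cfsg.Agent.Lib.Helper18.Quad1
import Cfsg.Statements.S0290
-- import your own Cfsg.Agent.* helpers here

set_option autoImplicit false
open Cfsg

namespace Cfsg.Agent.S0290

/-- The minus-type quadratic form on F^(2m), m at least 1, has q^(2m-1) + q^(m-1) - q^m zeros (that is, (q^m + 1)(q^(m-1) - 1) non-zero isotropic vectors). -/
theorem result {F : Type*} [Field F] [Fintype F] {q : ℕ} (hF : Fintype.card F = q) (m : ℕ) (hm : 1 ≤ m) (a b : F) (hab : ∀ z₁ z₂ : F, z₁ ^ 2 + a * z₁ * z₂ + b * z₂ ^ 2 = 0 → z₁ = 0 ∧ z₂ = 0) : Nat.card {v : (Fin (m - 1) ⊕ Fin (m - 1)) ⊕ Fin 2 → F // Cfsg.quadFormMinus (m - 1) F a b v = 0} = q ^ (2 * m - 1) + q ^ (m - 1) - q ^ m := by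
  have hq : 1 < q := by rw [← hF]; exact Fintype.one_lt_card
  obtain ⟨k, rfl⟩ : ∃ k, m = k + 1 := ⟨m - 1, by omega⟩
  show Nat.card {v : (Fin k ⊕ Fin k) ⊕ Fin 2 → F // Cfsg.quadFormMinus k F a b v = 0}
    = q ^ (2 * (k + 1) - 1) + q ^ k - q ^ (k + 1)
  let ν : (Fin 2 → F) → F := fun z => z 0 ^ 2 + a * z 0 * z 1 + b * z 1 ^ 2
  let e : ((Fin k ⊕ Fin k) ⊕ Fin 2 → F) ≃ (Fin k → F) × (Fin k → F) × (Fin 2 → F) :=
    { toFun := fun v => (fun i => v (Sum.inl (Sum.inl i)), fun i => v (Sum.inl (Sum.inr i)),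
        fun i => v (Sum.inr i))
      invFun := fun p => Sum.elim (Sum.elim p.1 p.2.1) p.2.2
      left_inv := fun v => by ext ((i | i) | i) <;> rfl
      right_inv := fun p => rfl }
  have h1 : Nat.card {v : (Fin k ⊕ Fin k) ⊕ Fin 2 → F // Cfsg.quadFormMinus k F a b v = 0}
      = Nat.card {p : (Fin k → F) × (Fin k → F) × (Fin 2 → F) //
          ∑ i, p.1 i * p.2.1 i + ν p.2.2 = 0} := by
    apply Nat.card_congr
    exact e.subtypeEquiv (fun v => Iff.rfl)
  have h2 := Cfsg.Agent.Lib.Helper18.card_dot_add (F := F) (ι := Fin k) ν 0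
  rw [← h1, hF, Fintype.card_fin] at h2
  have h3 : Nat.card {z : Fin 2 → F // ν z = 0} = 1 := by
    have : Unique {z : Fin 2 → F // ν z = 0} :=
      { default := ⟨0, by simp [ν]⟩
        uniq := fun z => Subtype.ext (by
          obtain ⟨h0, h1⟩ := hab _ _ z.2
          ext i
          fin_cases i
          · exact h0
          · exact h1) }
    exact Nat.card_unique
  have h4 : Nat.card (Fin 2 → F) = q ^ 2 := by
    rw [Nat.card_fun, Nat.card_eq_fintype_card, Nat.card_eq_fintype_card, hF, Fintype.card_fin]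
  rw [h3, h4] at h2
  apply Nat.eq_of_mul_eq_mul_left (show 0 < q by omega)
  rw [h2]
  have e1 : 1 ≤ q ^ k := Nat.one_le_pow _ _ (by omega)
  have e2 : q ^ (k + 1) ≤ q ^ (2 * (k + 1) - 1) + q ^ k :=
    le_trans (Nat.pow_le_pow_right (by omega) (by omega)) (Nat.le_add_right _ _)
  zify [e1, e2]
  have e3 : 2 * (k + 1) - 1 = 2 * k + 1 := by omega
  rw [e3]
  ring

end Cfsg.Agent.S0290
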