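import Mathlib
import Cfsg.Agent.Lib.Helper18.Quad5
import Cfsg.Statements.S0291
-- import your own Cfsg.Agent.* helpers here

set_option autoImplicit false
open Cfsg

namespace Cfsg.Agent.S0291

/-- For q odd, the form x_0^2 + sum_{i<m} x_i y_i on F^(2m+1) has exactly q^(2m) zeros. -/
theorem result {F : Type*} [Field F] [Fintype F] {q : ℕ} (hF : Fintype.card F = q) (hodd : Odd q) (m : ℕ) : Nat.card {v : Unit ⊕ (Fin m ⊕ Fin m) → F // Cfsg.quadFormOdd m F v = 0} = q ^ (2 * m) := by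
  have hq : 1 < q := by rw [← hF]; exact Fintype.one_lt_card
  let e : (Unit ⊕ (Fin m ⊕ Fin m) → F) ≃ (Fin m → F) × (Fin m → F) × F :=
    { toFun := fun v => (fun i => v (Sum.inr (Sum.inl i)), fun i => v (Sum.inr (Sum.inr i)),
        v (Sum.inl ()))
      invFun := fun p => Sum.elim (fun _ => p.2.2) (Sum.elim p.1 p.2.1)
      left_inv := fun v => by ext (i | i | i) <;> rfl
      right_inv := fun p => rfl }
  have h1 : Nat.card {v : Unit ⊕ (Fin m ⊕ Fin m) → F // Cfsg.quadFormOdd m F v = 0}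
      = Nat.card {p : (Fin m → F) × (Fin m → F) × F //
          ∑ i, p.1 i * p.2.1 i + (fun z : F => z ^ 2) p.2.2 = 0} := by
    apply Nat.card_congr
    refine e.subtypeEquiv (fun v => ?_)
    show _ ↔ ∑ i, v (Sum.inr (Sum.inl i)) * v (Sum.inr (Sum.inr i)) + v (Sum.inl ()) ^ 2 = 0
    rw [add_comm]
    rfl
  have h2 := Cfsg.Agent.Lib.Helper18.card_dot_add (F := F) (ι := Fin m) (fun z : F => z ^ 2) 0
  rw [← h1, Cfsg.Agent.Lib.Helper18.card_sq_eq_zero, Nat.card_eq_fintype_card (α := F), hF,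
    Fintype.card_fin] at h2
  apply Nat.eq_of_mul_eq_mul_left (show 0 < q by omega)
  rw [h2]
  have e1 : 1 ≤ q ^ m := Nat.one_le_pow _ _ (by omega)
  zify [e1]
  ring

end Cfsg.Agent.S0291
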