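import Cfsg.Statements.S0292
import Cfsg.Agent.Lib.Helper15.CenterOmega
import Cfsg.Agent.Lib.Helper15.Std
import Cfsg.Agent.S0286

set_option autoImplicit false
open Cfsg

namespace Cfsg.Agent.S0292


open Cfsg.Agent.Lib.Helper15


/-- 2 |PΩ_{2m+1}(q)| = q^(m^2) prod_{i=1}^{m} (q^(2i) - 1), for q odd and m at least 3 (type B_m). -/
theorem result {F : Type*} [Field F] [Fintype F] {q : ℕ} (hF : Fintype.card F = q) (hodd : Odd q) (m : ℕ) (hm : 3 ≤ m) : 2 * Nat.card (Cfsg.POmega F (Cfsg.quadFormOdd m F)) = q ^ (m ^ 2) * ∏ i ∈ Finset.range m, (q ^ (2 * (i + 1)) - 1) := by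
  classical
  have h2 : (2 : F) ≠ 0 := by
    intro h
    have hc : ringChar F = 2 := (CharP.ringChar_of_prime_eq_zero Nat.prime_two (by exact_mod_cast h))
    have := FiniteField.even_card_of_char_two hc
    rw [hF] at this
    exact (Nat.not_even_iff_odd.2 hodd) (Nat.even_iff.2 this)
  have hQ := oddQ_nondegenerate (F := F) m h2
  have hcard : Fintype.card (Unit ⊕ (Fin m ⊕ Fin m)) = 2 * m + 1 := by simp; ring
  have hneg : negIso (oddQ m F) ∉ Cfsg.Omega F ⇑(oddQ m F) := by
    intro h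
    rw [← spin_ker (oddQ m F) h2 (by omega) hQ, MonoidHom.mem_ker] at h
    have h1 := (spin_fst_eq_one_iff (oddQ m F) h2 (by omega) hQ (negIso (oddQ m F))).1 (by rw [h]; rfl)
    rw [negIso_coe, sc_det, hcard] at h1
    simp [pow_succ, pow_mul] at h1
    apply h2
    linear_combination -h1
  have h1 := card_POmega_mul (oddQ m F)
  rw [card_center_Omega_of_not (oddQ m F) hQ (by omega) (Or.inl hneg), index_Omega_odd (oddQ m F) h2 (by omega) hQ,
    coe_oddQ, Cfsg.Agent.S0286.result hF hodd m] at h1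
  rw [mul_assoc 2] at h1
  omega

end Cfsg.Agent.S0292
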