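import Cfsg.Statements.S0293
import Cfsg.Agent.Lib.Helper15.CenterOmega
import Cfsg.Agent.Lib.Helper15.Std
import Cfsg.Agent.S0287
import Cfsg.Agent.S0790

set_option autoImplicit false
open Cfsg

namespace Cfsg.Agent.S0293


open Cfsg.Agent.Lib.Helper15

theorem gcd_four (x : ℕ) : Nat.gcd 4 x = Nat.gcd 4 (x % 4) := by
  conv_lhs => rw [← Nat.div_add_mod x 4]
  simp


/-- gcd(4, q^m - 1) |PΩ^+_{2m}(q)| = q^(m(m-1)) (q^m - 1) prod_{i=1}^{m-1} (q^(2i) - 1), m at least 4 (type D_m). -/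
theorem result {F : Type*} [Field F] [Fintype F] {q : ℕ} (hF : Fintype.card F = q) (m : ℕ) (hm : 4 ≤ m) : Nat.gcd 4 (q ^ m - 1) * Nat.card (Cfsg.POmega F (Cfsg.quadFormPlus m F)) = q ^ (m * (m - 1)) * (q ^ m - 1) * ∏ i ∈ Finset.range (m - 1), (q ^ (2 * (i + 1)) - 1) := by
  classical
  have hQ := plusQ_nondegenerate (F := F) m
  have hcard : Fintype.card (Fin m ⊕ Fin m) = 2 * m := by simp; ring
  have h1 := card_POmega_mul (plusQ m F)
  have hO := Cfsg.Agent.S0287.result hF m (by omega)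
  rw [mul_assoc 2, mul_assoc 2] at hO
  obtain ⟨Y, hY⟩ : ∃ Y, Y = q ^ (m * (m - 1)) * (q ^ m - 1) * ∏ i ∈ Finset.range (m - 1), (q ^ (2 * (i + 1)) - 1) :=
    ⟨_, rfl⟩
  rw [← hY] at hO ⊢
  have hqpos : 0 < q ^ m := by
    apply pow_pos
    rw [← hF]; exact Fintype.card_pos
  by_cases h2 : (2 : F) = 0
  · have : CharP F 2 := CharTwo.of_one_ne_zero_of_two_eq_zero one_ne_zero h2
    have hqe : Even q := by
      rw [← hF]
      exact Nat.even_iff.2 (FiniteField.even_card_of_char_two (ringChar.eq F 2))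
    have hqm : Even (q ^ m) := hqe.pow_of_ne_zero (by omega)
    rw [card_center_Omega_of_not (plusQ m F) hQ (by omega) (Or.inr h2),
      index_Omega_two (plusQ m F) hQ (by omega) (Or.inr (by omega)), coe_plusQ, hO] at h1
    have hg : Nat.gcd 4 (q ^ m - 1) = 1 := by
      obtain ⟨t, ht⟩ := hqm
      have h4 : (q ^ m - 1) % 4 = 1 ∨ (q ^ m - 1) % 4 = 3 := by omega
      rw [gcd_four]
      rcases h4 with h | h <;> rw [h] <;> rfl
    rw [hg]
    omega
  · have hodd : Odd q := by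
      rw [← hF]
      exact odd_card_of_two_ne_zero h2
    have hqm : Odd (q ^ m) := hodd.pow
    have hiff : negIso (plusQ m F) ∈ Cfsg.Omega F ⇑(plusQ m F) ↔ q ^ m % 4 = 1 := by
      rw [negIso_mem_iff, coe_plusQ, Cfsg.Agent.S0790.result hF hodd m (by omega)]
    rw [index_Omega_odd (plusQ m F) h2 (by omega) hQ] at h1
    by_cases hneg : negIso (plusQ m F) ∈ Cfsg.Omega F ⇑(plusQ m F)
    · rw [card_center_Omega_of_neg (plusQ m F) h2 hQ (by omega) hneg, coe_plusQ, hO] at h1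
      have h4 := hiff.1 hneg
      have hg : Nat.gcd 4 (q ^ m - 1) = 4 := by
        rw [gcd_four, show (q ^ m - 1) % 4 = 0 by omega]; rfl
      rw [hg]
      omega
    · rw [card_center_Omega_of_not (plusQ m F) hQ (by omega) (Or.inl hneg), coe_plusQ, hO] at h1
      have h4 : q ^ m % 4 ≠ 1 := fun h => hneg (hiff.2 h)
      have hg : Nat.gcd 4 (q ^ m - 1) = 2 := by
        obtain ⟨t, ht⟩ := hqm
        rw [gcd_four, show (q ^ m - 1) % 4 = 2 by omega]; rfl
      rw [hg]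
      omega

end Cfsg.Agent.S0293
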