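import Cfsg.Statements.S0294
import Cfsg.Agent.Lib.Helper15.CenterOmega
import Cfsg.Agent.Lib.Helper15.Std
import Cfsg.Agent.S0288
import Cfsg.Agent.S0791

set_option autoImplicit false
open Cfsg

namespace Cfsg.Agent.S0294


open Cfsg.Agent.Lib.Helper15

theorem gcd_four (x : ℕ) : Nat.gcd 4 x = Nat.gcd 4 (x % 4) := by
  conv_lhs => rw [← Nat.div_add_mod x 4]
  simp


/-- gcd(4, q^m + 1) |PΩ^-_{2m}(q)| = q^(m(m-1)) (q^m + 1) prod_{i=1}^{m-1} (q^(2i) - 1), m at least 4 (type ²D_m). -/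
theorem result {F : Type*} [Field F] [Fintype F] {q : ℕ} (hF : Fintype.card F = q) (m : ℕ) (hm : 4 ≤ m) (a b : F) (hab : ∀ z₁ z₂ : F, z₁ ^ 2 + a * z₁ * z₂ + b * z₂ ^ 2 = 0 → z₁ = 0 ∧ z₂ = 0) : Nat.gcd 4 (q ^ m + 1) * Nat.card (Cfsg.POmega F (Cfsg.quadFormMinus (m - 1) F a b)) = q ^ (m * (m - 1)) * (q ^ m + 1) * ∏ i ∈ Finset.range (m - 1), (q ^ (2 * (i + 1)) - 1) := by
  classical
  have hQ := minusQ_nondegenerate (F := F) (m - 1) a b hab
  have hcard : Fintype.card ((Fin (m - 1) ⊕ Fin (m - 1)) ⊕ Fin 2) = 2 * m := by simp; omega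
  have h1 := card_POmega_mul (minusQ (m - 1) F a b)
  have hO := Cfsg.Agent.S0288.result hF m (by omega) a b hab
  rw [mul_assoc 2, mul_assoc 2] at hO
  obtain ⟨Y, hY⟩ : ∃ Y, Y = q ^ (m * (m - 1)) * (q ^ m + 1) * ∏ i ∈ Finset.range (m - 1), (q ^ (2 * (i + 1)) - 1) :=
    ⟨_, rfl⟩
  rw [← hY] at hO ⊢
  by_cases h2 : (2 : F) = 0
  · have : CharP F 2 := CharTwo.of_one_ne_zero_of_two_eq_zero one_ne_zero h2
    have hqe : Even q := by
      rw [← hF]
      exact Nat.even_iff.2 (FiniteField.even_card_of_char_two (ringChar.eq F 2))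
    have hqm : Even (q ^ m) := hqe.pow_of_ne_zero (by omega)
    rw [card_center_Omega_of_not _ hQ (by omega) (Or.inr h2),
      index_Omega_two _ hQ (by omega) (Or.inr (by omega)), coe_minusQ, hO] at h1
    have hg : Nat.gcd 4 (q ^ m + 1) = 1 := by
      obtain ⟨t, ht⟩ := hqm
      have h4 : (q ^ m + 1) % 4 = 1 ∨ (q ^ m + 1) % 4 = 3 := by omega
      rw [gcd_four]
      rcases h4 with h | h <;> rw [h] <;> rfl
    rw [hg]
    omega
  · have hodd : Odd q := by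
      rw [← hF]
      exact odd_card_of_two_ne_zero h2
    have hqm : Odd (q ^ m) := hodd.pow
    have hiff : negIso (minusQ (m - 1) F a b) ∈ Cfsg.Omega F ⇑(minusQ (m - 1) F a b) ↔ q ^ m % 4 = 3 := by
      rw [negIso_mem_iff, coe_minusQ, Cfsg.Agent.S0791.result hF hodd m (by omega) a b hab]
    rw [index_Omega_odd _ h2 (by omega) hQ] at h1
    by_cases hneg : negIso (minusQ (m - 1) F a b) ∈ Cfsg.Omega F ⇑(minusQ (m - 1) F a b)
    · rw [card_center_Omega_of_neg _ h2 hQ (by omega) hneg, coe_minusQ, hO] at h1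
      have h4 := hiff.1 hneg
      have hg : Nat.gcd 4 (q ^ m + 1) = 4 := by
        rw [gcd_four, show (q ^ m + 1) % 4 = 0 by omega]; rfl
      rw [hg]
      omega
    · rw [card_center_Omega_of_not _ hQ (by omega) (Or.inl hneg), coe_minusQ, hO] at h1
      have h4 : q ^ m % 4 ≠ 3 := fun h => hneg (hiff.2 h)
      have hg : Nat.gcd 4 (q ^ m + 1) = 2 := by
        obtain ⟨t, ht⟩ := hqm
        rw [gcd_four, show (q ^ m + 1) % 4 = 2 by omega]; rfl
      rw [hg]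
      omega

end Cfsg.Agent.S0294
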