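import Cfsg.Statements.S0295
import Cfsg.Agent.Lib.Helper15.OmegaSimple

set_option autoImplicit false
open Cfsg

namespace Cfsg.Agent.S0295


open Module QuadraticMap Matrix Cfsg.Agent.Lib.Helper15


/-- PΩ_{2m+1}(q) is simple for q odd and m at least 3. -/
theorem result {F : Type*} [Field F] [Fintype F] (hodd : Odd (Fintype.card F)) (m : ℕ) (hm : 3 ≤ m) : IsSimpleGroup (Cfsg.POmega F (Cfsg.quadFormOdd m F)) := by
  have h2 : (2 : F) ≠ 0 := by
    intro h
    have : CharP F 2 := CharTwo.of_one_ne_zero_of_two_eq_zero one_ne_zero h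
    obtain ⟨k, -, hk⟩ := FiniteField.card F 2
    rw [hk] at hodd
    exact (Nat.not_even_iff_odd.2 hodd) (Even.pow_of_ne_zero (by decide) k.ne_zero)
  rw [← coe_oddQ]
  exact POmega_isSimpleGroup (oddQ m F) (oddQ_nondegenerate m h2) (by simp; omega)

end Cfsg.Agent.S0295
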