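import Cfsg.Statements.S0296
import Cfsg.Agent.Lib.Helper15.OmegaSimple

set_option autoImplicit false
open Cfsg

namespace Cfsg.Agent.S0296


open Module QuadraticMap Matrix Cfsg.Agent.Lib.Helper15


/-- PΩ^+_{2m}(q) is simple for m at least 4. -/
theorem result {F : Type*} [Field F] [Fintype F] (m : ℕ) (hm : 4 ≤ m) : IsSimpleGroup (Cfsg.POmega F (Cfsg.quadFormPlus m F)) := by
  rw [← coe_plusQ]
  exact POmega_isSimpleGroup (plusQ m F) (plusQ_nondegenerate m) (by simp; omega)

end Cfsg.Agent.S0296
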