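import Mathlib
import Cfsg.Agent.Lib.Helper18.OddSp
import Cfsg.Statements.S0304
-- import your own Cfsg.Agent.* helpers here

set_option autoImplicit false
open Cfsg Cfsg.Agent.Lib.Helper18 Matrix

namespace Cfsg.Agent.S0304

/-- In characteristic 2, O_{2m+1}(q) is isomorphic to Sp_{2m}(q). -/
theorem result {F : Type*} [Field F] [Fintype F] [CharP F 2] (m : ℕ) : Nonempty (Cfsg.isometryGroup F (Cfsg.quadFormOdd m F) ≃* Matrix.symplecticGroup (Fin m) F) := by
  classical
  have h2 : (2 : F) = 0 := CharTwo.two_eq_zero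
  have hst : ∀ g : Cfsg.isometryGroup F (Cfsg.quadFormOdd m F), _ := fun g =>
    (odd_iso_structure h2 g.1.1).mp (fun v => by
      rw [qOdd_apply, qOdd_apply]
      exact (mem_isometryGroup_iff _ _).mp g.2 v)
  let Φ : Cfsg.isometryGroup F (Cfsg.quadFormOdd m F) →* Matrix.symplecticGroup (Fin m) F :=
    { toFun := fun g => ⟨g.1.1.toBlocks₂₂, (hst g).1⟩
      map_one' := Subtype.ext (by
        show (1 : Matrix (Unit ⊕ (Fin m ⊕ Fin m)) (Unit ⊕ (Fin m ⊕ Fin m)) F).toBlocks₂₂ = 1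
        ext k l
        simp [Matrix.toBlocks₂₂, Matrix.one_apply])
      map_mul' := fun g h => Subtype.ext (by
        show (g.1.1 * h.1.1).toBlocks₂₂ = g.1.1.toBlocks₂₂ * h.1.1.toBlocks₂₂
        conv_lhs => rw [← Matrix.fromBlocks_toBlocks g.1.1, ← Matrix.fromBlocks_toBlocks h.1.1,
          Matrix.fromBlocks_multiply, Matrix.toBlocks_fromBlocks₂₂, (hst g).2.1, Matrix.zero_mul,
          zero_add]) }
  have hinj : Function.Injective Φ := by
    intro g h hgh
    have h1 : g.1.1.toBlocks₂₂ = h.1.1.toBlocks₂₂ := congrArg Subtype.val hgh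
    have h1' : ∀ k l, g.1.1 (Sum.inr k) (Sum.inr l) = h.1.1 (Sum.inr k) (Sum.inr l) :=
      fun k l => congrFun (congrFun h1 k) l
    apply Subtype.ext
    apply Units.ext
    ext (u | k) (u' | l)
    · rw [(hst g).2.2.1, (hst h).2.2.1]
    · have e1 := (hst g).2.2.2 l
      have e2 := (hst h).2.2.2 l
      simp only [h1'] at e1
      rw [← e2] at e1
      have e3 : (g.1.1 (Sum.inl ()) (Sum.inr l) - h.1.1 (Sum.inl ()) (Sum.inr l)) ^ 2 = 0 := by
        linear_combination e1 + (h.1.1 (Sum.inl ()) (Sum.inr l) ^ 2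
          - g.1.1 (Sum.inl ()) (Sum.inr l) * h.1.1 (Sum.inl ()) (Sum.inr l)) * h2
      exact sub_eq_zero.mp (pow_eq_zero_iff two_ne_zero |>.mp e3)
    · have e1 := congrFun (congrFun (hst g).2.1 k) ()
      have e2 := congrFun (congrFun (hst h).2.1 k) ()
      exact e1.trans e2.symm
    · exact h1' k l
  have hsurj : Function.Surjective Φ := by
    intro s
    have hsq : ∀ j, ∃ r : F, r ^ 2 = qPlus m F (fun k => s.1 k j) := by
      intro j
      obtain ⟨r, hr⟩ := FiniteField.isSquare_of_char_two (ringChar.eq F 2)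
        (qPlus m F (fun k => s.1 k j))
      exact ⟨r, by rw [hr, pow_two]⟩
    choose l hl using hsq
    let G : Matrix (Unit ⊕ (Fin m ⊕ Fin m)) (Unit ⊕ (Fin m ⊕ Fin m)) F :=
      Matrix.fromBlocks 1 (Matrix.of fun _ j => l j) 0 s.1
    have hdet : G.det ≠ 0 := by
      rw [Matrix.det_fromBlocks_zero₂₁, Matrix.det_one, one_mul]
      exact (SymplecticGroup.symplectic_det s.2).ne_zero
    have hG : ∀ v, qOdd m F (G *ᵥ v) = qOdd m F v := by
      rw [odd_iso_structure h2]
      refine ⟨?_, ?_, ?_, ?_⟩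
      · rw [Matrix.toBlocks_fromBlocks₂₂]
        exact s.2
      · rw [Matrix.toBlocks_fromBlocks₂₁]
      · simp [G]
      · intro j
        simp only [G, Matrix.fromBlocks_apply₁₂, Matrix.fromBlocks_apply₂₂, Matrix.of_apply]
        exact hl j
    refine ⟨⟨Matrix.GeneralLinearGroup.mkOfDetNeZero G hdet, ?_⟩, ?_⟩
    · rw [mem_isometryGroup_iff]
      intro v
      rw [← qOdd_apply, ← qOdd_apply]
      exact hG v
    · apply Subtype.ext
      show G.toBlocks₂₂ = s.1
      rw [Matrix.toBlocks_fromBlocks₂₂]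
  exact ⟨MulEquiv.ofBijective Φ ⟨hinj, hsurj⟩⟩

end Cfsg.Agent.S0304
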