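import Mathlib
import Cfsg.Agent.Lib.Helper18.IsoReindex
import Cfsg.Agent.Lib.Helper18.Quad4
import Cfsg.Agent.Tr.MC8
import Cfsg.Statements.S0305
-- import your own Cfsg.Agent.* helpers here

set_option autoImplicit false
open Cfsg Cfsg.Agent.Lib.Helper18 Matrix

namespace Cfsg.Agent.S0305

/-- the split torus -/
noncomputable def plusTorus (F : Type*) [Field F] : Fˣ →* GL (Fin 2) F where
  toFun t := ⟨!![(t : F), 0; 0, ((t⁻¹ : Fˣ) : F)], !![((t⁻¹ : Fˣ) : F), 0; 0, (t : F)],
    by simp [Matrix.mul_fin_two, Matrix.one_fin_two], by simp [Matrix.mul_fin_two, Matrix.one_fin_two]⟩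
  map_one' := by
    apply Units.ext
    simp [Matrix.one_fin_two]
  map_mul' s t := by
    apply Units.ext
    simp [Matrix.mul_fin_two, mul_comm]

theorem plusTorus_coe {F : Type*} [Field F] (t : Fˣ) :
    (plusTorus F t : Matrix (Fin 2) (Fin 2) F) = !![(t : F), 0; 0, ((t⁻¹ : Fˣ) : F)] := rfl

theorem plusTorus_injective {F : Type*} [Field F] : Function.Injective (plusTorus F) := by
  intro s t h
  have h1 := congrArg (fun g : GL (Fin 2) F => (g : Matrix (Fin 2) (Fin 2) F) 0 0) h
  simp only [plusTorus_coe] at h1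
  exact Units.ext (by simpa using h1)

/-- the swap -/
noncomputable def plusSwap (F : Type*) [Field F] : GL (Fin 2) F :=
  ⟨!![0, 1; 1, 0], !![0, 1; 1, 0], by simp [Matrix.mul_fin_two, Matrix.one_fin_two],
    by simp [Matrix.mul_fin_two, Matrix.one_fin_two]⟩

theorem plusSwap_coe {F : Type*} [Field F] :
    (plusSwap F : Matrix (Fin 2) (Fin 2) F) = !![0, 1; 1, 0] := rfl


/-- GO^+_2(q) is dihedral of order 2(q-1). -/
theorem result {F : Type*} [Field F] [Fintype F] {q : ℕ} (hF : Fintype.card F = q) : Nonempty (Cfsg.isometryGroup F (Cfsg.quadFormPlus 1 F) ≃* DihedralGroup (q - 1)) := by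
  classical
  have hq : 1 < q := by rw [← hF]; exact Fintype.one_lt_card
  let Qp : (Fin 2 → F) → F := fun w => w 0 * w 1
  let E := isoReindex (F := F) (finSumFinEquiv : Fin 1 ⊕ Fin 1 ≃ Fin 2) Qp
    (Cfsg.quadFormPlus 1 F) (fun v => by
      simp only [Cfsg.quadFormPlus, Qp, Finset.univ_unique, Finset.sum_singleton]
      rfl)
  have hcard : Nat.card (Cfsg.isometryGroup F Qp) = 2 * (q - 1) := by
    rw [← Nat.card_congr E.toEquiv, card_isometry_plus, hF]
    simp [oSeq]
    omega
  obtain ⟨ζ, hζ⟩ := IsCyclic.exists_generator (α := Fˣ)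
  have hoζ : orderOf ζ = q - 1 := by
    rw [orderOf_eq_card_of_forall_mem_zpowers hζ, Nat.card_eq_fintype_card, Fintype.card_units, hF]
  have hmemT : ∀ t : Fˣ, plusTorus F t ∈ Cfsg.isometryGroup F Qp := by
    intro t
    rw [mem_isometryGroup_iff]
    intro v
    simp only [Qp, plusTorus_coe, Matrix.mulVec, dotProduct, Fin.sum_univ_two]
    simp
    have : (t : F) ≠ 0 := t.ne_zero
    field_simp
  have hmemS : plusSwap F ∈ Cfsg.isometryGroup F Qp := by
    rw [mem_isometryGroup_iff]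
    intro v
    simp only [Qp, plusSwap_coe, Matrix.mulVec, dotProduct, Fin.sum_univ_two]
    simp [mul_comm]
  let r : Cfsg.isometryGroup F Qp := ⟨plusTorus F ζ, hmemT ζ⟩
  let s : Cfsg.isometryGroup F Qp := ⟨plusSwap F, hmemS⟩
  have hor : orderOf r = q - 1 := by
    rw [← hoζ, ← orderOf_injective (plusTorus F) plusTorus_injective ζ]
    exact (Subgroup.orderOf_mk _ _)
  have hidx : (Subgroup.zpowers r).index = 2 := by
    have h1 := (Subgroup.zpowers r).card_mul_index
    rw [Nat.card_zpowers, hor, hcard, mul_comm] at h1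
    exact Nat.eq_of_mul_eq_mul_right (by omega) h1
  have hs : s ∉ Subgroup.zpowers r := by
    rintro ⟨k, hk⟩
    have h1 := congrArg (fun g : Cfsg.isometryGroup F Qp => (g.1 : Matrix (Fin 2) (Fin 2) F) 0 1) hk
    simp only [r, s, Subgroup.coe_zpow, ← map_zpow, plusTorus_coe, plusSwap_coe] at h1
    simp at h1
  have hs2 : s ^ 2 = 1 := by
    apply Subtype.ext
    apply Units.ext
    show (plusSwap F ^ 2 : GL (Fin 2) F).1 = 1
    rw [pow_two, Units.val_mul, plusSwap_coe]
    simp [Matrix.mul_fin_two, Matrix.one_fin_two]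
  have hconj : s * r * s⁻¹ = r⁻¹ := by
    rw [mul_inv_eq_iff_eq_mul]
    apply Subtype.ext
    apply Units.ext
    show (plusSwap F * plusTorus F ζ : GL (Fin 2) F).1 = ((plusTorus F ζ)⁻¹ * plusSwap F : GL (Fin 2) F).1
    rw [← map_inv, Units.val_mul, Units.val_mul, plusTorus_coe, plusTorus_coe, plusSwap_coe]
    simp [Matrix.mul_fin_two]
  obtain ⟨e⟩ := Cfsg.Agent.Tr.MC.dihedral_of hidx hs hs2 hconj
  rw [hor] at e
  exact ⟨E.trans e⟩

end Cfsg.Agent.S0305
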