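import Mathlib
import Cfsg.Agent.Lib.Helper18.MinusTwo
import Cfsg.Agent.Tr.MC8
import Cfsg.Statements.S0306
-- import your own Cfsg.Agent.* helpers here

set_option autoImplicit false
open Cfsg Cfsg.Agent.Lib.Helper18 Matrix

namespace Cfsg.Agent.S0306

/-- GO^-_2(q) is dihedral of order 2(q+1). -/
theorem result {F : Type*} [Field F] [Fintype F] {q : ℕ} (hF : Fintype.card F = q) (a b : F) (hab : ∀ z₁ z₂ : F, z₁ ^ 2 + a * z₁ * z₂ + b * z₂ ^ 2 = 0 → z₁ = 0 ∧ z₂ = 0) : Nonempty (Cfsg.isometryGroup F (Cfsg.quadFormMinus 0 F a b) ≃* DihedralGroup (q + 1)) := by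
  classical
  have hq : 1 < q := by rw [← hF]; exact Fintype.one_lt_card
  let E := isoReindex (F := F) (Equiv.emptySum (Fin 0 ⊕ Fin 0) (Fin 2)) (Qm a b)
    (Cfsg.quadFormMinus 0 F a b) (fun v => by
      simp only [Cfsg.quadFormMinus, Qm, Finset.univ_eq_empty, Finset.sum_empty, zero_add]
      rfl)
  have hcard : Nat.card (Cfsg.isometryGroup F (Qm a b)) = 2 * (q + 1) := by
    rw [← Nat.card_congr E.toEquiv, card_isometry_minus a b hab, hF]
    simp
  have hC : Nat.card (rotSub a b) = q + 1 := by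
    rw [card_rotSub, conic_card a b hab, hF]
  have := isCyclic_rotSub a b (aniso_noroot a b hab)
  obtain ⟨r, hr⟩ := IsCyclic.exists_generator (α := rotSub a b)
  have hor : orderOf r.1 = q + 1 := by
    rw [Subgroup.orderOf_coe, orderOf_eq_card_of_forall_mem_zpowers hr, hC]
  have hidx : (Subgroup.zpowers r.1).index = 2 := by
    have h1 := (Subgroup.zpowers r.1).card_mul_index
    rw [Nat.card_zpowers, hor, hcard, mul_comm] at h1
    exact Nat.eq_of_mul_eq_mul_right (by omega) h1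
  have hs : mkRefl a b ∉ Subgroup.zpowers r.1 := fun h =>
    mkRefl_not_mem a b (aniso_char_two a b hab) (Subgroup.zpowers_le.mpr r.2 h)
  obtain ⟨e⟩ := Cfsg.Agent.Tr.MC.dihedral_of hidx hs (mkRefl_sq a b) (mkRefl_conj a b r.1 r.2)
  rw [hor] at e
  exact ⟨E.trans e⟩

end Cfsg.Agent.S0306
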