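import Cfsg.Statements.S0307
import Mathlib

set_option autoImplicit false
open Cfsg

namespace Cfsg.Agent.S0307

/-- PSL_n(q) is normal in PGL_n(q) with cyclic quotient of order gcd(n, q-1): the image of the natural map PSL_n → PGL_n is the kernel of a surjective homomorphism onto the cyclic group of that order. -/
theorem result {F : Type*} [Field F] [Fintype F] {q : ℕ} (hF : Fintype.card F = q) (n : ℕ) (hn : 1 ≤ n) : ∃ g : Matrix.ProjGenLinGroup (Fin n) F →* Multiplicative (ZMod (Nat.gcd n (q - 1))), Function.Surjective g ∧ g.ker = (Matrix.ProjectiveSpecialLinearGroup.toPGL : Matrix.ProjectiveSpecialLinearGroup (Fin n) F →* Matrix.ProjGenLinGroup (Fin n) F).range := by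
  classical
  haveI : Nonempty (Fin n) := ⟨⟨0, hn⟩⟩
  -- the quotient of the unit group by the `n`-th powers
  let R : Subgroup Fˣ := (powMonoidHom n : Fˣ →* Fˣ).range
  have hcardU : Nat.card Fˣ = q - 1 := by
    rw [Nat.card_eq_fintype_card, Fintype.card_units, hF]
  have hidx : Nat.card (Fˣ ⧸ R) = Nat.gcd n (q - 1) := by
    have h := IsCyclic.index_powMonoidHom_range (G := Fˣ) n
    rw [hcardU, Nat.gcd_comm] at h
    exact h
  haveI hcyc : IsCyclic (Fˣ ⧸ R) :=
    isCyclic_of_surjective (QuotientGroup.mk' R) (QuotientGroup.mk'_surjective R)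
  have hiso : ∀ d, Nat.card (Fˣ ⧸ R) = d → Nonempty ((Fˣ ⧸ R) ≃* Multiplicative (ZMod d)) := by
    rintro _ rfl
    exact ⟨(zmodCyclicMulEquiv hcyc).symm⟩
  obtain ⟨ψ⟩ := hiso _ hidx
  let φ : Fˣ →* Multiplicative (ZMod (Nat.gcd n (q - 1))) :=
    ψ.toMonoidHom.comp (QuotientGroup.mk' R)
  have hφ1 : ∀ u : Fˣ, φ u = 1 ↔ ∃ k : Fˣ, k ^ n = u := by
    intro u
    have h1 : φ u = 1 ↔ (QuotientGroup.mk' R) u = 1 := by
      show ψ ((QuotientGroup.mk' R) u) = 1 ↔ _
      exact ψ.map_eq_one_iff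
    rw [h1, QuotientGroup.mk'_apply, QuotientGroup.eq_one_iff]
    exact Iff.rfl
  have hφs : Function.Surjective φ := ψ.surjective.comp (QuotientGroup.mk'_surjective R)
  let g' : GL (Fin n) F →* Multiplicative (ZMod (Nat.gcd n (q - 1))) :=
    φ.comp Matrix.GeneralLinearGroup.det
  have hker : Subgroup.center (GL (Fin n) F) ≤ g'.ker := by
    rw [Matrix.GeneralLinearGroup.center_eq_range_scalar]
    rintro _ ⟨u, rfl⟩
    rw [MonoidHom.mem_ker]
    show φ (Matrix.GeneralLinearGroup.det (Matrix.GeneralLinearGroup.scalar (Fin n) u)) = 1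
    rw [Matrix.GeneralLinearGroup.det_scalar, hφ1]
    exact ⟨u, by simp⟩
  let g : Matrix.ProjGenLinGroup (Fin n) F →* Multiplicative (ZMod (Nat.gcd n (q - 1))) :=
    QuotientGroup.lift (Subgroup.center (GL (Fin n) F)) g' hker
  have hg : ∀ A : GL (Fin n) F, g (Matrix.ProjGenLinGroup.mk A) =
      φ (Matrix.GeneralLinearGroup.det A) := fun _ => rfl
  refine ⟨g, ?_, ?_⟩
  · intro y
    obtain ⟨u, hu⟩ := hφs y
    obtain ⟨A, hA⟩ := Matrix.GeneralLinearGroup.det_surjective (n := Fin n) u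
    exact ⟨Matrix.ProjGenLinGroup.mk A, by rw [hg, hA, hu]⟩
  · ext x
    induction x using Matrix.ProjGenLinGroup.induction_on with | mk A =>
    rw [MonoidHom.mem_ker, hg, hφ1, MonoidHom.mem_range]
    constructor
    · rintro ⟨k, hk⟩
      obtain ⟨r, hr⟩ : ∃ r : Fˣ, r ^ Fintype.card (Fin n) * Matrix.GeneralLinearGroup.det A = 1 :=
        ⟨k⁻¹, by rw [← hk]; simp⟩
      simp only [Units.ext_iff, Units.val_mul, Units.val_pow_eq_pow_val,
        Matrix.GeneralLinearGroup.val_det_apply, ← Matrix.det_smul A.1 r.1, Units.val_one] at hr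
      let X : Matrix.SpecialLinearGroup (Fin n) F := ⟨r.1 • A.1, hr⟩
      have hX : (X : Matrix (Fin n) (Fin n) F) = r.1 • A.1 := rfl
      refine ⟨(QuotientGroup.mk X : Matrix.ProjectiveSpecialLinearGroup (Fin n) F), ?_⟩
      rw [Matrix.ProjectiveSpecialLinearGroup.toPGL_mk, Matrix.ProjGenLinGroup.mk_eq_mk_iff]
      refine ⟨r⁻¹, Units.ext ?_⟩
      simp only [Units.val_mul, Matrix.SpecialLinearGroup.coe_GL_coe_matrix,
        Matrix.GeneralLinearGroup.coe_scalar, hX]
      simp [← Matrix.mul_smul, ← Matrix.diagonal_smul, Pi.smul_def, smul_eq_mul]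
    · rintro ⟨Y, hY⟩
      induction Y using QuotientGroup.induction_on with | H X =>
      obtain ⟨u, hu⟩ : ∃ u, Matrix.SpecialLinearGroup.toGL X *
          (Matrix.GeneralLinearGroup.scalar (Fin n)) u = A := by
        simpa [Matrix.ProjGenLinGroup.mk_eq_mk_iff] using hY
      exact ⟨u, by simpa using congr(Matrix.GeneralLinearGroup.det $hu)⟩

end Cfsg.Agent.S0307
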