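import Mathlib
import Cfsg.Statements.S0322
import Cfsg.Agent.Lib.Helper3.BNPair2

set_option autoImplicit false
open Cfsg

namespace Cfsg.Agent.S0322

/-- A group with a (B,N)-pair of rank one acts doubly transitively on the left cosets of `B`. -/
theorem result {G : Type*} [Group G] (P : Cfsg.BNPair G) (h : P.rank = 1) : MulAction.IsMultiplyPretransitive G (G ⧸ P.B) 2 := by
  have hS : ∃ s, P.S = {s} := by
    have h1 : Nat.card P.S = 1 := h
    rw [Nat.card_eq_one_iff_unique] at h1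
    obtain ⟨hsub, ⟨s⟩⟩ := h1
    refine ⟨s.1, ?_⟩
    ext x
    constructor
    · intro hx
      have := hsub.elim ⟨x, hx⟩ s
      exact congrArg Subtype.val this
    · rintro rfl
      exact s.2
  obtain ⟨s, hS⟩ := hS
  have hs : s ∈ P.S := by rw [hS]; rfl
  have hall : ∀ g : G, g ∉ P.B → g ∈ Cfsg.Agent.Lib.Helper3.BN.C P s := by
    intro g hg
    have h1 : g ∈ (P.parabolic {s} : Set G) := by
      rw [← hS, Cfsg.Agent.Lib.Helper3.BN.parabolic_S]; trivial
    rw [Cfsg.Agent.Lib.Helper3.BN.parabolic_singleton hs] at h1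
    rcases h1 with h1 | h1
    · exact absurd h1 hg
    · exact h1
  rw [MulAction.is_two_pretransitive_iff]
  intro a b c d hab hcd
  induction a using QuotientGroup.induction_on with | H x => ?_
  induction b using QuotientGroup.induction_on with | H y => ?_
  induction c using QuotientGroup.induction_on with | H u => ?_
  induction d using QuotientGroup.induction_on with | H v => ?_
  have h1 : x⁻¹ * y ∉ P.B := fun h => hab (QuotientGroup.eq.2 h)
  have h2 : u⁻¹ * v ∉ P.B := fun h => hcd (QuotientGroup.eq.2 h)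
  obtain ⟨b1, hb1, b2, hb2, e1⟩ := Cfsg.Agent.Lib.Helper3.BN.mem_C.1 (hall _ h1)
  obtain ⟨b3, hb3, b4, hb4, e2⟩ := Cfsg.Agent.Lib.Helper3.BN.mem_C.1 (hall _ h2)
  refine ⟨u * b3 * b1⁻¹ * x⁻¹, ?_, ?_⟩
  · show ((u * b3 * b1⁻¹ * x⁻¹ * x : G) : G ⧸ P.B) = u
    rw [QuotientGroup.eq]
    have : (u * b3 * b1⁻¹ * x⁻¹ * x)⁻¹ * u = b1 * b3⁻¹ := by simp [mul_assoc]
    rw [this]
    exact mul_mem hb1 (inv_mem hb3)
  · show ((u * b3 * b1⁻¹ * x⁻¹ * y : G) : G ⧸ P.B) = v
    rw [QuotientGroup.eq]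
    have e3 : u * b3 * b1⁻¹ * x⁻¹ * y = u * b3 * b1⁻¹ * (x⁻¹ * y) := by simp [mul_assoc]
    have e4 : v = u * (b3 * s * b4) := by rw [← e2]; simp
    rw [e3, e1]
    have : (u * b3 * b1⁻¹ * (b1 * s * b2))⁻¹ * v = b2⁻¹ * b4 := by
      rw [e4]; simp [mul_assoc]
    rw [this]
    exact mul_mem (inv_mem hb2) hb4

end Cfsg.Agent.S0322
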