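import Mathlib
import Cfsg.Statements.S0323

set_option autoImplicit false
open scoped Pointwise
open Cfsg

namespace Cfsg.Agent.S0323

theorem mem_stab_pair {G Ω : Type*} [Group G] [MulAction G Ω] {x y : Ω} (n : G) :
    n ∈ MulAction.stabilizer G ({x, y} : Set Ω) ↔
      (n • x = x ∧ n • y = y) ∨ (n • x = y ∧ n • y = x) := by
  rw [MulAction.mem_stabilizer_iff, Set.smul_set_insert, Set.smul_set_singleton,
    Set.pair_eq_pair_iff]

/-- A doubly transitive action on a set with at least three points yields a (B,N)-pair of rank one: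
`B` is the stabiliser of a point `x`, `N` the setwise stabiliser of a pair `{x, y}`. -/
theorem result {G Ω : Type*} [Group G] [MulAction G Ω]
    (h2 : MulAction.IsMultiplyPretransitive G Ω 2) {x y z : Ω} (hxy : x ≠ y) (hyz : y ≠ z) (hxz : x ≠ z) :
    ∃ P : Cfsg.BNPair G, P.B = MulAction.stabilizer G x ∧
      P.N = MulAction.stabilizer G ({x, y} : Set Ω) ∧ P.rank = 1 := by
  rw [MulAction.is_two_pretransitive_iff] at h2
  obtain ⟨s, hsx, hsy⟩ := h2 hxy hxy.symm
  have hsinvx : s⁻¹ • x = y := by rw [inv_smul_eq_iff, hsy]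
  have hsinvy : s⁻¹ • y = x := by rw [inv_smul_eq_iff, hsx]
  -- every g moving x lies in B s B
  have key : ∀ g : G, g • x ≠ x → ∃ b ∈ MulAction.stabilizer G x, ∃ b' ∈ MulAction.stabilizer G x,
      g = b * s * b' := by
    intro g hg
    obtain ⟨b0, hb0x, hb0⟩ := h2 (Ne.symm hg) hxy
    refine ⟨b0⁻¹, inv_mem (MulAction.mem_stabilizer_iff.2 hb0x), s⁻¹ * b0 * g, ?_, by simp [mul_assoc]⟩
    rw [MulAction.mem_stabilizer_iff, mul_smul, mul_smul, hb0, hsinvy]
  have hsN : s ∈ MulAction.stabilizer G ({x, y} : Set Ω) := (mem_stab_pair s).2 (Or.inr ⟨hsx, hsy⟩)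
  refine ⟨{ B := MulAction.stabilizer G x
            N := MulAction.stabilizer G ({x, y} : Set Ω)
            S := {s}
            sup_eq_top := ?_
            conj_mem := ?_
            subset := ?_
            sq_mem := ?_
            inj := ?_
            closure_sup := ?_
            mul_mem_union := ?_
            conj_ne := ?_ }, rfl, rfl, ?_⟩
  · rw [eq_top_iff]
    intro g _
    by_cases hg : g • x = x
    · exact (le_sup_left : MulAction.stabilizer G x ≤ _) (MulAction.mem_stabilizer_iff.2 hg)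
    · obtain ⟨b, hb, b', hb', rfl⟩ := key g hg
      exact mul_mem (mul_mem ((le_sup_left : MulAction.stabilizer G x ≤ _) hb)
        ((le_sup_right : MulAction.stabilizer G ({x, y} : Set Ω) ≤ _) hsN))
        ((le_sup_left : MulAction.stabilizer G x ≤ _) hb')
  · intro n hn t ht
    obtain ⟨htB, htN⟩ := Subgroup.mem_inf.1 ht
    have htx : t • x = x := MulAction.mem_stabilizer_iff.1 htB
    have hty : t • y = y := by
      rcases (mem_stab_pair t).1 htN with h | h
      · exact h.2
      · exact absurd (htx.symm.trans h.1) hxy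
    rw [MulAction.mem_stabilizer_iff, mul_smul, mul_smul]
    rcases (mem_stab_pair n⁻¹).1 (inv_mem hn) with h | h
    · rw [h.1, htx]; exact (inv_smul_eq_iff.1 h.1).symm
    · rw [h.1, hty]; exact (inv_smul_eq_iff.1 h.1).symm
  · intro s' hs'
    rw [Set.mem_singleton_iff.1 hs']; exact hsN
  · intro s' hs'
    rw [Set.mem_singleton_iff.1 hs', MulAction.mem_stabilizer_iff, mul_smul, hsx, hsy]
  · intro s' hs' s'' hs'' _
    rw [Set.mem_singleton_iff.1 hs', Set.mem_singleton_iff.1 hs'']
  · apply le_antisymm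
    · rw [sup_le_iff]
      refine ⟨?_, inf_le_right⟩
      rw [Subgroup.closure_le, Set.singleton_subset_iff]; exact hsN
    · intro n hn
      rcases (mem_stab_pair n).1 hn with h | h
      · exact (le_sup_right : MulAction.stabilizer G x ⊓ MulAction.stabilizer G ({x, y} : Set Ω) ≤ _)
          (Subgroup.mem_inf.2 ⟨MulAction.mem_stabilizer_iff.2 h.1, hn⟩)
      · have e : n = s * (s⁻¹ * n) := by simp
        rw [e]
        refine mul_mem ((le_sup_left : Subgroup.closure {s} ≤ _) (Subgroup.subset_closure rfl))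
          ((le_sup_right : MulAction.stabilizer G x ⊓ MulAction.stabilizer G ({x, y} : Set Ω) ≤ _)
            (Subgroup.mem_inf.2 ⟨?_, mul_mem (inv_mem hsN) hn⟩))
        rw [MulAction.mem_stabilizer_iff, mul_smul, h.1, hsinvy]
  · intro s' hs' n hn b hb
    rw [Set.mem_singleton_iff.1 hs']
    have hbx : b • x = x := MulAction.mem_stabilizer_iff.1 hb
    rcases (mem_stab_pair n).1 hn with h | h
    · -- n fixes x
      left
      have hg : (s * b * n) • x ≠ x := by
        rw [mul_smul, mul_smul, h.1, hbx, hsx]; exact hxy.symm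
      obtain ⟨b1, hb1, b2, hb2, e⟩ := key _ hg
      rw [DoubleCoset.mem_doubleCoset]
      refine ⟨b1, hb1, n⁻¹ * b2, mul_mem (inv_mem (MulAction.mem_stabilizer_iff.2 h.1)) hb2, ?_⟩
      rw [e]; simp [mul_assoc]
    · by_cases hg : (s * b * n) • x = x
      · left
        rw [DoubleCoset.mem_doubleCoset]
        have hsn : s * n ∈ MulAction.stabilizer G x := by
          rw [MulAction.mem_stabilizer_iff, mul_smul, h.1, hsy]
        exact ⟨(s * b * n) * (s * n)⁻¹,
          mul_mem (MulAction.mem_stabilizer_iff.2 hg) (inv_mem hsn), 1, one_mem _, by simp [mul_assoc]⟩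
      · right
        obtain ⟨b1, hb1, b2, hb2, e⟩ := key _ hg
        rw [DoubleCoset.mem_doubleCoset]
        have hsn : s⁻¹ * n ∈ MulAction.stabilizer G x := by
          rw [MulAction.mem_stabilizer_iff, mul_smul, h.1, hsinvy]
        refine ⟨b1, hb1, (s⁻¹ * n)⁻¹ * b2, mul_mem (inv_mem hsn) hb2, ?_⟩
        rw [e]; simp [mul_assoc]
  · intro s' hs' himg
    rw [Set.mem_singleton_iff.1 hs'] at himg
    obtain ⟨b, hbx, hby⟩ := h2 hxy hxz
    have h1 : s * b * s ∈ ((MulAction.stabilizer G x : Subgroup G) : Set G) := by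
      rw [← himg]
      exact ⟨b, MulAction.mem_stabilizer_iff.2 hbx, rfl⟩
    have h3 : (s * b * s) • x = x := MulAction.mem_stabilizer_iff.1 h1
    rw [mul_smul, mul_smul, hsx, hby, ← hsy] at h3
    exact hyz (smul_left_cancel s h3).symm
  · simp [Cfsg.BNPair.rank]

end Cfsg.Agent.S0323
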