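import Mathlib
import Cfsg.Agent.Lib.Helper18.Sz7
import Cfsg.Statements.S0327
-- import your own Cfsg.Agent.* helpers here

set_option autoImplicit false
open Cfsg Cfsg.Agent.Lib.Helper18 Matrix

namespace Cfsg.Agent.S0327

/-- The Suzuki group (`m ≥ 1`) is a Zassenhaus group on the `q² + 1` points of the Suzuki–Tits ovoid. -/
theorem result {F : Type*} [Field F] [Fintype F] {m : ℕ} (hm : 1 ≤ m)
    (hF : Fintype.card F = 2 ^ (2 * m + 1)) :
    Cfsg.IsZassenhausGroup (Cfsg.Sz F m) (Cfsg.suzukiOvoid F m) := by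
  have h := szData_of_card hm hF
  have hinf0 : suzukiPointInfinity F ≠ szP (2 ^ (m + 1)) 0 0 := (szP_ne_inf _ _ _).symm
  have h3 : ∀ g : Cfsg.Sz F m, ∀ a b c : Cfsg.suzukiOvoid F m, a ≠ b → b ≠ c → a ≠ c →
      g • a = a → g • b = b → g • c = c → g = 1 := by
    intro g a b c hab hbc hac ga gb gc
    apply Subtype.ext
    exact Sz_three_point h g.2 a.2 b.2 c.2 (fun hh => hab (Subtype.ext hh))
      (fun hh => hbc (Subtype.ext hh)) (fun hh => hac (Subtype.ext hh))
      (congrArg Subtype.val ga) (congrArg Subtype.val gb) (congrArg Subtype.val gc)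
  have hnt : Nontrivial Fˣ := by
    rw [← Finite.one_lt_card_iff_nontrivial, Nat.card_units]
    have := h.lt_card
    have := h.four_le
    generalize 2 ^ (m + 1) = s at *
    omega
  obtain ⟨t, ht⟩ := exists_ne (1 : Fˣ)
  let oInf : Cfsg.suzukiOvoid F m := ⟨suzukiPointInfinity F, szInf_mem m⟩
  let oZero : Cfsg.suzukiOvoid F m := ⟨szP (2 ^ (m + 1)) 0 0, szP_mem m 0 0⟩
  let oOne : Cfsg.suzukiOvoid F m := ⟨szP (2 ^ (m + 1)) 1 0, szP_mem m 1 0⟩
  have hIZ : oInf ≠ oZero := fun hh => hinf0 (congrArg Subtype.val hh)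
  have hIO : oInf ≠ oOne := fun hh => (szP_ne_inf _ _ _).symm (congrArg Subtype.val hh)
  have hZO : oZero ≠ oOne := fun hh => zero_ne_one (szP_inj (congrArg Subtype.val hh)).1
  refine ⟨⟨?_⟩, ?_, h3, ?_, ?_⟩
  · intro g g' hgg
    have : g'⁻¹ * g = 1 := by
      apply h3 _ oInf oZero oOne hIZ hZO hIO
      all_goals rw [mul_smul, hgg, inv_smul_smul]
    exact (inv_mul_eq_one.1 this).symm
  · rw [MulAction.is_two_pretransitive_iff]
    intro a b c d hab hcd
    obtain ⟨g1, hg1, e1, e2⟩ := Sz_two_trans h a.2 b.2 (fun hh => hab (Subtype.ext hh))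
    obtain ⟨g2, hg2, e3, e4⟩ := Sz_two_trans h c.2 d.2 (fun hh => hcd (Subtype.ext hh))
    refine ⟨⟨g2, hg2⟩⁻¹ * ⟨g1, hg1⟩, ?_, ?_⟩
    · rw [mul_smul, inv_smul_eq_iff]
      apply Subtype.ext
      exact e1.trans e3.symm
    · rw [mul_smul, inv_smul_eq_iff]
      apply Subtype.ext
      exact e2.trans e4.symm
  · refine ⟨⟨szD (2 ^ (m + 1)) t, szD_mem h t⟩, ?_, oInf, oZero, hIZ, ?_, ?_⟩
    · intro hh
      apply ht
      apply szD_inj h
      rw [szD_one]
      exact congrArg Subtype.val hh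
    · apply Subtype.ext
      exact szD_smul_inf t
    · apply Subtype.ext
      exact szD_smul_zero h t
  · intro N hN hNt
    by_contra hcon
    push Not at hcon
    obtain ⟨n, hn⟩ := hNt.exists_smul_eq oInf oZero
    let d : Cfsg.Sz F m := ⟨szD (2 ^ (m + 1)) t, szD_mem h t⟩
    have hdI : d • oInf = oInf := Subtype.ext (szD_smul_inf t)
    have hdZ : d • oZero = oZero := Subtype.ext (szD_smul_zero h t)
    have hn' : (n : Cfsg.Sz F m) • oInf = oZero := hn
    let n' : N := ⟨d * n * d⁻¹, hN.conj_mem _ n.2 d⟩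
    have hmem : n⁻¹ * n' ∈ MulAction.stabilizer N oInf := by
      rw [MulAction.mem_stabilizer_iff, mul_smul, inv_smul_eq_iff, hn]
      change (d * (n : Cfsg.Sz F m) * d⁻¹) • oInf = oZero
      rw [mul_smul, mul_smul, inv_smul_eq_iff.2 hdI.symm, hn', hdZ]
    rw [hcon oInf, Subgroup.mem_bot, inv_mul_eq_one] at hmem
    have hcomm : d * (n : Cfsg.Sz F m) = n * d := by
      have := congrArg Subtype.val hmem
      change (n : Cfsg.Sz F m) = d * n * d⁻¹ at this
      rw [eq_mul_inv_iff_mul_eq] at this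
      exact this.symm
    exact ht (Sz_no_comm h (n : Cfsg.Sz F m).2 (congrArg Subtype.val hn')
      (congrArg Subtype.val hcomm))

end Cfsg.Agent.S0327
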