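import Mathlib
import Cfsg.Agent.Lib.Helper18.Sz6
import Cfsg.Statements.S0328
-- import your own Cfsg.Agent.* helpers here

set_option autoImplicit false
open Cfsg Cfsg.Agent.Lib.Helper18 Matrix

namespace Cfsg.Agent.S0328

/-- The stabiliser in the Suzuki group of the two ovoid points spanned by `(1,0,0,0)` and `(0,0,0,1)` is
isomorphic to the multiplicative group of the field (cyclic of order `q - 1`). -/
theorem result {F : Type*} [Field F] [Fintype F] {m : ℕ} (hm : 1 ≤ m)
    (hF : Fintype.card F = 2 ^ (2 * m + 1)) :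
    Nonempty (↥(MulAction.stabilizer (Cfsg.Sz F m) (Cfsg.suzukiPointInfinity F) ⊓
        MulAction.stabilizer (Cfsg.Sz F m) (Cfsg.suzukiPointZero F)) ≃* Fˣ) := by
  have h := szData_of_card hm hF
  have hz : suzukiPointZero F = szP (2 ^ (m + 1)) 0 0 := (szP_zero h.s_ne).symm
  let φ : Fˣ →* ↥(MulAction.stabilizer (Cfsg.Sz F m) (Cfsg.suzukiPointInfinity F) ⊓
        MulAction.stabilizer (Cfsg.Sz F m) (Cfsg.suzukiPointZero F)) :=
    { toFun := fun t => ⟨⟨szD (2 ^ (m + 1)) t, szD_mem h t⟩, by
        constructor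
        · exact szD_smul_inf t
        · change szD (2 ^ (m + 1)) t • suzukiPointZero F = _
          rw [hz]
          exact szD_smul_zero h t⟩
      map_one' := by
        apply Subtype.ext; apply Subtype.ext
        exact szD_one
      map_mul' := fun t u => by
        apply Subtype.ext; apply Subtype.ext
        exact szD_mul t u }
  have hφ : Function.Bijective φ := by
    constructor
    · intro t u htu
      exact szD_inj h (congrArg (fun z => z.1.1) htu)
    · rintro ⟨⟨g, hg⟩, hg1, hg2⟩
      have hg2' : g • szP (2 ^ (m + 1)) (0 : F) 0 = szP (2 ^ (m + 1)) 0 0 := by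
        rw [← hz]; exact hg2
      obtain ⟨t, rfl⟩ := Sz_two_point h hg hg1 hg2'
      exact ⟨t, rfl⟩
  exact ⟨(MulEquiv.ofBijective φ hφ).symm⟩

end Cfsg.Agent.S0328
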