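import Mathlib
import Cfsg.Agent.Lib.Helper18.Sz13
import Cfsg.Statements.S0331
-- import your own Cfsg.Agent.* helpers here

set_option autoImplicit false
open Cfsg Cfsg.Agent.Lib.Helper18 Matrix

namespace Cfsg.Agent.S0331

/-- For every odd prime `p` the Sylow `p`-subgroups of the Suzuki group are cyclic. -/
theorem result {F : Type*} [Field F] [Fintype F] {m : ℕ} (hm : 1 ≤ m)
    (hF : Fintype.card F = 2 ^ (2 * m + 1)) {p : ℕ} [Fact p.Prime] (hp : p ≠ 2)
    (P : Sylow p (Cfsg.Sz F m)) : IsCyclic P := by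
  have h := szData_of_card hm hF
  have hpp : Nat.Prime p := Fact.out
  by_cases hpq : p ∣ 2 ^ (2 * m + 1) - 1
  · have hmod : Fintype.card F ≡ 1 [MOD p] := by
      rw [hF]
      exact ((Nat.modEq_iff_dvd' Nat.one_le_two_pow).2 hpq).symm
    obtain ⟨a, b, hab, ha, hb⟩ := Sz_pgroup_two_fixed hp hmod (P : Subgroup (Cfsg.Sz F m)) P.2
    obtain ⟨x, hx⟩ := Sz_conj_into_torus h (P : Subgroup (Cfsg.Sz F m)) hab ha hb
    exact Sz_torus_cyclic h (P : Subgroup (Cfsg.Sz F m)) x hx
  · by_cases hnt : Nontrivial (P : Subgroup (Cfsg.Sz F m))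
    · have hc := P.2.center_nontrivial
      have hpc : IsPGroup p (Subgroup.center (P : Subgroup (Cfsg.Sz F m))) :=
        P.2.to_subgroup _
      have hdvd : p ∣ Nat.card (Subgroup.center (P : Subgroup (Cfsg.Sz F m))) := by
        rcases hpc.card_eq_or_dvd with h1 | h1
        · exfalso
          have := Finite.one_lt_card (α := Subgroup.center (P : Subgroup (Cfsg.Sz F m)))
          omega
        · exact h1
      obtain ⟨z, hz⟩ := exists_prime_orderOf_dvd_card' p hdvd
      refine Sz_irr_cyclic hm hF hp hpq z.1.1 ?_ (P : Subgroup (Cfsg.Sz F m)) ?_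
      · rw [Subgroup.orderOf_coe, Subgroup.orderOf_coe, hz]
      · intro g hg
        have := Subgroup.mem_center_iff.1 z.2 ⟨g, hg⟩
        exact (congrArg Subtype.val this).symm
    · rw [not_nontrivial_iff_subsingleton] at hnt
      exact isCyclic_of_subsingleton

end Cfsg.Agent.S0331
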