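import Mathlib
import Cfsg.Statements.S0352
import Cfsg.Agent.Lib.Helper3.Steiner

set_option autoImplicit false
open Cfsg

namespace Cfsg.Agent.S0352

open Cfsg.Agent.Lib.Helper3.Steiner

/-- In a Steiner system S(5, 8, 24), two distinct blocks intersect in 0, 2 or 4 points. -/
theorem result {α : Type*} [Fintype α] [DecidableEq α] (hα : Fintype.card α = 24) {B : Set (Finset α)} (hB : Cfsg.IsSteinerSystem 5 8 B) {b c : Finset α} (hb : b ∈ B) (hc : c ∈ B) (hbc : b ≠ c) : (b ∩ c).card = 0 ∨ (b ∩ c).card = 2 ∨ (b ∩ c).card = 4 := by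
  have e1 := sum_N hB (by norm_num) b 1 (by norm_num)
  have e2 := sum_N hB (by norm_num) b 2 (by norm_num)
  have e3 := sum_N hB (by norm_num) b 3 (by norm_num)
  have e4 := sum_N hB (by norm_num) b 4 (by norm_num)
  have z5 := N_eq_zero hB hb (j := 5) (by norm_num) (by norm_num)
  have z6 := N_eq_zero hB hb (j := 6) (by norm_num) (by norm_num)
  have z7 := N_eq_zero hB hb (j := 7) (by norm_num) (by norm_num)
  have z8 := N_self hB hb
  rw [hα, hB.1 b hb] at e1 e2 e3 e4
  simp only [Finset.sum_range_succ, Finset.sum_range_zero, z5, z6, z7, z8] at e1 e2 e3 e4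
  norm_num [Nat.choose] at e1 e2 e3 e4
  have n1 : N B b 1 = 0 := by omega
  have n3 : N B b 3 = 0 := by omega
  have h1 := ne_of_N_eq_zero hc n1
  have h3 := ne_of_N_eq_zero hc n3
  have h5 := card_inter_lt hB hb hc (Ne.symm hbc)
  rw [Finset.inter_comm] at h1 h3 h5
  omega

end Cfsg.Agent.S0352
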