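import Mathlib
import Cfsg.Statements.S0353
import Cfsg.Agent.Lib.Helper3.Steiner
import Cfsg.Agent.S0352

set_option autoImplicit false
open Cfsg

namespace Cfsg.Agent.S0353

open Cfsg.Agent.Lib.Helper3.Steiner

theorem card_symmDiff_add {α : Type*} [DecidableEq α] (X Y : Finset α) :
    (symmDiff X Y).card + 2 * (X ∩ Y).card = X.card + Y.card := by
  have h1 := Finset.card_sdiff_add_card_inter X Y
  have h2 := Finset.card_sdiff_add_card_inter Y X
  rw [Finset.inter_comm] at h2
  rw [symmDiff_def, Finset.sup_eq_union, Finset.card_union_of_disjoint disjoint_sdiff_sdiff]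
  omega


/-- In an S(5, 8, 24), the symmetric difference of two blocks meeting in four points is a block. -/
theorem result {α : Type*} [Fintype α] [DecidableEq α] (hα : Fintype.card α = 24) {B : Set (Finset α)} (hB : Cfsg.IsSteinerSystem 5 8 B) {b c : Finset α} (hb : b ∈ B) (hc : c ∈ B) (h4 : (b ∩ c).card = 4) : symmDiff b c ∈ B := by
  have heven : ∀ d ∈ B, ∀ b ∈ B, Even (d ∩ b).card := by
    intro d hd b hb
    by_cases hdb : d = b
    · subst hdb
      rw [Finset.inter_self, hB.1 d hd]; decide
    · rcases Cfsg.Agent.S0352.result hα hB hd hb hdb with h | h | h <;> rw [h] <;> decide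
  set S := symmDiff b c with hS
  have hScard : S.card = 8 := by
    have := card_symmDiff_add b c
    rw [h4, hB.1 b hb, hB.1 c hc, ← hS] at this
    omega
  have hpar : ∀ d ∈ B, Even (d ∩ S).card := by
    intro d hd
    have h1 := card_symmDiff_add (d ∩ b) (d ∩ c)
    have h2 : d ∩ S = symmDiff (d ∩ b) (d ∩ c) := inf_symmDiff_distrib_left d b c
    rw [← h2] at h1
    obtain ⟨x, hx⟩ := heven d hd b hb
    obtain ⟨y, hy⟩ := heven d hd c hc
    rw [Nat.even_iff]
    omega
  have hodd : ∀ j, ¬ Even j → N B S j = 0 := by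
    intro j hj
    rw [N, Finset.card_eq_zero, Finset.filter_eq_empty_iff]
    intro d hd hdj
    exact hj (hdj ▸ hpar d (mem_blocks.1 hd))
  have e5 := sum_N hB (by norm_num) S 5 (by norm_num)
  rw [hα, hScard] at e5
  simp only [Finset.sum_range_succ, Finset.sum_range_zero, hodd 5 (by decide),
    hodd 7 (by decide)] at e5
  norm_num [Nat.choose] at e5
  have n8 : N B S 8 ≠ 0 := by omega
  rw [N, Finset.card_ne_zero] at n8
  obtain ⟨d, hd⟩ := n8
  rw [Finset.mem_filter, mem_blocks] at hd
  have h1 : d ∩ S = d := Finset.eq_of_subset_of_card_le Finset.inter_subset_left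
    (by rw [hd.2, hB.1 d hd.1])
  have h2 : d ∩ S = S := Finset.eq_of_subset_of_card_le Finset.inter_subset_right
    (by rw [hd.2, hScard])
  rw [← h2, h1]
  exact hd.1

end Cfsg.Agent.S0353
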