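import Mathlib
import Cfsg.Statements.S0357
import Cfsg.Agent.Lib.Helper3.Steiner

set_option autoImplicit false
open Cfsg

namespace Cfsg.Agent.S0357

open Cfsg.Agent.Lib.Helper3.Steiner

/-- In a Steiner system S(5, 6, 12), the complement of every block is again a block. -/
theorem result {α : Type*} [Fintype α] [DecidableEq α] (hα : Fintype.card α = 12) {B : Set (Finset α)} (hB : Cfsg.IsSteinerSystem 5 6 B) {b : Finset α} (hb : b ∈ B) : bᶜ ∈ B := by
  have e0 := sum_N hB (by norm_num) b 0 (by norm_num)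
  have e1 := sum_N hB (by norm_num) b 1 (by norm_num)
  have e2 := sum_N hB (by norm_num) b 2 (by norm_num)
  have e3 := sum_N hB (by norm_num) b 3 (by norm_num)
  have e4 := sum_N hB (by norm_num) b 4 (by norm_num)
  have z5 := N_eq_zero hB hb (j := 5) (by norm_num) (by norm_num)
  have z6 := N_self hB hb
  rw [hα, hB.1 b hb] at e0 e1 e2 e3 e4
  simp only [Finset.sum_range_succ, Finset.sum_range_zero, z5, z6] at e0 e1 e2 e3 e4
  norm_num [Nat.choose] at e0 e1 e2 e3 e4
  have n0 : N B b 0 = 1 := by omega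
  rw [N, Finset.card_eq_one] at n0
  obtain ⟨c, hc⟩ := n0
  have hc' : c ∈ ({c} : Finset (Finset α)) := Finset.mem_singleton_self c
  rw [← hc, Finset.mem_filter, mem_blocks, Finset.card_eq_zero] at hc'
  have hsub : c ⊆ bᶜ := by
    intro x hx
    rw [Finset.mem_compl]
    intro hxb
    have : x ∈ c ∩ b := Finset.mem_inter.2 ⟨hx, hxb⟩
    rw [hc'.2] at this
    simp at this
  have : c = bᶜ := by
    apply Finset.eq_of_subset_of_card_le hsub
    rw [Finset.card_compl, hα, hB.1 b hb, hB.1 c hc'.1]
  rw [← this]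
  exact hc'.1

end Cfsg.Agent.S0357
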