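import Cfsg.Statements.S0358
import Cfsg.Agent.Lib.Helper28.GolayFacts

set_option autoImplicit false
open Cfsg

namespace Cfsg.Agent.S0358

/-- The length-24 code built from the squares modulo 23 has dimension 12 over the field with two elements. -/
theorem result : Module.finrank (ZMod 2) Cfsg.golayCode = 12 := by
  open Lib.Helper28 in
  have hcard : Nat.card golayCode = 4096 := by
    have : Nat.card golayCode = Nat.card (Fin 4096) := by
      apply Nat.card_congr
      refine Equiv.ofBijective (fun w => ⟨mk (support₂ w.1) % 4096, Nat.mod_lt _ (by decide)⟩) ⟨?_, ?_⟩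
      · intro v w h
        have h1 : mk (support₂ v.1) % 4096 = mk (support₂ w.1) % 4096 := congrArg Fin.val h
        have hv := isCode_iff.1 ((mem_golayCode_iff v.1).1 v.2)
        have hw := isCode_iff.1 ((mem_golayCode_iff w.1).1 w.2)
        rw [h1, hw] at hv
        apply Subtype.ext
        rw [← wordOf_support₂ v.1, ← wordOf_support₂ w.1, mk_injective hv.symm]
      · intro a
        have ha := enc_facts a.1 a.2
        refine ⟨⟨wordOf (un (enc B12 a.1)), ?_⟩, ?_⟩
        · rw [wordOf_mem_iff, mk_un ha.2.1]; exact isCode_enc a.2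
        · apply Fin.ext
          show mk (support₂ (wordOf (un (enc B12 a.1)))) % 4096 = a.1
          rw [support₂_wordOf, mk_un ha.2.1, ha.1]
    rw [this]; simp
  have h2 := Module.natCard_eq_pow_finrank (K := ZMod 2) (V := golayCode)
  rw [hcard, Nat.card_zmod] at h2
  exact (Nat.pow_right_injective (le_refl 2) (by show 2 ^ 12 = 2 ^ _; rw [← h2])).symm

end Cfsg.Agent.S0358
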