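import Cfsg.Statements.S0362
import Cfsg.Agent.Lib.Helper28.GolayFacts

set_option autoImplicit false
open Cfsg

namespace Cfsg.Agent.S0362

/-- The length-24 code is self-orthogonal: the dot product over ZMod 2 of any two of its words vanishes (with dimension 12 this makes it self-dual). -/
theorem result (v w : Cfsg.GolayPt → ZMod 2) (hv : v ∈ Cfsg.golayCode) (hw : w ∈ Cfsg.golayCode) : ∑ i, v i * w i = 0 := by
  open Lib.Helper28 in
  have key : ∀ s t : Finset GolayPt, ∑ i, wordOf s i * wordOf t i = ((s ∩ t).card : ZMod 2) := by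
    intro s t
    simp only [wordOf, ite_mul, one_mul, zero_mul, ← ite_and, ← Finset.mem_inter]
    rw [Finset.sum_boole]
    congr 2
    ext p; simp
  rw [← Lib.Helper28.wordOf_support₂ v, ← Lib.Helper28.wordOf_support₂ w, key,
    Lib.Helper28.card_eq_popc, Lib.Helper28.mk_inter]
  have h := Lib.Helper28.even_popc_land ((Lib.Helper28.mem_golayCode_iff v).1 hv)
    ((Lib.Helper28.mem_golayCode_iff w).1 hw)
  exact (ZMod.natCast_eq_zero_iff _ 2).2 h

end Cfsg.Agent.S0362
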