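import Cfsg.Statements.S0371
import Cfsg.Agent.Lib.Helper28.GolayPerm

set_option autoImplicit false
open Cfsg

namespace Cfsg.Agent.S0371

/-- Multiplication by a nonzero square residue modulo 23, fixing the extra point, lies in the group of the length-24 code. -/
theorem result (u : (ZMod 23)ˣ) (hu : IsSquare u) : Equiv.optionCongr (Units.mulLeft u) ∈ Cfsg.M24 := by
  obtain ⟨r, rfl⟩ := hu
  rw [Lib.Helper28.mem_M24_iff]
  have key : ∀ a : ZMod 23, a ≠ 0 → Lib.Helper28.mapsCode ((List.range 24).map fun i =>
      Lib.Helper28.idx (Option.map (fun x => a * a * x) (Lib.Helper28.ptOf i))) = true := by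
    decide +kernel
  haveI : Fact (Nat.Prime 23) := ⟨by norm_num⟩
  have h := key (r : ZMod 23) r.ne_zero
  have e : Lib.Helper28.tblOf (Equiv.optionCongr (r * r).mulLeft) = (List.range 24).map fun i =>
      Lib.Helper28.idx (Option.map (fun x => (r : ZMod 23) * r * x) (Lib.Helper28.ptOf i)) := by
    unfold Lib.Helper28.tblOf
    apply List.map_congr_left
    intro i _
    congr 1
  rw [e]; exact h

end Cfsg.Agent.S0371
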