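import Cfsg.Statements.S5622
import Mathlib
-- import your own Cfsg.Agent.* helpers here
import Cfsg.Agent.H5.Golay24b

set_option autoImplicit false
open Cfsg

namespace Cfsg.Agent.S5622



/-- Let C be a self-dual binary code of length 24 with minimum weight at least 8 (a 12-dimensional subspace of the 24-dimensional space over the field with two elements, any two of whose words have dot product zero, with no non-zero word of weight below 8 — an abstract extended binary Golay code). Then the minimum weight of C is exactly 8, and the supports of the words of weight 8 (the octads) form a Steiner system S(5, 8, 24) on the 24 coordinates: every 5 coordinates lie in the support of exactly one word of weight 8. -/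
theorem result (C : Submodule (ZMod 2) (Fin 24 → ZMod 2)) (hdim : Module.finrank (ZMod 2) C = 12) (horth : ∀ v ∈ C, ∀ w ∈ C, ∑ i, v i * w i = 0) (hmin : ∀ w ∈ C, w ≠ 0 → 8 ≤ hammingNorm w) : (∃ w ∈ C, hammingNorm w = 8) ∧ Cfsg.IsSteinerSystem 5 8 (Cfsg.wordsOfWeight (C : Set (Fin 24 → ZMod 2)) 8) := by
  have hcard : Nat.card C = 4096 := by
    rw [Module.natCard_eq_pow_finrank (K := ZMod 2), hdim, Nat.card_zmod]; norm_num
  have h24 : Fintype.card (Fin 24) = 24 := by simp
  have hex := Cfsg.Agent.H5Golay24.octad_exists h24 C hcard hmin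
  constructor
  · obtain ⟨s, -, hs⟩ := Finset.exists_subset_card_eq (s := (Finset.univ : Finset (Fin 24))) (n := 5)
      (by simp)
    obtain ⟨c, hc, h8, -⟩ := hex s hs
    exact ⟨c, hc, h8⟩
  · refine ⟨fun b hb => hb.2, ?_⟩
    intro s hs
    obtain ⟨c, hc, h8, hsc⟩ := hex s hs
    refine ⟨Cfsg.Agent.H5Golay24.S c, ⟨⟨⟨c, hc, rfl⟩, h8⟩, hsc⟩, ?_⟩
    rintro b ⟨⟨⟨c', hc', rfl⟩, h8'⟩, hsc'⟩
    have := Cfsg.Agent.H5Golay24.octad_unique C hmin s hs c c' hc hc' h8 h8' hsc hsc'
    rw [this]; rfl

end Cfsg.Agent.S5622
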