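import Cfsg.Statements.S0375
import Cfsg.Agent.Lib.Helper28.GolayChain
import Cfsg.Agent.S0407
import Cfsg.Agent.S0363
import Cfsg.Agent.S0358
import Cfsg.Agent.S5622

set_option autoImplicit false
open Cfsg

namespace Cfsg.Agent.S0375

/-- A doubly even self-dual binary code of length 24 with no words of weight 4 is equivalent to the length-24 code built from the squares modulo 23. -/
theorem result (C : Submodule (ZMod 2) (Fin 24 → ZMod 2)) (hdim : Module.finrank (ZMod 2) C = 12) (horth : ∀ v ∈ C, ∀ w ∈ C, ∑ i, v i * w i = 0) (h4 : ∀ w ∈ C, 4 ∣ hammingNorm w) (hno4 : ∀ w ∈ C, hammingNorm w ≠ 4) : ∃ e : Fin 24 ≃ Cfsg.GolayPt, ∀ w : Cfsg.GolayPt → ZMod 2, w ∈ Cfsg.golayCode ↔ (fun i => w (e i)) ∈ C := by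
  classical
  have hmin : ∀ w ∈ C, w ≠ 0 → 8 ≤ hammingNorm w := by
    intro w hw hne
    obtain ⟨c, hc⟩ := h4 w hw
    have h0 : hammingNorm w ≠ 0 := hammingNorm_ne_zero_iff.mpr hne
    have := hno4 w hw
    omega
  obtain ⟨_, hS⟩ := Cfsg.Agent.S5622.result C hdim horth hmin
  have hc : Fintype.card Cfsg.GolayPt = 24 := by decide
  obtain ⟨e, he⟩ := Cfsg.Agent.S0407.result (Fintype.card_fin 24) hc hS Cfsg.Agent.S0363.result
  refine ⟨e, ?_⟩
  let F : (Cfsg.GolayPt → ZMod 2) ≃ₗ[ZMod 2] (Fin 24 → ZMod 2) :=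
    LinearEquiv.funCongrLeft (ZMod 2) (ZMod 2) e
  have hF : ∀ w, F w = fun i => w (e i) := fun w => rfl
  have hfin : Module.finrank (ZMod 2) (C.map F.symm.toLinearMap) = 12 := by
    rw [← hdim]; exact LinearEquiv.finrank_map_eq F.symm C
  have hmem : ∀ w, w ∈ C.map F.symm.toLinearMap ↔ (fun i => w (e i)) ∈ C := by
    intro w
    rw [← hF]
    constructor
    · rintro ⟨u, hu, rfl⟩
      simpa using hu
    · intro h
      exact ⟨F w, h, by simp⟩
  have henc : ∀ (bs : List ℕ), (∀ b ∈ bs, Cfsg.Agent.Lib.Helper28.wordOf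
      (Cfsg.Agent.Lib.Helper28.un b) ∈ C.map F.symm.toLinearMap) → ∀ a,
      Cfsg.Agent.Lib.Helper28.wordOf (Cfsg.Agent.Lib.Helper28.un
        (Cfsg.Agent.Lib.Helper28.enc bs a)) ∈ C.map F.symm.toLinearMap := by
    intro bs
    induction bs with
    | nil =>
      intro _ a
      simp only [Cfsg.Agent.Lib.Helper28.enc]
      rw [Cfsg.Agent.Lib.Helper28.un_zero, Cfsg.Agent.Lib.Helper28.wordOf_empty]
      exact Submodule.zero_mem _
    | cons b bs ih =>
      intro h a
      simp only [Cfsg.Agent.Lib.Helper28.enc]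
      rw [Cfsg.Agent.Lib.Helper28.un_xor, Cfsg.Agent.Lib.Helper28.wordOf_symmDiff]
      apply Submodule.add_mem
      · split_ifs
        · exact h b List.mem_cons_self
        · rw [Cfsg.Agent.Lib.Helper28.un_zero, Cfsg.Agent.Lib.Helper28.wordOf_empty]
          exact Submodule.zero_mem _
      · exact ih (fun m hm => h m (List.mem_cons_of_mem _ hm)) _
  have hb8 : ∀ b ∈ Cfsg.Agent.Lib.Helper28.B12, Cfsg.Agent.Lib.Helper28.isOct b = true := by
    decide +kernel
  have hB : ∀ b ∈ Cfsg.Agent.Lib.Helper28.B12, Cfsg.Agent.Lib.Helper28.wordOf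
      (Cfsg.Agent.Lib.Helper28.un b) ∈ C.map F.symm.toLinearMap := by
    intro b hb
    have h1 := Cfsg.Agent.Lib.Helper28.un_mem_octads (hb8 b hb)
    rw [← he] at h1
    obtain ⟨s, ⟨⟨u, hu, rfl⟩, _⟩, hs⟩ := h1
    rw [hmem, ← hs]
    have hfu : (fun i => Cfsg.Agent.Lib.Helper28.wordOf
        ((fun b => Finset.image (⇑e) b) (Cfsg.support₂ u)) (e i)) = u := by
      funext i
      simp only [Cfsg.Agent.Lib.Helper28.wordOf, Finset.mem_image, e.injective.eq_iff,
          exists_eq_right, Cfsg.support₂, Finset.mem_filter, Finset.mem_univ, true_and]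
      have h2 : u i = 0 ∨ u i = 1 := by
        generalize u i = a
        revert a
        decide
      rcases h2 with h2 | h2 <;> simp [h2]
    rw [hfu]
    exact hu
  have hle : Cfsg.golayCode ≤ C.map F.symm.toLinearMap := by
    intro w hw
    rw [Cfsg.Agent.Lib.Helper28.mem_golayCode_iff, Cfsg.Agent.Lib.Helper28.isCode_iff] at hw
    have h1 := henc _ hB (Cfsg.Agent.Lib.Helper28.mk (Cfsg.support₂ w) % 4096)
    rwa [hw, Cfsg.Agent.Lib.Helper28.un_mk, Cfsg.Agent.Lib.Helper28.wordOf_support₂] at h1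
  have heq : Cfsg.golayCode = C.map F.symm.toLinearMap :=
    Submodule.eq_of_le_of_finrank_eq hle (by rw [Cfsg.Agent.S0358.result, hfin])
  intro w
  rw [heq, hmem]

end Cfsg.Agent.S0375
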