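import Cfsg.Statements.S0378
import Cfsg.Agent.Lib.Helper28.M24Pts

set_option autoImplicit false
open Cfsg

namespace Cfsg.Agent.S0378

/-- A two-point stabiliser in the group of the length-24 code has order 443520 = 2^7·3^2·5·7·11. -/
theorem result (p q : Cfsg.GolayPt) (hpq : p ≠ q) : Nat.card ↥(MulAction.stabilizer Cfsg.M24 p ⊓ MulAction.stabilizer Cfsg.M24 q) = 443520 := by
  exact Lib.Helper28.card_stabilizer_pt2 hpq

end Cfsg.Agent.S0378
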