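import Mathlib
import Cfsg.Statements.S0379
import Cfsg.Agent.Lib.Helper3.M22Simple

set_option autoImplicit false
open Cfsg

namespace Cfsg.Agent.S0379

/-- A two-point stabiliser in the group of the length-24 code is simple. -/
theorem result (p q : Cfsg.GolayPt) (hpq : p ≠ q) : IsSimpleGroup ↥(MulAction.stabilizer Cfsg.M24 p ⊓ MulAction.stabilizer Cfsg.M24 q) := by
  open Cfsg.Agent.Lib.Helper3 Cfsg.Agent.Lib.Helper28 in
  obtain ⟨k, hk, hk1, hk2⟩ := M24_trans2 hpq (show (none : GolayPt) ≠ some 0 by simp)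
  have hmem : ∀ g : ↥(MulAction.stabilizer Cfsg.M24 p ⊓ MulAction.stabilizer Cfsg.M24 q),
      k * g.1.1 * k⁻¹ ∈ Spor.M22 := by
    rintro ⟨⟨g, hg⟩, h1, h2⟩
    have e1 : g p = p := h1
    have e2 : g q = q := h2
    refine FusGrp.mem_M22.2 ⟨conj_mem hk hg, ?_, ?_⟩
    · rw [ptOf_23, ← hk1, conj_apply, e1]
    · rw [ptOf_0, ← hk2, conj_apply, e2]
  have hmem2 : ∀ h : Spor.M22, k⁻¹ * h.1 * k ∈ M24 := fun h =>
    M24.mul_mem (M24.mul_mem (M24.inv_mem hk) (FusGrp.M22_le h.2)) hk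
  let e : ↥(MulAction.stabilizer Cfsg.M24 p ⊓ MulAction.stabilizer Cfsg.M24 q) ≃* Spor.M22 :=
    { toFun := fun g => ⟨k * g.1.1 * k⁻¹, hmem g⟩
      invFun := fun h => ⟨⟨k⁻¹ * h.1 * k, hmem2 h⟩, by
        obtain ⟨-, f1, f2⟩ := FusGrp.mem_M22.1 h.2
        rw [ptOf_23] at f1
        rw [ptOf_0] at f2
        constructor
        · change (k⁻¹ * h.1 * k) p = p
          simp only [Equiv.Perm.mul_apply, hk1, f1]
          rw [Equiv.Perm.inv_eq_iff_eq, hk1]
        · change (k⁻¹ * h.1 * k) q = q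
          simp only [Equiv.Perm.mul_apply, hk2, f2]
          rw [Equiv.Perm.inv_eq_iff_eq, hk2]⟩
      left_inv := fun g => by apply Subtype.ext; apply Subtype.ext; simp [mul_assoc]
      right_inv := fun h => by apply Subtype.ext; simp [mul_assoc]
      map_mul' := fun a b => by apply Subtype.ext; simp [mul_assoc] }
  exact e.isSimpleGroup_congr.2 M22Simple.m22_simple

end Cfsg.Agent.S0379
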