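import Mathlib
import Cfsg.Statements.S0381
import Cfsg.Agent.Lib.Helper3.M24Tools

set_option autoImplicit false
open Cfsg

namespace Cfsg.Agent.S0381

open Cfsg.Agent.Lib.Helper28 Cfsg.Agent.Lib.Helper3.M24T
open scoped Pointwise

theorem card_congr_conj {G : Type*} [Group G] (K K' : Subgroup G) (h : G)
    (H1 : ∀ g ∈ K, h * g * h⁻¹ ∈ K') (H2 : ∀ g ∈ K', h⁻¹ * g * h ∈ K) :
    Nat.card K = Nat.card K' := by
  apply Nat.card_congr
  refine ⟨fun g => ⟨h * g * h⁻¹, H1 g g.2⟩, fun g => ⟨h⁻¹ * g * h, H2 g g.2⟩, ?_, ?_⟩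
  · intro g; apply Subtype.ext; simp [mul_assoc]
  · intro g; apply Subtype.ext; simp [mul_assoc]

theorem U7_fix : ∀ u ∈ U7, ∀ j < 24, O5.testBit j = true → u.getD j 0 = j := by decide +kernel

theorem U7_sq : ∀ u ∈ U7, ∀ j < 24, u.getD (u.getD j 0) 0 = j := by decide +kernel

theorem K_O5 : M24 ⊓ fixingSubgroup (Equiv.Perm GolayPt) ((un O5 : Finset GolayPt) : Set GolayPt) =
    stabL [23, 0, 1, 2, 3, 5] := by
  ext g
  rw [Subgroup.mem_inf, mem_fixingSubgroup_iff, mem_stabL]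
  constructor
  · rintro ⟨h1, h2⟩
    refine ⟨h1, fun i hi => h2 _ ?_⟩
    rw [Finset.mem_coe, mem_un]
    revert i
    decide +kernel
  · intro hg
    refine ⟨hg.1, fun p hp => ?_⟩
    obtain ⟨u, hu, hu1, rfl⟩ := stab6_enum ((mem_stabL _ _).2 hg)
    rw [Finset.mem_coe, mem_un] at hp
    rw [Equiv.Perm.smul_def, permOf_apply (isTbl_of_inM24 hu1), U7_fix u hu _ (idx_lt p) hp,
      ptOf_idx]

theorem sq_O5 {g : Equiv.Perm GolayPt} (hg : g ∈ stabL [23, 0, 1, 2, 3, 5]) : g * g = 1 := by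
  obtain ⟨u, hu, hu1, rfl⟩ := stab6_enum hg
  ext1 p
  rw [Equiv.Perm.mul_apply, permOf_apply (isTbl_of_inM24 hu1) (permOf u p),
    idx_permOf (isTbl_of_inM24 hu1), U7_sq u hu _ (idx_lt p), ptOf_idx]
  rfl


/-- The pointwise stabiliser of an octad in the group of the length-24 code has order 16 and every element of it squares to the identity. -/
theorem result (o : Finset Cfsg.GolayPt) (ho : o ∈ Cfsg.octads) : Nat.card ↥(Cfsg.M24 ⊓ fixingSubgroup (Equiv.Perm Cfsg.GolayPt) (o : Set Cfsg.GolayPt)) = 16 ∧ ∀ g ∈ Cfsg.M24 ⊓ fixingSubgroup (Equiv.Perm Cfsg.GolayPt) (o : Set Cfsg.GolayPt), g * g = 1 := by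
  obtain ⟨h, hh, hho⟩ := exists_map_octad ho
  have H1 : ∀ g ∈ M24 ⊓ fixingSubgroup (Equiv.Perm GolayPt) (o : Set GolayPt),
      h * g * h⁻¹ ∈ stabL [23, 0, 1, 2, 3, 5] := by
    intro g hg
    rw [← K_O5, Subgroup.mem_inf, mem_fixingSubgroup_iff]
    rw [Subgroup.mem_inf, mem_fixingSubgroup_iff] at hg
    refine ⟨M24.mul_mem (M24.mul_mem hh hg.1) (M24.inv_mem hh), fun q hq => ?_⟩
    rw [← hho, Finset.mem_coe, smul_finset_eq_image, Finset.mem_image] at hq
    obtain ⟨p, hp, rfl⟩ := hq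
    have := hg.2 p hp
    rw [Equiv.Perm.smul_def] at this ⊢
    simp [this]
  have H2 : ∀ g ∈ stabL [23, 0, 1, 2, 3, 5],
      h⁻¹ * g * h ∈ M24 ⊓ fixingSubgroup (Equiv.Perm GolayPt) (o : Set GolayPt) := by
    intro g hg
    rw [← K_O5, Subgroup.mem_inf, mem_fixingSubgroup_iff] at hg
    rw [Subgroup.mem_inf, mem_fixingSubgroup_iff]
    refine ⟨M24.mul_mem (M24.mul_mem (M24.inv_mem hh) hg.1) hh, fun p hp => ?_⟩
    have : h p ∈ ((un O5 : Finset GolayPt) : Set GolayPt) := by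
      rw [← hho, Finset.mem_coe]; exact (mem_smul_finset_iff h o p).2 hp
    have := hg.2 _ this
    rw [Equiv.Perm.smul_def] at this ⊢
    simp [this]
  constructor
  · rw [card_congr_conj _ _ h H1 H2, card_stabL6]
  · intro g hg
    have := sq_O5 (H1 g hg)
    have h2 : h * (g * g) * h⁻¹ = 1 := by
      rw [← this]; simp [mul_assoc]
    have h3 := congrArg (fun z => h⁻¹ * z * h) h2
    simpa [mul_assoc] using h3

end Cfsg.Agent.S0381
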