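import Mathlib
import Cfsg.Statements.S0386
import Cfsg.Agent.Lib.Helper28.M24Trans
import Cfsg.Agent.Lib.Helper3.Steiner

set_option autoImplicit false
open Cfsg

namespace Cfsg.Agent.S0386

open Cfsg.Agent.Lib.Helper28 Cfsg.Agent.Lib.Helper3.Steiner

theorem inter_cases {o d : Finset GolayPt} (ho : o ∈ octads) (hd : d ∈ dodecads) :
    (o ∩ d).card = 2 ∨ (o ∩ d).card = 4 ∨ (o ∩ d).card = 6 := by
  rw [mem_octads_iff] at ho
  rw [mem_dodecads_iff] at hd
  have h1 := popc_xor_add (mk o) (mk d)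
  have h2 := popc_cases (isCode_xor ho.1 hd.1)
  have h3 : (o ∩ d).card ≤ 8 := by
    calc (o ∩ d).card ≤ o.card := Finset.card_le_card Finset.inter_subset_left
      _ = 8 := by rw [card_eq_popc, ho.2]
  rw [card_eq_popc, mk_inter] at h3 ⊢
  rw [ho.2, hd.2] at h1
  omega


/-- For a fixed dodecad, 132 octads meet it in 6 points, 132 in 2 points and 495 in 4 points. -/
theorem result (d : Finset Cfsg.GolayPt) (hd : d ∈ Cfsg.dodecads) : {o : Finset Cfsg.GolayPt | o ∈ Cfsg.octads ∧ (o ∩ d).card = 6}.ncard = 132 ∧ {o : Finset Cfsg.GolayPt | o ∈ Cfsg.octads ∧ (o ∩ d).card = 2}.ncard = 132 ∧ {o : Finset Cfsg.GolayPt | o ∈ Cfsg.octads ∧ (o ∩ d).card = 4}.ncard = 495 := by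
  have hB := octads_steiner
  have hα : Fintype.card GolayPt = 24 := rfl
  have hz : ∀ j, j ≠ 2 → j ≠ 4 → j ≠ 6 → N octads d j = 0 := by
    intro j h2 h4 h6
    rw [N, Finset.card_eq_zero, Finset.filter_eq_empty_iff]
    intro o ho hj
    rcases inter_cases (mem_blocks.1 ho) hd with h | h | h <;> omega
  have e0 := sum_N hB (by norm_num) d 0 (by norm_num)
  have e1 := sum_N hB (by norm_num) d 1 (by norm_num)
  have e2 := sum_N hB (by norm_num) d 2 (by norm_num)
  have hdc : d.card = 12 := hd.2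
  rw [hα, hdc] at e0 e1 e2
  simp only [Finset.sum_range_succ, Finset.sum_range_zero, hz 0 (by norm_num) (by norm_num) (by norm_num),
    hz 1 (by norm_num) (by norm_num) (by norm_num), hz 3 (by norm_num) (by norm_num) (by norm_num),
    hz 5 (by norm_num) (by norm_num) (by norm_num), hz 7 (by norm_num) (by norm_num) (by norm_num),
    hz 8 (by norm_num) (by norm_num) (by norm_num)] at e0 e1 e2
  norm_num [Nat.choose] at e0 e1 e2
  rw [ncard_setOf_eq, ncard_setOf_eq, ncard_setOf_eq]
  change N octads d 6 = 132 ∧ N octads d 2 = 132 ∧ N octads d 4 = 495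
  omega

end Cfsg.Agent.S0386
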