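import Cfsg.Statements.S0394
import Cfsg.Agent.Lib.Helper28.LeechNorms

set_option autoImplicit false
open Cfsg

namespace Cfsg.Agent.S0394

/-- Exactly 196560 lattice vectors have sum of squares 32. -/
theorem result : {x : Cfsg.GolayPt → ℤ | x ∈ Cfsg.leechLattice ∧ Cfsg.sqNorm x = 32}.ncard = 196560 := by
  exact Cfsg.Agent.Lib.Helper28.ncard_norm32

end Cfsg.Agent.S0394
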