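import Cfsg.Statements.S0399
import Cfsg.Agent.Lib.Helper28.LeechNormal3

set_option autoImplicit false
open Cfsg

namespace Cfsg.Agent.S0399

/-- Automorphism group of the lattice modulo its centre is simple of order 4157776806543360000. -/
theorem result : Cfsg.IsCo1 (Cfsg.Co0 ⧸ Subgroup.center Cfsg.Co0) := by
  open Cfsg.Agent.Lib.Helper28 in
  have hcard : Nat.card (Co0 ⧸ Subgroup.center Co0) = 4157776806543360000 := by
    have h1 := Subgroup.card_eq_card_quotient_mul_card_subgroup (Subgroup.center Co0)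
    rw [card_Co0, card_center_Co0] at h1
    omega
  open Cfsg.Agent.Lib.Helper28 in
  refine ⟨?_, hcard⟩
  haveI : Nontrivial (Co0 ⧸ Subgroup.center Co0) := by
    haveI : Finite (Co0 ⧸ Subgroup.center Co0) := Nat.finite_of_card_ne_zero (by rw [hcard]; norm_num)
    rw [← Finite.one_lt_card_iff_nontrivial, hcard]
    norm_num
  refine ⟨fun N hN => ?_⟩
  have hsurj : Function.Surjective (QuotientGroup.mk' (Subgroup.center Co0)) :=
    QuotientGroup.mk'_surjective _
  haveI hKn : (N.comap (QuotientGroup.mk' (Subgroup.center Co0))).Normal := hN.comap _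
  have hneg : Cfsg.Agent.Lib.Helper28.negCo0 ∈ N.comap (QuotientGroup.mk' (Subgroup.center Co0)) := by
    rw [Subgroup.mem_comap]
    have : QuotientGroup.mk' (Subgroup.center Co0) Cfsg.Agent.Lib.Helper28.negCo0 = 1 :=
      (QuotientGroup.eq_one_iff _).2 Cfsg.Agent.Lib.Helper28.negCo0_mem_center
    rw [this]
    exact N.one_mem
  by_cases hc : ∀ k ∈ N.comap (QuotientGroup.mk' (Subgroup.center Co0)),
      k = 1 ∨ k = Cfsg.Agent.Lib.Helper28.negCo0
  · left
    rw [eq_bot_iff]
    intro x hx
    obtain ⟨g, rfl⟩ := hsurj x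
    rw [Subgroup.mem_bot]
    rcases hc g hx with h | h
    · rw [h, map_one]
    · rw [h]
      exact (QuotientGroup.eq_one_iff _).2 Cfsg.Agent.Lib.Helper28.negCo0_mem_center
  · right
    have h := Cfsg.Agent.Lib.Helper28.normal_eq_top _ hneg hc
    rw [eq_top_iff]
    intro x _
    obtain ⟨g, rfl⟩ := hsurj x
    have : g ∈ N.comap (QuotientGroup.mk' (Subgroup.center Co0)) := by rw [h]; exact Subgroup.mem_top _
    exact this

end Cfsg.Agent.S0399
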