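import Cfsg.Statements.S0412
import Cfsg.Agent.Lib.Helper28.SteinerAut
import Cfsg.Agent.S0407
import Cfsg.Agent.S0363
import Cfsg.Agent.S0364
import Cfsg.Agent.S0365
import Cfsg.Agent.S0366
import Cfsg.Agent.S0369

set_option autoImplicit false
open Cfsg

namespace Cfsg.Agent.S0412

/-- Aut of an S(5, 8, 24) is simple of order 244823040 and 5-transitive on points. -/
theorem result {α : Type*} [Fintype α] [DecidableEq α] (hα : Fintype.card α = 24) {B : Set (Finset α)} (hB : Cfsg.IsSteinerSystem 5 8 B) : Cfsg.IsM24 (Cfsg.setSystemAut B) ∧ MulAction.IsMultiplyPretransitive (Cfsg.setSystemAut B) α 5 := by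
  have hc : Fintype.card Cfsg.GolayPt = 24 := by decide
  obtain ⟨e, he⟩ := Cfsg.Agent.S0407.result hα hc hB Cfsg.Agent.S0363.result
  have hM : Cfsg.setSystemAut Cfsg.octads = Cfsg.M24 := Cfsg.Agent.S0369.result.symm
  let φ : Cfsg.setSystemAut B ≃* Cfsg.M24 :=
    (Cfsg.Agent.Lib.Helper28.SteinerAut.autEquiv e he).trans (MulEquiv.subgroupCongr hM)
  refine ⟨⟨?_, ?_⟩, ?_⟩
  · have := Cfsg.Agent.S0365.result
    exact φ.isSimpleGroup
  · rw [Nat.card_congr φ.toEquiv]
    exact Cfsg.Agent.S0364.result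
  · apply Cfsg.Agent.Lib.Helper28.SteinerAut.pretransitive_of_iso e he 5
    rw [hM]
    exact Cfsg.Agent.S0366.result

end Cfsg.Agent.S0412
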