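import Cfsg.Statements.S0413
import Cfsg.Agent.Lib.Helper28.SteinerFacts
import Cfsg.Agent.Lib.Helper28.SteinerDer
import Cfsg.Agent.S0363
import Cfsg.Agent.S0366
import Cfsg.Agent.S0369
import Cfsg.Agent.S0351
import Cfsg.Agent.S0376
import Cfsg.Agent.S0377

set_option autoImplicit false
open Cfsg

namespace Cfsg.Agent.S0413

/-- Aut of an S(4, 7, 23) is simple of order 10200960 and 4-transitive. -/
theorem result {α : Type*} [Fintype α] [DecidableEq α] (hα : Fintype.card α = 23) {B : Set (Finset α)} (hB : Cfsg.IsSteinerSystem 4 7 B) : Cfsg.IsM23 (Cfsg.setSystemAut B) ∧ MulAction.IsMultiplyPretransitive (Cfsg.setSystemAut B) α 4 := by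
  classical
  have hc : Fintype.card Cfsg.GolayPt = 24 := by decide
  have hD := Cfsg.Agent.S0351.result (t := 4) (k := 7) Cfsg.Agent.S0363.result (none : Cfsg.GolayPt)
  have hc23 : Fintype.card {a : Cfsg.GolayPt // a ≠ none} = 23 := by
    rw [Fintype.card_subtype_compl, Fintype.card_subtype_eq, hc]
  obtain ⟨e, he⟩ := Cfsg.Agent.S0409.result hα hc23 hB hD
  have hcard := Cfsg.Agent.Lib.Helper28.SteinerFacts.card_aut23 hα hB
  have hcardD := Cfsg.Agent.Lib.Helper28.SteinerFacts.card_aut23 hc23 hD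
  have hbij : Function.Bijective (Cfsg.Agent.Lib.Helper28.SteinerDer.derHom Cfsg.M24
      (le_of_eq Cfsg.Agent.S0369.result) (none : Cfsg.GolayPt)) := by
    apply (Cfsg.Agent.Lib.Helper28.SteinerDer.derHom_injective _ _ _).bijective_of_nat_card_le
    rw [Cfsg.Agent.S0376.result]
    exact le_of_eq hcardD
  let φ := MulEquiv.ofBijective _ hbij
  refine ⟨⟨?_, hcard⟩, ?_⟩
  · have := Cfsg.Agent.S0377.result (none : Cfsg.GolayPt)
    exact ((Cfsg.Agent.Lib.Helper28.SteinerAut.autEquiv e he).trans φ.symm).isSimpleGroup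
  · apply Cfsg.Agent.Lib.Helper28.SteinerAut.pretransitive_of_iso e he 4
    apply Cfsg.Agent.Lib.Helper28.SteinerDer.der_transitive 4
    rw [← Cfsg.Agent.S0369.result]
    exact Cfsg.Agent.S0366.result

end Cfsg.Agent.S0413
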