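import Cfsg.Statements.S0414
import Cfsg.Agent.Lib.Helper28.SteinerFacts
import Cfsg.Agent.Lib.Helper28.SteinerDer2
import Cfsg.Agent.S0363
import Cfsg.Agent.S0366
import Cfsg.Agent.S0369
import Cfsg.Agent.S0351
import Cfsg.Agent.S0378
import Cfsg.Agent.S0379

set_option autoImplicit false
open Cfsg

namespace Cfsg.Agent.S0414

/-- Aut of an S(3, 6, 22) has order 887040, is 3-transitive, and contains a simple subgroup of index 2. -/
theorem result {α : Type*} [Fintype α] [DecidableEq α] (hα : Fintype.card α = 22) {B : Set (Finset α)} (hB : Cfsg.IsSteinerSystem 3 6 B) : Nat.card (Cfsg.setSystemAut B) = 887040 ∧ MulAction.IsMultiplyPretransitive (Cfsg.setSystemAut B) α 3 ∧ ∃ H : Subgroup (Cfsg.setSystemAut B), H.index = 2 ∧ Cfsg.IsM22 H := by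
  classical
  have hc : Fintype.card Cfsg.GolayPt = 24 := by decide
  have hq : (some 0 : Cfsg.GolayPt) ≠ none := by decide
  have hD1 := Cfsg.Agent.S0351.result (t := 4) (k := 7) Cfsg.Agent.S0363.result
    (none : Cfsg.GolayPt)
  have hc23 : Fintype.card {a : Cfsg.GolayPt // a ≠ none} = 23 := by
    rw [Fintype.card_subtype_compl, Fintype.card_subtype_eq, hc]
  have hD2 := Cfsg.Agent.S0351.result (t := 3) (k := 6) hD1 ⟨some 0, hq⟩
  have hc22 : Fintype.card {a : {a : Cfsg.GolayPt // a ≠ none} // a ≠ ⟨some 0, hq⟩} = 22 := by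
    rw [Fintype.card_subtype_compl, Fintype.card_subtype_eq, hc23]
  obtain ⟨e, he⟩ := Cfsg.Agent.S0410.result hα hc22 hB hD2
  have hcard := Cfsg.Agent.Lib.Helper28.SteinerFacts.card_aut22 hα hB
  refine ⟨hcard, ?_, ?_⟩
  · apply Cfsg.Agent.Lib.Helper28.SteinerAut.pretransitive_of_iso e he 3
    apply Cfsg.Agent.Lib.Helper28.SteinerDer.der_transitive 3
    apply Cfsg.Agent.Lib.Helper28.SteinerDer.der_transitive 4
    rw [← Cfsg.Agent.S0369.result]
    exact Cfsg.Agent.S0366.result
  · let ψ := Cfsg.Agent.Lib.Helper28.SteinerDer.derHom2 Cfsg.M24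
      (le_of_eq Cfsg.Agent.S0369.result) (none : Cfsg.GolayPt) (some 0) hq
    have hψ : Function.Injective ψ :=
      Cfsg.Agent.Lib.Helper28.SteinerDer.derHom2_injective _ _ _ _ _
    let φ := Cfsg.Agent.Lib.Helper28.SteinerAut.autEquiv e he
    let f := φ.symm.toMonoidHom.comp ψ
    have hf : Function.Injective f := φ.symm.injective.comp hψ
    have hcH : Nat.card f.range = 443520 := by
      rw [← Nat.card_congr (MonoidHom.ofInjective hf).toEquiv]
      exact Cfsg.Agent.S0378.result none (some 0) hq.symm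
    refine ⟨f.range, ?_, ?_, hcH⟩
    · have h1 := Subgroup.index_mul_card f.range
      rw [hcH, hcard] at h1
      omega
    · have := Cfsg.Agent.S0379.result none (some 0) hq.symm
      exact (MonoidHom.ofInjective hf).symm.isSimpleGroup

end Cfsg.Agent.S0414
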