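import Cfsg.Statements.S0423
import Cfsg.Agent.Lib.Helper11.J2Simple

set_option autoImplicit false
open Cfsg

namespace Cfsg.Agent.S0423

/-- Existence of a simple group of order 604800. -/
theorem result : ∃ G : Subgroup (Equiv.Perm (Fin 100)), Cfsg.IsJ2 G := by
  obtain ⟨φ, hinj⟩ := Cfsg.Agent.Lib.Helper11.J2S.exists_faithful
  obtain ⟨hs, hc⟩ := Cfsg.Agent.Lib.Helper11.J2S.simple
  let e : Cfsg.Agent.Lib.Helper11.J2S.P ≃* φ.range := MonoidHom.ofInjective hinj
  exact ⟨φ.range, e.symm.isSimpleGroup, by rw [← Nat.card_congr e.toEquiv, hc]⟩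

end Cfsg.Agent.S0423
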