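import Cfsg.Statements.S1694
import Cfsg.Agent.Lib.Helper11.SimpleMaster
import Cfsg.Agent.Lib.Helper11.Suz1782Enc
import Cfsg.Agent.Lib.Helper11.Suz1782LB
import Cfsg.Agent.Lib.Helper11.SuzOrderUB

set_option autoImplicit false
open Cfsg

namespace Cfsg.Agent.S1694

open Cfsg.Agent.Lib.Helper11 Cfsg.Agent.Lib.Helper11.TC

set_option maxRecDepth 100000

def xw : List ℕ := [12, 4, 2, 10, 6, 8]

def cs : List (List ℕ) := [
  [2, 4, 10, 12, 2, 0, 2, 4, 6, 4, 2, 12, 8],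
  [2, 4, 10, 12, 2, 0, 2, 4, 6, 4, 2, 12, 8, 6],
  [2, 4, 10, 12, 2, 0, 2, 4, 6, 4, 2, 12, 8],
  [2, 4, 10, 12, 2, 0, 2, 4, 6, 4, 2, 12, 8, 6],
  [2, 4, 10, 12, 2, 0, 2, 4, 6, 4, 2, 12, 8],
  [2, 4, 10, 12, 2, 0, 2, 4, 6, 4, 2, 12, 8, 6],
  [2, 4, 10, 12, 2, 0, 2, 4, 6, 4, 2, 12, 8],
  [2, 4, 10, 12, 2, 0, 2, 4, 6, 4, 2, 12, 8, 6],
  [2, 4, 10, 12, 2, 0, 2, 4, 6, 4, 2, 12, 8],
  [2, 4, 10, 12, 2, 0, 2, 4, 6, 4, 2, 12, 8, 6],
  [2, 4, 10, 12, 2, 0, 2, 4, 6, 4, 2, 12, 8],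
  [2, 4, 10, 12, 2, 0, 2, 4, 6, 4, 2, 12, 8, 6]]

/-- The presented sporadic Suzuki group is simple of the expected order (that is, it is a simple group of the order of the sporadic Suzuki group). -/
theorem result : Cfsg.IsSuz Cfsg.Spor.Suz := by
  have h := Cox.simple_master Suz1782.enc (n := 1782) (N := 448345497600) Suz1782.tables Suz1782.relsOK Suz1782.orbits
    SuzOrder.card_le Suz1782.lbase (by decide) Suz1782.lb (by norm_num) (by decide +kernel) (by decide +kernel)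
    11 (by norm_num) xw (by decide) (by decide +kernel) 0 (by decide) cs (by decide +kernel)
    (by decide +kernel) 5 (by decide +kernel)
  exact ⟨h.1, h.2⟩

end Cfsg.Agent.S1694
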