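import Cfsg.Statements.S0425
import Cfsg.Agent.Lib.Helper28.SteinerFacts
import Cfsg.Agent.Lib.Helper28.SteinerDer
import Cfsg.Agent.S0361
import Cfsg.Agent.S0384
import Cfsg.Agent.S0385
import Cfsg.Agent.S0369
import Cfsg.Agent.S0419

set_option autoImplicit false
open Cfsg

namespace Cfsg.Agent.S0425

/-- Aut of an S(5, 6, 12) is simple of order 95040 and sharply 5-transitive on points. -/
theorem result {α : Type*} [Fintype α] [DecidableEq α] (hα : Fintype.card α = 12) {B : Set (Finset α)} (hB : Cfsg.IsSteinerSystem 5 6 B) : Cfsg.IsM12 (Cfsg.setSystemAut B) ∧ MulAction.IsMultiplyPretransitive (Cfsg.setSystemAut B) α 5 ∧ ∀ x : Fin 5 ↪ α, MulAction.stabilizer (Cfsg.setSystemAut B) x = ⊥ := by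
  classical
  have hne : Cfsg.dodecads.Nonempty := by
    by_contra h
    rw [Set.not_nonempty_iff_eq_empty] at h
    have := Cfsg.Agent.S0361.result
    rw [h, Set.ncard_empty] at this
    omega
  obtain ⟨d, hd⟩ := hne
  have hH := Cfsg.Agent.S0385.result d hd
  have hcd : Fintype.card {p : Cfsg.GolayPt // p ∈ d} = 12 := by
    rw [Fintype.card_coe]; exact hd.2
  obtain ⟨e, he⟩ := Cfsg.Agent.S0408.result hα hcd hB hH
  have htr : MulAction.IsMultiplyPretransitive (Cfsg.setSystemAut
      {h : Finset {p : Cfsg.GolayPt // p ∈ d} | ∃ o ∈ Cfsg.octads, (o ∩ d).card = 6 ∧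
        h = Finset.subtype (fun p => p ∈ d) o}) {p : Cfsg.GolayPt // p ∈ d} 5 := by
    rw [MulAction.isMultiplyPretransitive_iff]
    intro x y
    obtain ⟨γ, hγM, hd', hg⟩ : ∃ γ : Equiv.Perm Cfsg.GolayPt, γ ∈ Cfsg.M24 ∧ d.image γ = d ∧
        ∀ i, γ (x i).1 = (y i).1 := by
      obtain ⟨g, hg, _⟩ := Cfsg.Agent.S0384.result d hd
        (x.trans (Function.Embedding.subtype _)) (y.trans (Function.Embedding.subtype _))
        (fun i => (x i).2) (fun i => (y i).2)
      exact ⟨g.1.1, g.1.2, g.2, hg⟩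
    have hgd : ∀ a, γ a ∈ d ↔ a ∈ d := by
      intro a
      constructor
      · intro h
        rw [← hd', Finset.mem_image] at h
        obtain ⟨b, hb, hba⟩ := h
        rwa [← γ.injective hba]
      · intro h
        rw [← hd']
        exact Finset.mem_image_of_mem _ h
    refine ⟨⟨γ.subtypePerm hgd,
      Cfsg.Agent.Lib.Helper28.SteinerDer.mem_aut_of_forall _ ?_⟩, ?_⟩
    · rintro _ ⟨o, ho, ho6, rfl⟩
      refine ⟨o.image γ, ?_, ?_,
        Cfsg.Agent.Lib.Helper28.SteinerDer.subtype_image _ _ _⟩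
      · exact Cfsg.Agent.Lib.Helper28.SteinerDer.image_mem_of_mem_aut
          (Cfsg.Agent.S0369.result ▸ hγM) ho
      · conv_lhs => rw [← hd']
        rw [← Finset.image_inter _ _ γ.injective,
          Finset.card_image_of_injective _ γ.injective, ho6]
    · apply DFunLike.ext
      intro i
      apply Subtype.ext
      exact hg i
  have h5 : MulAction.IsMultiplyPretransitive (Cfsg.setSystemAut B) α 5 :=
    Cfsg.Agent.Lib.Helper28.SteinerAut.pretransitive_of_iso e he 5 htr
  have hsharp := Cfsg.Agent.Lib.Helper28.SteinerFacts.sharp_of_card 5 h5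
    (by rw [Cfsg.Agent.Lib.Helper28.SteinerFacts.card_aut12 hα hB, hα]; rfl)
  exact ⟨@Cfsg.Agent.S0419.result α _ _ hα (Cfsg.setSystemAut B) h5 hsharp, h5, hsharp⟩

end Cfsg.Agent.S0425
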