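import Cfsg.Statements.S0426
import Cfsg.Agent.Lib.Helper28.SteinerFacts
import Cfsg.Agent.Lib.Helper28.SteinerDer
import Cfsg.Agent.S0361
import Cfsg.Agent.S0385
import Cfsg.Agent.S0351
import Cfsg.Agent.S0425
import Cfsg.Agent.S0418

set_option autoImplicit false
open Cfsg

namespace Cfsg.Agent.S0426

/-- Aut of an S(4, 5, 11) is simple of order 7920 and sharply 4-transitive on points. -/
theorem result {α : Type*} [Fintype α] [DecidableEq α] (hα : Fintype.card α = 11) {B : Set (Finset α)} (hB : Cfsg.IsSteinerSystem 4 5 B) : Cfsg.IsM11 (Cfsg.setSystemAut B) ∧ MulAction.IsMultiplyPretransitive (Cfsg.setSystemAut B) α 4 ∧ ∀ x : Fin 4 ↪ α, MulAction.stabilizer (Cfsg.setSystemAut B) x = ⊥ := by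
  classical
  have hne : Cfsg.dodecads.Nonempty := by
    by_contra h
    rw [Set.not_nonempty_iff_eq_empty] at h
    have := Cfsg.Agent.S0361.result
    rw [h, Set.ncard_empty] at this
    omega
  obtain ⟨d, hd⟩ := hne
  have hH := Cfsg.Agent.S0385.result d hd
  have hcd : Fintype.card {p : Cfsg.GolayPt // p ∈ d} = 12 := by
    rw [Fintype.card_coe]; exact hd.2
  have htr := (Cfsg.Agent.S0425.result hcd hH).2.1
  have hne' : Nonempty {p : Cfsg.GolayPt // p ∈ d} := by
    rw [← Fintype.card_pos_iff, hcd]; norm_num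
  obtain ⟨p⟩ := hne'
  have hD := Cfsg.Agent.S0351.result (t := 4) (k := 5) hH p
  have hc11 : Fintype.card {a : {p : Cfsg.GolayPt // p ∈ d} // a ≠ p} = 11 := by
    rw [Fintype.card_subtype_compl, Fintype.card_subtype_eq, hcd]
  obtain ⟨e, he⟩ := Cfsg.Agent.S0411.result hα hc11 hB hD
  have h4 : MulAction.IsMultiplyPretransitive (Cfsg.setSystemAut B) α 4 :=
    Cfsg.Agent.Lib.Helper28.SteinerAut.pretransitive_of_iso e he 4
      (Cfsg.Agent.Lib.Helper28.SteinerDer.der_transitive 4 htr p)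
  have hsharp := Cfsg.Agent.Lib.Helper28.SteinerFacts.sharp_of_card 4 h4
    (by rw [Cfsg.Agent.Lib.Helper28.SteinerFacts.card_aut11 hα hB, hα]; rfl)
  exact ⟨@Cfsg.Agent.S0418.result α _ _ hα (Cfsg.setSystemAut B) h4 hsharp, h4, hsharp⟩

end Cfsg.Agent.S0426
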