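import Mathlib
import Cfsg.Statements.S0439

set_option autoImplicit false
open Cfsg

namespace Cfsg.Agent.S0439

open Equiv Equiv.Perm in
theorem swap_mul_swap_pow {α : Type*} [DecidableEq α] [Fintype α] (a b c d : α) (hab : a ≠ b) (hcd : c ≠ d) :
    (swap a b * swap c d) ^ 2 = 1 ∨ (swap a b * swap c d) ^ 3 = 1 := by
  by_cases hac : a = c
  · subst hac
    by_cases hbd : b = d
    · subst hbd
      left; simp
    · right
      have := (isThreeCycle_swap_mul_swap_same hab hcd hbd).orderOf
      rw [← this]; exact pow_orderOf_eq_one _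
  by_cases had : a = d
  · subst had
    by_cases hbc : b = c
    · subst hbc
      left; rw [swap_comm b a]; simp
    · right
      rw [swap_comm c a]
      have := (isThreeCycle_swap_mul_swap_same hab hcd.symm hbc).orderOf
      rw [← this]; exact pow_orderOf_eq_one _
  by_cases hbc : b = c
  · subst hbc
    right
    rw [swap_comm a b]
    have := (isThreeCycle_swap_mul_swap_same hab.symm hcd had).orderOf
    rw [← this]; exact pow_orderOf_eq_one _
  by_cases hbd : b = d
  · subst hbd
    right
    rw [swap_comm a b, swap_comm c b]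
    have := (isThreeCycle_swap_mul_swap_same hab.symm hcd.symm hac).orderOf
    rw [← this]; exact pow_orderOf_eq_one _
  left
  have hdis : Disjoint (swap a b) (swap c d) := by
    rw [disjoint_iff_disjoint_support, support_swap hab, support_swap hcd]
    simp only [Finset.disjoint_insert_left, Finset.mem_insert, Finset.mem_singleton, not_or,
      Finset.disjoint_singleton_left]
    exact ⟨⟨hac, had⟩, hbc, hbd⟩
  have hc := hdis.commute
  rw [hc.mul_pow]
  simp [pow_two]

/-- In the symmetric group of degree n ≥ 2, the set of transpositions is a conjugacy class of 3-transpositions which generates the group. -/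
theorem result (n : ℕ) (hn : 2 ≤ n) : Cfsg.IsThreeTranspositionClass {σ : Equiv.Perm (Fin n) | σ.IsSwap} := by
  refine ⟨⟨?_, ?_⟩, ?_, ?_⟩
  · rintro d ⟨x, y, hxy, rfl⟩
    exact orderOf_eq_prime (by simp [pow_two]) (by
      intro h
      exact hxy (Equiv.swap_eq_one_iff.1 h))
  · rintro d ⟨a, b, hab, rfl⟩ e ⟨c, d, hcd, rfl⟩
    exact swap_mul_swap_pow a b c d hab hcd
  · have h01 : (⟨0, by omega⟩ : Fin n) ≠ ⟨1, by omega⟩ := by
      intro h; simp [Fin.ext_iff] at h
    refine ⟨Equiv.swap ⟨0, by omega⟩ ⟨1, by omega⟩, ⟨_, _, h01, rfl⟩, ?_⟩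
    ext σ
    show σ.IsSwap ↔ IsConj _ σ
    constructor
    · rintro ⟨x, y, hxy, rfl⟩
      exact Equiv.Perm.isConj_swap h01 hxy
    · intro h
      rw [Equiv.Perm.isConj_iff_cycleType_eq] at h
      rw [← Equiv.Perm.card_support_eq_two, ← Equiv.Perm.sum_cycleType, ← h, Equiv.Perm.sum_cycleType,
        Equiv.Perm.card_support_eq_two]
      exact ⟨_, _, h01, rfl⟩
  · exact Equiv.Perm.closure_isSwap

end Cfsg.Agent.S0439
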