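import Mathlib
import Cfsg.Statements.S0442

set_option autoImplicit false
open Cfsg

namespace Cfsg.Agent.S0442

/-- If `a` inverts `x`, then `a` inverts every power of `x`. -/
private theorem inv_pow' {G : Type*} [Group G] {a x : G} (h : a * x * a⁻¹ = x⁻¹) (m : ℕ) :
    a * x ^ m * a⁻¹ = (x ^ m)⁻¹ := by
  rw [← conj_pow, h, inv_pow]

/-- A standard trick for producing elements of an involution centraliser: for an involution a and an element g, let b be the conjugate g⁻¹ * a * g. If a * b has odd order 2m + 1 then g * (a * b) ^ m commutes with a; if a * b has even order 2m then (a * b) ^ m and (a * (g * a * g⁻¹)) ^ m commute with a. -/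
theorem result {G : Type*} [Group G] (a g : G) (ha : orderOf a = 2) : (∀ m : ℕ, orderOf (a * (g⁻¹ * a * g)) = 2 * m + 1 → Commute (g * (a * (g⁻¹ * a * g)) ^ m) a) ∧ (∀ m : ℕ, orderOf (a * (g⁻¹ * a * g)) = 2 * m → Commute ((a * (g⁻¹ * a * g)) ^ m) a ∧ Commute ((a * (g * a * g⁻¹)) ^ m) a) := by
  have ha2 : a * a = 1 := by
    have := pow_orderOf_eq_one a
    rwa [ha, pow_two] at this
  have hainv : a⁻¹ = a := inv_eq_of_mul_eq_one_left ha2
  -- general fact: a inverts a * (h⁻¹ a h)
  have key : ∀ h : G, a * (a * (h⁻¹ * a * h)) * a⁻¹ = (a * (h⁻¹ * a * h))⁻¹ := by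
    intro h
    simp only [mul_inv_rev, inv_inv, hainv, mul_assoc]
    rw [← mul_assoc a a, ha2, one_mul]
  have comm_of : ∀ (x : G) (m : ℕ), a * x * a⁻¹ = x⁻¹ → x ^ (2 * m) = 1 → Commute (x ^ m) a := by
    intro x m hx hxm
    have h1 := inv_pow' hx m
    have h2 : (x ^ m)⁻¹ = x ^ m := by
      rw [inv_eq_iff_mul_eq_one, ← pow_add, ← two_mul, hxm]
    rw [h2] at h1
    have : a * x ^ m = x ^ m * a := by
      conv_rhs => rw [← h1]
      simp [mul_assoc]
    exact this.symm
  refine ⟨fun m hm => ?_, fun m hm => ⟨?_, ?_⟩⟩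
  · set x := a * (g⁻¹ * a * g) with hx
    have hxo : x ^ (2 * m + 1) = 1 := by rw [← hm]; exact pow_orderOf_eq_one x
    have h1 := inv_pow' (key g) m
    rw [← hx] at h1
    -- a * x^m = x^(-m) * a
    have h2 : a * x ^ m = (x ^ m)⁻¹ * a := by
      rw [← h1]; simp [mul_assoc]
    -- (x^m)⁻¹ = x^(m+1)
    have h3 : (x ^ m)⁻¹ = x ^ (m + 1) := by
      rw [inv_eq_iff_mul_eq_one, ← pow_add]
      have : m + (m + 1) = 2 * m + 1 := by ring
      rw [this, hxo]
    show g * x ^ m * a = a * (g * x ^ m)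
    -- x^m * a = a * x^(m+1) ... compute
    have h4 : x ^ m * a = a * (x ^ m)⁻¹ := by
      have := congrArg (fun z => a * z * a) h2
      simp only [← mul_assoc, ha2, one_mul] at this
      rw [this]
      simp [mul_assoc, ha2]
    rw [mul_assoc, h4, h3, pow_succ', hx]
    simp only [← mul_assoc, ha2, one_mul, mul_inv_cancel]
  · apply comm_of _ _ (key g)
    rw [← hm]; exact pow_orderOf_eq_one _
  · have := key g⁻¹
    rw [inv_inv] at this
    apply comm_of _ _ this
    -- order of a * (g a g⁻¹) equals order of x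
    have hconj : a * (g * a * g⁻¹) = (g * (a * (g⁻¹ * a * g)) * g⁻¹)⁻¹ := by
      simp only [mul_inv_rev, inv_inv, hainv, mul_assoc]
      simp
    rw [hconj, inv_pow, conj_pow, ← hm, pow_orderOf_eq_one]
    simp

end Cfsg.Agent.S0442
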