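import Cfsg.Statements.S0443
import Mathlib
import Cfsg.Agent.H4.Basic

set_option autoImplicit false
open Cfsg

namespace Cfsg.Agent.S0443

/-- Two definitions of a 2-central involution agree: an element t of order 2 of a finite group lies in the centre of some Sylow 2-subgroup if and only if its centraliser contains some Sylow 2-subgroup. -/
theorem result {G : Type*} [Group G] [Finite G] (t : G) (ht : orderOf t = 2) : Cfsg.IsTwoCentralInvolution t ↔ ∃ P : Sylow 2 G, (P : Subgroup G) ≤ Subgroup.centralizer ({t} : Set G) := by
  constructor
  · rintro ⟨-, P, -, hP⟩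
    refine ⟨P, fun x hx => ?_⟩
    rw [Subgroup.mem_centralizer_singleton_iff]
    exact hP x hx
  · rintro ⟨P, hP⟩
    have hcomm : ∀ x ∈ (P : Subgroup G), x * t = t * x := fun x hx => by
      have := hP hx
      rwa [Subgroup.mem_centralizer_singleton_iff] at this
    refine ⟨ht, P, ?_, hcomm⟩
    apply Cfsg.Agent.H4.mem_sylow_of_mem_normalizer P
      (Cfsg.Agent.H4.isPGroup_zpowers_of_orderOf (k := 1) (by simpa using ht))
    rw [Subgroup.mem_normalizer_iff]
    intro h
    constructor
    · intro hh
      have := hcomm h hh
      rw [← this]; simpa using hh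
    · intro hh
      have := hcomm _ hh
      have h2 : t * h * t⁻¹ = h := by
        have : t * h * t⁻¹ * t = t * (t * h * t⁻¹) := this
        have h3 : t * h = t * (t * h * t⁻¹) := by simpa using this
        exact (mul_left_cancel h3).symm
      rwa [h2] at hh

end Cfsg.Agent.S0443
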