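import Mathlib
import Cfsg.Agent.Lib.Helper18.GLTv
import Cfsg.Statements.S2572
-- import your own Cfsg.Agent.* helpers here

set_option autoImplicit false
open Cfsg Cfsg.Agent.Lib.Helper18 Matrix

namespace Cfsg.Agent.S2572

theorem card_GL_eq_mul {F : Type*} [Field F] [Fintype F] {n : ℕ} (hn : 2 ≤ n) (t : GL (Fin n) F)
    (ht : Cfsg.IsTransvection (t : Matrix (Fin n) (Fin n) F)) :
    Nat.card (GL (Fin n) F) = Nat.card {N : Matrix (Fin n) (Fin n) F // IsRk1Nil N}
      * Nat.card ↥(Subgroup.centralizer ({t} : Set (GL (Fin n) F))) := by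
  obtain ⟨N₀, hN₀⟩ : ∃ N₀, N₀ = (t : Matrix (Fin n) (Fin n) F) - 1 := ⟨_, rfl⟩
  have ht' : IsRk1Nil N₀ := by rw [hN₀]; exact ht
  have htN : (t : Matrix (Fin n) (Fin n) F) = 1 + N₀ := by rw [hN₀]; abel
  have hdet : ∀ g : GL (Fin n) F, IsUnit (g : Matrix (Fin n) (Fin n) F).det := fun g =>
    (Matrix.isUnit_iff_isUnit_det _).1 g.isUnit
  have hgi : ∀ g : GL (Fin n) F, ((g⁻¹ : GL (Fin n) F) : Matrix (Fin n) (Fin n) F) * g = 1 :=
    fun g => by rw [← Units.val_mul, inv_mul_cancel, Units.val_one]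
  have hig : ∀ g : GL (Fin n) F, (g : Matrix (Fin n) (Fin n) F) * ((g⁻¹ : GL (Fin n) F) :
      Matrix (Fin n) (Fin n) F) = 1 :=
    fun g => by rw [← Units.val_mul, mul_inv_cancel, Units.val_one]
  have hmem : ∀ g : GL (Fin n) F, IsRk1Nil ((g : Matrix (Fin n) (Fin n) F) * N₀ *
      ((g⁻¹ : GL (Fin n) F) : Matrix (Fin n) (Fin n) F)) := by
    intro g
    refine ⟨?_, ?_⟩
    · rw [Matrix.rank_mul_eq_left_of_isUnit_det _ _ (hdet g⁻¹),
        Matrix.rank_mul_eq_right_of_isUnit_det _ _ (hdet g)]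
      exact ht'.1
    · calc (g : Matrix (Fin n) (Fin n) F) * N₀ * ((g⁻¹ : GL (Fin n) F) : Matrix (Fin n) (Fin n) F)
            * ((g : Matrix (Fin n) (Fin n) F) * N₀ * ((g⁻¹ : GL (Fin n) F) :
              Matrix (Fin n) (Fin n) F))
          = (g : Matrix (Fin n) (Fin n) F) * N₀ * (((g⁻¹ : GL (Fin n) F) :
              Matrix (Fin n) (Fin n) F) * g) * N₀ * ((g⁻¹ : GL (Fin n) F) :
              Matrix (Fin n) (Fin n) F) := by simp only [mul_assoc]
        _ = (g : Matrix (Fin n) (Fin n) F) * (N₀ * N₀) * ((g⁻¹ : GL (Fin n) F) :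
              Matrix (Fin n) (Fin n) F) := by rw [hgi, mul_one]; simp only [mul_assoc]
        _ = 0 := by rw [ht'.2]; simp
  apply card_eq_card_mul_of_fibers (fun g => (⟨_, hmem g⟩ : {N : Matrix (Fin n) (Fin n) F //
    IsRk1Nil N}))
  · rintro ⟨N', hN'⟩
    obtain ⟨g, hg⟩ := exists_conj_rk1Nil hn N₀ N' ht' hN'
    exact ⟨g, Subtype.ext hg⟩
  · intro g g'
    rw [Subtype.mk.injEq, Subgroup.mem_centralizer_singleton_iff]
    constructor
    · intro h
      apply Units.ext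
      rw [Units.val_mul, Units.val_mul, Units.val_mul, htN, mul_add, add_mul, mul_one, one_mul]
      congr 1
      calc ((g⁻¹ : GL (Fin n) F) : Matrix (Fin n) (Fin n) F) * g' * N₀
          = ((g⁻¹ : GL (Fin n) F) : Matrix (Fin n) (Fin n) F) * ((g' : Matrix (Fin n) (Fin n) F) * N₀
              * ((g'⁻¹ : GL (Fin n) F) : Matrix (Fin n) (Fin n) F)) * g' := by
            simp only [mul_assoc, hgi, mul_one]
        _ = N₀ * (((g⁻¹ : GL (Fin n) F) : Matrix (Fin n) (Fin n) F) * g') := by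
            rw [← h]
            simp only [← mul_assoc, hgi, one_mul]
    · intro h
      have h1 := congrArg (fun x : GL (Fin n) F => (x : Matrix (Fin n) (Fin n) F)) h
      simp only [Units.val_mul] at h1
      rw [htN, mul_add, add_mul, mul_one, one_mul] at h1
      have h2 := add_left_cancel h1
      calc (g : Matrix (Fin n) (Fin n) F) * N₀ * ((g⁻¹ : GL (Fin n) F) : Matrix (Fin n) (Fin n) F)
          = (g : Matrix (Fin n) (Fin n) F) * (N₀ * (((g⁻¹ : GL (Fin n) F) :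
              Matrix (Fin n) (Fin n) F) * g')) * ((g'⁻¹ : GL (Fin n) F) :
              Matrix (Fin n) (Fin n) F) := by
            simp only [mul_assoc, hig, mul_one]
        _ = (g' : Matrix (Fin n) (Fin n) F) * N₀ * ((g'⁻¹ : GL (Fin n) F) :
              Matrix (Fin n) (Fin n) F) := by
            rw [← h2]
            simp only [← mul_assoc, hig, one_mul]

/-- Centraliser of a transvection in GL_n(q), n ≥ 2: if t − 1 has rank one and square zero, the centraliser of t in GL_n(q) has order q^(2n−3) (q − 1) |GL_(n−2)(q)| (a group of order q^(2n−3) extended by GL_1(q) × GL_(n−2)(q)). -/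
theorem result {F : Type*} [Field F] [Fintype F] {q n : ℕ} (hF : Fintype.card F = q) (hn : 2 ≤ n) (t : GL (Fin n) F) (ht : Cfsg.IsTransvection (t : Matrix (Fin n) (Fin n) F)) : Nat.card ↥(Subgroup.centralizer ({t} : Set (GL (Fin n) F))) = q ^ (2 * n - 3) * (q - 1) * ∏ i : Fin (n - 2), (q ^ (n - 2) - q ^ (i : ℕ)) := by
  classical
  have h1 := card_GL_eq_mul hn t ht
  obtain ⟨k, rfl⟩ : ∃ k, n = k + 2 := ⟨n - 2, by omega⟩
  have h2 := card_tvPair_eq (F := F) (n := k + 2)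
  rw [card_tvPair (k := k + 1), hF] at h2
  rw [Matrix.card_GL_field, hF] at h1
  have hq : 1 < q := by
    rw [← hF]
    exact Fintype.one_lt_card
  obtain ⟨X, hX⟩ : ∃ X, X = Nat.card {N : Matrix (Fin (k + 2)) (Fin (k + 2)) F // IsRk1Nil N} :=
    ⟨_, rfl⟩
  obtain ⟨C, hC⟩ : ∃ C, C = Nat.card ↥(Subgroup.centralizer ({t} : Set (GL (Fin (k + 2)) F))) :=
    ⟨_, rfl⟩
  rw [← hX] at h1 h2
  rw [← hC] at h1 ⊢
  show C = q ^ (2 * (k + 2) - 3) * (q - 1) * ∏ i : Fin k, (q ^ k - q ^ (i : ℕ))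
  have e0 : 2 * (k + 2) - 3 = 2 * k + 1 := by omega
  rw [e0]
  rw [Fin.prod_univ_succ, Fin.prod_univ_succ] at h1
  simp only [Fin.val_zero, Fin.val_succ, pow_zero] at h1
  have e1 : ∀ i : Fin k, q ^ (k + 2) - q ^ ((i : ℕ) + 1 + 1) = q ^ 2 * (q ^ k - q ^ (i : ℕ)) := by
    intro i
    rw [Nat.mul_sub]
    congr 1 <;> ring
  rw [Finset.prod_congr rfl (fun i _ => e1 i), Finset.prod_mul_distrib, Finset.prod_const,
    Finset.card_univ, Fintype.card_fin] at h1
  have e2 : q ^ (k + 2) - q ^ (0 + 1) = q * (q ^ (k + 1) - 1) := by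
    rw [Nat.mul_sub]
    congr 1 <;> ring
  rw [e2] at h1
  have hp1 : 0 < q ^ (k + 1 + 1) - 1 := by
    have : 1 < q ^ (k + 1 + 1) := Nat.one_lt_pow (by omega) hq
    omega
  have hp2 : 0 < q ^ (k + 1) - 1 := by
    have : 1 < q ^ (k + 1) := Nat.one_lt_pow (by omega) hq
    omega
  apply Nat.eq_of_mul_eq_mul_left (Nat.mul_pos hp1 hp2)
  rw [h2]
  calc X * (q - 1) * C = (X * C) * (q - 1) := by ring
    _ = _ := by
      rw [← h1, ← h2]
      ring

end Cfsg.Agent.S2572
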