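import Mathlib
import Cfsg.Agent.Lib.Helper18.GLTv
import Cfsg.Agent.S2572
import Cfsg.Statements.S0445
-- import your own Cfsg.Agent.* helpers here

set_option autoImplicit false
open Cfsg Cfsg.Agent.Lib.Helper18 Matrix

namespace Cfsg.Agent.S0445

/-- In the special linear group of dimension 5 over the field with two elements, the centraliser of a transvection has order 21504 = 2 ^ 7 · 168 (it is an extension of an extraspecial group of order 2 ^ 7 by the simple group of order 168). -/
theorem result (s : Matrix.SpecialLinearGroup (Fin 5) (ZMod 2)) (hs : (s : Matrix (Fin 5) (Fin 5) (ZMod 2)) = Matrix.transvection 0 1 1) : Nat.card (Subgroup.centralizer ({s} : Set (Matrix.SpecialLinearGroup (Fin 5) (ZMod 2)))) = 21504 := by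
  classical
  let φ : Matrix.SpecialLinearGroup (Fin 5) (ZMod 2) →* GL (Fin 5) (ZMod 2) :=
    Matrix.SpecialLinearGroup.toGL
  have hφ : ∀ g, ((φ g : GL (Fin 5) (ZMod 2)) : Matrix (Fin 5) (Fin 5) (ZMod 2)) = g := fun g => rfl
  have hinj : Function.Injective φ := by
    intro g h hgh
    apply Subtype.ext
    rw [← hφ g, ← hφ h, hgh]
  have hsurj : Function.Surjective φ := by
    intro g
    have hd : (g : Matrix (Fin 5) (Fin 5) (ZMod 2)).det = 1 := by
      have h0 : (g : Matrix (Fin 5) (Fin 5) (ZMod 2)).det ≠ 0 :=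
        ((Matrix.isUnit_iff_isUnit_det _).1 g.isUnit).ne_zero
      have : ∀ x : ZMod 2, x ≠ 0 → x = 1 := by decide
      exact this _ h0
    let g' : Matrix.SpecialLinearGroup (Fin 5) (ZMod 2) :=
      ⟨(g : Matrix (Fin 5) (Fin 5) (ZMod 2)), hd⟩
    refine ⟨g', ?_⟩
    apply Units.ext
    exact hφ g'
  have ht : Cfsg.IsTransvection ((φ s : GL (Fin 5) (ZMod 2)) : Matrix (Fin 5) (Fin 5) (ZMod 2)) := by
    rw [hφ, hs]
    have : IsRk1Nil (Matrix.transvection (0 : Fin 5) 1 (1 : ZMod 2) - 1) := by
      rw [isRk1Nil_iff]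
      refine ⟨Pi.single 0 1, Pi.single 1 1, ?_, ?_, ?_, ?_⟩
      · intro h
        have := congrFun h 0
        simp at this
      · intro h
        have := congrFun h 1
        simp at this
      · simp
      · rw [Matrix.transvection, add_sub_cancel_left]
        ext i j
        simp only [Matrix.single_apply, Matrix.vecMulVec_apply, Pi.single_apply]
        by_cases hi : i = 0 <;> by_cases hj : j = 1 <;> simp [hi, hj, eq_comm]
    exact this
  have key := Cfsg.Agent.S2572.result (F := ZMod 2) (q := 2) (n := 5) (ZMod.card 2) (by norm_num)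
    (φ s) ht
  have hcard : Nat.card (Subgroup.centralizer ({s} : Set (Matrix.SpecialLinearGroup (Fin 5) (ZMod 2))))
      = Nat.card (Subgroup.centralizer ({φ s} : Set (GL (Fin 5) (ZMod 2)))) := by
    apply Nat.card_congr
    refine (Equiv.ofBijective φ ⟨hinj, hsurj⟩).subtypeEquiv (fun g => ?_)
    show g ∈ Subgroup.centralizer {s} ↔ φ g ∈ Subgroup.centralizer {φ s}
    rw [Subgroup.mem_centralizer_singleton_iff, Subgroup.mem_centralizer_singleton_iff,
      ← map_mul, ← map_mul, hinj.eq_iff]
  rw [hcard, key]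
  decide

end Cfsg.Agent.S0445
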