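import Cfsg.Statements.S0446
import Mathlib

set_option autoImplicit false
open Cfsg

namespace Cfsg.Agent.S0446

/-- Every finite group of even order contains a 2-central involution, i.e. an element of order 2 in the centre of some Sylow 2-subgroup. -/
theorem result {G : Type*} [Group G] [Finite G] (h : Even (Nat.card G)) : ∃ t : G, Cfsg.IsTwoCentralInvolution t := by
  haveI : Fact (Nat.Prime 2) := ⟨Nat.prime_two⟩
  obtain ⟨P⟩ : Nonempty (Sylow 2 G) := inferInstance
  have hne : (P : Subgroup G) ≠ ⊥ := P.ne_bot_of_dvd_card h.two_dvd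
  haveI : Nontrivial (P : Subgroup G) := (Subgroup.nontrivial_iff_ne_bot _).mpr hne
  have hP : IsPGroup 2 (P : Subgroup G) := P.isPGroup'
  haveI := hP.center_nontrivial
  have hZ : IsPGroup 2 (Subgroup.center (P : Subgroup G)) := hP.to_subgroup _
  obtain ⟨k, hk⟩ := (IsPGroup.iff_card).mp hZ
  have hk0 : k ≠ 0 := by
    rintro rfl
    have : 1 < Nat.card (Subgroup.center (P : Subgroup G)) := Finite.one_lt_card
    omega
  have hdvd : 2 ∣ Nat.card (Subgroup.center (P : Subgroup G)) := by
    rw [hk]; exact dvd_pow_self 2 hk0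
  obtain ⟨z, hz⟩ := exists_prime_orderOf_dvd_card' 2 hdvd
  refine ⟨((z : (P : Subgroup G)) : G), ?_, P, (z : (P : Subgroup G)).2, ?_⟩
  · rw [Subgroup.orderOf_coe, Subgroup.orderOf_coe]; exact hz
  · intro x hx
    have := (Subgroup.mem_center_iff.mp z.2) ⟨x, hx⟩
    exact congrArg Subtype.val this

end Cfsg.Agent.S0446
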