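import Cfsg.Statements.S0458
import Cfsg.Agent.Lib.Helper11.Realize
import Cfsg.Agent.Lib.Helper11.J3Simple

set_option autoImplicit false
open Cfsg

namespace Cfsg.Agent.S0458

open Cfsg.Agent.Lib.Helper11 Cfsg.Agent.Lib.Helper11.TC

set_option maxRecDepth 100000

/-- Janko's third group exists as a transitive permutation group of degree 6156 with point stabiliser of order 8160: a simple group of order 50232960. -/
theorem result : ∃ H : Subgroup (Equiv.Perm (Fin 6156)), Cfsg.IsJ3 H ∧ MulAction.IsPretransitive H (Fin 6156) ∧ Nat.card (MulAction.stabilizer H (0 : Fin 6156)) = 8160 := by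
  obtain ⟨φ, hφ⟩ := GM.exists_rep J3S.pres J3x.tables J3x.relsOK
  obtain ⟨hcard, hinj, _⟩ := GM.order_master J3x.tables φ hφ J3S.card_le J3x.lbase (by decide)
    J3x.lb (by norm_num)
  obtain ⟨⟨e⟩, htr, ⟨ε⟩⟩ := PR.realize J3x.tables J3x.orbits φ _ hφ hinj (by norm_num) _ rfl
    J3S.index_eq
  obtain ⟨hs, hc⟩ := J3S.simple
  refine ⟨φ.range, ⟨e.symm.isSimpleGroup, ?_⟩, htr, ?_⟩
  · rw [← Nat.card_congr e.toEquiv, hc]
  · have h1 := Nat.card_congr ε.toEquiv
    have h2 := Subgroup.index_mul_card (Subgroup.closure {g | ∃ s ∈ J3x.subs, g = ev J3S.gen s})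
    rw [J3S.index_eq, hc] at h2
    refine h1.trans ?_
    omega

end Cfsg.Agent.S0458
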