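import Cfsg.Statements.S1692
import Cfsg.Agent.Lib.Helper11.ONEnc
import Cfsg.Agent.Lib.Helper11.ONaCert
import Cfsg.Agent.Lib.Helper11.ONaPerm

set_option autoImplicit false
open Cfsg

namespace Cfsg.Agent.S1692

open Cfsg.Agent.Lib.Helper11 Cfsg.Agent.Lib.Helper11.TC

set_option maxRecDepth 100000

theorem hS : (PresentedGroup.mk (Cfsg.Spor.coxRelators Cfsg.Spor.ON.edges ∪ {r | r ∈ Cfsg.Spor.ON.extra})) ''
      ({Cfsg.Spor.ON.a, Cfsg.Spor.ON.b, Cfsg.Spor.ON.c, Cfsg.Spor.ON.d, Cfsg.Spor.ON.e, Cfsg.Spor.ON.f} : Set (FreeGroup Cfsg.Spor.ON.Gen)) =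
      {g | ∃ s ∈ ONa.subs, g = ev ONEnc.gen s} := by
  ext g
  simp only [Set.image_insert_eq, Set.image_singleton, Set.mem_insert_iff, Set.mem_singleton_iff,
    Set.mem_setOf_eq, ONa.subs, List.mem_cons, List.mem_nil_iff, or_false, exists_eq_or_imp,
    exists_eq_left, ev, ONEnc.gen, ONEnc.genOf, List.map_cons, List.map_nil, List.prod_cons,
    List.prod_nil, mul_one, PresentedGroup.of]

/-- In the presented O'Nan group (generators g, a, b, c, d, e, f), the subgroup generated by the images of a, …, f has index 122760. -/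
theorem result : (((Subgroup.closure ({Cfsg.Spor.ON.a, Cfsg.Spor.ON.b, Cfsg.Spor.ON.c, Cfsg.Spor.ON.d, Cfsg.Spor.ON.e, Cfsg.Spor.ON.f} : Set (FreeGroup Cfsg.Spor.ON.Gen))).map (PresentedGroup.mk (Cfsg.Spor.coxRelators Cfsg.Spor.ON.edges ∪ {r | r ∈ Cfsg.Spor.ON.extra})))).index = 122760 := by
  have h := GM.index_master ONEnc.pres (n := 122760)
    (fun act q0 h31 hadm hl => ONa.closed act q0 h31 hadm hl) (subs := ONa.subs)
    (by decide +kernel) (by decide) ONa.tables ONa.relsOK ONa.orbits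
  rw [MonoidHom.map_closure, hS]
  exact h

end Cfsg.Agent.S1692
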