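import Cfsg.Statements.S1699
import Cfsg.Agent.Lib.Helper11.ONCollapse
import Cfsg.Agent.Lib.Helper11.ONOrderUB
import Cfsg.Agent.Lib.Helper11.ONaLB

set_option autoImplicit false
open Cfsg

namespace Cfsg.Agent.S1699

open Cfsg.Agent.Lib.Helper11 Cfsg.Agent.Lib.Helper11.TC

set_option maxRecDepth 100000

def xw : List ℕ := [4, 8, 6, 0, 10]

def cs : List (List ℕ) := [
  [4, 6, 1, 4, 2, 8, 6, 4, 8, 6, 10, 0, 8, 10, 2, 4, 6, 1, 8, 6],
  [4, 6, 1, 4, 2, 8, 6, 4, 8, 6, 10, 0, 8, 10, 2, 4, 6, 1, 8],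
  [4, 6, 1, 4, 2, 8, 6, 4, 8, 6, 10, 0, 8, 10, 2, 4, 6, 1, 8, 6],
  [4, 6, 1, 4, 2, 8, 6, 4, 8, 6, 10, 0, 8, 10, 2, 4, 6, 1, 8]]

/-- The presented O'Nan group is simple of the expected order (that is, it is a simple group of the order of the O'Nan group). -/
theorem result : Cfsg.IsON Cfsg.Spor.ON := by
  have h := GM.simple_master ONEnc.pres (n := 122760) (N := 460815505920) ONa.tables ONa.relsOK ONa.orbits
    ONOrder.card_le ONa.lbase (by decide) ONa.lb (by norm_num) (by decide +kernel) (by decide +kernel)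
    31 (by norm_num) xw (by decide) (by decide +kernel) 2 (by decide) cs (by decide +kernel)
    (by decide +kernel) ONEnc.collapses
  exact ⟨h.1, h.2⟩

end Cfsg.Agent.S1699
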