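import Cfsg.Statements.S0460
import Cfsg.Agent.S1692
import Cfsg.Agent.S1699
import Cfsg.Agent.Lib.Helper11.ONFacts
import Cfsg.Agent.Lib.Helper11.Realize
import Cfsg.Agent.Lib.Helper11.SubSimple
import Cfsg.Agent.Lib.Helper11.J1Simple
import Cfsg.Agent.Lib.Helper11.M11Simple

set_option autoImplicit false
open Cfsg

namespace Cfsg.Agent.S0460

open Cfsg.Agent.Lib.Helper11 Cfsg.Agent.Lib.Helper11.TC

set_option maxRecDepth 100000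

/-- an element of order 3 generating a copy of `J1` together with the involution `b` -/
def yw : List ℕ := [12, 1, 6, 8, 10, 8, 6, 1, 6, 0, 12, 10, 8, 10, 2, 8, 12, 4, 1, 4, 2, 8, 4, 6, 8, 0, 6, 2, 10, 0, 12, 8, 1, 2, 6, 4, 2, 6, 2, 0, 8, 12, 1, 10, 2, 6, 1, 8, 6, 4, 8, 2, 4, 0, 4, 12, 8, 2, 10, 8, 10, 12, 1, 6, 0, 6, 8, 10, 8, 6, 0, 12]

def yi : List ℕ := [12, 1, 6, 8, 10, 8, 6, 1, 6, 0, 12, 10, 8, 10, 2, 8, 12, 4, 1, 4, 2, 8, 4, 6, 8, 0, 6, 2, 10, 0, 12, 8, 1, 2, 6, 2, 4, 6, 2, 0, 8, 12, 1, 10, 2, 6, 1, 8, 6, 4, 8, 2, 4, 0, 4, 12, 8, 2, 10, 8, 10, 12, 1, 6, 0, 6, 8, 10, 8, 6, 0, 12]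

def xy : ℕ → List ℕ
  | 0 => [4]
  | 1 => yw
  | _ => yi

/-- the five Coxeter-type generators of `J1` as words in `x = b`, `y`, `y⁻¹` -/
def cw : ℕ → List ℕ
  | 0 => [0]
  | 2 => [2, 0, 2, 0, 2, 0, 2, 0, 2, 0, 2, 0, 1, 0, 1, 0, 2, 0, 2, 0, 2, 0, 1, 0, 1, 0, 1, 0, 2, 0, 2, 0, 1, 0, 1, 0, 1, 0, 1, 0, 1, 0, 1]
  | 4 => [2, 0, 1, 0, 1, 0, 1, 0, 2, 0, 2, 0, 1, 0, 1, 0, 1, 0, 1, 0, 2, 0, 2, 0, 1, 0, 1, 0, 2, 0, 2, 0, 2, 0, 2, 0, 1, 0, 1, 0, 2, 0, 2, 0, 2, 0, 1]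
  | 6 => [2, 0, 1, 0, 2, 0, 2, 0, 1, 0, 1, 0, 2, 0, 1]
  | _ => [1, 0, 2, 0, 1, 0, 1, 0, 2, 0, 2, 0, 1, 0, 2]

def wd (l : ℕ) : List ℕ := (cw l).flatMap xy

/-- the two generators of `M11` -/
def wm : ℕ → List ℕ
  | 0 => [4]
  | 2 => [10, 6, 4, 1, 2, 8, 10, 0, 0, 10, 4, 10, 6, 2, 6, 10, 6, 12, 8, 2, 12, 4, 10, 8, 2, 6, 4, 1, 6, 12, 0, 12, 6, 0, 4, 6, 2, 8, 10, 4, 12, 2, 8, 12, 6, 10, 6, 2, 6, 10, 4, 10, 1, 1, 10, 8, 2, 0, 4, 6, 10]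
  | _ => [10, 6, 4, 1, 2, 8, 10, 0, 0, 10, 4, 10, 6, 2, 6, 10, 6, 12, 8, 2, 12, 4, 10, 8, 2, 6, 4, 1, 6, 12, 1, 12, 6, 0, 4, 6, 2, 8, 10, 4, 12, 2, 8, 12, 6, 10, 6, 2, 6, 10, 4, 10, 1, 1, 10, 8, 2, 0, 4, 6, 10]

theorem trivial_of_chk (w : List ℕ) (h : SS.chk ONa.Ls ONa.tbl ONa.lbase w = true) :
    ev ONEnc.gen w = 1 := by
  obtain ⟨_, _, _, _, hwp⟩ := ONFacts.facts
  obtain ⟨h1, h2⟩ := SS.chk_spec h
  exact hwp w h1 h2

theorem b_ne : ev ONEnc.gen [4] ≠ 1 :=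
  ONFacts.ne_one [4] (by decide) 1 (by norm_num) (by decide +kernel)

theorem subJ1 : ∃ K : Subgroup Cfsg.Spor.ON, Nonempty (J1S.P ≃* K) := by
  apply SS.exists_sub J1S.pres J1S.simple.1 (fun l => ev ONEnc.gen (wd l)) _ _ 0 (by decide) b_ne
  · intro l hl
    have h2 : ∀ l ∈ J1x.Ls, SS.chk ONa.Ls ONa.tbl ONa.lbase (wd l ++ wd l) = true := by
      decide +kernel
    have h3 := trivial_of_chk _ (h2 l hl)
    rw [Simp.ev_append] at h3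
    exact eq_inv_of_mul_eq_one_left h3
  · intro r hr
    rw [SS.ev_flatMap]
    have h2 : ∀ r ∈ J1x.coxW ++ J1x.extraW,
        SS.chk ONa.Ls ONa.tbl ONa.lbase (r.flatMap wd) = true := by
      decide +kernel
    exact trivial_of_chk _ (h2 r hr)

theorem subM11 : ∃ K : Subgroup Cfsg.Spor.ON, Nonempty (M11S.P ≃* K) := by
  have h23 : ev ONEnc.gen (wm 2) * ev ONEnc.gen (wm 3) = 1 := by
    rw [← Simp.ev_append]
    exact trivial_of_chk _ (by decide +kernel)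
  have h00 : ev ONEnc.gen (wm 0) * ev ONEnc.gen (wm 0) = 1 := by
    rw [← Simp.ev_append]
    exact trivial_of_chk _ (by decide +kernel)
  apply SS.exists_sub M11S.pres M11S.simple.1 (fun l => ev ONEnc.gen (wm l)) _ _ 0 (by decide) b_ne
  · intro l hl
    simp only [M11x.Ls, List.mem_cons, List.mem_nil_iff, or_false] at hl
    rcases hl with rfl | rfl | rfl
    · exact eq_inv_of_mul_eq_one_left h00
    · exact (inv_eq_of_mul_eq_one_right h23).symm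
    · exact eq_inv_of_mul_eq_one_left h23
  · intro r hr
    rw [SS.ev_flatMap]
    have h2 : ∀ r ∈ M11x.coxW ++ M11x.extraW,
        SS.chk ONa.Ls ONa.tbl ONa.lbase (r.flatMap wm) = true := by
      decide +kernel
    exact trivial_of_chk _ (h2 r hr)

/-- The O'Nan group exists as a transitive permutation group of degree 122760: simple of order 460815505920, point stabiliser of order 3753792, and containing simple subgroups of orders 175560 and 7920. -/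
theorem result : ∃ H : Subgroup (Equiv.Perm (Fin 122760)), Cfsg.IsON H ∧ MulAction.IsPretransitive H (Fin 122760) ∧ Nat.card (MulAction.stabilizer H (0 : Fin 122760)) = 3753792 ∧ (∃ K : Subgroup H, Cfsg.IsJ1 K) ∧ (∃ K : Subgroup H, Cfsg.IsM11 K) := by
  obtain ⟨hcard, φ, hφ, hinj, _⟩ := ONFacts.facts
  let H : Subgroup Cfsg.Spor.ON := (Subgroup.closure ({Cfsg.Spor.ON.a, Cfsg.Spor.ON.b, Cfsg.Spor.ON.c, Cfsg.Spor.ON.d, Cfsg.Spor.ON.e, Cfsg.Spor.ON.f} : Set (FreeGroup Cfsg.Spor.ON.Gen))).map (PresentedGroup.mk (Cfsg.Spor.coxRelators Cfsg.Spor.ON.edges ∪ {r | r ∈ Cfsg.Spor.ON.extra}))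
  have hidx : H.index = 122760 := Cfsg.Agent.S1692.result
  obtain ⟨⟨e⟩, htr, ⟨ε⟩⟩ := PR.realize ONa.tables ONa.orbits φ _ hφ hinj (by norm_num) H
    (by show Subgroup.map _ _ = _; rw [MonoidHom.map_closure, Cfsg.Agent.S1692.hS]) hidx
  obtain ⟨hs, hc⟩ := Cfsg.Agent.S1699.result
  obtain ⟨K1, ⟨f1⟩⟩ := SS.transport e subJ1
  obtain ⟨K2, ⟨f2⟩⟩ := SS.transport e subM11
  have hj := J1S.simple.1
  have hm := M11S.simple.1
  refine ⟨φ.range, ⟨e.symm.isSimpleGroup, ?_⟩, htr, ?_, ⟨K1, f1.symm.isSimpleGroup, ?_⟩,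
    ⟨K2, f2.symm.isSimpleGroup, ?_⟩⟩
  · rw [← Nat.card_congr e.toEquiv, hc]
  · have h1 := Nat.card_congr ε.toEquiv
    have h2 := Subgroup.index_mul_card H
    rw [hidx, hcard] at h2
    refine h1.trans ?_
    omega
  · rw [← Nat.card_congr f1.toEquiv, J1S.simple.2]
  · rw [← Nat.card_congr f2.toEquiv, M11S.simple.2]

end Cfsg.Agent.S0460
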