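import Cfsg.Statements.S1682
import Cfsg.Agent.S1683
import Cfsg.Agent.S0245
import Cfsg.Agent.Lib.Helper11.SimpleMaster2
import Cfsg.Agent.Lib.Helper11.He2058LB
import Cfsg.Agent.Lib.Helper11.HeOrderUB
import Cfsg.Agent.Lib.Helper11.S44Hom

set_option autoImplicit false
open Cfsg

namespace Cfsg.Agent.S1682

open Cfsg.Agent.Lib.Helper11 Cfsg.Agent.Lib.Helper11.TC

set_option maxRecDepth 100000

/-- the generators of the presented Held group, by letter codes -/
abbrev gHe : ℕ → Cfsg.Spor.He :=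
  Cox.genOf HeEnc.dec (PresentedGroup.of : Cfsg.Spor.He.Gen →
    Cfsg.Spor.CoxPresented Cfsg.Spor.He.Gen Cfsg.Spor.He.edges Cfsg.Spor.He.extra)

theorem facts : Nat.card Cfsg.Spor.He = 4030387200 ∧
    (∀ w : List ℕ, (∀ l ∈ w, l ∈ He2058.Ls) →
        (∀ β ∈ He2058.lbase, PR.trace (w.map He2058.tbl) β = β) → ev gHe w = 1) := by
  obtain ⟨φ, hφ⟩ := Cox.exists_rep HeEnc.enc He2058.tables He2058.relsOK
  obtain ⟨h1, _, h3⟩ := Cox.order_master HeEnc.enc He2058.tables φ hφ HeOrder.card_le He2058.lbase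
    (by decide) He2058.lb (by norm_num)
  exact ⟨h1, h3⟩

/-- a word moving a point is not trivial -/
theorem ne_one (w : List ℕ) (hw : ∀ l ∈ w, l ∈ He2058.Ls) (u : ℕ) (hu : u < 2058)
    (h : PR.trace (w.map He2058.tbl) u ≠ u) : ev gHe w ≠ 1 := by
  obtain ⟨φ, hφ⟩ := Cox.exists_rep HeEnc.enc He2058.tables He2058.relsOK
  intro h1
  have h2 : ev (PR.pg 2058 He2058.tbl (fun l => l) He2058.Ls) w = 1 := by
    rw [← PR.map_ev φ gHe _ He2058.Ls hφ w hw, h1, map_one]
  have h3 := PR.ev_pg_inv_apply He2058.tables w hw ⟨u, hu⟩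
  rw [h2] at h3
  exact h h3.symm

/-- the seven generators of `H` as words -/
def sw : ℕ → List ℕ
  | 0 => [0] | 1 => [4] | 2 => [6] | 3 => [8] | 4 => [10] | 5 => [0, 2, 0, 2]
  | _ => [2, 4, 6, 8, 2, 4, 6, 8, 2, 4, 6, 8, 2, 4, 6, 8, 2, 4, 6, 8, 2, 4, 6, 8, 2, 4, 6, 8]

/-- the sixteen root involutions as words in the generators of `H` -/
def hw : ℕ → List ℕ
  | 0 => [0, 3, 4]
  | 2 => [1, 2, 1, 2, 1, 3, 2, 4, 2, 1, 3, 2, 1, 2]
  | 4 => [0, 2, 3, 4, 2]
  | 6 => [0, 1, 2, 1, 2, 3, 2, 4, 2, 1, 3, 2, 1]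
  | 8 => [0, 2, 3, 6, 4, 2, 6]
  | 10 => [0, 1, 2, 1, 2, 3, 2, 6, 4, 2, 1, 3, 2, 1, 6]
  | 12 => [0, 6, 3, 4, 6]
  | 14 => [1, 2, 1, 2, 1, 3, 6, 2, 4, 2, 1, 3, 2, 1, 2, 6]
  | 16 => [0, 3]
  | 18 => [1]
  | 20 => [0, 2, 3, 2]
  | 22 => [2, 1, 2]
  | 24 => [0]
  | 26 => [1, 2, 1, 2, 1, 4, 2, 1, 2, 1, 4, 2, 1, 2, 4]
  | 28 => [6, 0]
  | 30 => [4, 2, 6, 3, 4, 2, 1, 2, 3, 4, 2, 6, 4]
  | _ => []

def wd (l : ℕ) : List ℕ := (hw l).flatMap sw

theorem ev_flatMap {Γ : Type*} [Group Γ] (g : ℕ → Γ) (f : ℕ → List ℕ) (w : List ℕ) :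
    ev (fun l => ev g (f l)) w = ev g (w.flatMap f) := by
  induction w with
  | nil => rfl
  | cons l w ih => rw [ev_cons, ih, List.flatMap_cons, Simp.ev_append]

theorem card_Sp : Nat.card (Matrix.symplecticGroup (Fin 2) F4) = 979200 := by
  rw [Cfsg.Agent.S0245.result (F := F4) (q := 4) F4.card 2]
  decide

theorem iso_P : Nonempty (S44S.P ≃* Matrix.symplecticGroup (Fin 2) F4) := by
  obtain ⟨hs, hc⟩ := S44S.simple
  obtain ⟨γ, hγ⟩ := S44M.exists_hom
  have hker : γ.ker = ⊥ := by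
    rcases hs.eq_bot_or_eq_top_of_normal γ.ker inferInstance with h | h
    · exact h
    · exfalso
      have h3 : S44S.gen 0 ∈ γ.ker := by rw [h]; exact Subgroup.mem_top _
      rw [MonoidHom.mem_ker, hγ 0 (by decide)] at h3
      apply S44M.mat_ne
      have := congrArg (fun x : Matrix.symplecticGroup (Fin 2) F4 => (x : S44M.M4)) h3
      exact this
  have hinj : Function.Injective γ := (MonoidHom.ker_eq_bot_iff γ).mp hker
  have hfin : Finite (Matrix.symplecticGroup (Fin 2) F4) :=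
    Nat.finite_of_card_ne_zero (by rw [card_Sp]; norm_num)
  have hbij := Function.Injective.bijective_of_nat_card_le hinj (by rw [card_Sp, hc])
  exact ⟨MulEquiv.ofBijective γ hbij⟩

theorem main (H : Subgroup Cfsg.Spor.He)
    (hH : H = Subgroup.closure {g | ∃ s ∈ He2058.subs, g = ev gHe s}) (hidx : H.index = 2058) :
    ∃ (N : Subgroup H) (K : Type) (_ : Field K) (_ : Fintype K), N.Normal ∧ N.index = 2 ∧
      Fintype.card K = 4 ∧ Nonempty (N ≃* Matrix.symplecticGroup (Fin 2) K) := by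
  obtain ⟨hcard, hwp⟩ := facts
  obtain ⟨hsimple, hcP⟩ := S44S.simple
  let q : ℕ → Cfsg.Spor.He := fun l => ev gHe (wd l)
  have hq_inv : ∀ l ∈ S44.Ls, q (S44.invL l) = (q l)⁻¹ := by
    intro l hl
    have h1 : q l * q (S44.invL l) = 1 := by
      show ev gHe (wd l) * ev gHe (wd (S44.invL l)) = 1
      rw [← Simp.ev_append]
      revert l
      have h2 : ∀ l ∈ S44.Ls, (∀ x ∈ wd l ++ wd (S44.invL l), x ∈ He2058.Ls) ∧
          ∀ β ∈ He2058.lbase, PR.trace ((wd l ++ wd (S44.invL l)).map He2058.tbl) β = β := by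
        decide +kernel
      intro l hl
      exact hwp _ (h2 l hl).1 (h2 l hl).2
    exact eq_inv_of_mul_eq_one_right h1
  have hq_rel : ∀ r ∈ S44.coxW ++ S44.extraW, ev q r = 1 := by
    have h2 : ∀ r ∈ S44.coxW ++ S44.extraW, (∀ x ∈ r.flatMap wd, x ∈ He2058.Ls) ∧
        ∀ β ∈ He2058.lbase, PR.trace ((r.flatMap wd).map He2058.tbl) β = β := by
      decide +kernel
    intro r hr
    show ev (fun l => ev gHe (wd l)) r = 1
    rw [ev_flatMap]
    exact hwp _ (h2 r hr).1 (h2 r hr).2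
  obtain ⟨α, hα⟩ := S44S.pres.lift Cfsg.Spor.He q hq_inv hq_rel
  have hαinj : Function.Injective α := by
    rw [← MonoidHom.ker_eq_bot_iff]
    rcases hsimple.eq_bot_or_eq_top_of_normal α.ker inferInstance with h | h
    · exact h
    · exfalso
      have h1 : S44S.gen 24 ∈ α.ker := by rw [h]; exact Subgroup.mem_top _
      rw [MonoidHom.mem_ker, hα 24 (by decide)] at h1
      exact ne_one (wd 24) (by decide) 11 (by norm_num) (by decide +kernel) h1
  have hle : α.range ≤ H := by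
    rw [MonoidHom.range_eq_map, ← S44S.pres.hgen, MonoidHom.map_closure, Subgroup.closure_le]
    rintro _ ⟨_, ⟨l, hl, rfl⟩, rfl⟩
    rw [hα l hl]
    have h3 : ∀ i : ℕ, sw i ∈ He2058.subs := by
      intro i
      match i with
      | 0 => decide
      | 1 => decide
      | 2 => decide
      | 3 => decide
      | 4 => decide
      | 5 => decide
      | (k + 6) =>
        have h : sw (k + 6) = sw 6 := rfl
        rw [h]; decide
    have h4 : ∀ w : List ℕ, ev gHe (w.flatMap sw) ∈ H := by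
      intro w
      induction w with
      | nil => exact H.one_mem
      | cons x w ih =>
        rw [List.flatMap_cons, Simp.ev_append]
        refine H.mul_mem ?_ ih
        rw [hH]
        exact Subgroup.subset_closure ⟨sw x, h3 x, rfl⟩
    exact h4 _
  have hcH : Nat.card H = 1958400 := by
    have := Subgroup.index_mul_card H
    rw [hidx, hcard] at this
    omega
  have hcR : Nat.card α.range = 979200 := by
    rw [← Nat.card_congr (MonoidHom.ofInjective hαinj).toEquiv, hcP]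
  have e1 : (α.range.subgroupOf H) ≃* α.range := Subgroup.subgroupOfEquivOfLe hle
  have hcN : Nat.card (α.range.subgroupOf H) = 979200 := by
    rw [Nat.card_congr e1.toEquiv, hcR]
  have hi : (α.range.subgroupOf H).index = 2 := by
    have := Subgroup.index_mul_card (α.range.subgroupOf H)
    rw [hcN, hcH] at this
    omega
  obtain ⟨e⟩ := iso_P
  exact ⟨α.range.subgroupOf H, F4, inferInstance, inferInstance,
    Subgroup.normal_of_index_eq_two hi, hi, F4.card,
    ⟨e1.trans ((MonoidHom.ofInjective hαinj).symm.trans e)⟩⟩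

/-- In the presented Held group, the subgroup H generated by the images of a, c, d, e, f, (ab)^2 and (bcde)^7 has a normal subgroup of index 2 isomorphic to the 4-dimensional symplectic group over a field with four elements. -/
theorem result : ∃ (N : Subgroup (((Subgroup.closure ({Cfsg.Spor.He.a, Cfsg.Spor.He.c, Cfsg.Spor.He.d, Cfsg.Spor.He.e, Cfsg.Spor.He.f, (Cfsg.Spor.He.a * Cfsg.Spor.He.b) ^ 2, (Cfsg.Spor.He.b * Cfsg.Spor.He.c * Cfsg.Spor.He.d * Cfsg.Spor.He.e) ^ 7} : Set (FreeGroup Cfsg.Spor.He.Gen))).map (PresentedGroup.mk (Cfsg.Spor.coxRelators Cfsg.Spor.He.edges ∪ {r | r ∈ Cfsg.Spor.He.extra}))))) (K : Type) (_ : Field K) (_ : Fintype K), N.Normal ∧ N.index = 2 ∧ Fintype.card K = 4 ∧ Nonempty (N ≃* Matrix.symplecticGroup (Fin 2) K) := by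
  exact main _ (by rw [MonoidHom.map_closure, Cfsg.Agent.S1683.hS]) Cfsg.Agent.S1683.result.1

end Cfsg.Agent.S1682
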