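import Cfsg.Statements.S1695
import Cfsg.Agent.Lib.Helper11.SimpleMaster2
import Cfsg.Agent.Lib.Helper11.HeEnc
import Cfsg.Agent.Lib.Helper11.He2058LB
import Cfsg.Agent.Lib.Helper11.HeOrderUB

set_option autoImplicit false
open Cfsg

namespace Cfsg.Agent.S1695

open Cfsg.Agent.Lib.Helper11 Cfsg.Agent.Lib.Helper11.TC

set_option maxRecDepth 100000

def xw : List ℕ := [6, 12, 10]

def cs : List (List ℕ) := [
  [4, 12, 10, 6, 8],
  [4, 12, 10, 6, 8, 4]]

/-- The presented Held group is simple of the expected order (that is, it is a simple group of the order of the Held group). -/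
theorem result : Cfsg.IsHe Cfsg.Spor.He := by
  have h := Cox.simple_master' HeEnc.enc (n := 2058) (N := 4030387200) He2058.tables He2058.relsOK He2058.orbits
    HeOrder.card_le He2058.lbase (by decide) He2058.lb (by norm_num) (by decide +kernel) (by decide +kernel)
    7 (by norm_num) xw (by decide) (by decide +kernel) 6 (by decide) cs (by decide +kernel)
    (by decide +kernel)
    (Simp.collapses_of_pairs (Simp.collapses_of_idIter _ _ 6 1 (by decide +kernel)))
  exact ⟨h.1, h.2⟩

end Cfsg.Agent.S1695
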