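import Cfsg.Statements.S0462
import Cfsg.Agent.S1682
import Cfsg.Agent.S1695
import Cfsg.Agent.Lib.Helper11.Realize

set_option autoImplicit false
open Cfsg

namespace Cfsg.Agent.S0462

open Cfsg.Agent.Lib.Helper11 Cfsg.Agent.Lib.Helper11.TC

set_option maxRecDepth 100000

/-- The Held group exists as a transitive permutation group of degree 2058: simple of order 4030387200, with point stabiliser containing, with index 2, a copy of the 4-dimensional symplectic group over the field with four elements. -/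
theorem result : ∃ H : Subgroup (Equiv.Perm (Fin 2058)), Cfsg.IsHe H ∧ MulAction.IsPretransitive H (Fin 2058) ∧ ∃ (F : Type) (_ : Field F) (_ : Fintype F), Fintype.card F = 4 ∧ ∃ N : Subgroup (MulAction.stabilizer H (0 : Fin 2058)), N.index = 2 ∧ Nonempty (N ≃* Matrix.symplecticGroup (Fin 2) F) := by
  obtain ⟨φ, hφ⟩ := Cox.exists_rep HeEnc.enc He2058.tables He2058.relsOK
  obtain ⟨_, hinj, _⟩ := Cox.order_master HeEnc.enc He2058.tables φ hφ HeOrder.card_le He2058.lbase
    (by decide) He2058.lb (by norm_num)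
  obtain ⟨N, K, iK, fK, _, hN2, hK4, ⟨eN⟩⟩ := Cfsg.Agent.S1682.result
  obtain ⟨⟨e⟩, htr, ⟨ε⟩⟩ := PR.realize He2058.tables He2058.orbits φ _ hφ hinj (by norm_num) _
    (by rw [MonoidHom.map_closure, Cfsg.Agent.S1683.hS]) Cfsg.Agent.S1683.result.1
  obtain ⟨hs, hc⟩ := Cfsg.Agent.S1695.result
  refine ⟨φ.range, ⟨?_, ?_⟩, htr, K, iK, fK, hK4, N.map ε.symm.toMonoidHom, ?_, ?_⟩
  · exact e.symm.isSimpleGroup
  · rw [← Nat.card_congr e.toEquiv, hc]
  · exact (Subgroup.index_map_equiv N ε.symm).trans hN2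
  · exact ⟨(Subgroup.equivMapOfInjective N ε.symm.toMonoidHom ε.symm.injective).symm.trans eN⟩

end Cfsg.Agent.S0462
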