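import Cfsg.Statements.S1684
import Cfsg.Agent.S1687
import Cfsg.Agent.S1696
import Cfsg.Agent.S0280
import Cfsg.Agent.Lib.Helper11.U62Hom
import Cfsg.Agent.Lib.Helper11.DoubleCover2

set_option autoImplicit false
open Cfsg

namespace Cfsg.Agent.S1684

open Cfsg.Agent.Lib.Helper11 Cfsg.Agent.Lib.Helper11.TC

set_option maxRecDepth 100000

abbrev gen : ℕ → Cfsg.Spor.Fi22 := Cox.genOf Fi22a.dec
  (PresentedGroup.of : Cfsg.Spor.Fi22.Gen → Cfsg.Spor.CoxPresented Cfsg.Spor.Fi22.Gen Cfsg.Spor.Fi22.edges Cfsg.Spor.Fi22.extra)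

theorem facts : Nat.card Cfsg.Spor.Fi22 = 64561751654400 ∧
    (∀ w : List ℕ, (∀ l ∈ w, l ∈ Fi22a.Ls) →
        (∀ β ∈ Fi22a.lbase, PR.trace (w.map Fi22a.tbl) β = β) → ev gen w = 1) := by
  obtain ⟨φ, hφ⟩ := Cox.exists_rep Fi22a.enc Fi22a.tables Fi22a.relsOK
  obtain ⟨h1, _, h3⟩ := Cox.order_master Fi22a.enc Fi22a.tables φ hφ Fi22Order.card_le Fi22a.lbase
    (by decide) Fi22a.lb (by norm_num)
  exact ⟨h1, h3⟩

/-- a word moving a point is not trivial -/
theorem ne_one (w : List ℕ) (hw : ∀ l ∈ w, l ∈ Fi22a.Ls) (u : ℕ) (hu : u < 3510)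
    (h : PR.trace (w.map Fi22a.tbl) u ≠ u) : ev gen w ≠ 1 := by
  obtain ⟨φ, hφ⟩ := Cox.exists_rep Fi22a.enc Fi22a.tables Fi22a.relsOK
  intro h1
  have h2 : ev (PR.pg 3510 Fi22a.tbl (fun l => l) Fi22a.Ls) w = 1 := by
    rw [← PR.map_ev φ gen _ Fi22a.Ls hφ w hw, h1, map_one]
  have h3 := PR.ev_pg_inv_apply Fi22a.tables w hw ⟨u, hu⟩
  rw [h2] at h3
  exact h h3.symm

/-- the nine generators of `H` as words -/
def sw : ℕ → List ℕ
  | 0 => [0] | 1 => [4] | 2 => [6] | 3 => [8] | 4 => [10] | 5 => [12] | 6 => [14] | 7 => [16]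
  | _ => [0, 2, 4, 6, 8, 14, 0, 2, 4, 6, 8, 14, 0, 2, 4, 6, 8, 14, 0, 2, 4, 6, 8, 14, 0, 2, 4, 6, 8, 14]

/-- the eight transpositions `c, …, i, a'` as words in the generators of `H` -/
def hw : ℕ → List ℕ
  | 4 => [1]
  | 6 => [2]
  | 8 => [3]
  | 10 => [4]
  | 12 => [5]
  | 14 => [6]
  | 16 => [7]
  | 18 => [0, 8, 6, 3, 2, 3, 2, 1, 2, 1, 6, 1, 2, 1, 2, 3, 2, 1]
  | _ => []

def wd (l : ℕ) : List ℕ := (hw l).flatMap sw

theorem hw_out : ∀ l, l ∉ U62.Ls → hw l = [] := by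
  intro l hl
  match l, hl with
  | 0, _ => rfl
  | 1, _ => rfl
  | 2, _ => rfl
  | 3, _ => rfl
  | 4, h => exact absurd (by decide) h
  | 5, _ => rfl
  | 6, h => exact absurd (by decide) h
  | 7, _ => rfl
  | 8, h => exact absurd (by decide) h
  | 9, _ => rfl
  | 10, h => exact absurd (by decide) h
  | 11, _ => rfl
  | 12, h => exact absurd (by decide) h
  | 13, _ => rfl
  | 14, h => exact absurd (by decide) h
  | 15, _ => rfl
  | 16, h => exact absurd (by decide) h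
  | 17, _ => rfl
  | 18, h => exact absurd (by decide) h
  | (k + 19), _ => rfl

theorem ev_flatMap {Γ : Type*} [Group Γ] (g : ℕ → Γ) (f : ℕ → List ℕ) (w : List ℕ) :
    ev (fun l => ev g (f l)) w = ev g (w.flatMap f) := by
  induction w with
  | nil => rfl
  | cons l w ih => rw [ev_cons, ih, List.flatMap_cons, Simp.ev_append]

theorem card_PSU : Nat.card (Cfsg.PSU 6 F4 2) = 9196830720 := by
  have h := Cfsg.Agent.S0280.result (F := F4) (q := 2) (by rw [F4.card]; norm_num) 6 (by norm_num)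
  have h2 : (2 : ℕ) ^ (6 * (6 - 1) / 2) * ∏ i ∈ Finset.range 6,
      (if Even i then 2 ^ (i + 1) + 1 else 2 ^ (i + 1) - 1) = 82771476480 := by decide +kernel
  rw [h2] at h
  have h3 : Nat.gcd 6 (2 + 1) = 3 := by decide
  rw [h3] at h
  omega

theorem iso_P : Nonempty (U62S.P ≃* Cfsg.PSU 6 F4 2) := by
  obtain ⟨hs, hc⟩ := U62S.simple
  obtain ⟨γ, hγ⟩ := U62M.exists_hom
  have hker : γ.ker = ⊥ := by
    rcases hs.eq_bot_or_eq_top_of_normal γ.ker inferInstance with h | h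
    · exact h
    · exfalso
      have h3 : U62S.gen 4 ∈ γ.ker := by rw [h]; exact Subgroup.mem_top _
      rw [MonoidHom.mem_ker, hγ 4 (by decide)] at h3
      exact U62M.psu_ne h3
  have hinj : Function.Injective γ := (MonoidHom.ker_eq_bot_iff γ).mp hker
  have hfin : Finite (Cfsg.PSU 6 F4 2) :=
    Nat.finite_of_card_ne_zero (by rw [card_PSU]; norm_num)
  have hbij := Function.Injective.bijective_of_nat_card_le hinj (by rw [card_PSU, hc])
  exact ⟨MulEquiv.ofBijective γ hbij⟩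

/-- a relator of `U(6, 2)` which is the central involution `a` in `Fi22` -/
def rz : List ℕ := [18, 10, 8, 6, 12, 10, 18, 14, 8, 10, 12, 6, 8, 10, 18, 12, 10, 8, 6, 14, 6, 8, 10, 12, 6, 8, 10, 6, 8, 6]

/-- relators that hold exactly -/
def rels9 : List (List ℕ) := [
  [4, 6, 4, 6, 4, 6],
  [6, 8, 6, 8, 6, 8],
  [6, 14, 6, 14, 6, 14],
  [8, 10, 8, 10, 8, 10],
  [10, 12, 10, 12, 10, 12],
  [10, 18, 10, 18, 10, 18],
  [14, 16, 14, 16, 14, 16],
  [16, 18, 16, 18, 16, 18],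
  [4, 6, 8, 10, 12, 14, 16, 4, 6, 8, 10, 12, 14, 16, 4, 6, 8, 10, 12, 14, 16, 4, 6, 8, 10, 12, 14, 16, 4, 6, 8, 10, 12, 14, 16, 4, 6, 8, 10, 12, 14, 16, 4, 6, 8, 10, 12, 14, 16, 4, 6, 8, 10, 12, 14, 16, 4, 6, 8, 10, 12, 14, 16]]

theorem collapse : Simp.Collapses U62.Ls (rels9 ++ DC.sqW U62.Ls) 31 :=
  DC.collapses_of_derived
    [([4, 6, 4, 6, 4, 6], [4, 6, 4, 6]),
     ([6, 8, 6, 8, 6, 8], [6, 8, 6, 8]),
     ([6, 14, 6, 14, 6, 14], [6, 14, 6, 14]),
     ([8, 10, 8, 10, 8, 10], [8, 10, 8, 10]),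
     ([10, 12, 10, 12, 10, 12], [10, 12, 10, 12]),
     ([10, 18, 10, 18, 10, 18], [10, 18, 10, 18]),
     ([14, 16, 14, 16, 14, 16], [14, 16, 14, 16]),
     ([16, 18, 16, 18, 16, 18], [16, 18, 16, 18])]
    (by decide +kernel) (Simp.collapses_of_idIter _ _ 31 4 (by decide +kernel))

theorem main (H : Subgroup Cfsg.Spor.Fi22)
    (hH : H = Subgroup.closure {g | ∃ s ∈ Fi22a.subs, g = ev gen s}) (hidx : H.index = 3510) :
    Cfsg.IsNonsplitDoubleCover H U62S.P := by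
  obtain ⟨hcard, hwp⟩ := facts
  obtain ⟨hsimple, hcP⟩ := U62S.simple
  have hsq : ∀ l, gen l * gen l = 1 := Cox.gen_sq Fi22a.enc
  have hfinG : Finite Cfsg.Spor.Fi22 := Fi22Order.card_le.1
  have hsub : ∀ s ∈ Fi22a.subs, ev gen s ∈ H := by
    intro s hs
    rw [hH]; exact Subgroup.subset_closure ⟨s, hs, rfl⟩
  have h3 : ∀ i : ℕ, sw i ∈ Fi22a.subs := by
    intro i
    match i with
    | 0 => decide
    | 1 => decide
    | 2 => decide
    | 3 => decide
    | 4 => decide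
    | 5 => decide
    | 6 => decide
    | 7 => decide
    | (k + 8) =>
      have h : sw (k + 8) = sw 8 := rfl
      rw [h]; decide
  have h4 : ∀ w : List ℕ, ev gen (w.flatMap sw) ∈ H := by
    intro w
    induction w with
    | nil => exact H.one_mem
    | cons x w ih =>
      rw [List.flatMap_cons, Simp.ev_append]
      exact H.mul_mem (hsub _ (h3 x)) ih
  have hz : ev gen [0] = gen 0 := by simp
  have hcH : Nat.card H = 18393661440 := by
    have := Subgroup.index_mul_card H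
    rw [hidx, hcard] at this
    omega
  have hone_or : ∀ W : List ℕ, (∀ x ∈ W, x ∈ Fi22a.Ls) →
      ((∀ β ∈ Fi22a.lbase, PR.trace (W.map Fi22a.tbl) β = β) ∨
        (∀ β ∈ Fi22a.lbase, PR.trace ((W ++ [0]).map Fi22a.tbl) β = β)) →
      ev gen W = 1 ∨ ev gen W = gen 0 := by
    intro W hW h
    rcases h with h | h
    · exact Or.inl (hwp W hW h)
    · right
      have h5 := hwp (W ++ [0]) (by
        intro x hx
        rcases List.mem_append.mp hx with h6 | h6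
        · exact hW x h6
        · rw [List.mem_singleton] at h6; rw [h6]; decide) h
      rw [Simp.ev_append, hz] at h5
      rw [eq_inv_of_mul_eq_one_left h5]
      exact (eq_inv_of_mul_eq_one_left (hsq 0)).symm
  apply DC.doubleCover2 U62S.pres (fun _ => rfl) hsimple U62S.card_le.1 (by rw [hcP]; norm_num) H
    inferInstance (fun l => ev gen (wd l)) (fun l => h4 _) _ rfl (gen 0) (by rw [← hz]; exact hsub _ (by decide))
    _ (hsq 0) _ _ 4 (by decide) _ _ (by rw [hcH, hcP]) rz (by decide) _ rels9 _ collapse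
  · -- squares
    intro l
    by_cases hl : l ∈ U62.Ls
    · rw [← Simp.ev_append]
      revert l
      have h2 : ∀ l ∈ U62.Ls, (∀ x ∈ wd l ++ wd l, x ∈ Fi22a.Ls) ∧
          ∀ β ∈ Fi22a.lbase, PR.trace ((wd l ++ wd l).map Fi22a.tbl) β = β := by
        decide +kernel
      intro l hl
      exact hwp _ (h2 l hl).1 (h2 l hl).2
    · have : wd l = [] := by unfold wd; rw [hw_out l hl]; rfl
      rw [this]; simp
  · -- a ≠ 1
    rw [← hz]
    exact ne_one [0] (by decide) 1 (by norm_num) (by decide +kernel)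
  · -- a is central in H
    intro x hx
    have hle : H ≤ Subgroup.centralizer ({gen 0} : Set Cfsg.Spor.Fi22) := by
      rw [hH, Subgroup.closure_le]
      rintro _ ⟨s, hs, rfl⟩
      rw [SetLike.mem_coe, Subgroup.mem_centralizer_singleton_iff]
      have h1 : ev gen (s ++ [0] ++ (s.reverse ++ [0])) = 1 := by
        apply hwp
        · revert s; decide +kernel
        · revert s; decide +kernel
      rw [Simp.ev_append, Simp.ev_append, Simp.ev_append, Simp.ev_reverse gen hsq, hz] at h1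
      have h2 : ev gen s * gen 0 = ((ev gen s)⁻¹ * gen 0)⁻¹ := eq_inv_of_mul_eq_one_left h1
      rw [h2, mul_inv_rev, inv_inv, ← eq_inv_of_mul_eq_one_left (hsq 0)]
    exact Subgroup.mem_centralizer_singleton_iff.mp (hle hx)
  · -- the relators
    intro r hr
    rw [ev_flatMap]
    have h2 : ∀ r ∈ U62.coxW ++ U62.extraW, (∀ x ∈ r.flatMap wd, x ∈ Fi22a.Ls) ∧
        ((∀ β ∈ Fi22a.lbase, PR.trace ((r.flatMap wd).map Fi22a.tbl) β = β) ∨
          (∀ β ∈ Fi22a.lbase, PR.trace ((r.flatMap wd ++ [0]).map Fi22a.tbl) β = β)) := by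
      decide +kernel
    exact hone_or _ (h2 r hr).1 (h2 r hr).2
  · exact ne_one (wd 4) (by decide) 1 (by norm_num) (by decide +kernel)
  · intro h
    have h5 : ev gen (wd 4 ++ [0]) = 1 := by rw [Simp.ev_append, hz, h, hsq]
    exact ne_one (wd 4 ++ [0]) (by decide) 1 (by norm_num) (by decide +kernel) h5
  · -- the word for a
    rw [ev_flatMap]
    have h5 := hwp (rz.flatMap wd ++ [0]) (by decide +kernel) (by decide +kernel)
    rw [Simp.ev_append, hz] at h5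
    rw [eq_inv_of_mul_eq_one_left h5]
    exact (eq_inv_of_mul_eq_one_left (hsq 0)).symm
  · intro r hr
    rw [ev_flatMap]
    have h2 : ∀ r ∈ rels9, (∀ x ∈ r.flatMap wd, x ∈ Fi22a.Ls) ∧
        ∀ β ∈ Fi22a.lbase, PR.trace ((r.flatMap wd).map Fi22a.tbl) β = β := by
      decide +kernel
    exact hwp _ (h2 r hr).1 (h2 r hr).2

/-- In the presented Fischer group Fi₂₂, the subgroup generated by the images of a, c, d, e, f, g, h, i and (abcdeh)^5 is a non-split double cover of PSU(6, 2) (realised over a field with four elements). -/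
theorem result : ∃ (K : Type) (_ : Field K) (_ : Fintype K), Fintype.card K = 4 ∧ Cfsg.IsNonsplitDoubleCover (((Subgroup.closure ({Cfsg.Spor.Fi22.a, Cfsg.Spor.Fi22.c, Cfsg.Spor.Fi22.d, Cfsg.Spor.Fi22.e, Cfsg.Spor.Fi22.f, Cfsg.Spor.Fi22.g, Cfsg.Spor.Fi22.h, Cfsg.Spor.Fi22.i, (Cfsg.Spor.Fi22.a * Cfsg.Spor.Fi22.b * Cfsg.Spor.Fi22.c * Cfsg.Spor.Fi22.d * Cfsg.Spor.Fi22.e * Cfsg.Spor.Fi22.h) ^ 5} : Set (FreeGroup Cfsg.Spor.Fi22.Gen))).map (PresentedGroup.mk (Cfsg.Spor.coxRelators Cfsg.Spor.Fi22.edges ∪ {r | r ∈ Cfsg.Spor.Fi22.extra})))) (Cfsg.PSU 6 K 2) := by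
  obtain ⟨h1, ⟨f⟩, h3⟩ := main _ (by rw [MonoidHom.map_closure, Cfsg.Agent.S1687.hS]) Cfsg.Agent.S1687.result.1
  obtain ⟨e⟩ := iso_P
  exact ⟨F4, inferInstance, inferInstance, F4.card, h1, ⟨f.trans e⟩, h3⟩

end Cfsg.Agent.S1684
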