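import Cfsg.Statements.S0471
import Cfsg.Agent.S1684
import Cfsg.Agent.Lib.Helper11.Transp

set_option autoImplicit false
open Cfsg

namespace Cfsg.Agent.S0471

open Cfsg.Agent.Lib.Helper11 Cfsg.Agent.Lib.Helper11.TC

set_option maxRecDepth 100000

abbrev gen : ℕ → Cfsg.Spor.Fi22 := Cfsg.Agent.S1684.gen

abbrev zw : List ℕ := [0]

/-- words leading from the base point into the three suborbits, with the order of the product -/
def reps : List (List ℕ × ℕ) :=
  [([], 2), ([2], 3), ([2, 0, 4, 2], 2)]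

theorem main : ∃ D : Set Cfsg.Spor.Fi22, Cfsg.IsThreeTranspositionClass D ∧ Nat.card D = 3510 ∧
    ∀ d ∈ D, Cfsg.IsNonsplitDoubleCover (Subgroup.centralizer ({d} : Set Cfsg.Spor.Fi22))
      (Cfsg.PSU 6 F4 2) := by
  obtain ⟨φ, hφ⟩ := Cox.exists_rep Fi22a.enc Fi22a.tables Fi22a.relsOK
  obtain ⟨hcard, hinj, hwp⟩ := Cox.order_master Fi22a.enc Fi22a.tables φ hφ Fi22Order.card_le
    Fi22a.lbase (by decide) Fi22a.lb (by norm_num)
  have hsq : ∀ l, gen l * gen l = 1 := Cox.gen_sq Fi22a.enc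
  have hz2 : ev gen zw * ev gen zw = 1 := by
    rw [← Simp.ev_append]
    exact hwp _ (by decide +kernel) (by decide +kernel)
  have hz1 : ev gen zw ≠ 1 := by
    intro h
    have h1 : ev (PR.pg 3510 Fi22a.tbl (fun l => l) Fi22a.Ls) zw = 1 := by
      rw [← PR.map_ev φ gen _ Fi22a.Ls hφ zw (by decide +kernel), h, map_one]
    have h2 := PR.ev_pg_inv_apply Fi22a.tables zw (by decide +kernel) (⟨1, by norm_num⟩ : Fin 3510)
    rw [h1] at h2
    simp only [inv_one, Equiv.Perm.coe_one, id_eq] at h2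
    revert h2
    decide +kernel
  set H : Subgroup Cfsg.Spor.Fi22 := Subgroup.closure {g | ∃ s ∈ Fi22a.subs, g = ev gen s} with hH
  have hidx : H.index = 3510 := by
    have hidx := Cfsg.Agent.S1687.result.1
    rwa [MonoidHom.map_closure, Cfsg.Agent.S1687.hS] at hidx
  have hDC : Cfsg.IsNonsplitDoubleCover H (Cfsg.PSU 6 F4 2) := by
    obtain ⟨h1, ⟨f⟩, h3⟩ := Cfsg.Agent.S1684.main H hH hidx
    obtain ⟨e⟩ := Cfsg.Agent.S1684.iso_P
    exact ⟨h1, ⟨f.trans e⟩, h3⟩
  have hzH : ∀ h ∈ H, h * ev gen zw = ev gen zw * h := by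
    intro h hh
    have hle : H ≤ Subgroup.centralizer ({ev gen zw} : Set Cfsg.Spor.Fi22) := by
      rw [hH, Subgroup.closure_le]
      rintro _ ⟨s, hs, rfl⟩
      rw [SetLike.mem_coe, Subgroup.mem_centralizer_singleton_iff]
      have h1 : ev gen (s ++ zw ++ (s.reverse ++ zw.reverse)) = 1 := by
        apply hwp
        · revert s; decide +kernel
        · revert s; decide +kernel
      rw [Simp.ev_append, Simp.ev_append, Simp.ev_append, Simp.ev_reverse gen hsq,
        Simp.ev_reverse gen hsq] at h1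
      have h2 : ev gen s * ev gen zw = ((ev gen s)⁻¹ * (ev gen zw)⁻¹)⁻¹ :=
        eq_inv_of_mul_eq_one_left h1
      rw [h2, mul_inv_rev, inv_inv, inv_inv]
    exact Subgroup.mem_centralizer_singleton_iff.mp (hle hh)
  have hchk : ∀ iv ∈ Fi22a.ivs, ∃ p ∈ reps, (∀ l ∈ p.1, l ∈ Fi22a.Ls) ∧
      (iv.1 ≤ PR.trace (p.1.map Fi22a.tbl) 0 ∧ PR.trace (p.1.map Fi22a.tbl) 0 < iv.2) ∧
      (p.2 = 2 ∨ p.2 = 3) ∧
      (∀ l ∈ (List.replicate p.2 (zw ++ (p.1.reverse ++ zw ++ p.1))).flatten, l ∈ Fi22a.Ls) ∧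
      ∀ β ∈ Fi22a.lbase, PR.trace
        (((List.replicate p.2 (zw ++ (p.1.reverse ++ zw ++ p.1))).flatten).map Fi22a.tbl) β = β := by
    decide +kernel
  obtain ⟨h1, h2, h3⟩ := TT.transp_class Cfsg.Agent.S1696.result.1
    (by rw [Cfsg.Agent.S1696.result.2]; norm_num) Fi22a.tables Fi22a.orbits φ gen hφ
    (by norm_num) H hH hidx (by decide +kernel) (by decide +kernel) (ev gen zw) hz1 hz2 hzH (by
      intro iv hiv
      obtain ⟨p, _, hpL, hp1, hp2, hp3, hp4⟩ := hchk iv hiv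
      refine ⟨(ev gen p.1)⁻¹, ?_, ?_⟩
      · have h5 := PR.ev_pg_inv_apply Fi22a.tables p.1 hpL (⟨0, by norm_num⟩ : Fin 3510)
        rw [map_inv, PR.map_ev φ gen _ Fi22a.Ls hφ p.1 hpL, h5]
        exact hp1
      · have h6 : ev gen zw * ((ev gen p.1)⁻¹ * ev gen zw * (ev gen p.1)⁻¹⁻¹) =
            ev gen (zw ++ (p.1.reverse ++ zw ++ p.1)) := by
          rw [Simp.ev_append, Simp.ev_append, Simp.ev_append, Simp.ev_reverse gen hsq, inv_inv]
        have h7 := hwp _ hp3 hp4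
        rw [Cox.ev_flatten_replicate] at h7
        rw [h6]
        rcases hp2 with h8 | h8
        · left; rw [← h8]; exact h7
        · right; rw [← h8]; exact h7)
  refine ⟨_, h1, h2, ?_⟩
  intro d hd
  obtain ⟨e⟩ := h3 d hd
  exact TT.nonsplit_congr e.symm hDC


/-- The Fischer group of order 64561751654400 exists as a 3-transposition group: a simple group of that order generated by a conjugacy class of 3510 3-transpositions, the centraliser of each being a non-split double cover of PSU(6, 2). -/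
theorem result : ∃ (G : Type) (_ : Group G) (_ : Finite G), Cfsg.IsFi22 G ∧ ∃ D : Set G, Cfsg.IsThreeTranspositionClass D ∧ Nat.card D = 3510 ∧ ∀ d ∈ D, ∃ (F : Type) (_ : Field F) (_ : Fintype F), Fintype.card F = 4 ∧ Cfsg.IsNonsplitDoubleCover (Subgroup.centralizer ({d} : Set G)) (Cfsg.PSU 6 F 2) := by
  obtain ⟨D, h1, h2, h3⟩ := main
  exact ⟨Cfsg.Spor.Fi22, inferInstance, Fi22Order.card_le.1, Cfsg.Agent.S1696.result, D, h1, h2,
    fun d hd => ⟨F4, inferInstance, inferInstance, F4.card, h3 d hd⟩⟩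

end Cfsg.Agent.S0471
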