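import Cfsg.Statements.S0478
import Cfsg.Agent.S0279
import Cfsg.Agent.Lib.Helper11.J3Hom
import Cfsg.Agent.Lib.Helper11.CenterCover

set_option autoImplicit false
open Cfsg

namespace Cfsg.Agent.S0478

open Cfsg.Agent.Lib.Helper11 Cfsg.Agent.Lib.Helper11.TC

set_option maxRecDepth 100000

/-- a word moving a point is not trivial -/
theorem ne_one (w : List ℕ) (hw : ∀ l ∈ w, l ∈ J3x.Ls) (u : ℕ) (hu : u < 6156)
    (h : PR.trace (w.map J3x.tbl) u ≠ u) : ev J3S.gen w ≠ 1 := by
  obtain ⟨φ, hφ⟩ := GM.exists_rep J3S.pres J3x.tables J3x.relsOK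
  intro h1
  have h2 : ev (PR.pg 6156 J3x.tbl J3x.invL J3x.Ls) w = 1 := by
    rw [← PR.map_ev φ J3S.gen _ J3x.Ls hφ w hw, h1, map_one]
  have h3 := PR.ev_pg_inv_apply J3x.tables w hw ⟨u, hu⟩
  rw [h2] at h3
  exact h h3.symm

theorem nc : J3S.gen 0 * J3S.gen 2 ≠ J3S.gen 2 * J3S.gen 0 := by
  intro h
  apply ne_one [0, 2, 0, 2] (by decide) 1 (by norm_num) (by decide +kernel)
  have s0 : J3S.gen 0 * J3S.gen 0 = 1 := GM.sq_of_inv J3S.pres.hinv (fun _ => rfl) 0
  have s2 : J3S.gen 2 * J3S.gen 2 = 1 := GM.sq_of_inv J3S.pres.hinv (fun _ => rfl) 2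
  simp only [ev_cons, ev_nil, mul_one]
  rw [h, ← mul_assoc (J3S.gen 2), s2, one_mul, s0]

/-- A triple cover of Janko's third group inside a unitary group: for a field F with four elements, the special unitary group of dimension 9 (with respect to the form with q = 2) has a subgroup whose centre has order 3 and whose quotient by its centre is simple of order 50232960. -/
theorem result : ∃ (F : Type) (_ : Field F) (_ : Fintype F), Fintype.card F = 4 ∧ ∃ H : Subgroup (Cfsg.SU 9 F 2), Nat.card (Subgroup.center H) = 3 ∧ Cfsg.IsJ3 (H ⧸ Subgroup.center H) := by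
  obtain ⟨hs, hc⟩ := J3S.simple
  obtain ⟨γ, hγ⟩ := J3M.exists_hom
  have hker : γ.ker = ⊥ := by
    rcases hs.eq_bot_or_eq_top_of_normal γ.ker inferInstance with h | h
    · exact h
    · exfalso
      have h3 : J3S.gen 0 ∈ γ.ker := by rw [h]; exact Subgroup.mem_top _
      rw [MonoidHom.mem_ker, hγ 0 (by decide)] at h3
      exact J3M.psu_ne h3
  have hinj : Function.Injective γ := (MonoidHom.ker_eq_bot_iff γ).mp hker
  obtain ⟨H, h1, ⟨f⟩⟩ := CC.cover hs (J3S.gen 0) (J3S.gen 2) nc γ hinj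
  refine ⟨F4, inferInstance, inferInstance, F4.card, H, ?_, f.isSimpleGroup, ?_⟩
  · rw [h1, Cfsg.Agent.S0279.result (F := F4) (q := 2) (by rw [F4.card]; norm_num) 9 (by norm_num)]
    decide
  · rw [Nat.card_congr f.toEquiv, hc]

end Cfsg.Agent.S0478
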