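import Cfsg.Statements.S0481
import Mathlib
import Cfsg.Agent.H4.Basic

set_option autoImplicit false
open Cfsg

namespace Cfsg.Agent.S0481

/-- Large extraspecial subgroups: let z be an involution of a finite group G whose centraliser C contains a normal 2-subgroup Q with centre of order 2 and all squares central, such that every element of G centralising Q lies in Q. Then C contains a Sylow 2-subgroup of G, and any involution of G whose centraliser contains a Sylow 2-subgroup of G is conjugate to z. -/
theorem result {G : Type*} [Group G] [Finite G] (z : G) (hz : orderOf z = 2) (Q : Subgroup G) (hQC : Q ≤ Subgroup.centralizer ({z} : Set G)) (hQn : ∀ g ∈ Subgroup.centralizer ({z} : Set G), ∀ q ∈ Q, g * q * g⁻¹ ∈ Q) (hQ2 : IsPGroup 2 Q) (hZ : Nat.card (Subgroup.center Q) = 2) (hsq : ∀ x : Q, x ^ 2 ∈ Subgroup.center Q) (hlarge : Subgroup.centralizer (Q : Set G) ≤ Q) : (∃ P : Sylow 2 G, (P : Subgroup G) ≤ Subgroup.centralizer ({z} : Set G)) ∧ ∀ u : G, orderOf u = 2 → (∃ P : Sylow 2 G, (P : Subgroup G) ≤ Subgroup.centralizer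 ({u} : Set G)) → IsConj z u := by
  have : Fact (Nat.Prime 2) := ⟨Nat.prime_two⟩
  have hz1 : z ≠ 1 := by
    rintro rfl; simp at hz
  have hzQc : z ∈ Subgroup.centralizer (Q : Set G) := by
    rw [Subgroup.mem_centralizer_iff]
    intro q hq
    have := hQC hq
    rwa [Subgroup.mem_centralizer_singleton_iff] at this
  have hzQ : z ∈ Q := hlarge hzQc
  obtain ⟨y, hy1, hy⟩ := (Nat.card_eq_two_iff' (1 : Subgroup.center Q)).mp hZ
  -- elements centralizing Q are 1 or z
  have key0 : ∀ c : G, c ∈ Subgroup.centralizer (Q : Set G) → c ≠ 1 →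
      ∃ h : c ∈ Q, ∃ h' : (⟨c, h⟩ : Q) ∈ Subgroup.center Q, (⟨⟨c, h⟩, h'⟩ : Subgroup.center Q) = y := by
    intro c hc hc1
    have hcQ := hlarge hc
    have hcen : (⟨c, hcQ⟩ : Q) ∈ Subgroup.center Q := by
      rw [Subgroup.mem_center_iff]
      intro g
      apply Subtype.ext
      exact (Subgroup.mem_centralizer_iff.mp hc) g g.2
    refine ⟨hcQ, hcen, hy _ ?_⟩
    intro h
    apply hc1
    have := congrArg (fun t : Subgroup.center Q => ((t : Q) : G)) h
    simpa using this
  have key : ∀ c : G, c ∈ Subgroup.centralizer (Q : Set G) → c ≠ 1 → c = z := by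
    intro c hc hc1
    obtain ⟨h1, h2, h3⟩ := key0 c hc hc1
    obtain ⟨h4, h5, h6⟩ := key0 z hzQc hz1
    have := congrArg (fun t : Subgroup.center Q => ((t : Q) : G)) (h3.trans h6.symm)
    simpa using this
  obtain ⟨P, hQP⟩ := hQ2.exists_le_sylow
  have keyP : ∀ c ∈ (P : Subgroup G), (∀ x ∈ (P : Subgroup G), x * c = c * x) → c ≠ 1 → c = z := by
    intro c _ hcc hc1
    apply key c _ hc1
    rw [Subgroup.mem_centralizer_iff]
    intro q hq
    exact hcc q (hQP hq)
  have hzP : ∀ x ∈ (P : Subgroup G), x * z = z * x := by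
    have hne : (P : Subgroup G) ≠ ⊥ := by
      intro h
      have : z ∈ (P : Subgroup G) := hQP hzQ
      rw [h, Subgroup.mem_bot] at this
      exact hz1 this
    have : Nontrivial (P : Subgroup G) := (Subgroup.nontrivial_iff_ne_bot _).mpr hne
    have hP : IsPGroup 2 (P : Subgroup G) := P.isPGroup'
    have := hP.center_nontrivial
    obtain ⟨c, hc⟩ := exists_ne (1 : Subgroup.center (P : Subgroup G))
    have hcc : ∀ x ∈ (P : Subgroup G), x * ((c : (P : Subgroup G)) : G) = ((c : (P : Subgroup G)) : G) * x := by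
      intro x hx
      have := (Subgroup.mem_center_iff.mp c.2) ⟨x, hx⟩
      exact congrArg Subtype.val this
    have hcz := keyP _ (c : (P : Subgroup G)).2 hcc (by
      intro h
      apply hc
      apply Subtype.ext
      apply Subtype.ext
      simpa using h)
    rw [← hcz]
    exact hcc
  refine ⟨⟨P, fun x hx => ?_⟩, ?_⟩
  · rw [Subgroup.mem_centralizer_singleton_iff]
    exact hzP x hx
  · rintro u hu ⟨P', hP'⟩
    have hcomm : ∀ x ∈ (P' : Subgroup G), x * u = u * x := fun x hx => by
      have := hP' hx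
      rwa [Subgroup.mem_centralizer_singleton_iff] at this
    have huP' : u ∈ (P' : Subgroup G) := Cfsg.Agent.H4.mem_sylow_of_commute P'
      (Cfsg.Agent.H4.isPGroup_zpowers_of_orderOf (k := 1) (by simpa using hu)) hcomm
    obtain ⟨g, hg⟩ := Cfsg.Agent.H4.sylow_conj P P'
    have h1 : g⁻¹ * u * g ∈ (P : Subgroup G) := (hg u).mp huP'
    have h2 : g⁻¹ * u * g = z := by
      apply keyP _ h1
      · intro x hx
        have hx' : g * x * g⁻¹ ∈ (P' : Subgroup G) := by
          rw [hg]; simpa [mul_assoc] using hx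
        have := hcomm _ hx'
        calc x * (g⁻¹ * u * g) = g⁻¹ * ((g * x * g⁻¹) * u) * g := by group
          _ = g⁻¹ * (u * (g * x * g⁻¹)) * g := by rw [this]
          _ = g⁻¹ * u * g * x := by group
      · intro h
        have : u = 1 := by
          have : u = g * (g⁻¹ * u * g) * g⁻¹ := by group
          rw [this, h]; group
        rw [this] at hu; simp at hu
    rw [isConj_iff]
    refine ⟨g, ?_⟩
    rw [← h2]; group

end Cfsg.Agent.S0481
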