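import Cfsg.Statements.S0499
import Cfsg.Agent.Tr.Frobenius
import Cfsg.Agent.H20.Primary

set_option autoImplicit false
set_option linter.style.haveILetI false
open Cfsg

namespace Cfsg.Agent.S0499

/-- A non-abelian finite simple group of even order has order divisible by 12, 16 or 56. -/
theorem result {G : Type*} [Group G] [Finite G] [IsSimpleGroup G]
    (hG : ¬ IsMulCommutative G) (h2 : Even (Nat.card G)) :
    12 ∣ Nat.card G ∨ 16 ∣ Nat.card G ∨ 56 ∣ Nat.card G := by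
  classical
  haveI : Fact (Nat.Prime 2) := ⟨Nat.prime_two⟩
  have hnF : ¬ Cfsg.Agent.Tr.Frob 2 G := by
    intro hF
    obtain ⟨P, N, hN, hc⟩ := hF.hasNormalPComplement
    rcases hN.eq_bot_or_eq_top with h | h
    · rw [h, Subgroup.isComplement'_bot_left] at hc
      have hG2 : IsPGroup 2 G := by
        intro x
        obtain ⟨k, hk⟩ := P.2 ⟨x, hc ▸ Subgroup.mem_top x⟩
        exact ⟨k, congrArg Subtype.val hk⟩
      have hnt : Nontrivial G := IsSimpleGroup.toNontrivial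
      have hZ := hG2.center_nontrivial
      rcases (inferInstance : (Subgroup.center G).Normal).eq_bot_or_eq_top with h0 | h0
      · exact (Subgroup.nontrivial_iff_ne_bot _).1 hZ h0
      · apply hG
        refine ⟨⟨fun a b => ?_⟩⟩
        have : a ∈ Subgroup.center G := h0 ▸ Subgroup.mem_top a
        exact (Subgroup.mem_center_iff.1 this b).symm
    · rw [h, Subgroup.isComplement'_top_left] at hc
      exact P.ne_bot_of_dvd_card h2.two_dvd hc
  unfold Cfsg.Agent.Tr.Frob at hnF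
  push Not at hnF
  obtain ⟨Q, hQ, g, hgN, hgo, hgC⟩ := hnF
  have hex : ∃ r : ℕ, r.Prime ∧ ∃ z ∈ Subgroup.zpowers g, (∃ a : ℕ, z ^ r ^ a = 1) ∧
      z ∉ Subgroup.centralizer (Q : Set G) := by
    by_contra hcon
    push Not at hcon
    exact hgC (H20.mem_of_primary_mem _ g (isOfFinOrder_of_finite g)
      (fun p hp z hz ha => hcon p hp z hz ha))
  obtain ⟨r, hr, z, hz, ⟨a, ha⟩, hzC⟩ := hex
  haveI := Fact.mk hr
  have hzN : z ∈ Subgroup.normalizer (Q : Set G) := (Subgroup.zpowers_le.2 hgN) hz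
  obtain ⟨k, -, hk⟩ := (Nat.dvd_prime_pow hr).1 (orderOf_dvd_of_pow_eq_one ha)
  have hk0 : k ≠ 0 := by
    intro h0
    rw [h0, pow_zero, orderOf_eq_one_iff] at hk
    exact hzC (hk ▸ Subgroup.one_mem _)
  have hrz : r ∣ orderOf z := hk ▸ dvd_pow_self r hk0
  have hzg : orderOf z ∣ orderOf g := by
    obtain ⟨j, rfl⟩ := Subgroup.mem_zpowers_iff.1 hz
    exact orderOf_dvd_of_pow_eq_one (by rw [← zpow_natCast, ← zpow_mul, mul_comm, zpow_mul,
      zpow_natCast, pow_orderOf_eq_one, one_zpow])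
  have hr2 : r ≠ 2 := by
    intro h
    have h3 : 2 ∣ orderOf g := h ▸ (hrz.trans hzg)
    have := Nat.Coprime.eq_one_of_dvd hgo.symm h3
    omega
  have hrG : r ∣ Nat.card G := hrz.trans (orderOf_dvd_natCard z)
  -- the action
  obtain ⟨R, hRdef⟩ : ∃ R : Subgroup ↥(Subgroup.normalizer (Q : Set G)),
      R = Subgroup.zpowers (⟨z, hzN⟩ : ↥(Subgroup.normalizer (Q : Set G))) := ⟨_, rfl⟩
  have hR : IsPGroup r R := by
    apply IsPGroup.of_card (n := k)
    rw [hRdef, Nat.card_zpowers, ← hk]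
    exact Subgroup.orderOf_mk z hzN
  have hmod := hR.card_modEq_card_fixedPoints ↥Q
  have hFcard : Nat.card (MulAction.fixedPoints R ↥Q) = Nat.card (FixedPoints.subgroup R ↥Q) := rfl
  rw [hFcard] at hmod
  have hFtop : FixedPoints.subgroup R ↥Q ≠ ⊤ := by
    intro h
    apply hzC
    rw [Subgroup.mem_centralizer_iff]
    intro q hq
    have h1 : (⟨q, hq⟩ : ↥Q) ∈ FixedPoints.subgroup R ↥Q := h ▸ Subgroup.mem_top _
    have h2 := h1 ⟨⟨z, hzN⟩, hRdef ▸ Subgroup.mem_zpowers _⟩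
    have h3 : z * q * z⁻¹ = q := congrArg Subtype.val h2
    calc q * z = (z * q * z⁻¹) * z := by rw [h3]
      _ = z * q := by group
  obtain ⟨n, hn⟩ := IsPGroup.iff_card.1 hQ
  have hFd : Nat.card (FixedPoints.subgroup R ↥Q) ∣ 2 ^ n := hn ▸ Subgroup.card_subgroup_dvd_card _
  obtain ⟨b, hbn, hb⟩ := (Nat.dvd_prime_pow Nat.prime_two).1 hFd
  have hbne : b ≠ n := by
    intro h
    apply hFtop
    apply Subgroup.eq_top_of_card_eq
    rw [hb, hn, h]
  have hQG : 2 ^ n ∣ Nat.card G := hn ▸ Subgroup.card_subgroup_dvd_card Q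
  rw [hn, hb] at hmod
  have hdvd : r ∣ 2 ^ n - 2 ^ b :=
    (Nat.modEq_iff_dvd' (Nat.pow_le_pow_right (by norm_num) hbn)).1 hmod.symm
  by_cases hn4 : 4 ≤ n
  · right; left
    exact (pow_dvd_pow 2 hn4).trans hQG
  · have hn3 : n ≤ 3 := by omega
    have hb3 : b < n := lt_of_le_of_ne hbn hbne
    have key : (r = 3 ∧ 2 ≤ n) ∨ (r = 7 ∧ n = 3) := by
      interval_cases n <;> interval_cases b <;> norm_num at hdvd
      · exact absurd hdvd hr.ne_one
      · left; exact ⟨(Nat.prime_dvd_prime_iff_eq hr Nat.prime_three).1 hdvd, le_rfl⟩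
      · exact absurd ((Nat.prime_dvd_prime_iff_eq hr Nat.prime_two).1 hdvd) hr2
      · right; exact ⟨(Nat.prime_dvd_prime_iff_eq hr (by norm_num)).1 hdvd, rfl⟩
      · left
        have h6 : r ∣ 2 * 3 := hdvd
        rcases (Nat.Prime.dvd_mul hr).1 h6 with h | h
        · exact absurd ((Nat.prime_dvd_prime_iff_eq hr Nat.prime_two).1 h) hr2
        · exact ⟨(Nat.prime_dvd_prime_iff_eq hr Nat.prime_three).1 h, by norm_num⟩
      · have h4 : r ∣ 2 ^ 2 := hdvd
        exact absurd ((Nat.prime_dvd_prime_iff_eq hr Nat.prime_two).1 (hr.dvd_of_dvd_pow h4)) hr2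
    rcases key with ⟨h3, hn2⟩ | ⟨h7, hn3'⟩
    · left
      have h4 : 4 ∣ Nat.card G := (pow_dvd_pow 2 hn2).trans hQG
      have h3' : 3 ∣ Nat.card G := h3 ▸ hrG
      exact Nat.Coprime.mul_dvd_of_dvd_of_dvd (by norm_num : Nat.Coprime 4 3) h4 h3'
    · right; right
      have h8 : 8 ∣ Nat.card G := by rw [hn3'] at hQG; exact hQG
      have h7' : 7 ∣ Nat.card G := h7 ▸ hrG
      exact Nat.Coprime.mul_dvd_of_dvd_of_dvd (by norm_num : Nat.Coprime 8 7) h8 h7'

end Cfsg.Agent.S0499
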