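import Mathlib
import Cfsg.Statements.S0502
import Cfsg.Agent.H9.KConn

set_option autoImplicit false
open Cfsg
open scoped commutatorElement

namespace Cfsg.Agent.S0502

/-- If a finite 2-group has a normal elementary abelian subgroup of order at least 8, then any two of its Klein
four-subgroups are joined by a chain of Klein four-subgroups with consecutive members commuting elementwise. -/
theorem result {P : Type*} [Group P] [Finite P] (hP : IsPGroup 2 P)
    (E : Subgroup P) [E.Normal] (hE : IsMulCommutative E) (hE2 : ∀ e ∈ E, e ^ 2 = 1) (hE8 : 8 ≤ Nat.card E) :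
    Cfsg.IsFourConnected P := by
  have hnum2 : ∀ j c : ℕ, j < 2 → 3 * 2 ^ j ≤ c * 2 ^ 2 → j < c := by
    intro j c hj h
    interval_cases j <;> omega
  have hE' : 2 ^ 3 ≤ Nat.card E := by norm_num; exact hE8
  have hto : ∀ U : Subgroup P, IsKleinFour U → (∀ u ∈ U, u ^ 2 = 1) ∧ Nat.card U = 2 ^ 2 := by
    intro U hU
    refine ⟨fun u hu => ?_, by rw [hU.card_four]; norm_num⟩
    have h1 := Monoid.pow_exponent_eq_one (⟨u, hu⟩ : U)
    rw [hU.exponent_two] at h1
    have := congrArg Subtype.val h1
    simpa using this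
  have hfrom : ∀ U : Subgroup P, (∀ u ∈ U, u ^ 2 = 1) → Nat.card U = 2 ^ 2 → IsKleinFour U := by
    intro U h1 h2
    refine ⟨by rw [h2]; norm_num, ?_⟩
    have h3 : Monoid.exponent U ∣ 2 := Monoid.exponent_dvd_of_forall_pow_eq_one
      (fun u => Subtype.ext (by simpa using h1 u u.2))
    rcases (Nat.dvd_prime Nat.prime_two).mp h3 with h | h
    · exfalso
      rw [Monoid.exp_eq_one_iff] at h
      have : Nat.card U = 1 := Nat.card_eq_one_iff_unique.mpr ⟨h, ⟨1⟩⟩
      rw [h2] at this
      norm_num at this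
    · exact h
  intro U V hU hV
  have h := Cfsg.H9.KConn.connected hP E hE2 2 3 hnum2 hE' U V (hto U hU).1 (hto U hU).2
    (hto V hV).1 (hto V hV).2
  refine Relation.ReflTransGen.mono ?_ _ _ h
  rintro C D ⟨h1, h2, h3, h4, h5⟩
  exact ⟨hfrom C h1 h2, hfrom D h3 h4, h5⟩

end Cfsg.Agent.S0502
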