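import Cfsg.Statements.S0514
import Cfsg.Agent.Tr.Dihedral4
-- import your own Cfsg.Agent.* helpers here

set_option autoImplicit false
open Cfsg

open Cfsg.Agent.Tr Cfsg.Agent.H12 Cfsg.Agent.Tr.Dih DihedralGroup

namespace Cfsg.Agent.S0514

/-- In a finite group whose Sylow 2-subgroups are dihedral of order at least 4, the centralizer of any involution has a
normal subgroup of odd order whose index in the centralizer is a power of 2. -/
theorem result {X : Type*} [Group X] [Finite X]
    (S : Sylow 2 X) (n : ℕ) (hn : 2 ≤ n) (hS : Nonempty ((S : Subgroup X) ≃* DihedralGroup n)) (t : X)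
    (ht : orderOf t = 2) :
    ∃ N : Subgroup (Subgroup.centralizer ({t} : Set X)), N.Normal ∧ Odd (Nat.card N) ∧ ∃ k : ℕ, N.index = 2 ^ k := by
  obtain ⟨e⟩ := hS
  have : Fact (Nat.Prime 2) := ⟨Nat.prime_two⟩
  have hF := frob_centralizer_involution S e ht
  have h1 := hasNormalPComplement_iff.mp hF.hasNormalPComplement
  refine ⟨pResidual 2 _, inferInstance, ?_, ?_⟩
  · exact Nat.Coprime.odd_of_right h1
  · obtain ⟨k, hk⟩ := IsPGroup.iff_card.mp (isPGroup_quotient_pResidual (G := Subgroup.centralizer ({t} : Set X)) 2)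
    exact ⟨k, hk⟩

end Cfsg.Agent.S0514
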