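import Cfsg.Statements.S0519
import Cfsg.Agent.H17.CycNormal2

set_option autoImplicit false
open Cfsg

namespace Cfsg.Agent.S0519

open Cfsg.Agent.Tr.MC Cfsg.Agent.H17.CycNormal in
theorem no_d8 {P : Type*} [Group P] [Finite P] {a b : P} (hd : Dat P 2 a b) (hb2 : b ^ 2 = 1)
    (hn : ∀ A : Subgroup P, A.Normal → IsMulCommutative A → IsCyclic A) : False := by
  have hz2 : (a ^ 2 ^ (2 - 1)) ^ 2 = 1 := z_sq (by norm_num) hd.ord
  have hz1 : a ^ 2 ^ (2 - 1) ≠ 1 := z_ne_one (by norm_num) hd.ord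
  have hoz : orderOf (a ^ 2 ^ (2 - 1)) = 2 := orderOf_eq_prime hz2 hz1
  have hb1 : b ≠ 1 := by rintro rfl; exact hd.nmem (one_mem _)
  have hob : orderOf b = 2 := orderOf_eq_prime hb2 hb1
  have hne : b ≠ a ^ 2 ^ (2 - 1) := by
    intro h
    apply hd.nmem
    rw [h]
    exact (Subgroup.zpowers a).pow_mem (Subgroup.mem_zpowers a) _
  obtain ⟨h4, hnc⟩ := four_sup hd.isPGroup hoz hob (hd.z_mem_center le_rfl) hne
  apply hnc
  apply hn _ _ (isMulCommutative_of_card_four _ h4)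
  apply Subgroup.normal_of_index_eq_two
  have h1 := (Subgroup.zpowers (a ^ 2 ^ (2 - 1)) ⊔ Subgroup.zpowers b : Subgroup P).card_mul_index
  rw [h4, hd.card] at h1
  omega

/-- Let P be a finite p-group in which every abelian normal subgroup is cyclic, but which has a non-cyclic abelian
subgroup. Then p = 2 and P is generalized quaternion, dihedral of order at least 16, or quasi-dihedral. -/
theorem result {P : Type*} [Group P] [Finite P] (p : ℕ) [Fact p.Prime]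
    (hP : IsPGroup p P) (hn : ∀ A : Subgroup P, A.Normal → IsMulCommutative A → IsCyclic A)
    (hm : ∃ B : Subgroup P, IsMulCommutative B ∧ ¬ IsCyclic B) :
    p = 2 ∧ ((∃ n : ℕ, Nonempty (P ≃* QuaternionGroup n)) ∨ (∃ n : ℕ, 8 ≤ n ∧ Nonempty (P ≃* DihedralGroup n)) ∨
      Cfsg.IsQuasiDihedral P) := by
  obtain ⟨B, hBc, hBn⟩ := hm
  have hnc : ¬ IsCyclic P := fun h => hBn inferInstance
  have hp2 : p = 2 := by
    by_contra hp
    obtain ⟨A, hAn, ⟨hAc, hAe⟩, hcard⟩ := Cfsg.H1.exists_normal_rank_two hp hP hnc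
    have hcyc := hn A hAn hAc
    obtain ⟨g, hg⟩ := hcyc.exists_generator
    have h0 : orderOf g = p ^ 2 := by rw [orderOf_eq_card_of_forall_mem_zpowers hg, hcard]
    have h1 : g ^ p = 1 := Subtype.ext (hAe g g.2)
    have h2 := orderOf_dvd_of_pow_eq_one h1
    rw [h0] at h2
    have hpp := (Fact.out : p.Prime)
    have h3 := Nat.le_of_dvd hpp.pos h2
    have := hpp.two_le
    nlinarith
  subst hp2
  obtain ⟨m, a, b, hm2, hd⟩ := Cfsg.Agent.H17.CycNormal.dat_of_cyclic_normal hP hn hnc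
  refine ⟨rfl, ?_⟩
  rcases hd.classification hm2 with ⟨⟨e⟩⟩ | ⟨⟨e⟩⟩ | ⟨hm3, b', hb', hc⟩
  · right; left
    rcases (by omega : m = 2 ∨ 3 ≤ m) with rfl | hm3
    · exfalso
      have hd' := Cfsg.Agent.Tr.MC.Dat.of_equiv e (Cfsg.Agent.Tr.MC.dat_dihedral 2)
      apply no_d8 hd' _ hn
      have h0 : (DihedralGroup.sr 0 : DihedralGroup (2 ^ 2)) ^ 2 = 1 := by
        rw [pow_two (DihedralGroup.sr 0), DihedralGroup.sr_mul_self]
      rw [← map_pow, h0, map_one]
    · refine ⟨2 ^ m, ?_, ⟨e⟩⟩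
      calc 8 = 2 ^ 3 := by norm_num
        _ ≤ 2 ^ m := Nat.pow_le_pow_right (by norm_num) hm3
  · left; exact ⟨_, ⟨e⟩⟩
  · right; right
    exact ⟨m, hm3, hd.card, a, b', hd.ord, hb', hc⟩

end Cfsg.Agent.S0519
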