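import Cfsg.Statements.S0521
import Cfsg.Agent.Lib.Helper13.ActStab
import Cfsg.Agent.Lib.Helper22.FrattiniFaithful
import Cfsg.Agent.H1.Small2
import Cfsg.Agent.H20.PGroup
import Cfsg.Agent.H1.Fit
-- import your own Cfsg.Agent.* helpers here

set_option autoImplicit false
open Cfsg

namespace Cfsg.Agent.S0521


open Subgroup
open scoped commutatorElement

/-- a `p`-element normalizing `⟨c⟩` (`c` a `p`-element) acts trivially modulo `p`-th powers. -/
theorem comm_eq_pow {Y : Type*} [Group Y] {p : ℕ} [hp : Fact p.Prime] (c b : Y) (j i : ℕ)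
    (hb : b ^ p ^ j = 1) (hc : c ^ p ^ i = 1) (hn : b * c * b⁻¹ ∈ zpowers c) :
    ∃ e ∈ zpowers c, b * c * b⁻¹ * c⁻¹ = e ^ p := by
  by_cases hc1 : c = 1
  · subst hc1
    exact ⟨1, one_mem _, by simp⟩
  have hfin : IsOfFinOrder c := isOfFinOrder_iff_pow_eq_one.2 ⟨p ^ i, pow_pos hp.out.pos _, hc⟩
  obtain ⟨k, hk⟩ := (hfin.mem_powers_iff_mem_zpowers).2 hn
  have hk' : b * c * b⁻¹ = c ^ k := hk.symm
  -- iterate
  have hit : ∀ n : ℕ, b ^ n * c * (b ^ n)⁻¹ = c ^ (k ^ n) := by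
    intro n
    induction n with
    | zero => simp
    | succ n ih =>
      have : b ^ (n + 1) * c * (b ^ (n + 1))⁻¹ = b * (b ^ n * c * (b ^ n)⁻¹) * b⁻¹ := by
        rw [pow_succ']; group
      rw [this, ih]
      have h2 : b * c ^ (k ^ n) * b⁻¹ = (b * c * b⁻¹) ^ (k ^ n) := by
        rw [conj_pow]
      rw [h2, hk', ← pow_mul, pow_succ']
  have h1 := hit (p ^ j)
  rw [hb] at h1
  simp only [one_mul, inv_one, mul_one] at h1
  -- `c = c ^ (k ^ p ^ j)`
  have hpo : p ∣ orderOf c := by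
    have hd : orderOf c ∣ p ^ i := orderOf_dvd_of_pow_eq_one hc
    obtain ⟨m, -, hm⟩ := (Nat.dvd_prime_pow hp.out).1 hd
    rcases Nat.eq_zero_or_pos m with rfl | hm0
    · rw [pow_zero] at hm
      exact absurd (orderOf_eq_one_iff.1 hm) hc1
    · rw [hm]; exact dvd_pow_self p hm0.ne'
  have h2 : k ^ p ^ j ≡ 1 [MOD orderOf c] := by
    have : c ^ (k ^ p ^ j) = c ^ 1 := by rw [pow_one]; exact h1.symm
    exact pow_eq_pow_iff_modEq.1 this
  have h3 : k ^ p ^ j ≡ 1 [MOD p] := h2.of_dvd hpo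
  have h4 : ((k : ℕ) : ZMod p) = 1 := by
    have h5 : ((k ^ p ^ j : ℕ) : ZMod p) = ((1 : ℕ) : ZMod p) := (ZMod.natCast_eq_natCast_iff _ _ _).2 h3
    push_cast at h5
    rwa [ZMod.pow_card_pow] at h5
  have h6 : (p : ℤ) ∣ (k : ℤ) - 1 := by
    have : (((k : ℤ) - 1 : ℤ) : ZMod p) = 0 := by
      push_cast
      rw [h4]; ring
    exact (ZMod.intCast_zmod_eq_zero_iff_dvd _ _).1 this
  obtain ⟨m, hm⟩ := h6
  refine ⟨c ^ m, zpow_mem (mem_zpowers c) m, ?_⟩
  rw [hk', ← zpow_natCast (c ^ m), ← zpow_mul, mul_comm m, ← hm, zpow_sub, zpow_natCast, zpow_one]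

theorem core {Y : Type*} [Group Y] [Finite Y] {p : ℕ} [hp : Fact p.Prime] (hp2 : p ≠ 2)
    (hodd : Odd (Nat.card Y))
    (hc : centralizer (pCore p Y : Set Y) ≤ pCore p Y) (S : Subgroup Y) (hS : IsPGroup p S) (hRle : pCore p Y ≤ S)
    (hcyc : IsCyclic ↥(⁅S, S⁆ : Subgroup Y)) : S ≤ pCore p Y := by
  set R := pCore p Y with hR
  have hRp : IsPGroup p R := Cfsg.H1.pCore_isPGroup p
  set Φ := (frattini ↥R).map R.subtype with hΦ
  have hni : ¬ Involves (Matrix.SpecialLinearGroup (Fin 2) (ZMod p)) Y := by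
    intro h
    have h1 := Cfsg.Agent.Lib.Helper13.card_dvd_of_involves h
    have h2 := (Cfsg.Agent.Lib.Helper13.two_dvd_card_SL2 p hp2).trans h1
    exact (Nat.not_even_iff_odd.mpr hodd) (even_iff_two_dvd.mpr h2)
  have hst : IsPStableOnSection p R Φ := (Cfsg.Agent.Lib.Helper13.isActionPStable_of_not_involves hp2 hni).2.1
  have hpow : ∀ r ∈ R, r ^ p ∈ Φ := by
    intro r hr
    exact ⟨(⟨r, hr⟩ : R) ^ p, (Cfsg.H1.frattini_pgroup_ge p hRp).2 ⟨r, hr⟩, rfl⟩
  intro a ha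
  -- the cyclic group
  set Cy : Subgroup Y := ⁅S, S⁆ ⊓ R with hCy
  have hCycyc : ∃ c ∈ Cy, ∀ w ∈ Cy, w ∈ zpowers c := by
    have h1 : IsCyclic ↥(Cy.subgroupOf ⁅S, S⁆) := Subgroup.isCyclic _
    obtain ⟨g, hg⟩ := h1.exists_generator
    refine ⟨g.1.1, g.2, ?_⟩
    intro w hw
    obtain ⟨n, hn⟩ := hg ⟨⟨w, hw.1⟩, hw⟩
    refine ⟨n, ?_⟩
    have := congrArg (fun z => ((z : ↥(Cy.subgroupOf ⁅S, S⁆)) : ↥(⁅S, S⁆ : Subgroup Y)).1) hn
    simpa using this
  obtain ⟨c, hcC, hgen⟩ := hCycyc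
  have hSS : (⁅S, S⁆ : Subgroup Y) ≤ S := commutator_le_self S
  have hcS : c ∈ S := hSS hcC.1
  have hnormCy : ∀ b ∈ S, ∀ w ∈ Cy, b * w * b⁻¹ ∈ Cy := by
    intro b hb w hw
    refine ⟨?_, (inferInstance : R.Normal).conj_mem w hw.2 b⟩
    have h1 : ⁅b, w⁆ ∈ (⁅S, S⁆ : Subgroup Y) := commutator_mem_commutator hb (hSS hw.1)
    have h2 : b * w * b⁻¹ = ⁅b, w⁆ * w := by rw [commutatorElement_def]; group
    rw [h2]
    exact mul_mem h1 hw.1
  have hRS : R ≤ S ⊔ R := le_sup_right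
  have hquad : ⁅⁅R, zpowers a⁆, zpowers a⁆ ≤ Φ := by
    have h1 : ⁅R, zpowers a⁆ ≤ Cy := by
      refine le_inf ?_ ?_
      · exact commutator_mono hRle (zpowers_le.2 ha)
      · exact commutator_le_left R _
    rw [commutator_le]
    intro d hd b hb
    have hbS : b ∈ S := (zpowers_le.2 ha) hb
    obtain ⟨j, hj⟩ := hS ⟨b, hbS⟩
    obtain ⟨i, hi⟩ := hS ⟨c, hcS⟩
    have hj' : b ^ p ^ j = 1 := congrArg Subtype.val hj
    have hi' : c ^ p ^ i = 1 := congrArg Subtype.val hi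
    obtain ⟨e, he, hbe⟩ := comm_eq_pow c b j i hj' hi' (hgen _ (hnormCy b hbS c hcC))
    obtain ⟨m, rfl⟩ := hgen d (h1 hd)
    obtain ⟨n, rfl⟩ := he
    have hbc : b * c * b⁻¹ = (c ^ n) ^ p * c := by rw [← hbe]; group
    have h2 : ⁅c ^ m, b⁆ = ((c ^ (-(n * m))) ^ p) := by
      have h3 : b * (c ^ m)⁻¹ * b⁻¹ = ((b * c * b⁻¹) ^ m)⁻¹ := by
        rw [conj_zpow]; group
      rw [commutatorElement_def, mul_assoc (c ^ m), mul_assoc (c ^ m), h3, hbc]
      rw [← zpow_natCast (c ^ n), ← zpow_mul, ← zpow_add_one, ← zpow_mul, ← zpow_neg, ← zpow_add,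
        ← zpow_natCast (c ^ (-(n * m))), ← zpow_mul]
      congr 1
      ring
    rw [h2]
    exact hpow _ (R.zpow_mem hcC.2 _)
  obtain ⟨D, hDn, hkD, ⟨k, hk⟩, haD⟩ := hst a hquad
  have hker : sectionKernel R Φ ≤ R := by
    intro y hy
    apply Cfsg.Agent.Lib.Helper22.mem_pCore_of_trivial_on_frattini p hc y
    intro x hx
    have h1 : (QuotientGroup.mk' Φ y) ∈ centralizer ((R.map (QuotientGroup.mk' Φ) : Subgroup (Y ⧸ Φ)) : Set (Y ⧸ Φ)) := hy
    have h2 := (mem_centralizer_iff.1 h1) (QuotientGroup.mk' Φ x) ⟨x, hx, rfl⟩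
    have h3 : QuotientGroup.mk' Φ (y * x * y⁻¹ * x⁻¹) = 1 := by
      rw [map_mul, map_mul, map_mul, map_inv, map_inv, ← h2]
      group
    exact (QuotientGroup.eq_one_iff _).1 h3
  have hDp : IsPGroup p D := by
    have h1 : IsPGroup p (sectionKernel R Φ) := hRp.to_le hker
    obtain ⟨n, hn⟩ := IsPGroup.iff_card.1 h1
    apply IsPGroup.of_card (n := n + k)
    rw [← Cfsg.Agent.H20.card_mul_relIndex hkD, hn, hk, pow_add]
  exact Cfsg.H1.le_pCore hDn hDp haD
/-- Let X be a finite solvable group of odd order, p a prime and S a Sylow p-subgroup of X whose commutator subgroup is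
cyclic. Then the product of the largest normal subgroup of X of order prime to p with S is a normal subgroup of X. -/
theorem result {X : Type*} [Group X] [Finite X] [Group.IsSolvable X]
    (hX : Odd (Nat.card X)) (p : ℕ) [Fact p.Prime] (S : Sylow p X) (hS : IsCyclic (commutator (S : Subgroup X))) :
    (Cfsg.pPrimeCore p X ⊔ (S : Subgroup X)).Normal := by
  by_cases hp : p = 2
  · subst hp
    have h1 : Nat.card (S : Subgroup X) = 1 := by
      obtain ⟨n, hn⟩ := IsPGroup.iff_card.mp S.2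
      have h2 : Nat.card (S : Subgroup X) ∣ Nat.card X := Subgroup.card_subgroup_dvd_card _
      rcases Nat.eq_zero_or_pos n with rfl | hpos
      · simpa using hn
      · exfalso
        have h3 : 2 ∣ Nat.card X := (dvd_pow_self 2 hpos.ne').trans (hn ▸ h2)
        exact (Nat.not_even_iff_odd.mpr hX) (even_iff_two_dvd.mpr h3)
    have h2 : (S : Subgroup X) = ⊥ := Subgroup.card_eq_one.mp h1
    rw [h2, sup_bot_eq]
    infer_instance
  · set N := Cfsg.pPrimeCore p X with hN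
    set π := QuotientGroup.mk' N with hπ
    have hπs : Function.Surjective π := QuotientGroup.mk'_surjective N
    have hoddY : Odd (Nat.card (X ⧸ N)) := Odd.of_dvd_nat hX (Subgroup.card_quotient_dvd_card _)
    have hsolv : Group.IsSolvable (X ⧸ N) := Group.isSolvable_of_surjective hπs
    have hc := Cfsg.Agent.Lib.Helper13.constrained_of_solvable (Cfsg.H9.pPrimeCore_quotient (G := X) p)
    have hSy : (S.mapSurjective hπs : Subgroup (X ⧸ N)) = (S : Subgroup X).map π := Sylow.coe_mapSurjective _ _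
    have hle : Cfsg.pCore p (X ⧸ N) ≤ (S : Subgroup X).map π := by
      rw [← hSy]
      exact (Cfsg.H1.pCore_isPGroup p).le_sylow_of_normal _
    have hcyc : IsCyclic ↥(⁅(S : Subgroup X).map π, (S : Subgroup X).map π⁆ : Subgroup (X ⧸ N)) := by
      have e1 : (⁅(S : Subgroup X).map π, (S : Subgroup X).map π⁆ : Subgroup (X ⧸ N)) =
          (commutator (S : Subgroup X)).map (π.comp (S : Subgroup X).subtype) := by
        rw [← Subgroup.map_map, commutator_def, Subgroup.map_commutator (⊤ : Subgroup ↥(S : Subgroup X)),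
          ← MonoidHom.range_eq_map, Subgroup.range_subtype, Subgroup.map_commutator]
      rw [e1]
      exact isCyclic_of_surjective (((π.comp (S : Subgroup X).subtype).subgroupMap (commutator (S : Subgroup X))))
        (MonoidHom.subgroupMap_surjective _ _)
    have h1 := core hp hoddY hc ((S : Subgroup X).map π) (S.2.map π) hle hcyc
    have h2 : (S : Subgroup X).map π = Cfsg.pCore p (X ⧸ N) := le_antisymm h1 hle
    have h3 : N ⊔ (S : Subgroup X) = (Cfsg.pCore p (X ⧸ N)).comap π := by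
      rw [← h2, Subgroup.comap_map_eq, QuotientGroup.ker_mk', sup_comm]
    rw [h3]
    infer_instance

end Cfsg.Agent.S0521
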