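import Mathlib
import Cfsg.Statements.S0522
import Cfsg.Agent.H9.TTrans3
import Cfsg.Agent.H9.PSolv
import Cfsg.Agent.Lib.Helper10.PSolvOfSolv

set_option autoImplicit false
open Cfsg
open scoped commutatorElement

namespace Cfsg.Agent.S0522

/-- Transitivity Theorem (odd-order setting). Let X be a finite group of odd order in which the normalizer of every
nontrivial p-subgroup is solvable, P a Sylow p-subgroup, and B an abelian subgroup of P, normalized by P, with
C_P(B) = B and containing an elementary abelian subgroup of order p^3. Then for every prime q ≠ p, any two q-subgroups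
that are maximal among the q-subgroups normalized by B are conjugate by an element of the centralizer of B. -/
theorem result {X : Type*} [Group X] [Finite X] (hX : Odd (Nat.card X)) (p : ℕ)
    [Fact p.Prime] (hloc : ∀ T : Subgroup X, IsPGroup p T → T ≠ ⊥ → Group.IsSolvable (Subgroup.normalizer (T : Set X)))
    (P : Sylow p X) (B : Subgroup X) (hBP : B ≤ (P : Subgroup X))
    (hBn : ∀ x ∈ (P : Subgroup X), ∀ b ∈ B, x * b * x⁻¹ ∈ B) (hBa : IsMulCommutative B)
    (hBc : (P : Subgroup X) ⊓ Subgroup.centralizer (B : Set X) = B)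
    (hB3 : ∃ E : Subgroup X, E ≤ B ∧ (∀ e ∈ E, e ^ p = 1) ∧ p ^ 3 ≤ Nat.card E)
    (q : ℕ) [Fact q.Prime] (hqp : q ≠ p) (Q₁ Q₂ : Subgroup X)
    (h₁ : IsPGroup q Q₁ ∧ B ≤ Subgroup.normalizer (Q₁ : Set X) ∧
      ∀ R : Subgroup X, IsPGroup q R → B ≤ Subgroup.normalizer (R : Set X) → Q₁ ≤ R → R = Q₁)
    (h₂ : IsPGroup q Q₂ ∧ B ≤ Subgroup.normalizer (Q₂ : Set X) ∧
      ∀ R : Subgroup X, IsPGroup q R → B ≤ Subgroup.normalizer (R : Set X) → Q₂ ≤ R → R = Q₂) :
    ∃ c ∈ Subgroup.centralizer (B : Set X), Q₂ = Q₁.map (MulAut.conj c).toMonoidHom := by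
  classical
  have hpp : p.Prime := Fact.out
  obtain ⟨E, hEB, hEe, hE3⟩ := hB3
  have hBp : IsPGroup p B := P.2.to_le hBP
  have hp : p ≠ 2 := by
    rintro rfl
    have h1 : 2 ∣ Nat.card E := by
      have hEp : IsPGroup 2 E := hBp.to_le hEB
      obtain ⟨k, hk⟩ := IsPGroup.iff_card.mp hEp
      rw [hk] at hE3 ⊢
      have hk0 : k ≠ 0 := by
        rintro rfl
        norm_num at hE3
      exact dvd_pow_self 2 hk0
    have h2 : 2 ∣ Nat.card X := h1.trans (Subgroup.card_subgroup_dvd_card E)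
    exact (Nat.not_even_iff_odd.mpr hX) (even_iff_two_dvd.mpr h2)
  have hE : Cfsg.IsElementaryAbelian p E := by
    refine ⟨⟨⟨?_⟩⟩, hEe⟩
    rintro ⟨a, ha⟩ ⟨b, hb⟩
    apply Subtype.ext
    have := congrArg Subtype.val (hBa.is_comm.comm ⟨a, hEB ha⟩ ⟨b, hEB hb⟩)
    exact this
  -- `p`-elements of `C(B)` lie in `B`
  have hPN : (P : Subgroup X) ≤ Subgroup.normalizer (B : Set X) := by
    rw [Subgroup.le_normalizer_iff]
    exact hBn
  have hfull : ∀ x ∈ Subgroup.centralizer (B : Set X), IsPGroup p (Subgroup.zpowers x) → x ∈ B := by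
    intro x hxC hxp
    have hxN : x ∈ Subgroup.normalizer (B : Set X) := Subgroup.centralizer_le_normalizer _ hxC
    have hxp' : IsPGroup p (Subgroup.zpowers (⟨x, hxN⟩ : Subgroup.normalizer (B : Set X))) := by
      have h1 := hxp.comap_subtype (K := Subgroup.normalizer (B : Set X))
      refine h1.to_le ?_
      rw [Subgroup.zpowers_le]
      exact Subgroup.mem_zpowers x
    obtain ⟨P₂, hP₂⟩ := hxp'.exists_le_sylow
    obtain ⟨n, hn⟩ := MulAction.exists_smul_eq (↥(Subgroup.normalizer (B : Set X)))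
      (P.subtype hPN) P₂
    have h1 : (⟨x, hxN⟩ : Subgroup.normalizer (B : Set X)) ∈
        (P₂ : Subgroup (Subgroup.normalizer (B : Set X))) := hP₂ (Subgroup.mem_zpowers _)
    rw [← hn, Sylow.coe_subgroup_smul, Subgroup.mem_pointwise_smul_iff_inv_smul_mem] at h1
    have h2 : (n⁻¹ * ⟨x, hxN⟩ * n : Subgroup.normalizer (B : Set X)) ∈
        ((P.subtype hPN : Sylow p (Subgroup.normalizer (B : Set X))) :
          Subgroup (Subgroup.normalizer (B : Set X))) := by
      simpa [MulAut.smul_def] using h1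
    have h3 : (n : X)⁻¹ * x * n ∈ (P : Subgroup X) := h2
    have hninv : ∀ y ∈ B, (n : X) * y * (n : X)⁻¹ ∈ B := fun y hy =>
      (Subgroup.mem_normalizer_iff.mp n.2 y).mp hy
    have h4 : (n : X)⁻¹ * x * n ∈ Subgroup.centralizer (B : Set X) := by
      rw [Subgroup.mem_centralizer_iff]
      intro y hy
      have h5 := Subgroup.mem_centralizer_iff.mp hxC _ (hninv y hy)
      calc y * ((n : X)⁻¹ * x * n) = (n : X)⁻¹ * (((n : X) * y * (n : X)⁻¹) * x) * n := by group
        _ = (n : X)⁻¹ * (x * ((n : X) * y * (n : X)⁻¹)) * n := by rw [h5]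
        _ = (n : X)⁻¹ * x * n * y := by group
    have h6 : (n : X)⁻¹ * x * n ∈ B :=
      hBc.le (Subgroup.mem_inf.mpr ⟨h3, h4⟩)
    have h7 := hninv _ h6
    have e : (n : X) * ((n : X)⁻¹ * x * n) * (n : X)⁻¹ = x := by group
    rwa [e] at h7
  have hkey : ∀ S R Q : Subgroup X, IsPGroup p S → B ≤ S → R ≤ S → (Nat.card Q).Coprime p →
      B ≤ Subgroup.normalizer (Q : Set X) → B ≤ Subgroup.normalizer (R : Set X) →
      Q ≤ Subgroup.normalizer (R : Set X) → Q ≤ Subgroup.centralizer (R : Set X) := by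
    intro S R Q hS hES hRS hQc hEQ hER hQR
    have hRp : IsPGroup p R := hS.to_le hRS
    have hfix : ∀ x ∈ R, x ∈ Subgroup.centralizer (B : Set X) → x ∈ B := fun x hx hxE =>
      hfull x hxE (hRp.to_le (Subgroup.zpowers_le.mpr hx))
    exact Cfsg.H9.PQOdd.key hp B Q hBp hQc hEQ _ R rfl hRp hER hQR
      (fun x hx _ hxE => Cfsg.H9.TTrans2.comm_of_mem hQc hEQ hRp hQR hx (hfix x hx hxE))
  have hL1 : ∀ b ∈ B, b ≠ 1 → ∃ K : Subgroup X, (Nat.card K).Coprime p ∧
      B ≤ Subgroup.normalizer (K : Set X) ∧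
      ∀ Y : Subgroup X, Y ≤ Subgroup.centralizer {b} → (Nat.card Y).Coprime p →
        B ≤ Subgroup.normalizer (Y : Set X) → Y ≤ K := by
    intro b hb hb1
    have hECb : B ≤ Subgroup.centralizer ({b} : Set X) := by
      intro e he
      rw [Subgroup.mem_centralizer_singleton_iff]
      exact congrArg Subtype.val (hBa.is_comm.comm ⟨e, he⟩ ⟨b, hb⟩)
    have hcn := Cfsg.H9.TTrans3.centralizer_singleton_le_normalizer b
    haveI hs := hloc (Subgroup.zpowers b) (hBp.to_le (Subgroup.zpowers_le.mpr hb))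
        (by rwa [Ne, Subgroup.zpowers_eq_bot])
    obtain ⟨K, h1, h2', h3⟩ := Cfsg.H9.TTrans3.exists_core p B
      (Subgroup.normalizer ((Subgroup.zpowers b : Subgroup X) : Set X)) hBp (hECb.trans hcn)
      (Cfsg.H9.isPConstrained_of_isPSolvable
        (Cfsg.Agent.Lib.Helper10.isPSolvable_of_isSolvable p hpp)) hkey
    exact ⟨K, h1, h2', fun Y hY => h3 Y (hY.trans hcn)⟩
  exact Cfsg.H9.TTrans.trans_aux hqp B (Subgroup.centralizer (B : Set X)) E hBp hBa hEB
    hE hE3 le_rfl (fun c hc _ => hc) hL1 _ Q₁ Q₂ h₁ h₂ rfl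

end Cfsg.Agent.S0522
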