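import Cfsg.Statements.S0534
import Mathlib
import Cfsg.Agent.S0003
import Cfsg.Agent.H4.Basic2

set_option autoImplicit false
open Cfsg

namespace Cfsg.Agent.S0534

theorem nt (n a d : ℕ) (hn : n ≠ 0) (ha : a ≠ 0) (hd : d ∣ n * a)
    (hA : ∀ p : ℕ, p.Prime → p ∣ a → p ∣ n)
    (hexp : ∀ p : ℕ, p.Prime → p ∣ n → a.factorization p + 1 = n.factorization p) :
    ∃ m k b, n = m * k ∧ m.Coprime k ∧ b ∣ a ∧ d = m * b := by
  classical
  have hd0 : d ≠ 0 := fun h => (mul_ne_zero hn ha) (by rw [h] at hd; exact Nat.eq_zero_of_zero_dvd hd)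
  set f := n.factorization.filter (fun p => n.factorization p ≤ d.factorization p) with hf
  set g := n.factorization.filter (fun p => ¬ n.factorization p ≤ d.factorization p) with hg
  have hfp : ∀ p ∈ f.support, p.Prime := fun p hp => by
    rw [hf, Finsupp.support_filter, Finset.mem_filter] at hp
    exact Nat.prime_of_mem_primeFactors hp.1
  have hgp : ∀ p ∈ g.support, p.Prime := fun p hp => by
    rw [hg, Finsupp.support_filter, Finset.mem_filter] at hp
    exact Nat.prime_of_mem_primeFactors hp.1
  have hmf := Nat.prod_pow_factorization_eq_self hfp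
  have hkf := Nat.prod_pow_factorization_eq_self hgp
  set m := f.prod (· ^ ·) with hm
  set k := g.prod (· ^ ·) with hk
  have hm0 : m ≠ 0 := by
    rw [hm, Finsupp.prod, Finset.prod_ne_zero_iff]
    intro p hp
    exact pow_ne_zero _ (hfp p hp).ne_zero
  have hk0 : k ≠ 0 := by
    rw [hk, Finsupp.prod, Finset.prod_ne_zero_iff]
    intro p hp
    exact pow_ne_zero _ (hgp p hp).ne_zero
  have hmd : m ∣ d := by
    rw [← Nat.factorization_le_iff_dvd hm0 hd0, hmf]
    intro p
    rw [hf, Finsupp.filter_apply]
    split_ifs with h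
    · exact h
    · exact Nat.zero_le _
  refine ⟨m, k, d / m, ?_, ?_, ?_, (Nat.mul_div_cancel' hmd).symm⟩
  · apply Nat.eq_of_factorization_eq hn (mul_ne_zero hm0 hk0)
    intro p
    rw [Nat.factorization_mul hm0 hk0, hmf, hkf, hf, hg, Finsupp.filter_add_filter_not]
  · rw [← Nat.disjoint_primeFactors hm0 hk0, ← Nat.support_factorization, ← Nat.support_factorization,
      hmf, hkf, hf, hg, Finsupp.support_filter, Finsupp.support_filter]
    exact Finset.disjoint_filter_filter_not _ _ _
  · have hdm0 : d / m ≠ 0 := (Nat.div_pos (Nat.le_of_dvd (Nat.pos_of_ne_zero hd0) hmd) (Nat.pos_of_ne_zero hm0)).ne'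
    rw [← Nat.factorization_le_iff_dvd hdm0 ha, Nat.factorization_div hmd, hmf]
    intro p
    have hdle : d.factorization p ≤ n.factorization p + a.factorization p := by
      have := (Nat.factorization_le_iff_dvd hd0 (mul_ne_zero hn ha)).2 hd p
      rwa [Nat.factorization_mul hn ha] at this
    rw [Finsupp.coe_tsub, Pi.sub_apply, hf, Finsupp.filter_apply]
    by_cases hp : p.Prime
    · by_cases hpn : p ∣ n
      · have := hexp p hp hpn
        split_ifs with h <;> omega
      · have h1 : n.factorization p = 0 := Nat.factorization_eq_zero_of_not_dvd hpn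
        have h2 : a.factorization p = 0 :=
          Nat.factorization_eq_zero_of_not_dvd (fun h => hpn (hA p hp h))
        split_ifs with h <;> omega
    · have h1 : d.factorization p = 0 := Nat.factorization_eq_zero_of_not_prime _ hp
      omega

open Subgroup Cfsg.Agent.H4 in
theorem clt_comm_aux.{u} (n : ℕ) : ∀ (A : Type u) [CommGroup A] [Finite A], Nat.card A = n →
    ∀ d, d ∣ Nat.card A → ∃ H : Subgroup A, Nat.card H = d := by
  induction n using Nat.strong_induction_on with
  | _ n ih =>
  intro A _ _ hn d hd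
  by_cases hd1 : d = 1
  · exact ⟨⊥, by rw [hd1]; exact Subgroup.card_bot⟩
  have hp := Nat.minFac_prime hd1
  have := Fact.mk hp
  obtain ⟨x, hx⟩ := exists_prime_orderOf_dvd_card' (G := A) d.minFac
    ((Nat.minFac_dvd d).trans hd)
  have hc : Nat.card (zpowers x) = d.minFac := by rw [Nat.card_zpowers, hx]
  have hN0 : zpowers x ≠ ⊥ := by
    intro e
    rw [e, Subgroup.card_bot] at hc
    exact hp.one_lt.ne hc
  have h3 := Subgroup.card_eq_card_quotient_mul_card_subgroup (zpowers x)
  rw [hc] at h3
  obtain ⟨e, he⟩ := Nat.minFac_dvd d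
  have hdvd : e ∣ Nat.card (A ⧸ zpowers x) := by
    have hd' : e * d.minFac ∣ Nat.card (A ⧸ zpowers x) * d.minFac := by
      rw [← h3, mul_comm, ← he]
      exact hd
    exact Nat.dvd_of_mul_dvd_mul_right hp.pos hd'
  obtain ⟨H, hH⟩ := ih _ (hn ▸ card_quotient_lt (zpowers x) hN0) (A ⧸ zpowers x) rfl e hdvd
  refine ⟨H.comap (QuotientGroup.mk' _), ?_⟩
  rw [card_comap_mk', hc, hH, ← he]

/-- Let G be a finite solvable group and A a finite abelian group such that every prime dividing the order of A divides the order of G and, for each prime p dividing the order of G, the exponent of p in the order of A is one less than its exponent in the order of G. Then G × A has a subgroup of every order dividing its order. -/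
theorem result {G A : Type*} [Group G] [CommGroup A] [Finite G] [Finite A] [Group.IsSolvable G] (hA : ∀ p : ℕ, p.Prime → p ∣ Nat.card A → p ∣ Nat.card G) (hexp : ∀ p : ℕ, p.Prime → p ∣ Nat.card G → (Nat.card A).factorization p + 1 = (Nat.card G).factorization p) : Cfsg.HasSubgroupOfEveryOrder (G × A) := by
  intro d hd
  rw [Nat.card_prod] at hd
  obtain ⟨m, k, b, h1, h2, h3, h4⟩ := nt (Nat.card G) (Nat.card A) d Nat.card_pos.ne'
    Nat.card_pos.ne' hd hA hexp
  obtain ⟨H, hH⟩ := Cfsg.Agent.S0003.result (G := G) m k h1 h2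
  obtain ⟨B, hB⟩ := clt_comm_aux _ A rfl b h3
  refine ⟨H.prod B, ?_⟩
  rw [Nat.card_congr (Subgroup.prodEquiv H B).toEquiv, Nat.card_prod, hH, hB, h4]

end Cfsg.Agent.S0534
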