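import Cfsg.Statements.S0535
import Mathlib
import Cfsg.Agent.H4.Burnside
import Cfsg.Agent.S0003
import Cfsg.Agent.S0006

set_option autoImplicit false
open Cfsg

namespace Cfsg.Agent.S0535

universe u

theorem aux : ∀ (n : ℕ) (G : Type u) [Group G] [Finite G], Nat.card G = n →
    (∀ H : Subgroup G, H ≠ ⊥ → ∀ p : ℕ, p.Prime → p ∣ Nat.card H →
      ∃ K : Subgroup H, K ≠ ⊤ ∧ ∃ k : ℕ, K.index = p ^ k) → Group.IsSolvable G := by
  intro n
  induction n using Nat.strong_induction_on with
  | _ n ih =>
    intro G _ _ hn h
    rcases subsingleton_or_nontrivial G with hs | hnt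
    · infer_instance
    apply Cfsg.Agent.S0006.result
    intro p hp
    by_cases hpd : p ∣ Nat.card G
    · obtain ⟨K', hK't, k, hK'i⟩ := h ⊤ top_ne_bot p hp (by
        rw [Nat.card_congr Subgroup.topEquiv.toEquiv]; exact hpd)
      set K := K'.map (⊤ : Subgroup G).subtype with hK
      have hKi : K.index = p ^ k := by
        rw [hK, Subgroup.index_map_subtype, hK'i, Subgroup.index_top, mul_one]
      have hKt : K ≠ ⊤ := by
        intro h0
        apply hK't
        rw [eq_top_iff]
        intro x _
        have : (x : G) ∈ K := by rw [h0]; trivial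
        obtain ⟨y, hy, hyx⟩ := this
        have : y = x := Subtype.ext hyx
        rwa [← this]
      have hKs : Group.IsSolvable K := by
        apply ih (Nat.card K) (hn ▸ Cfsg.Agent.H4.card_lt_card_of_ne_top hKt) K rfl
        intro H' hH' r hr hrd
        have e := H'.equivMapOfInjective K.subtype K.subtype_injective
        have h1 : H'.map K.subtype ≠ ⊥ := by
          rwa [Ne, Subgroup.map_eq_bot_iff_of_injective _ K.subtype_injective]
        obtain ⟨J, hJt, j, hJi⟩ := h (H'.map K.subtype) h1 r hr (by
          rw [← Nat.card_congr e.toEquiv]; exact hrd)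
        refine ⟨J.comap e.toMonoidHom, ?_, j, ?_⟩
        · intro h0
          apply hJt
          rw [← Subgroup.map_comap_eq_self_of_surjective (f := e.toMonoidHom) e.surjective J, h0,
            Subgroup.map_top_of_surjective _ e.surjective]
        · rw [Subgroup.index_comap_of_surjective _ e.surjective, hJi]
      have hcK : Nat.card K ≠ 0 := Nat.card_pos.ne'
      obtain ⟨H0, hH0⟩ := Cfsg.Agent.S0003.result (G := K) (ordCompl[p] (Nat.card K))
        (ordProj[p] (Nat.card K)) (by rw [mul_comm, Nat.ordProj_mul_ordCompl_eq_self])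
        ((Nat.coprime_ordCompl hp hcK).pow_left _).symm
      refine ⟨H0.map K.subtype, ?_⟩
      have hc : Nat.card (H0.map K.subtype) = ordCompl[p] (Nat.card G) := by
        rw [Subgroup.card_subtype, hH0, ← K.card_mul_index, hKi, Nat.ordCompl_mul,
          Nat.ordCompl_self_pow hp, mul_one]
      have h2 := (H0.map K.subtype).card_mul_index
      rw [hc] at h2
      have h3 := Nat.ordProj_mul_ordCompl_eq_self (Nat.card G) p
      have hpos : 0 < ordCompl[p] (Nat.card G) := Nat.ordCompl_pos p Nat.card_pos.ne'
      apply Nat.eq_of_mul_eq_mul_left hpos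
      rw [h2, mul_comm, h3]
    · exact ⟨⊤, by rw [Subgroup.index_top, Nat.factorization_eq_zero_of_not_dvd hpd, pow_zero]⟩

/-- Suppose that for every nontrivial subgroup H of a finite group and every prime p dividing the order of H there is a proper subgroup of H whose index in H is a power of p. Then the group is solvable. -/
theorem result {G : Type*} [Group G] [Finite G] (h : ∀ H : Subgroup G, H ≠ ⊥ → ∀ p : ℕ, p.Prime → p ∣ Nat.card H → ∃ K : Subgroup H, K ≠ ⊤ ∧ ∃ k : ℕ, K.index = p ^ k) : Group.IsSolvable G := by
  exact aux _ G rfl h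

end Cfsg.Agent.S0535
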