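import Cfsg.Statements.S0537
import Mathlib
import Cfsg.Agent.H4.Schmidt3
import Cfsg.Agent.H4.MinNormal
import Cfsg.Agent.H4.SolvMin
import Cfsg.Agent.H1.CoprimeAb

set_option autoImplicit false
open Cfsg

namespace Cfsg.Agent.S0537

open Subgroup Cfsg.Agent.H4
open scoped Pointwise

theorem nilpotent_case {G : Type*} [Group G] [Finite G] (hna : ¬ IsMulCommutative G)
    (h : ∀ H : Subgroup G, H ≠ ⊤ → IsMulCommutative H) (hnil : Group.IsNilpotent G) :
    ∃ p : ℕ, p.Prime ∧ IsPGroup p G := by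
  by_contra hcon
  push Not at hcon
  have hprop : ∀ (r : ℕ) [Fact r.Prime] (R : Sylow r G), (R : Subgroup G) ≠ ⊤ := by
    intro r hr R e
    exact hcon r hr.out (isPGroup_of_eq_top R.2 e)
  have htopnil : Group.IsNilpotent (⊤ : Subgroup G) := Group.nilpotent_of_mulEquiv topEquiv.symm
  have hcen : ∀ (r : ℕ) [Fact r.Prime] (R : Sylow r G), (R : Subgroup G) ≤ center G := by
    intro r hr R
    have h1 : centralizer ((R : Subgroup G) : Set G) = ⊤ := by
      apply eq_top_of_sylow_le
      intro s hs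
      by_cases hsr : s = r
      · subst hsr
        refine ⟨R, ?_⟩
        have := h R (hprop s R)
        intro x hx
        rw [mem_centralizer_iff]
        intro y hy
        exact congrArg Subtype.val (mul_comm' (⟨y, hy⟩ : (R : Subgroup G)) ⟨x, hx⟩)
      · obtain ⟨S⟩ : Nonempty (Sylow s G) := inferInstance
        exact ⟨S, le_centralizer_of_nilpotent htopnil le_top le_top (Ne.symm hsr) R.2 S.2⟩
    intro x hx
    rw [mem_center_iff]
    intro g
    have hg : g ∈ centralizer ((R : Subgroup G) : Set G) := h1 ▸ mem_top g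
    exact ((mem_centralizer_iff.1 hg) x hx).symm
  have hc : center G = ⊤ := by
    apply eq_top_of_sylow_le
    intro r hr
    obtain ⟨R⟩ : Nonempty (Sylow r G) := inferInstance
    exact ⟨R, hcen r R⟩
  apply hna
  rw [isMulCommutative_iff]
  intro a b
  have ha : b ∈ center G := hc ▸ mem_top b
  exact (mem_center_iff.1 ha) a

/-- A finite non-abelian group in which every proper subgroup is abelian is either of prime-power order, or is generated by a cyclic Sylow p-subgroup and a normal Sylow q-subgroup that is elementary abelian, for distinct primes p and q. -/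
theorem result {G : Type*} [Group G] [Finite G] (hna : ¬ IsMulCommutative G) (h : ∀ H : Subgroup G, H ≠ ⊤ → IsMulCommutative H) : (∃ p : ℕ, p.Prime ∧ IsPGroup p G) ∨ ∃ p q : ℕ, p.Prime ∧ q.Prime ∧ p ≠ q ∧ ∃ (P : Sylow p G) (Q : Sylow q G), IsCyclic P ∧ (Q : Subgroup G).Normal ∧ Cfsg.IsElementaryAbelian q (Q : Subgroup G) ∧ (P : Subgroup G) ⊔ Q = ⊤ := by
  by_cases hnil : Group.IsNilpotent G
  · exact Or.inl (nilpotent_case hna h hnil)
  right
  have hG : Cfsg.IsMinimalNonNilpotent G := ⟨hnil, fun H hH => by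
    have := h H hH
    exact isNilpotent_of_isMulCommutative⟩
  obtain ⟨p, q, hp, hq, hpq, P, Q, h1, h2, h3, h4⟩ := schmidt_structure hG
  have := Fact.mk hp
  have := Fact.mk hq
  refine ⟨p, q, hp, hq, hpq, P, Q, h1, h2, ?_, h3⟩
  have hQt : (Q : Subgroup G) ≠ ⊤ := by
    intro e
    exact hnil (isPGroup_of_eq_top Q.2 e).isNilpotent
  have hQc := h Q hQt
  refine ⟨hQc, ?_⟩
  have hQcomm : ∀ x ∈ (Q : Subgroup G), ∀ y ∈ (Q : Subgroup G), x * y = y * x := fun x hx y hy =>
    congrArg Subtype.val (mul_comm' (⟨x, hx⟩ : (Q : Subgroup G)) ⟨y, hy⟩)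
  let Ω : Subgroup G :=
    { carrier := {y | y ∈ (Q : Subgroup G) ∧ y ^ q = 1}
      mul_mem' := by
        rintro x y ⟨hx, hx'⟩ ⟨hy, hy'⟩
        refine ⟨mul_mem hx hy, ?_⟩
        rw [(show Commute x y from hQcomm x hx y hy).mul_pow, hx', hy', one_mul]
      one_mem' := ⟨one_mem _, one_pow _⟩
      inv_mem' := by
        rintro x ⟨hx, hx'⟩
        exact ⟨inv_mem hx, by rw [inv_pow, hx', inv_one]⟩ }
  have hΩmem : ∀ y, y ∈ Ω ↔ y ∈ (Q : Subgroup G) ∧ y ^ q = 1 := fun y => Iff.rfl
  have hΩn : Ω.Normal := by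
    constructor
    intro y hy g
    rw [hΩmem] at hy ⊢
    exact ⟨h2.conj_mem y hy.1 g, by rw [conj_pow, hy.2, mul_one, mul_inv_cancel]⟩
  have htop : (P : Subgroup G) ⊔ Ω = ⊤ := by
    by_contra hne
    have hab := h _ hne
    apply h4
    have hPc : (P : Subgroup G) ≤ centralizer ((Q : Subgroup G) : Set G) := by
      apply Cfsg.H1.coprime_abelian_trivial_of_omega
      · rw [normalizer_eq_top_iff.2 h2]; exact le_top
      · exact IsPGroup.coprime_card_of_ne p q hpq _ _ P.2 Q.2
      · intro v hv hvp a ha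
        have hvΩ : v ∈ Ω := by
          rw [hΩmem]
          refine ⟨hv, ?_⟩
          obtain ⟨k, hk⟩ := (Q.2 ⟨v, hv⟩)
          have hk' : v ^ q ^ k = 1 := by
            have := congrArg Subtype.val hk
            simpa using this
          have hd : orderOf v ∣ q ^ k := orderOf_dvd_of_pow_eq_one hk'
          have : orderOf v = q := (Nat.prime_dvd_prime_iff_eq hvp hq).1 (hvp.dvd_of_dvd_pow hd)
          rw [← this]
          exact pow_orderOf_eq_one v
        exact congrArg Subtype.val (mul_comm'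
          (⟨a, (le_sup_left : (P : Subgroup G) ≤ (P : Subgroup G) ⊔ Ω) ha⟩ : ((P : Subgroup G) ⊔ Ω : Subgroup G))
          ⟨v, (le_sup_right : Ω ≤ (P : Subgroup G) ⊔ Ω) hvΩ⟩)
    rw [← normalizer_eq_top_iff, eq_top_iff, ← h3]
    exact sup_le le_normalizer ((le_centralizer_iff.1 hPc).trans (centralizer_le_normalizer _))
  intro y hy
  have hy' : y ∈ (P : Subgroup G) ⊔ Ω := htop ▸ mem_top y
  obtain ⟨a, ha, w, hw, e⟩ := mem_sup_of_normal_right.1 hy'
  have hd : Disjoint (P : Subgroup G) Q := IsPGroup.disjoint_of_ne p q hpq _ _ P.2 Q.2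
  have ha' : a ∈ (P : Subgroup G) ⊓ Q := by
    refine ⟨ha, ?_⟩
    have : a = y * w⁻¹ := by rw [← e]; group
    rw [this]
    exact (Q : Subgroup G).mul_mem hy ((Q : Subgroup G).inv_mem ((hΩmem w).1 hw).1)
  rw [disjoint_iff.1 hd, mem_bot] at ha'
  rw [← e, ha', one_mul]
  exact ((hΩmem w).1 hw).2

end Cfsg.Agent.S0537
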