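import Cfsg.Statements.S0541
import Mathlib
import Cfsg.Agent.H4.Subnormal3
import Cfsg.Agent.Lib.Helper22.FittingSub

set_option autoImplicit false
open Pointwise
open Cfsg

namespace Cfsg.Agent.S0541

open Subgroup

theorem conj_T_le {G : Type*} [Group G] (Z Y : Subgroup G) (g k : G) (hk : k ∈ Y) :
    MulAut.conj k • (⨆ y ∈ Y, MulAut.conj (y * g) • Z) ≤ ⨆ y ∈ Y, MulAut.conj (y * g) • Z := by
  rw [pointwise_smul_subset_iff]
  apply iSup₂_le
  intro y hy
  rw [← pointwise_smul_subset_iff, smul_smul, ← map_mul, ← mul_assoc]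
  exact le_iSup₂ (f := fun (y : G) (_ : y ∈ Y) => MulAut.conj (y * g) • Z) (k * y) (Y.mul_mem hk hy)

/-- Let Z and Y be subgroups of a finite group G and p a prime. Suppose that for every g in G the subgroup generated by the conjugates of g Z g⁻¹ under Y is a p-group. Then there is a Sylow p-subgroup P of G such that Y normalizes the subgroup generated by all conjugates of Z contained in P. -/
theorem result {G : Type*} [Group G] [Finite G] (p : ℕ) [Fact p.Prime] (Z Y : Subgroup G) (h : ∀ g : G, IsPGroup p ↥(⨆ y ∈ Y, MulAut.conj (y * g) • Z)) : ∃ P : Sylow p G, Y ≤ Subgroup.normalizer ((⨆ g ∈ {g : G | MulAut.conj g • Z ≤ (P : Subgroup G)}, MulAut.conj g • Z : Subgroup G) : Set G) := by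
  classical
  set conjs : Subgroup G → Set (Subgroup G) :=
    fun U => {X | (∃ g : G, X = MulAut.conj g • Z) ∧ X ≤ U} with hconjs
  set T : G → Subgroup G := fun g => ⨆ y ∈ Y, MulAut.conj (y * g) • Z with hT
  have hTn : ∀ g, Y ≤ normalizer (T g : Set G) := fun g k hk =>
    Cfsg.Agent.H4.mem_normalizer_of_conj_smul_le (conj_T_le Z Y g k hk)
      (conj_T_le Z Y g k⁻¹ (Y.inv_mem hk))
  have hTw : ∀ g (U : Subgroup G), T g ≤ U → T g ≤ sSup (conjs U) := by
    intro g U hU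
    apply iSup₂_le
    intro y hy
    apply le_sSup
    refine ⟨⟨_, rfl⟩, le_trans ?_ hU⟩
    exact le_iSup₂ (f := fun (y : G) (_ : y ∈ Y) => MulAut.conj (y * g) • Z) y hy
  have hmono : ∀ U V : Subgroup G, U ≤ V → sSup (conjs U) ≤ sSup (conjs V) := by
    intro U V hUV
    apply sSup_le_sSup
    intro X hX
    exact ⟨hX.1, hX.2.trans hUV⟩
  have hwle : ∀ U : Subgroup G, sSup (conjs U) ≤ U := fun U => sSup_le fun X hX => hX.2
  set 𝔖 : Set (Subgroup G) :=
    {U | IsPGroup p U ∧ Y ≤ normalizer (U : Set G) ∧ U ≤ sSup (conjs U)} with h𝔖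
  have h0 : T 1 ∈ 𝔖 := ⟨h 1, hTn 1, hTw 1 _ le_rfl⟩
  obtain ⟨U, -, hU⟩ := (Set.toFinite 𝔖).exists_le_maximal h0
  obtain ⟨⟨hUp, hUY, hUw⟩, hUmax⟩ := hU
  obtain ⟨P, hP⟩ := hUp.exists_le_sylow
  refine ⟨P, ?_⟩
  have hgoal : (⨆ g ∈ {g : G | MulAut.conj g • Z ≤ (P : Subgroup G)}, MulAut.conj g • Z : Subgroup G)
      = sSup (conjs P) := by
    apply le_antisymm
    · apply iSup₂_le
      intro g hg
      exact le_sSup ⟨⟨g, rfl⟩, hg⟩
    · apply sSup_le
      rintro X ⟨⟨g, rfl⟩, hg⟩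
      exact le_iSup₂ (f := fun (g : G) (_ : g ∈ {g : G | MulAut.conj g • Z ≤ (P : Subgroup G)}) =>
        MulAut.conj g • Z) g hg
  rw [hgoal]
  have hUeq : sSup (conjs U) = U := le_antisymm (hwle U) hUw
  suffices hs : conjs (P : Subgroup G) = conjs U by rw [hs, hUeq]; exact hUY
  by_contra hne
  have hss : conjs U ⊂ conjs (P : Subgroup G) := by
    refine ⟨fun X hX => ⟨hX.1, hX.2.trans hP⟩, fun hsub => hne ?_⟩
    exact Set.Subset.antisymm hsub (fun X hX => ⟨hX.1, hX.2.trans hP⟩)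
  have : Group.IsNilpotent (P : Subgroup G) := P.2.isNilpotent
  obtain ⟨X, hXS, hX0, hXn⟩ := Cfsg.Agent.H4.wielandt_normalizer_rel (P : Subgroup G)
    (conjs (P : Subgroup G)) (conjs U) (fun X hX => hX.2)
    (fun X _ => Cfsg.Agent.Lib.Helper22.isSubnormal_of_isNilpotent _)
    (fun X hX v hv => by
      obtain ⟨⟨g, rfl⟩, hg⟩ := hX
      refine ⟨⟨v * g, by rw [map_mul, mul_smul]⟩, ?_⟩
      have h1 : MulAut.conj v • (P : Subgroup G) = P := conj_smul_eq_self_of_mem hv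
      rw [← h1]
      exact pointwise_smul_le_pointwise_smul_iff.mpr hg) hss
  rw [hUeq] at hXn
  obtain ⟨⟨g, rfl⟩, hg⟩ := hXS
  have hTN : T g ≤ normalizer (U : Set G) := by
    apply iSup₂_le
    intro y hy
    rw [map_mul, mul_smul]
    exact conj_smul_le_of_le hXn ⟨y, hUY hy⟩
  have hmem : U ⊔ T g ∈ 𝔖 := by
    refine ⟨IsPGroup.to_sup_of_normal_left' hUp (h g) hTN, ?_, ?_⟩
    · intro y hy
      have key : ∀ y ∈ Y, MulAut.conj y • (U ⊔ T g) ≤ U ⊔ T g := by
        intro y hy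
        rw [smul_sup]
        have h1 : MulAut.conj y • U = U := Cfsg.Agent.H4.conj_smul_eq_iff_mem_normalizer.mpr (hUY hy)
        have h2 : MulAut.conj y • T g = T g :=
          Cfsg.Agent.H4.conj_smul_eq_iff_mem_normalizer.mpr (hTn g hy)
        rw [h1, h2]
      exact Cfsg.Agent.H4.mem_normalizer_of_conj_smul_le (key y hy) (key y⁻¹ (Y.inv_mem hy))
    · apply sup_le
      · exact hUw.trans (hmono _ _ le_sup_left)
      · exact hTw g _ le_sup_right
  have hle : U ⊔ T g ≤ U := hUmax hmem le_sup_left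
  apply hX0
  refine ⟨⟨g, rfl⟩, le_trans ?_ (le_sup_right.trans hle)⟩
  have := le_iSup₂ (f := fun (y : G) (_ : y ∈ Y) => MulAut.conj (y * g) • Z) 1 Y.one_mem
  rw [one_mul] at this
  exact this

end Cfsg.Agent.S0541
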