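import Cfsg.Statements.S0546
import Mathlib
import Cfsg.Agent.H4.SysNorm2

set_option autoImplicit false
open Cfsg

namespace Cfsg.Agent.S0546

open scoped commutatorElement

/-- The normal closure of a system normalizer of a finite solvable group is the whole group. -/
theorem result {G : Type*} [Group G] [Finite G] [Group.IsSolvable G] (K : Nat.Primes → Subgroup G) (hK : Cfsg.IsComplementSystem K) : Subgroup.normalClosure ((Cfsg.systemNormalizer K : Subgroup G) : Set G) = ⊤ := by
  by_contra hne
  have hMn : (Subgroup.normalClosure ((Cfsg.systemNormalizer K : Subgroup G) : Set G)).Normal :=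
    Subgroup.normalClosure_normal
  generalize hM : Subgroup.normalClosure ((Cfsg.systemNormalizer K : Subgroup G) : Set G) = M
    at hne hMn
  have : Nontrivial (G ⧸ M) := QuotientGroup.nontrivial_iff.2 hne
  have hlt := Group.IsSolvable.commutator_lt_top_of_nontrivial (G ⧸ M)
  have hRn : ((commutator (G ⧸ M)).comap (QuotientGroup.mk' M)).Normal := inferInstance
  generalize hR : (commutator (G ⧸ M)).comap (QuotientGroup.mk' M) = R at hRn
  have hRtop : R ≠ ⊤ := by
    intro e
    apply hlt.ne
    rw [← Subgroup.map_comap_eq_self_of_surjective (QuotientGroup.mk'_surjective M)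
      (commutator (G ⧸ M)), hR, e, Subgroup.map_top_of_surjective _ (QuotientGroup.mk'_surjective M)]
  have hMR : M ≤ R := by
    rw [← hR]
    intro x hx
    rw [Subgroup.mem_comap]
    have : QuotientGroup.mk' M x = 1 := (QuotientGroup.eq_one_iff x).2 hx
    rw [this]
    exact one_mem _
  have hcomm : ∀ a b : G ⧸ R, a * b = b * a := by
    intro a b
    obtain ⟨x, rfl⟩ := QuotientGroup.mk'_surjective R a
    obtain ⟨y, rfl⟩ := QuotientGroup.mk'_surjective R b
    rw [← map_mul, ← map_mul]
    apply (QuotientGroup.eq).2
    rw [← hR, Subgroup.mem_comap]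
    have : (x * y)⁻¹ * (y * x) = ⁅y⁻¹, x⁻¹⁆ := by
      rw [commutatorElement_def]
      group
    rw [this, map_commutatorElement, _root_.commutator_def]
    exact Subgroup.commutator_mem_commutator (Subgroup.mem_top _) (Subgroup.mem_top _)
  have h1 := Cfsg.Agent.H4.systemNormalizer_map K hK R
  have h2 : (Cfsg.systemNormalizer K).map (QuotientGroup.mk' R) = ⊥ := by
    rw [Subgroup.map_eq_bot_iff, QuotientGroup.ker_mk']
    refine le_trans ?_ hMR
    rw [← hM]
    exact Subgroup.subset_normalClosure
  have h3 : Cfsg.systemNormalizer (fun p => (K p).map (QuotientGroup.mk' R)) = ⊤ := by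
    rw [eq_top_iff]
    intro y _
    rw [Cfsg.Agent.H4.mem_systemNormalizer]
    intro p
    rw [Subgroup.mem_normalizer_iff]
    intro h
    rw [hcomm y h, mul_assoc, mul_inv_cancel, mul_one]
  rw [h2, h3] at h1
  have : Nontrivial (G ⧸ R) := QuotientGroup.nontrivial_iff.2 hRtop
  exact top_ne_bot h1

end Cfsg.Agent.S0546
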