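import Cfsg.Statements.S0547
import Mathlib
import Cfsg.Agent.H4.PrimAct

set_option autoImplicit false
open Cfsg

namespace Cfsg.Agent.S0547

/-- Let a finite solvable group G act faithfully and primitively on a set, and let M be a minimal normal subgroup of G. Then M is transitive with trivial point stabilizers, and the number of points equals the order of M, which is a prime power p ^ d with d ≥ 1. -/
theorem result {G : Type*} [Group G] [Finite G] [Group.IsSolvable G] {Ω : Type*} [Nonempty Ω] [MulAction G Ω] [FaithfulSMul G Ω] (hprim : MulAction.IsPreprimitive G Ω) (M : Subgroup G) [M.Normal] (hM : M ≠ ⊥) (hmin : ∀ K : Subgroup G, K.Normal → K ≤ M → K = ⊥ ∨ K = M) : MulAction.IsPretransitive M Ω ∧ (∀ ω : Ω, MulAction.stabilizer M ω = ⊥) ∧ ∃ p d : ℕ, p.Prime ∧ 0 < d ∧ Nat.card Ω = p ^ d ∧ Nat.card M = p ^ d := by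
  have ht := Cfsg.Agent.H4.isPretransitive_of_minimal_normal hprim M hM
  obtain ⟨hc, p, hp, hMp⟩ := Cfsg.Agent.H4.minimal_normal_of_solvable M hM hmin
  have := Fact.mk hp
  have hst : ∀ ω : Ω, MulAction.stabilizer M ω = ⊥ :=
    fun ω => Cfsg.Agent.H4.stabilizer_eq_bot_of_comm M ω
  refine ⟨ht, hst, ?_⟩
  obtain ⟨ω⟩ : Nonempty Ω := inferInstance
  obtain ⟨d, hd⟩ := hMp.exists_card_eq
  refine ⟨p, d, hp, ?_, ?_, hd⟩
  · rcases Nat.eq_zero_or_pos d with h0 | h0
    · exfalso
      rw [h0, pow_zero, Subgroup.card_eq_one] at hd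
      exact hM hd
    · exact h0
  · rw [Cfsg.Agent.H4.card_eq_of_regular M ω (hst ω), hd]

end Cfsg.Agent.S0547
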