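import Cfsg.Statements.S0548
import Mathlib
import Cfsg.Agent.H4.PrimAct

set_option autoImplicit false
open Cfsg

namespace Cfsg.Agent.S0548

/-- Let a finite solvable group G act faithfully and primitively on a set, let M be a minimal normal subgroup and H the stabilizer of a point. Then H is a complement to M, no non-identity element of H centralizes M, and the only subgroups of M normalized by H are the trivial subgroup and M. -/
theorem result {G : Type*} [Group G] [Finite G] [Group.IsSolvable G] {Ω : Type*} [MulAction G Ω] [FaithfulSMul G Ω] (hprim : MulAction.IsPreprimitive G Ω) (M : Subgroup G) [M.Normal] (hM : M ≠ ⊥) (hmin : ∀ K : Subgroup G, K.Normal → K ≤ M → K = ⊥ ∨ K = M) (ω : Ω) : Subgroup.IsComplement' M (MulAction.stabilizer G ω) ∧ MulAction.stabilizer G ω ⊓ Subgroup.centralizer (M : Set G) = ⊥ ∧ ∀ K : Subgroup G, K ≤ M → MulAction.stabilizer G ω ≤ Subgroup.normalizer (K : Set G) → K = ⊥ ∨ K = M := by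
  have ht := Cfsg.Agent.H4.isPretransitive_of_minimal_normal hprim M hM
  obtain ⟨hc, p, hp, hMp⟩ := Cfsg.Agent.H4.minimal_normal_of_solvable M hM hmin
  have hst := Cfsg.Agent.H4.stabilizer_eq_bot_of_comm M ω
  have hcard := Cfsg.Agent.H4.card_eq_of_regular M ω hst
  have htG : MulAction.IsPretransitive G Ω := hprim.toIsPretransitive
  have hcompl : Subgroup.IsComplement' M (MulAction.stabilizer G ω) := by
    apply Subgroup.isComplement'_of_card_mul_and_disjoint
    · rw [← hcard, ← MulAction.index_stabilizer_of_transitive G ω, mul_comm]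
      exact Subgroup.card_mul_index _
    · rw [disjoint_iff, eq_bot_iff]
      intro m hm
      have h1 : (⟨m, hm.1⟩ : M) ∈ MulAction.stabilizer M ω := hm.2
      rw [hst, Subgroup.mem_bot] at h1
      rw [Subgroup.mem_bot]
      exact congrArg Subtype.val h1
  refine ⟨hcompl, ?_, ?_⟩
  · rw [eq_bot_iff]
    intro h hh
    rw [Subgroup.mem_bot]
    apply Cfsg.Agent.H4.eq_one_of_fix_of_commute M ω h hh.1
    intro m hm
    exact (Subgroup.mem_centralizer_iff.1 hh.2) m hm
  · intro K hKM hK
    apply hmin K _ hKM
    rw [← Subgroup.normalizer_eq_top_iff, eq_top_iff, ← hcompl.sup_eq_top]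
    refine sup_le ?_ hK
    intro m hm
    rw [Subgroup.mem_normalizer_iff]
    intro k
    constructor
    · intro hk
      have : m * k = k * m := congrArg Subtype.val (mul_comm' (⟨m, hm⟩ : M) ⟨k, hKM hk⟩)
      rw [this, mul_assoc, mul_inv_cancel, mul_one]
      exact hk
    · intro hk
      have h2 : m * k * m⁻¹ * m = m * (m * k * m⁻¹) :=
        congrArg Subtype.val (mul_comm' (⟨m * k * m⁻¹, hKM hk⟩ : M) ⟨m, hm⟩)
      have h3 : k = m * k * m⁻¹ := by
        have h4 : m * k = m * (m * k * m⁻¹) := by
          rw [← h2]; group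
        exact mul_left_cancel h4
      rw [h3]
      exact hk

end Cfsg.Agent.S0548
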