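import Cfsg.Statements.S0550
import Mathlib
import Cfsg.Agent.H4.Primitive

set_option autoImplicit false
open Cfsg

namespace Cfsg.Agent.S0550

/-- Let U be a maximal subgroup with trivial normal core in a finite group G, and A ≠ B two minimal normal subgroups. Then A is the centralizer of B and B that of A, U complements each of them, A and B are non-abelian, and A, B and (A ⊔ B) ∩ U are pairwise isomorphic. -/
theorem result {G : Type*} [Group G] [Finite G] (U : Subgroup G) (hU : IsCoatom U) (hcore : U.normalCore = ⊥) (A B : Subgroup G) [A.Normal] [B.Normal] (hA : A ≠ ⊥) (hB : B ≠ ⊥) (hAmin : ∀ K : Subgroup G, K.Normal → K ≤ A → K = ⊥ ∨ K = A) (hBmin : ∀ K : Subgroup G, K.Normal → K ≤ B → K = ⊥ ∨ K = B) (hAB : A ≠ B) : Subgroup.centralizer (B : Set G) = A ∧ Subgroup.centralizer (A : Set G) = B ∧ Subgroup.IsComplement' A U ∧ Subgroup.IsComplement' B U ∧ ¬ IsMulCommutative A ∧ Nonempty (A ≃* B) ∧ Nonempty (A ≃* ↥((A ⊔ B) ⊓ U)) := by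
  have hABinf : A ⊓ B = ⊥ := by
    rcases hAmin (A ⊓ B) inferInstance inf_le_left with h | h
    · exact h
    · exfalso
      have hAB' : A ≤ B := inf_eq_left.mp h
      rcases hBmin A inferInstance hAB' with h' | h'
      · exact hA h'
      · exact hAB h'
  have hcomm : ∀ a ∈ A, ∀ b ∈ B, a * b = b * a := fun a ha b hb =>
    Subgroup.commute_of_normal_of_disjoint A B inferInstance inferInstance (disjoint_iff.mpr hABinf) a b ha hb
  have hAC : A ≤ Subgroup.centralizer (B : Set G) := by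
    intro a ha
    rw [Subgroup.mem_centralizer_iff]
    intro b hb
    exact (hcomm a ha b hb).symm
  have hBC : B ≤ Subgroup.centralizer (A : Set G) := by
    intro b hb
    rw [Subgroup.mem_centralizer_iff]
    intro a ha
    exact hcomm a ha b hb
  have hCB : Subgroup.centralizer (B : Set G) = A :=
    ((Cfsg.Agent.H4.centralizer_minimal_of_coreFree hU hcore B hB A inferInstance hAC).resolve_left hA).symm
  have hCA : Subgroup.centralizer (A : Set G) = B :=
    ((Cfsg.Agent.H4.centralizer_minimal_of_coreFree hU hcore A hA B inferInstance hBC).resolve_left hB).symm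
  have hAU : A ⊓ U = ⊥ := by
    have := Cfsg.Agent.H4.centralizer_inf_eq_bot_of_coreFree hU hcore B hB
    rwa [hCB] at this
  have hBU : B ⊓ U = ⊥ := by
    have := Cfsg.Agent.H4.centralizer_inf_eq_bot_of_coreFree hU hcore A hA
    rwa [hCA] at this
  have hUA : U ⊔ A = ⊤ := Cfsg.Agent.H4.sup_eq_top_of_coreFree hU hcore A hA
  have hUB : U ⊔ B = ⊤ := Cfsg.Agent.H4.sup_eq_top_of_coreFree hU hcore B hB
  obtain ⟨e1⟩ := Cfsg.Agent.H4.iso_of_complement (T := A ⊔ B) hABinf hBU hUB rfl
  obtain ⟨e2⟩ := Cfsg.Agent.H4.iso_of_complement (T := A ⊔ B) (inf_comm A B ▸ hABinf) hAU hUA (sup_comm A B)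
  refine ⟨hCB, hCA, Cfsg.Agent.H4.isComplement'_of_normal_of_inf_of_sup hAU (sup_comm U A ▸ hUA),
    Cfsg.Agent.H4.isComplement'_of_normal_of_inf_of_sup hBU (sup_comm U B ▸ hUB), ?_, ⟨e1.trans e2.symm⟩, ⟨e1⟩⟩
  intro hc
  apply hA
  rw [eq_bot_iff, ← hABinf]
  refine le_inf le_rfl ?_
  rw [← hCA]
  intro a ha
  rw [Subgroup.mem_centralizer_iff]
  intro a' ha'
  exact Cfsg.Agent.H4.comm_of_mem ha' ha

end Cfsg.Agent.S0550
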