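import Cfsg.Statements.S0552
import Mathlib
import Cfsg.Agent.S0044

set_option autoImplicit false
open Cfsg

namespace Cfsg.Agent.S0552

/-- Let σ be an automorphism of a finite solvable group G fixing every element of the Fitting subgroup. If σ is not the identity then the order of σ and the order of G have a common prime factor. -/
theorem result {G : Type*} [Group G] [Finite G] [Group.IsSolvable G] (σ : G ≃* G) (hσ : ∀ x ∈ Cfsg.fittingSubgroup G, σ x = x) (hne : σ ≠ MulEquiv.refl G) : ¬ (orderOf σ).Coprime (Nat.card G) := by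
  intro hcop
  apply hne
  have hFn : (Cfsg.fittingSubgroup G).Normal := Subgroup.sSup_normal _ (fun _ h => h.1)
  have hCF := Cfsg.Agent.S0044.result (G := G)
  ext g
  set z := g⁻¹ * σ g with hz
  have hzF : z ∈ Cfsg.fittingSubgroup G := by
    apply hCF
    rw [Subgroup.mem_centralizer_iff]
    intro x hx
    have h1 : σ (g * x * g⁻¹) = g * x * g⁻¹ := hσ _ (hFn.conj_mem x hx g)
    rw [map_mul, map_mul, map_inv, hσ x hx] at h1
    calc x * z = g⁻¹ * (g * x * g⁻¹) * σ g := by rw [hz]; group
      _ = g⁻¹ * (σ g * x * (σ g)⁻¹) * σ g := by rw [h1]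
      _ = z * x := by rw [hz]; group
  have hσz : σ z = z := hσ z hzF
  have hσg : σ g = g * z := by rw [hz]; group
  have hpow : ∀ n : ℕ, (σ ^ n) g = g * z ^ n := by
    intro n
    induction n with
    | zero => simp
    | succ n ih =>
      rw [pow_succ', MulAut.mul_apply, ih, map_mul, map_pow, hσz, hσg, pow_succ', mul_assoc]
  have h1 : z ^ orderOf σ = 1 := by
    have := hpow (orderOf σ)
    rw [pow_orderOf_eq_one, MulAut.one_apply] at this
    exact (mul_eq_left.mp this.symm)
  have h2 : z ^ Nat.card G = 1 := pow_card_eq_one'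
  have h3 : orderOf z ∣ 1 := by
    have := Nat.dvd_gcd (orderOf_dvd_of_pow_eq_one h1) (orderOf_dvd_of_pow_eq_one h2)
    rwa [hcop] at this
  have h4 : z = 1 := orderOf_eq_one_iff.mp (Nat.dvd_one.mp h3)
  rw [hσg, h4, mul_one]
  rfl

end Cfsg.Agent.S0552
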