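import Cfsg.Statements.S0553
import Mathlib
import Cfsg.Agent.H4.SolvMin
import Cfsg.Agent.H4.MinNormal
import Cfsg.Agent.H4.Basic2

set_option autoImplicit false
open Cfsg

namespace Cfsg.Agent.S0553

open Subgroup Cfsg.Agent.H4 in
theorem aux.{u} (n : ℕ) : ∀ (G : Type u) [Group G] [Finite G] [Group.IsSolvable G] [Nontrivial G],
    Nat.card G = n →
    (∀ M : Subgroup G, IsCoatom M → (Nat.card M).Coprime M.index) →
    ∃ p : ℕ, p.Prime ∧ p ∣ Nat.card G ∧ ∀ P : Sylow p G, (P : Subgroup G).Normal := by
  induction n using Nat.strong_induction_on with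
  | _ n ih =>
  intro G _ _ _ _ hn h
  obtain ⟨N, hNn, hN0, -, hmin⟩ :=
    exists_minimal_normal_le (G := G) (D := ⊤) inferInstance top_ne_bot
  haveI := hNn
  obtain ⟨-, p, hp, hNp⟩ := minimal_normal_of_solvable N hN0 hmin
  haveI := Fact.mk hp
  by_cases hA : ∃ M : Subgroup G, IsCoatom M ∧ ¬ N ≤ M
  · obtain ⟨M, hM, hNM⟩ := hA
    have hsup : M ⊔ N = ⊤ :=
      hM.2 _ (lt_of_le_of_ne le_sup_left (fun e => hNM (e ▸ le_sup_right)))
    have h1 : M.index = M.relIndex N := by
      rw [← relIndex_sup_normal, hsup, Subgroup.relIndex_top_right]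
    have h2 : M.index ∣ Nat.card N := h1 ▸ Subgroup.relIndex_dvd_card M N
    obtain ⟨k, hk⟩ := hNp.exists_card_eq
    rw [hk] at h2
    obtain ⟨j, hj, hj'⟩ := (Nat.dvd_prime_pow hp).1 h2
    have hj0 : j ≠ 0 := by
      rintro rfl
      rw [pow_zero, Subgroup.index_eq_one] at hj'
      exact hM.1 hj'
    have hcop := h M hM
    rw [hj'] at hcop
    have hpM : ¬ p ∣ Nat.card M := by
      intro hd
      have := Nat.Coprime.coprime_dvd_left hd hcop
      rw [Nat.coprime_pow_right_iff (Nat.pos_of_ne_zero hj0)] at this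
      exact hp.one_lt.ne' ((Nat.coprime_self p).1 this)
    have h3 : N.index ∣ Nat.card M := by
      have : N.index = N.relIndex M := by
        rw [← relIndex_sup_left, sup_comm, hsup, Subgroup.relIndex_top_right]
      rw [this]
      exact Subgroup.relIndex_dvd_card N M
    have h4 : ¬ p ∣ N.index := fun hd => hpM (hd.trans h3)
    refine ⟨p, hp, ?_, ?_⟩
    · have : p ∣ M.index := by rw [hj']; exact dvd_pow_self p hj0
      exact this.trans (Subgroup.index_dvd_card M)
    · intro P
      haveI := Sylow.unique_of_normal (hNp.toSylow h4) hNn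
      have : P = hNp.toSylow h4 := Subsingleton.elim _ _
      rw [this]
      exact hNn
  · push Not at hA
    have hNtop : N ≠ ⊤ := by
      intro e
      obtain ⟨M, hM, -⟩ := (eq_top_or_exists_le_coatom (⊥ : Subgroup G)).resolve_left bot_ne_top
      exact hM.1 (top_le_iff.1 (e ▸ hA M hM))
    haveI : Nontrivial (G ⧸ N) := QuotientGroup.nontrivial_iff.2 hNtop
    obtain ⟨q, hq, hqd, hQ⟩ := ih (Nat.card (G ⧸ N)) (hn ▸ card_quotient_lt N hN0) (G ⧸ N) rfl (by
      intro M' hM'
      have := h _ (isCoatom_comap_mk' N hM')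
      rw [card_comap_mk', Subgroup.index_comap_of_surjective _ (QuotientGroup.mk'_surjective N)]
        at this
      exact Nat.Coprime.coprime_mul_left this)
    haveI := Fact.mk hq
    refine ⟨q, hq, hqd.trans (card_quotient_dvd_card N), fun P => ?_⟩
    have hPn : ((P.mapSurjective (QuotientGroup.mk'_surjective N)) : Subgroup (G ⧸ N)).Normal :=
      hQ _
    rw [Sylow.coe_mapSurjective] at hPn
    have hK : ((P : Subgroup G) ⊔ N).Normal := by
      have : (P : Subgroup G) ⊔ N =
          ((P : Subgroup G).map (QuotientGroup.mk' N)).comap (QuotientGroup.mk' N) := by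
        rw [comap_map_eq, QuotientGroup.ker_mk']
      rw [this]
      exact hPn.comap _
    have hfr := Sylow.normalizer_sup_eq_top (P.subtype (le_sup_left (b := N)))
    rw [Sylow.coe_subtype, Subgroup.subgroupOf_map_subtype,
      inf_eq_left.2 (le_sup_left (b := N))] at hfr
    rw [← normalizer_eq_top_iff]
    by_contra hne
    obtain ⟨M, hM, hle⟩ := (eq_top_or_exists_le_coatom (normalizer (P : Set G))).resolve_left hne
    apply hM.1
    rw [eq_top_iff, ← hfr]
    exact sup_le hle (sup_le (le_normalizer.trans hle) (hA M hM))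

/-- Let G be a nontrivial finite solvable group in which every maximal subgroup has order coprime to its index. Then for some prime p dividing the order of G the Sylow p-subgroups of G are normal. -/
theorem result {G : Type*} [Group G] [Finite G] [Group.IsSolvable G] [Nontrivial G] (h : ∀ M : Subgroup G, IsCoatom M → (Nat.card M).Coprime M.index) : ∃ p : ℕ, p.Prime ∧ p ∣ Nat.card G ∧ ∀ P : Sylow p G, (P : Subgroup G).Normal := by
  exact aux _ G rfl h

end Cfsg.Agent.S0553
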