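import Cfsg.Statements.S0554
import Mathlib
import Cfsg.Agent.H4.SolvMin
import Cfsg.Agent.H4.MinNormal
import Cfsg.Agent.H4.Basic2

set_option autoImplicit false
open Cfsg

namespace Cfsg.Agent.S0554

theorem move {G : Type*} [Group G] (N : Subgroup G) [hN : N.Normal] : ∀ (t : ℕ) (s : Fin t → G)
    (j : Fin t) (n : G), n ∈ N →
    ∃ n' ∈ N, (List.ofFn s).prod * n = (List.ofFn (Function.update s j (s j * n'))).prod := by
  intro t
  induction t with
  | zero => intro s j; exact j.elim0
  | succ t ih =>
    intro s j n hn
    induction j using Fin.cases with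
    | zero =>
      refine ⟨(List.ofFn (fun i : Fin t => s i.succ)).prod * n *
        (List.ofFn (fun i : Fin t => s i.succ)).prod⁻¹, hN.conj_mem _ hn _, ?_⟩
      rw [List.ofFn_succ, List.ofFn_succ, List.prod_cons, List.prod_cons]
      have h1 : ∀ x : G, (fun i : Fin t => Function.update s 0 x i.succ) = fun i => s i.succ := by
        intro x
        funext i
        rw [Function.update_of_ne (Fin.succ_ne_zero i)]
      rw [h1, Function.update_self]
      group
    | succ j =>
      obtain ⟨n', hn', h⟩ := ih (fun i => s i.succ) j n hn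
      refine ⟨n', hn', ?_⟩
      rw [List.ofFn_succ, List.ofFn_succ, List.prod_cons, List.prod_cons, mul_assoc, h]
      have h1 : ∀ x : G, (fun i : Fin t => Function.update s j.succ x i.succ) =
          Function.update (fun i => s i.succ) j x := by
        intro x
        funext i
        by_cases hij : i = j
        · subst hij
          rw [Function.update_self, Function.update_self]
        · rw [Function.update_of_ne hij, Function.update_of_ne (fun e => hij (Fin.succ_injective _ e))]
      rw [h1, Function.update_of_ne (Fin.succ_ne_zero j).symm]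

open Subgroup Cfsg.Agent.H4 in
theorem aux.{u} (n : ℕ) : ∀ (G : Type u) [Group G] [Finite G] [Group.IsSolvable G],
    Nat.card G = n → ∀ (t : ℕ) (p : Fin t → ℕ) (_ : ∀ i, (p i).Prime)
    (_ : ∀ q : ℕ, q.Prime → q ∣ Nat.card G → ∃ i, p i = q) (S : (i : Fin t) → Sylow (p i) G),
    ∀ g : G, ∃ s : Fin t → G, (∀ i, s i ∈ (S i : Subgroup G)) ∧ g = (List.ofFn s).prod := by
  induction n using Nat.strong_induction_on with
  | _ n ih =>
  intro G _ _ _ hn t p hp hall S g
  rcases subsingleton_or_nontrivial G with hs | hnt
  · exact ⟨fun _ => 1, fun i => one_mem _, Subsingleton.elim _ _⟩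
  obtain ⟨N, hNn, hN0, -, hmin⟩ :=
    exists_minimal_normal_le (G := G) (D := ⊤) inferInstance top_ne_bot
  have := hNn
  obtain ⟨-, q, hq, hNq⟩ := minimal_normal_of_solvable N hN0 hmin
  have := Fact.mk hq
  have hqd : q ∣ Nat.card G := by
    obtain ⟨k, hk⟩ := hNq.exists_card_eq
    have hk0 : k ≠ 0 := by
      rintro rfl
      rw [pow_zero, Subgroup.card_eq_one] at hk
      exact hN0 hk
    exact ((dvd_pow_self q hk0).trans hk.symm.dvd).trans (Subgroup.card_subgroup_dvd_card N)
  obtain ⟨j, hj⟩ := hall q hq hqd
  have hfact : ∀ i, Fact (p i).Prime := fun i => ⟨hp i⟩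
  have hNS : N ≤ S j := by
    subst hj
    exact hNq.le_sylow_of_normal (S j)
  obtain ⟨s', hs', hg⟩ := ih (Nat.card (G ⧸ N)) (hn ▸ card_quotient_lt N hN0) (G ⧸ N) rfl t p hp
    (fun r hr hrd => hall r hr (hrd.trans (card_quotient_dvd_card N)))
    (fun i => (S i).mapSurjective (QuotientGroup.mk'_surjective N)) (QuotientGroup.mk' N g)
  have hs'' : ∀ i, ∃ x ∈ (S i : Subgroup G), QuotientGroup.mk' N x = s' i := by
    intro i
    have := hs' i
    rw [Sylow.coe_mapSurjective, Subgroup.mem_map] at this
    exact this
  choose s hsS hss using hs''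
  have h1 : QuotientGroup.mk' N g = QuotientGroup.mk' N (List.ofFn s).prod := by
    rw [hg, map_list_prod, List.map_ofFn]
    congr 2
    funext i
    exact (hss i).symm
  have h2 : (List.ofFn s).prod⁻¹ * g ∈ N := by
    rw [← QuotientGroup.eq]
    exact h1.symm
  obtain ⟨n', hn', h3⟩ := move N t s j _ h2
  refine ⟨Function.update s j (s j * n'), fun i => ?_, ?_⟩
  · by_cases hij : i = j
    · subst hij
      rw [Function.update_self]
      exact mul_mem (hsS i) (hNS hn')
    · rw [Function.update_of_ne hij]
      exact hsS i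
  · rw [← h3]
    group

/-- Let G be a finite solvable group and let S assign to each of t distinct primes, including every prime divisor of the order of G, a Sylow subgroup of G. Then every element of G is a product s_0 s_1 ⋯ s_(t-1) with s_i in S i, the factors taken in the given order. -/
theorem result {G : Type*} [Group G] [Finite G] [Group.IsSolvable G] (t : ℕ) (p : Fin t → ℕ) (hp : ∀ i, (p i).Prime) (hinj : Function.Injective p) (hall : ∀ q : ℕ, q.Prime → q ∣ Nat.card G → ∃ i, p i = q) (S : (i : Fin t) → Sylow (p i) G) : ∀ g : G, ∃ s : (i : Fin t) → G, (∀ i, s i ∈ (S i : Subgroup G)) ∧ g = (List.ofFn s).prod := by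
  exact aux _ G rfl t p hp hall S

end Cfsg.Agent.S0554
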