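import Cfsg.Statements.S0555
import Mathlib

set_option autoImplicit false
open Cfsg

namespace Cfsg.Agent.S0555

open Subgroup
open scoped commutatorElement

theorem commutator_le_centralizer_of_isCyclic {Q : Type*} [Group Q] (A : Subgroup Q) [A.Normal]
    (hA : IsCyclic A) : commutator Q ≤ Subgroup.centralizer (A : Set Q) := by
  let _ := (hA.mulAutMulEquiv _).toMonoidHom.commGroupOfInjective (hA.mulAutMulEquiv _).injective
  have h := Abelianization.commutator_subset_ker A.normalizerMonoidHom
  rw [Subgroup.normalizerMonoidHom_ker, Subgroup.normalizer_eq_top,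
    ← Subgroup.map_subtype_le_map_subtype, Subgroup.map_subtype_commutator,
    Subgroup.map_subgroupOf_eq_of_le le_top] at h
  rw [commutator_def]
  exact h

theorem exists_gen {G : Type*} [Group G] (A B : Subgroup G) [(B.subgroupOf A).Normal]
    (h : IsCyclic (↥A ⧸ B.subgroupOf A)) :
    ∃ c ∈ A, ∀ x ∈ A, ∃ n : ℤ, (c ^ n)⁻¹ * x ∈ B := by
  obtain ⟨g, hg⟩ := h.exists_generator
  obtain ⟨c, rfl⟩ := QuotientGroup.mk_surjective g
  refine ⟨c, c.2, fun x hx => ?_⟩
  obtain ⟨n, hn⟩ := Subgroup.mem_zpowers_iff.mp (hg (QuotientGroup.mk ⟨x, hx⟩))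
  refine ⟨n, ?_⟩
  rw [← QuotientGroup.mk_zpow, QuotientGroup.eq] at hn
  exact hn

/-- Let i ≥ 1. If in the derived series of a group the quotient of the i-th term by the (i+1)-st and the quotient of the (i+1)-st by the (i+2)-nd are both cyclic, then the (i+1)-st and (i+2)-nd terms coincide. -/
theorem result {G : Type*} [Group G] (i : ℕ) (hi : 1 ≤ i) (h₁ : IsCyclic (↥(derivedSeries G i) ⧸ (derivedSeries G (i + 1)).subgroupOf (derivedSeries G i))) (h₂ : IsCyclic (↥(derivedSeries G (i + 1)) ⧸ (derivedSeries G (i + 2)).subgroupOf (derivedSeries G (i + 1)))) : derivedSeries G (i + 1) = derivedSeries G (i + 2) := by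
  set A := derivedSeries G (i + 1) with hA
  set B := derivedSeries G (i + 2) with hB
  set D := derivedSeries G i with hD
  have hBA : B ≤ A := derivedSeries_antitone G (by omega)
  apply le_antisymm _ hBA
  have hBn : B.Normal := derivedSeries_normal G _
  have hAn : A.Normal := derivedSeries_normal G _
  set π := QuotientGroup.mk' B with hπ
  have hcyc : IsCyclic (A.map π) := by
    have hk : B.subgroupOf A ≤ (π.subgroupMap A).ker := by
      intro x hx
      rw [MonoidHom.mem_ker]
      apply Subtype.ext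
      exact (QuotientGroup.eq_one_iff _).mpr hx
    exact isCyclic_of_surjective (QuotientGroup.lift (B.subgroupOf A) (π.subgroupMap A) hk)
      (QuotientGroup.lift_surjective_of_surjective _ _ (π.subgroupMap_surjective A) hk)
  have hmn : (A.map π).Normal := hAn.map π (QuotientGroup.mk'_surjective B)
  have hcen := commutator_le_centralizer_of_isCyclic (A.map π) hcyc
  have hD1 : D ≤ commutator G := by
    rw [← derivedSeries_one]
    exact derivedSeries_antitone G hi
  have hAD : A ≤ D := derivedSeries_antitone G (by omega)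
  have hc : ∀ x ∈ D, ∀ a ∈ A, π a * π x = π x * π a := by
    intro x hx a ha
    have h1 : π x ∈ commutator (G ⧸ B) := by
      have := Subgroup.map_mono (f := π) hD1 (mem_map_of_mem π hx)
      rw [map_commutator_eq] at this
      rw [_root_.commutator_def]
      exact Subgroup.commutator_mono le_top le_top this
    exact Subgroup.mem_centralizer_iff.mp (hcen h1) _ (mem_map_of_mem π ha)
  obtain ⟨c, hcD, hgen⟩ := exists_gen D A h₁
  have hAeq : A = ⁅D, D⁆ := rfl
  rw [hAeq, Subgroup.commutator_le]
  intro x hx y hy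
  rw [← QuotientGroup.ker_mk' B, MonoidHom.mem_ker, map_commutatorElement, commutatorElement_eq_one_iff_mul_comm]
  obtain ⟨n, hn⟩ := hgen x hx
  obtain ⟨m, hm⟩ := hgen y hy
  set a := (c ^ n)⁻¹ * x with ha
  set b := (c ^ m)⁻¹ * y with hb
  have hx' : x = c ^ n * a := by rw [ha]; group
  have hy' : y = c ^ m * b := by rw [hb]; group
  have h1 := hc (c ^ m) (D.zpow_mem hcD m) a hn
  have h2 := hc (c ^ n) (D.zpow_mem hcD n) b hm
  have h3 := hc a (hAD hn) b hm
  have h4 : π (c ^ n) * π (c ^ m) = π (c ^ m) * π (c ^ n) := by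
    rw [← map_mul, ← map_mul, ← zpow_add, ← zpow_add, add_comm]
  rw [hx', hy', map_mul, map_mul]
  calc π (c ^ n) * π a * (π (c ^ m) * π b) = π (c ^ n) * (π a * π (c ^ m)) * π b := by group
    _ = π (c ^ n) * (π (c ^ m) * π a) * π b := by rw [h1]
    _ = (π (c ^ n) * π (c ^ m)) * (π a * π b) := by group
    _ = (π (c ^ m) * π (c ^ n)) * (π b * π a) := by rw [h4, h3]
    _ = π (c ^ m) * (π (c ^ n) * π b) * π a := by group
    _ = π (c ^ m) * (π b * π (c ^ n)) * π a := by rw [h2]
    _ = π (c ^ m) * π b * (π (c ^ n) * π a) := by group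

end Cfsg.Agent.S0555
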