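import Cfsg.Statements.S0557
import Mathlib
import Cfsg.Agent.H4.Factor

set_option autoImplicit false
open Cfsg

namespace Cfsg.Agent.S0557

open Subgroup Cfsg.Agent.H4
open scoped Pointwise commutatorElement

theorem focal_mono {G : Type*} [Group G] {K K' : Subgroup G} (h : K ≤ K') :
    focalSubgroup K ≤ focalSubgroup K' := by
  rw [focalSubgroup_def, focalSubgroup_def]
  apply Subgroup.closure_mono
  rintro g ⟨hg, x, hx, u, e⟩
  exact ⟨h hg, x, h hx, u, e⟩

theorem map_focal_le {G : Type*} [Group G] (L : Subgroup G) (K : Subgroup L) :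
    (focalSubgroup K).map L.subtype ≤ focalSubgroup (K.map L.subtype) := by
  rw [focalSubgroup_def, focalSubgroup_def, MonoidHom.map_closure]
  apply Subgroup.closure_mono
  rintro _ ⟨g, ⟨hg, x, hx, u, e⟩, rfl⟩
  exact ⟨mem_map_of_mem _ hg, x, mem_map_of_mem _ hx, u, by rw [e]; rfl⟩

theorem map_iterate_focal_le {G : Type*} [Group G] (L : Subgroup G) (n : ℕ) :
    ∀ K : Subgroup L, (((fun K : Subgroup L => focalSubgroup K)^[n]) K).map L.subtype ≤
      ((fun K : Subgroup G => focalSubgroup K)^[n]) (K.map L.subtype) := by
  induction n with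
  | zero => intro K; exact le_rfl
  | succ n ih =>
    intro K
    rw [Function.iterate_succ_apply, Function.iterate_succ_apply]
    refine (ih _).trans ?_
    have hmono : Monotone ((fun K : Subgroup G => focalSubgroup K)^[n]) :=
      Monotone.iterate (fun _ _ h => focal_mono h) n
    exact hmono (map_focal_le L K)

theorem le_normal_of_coprime_card {G : Type*} [Group G] {X N : Subgroup G} [N.Normal]
    (h : (Nat.card X).Coprime N.index) : X ≤ N := by
  rw [← relIndex_eq_one]
  exact Nat.eq_one_of_dvd_coprimes h (relIndex_dvd_card N X) (relIndex_dvd_index_of_normal N X)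

theorem aux.{u} (n : ℕ) : ∀ (G : Type u) [Group G] [Finite G] (H : Subgroup G),
    (Nat.card H).Coprime H.index →
    (fun K : Subgroup G => Subgroup.focalSubgroup K)^[n] H = ⊥ →
    ∃ N : Subgroup G, N.Normal ∧ Subgroup.IsComplement' N H := by
  induction n with
  | zero =>
    intro G _ _ H _ h
    have : H = ⊥ := h
    subst this
    exact ⟨⊤, inferInstance, isComplement'_top_bot⟩
  | succ n ih =>
    intro G _ _ H hHall hfoc
    rw [Function.iterate_succ_apply] at hfoc
    have hcq : (Nat.card (H ⧸ H.focalSubgroupOf)).Coprime H.index :=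
      Nat.Coprime.coprime_dvd_left (card_quotient_dvd_card _) hHall
    have hfac : ∀ g : G, ∃ x ∈ H.transferFocal.ker, ∃ y ∈ H, g = x * y := by
      intro g
      obtain ⟨d, hd⟩ := (powCoprime hcq).surjective (H.transferFocal g)
      obtain ⟨h, rfl⟩ := QuotientGroup.mk'_surjective _ d
      rw [powCoprime_apply] at hd
      have h1 : H.transferFocal (h : G) = H.transferFocal g := by
        rw [transferFocal_eq_pow]; exact hd
      refine ⟨g * (h : G)⁻¹, ?_, h, h.2, by group⟩
      rw [MonoidHom.mem_ker, map_mul, map_inv, h1, mul_inv_cancel]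
    have hinf : H.transferFocal.ker ⊓ H = H.focalSubgroup := by
      ext x
      constructor
      · rintro ⟨h1, h2⟩
        have h3 : H.transferFocal ((⟨x, h2⟩ : H) : G) = 1 := h1
        rw [transferFocal_eq_pow] at h3
        have h4 : (powCoprime hcq) ((⟨x, h2⟩ : H) : H ⧸ H.focalSubgroupOf) = (powCoprime hcq) 1 := by
          rw [powCoprime_apply, powCoprime_apply, h3, one_pow]
        have h5 := (powCoprime hcq).injective h4
        have h6 : (⟨x, h2⟩ : H) ∈ H.focalSubgroupOf := (QuotientGroup.eq_one_iff _).1 h5
        exact h6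
      · intro hx
        have h2 : x ∈ H := focalSubgroup_le H hx
        refine ⟨?_, h2⟩
        have h6 : (⟨x, h2⟩ : H) ∈ H.focalSubgroupOf := hx
        have h3 : H.transferFocal ((⟨x, h2⟩ : H) : G) = 1 := by
          rw [transferFocal_eq_pow, (QuotientGroup.eq_one_iff _).2 h6, one_pow]
        exact h3
    have hG₁n : H.transferFocal.ker.Normal := inferInstance
    generalize H.transferFocal.ker = G₁ at hfac hinf hG₁n
    have hH₁G₁ : H.focalSubgroup ≤ G₁ := hinf ▸ inf_le_left
    have hidx : H.relIndex G₁ = H.index := relIndex_eq_index_of_mul G₁ H hfac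
    have hidx' : (H.focalSubgroup.subgroupOf G₁).index = H.index := by
      rw [← hidx, ← hinf, inf_subgroupOf_left]
      rfl
    have hcard' : Nat.card (H.focalSubgroup.subgroupOf G₁) ∣ Nat.card H := by
      rw [card_subgroupOf_of_le hH₁G₁]
      exact card_dvd_of_le (focalSubgroup_le H)
    obtain ⟨N', hN'n, hN'c⟩ := ih G₁ (H.focalSubgroup.subgroupOf G₁)
      (by rw [hidx']; exact Nat.Coprime.coprime_dvd_left hcard' hHall)
      (by
        have h1 := map_iterate_focal_le G₁ n (H.focalSubgroup.subgroupOf G₁)
        rw [subgroupOf_map_subtype, inf_eq_left.2 hH₁G₁, hfoc, le_bot_iff,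
          Subgroup.map_eq_bot_iff, ker_subtype, le_bot_iff] at h1
        exact h1)
    have hN'card : Nat.card N' = H.index := by rw [← hN'c.index_eq_card, hidx']
    have hN'idx : N'.index ∣ Nat.card H := by
      rw [hN'c.symm.index_eq_card]; exact hcard'
    have hNcard : Nat.card (N'.map G₁.subtype) = H.index := by
      rw [card_map_of_injective G₁.subtype_injective, hN'card]
    refine ⟨N'.map G₁.subtype, ?_, ?_⟩
    · have hconj : ∀ g : G, MulAut.conj g • N'.map G₁.subtype ≤ N'.map G₁.subtype := by
        intro g
        have hle : MulAut.conj g • N'.map G₁.subtype ≤ G₁ := by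
          have h0 : MulAut.conj g • N'.map G₁.subtype ≤ MulAut.conj g • G₁ :=
            pointwise_smul_le_pointwise_smul_iff.2 (map_subtype_le _)
          rwa [Subgroup.Normal.conj_smul_eq_self g G₁] at h0
        have h2 : (MulAut.conj g • N'.map G₁.subtype).subgroupOf G₁ ≤ N' := by
          apply le_normal_of_coprime_card
          rw [card_subgroupOf_of_le hle, card_conj_smul', hNcard]
          exact (Nat.Coprime.coprime_dvd_left hN'idx hHall).symm
        intro x hx
        exact ⟨⟨x, hle hx⟩, h2 hx, rfl⟩
      constructor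
      intro x hx g
      exact hconj g (smul_mem_pointwise_smul x (MulAut.conj g) _ hx)
    · apply isComplement'_of_card_mul_and_disjoint
      · rw [hNcard, mul_comm]; exact H.card_mul_index
      · apply disjoint_of_coprime_natCard
        rw [hNcard]; exact hHall.symm

/-- Let H be a subgroup of a finite group G with order coprime to its index. If iterating the focal-subgroup construction starting from H reaches the trivial subgroup after finitely many steps, then H has a normal complement in G. -/
theorem result {G : Type*} [Group G] [Finite G] (H : Subgroup G) (hHall : (Nat.card H).Coprime H.index) (n : ℕ) (hfoc : (fun K : Subgroup G => Subgroup.focalSubgroup K)^[n] H = ⊥) : ∃ N : Subgroup G, N.Normal ∧ Subgroup.IsComplement' N H := by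
  exact aux n G H hHall hfoc

end Cfsg.Agent.S0557
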