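import Cfsg.Statements.S0558
import Mathlib
import Cfsg.Agent.H4.Schmidt3
import Cfsg.Agent.Tr.HallNil
import Cfsg.Agent.H1.Brodkey

set_option autoImplicit false
open Cfsg

namespace Cfsg.Agent.S0558

open Subgroup Cfsg.Agent.H4 Cfsg.Agent.Tr
open scoped Pointwise

/-- Let H be a subgroup of a finite group G that is not a Sylow subgroup of G for any prime, and suppose that for every prime p dividing the order of H and every Sylow p-subgroup P of H the normalizer of P in G is exactly H. Then some normal subgroup of G is a complement to H. -/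
theorem result {G : Type*} [Group G] [Finite G] (H : Subgroup G) (hnot : ∀ p : ℕ, p.Prime → ∀ P : Sylow p G, (P : Subgroup G) ≠ H) (hnorm : ∀ p : ℕ, p.Prime → p ∣ Nat.card H → ∀ P : Sylow p H, Subgroup.normalizer (((P : Subgroup H).map H.subtype : Subgroup G) : Set G) = H) : ∃ N : Subgroup G, N.Normal ∧ Subgroup.IsComplement' N H := by
  classical
  -- Sylow subgroups of `H` are normal in `H`
  have hSn : ∀ (p : ℕ) (_ : Fact p.Prime) (P : Sylow p H), (P : Subgroup H).Normal := by
    intro p hp P
    by_cases hpd : p ∣ Nat.card H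
    · have h1 := hnorm p hp.out hpd P
      have h2 : (((P : Subgroup H).map H.subtype).subgroupOf H).Normal := by
        rw [normal_subgroupOf_iff_le_normalizer (map_subtype_le _), h1]
      rwa [show ((P : Subgroup H).map H.subtype).subgroupOf H = P from
        comap_map_eq_self_of_injective H.subtype_injective _] at h2
    · have h1 := P.card_eq_multiplicity
      rw [Nat.factorization_eq_zero_of_not_dvd hpd, pow_zero, card_eq_one] at h1
      rw [h1]; infer_instance
  have hH : Group.IsNilpotent H := isNilpotent_of_sylow_normal hSn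
  -- `H` is a Hall subgroup
  have hHall : (Nat.card H).Coprime H.index := by
    apply Nat.coprime_of_dvd
    intro p hp hpd hpi
    have := Fact.mk hp
    obtain ⟨P⟩ : Nonempty (Sylow p H) := inferInstance
    have hc : Nat.card ((P : Subgroup H).map H.subtype) = p ^ (Nat.card H).factorization p := by
      rw [card_map_of_injective H.subtype_injective, P.card_eq_multiplicity]
    have hdvd : p ^ ((Nat.card H).factorization p + 1) ∣ Nat.card G := by
      rw [← H.card_mul_index, pow_succ]
      exact mul_dvd_mul (Nat.ordProj_dvd _ _) hpi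
    have h1 := Sylow.prime_dvd_card_quotient_normalizer hdvd hc
    have h2 := hnorm p hp hpd P
    have h3 : Nat.card (normalizer (((P : Subgroup H).map H.subtype : Subgroup G) : Set G) ⧸
        ((P : Subgroup H).map H.subtype).comap
          (normalizer (((P : Subgroup H).map H.subtype : Subgroup G) : Set G)).subtype) =
        ((P : Subgroup H).map H.subtype).relIndex
          (normalizer (((P : Subgroup H).map H.subtype : Subgroup G) : Set G)) := rfl
    rw [h3, h2] at h1
    have h4 : ((P : Subgroup H).map H.subtype).relIndex H = (P : Subgroup H).index := by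
      unfold relIndex
      rw [show ((P : Subgroup H).map H.subtype).subgroupOf H = P from
        comap_map_eq_self_of_injective H.subtype_injective _]
    rw [h4] at h1
    exact P.not_dvd_index h1
  -- normal p-complements
  have hcompl : ∀ p : ℕ, p.Prime → p ∣ Nat.card H → Cfsg.HasNormalPComplement p G := by
    intro p hp hpd
    have := Fact.mk hp
    obtain ⟨P₀⟩ : Nonempty (Sylow p H) := inferInstance
    obtain ⟨P, hP⟩ := exists_sylow_le_hall H hHall hpd P₀
    -- another prime
    have hex : ∃ r : ℕ, r.Prime ∧ r ∣ Nat.card H ∧ r ≠ p := by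
      by_contra hcon
      push Not at hcon
      apply hnot p hp P
      rw [hP]
      have hHp : IsPGroup p H := by
        apply IsPGroup.of_card (n := (Nat.card H).primeFactorsList.length)
        exact Nat.eq_prime_pow_of_unique_prime_dvd Nat.card_pos.ne' (fun {d} hd hdd => hcon d hd hdd)
      have : (P₀ : Subgroup H) = ⊤ := (P₀.is_maximal' (Q := ⊤)
        (hHp.of_equiv topEquiv.symm) le_top).symm
      rw [this, ← MonoidHom.range_eq_map, range_subtype]
    obtain ⟨r, hr, hrd, hrp⟩ := hex
    have := Fact.mk hr
    obtain ⟨R₀⟩ : Nonempty (Sylow r H) := inferInstance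
    obtain ⟨R, hR⟩ := exists_sylow_le_hall H hHall hrd R₀
    have hRN : normalizer ((R : Subgroup G) : Set G) = H := by
      rw [hR]; exact hnorm r hr hrd R₀
    have hPH : (P : Subgroup G) ≤ H := by rw [hP]; exact map_subtype_le _
    have hRH : (R : Subgroup G) ≤ H := by rw [hR]; exact map_subtype_le _
    have hRP : (R : Subgroup G) ≤ centralizer ((P : Subgroup G) : Set G) :=
      le_centralizer_of_nilpotent hH hPH hRH (Ne.symm hrp) P.2 R.2
    rw [hasNormalPComplement_iff_controls_elements P]
    intro x hx u hu
    -- find h ∈ H with the same conjugation effect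
    have h1 : (R : Subgroup G) ≤ centralizer ((zpowers (u * x * u⁻¹) : Subgroup G) : Set G) :=
      hRP.trans (centralizer_le (by
        intro w hw
        exact (zpowers_le.2 hu) hw))
    have h2 : MulAut.conj u • (R : Subgroup G) ≤
        centralizer ((zpowers (u * x * u⁻¹) : Subgroup G) : Set G) := by
      rw [le_centralizer_iff, zpowers_le, mem_centralizer_iff]
      intro w hw
      rw [SetLike.mem_coe, mem_pointwise_smul_iff_inv_smul_mem, ← map_inv, MulAut.smul_def,
        MulAut.conj_apply, inv_inv] at hw
      have h3 := (mem_centralizer_iff.1 (hRP hw)) x hx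
      have e1 : w = u * (u⁻¹ * w * u) * u⁻¹ := by group
      rw [e1]
      calc u * (u⁻¹ * w * u) * u⁻¹ * (u * x * u⁻¹) = u * ((u⁻¹ * w * u) * x) * u⁻¹ := by group
        _ = u * (x * (u⁻¹ * w * u)) * u⁻¹ := by rw [h3]
        _ = u * x * u⁻¹ * (u * (u⁻¹ * w * u) * u⁻¹) := by group
    obtain ⟨c, hc, hcR⟩ := Cfsg.H1.exists_conj_le_sylow_of_le R h1 h2
      (R.2.of_equiv (Subgroup.equivSMul (MulAut.conj u) (R : Subgroup G)))
    rw [← mul_smul, ← map_mul] at hcR
    have hcu : c * u ∈ H := by
      rw [← hRN, ← conj_smul_eq_iff_mem_normalizer]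
      exact eq_of_le_of_card_ge hcR (card_conj_smul' _ _).symm.le
    have hcx : (c * u) * x * (c * u)⁻¹ = u * x * u⁻¹ := by
      have h3 := (mem_centralizer_iff.1 hc) (u * x * u⁻¹) (mem_zpowers _)
      calc (c * u) * x * (c * u)⁻¹ = c * (u * x * u⁻¹) * c⁻¹ := by group
        _ = (u * x * u⁻¹) * c * c⁻¹ := by rw [h3]
        _ = u * x * u⁻¹ := by group
    -- now control inside the nilpotent group `H`
    have hx' : x ∈ (P₀ : Subgroup H).map H.subtype := hP ▸ hx
    have hu' : u * x * u⁻¹ ∈ (P₀ : Subgroup H).map H.subtype := hP ▸ hu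
    obtain ⟨x₀, hx₀, rfl⟩ := hx'
    obtain ⟨y₀, hy₀, e⟩ := hu'
    have e3 : (⟨c * u, hcu⟩ : H) * x₀ * (⟨c * u, hcu⟩ : H)⁻¹ = y₀ :=
      Subtype.ext (hcx.trans e.symm)
    obtain ⟨z, hz, e4⟩ := (frob_of_isNilpotent (p := p) hH).controls_elements P₀ hx₀
      (u := ⟨c * u, hcu⟩) (by rw [e3]; exact hy₀)
    refine ⟨z, ?_, ?_⟩
    · have : (z : G) ∈ (P₀ : Subgroup H).map H.subtype := ⟨z, hz, rfl⟩
      show (z : G) ∈ (P : Subgroup G)
      rw [hP]; exact this
    · rw [e3] at e4
      have := congrArg Subtype.val e4
      rw [← e]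
      exact this
  refine ⟨piResidual (Nat.card H) G, inferInstance, ?_⟩
  apply isComplement'_piResidual H hHall
  intro p hp hpd
  have := Fact.mk hp
  obtain ⟨P⟩ : Nonempty (Sylow p G) := inferInstance
  exact coprime_card_of_isComplement' (pResidual_isComplement' (hcompl p hp hpd) P)

end Cfsg.Agent.S0558
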