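import Cfsg.Statements.S0560
import Mathlib
import Cfsg.Agent.H4.Factor

set_option autoImplicit false
open Pointwise
open Cfsg

namespace Cfsg.Agent.S0560

/-- Let the finite group G be the product HK of two subgroups and p a prime. Then there are Sylow p-subgroups P of H and Q of K and a Sylow p-subgroup R of G whose underlying set is the product set of P and Q. -/
theorem result {G : Type*} [Group G] [Finite G] (H K : Subgroup G) (hHK : ∀ g : G, ∃ h ∈ H, ∃ k ∈ K, g = h * k) (p : ℕ) [Fact p.Prime] : ∃ (P : Sylow p H) (Q : Sylow p K) (R : Sylow p G), ((R : Subgroup G) : Set G) = (((P : Subgroup H).map H.subtype : Subgroup G) : Set G) * (((Q : Subgroup K).map K.subtype : Subgroup G) : Set G) := by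
  obtain ⟨R, hRH, hRK⟩ := Cfsg.Agent.H4.exists_sylow_inf_card_both p H K hHK
  have hP : Nat.card (((R : Subgroup G) ⊓ H).subgroupOf H) = p ^ (Nat.card H).factorization p := by
    rw [Cfsg.Agent.H4.card_subgroupOf_of_le inf_le_right, hRH]
  have hQ : Nat.card (((R : Subgroup G) ⊓ K).subgroupOf K) = p ^ (Nat.card K).factorization p := by
    rw [Cfsg.Agent.H4.card_subgroupOf_of_le inf_le_right, hRK]
  refine ⟨Sylow.ofCard _ hP, Sylow.ofCard _ hQ, R, ?_⟩
  rw [Sylow.coe_ofCard, Sylow.coe_ofCard, Subgroup.subgroupOf_map_subtype,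
    Subgroup.subgroupOf_map_subtype, inf_assoc, inf_idem, inf_assoc, inf_idem]
  ext r
  constructor
  · intro hr
    obtain ⟨x, hx, y, hy, e⟩ := Cfsg.Agent.H4.sylow_factor p H K hHK R hRH hRK hr
    exact Set.mem_mul.2 ⟨x, hx, y, hy, e.symm⟩
  · intro hr
    obtain ⟨x, hx, y, hy, rfl⟩ := Set.mem_mul.1 hr
    exact (R : Subgroup G).mul_mem hx.1 hy.1

end Cfsg.Agent.S0560
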