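import Cfsg.Statements.S0561
import Mathlib
import Cfsg.Agent.H4.Subnormal2
import Cfsg.Agent.H4.Basic2
import Cfsg.Agent.S0004
import Cfsg.Agent.S0005
import Cfsg.Agent.S0007

set_option autoImplicit false
open Pointwise
open Cfsg

namespace Cfsg.Agent.S0561

open scoped Pointwise

theorem nt {a a' b b' n : ℕ} (hn : n ≠ 0) (ha : n = a * a') (hb : n = b * b')
    (hca : a.Coprime a') (hcb : b.Coprime b') :
    ∃ m', n = Nat.lcm a b * m' ∧ (Nat.lcm a b).Coprime m' ∧ a.Coprime m' ∧ b.Coprime m' := by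
  have hdvd : Nat.lcm a b ∣ n := Nat.lcm_dvd (Dvd.intro _ ha.symm) (Dvd.intro _ hb.symm)
  obtain ⟨m', hm'⟩ := hdvd
  have ha0 : 0 < a := Nat.pos_of_ne_zero (fun h => hn (by rw [ha, h, zero_mul]))
  have hb0 : 0 < b := Nat.pos_of_ne_zero (fun h => hn (by rw [hb, h, zero_mul]))
  have h1 : m' ∣ a' := by
    obtain ⟨c, hc⟩ := Nat.dvd_lcm_left a b
    have : a * a' = a * (c * m') := by rw [← ha, hm', hc, mul_assoc]
    exact Dvd.intro_left c (Nat.eq_of_mul_eq_mul_left ha0 this).symm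
  have h2 : m' ∣ b' := by
    obtain ⟨c, hc⟩ := Nat.dvd_lcm_right a b
    have : b * b' = b * (c * m') := by rw [← hb, hm', hc, mul_assoc]
    exact Dvd.intro_left c (Nat.eq_of_mul_eq_mul_left hb0 this).symm
  have h3 : a.Coprime m' := hca.coprime_dvd_right h1
  have h4 : b.Coprime m' := hcb.coprime_dvd_right h2
  exact ⟨m', hm', Nat.Coprime.coprime_dvd_left (Nat.lcm_dvd_mul a b) (Nat.Coprime.mul_left h3 h4),
    h3, h4⟩

theorem nt2 {a b c d : ℕ} (ha : 0 < a) (hb : 0 < b) (h1 : a * c = Nat.lcm a b)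
    (h2 : b * d = Nat.lcm a b) : c.Coprime d := by
  have hg : 0 < Nat.gcd a b := Nat.gcd_pos_of_pos_left b ha
  have e := Nat.gcd_mul_lcm a b
  have hc : c = b / Nat.gcd a b := by
    apply (Nat.div_eq_of_eq_mul_right hg _).symm
    apply Nat.eq_of_mul_eq_mul_left ha
    rw [← e, ← h1]; ring
  have hd : d = a / Nat.gcd a b := by
    apply (Nat.div_eq_of_eq_mul_right hg _).symm
    apply Nat.eq_of_mul_eq_mul_left hb
    rw [mul_comm b a, ← e, ← h2]; ring
  rw [hc, hd]
  exact (Nat.coprime_div_gcd_div_gcd hg).symm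

open Subgroup Cfsg.Agent.H4 in
theorem mul_subgroup {G : Type*} [Group G] [Finite G] [Group.IsSolvable G] (H K A B : Subgroup G)
    (hHK : ∀ g : G, ∃ h ∈ H, ∃ k ∈ K, g = h * k) (hHA : H ≤ normalizer (A : Set G))
    (hKB : K ≤ normalizer (B : Set G))
    (hAh : (Nat.card A).Coprime A.index) (hBh : (Nat.card B).Coprime B.index) :
    ∃ S : Subgroup G, (S : Set G) = (A : Set G) * (B : Set G) := by
  obtain ⟨m', hm, hc, hca, hcb⟩ := nt (Nat.card_pos (α := G)).ne' A.card_mul_index.symm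
    B.card_mul_index.symm hAh hBh
  obtain ⟨S₁, hS₁, hAS₁⟩ := Cfsg.Agent.S0005.result _ _ hm hc A hca
  obtain ⟨S₂, hS₂, hBS₂⟩ := Cfsg.Agent.S0005.result _ _ hm hc B hcb
  obtain ⟨g, hg⟩ := Cfsg.Agent.S0004.result _ _ hm hc S₁ S₂ hS₁ hS₂
  obtain ⟨h, hh, k, hk, e⟩ := hHK g⁻¹
  have e' : g = k⁻¹ * h⁻¹ := by
    rw [← inv_inv g, e]; group
  have hS : MulAut.conj h⁻¹ • S₁ = MulAut.conj k • S₂ := by
    rw [← hg, e', map_mul, mul_smul, ← mul_smul, ← map_mul, mul_inv_cancel, map_one, one_smul]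
  have hAS : A ≤ MulAut.conj h⁻¹ • S₁ := by
    rw [← conj_smul_eq_iff_mem_normalizer.2 (hHA (inv_mem hh))]
    exact pointwise_smul_le_pointwise_smul_iff.2 hAS₁
  have hBS : B ≤ MulAut.conj h⁻¹ • S₁ := by
    rw [hS, ← conj_smul_eq_iff_mem_normalizer.2 (hKB hk)]
    exact pointwise_smul_le_pointwise_smul_iff.2 hBS₂
  have hcard : Nat.card (MulAut.conj h⁻¹ • S₁ : Subgroup G) = Nat.lcm (Nat.card A) (Nat.card B) := by
    rw [← hS₁]
    exact (Nat.card_congr (Subgroup.equivSMul (MulAut.conj h⁻¹) S₁).toEquiv).symm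
  generalize MulAut.conj h⁻¹ • S₁ = S at hAS hBS hcard
  refine ⟨S, ?_⟩
  have hcop : (A.subgroupOf S).index.Coprime (B.subgroupOf S).index := by
    apply nt2 (Nat.card_pos (α := A)) (Nat.card_pos (α := B))
    · rw [← hcard]; exact card_mul_relIndex_of_le hAS
    · rw [← hcard]; exact card_mul_relIndex_of_le hBS
  have hfac := (Cfsg.Agent.S0007.result _ _ hcop).2
  ext s
  constructor
  · intro hs
    obtain ⟨x, hx, y, hy, e⟩ := hfac ⟨s, hs⟩
    exact Set.mem_mul.2 ⟨x, hx, y, hy, (congrArg Subtype.val e).symm⟩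
  · intro hs
    obtain ⟨x, hx, y, hy, rfl⟩ := Set.mem_mul.1 hs
    exact S.mul_mem (hAS hx) (hBS hy)

/-- Let the finite solvable group G be the product HK of subgroups, and let A be normal in H and B normal in K, where A and B are Hall subgroups of G (order coprime to index). Then for all x, y the product set of xAx⁻¹ and yBy⁻¹ is a subgroup of G. -/
theorem result {G : Type*} [Group G] [Finite G] [Group.IsSolvable G] (H K A B : Subgroup G) (hHK : ∀ g : G, ∃ h ∈ H, ∃ k ∈ K, g = h * k) (hA : A ≤ H) (hAn : (A.subgroupOf H).Normal) (hB : B ≤ K) (hBn : (B.subgroupOf K).Normal) (hAh : (Nat.card A).Coprime A.index) (hBh : (Nat.card B).Coprime B.index) (x y : G) : ∃ S : Subgroup G, (S : Set G) = ((MulAut.conj x • A : Subgroup G) : Set G) * ((MulAut.conj y • B : Subgroup G) : Set G) := by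
  have hKB := (Subgroup.normal_subgroupOf_iff_le_normalizer hB).1 hBn
  have hHA := (Subgroup.normal_subgroupOf_iff_le_normalizer hA).1 hAn
  obtain ⟨S, hS⟩ := mul_subgroup H K A B hHK hHA hKB hAh hBh
  obtain ⟨h, hh, k, hk, e⟩ := hHK (x⁻¹ * y)
  have e1 : x * h = y * k⁻¹ := by
    have : y = x * (h * k) := by rw [← e]; group
    rw [this]; group
  have hA' : MulAut.conj x • A = MulAut.conj (x * h) • A := by
    rw [map_mul, mul_smul, Cfsg.Agent.H4.conj_smul_eq_iff_mem_normalizer.2 (hHA hh)]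
  have hB' : MulAut.conj y • B = MulAut.conj (x * h) • B := by
    rw [e1, map_mul, mul_smul, Cfsg.Agent.H4.conj_smul_eq_iff_mem_normalizer.2 (hKB (inv_mem hk))]
  refine ⟨MulAut.conj (x * h) • S, ?_⟩
  rw [hA', hB', Subgroup.coe_pointwise_smul, Subgroup.coe_pointwise_smul,
    Subgroup.coe_pointwise_smul, hS, smul_mul']

end Cfsg.Agent.S0561
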