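import Cfsg.Statements.S0562
import Mathlib
import Cfsg.Agent.H4.Subnormal2

set_option autoImplicit false
open Cfsg

namespace Cfsg.Agent.S0562

open scoped Pointwise

/-- Let the finite group G be the product HK of subgroups, A normal in H, B normal in K, and L the normalizer of the subgroup generated by A and B. Then every element of L is a product of an element of L ∩ H and an element of L ∩ K. -/
theorem result {G : Type*} [Group G] [Finite G] (H K A B : Subgroup G) (hHK : ∀ g : G, ∃ h ∈ H, ∃ k ∈ K, g = h * k) (hA : A ≤ H) (hAn : (A.subgroupOf H).Normal) (hB : B ≤ K) (hBn : (B.subgroupOf K).Normal) : ∀ g ∈ Subgroup.normalizer ((A ⊔ B : Subgroup G) : Set G), ∃ h ∈ Subgroup.normalizer ((A ⊔ B : Subgroup G) : Set G) ⊓ H, ∃ k ∈ Subgroup.normalizer ((A ⊔ B : Subgroup G) : Set G) ⊓ K, g = h * k := by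
  intro g hg
  obtain ⟨h, hh, k, hk, rfl⟩ := hHK g
  have hKB := (Subgroup.normal_subgroupOf_iff_le_normalizer hB).1 hBn
  have hHA := (Subgroup.normal_subgroupOf_iff_le_normalizer hA).1 hAn
  have h1 : MulAut.conj (h * k) • (A ⊔ B) = A ⊔ B :=
    Cfsg.Agent.H4.conj_smul_eq_iff_mem_normalizer.2 hg
  have h2 : MulAut.conj k • (A ⊔ B) = MulAut.conj h⁻¹ • (A ⊔ B) := by
    rw [map_mul, mul_smul] at h1
    conv_rhs => rw [← h1]
    rw [← mul_smul, ← map_mul, inv_mul_cancel, map_one, one_smul]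
  have hB' : B ≤ MulAut.conj k • (A ⊔ B) := by
    rw [Subgroup.smul_sup, Cfsg.Agent.H4.conj_smul_eq_iff_mem_normalizer.2 (hKB hk)]
    exact le_sup_right
  have hA' : A ≤ MulAut.conj h⁻¹ • (A ⊔ B) := by
    rw [Subgroup.smul_sup, Cfsg.Agent.H4.conj_smul_eq_iff_mem_normalizer.2 (hHA (inv_mem hh))]
    exact le_sup_left
  have h3 : A ⊔ B ≤ MulAut.conj k • (A ⊔ B) := sup_le (h2 ▸ hA') hB'
  have h4 : A ⊔ B = MulAut.conj k • (A ⊔ B) := by
    apply Subgroup.eq_of_le_of_card_ge h3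
    exact (Nat.card_congr (Subgroup.equivSMul (MulAut.conj k) (A ⊔ B)).toEquiv).symm.le
  have hkN : k ∈ Subgroup.normalizer ((A ⊔ B : Subgroup G) : Set G) :=
    Cfsg.Agent.H4.conj_smul_eq_iff_mem_normalizer.1 h4.symm
  have hhN : h ∈ Subgroup.normalizer ((A ⊔ B : Subgroup G) : Set G) := by
    have := mul_mem hg (inv_mem hkN)
    rwa [mul_assoc, mul_inv_cancel, mul_one] at this
  exact ⟨h, ⟨hhN, hh⟩, k, ⟨hkN, hk⟩, rfl⟩

end Cfsg.Agent.S0562
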