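import Cfsg.Statements.S0567
import Mathlib

set_option autoImplicit false
open Cfsg

namespace Cfsg.Agent.S0567

open Subgroup
open scoped Pointwise commutatorElement

theorem le_normalizer_comm_left {G : Type*} [Group G] (A B : Subgroup G) :
    A ≤ Subgroup.normalizer ((⁅A, B⁆ : Subgroup G) : Set G) := by
  rw [Subgroup.le_normalizer_iff]
  intro a ha k hk
  have hmap : (⁅A, B⁆ : Subgroup G) ≤ (⁅A, B⁆ : Subgroup G).comap (MulAut.conj a).toMonoidHom := by
    rw [Subgroup.commutator_le]
    intro x hx y hy
    show a * ⁅x, y⁆ * a⁻¹ ∈ ⁅A, B⁆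
    have : a * ⁅x, y⁆ * a⁻¹ = ⁅a * x, y⁆ * ⁅a, y⁆⁻¹ := by
      simp only [commutatorElement_def]; group
    rw [this]
    exact Subgroup.mul_mem _ (Subgroup.commutator_mem_commutator (A.mul_mem ha hx) hy)
      (Subgroup.inv_mem _ (Subgroup.commutator_mem_commutator ha hy))
  exact hmap hk

theorem le_normalizer_comm_right {G : Type*} [Group G] (A B : Subgroup G) :
    B ≤ Subgroup.normalizer ((⁅A, B⁆ : Subgroup G) : Set G) := by
  rw [Subgroup.commutator_comm]
  exact le_normalizer_comm_left B A

theorem forward {G : Type*} [Group G] (H : Subgroup G) (hH : H.IsSubnormal) :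
    ∀ L ≤ H, ∃ m : ℕ, (fun K : Subgroup G => ⁅K, L⁆)^[m] ⊤ ≤ H := by
  induction hH with
  | top => exact fun L _ => ⟨0, le_top⟩
  | step H K hle hK hN ih =>
    intro L hL
    obtain ⟨m, hm⟩ := ih L (hL.trans hle)
    refine ⟨m + 1, ?_⟩
    rw [Function.iterate_succ_apply']
    have hKN : K ≤ normalizer (H : Set G) := (normal_subgroupOf_iff_le_normalizer hle).mp hN
    refine (Subgroup.commutator_mono hm hL).trans ?_
    rw [Subgroup.commutator_le]
    intro k hk h hh
    rw [commutatorElement_def]
    have h1 : k * h * k⁻¹ ∈ H := (Subgroup.le_normalizer_iff.mp hKN) k hk h hh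
    exact H.mul_mem h1 (H.inv_mem hh)

theorem le_normalizer_sup {G : Type*} [Group G] {X A B : Subgroup G}
    (h1 : ∀ x ∈ X, ∀ a ∈ A, x * a * x⁻¹ ∈ A ⊔ B) (h2 : ∀ x ∈ X, ∀ b ∈ B, x * b * x⁻¹ ∈ A ⊔ B) :
    X ≤ normalizer ((A ⊔ B : Subgroup G) : Set G) := by
  rw [Subgroup.le_normalizer_iff]
  intro x hx k hk
  have hmap : (A ⊔ B : Subgroup G) ≤ (A ⊔ B : Subgroup G).comap (MulAut.conj x).toMonoidHom := by
    apply sup_le
    · intro a ha; exact h1 x hx a ha
    · intro b hb; exact h2 x hx b hb
  exact hmap hk

/-- A subgroup H of a group G is subnormal exactly when, for some m, the subgroup obtained from G by taking the commutator with H m times in succession is contained in H. -/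
theorem result {G : Type*} [Group G] (H : Subgroup G) : H.IsSubnormal ↔ ∃ m : ℕ, (fun K : Subgroup G => ⁅K, H⁆)^[m] ⊤ ≤ H := by
  constructor
  · intro hH
    exact forward H hH H le_rfl
  · rintro ⟨m, hm⟩
    set L : ℕ → Subgroup G := fun i => (fun K : Subgroup G => ⁅K, H⁆)^[i] ⊤ with hL
    have hLs : ∀ i, L (i + 1) = ⁅L i, H⁆ := fun i => Function.iterate_succ_apply' _ _ _
    have hLn : ∀ i, H ≤ normalizer (L i : Set G) := by
      intro i
      cases i with
      | zero =>
        have : L 0 = ⊤ := rfl
        rw [this]; exact le_top.trans le_normalizer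
      | succ i => rw [hLs]; exact le_normalizer_comm_right _ _
    have hsub : ∀ i, (H ⊔ L i).IsSubnormal := by
      intro i
      induction i with
      | zero =>
        have : L 0 = ⊤ := rfl
        rw [this, sup_top_eq]; exact IsSubnormal.top
      | succ i ih =>
        have hle1 : L (i + 1) ≤ L i := by
          rw [hLs, Subgroup.commutator_le]
          intro k hk h hh
          rw [commutatorElement_def, mul_assoc, mul_assoc]
          have h1 : h * k⁻¹ * h⁻¹ ∈ L i :=
            (Subgroup.le_normalizer_iff.mp (hLn i)) h hh k⁻¹ ((L i).inv_mem hk)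
          rw [← mul_assoc h]
          exact (L i).mul_mem hk h1
        have hle : H ⊔ L (i + 1) ≤ H ⊔ L i := sup_le_sup_left hle1 _
        refine IsSubnormal.step _ _ hle ih ((normal_subgroupOf_iff_le_normalizer hle).mpr ?_)
        apply sup_le
        · apply le_normalizer_sup
          · intro x hx a ha
            exact mem_sup_left (H.mul_mem (H.mul_mem hx ha) (H.inv_mem hx))
          · intro x hx b hb
            exact mem_sup_right ((Subgroup.le_normalizer_iff.mp (hLn (i + 1))) x hx b hb)
        · apply le_normalizer_sup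
          · intro x hx a ha
            have h1 : x * a * x⁻¹ = ⁅x, a⁆ * a := by rw [commutatorElement_def]; group
            rw [h1, sup_comm]
            apply mul_mem_sup _ ha
            rw [hLs]
            exact Subgroup.commutator_mem_commutator hx ha
          · intro x hx b hb
            apply mem_sup_right
            rw [hLs] at hb ⊢
            exact (Subgroup.le_normalizer_iff.mp (le_normalizer_comm_left (L i) H)) x hx b hb
    have := hsub m
    rwa [sup_eq_left.mpr hm] at this

end Cfsg.Agent.S0567
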