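import Cfsg.Statements.S0571
import Mathlib
import Cfsg.Agent.H4.Factor
import Cfsg.Agent.H4.Supersolvable
import Cfsg.Agent.H24.Cyclic
import Cfsg.Agent.H4.Subnormal2
import Cfsg.Agent.H4.Frattini
import Cfsg.Agent.Lib.Helper22.Frobenius

set_option autoImplicit false
open Cfsg

namespace Cfsg.Agent.S0571

open Subgroup Cfsg.Agent.H4 Cfsg.Agent.Lib.Helper22
open scoped Pointwise

universe u

theorem exists_normal_cyclic {G : Type*} [Group G] [Finite G] [Nontrivial G] (A B : Subgroup G)
    [IsCyclic A] [IsCyclic B] (hle : Nat.card B ≤ Nat.card A)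
    (hAB : ∀ g : G, ∃ a ∈ A, ∃ b ∈ B, g = a * b) :
    ∃ D : Subgroup G, D.Normal ∧ IsCyclic D ∧ D ≠ ⊥ := by
  obtain ⟨b, hb⟩ := IsCyclic.exists_generator (α := B)
  set D : Subgroup G := A ⊓ MulAut.conj (b : G) • A with hD
  have hDA : D ≤ A := inf_le_left
  have hD1 : MulAut.conj (b : G)⁻¹ • D ≤ A := by
    rw [pointwise_smul_subset_iff, map_inv, inv_inv]
    exact inf_le_right
  have hD2 : MulAut.conj (b : G)⁻¹ • D = D :=
    Cfsg.Agent.H24.cyclic_subgroup_eq_of_card_eq' A _ _ hD1 hDA (card_conj_smul' _ _)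
  have hbN : (b : G) ∈ normalizer (D : Set G) := by
    have := (normalizer (D : Set G)).inv_mem (conj_smul_eq_iff_mem_normalizer.mp hD2)
    rwa [inv_inv] at this
  have hAc : ∀ x ∈ A, ∀ y ∈ A, x * y = y * x := by
    intro x hx y hy
    have : IsMulCommutative A := inferInstance
    exact comm_of_mem hx hy
  have hAN : A ≤ normalizer (D : Set G) := by
    rw [le_normalizer_iff]
    intro a ha d hd
    rw [hAc a ha d (hDA hd), mul_inv_cancel_right]
    exact hd
  have hBN : B ≤ normalizer (D : Set G) := by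
    intro x hx
    obtain ⟨m, hm⟩ := mem_zpowers_iff.mp (hb ⟨x, hx⟩)
    have h1 : (b : G) ^ m = x := by simpa using congrArg Subtype.val hm
    rw [← h1]
    exact zpow_mem hbN m
  have hDn : D.Normal := by
    rw [← normalizer_eq_top_iff, eq_top_iff]
    intro g _
    obtain ⟨a, ha, c, hc, rfl⟩ := hAB g
    exact mul_mem (hAN ha) (hBN hc)
  refine ⟨D, hDn, isCyclic_of_injective (inclusion hDA) (inclusion_injective hDA), ?_⟩
  intro hbot
  set A' : Subgroup G := MulAut.conj (b : G) • A with hA'
  have hcA' : Nat.card A' = Nat.card A := card_conj_smul' _ _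
  have h1 : Nat.card G ≤ Nat.card A * Nat.card B := by
    have h2 := card_mul_card_inf_of_mul A B hAB
    have h3 : 0 < Nat.card (A ⊓ B : Subgroup G) := Nat.card_pos
    calc Nat.card G ≤ Nat.card G * Nat.card (A ⊓ B : Subgroup G) := Nat.le_mul_of_pos_right _ h3
      _ = _ := h2
  have h2 : Nat.card A ≤ A'.index := by
    have h3 : A'.relIndex A ≤ A'.relIndex ⊤ :=
      relIndex_le_of_le_right le_top (by rw [relIndex_top_right]; exact index_ne_zero_of_finite)
    rwa [relIndex_top_right, ← inf_relIndex_right, inf_comm, ← hD, hbot, relIndex_bot_left] at h3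
  have h3 : Nat.card A * Nat.card A' = Nat.card G := by
    have h4 := A'.card_mul_index
    apply le_antisymm
    · rw [← h4, mul_comm]
      exact Nat.mul_le_mul_left _ h2
    · rw [hcA']
      exact h1.trans (Nat.mul_le_mul_left _ hle)
  have hc : IsComplement' A A' :=
    isComplement'_of_card_mul_and_disjoint h3 (disjoint_iff.mpr hbot)
  obtain ⟨⟨x, y⟩, hxy, -⟩ := hc.existsUnique (b : G)⁻¹
  have hy : (b : G)⁻¹ * (y : G) * b ∈ A := (mem_conj_smul_iff A (b : G) (y : G)).mp y.2
  have hbA : (b : G) ∈ A := by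
    have h5 : (b : G) = (x : G)⁻¹ * ((b : G)⁻¹ * y * b)⁻¹ := by
      have h6 : (x : G) * (y : G) = (b : G)⁻¹ := hxy
      have h7 : (y : G) = (x : G)⁻¹ * (b : G)⁻¹ := by rw [← h6]; group
      rw [h7]; group
    rw [h5]
    exact A.mul_mem (A.inv_mem x.2) (A.inv_mem hy)
  have h6 : A' = A := conj_smul_eq_self_of_mem hbA
  have h7 : A = ⊥ := by rw [← hbot, hD, h6, inf_idem]
  have h8 : Nat.card A = 1 := by rw [h7]; exact card_bot
  have h9 : Nat.card G = 1 := by rw [← h3, hcA', h8]
  have : 1 < Nat.card G := Finite.one_lt_card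
  omega

theorem aux : ∀ (n : ℕ) (G : Type u) [Group G] [Finite G], Nat.card G = n →
    ∀ (A B : Subgroup G) [IsCyclic A] [IsCyclic B], (∀ g : G, ∃ a ∈ A, ∃ b ∈ B, g = a * b) →
    Cfsg.IsSupersolvable G := by
  intro n
  induction n using Nat.strong_induction_on with
  | _ n ih =>
    intro G _ _ hn A B _ _ hAB
    rcases subsingleton_or_nontrivial G with hs | hnt
    · exact isSupersolvable_of_subsingleton
    · obtain ⟨D, hDn, hDc, hD0⟩ : ∃ D : Subgroup G, D.Normal ∧ IsCyclic D ∧ D ≠ ⊥ := by
        rcases le_total (Nat.card B) (Nat.card A) with h | h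
        · exact exists_normal_cyclic A B h hAB
        · exact exists_normal_cyclic B A h (mul_comm_of_mul A B hAB)
      apply isSupersolvable_of_cyclic_normal D
      have hlt : Nat.card (G ⧸ D) < n := hn ▸ card_quotient_lt D hD0
      have h1 : IsCyclic (A.map (QuotientGroup.mk' D)) :=
        isCyclic_of_surjective ((QuotientGroup.mk' D).subgroupMap A)
          ((QuotientGroup.mk' D).subgroupMap_surjective A)
      have h2 : IsCyclic (B.map (QuotientGroup.mk' D)) :=
        isCyclic_of_surjective ((QuotientGroup.mk' D).subgroupMap B)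
          ((QuotientGroup.mk' D).subgroupMap_surjective B)
      apply ih _ hlt (G ⧸ D) rfl (A.map (QuotientGroup.mk' D)) (B.map (QuotientGroup.mk' D))
      intro q
      obtain ⟨g, rfl⟩ := QuotientGroup.mk'_surjective D q
      obtain ⟨a, ha, b, hb, rfl⟩ := hAB g
      exact ⟨_, mem_map_of_mem _ ha, _, mem_map_of_mem _ hb, map_mul _ a b⟩

/-- If a finite group G is the product AB of two cyclic subgroups (every element is a product ab), then G is supersolvable. -/
theorem result {G : Type*} [Group G] [Finite G] (A B : Subgroup G) [IsCyclic A] [IsCyclic B] (hAB : ∀ g : G, ∃ a ∈ A, ∃ b ∈ B, g = a * b) : Cfsg.IsSupersolvable G := by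
  exact aux _ G rfl A B hAB

end Cfsg.Agent.S0571
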