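import Cfsg.Statements.S0576
import Mathlib

set_option autoImplicit false
open Cfsg

namespace Cfsg.Agent.S0576

/-- Let H be a normal subgroup of a finite group G with H contained in the Frattini subgroup of G. Then the group of inner automorphisms of H is contained in the Frattini subgroup of the automorphism group of H. -/
theorem result {G : Type*} [Group G] [Finite G] (H : Subgroup G) [H.Normal] (hH : H ≤ frattini G) : (MulAut.conj : ↥H →* MulAut ↥H).range ≤ frattini (MulAut ↥H) := by
  have hInn : (MulAut.conj : ↥H →* MulAut ↥H).range.Normal := by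
    constructor
    rintro _ ⟨h, rfl⟩ φ
    refine ⟨φ h, ?_⟩
    ext x
    simp [MulAut.conj_apply]
  simp_rw [frattini, Order.radical, le_iInf_iff]
  intro U hU
  by_contra hnot
  have hsup : U ⊔ (MulAut.conj : ↥H →* MulAut ↥H).range = ⊤ :=
    hU.2 _ (lt_of_le_of_ne le_sup_left (fun h => hnot (h ▸ le_sup_right)))
  let τ : G →* MulAut H := MulAut.conjNormal
  have hτ : ∀ h : H, τ (h : G) = MulAut.conj h := fun h => MulAut.conjNormal_val
  have hW : U.comap τ ⊔ H = ⊤ := by
    rw [eq_top_iff]
    intro g _
    have hg : τ g ∈ U ⊔ (MulAut.conj : ↥H →* MulAut ↥H).range := by rw [hsup]; trivial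
    rw [Subgroup.mem_sup_of_normal_right] at hg
    obtain ⟨u, hu, _, ⟨h, rfl⟩, huh⟩ := hg
    have h1 : g * (h : G)⁻¹ ∈ U.comap τ := by
      rw [Subgroup.mem_comap, map_mul, map_inv, hτ, ← huh]
      simpa using hu
    have : g = g * (h : G)⁻¹ * h := by group
    rw [this]
    exact mul_mem (Subgroup.mem_sup_left h1) (Subgroup.mem_sup_right h.2)
  have hW2 : U.comap τ ⊔ frattini G = ⊤ := by
    rw [eq_top_iff, ← hW]
    exact sup_le_sup_left hH _
  have hW3 := frattini_nongenerating hW2
  apply hnot
  rintro _ ⟨h, rfl⟩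
  have : (h : G) ∈ U.comap τ := by rw [hW3]; trivial
  rw [Subgroup.mem_comap, hτ] at this
  exact this

end Cfsg.Agent.S0576
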