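import Cfsg.Statements.S0577
import Mathlib
import Cfsg.Agent.H4.Schmidt3
import Cfsg.Agent.H4.Frattini

set_option autoImplicit false
open Cfsg

namespace Cfsg.Agent.S0577

open Subgroup Cfsg.Agent.H4
open scoped Pointwise commutatorElement

theorem structure' {G : Type*} [Group G] [Finite G] (hG : Cfsg.IsMinimalNonNilpotent G) (q : ℕ)
    [Fact q.Prime] (hq : q ∣ Nat.card G) (Q : Sylow q G) (hQ : (Q : Subgroup G).Normal) :
    ∃ p : ℕ, p.Prime ∧ p ≠ q ∧ ∃ P : Sylow p G, IsCyclic P ∧ (P : Subgroup G) ⊔ Q = ⊤ ∧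
      ¬ (P : Subgroup G).Normal ∧ ∃ k, (Q : Subgroup G).index = p ^ k := by
  have hqp : q.Prime := Fact.out
  obtain ⟨p₀, q₀, hp₀, hq₀, hne, P₀, Q₀, h1, h2, h3, h4⟩ := schmidt_structure hG
  have := Fact.mk hp₀
  have := Fact.mk hq₀
  have hidx : ∃ k, (Q₀ : Subgroup G).index = p₀ ^ k := by
    have e : (Q₀ : Subgroup G).index = (Q₀ : Subgroup G).relIndex P₀ := by
      rw [← relIndex_sup_left, sup_comm, h3, relIndex_top_right]
    have hd : (Q₀ : Subgroup G).index ∣ Nat.card (P₀ : Subgroup G) := e ▸ relIndex_dvd_card _ _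
    obtain ⟨k, hk⟩ := P₀.2.exists_card_eq
    rw [hk] at hd
    obtain ⟨j, -, hj⟩ := (Nat.dvd_prime_pow hp₀).1 hd
    exact ⟨j, hj⟩
  have hq0 : q = q₀ := by
    by_contra hqq
    by_cases hqp₀ : q = p₀
    · subst hqp₀
      have := Sylow.unique_of_normal Q hQ
      exact h4 ((Subsingleton.elim P₀ Q) ▸ hQ)
    · obtain ⟨k, hk⟩ := hidx
      have hle : (Q : Subgroup G) ≤ Q₀ := by
        apply le_normal_of_coprime_index Q.2
        rw [hk]
        exact ((Nat.coprime_primes hp₀ hqp).2 (Ne.symm hqp₀)).pow_left k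
      have hd : Disjoint (Q : Subgroup G) Q₀ := IsPGroup.disjoint_of_ne q q₀ hqq _ _ Q.2 Q₀.2
      have hbot : (Q : Subgroup G) = ⊥ := by
        rw [← inf_eq_left.2 hle]; exact disjoint_iff.1 hd
      have hc := Q.card_eq_multiplicity
      rw [hbot, card_bot] at hc
      have : 0 < (Nat.card G).factorization q :=
        hqp.factorization_pos_of_dvd Nat.card_pos.ne' hq
      exact (Nat.one_lt_pow this.ne' hqp.one_lt).ne hc
  subst hq0
  have := Sylow.unique_of_normal Q hQ
  have e : Q₀ = Q := Subsingleton.elim _ _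
  subst e
  exact ⟨p₀, hp₀, hne, P₀, h1, h3, h4, hidx⟩

/-- Let G be a finite minimal non-nilpotent group and Q a normal Sylow q-subgroup of G, and let D be the commutator subgroup of Q regarded in G (a normal subgroup). Then G modulo D is non-abelian and all its proper subgroups are abelian. -/
theorem result {G : Type*} [Group G] [Finite G] (hG : Cfsg.IsMinimalNonNilpotent G) (q : ℕ) [Fact q.Prime] (hq : q ∣ Nat.card G) (Q : Sylow q G) (hQ : (Q : Subgroup G).Normal) (D : Subgroup G) [D.Normal] (hD : D = (commutator ↥(Q : Subgroup G)).map (Q : Subgroup G).subtype) : ¬ IsMulCommutative (G ⧸ D) ∧ ∀ K : Subgroup (G ⧸ D), K ≠ ⊤ → IsMulCommutative K := by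
  obtain ⟨p, hp, hpq, P, hcyc, htop, hPn, k, hk⟩ := structure' hG q hq Q hQ
  have := Fact.mk hp
  have hDQ : D ≤ Q := by rw [hD]; exact map_subtype_le _
  constructor
  · intro hab
    have hcD : commutator G ≤ D := Normal.quotient_commutative_iff_commutator_le.1 hab
    apply hPn
    have hLn : ((P : Subgroup G) ⊔ D).Normal := by
      constructor
      intro m hm g
      have : g * m * g⁻¹ = ⁅g, m⁆ * m := by rw [commutatorElement_def]; group
      rw [this]
      refine mul_mem ((le_sup_right : D ≤ (P : Subgroup G) ⊔ D) (hcD ?_)) hm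
      rw [_root_.commutator_def]
      exact commutator_mem_commutator (mem_top g) (mem_top m)
    have hfr := Sylow.normalizer_sup_eq_top (P.subtype (le_sup_left (b := D)))
    rw [Sylow.coe_subtype, Subgroup.subgroupOf_map_subtype,
      inf_eq_left.2 (le_sup_left (b := D)), ← sup_assoc,
      sup_eq_left.2 (le_normalizer (H := (P : Subgroup G)))] at hfr
    have hQnil : Group.IsNilpotent (Q : Subgroup G) := Q.2.isNilpotent
    have h1 : (normalizer ((P : Subgroup G) : Set G)).subgroupOf Q ⊔ frattini (Q : Subgroup G) = ⊤ := by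
      rw [eq_top_iff]
      intro y _
      have hy : (y : G) ∈ normalizer ((P : Subgroup G) : Set G) ⊔ D := hfr ▸ mem_top _
      obtain ⟨n, hn, d, hd, e⟩ := mem_sup_of_normal_right.1 hy
      have hd' := hd
      rw [hD] at hd'
      obtain ⟨d', hd'c, rfl⟩ := hd'
      have hnQ : n ∈ (Q : Subgroup G) := by
        have : n = (y : G) * ((Q : Subgroup G).subtype d')⁻¹ := by rw [← e]; group
        rw [this]
        exact (Q : Subgroup G).mul_mem y.2 ((Q : Subgroup G).inv_mem d'.2)
      have ey : y = (⟨n, hnQ⟩ : (Q : Subgroup G)) * d' := Subtype.ext e.symm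
      rw [ey]
      exact mul_mem (mem_sup_left (show (⟨n, hnQ⟩ : (Q : Subgroup G)) ∈
        (normalizer ((P : Subgroup G) : Set G)).subgroupOf Q from hn))
        (mem_sup_right (commutator_le_frattini_of_nilpotent hd'c))
    have h2 := frattini_nongenerating h1
    rw [subgroupOf_eq_top] at h2
    rw [← normalizer_eq_top_iff, eq_top_iff, ← htop]
    exact sup_le le_normalizer h2
  · intro K' hK'
    have hs := QuotientGroup.mk'_surjective D
    have hKt : K'.comap (QuotientGroup.mk' D) ≠ ⊤ := by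
      intro e
      apply hK'
      rw [← map_comap_eq_self_of_surjective hs K', e, map_top_of_surjective _ hs]
    have hKnil := hG.2 _ hKt
    have hmemK : ∀ x : G, x ∈ K'.comap (QuotientGroup.mk' D) ↔ QuotientGroup.mk' D x ∈ K' :=
      fun x => Iff.rfl
    generalize K'.comap (QuotientGroup.mk' D) = K at hKt hKnil hmemK
    obtain ⟨A'⟩ : Nonempty (Sylow p K) := inferInstance
    have hU'n : ((Q : Subgroup G).subgroupOf K).Normal := hQ.subgroupOf K
    have hsup : (A' : Subgroup K) ⊔ (Q : Subgroup G).subgroupOf K = ⊤ := by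
      apply eq_top_of_sylow_le
      intro r hr
      by_cases hrp : r = p
      · subst hrp
        exact ⟨A', le_sup_left⟩
      · obtain ⟨R⟩ : Nonempty (Sylow r K) := inferInstance
        refine ⟨R, le_trans ?_ le_sup_right⟩
        apply le_normal_of_coprime_index R.2
        have hd : ((Q : Subgroup G).subgroupOf K).index ∣ (Q : Subgroup G).index :=
          relIndex_dvd_index_of_normal _ _
        rw [hk] at hd
        exact Nat.Coprime.coprime_dvd_left hd
          (((Nat.coprime_primes hp hr.out).2 (Ne.symm hrp)).pow_left k)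
    have hdec : ∀ x ∈ K, ∃ a ∈ (A' : Subgroup K).map K.subtype, ∃ u ∈ K ⊓ (Q : Subgroup G),
        x = a * u := by
      intro x hx
      have hx' : (⟨x, hx⟩ : K) ∈ (A' : Subgroup K) ⊔ (Q : Subgroup G).subgroupOf K :=
        hsup ▸ mem_top _
      obtain ⟨a, ha, u, hu, e⟩ := mem_sup_of_normal_right.1 hx'
      exact ⟨a, mem_map_of_mem _ ha, u, ⟨u.2, hu⟩, (congrArg Subtype.val e).symm⟩
    have hAp : IsPGroup p ((A' : Subgroup K).map K.subtype) := A'.2.map _
    have hAK : (A' : Subgroup K).map K.subtype ≤ K := map_subtype_le _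
    generalize (A' : Subgroup K).map K.subtype = A at hdec hAp hAK
    have hAc : ∀ a ∈ A, ∀ b ∈ A, a * b = b * a := by
      obtain ⟨P', hP'⟩ := hAp.exists_le_sylow
      have hc' : IsCyclic P' := isCyclic_of_surjective (Sylow.equiv P P') (Sylow.equiv P P').surjective
      intro a ha b hb
      exact congrArg Subtype.val (IsCyclic.commGroup.mul_comm
        (⟨a, hP' ha⟩ : (P' : Subgroup G)) ⟨b, hP' hb⟩)
    have hAU : ∀ a ∈ A, ∀ u ∈ K ⊓ (Q : Subgroup G), a * u = u * a := by
      intro a ha u hu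
      have := le_centralizer_of_nilpotent hKnil hAK inf_le_left hpq hAp (Q.2.to_le inf_le_right)
      exact (mem_centralizer_iff.1 (this hu)) a ha
    rw [isMulCommutative_iff]
    rintro ⟨x', hx'⟩ ⟨y', hy'⟩
    apply Subtype.ext
    change x' * y' = y' * x'
    obtain ⟨x, rfl⟩ := hs x'
    obtain ⟨y, rfl⟩ := hs y'
    obtain ⟨a, ha, u, hu, rfl⟩ := hdec x ((hmemK x).2 hx')
    obtain ⟨b, hb, v, hv, rfl⟩ := hdec y ((hmemK y).2 hy')
    rw [← map_mul, ← map_mul]
    apply (QuotientGroup.eq).2
    have e1 : a * u * (b * v) = a * b * (u * v) := by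
      rw [mul_assoc, ← mul_assoc u b v, ← hAU b hb u hu]; group
    have e2 : b * v * (a * u) = a * b * (v * u) := by
      rw [mul_assoc, ← mul_assoc v a u, ← hAU a ha v hv, hAc a ha b hb]; group
    rw [e1, e2]
    have e3 : (a * b * (u * v))⁻¹ * (a * b * (v * u)) = ⁅v⁻¹, u⁻¹⁆ := by
      rw [commutatorElement_def]; group
    rw [e3, hD]
    refine ⟨⁅(⟨v, hv.2⟩ : (Q : Subgroup G))⁻¹, (⟨u, hu.2⟩ : (Q : Subgroup G))⁻¹⁆, ?_, rfl⟩
    rw [SetLike.mem_coe, _root_.commutator_def]
    exact commutator_mem_commutator (mem_top _) (mem_top _)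

end Cfsg.Agent.S0577
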