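import Cfsg.Statements.S0582
import Mathlib
import Cfsg.Agent.H4.Clt
import Cfsg.Agent.H4.Supersolvable4
import Cfsg.Agent.H4.PrimeIndex
import Cfsg.Agent.H4.Factor
import Cfsg.Agent.H4.SolvMin
import Cfsg.Agent.H1.Compl

set_option autoImplicit false
open Pointwise
open Cfsg

namespace Cfsg.Agent.S0582

open scoped Pointwise
open Subgroup Cfsg.Agent.H4

theorem sylow_normal_of_ss.{u} {H : Type u} [Group H] [Finite H] (hH : Cfsg.IsSupersolvable H)
    (p : ℕ) [Fact p.Prime] (hmax : ∀ q : ℕ, q.Prime → q ∣ Nat.card H → q ≤ p) (P : Sylow p H) :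
    (P : Subgroup H).Normal :=
  sylow_normal_of_clt_aux _ H rfl
    (fun L => clt (isSupersolvable_of_injective L.subtype L.subtype_injective hH)) p hmax P

/-- the normal Sylow subgroup for the largest prime, as a subgroup of the big group -/
theorem exists_sylow_aux.{u} {G : Type u} [Group G] [Finite G] (H : Subgroup G)
    (hH : Cfsg.IsSupersolvable H) (hHall : (Nat.card H).Coprime H.index)
    (p : ℕ) [Fact p.Prime] (hpd : p ∣ Nat.card H)
    (hmax : ∀ q : ℕ, q.Prime → q ∣ Nat.card H → q ≤ p) :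
    ∃ P : Subgroup G, P ≤ H ∧ H ≤ normalizer (P : Set G) ∧
      Nat.card P = p ^ (Nat.card G).factorization p := by
  have hp : p.Prime := Fact.out
  obtain ⟨P₀⟩ : Nonempty (Sylow p H) := inferInstance
  have hn := sylow_normal_of_ss hH p hmax P₀
  refine ⟨(P₀ : Subgroup H).map H.subtype, map_subtype_le _, ?_, ?_⟩
  · rw [← normal_subgroupOf_iff_le_normalizer (map_subtype_le _)]
    have : ((P₀ : Subgroup H).map H.subtype).subgroupOf H = P₀ :=
      comap_map_eq_self_of_injective H.subtype_injective _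
    rw [this]
    exact hn
  · rw [card_map_of_injective H.subtype_injective, P₀.card_eq_multiplicity, ← H.card_mul_index,
      Nat.factorization_mul Nat.card_pos.ne' index_ne_zero_of_finite, Finsupp.add_apply]
    have : H.index.factorization p = 0 := by
      apply Nat.factorization_eq_zero_of_not_dvd
      intro hd
      exact hp.one_lt.ne' (Nat.eq_one_of_dvd_coprimes hHall hpd hd)
    rw [this, add_zero]

theorem aux.{u} (n : ℕ) : ∀ (G : Type u) [Group G] [Finite G], Nat.card G = n →
    ∀ H K : Subgroup G, Cfsg.IsSupersolvable H → Cfsg.IsSupersolvable K →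
    Nat.card H = Nat.card K → (Nat.card H).Coprime H.index → ∃ x : G, MulAut.conj x • H = K := by
  induction n using Nat.strong_induction_on with
  | _ n ih =>
  intro G _ _ hn H K hH hK hcard hHall
  by_cases h1 : Nat.card H = 1
  · refine ⟨1, ?_⟩
    rw [map_one, one_smul, (card_eq_one (H := H)).1 h1, (card_eq_one (H := K)).1 (hcard ▸ h1)]
  obtain ⟨p, hp, hpd, hmax⟩ := exists_largest_prime Nat.card_pos.ne' h1
  have := Fact.mk hp
  have hidx : H.index = K.index := by
    have e1 := H.card_mul_index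
    have e2 := K.card_mul_index
    rw [← e2, hcard] at e1
    exact Nat.eq_of_mul_eq_mul_left Nat.card_pos e1
  obtain ⟨P, hPH, hHP, hPc⟩ := exists_sylow_aux H hH hHall p hpd hmax
  obtain ⟨Q, hQK, hKQ, hQc⟩ := exists_sylow_aux K hK (hcard ▸ hidx ▸ hHall) p (hcard ▸ hpd)
    (hcard ▸ hmax)
  obtain ⟨g, hg⟩ := MulAction.exists_smul_eq G (Sylow.ofCard P hPc) (Sylow.ofCard Q hQc)
  have hg' : MulAut.conj g • P = Q := by
    have := congrArg (fun S : Sylow p G => (S : Subgroup G)) hg
    simpa [Sylow.coe_subgroup_smul, Sylow.coe_ofCard] using this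
  -- replace H by its conjugate
  have hH₁ : Cfsg.IsSupersolvable (MulAut.conj g • H : Subgroup G) :=
    isSupersolvable_of_surjective (Subgroup.equivSMul (MulAut.conj g) H).toMonoidHom
      (Subgroup.equivSMul (MulAut.conj g) H).surjective hH
  have hQH₁ : Q ≤ MulAut.conj g • H := by
    rw [← hg']
    exact pointwise_smul_le_pointwise_smul_iff.2 hPH
  have hH₁Q : MulAut.conj g • H ≤ normalizer (Q : Set G) := by
    rw [← hg', ← smul_normalizer]
    exact pointwise_smul_le_pointwise_smul_iff.2 hHP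
  have hcard₁ : Nat.card (MulAut.conj g • H : Subgroup G) = Nat.card K := by
    rw [card_conj_smul', hcard]
  have hidx₁ : (MulAut.conj g • H).index = K.index := by
    rw [← hidx]; exact index_map_equiv H (MulAut.conj g)
  suffices hs : ∃ y : G, MulAut.conj y • (MulAut.conj g • H) = K by
    obtain ⟨y, hy⟩ := hs
    exact ⟨y * g, by rw [map_mul, mul_smul, hy]⟩
  have hHall₁ : (Nat.card (MulAut.conj g • H : Subgroup G)).Coprime (MulAut.conj g • H).index := by
    rw [hcard₁, hidx₁, ← hcard, ← hidx]; exact hHall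
  generalize MulAut.conj g • H = H₁ at hH₁ hQH₁ hH₁Q hcard₁ hidx₁ hHall₁
  have hQ0 : Q ≠ ⊥ := by
    intro e
    rw [e, card_bot] at hQc
    have hpG : p ∣ Nat.card G := hpd.trans (card_subgroup_dvd_card H)
    have : 0 < (Nat.card G).factorization p :=
      hp.factorization_pos_of_dvd Nat.card_pos.ne' hpG
    exact (Nat.one_lt_pow this.ne' hp.one_lt).ne hQc
  have hQn : (Q.subgroupOf (normalizer (Q : Set G))).Normal := normal_in_normalizer
  have hQ'0 : Q.subgroupOf (normalizer (Q : Set G)) ≠ ⊥ := by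
    rw [Ne, subgroupOf_eq_bot, disjoint_iff, inf_eq_left.2 le_normalizer]
    exact hQ0
  generalize hN : normalizer (Q : Set G) = N at hQn hQ'0 hH₁Q hKQ
  have hlt : Nat.card (↥N ⧸ Q.subgroupOf N) < n := by
    refine lt_of_lt_of_le (card_quotient_lt _ hQ'0) ?_
    rw [← hn]
    exact Subgroup.card_le_card_group N
  have hidxmap : ∀ L : Subgroup G, Q ≤ L → L ≤ N →
      ((L.subgroupOf N).map (QuotientGroup.mk' (Q.subgroupOf N))).index = L.relIndex N := by
    intro L hQL _
    rw [index_map, QuotientGroup.ker_mk',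
      MonoidHom.range_eq_top.2 (QuotientGroup.mk'_surjective _), index_top, mul_one,
      sup_eq_left.2 (subgroupOf_mono N hQL)]
    rfl
  have hrel : H₁.relIndex N = K.relIndex N := by
    have e1 := card_mul_relIndex_of_le hH₁Q
    have e2 := card_mul_relIndex_of_le hKQ
    rw [← e2, hcard₁] at e1
    exact Nat.eq_of_mul_eq_mul_left Nat.card_pos e1
  have hss : ∀ L : Subgroup G, L ≤ N → Cfsg.IsSupersolvable L → Cfsg.IsSupersolvable
      ((L.subgroupOf N).map (QuotientGroup.mk' (Q.subgroupOf N))) := by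
    intro L hL hLs
    have h2 : Cfsg.IsSupersolvable (L.subgroupOf N) :=
      isSupersolvable_of_surjective (subgroupOfEquivOfLe hL).symm.toMonoidHom
        (subgroupOfEquivOfLe hL).symm.surjective hLs
    exact isSupersolvable_of_surjective _
      ((QuotientGroup.mk' (Q.subgroupOf N)).subgroupMap_surjective (L.subgroupOf N)) h2
  obtain ⟨y', hy'⟩ := ih _ hlt (↥N ⧸ Q.subgroupOf N) rfl
    ((H₁.subgroupOf N).map (QuotientGroup.mk' (Q.subgroupOf N)))
    ((K.subgroupOf N).map (QuotientGroup.mk' (Q.subgroupOf N)))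
    (hss H₁ hH₁Q hH₁) (hss K hKQ hK)
    (by
      have e1 := ((H₁.subgroupOf N).map (QuotientGroup.mk' (Q.subgroupOf N))).card_mul_index
      have e2 := ((K.subgroupOf N).map (QuotientGroup.mk' (Q.subgroupOf N))).card_mul_index
      rw [hidxmap H₁ hQH₁ hH₁Q] at e1
      rw [hidxmap K hQK hKQ, ← hrel, ← e1] at e2
      exact (Nat.eq_of_mul_eq_mul_right (Nat.pos_of_ne_zero
        (index_ne_zero_of_finite (H := H₁.subgroupOf N))) e2).symm)
    (by
      rw [hidxmap H₁ hQH₁ hH₁Q]
      apply Nat.Coprime.of_dvd _ _ hHall₁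
      · refine (card_map_dvd _ _).trans ?_
        rw [card_subgroupOf_of_le hH₁Q]
      · exact Dvd.intro _ (relIndex_mul_index hH₁Q))
  obtain ⟨y, rfl⟩ := QuotientGroup.mk'_surjective _ y'
  have h3 := Cfsg.H1.conj_sup_ker_of_map _ y hy'
  rw [QuotientGroup.ker_mk',
    sup_eq_left.2 (subgroupOf_mono N hQK)] at h3
  have h4 : Q.subgroupOf N ≤ MulAut.conj y • H₁.subgroupOf N := by
    rw [← Subgroup.Normal.conj_smul_eq_self y (Q.subgroupOf N)]
    exact pointwise_smul_le_pointwise_smul_iff.2
      (subgroupOf_mono N hQH₁)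
  rw [sup_eq_left.2 h4] at h3
  exact ⟨y, Cfsg.H1.conj_of_subgroupOf hH₁Q hKQ y h3⟩

/-- Let H and K be supersolvable subgroups of a finite group G of the same order, that order being coprime to their index. Then H and K are conjugate in G. -/
theorem result {G : Type*} [Group G] [Finite G] (H K : Subgroup G) (hH : Cfsg.IsSupersolvable H) (hK : Cfsg.IsSupersolvable K) (hcard : Nat.card H = Nat.card K) (hHall : (Nat.card H).Coprime H.index) : ∃ x : G, MulAut.conj x • H = K := by
  exact aux _ G rfl H K hH hK hcard hHall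

end Cfsg.Agent.S0582
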