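import Cfsg.Statements.S0586
import Mathlib
import Cfsg.Agent.H4.MinNormal
import Cfsg.Agent.S0575

set_option autoImplicit false
open Cfsg

namespace Cfsg.Agent.S0586

/-- If the Frattini subgroup of a finite group G is trivial, then the Fitting subgroup of G equals the join of all abelian minimal normal subgroups of G. -/
theorem result {G : Type*} [Group G] [Finite G] (hΦ : frattini G = ⊥) : Cfsg.fittingSubgroup G = sSup {N : Subgroup G | N.Normal ∧ N ≠ ⊥ ∧ IsMulCommutative N ∧ ∀ K : Subgroup G, K.Normal → K ≤ N → K = ⊥ ∨ K = N} := by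
  apply le_antisymm
  · apply sSup_le
    rintro N ⟨hNn, hNnil⟩
    -- N is abelian
    have h1 : frattini N = ⊥ := by
      have := Cfsg.Agent.S0575.result N
      rw [hΦ, le_bot_iff, (Subgroup.map_eq_bot_iff_of_injective _ N.subtype_injective)] at this
      exact this
    have h2 : commutator N = ⊥ := by
      rw [eq_bot_iff, ← h1]
      exact Cfsg.Agent.H4.commutator_le_frattini_of_nilpotent
    have hNc : IsMulCommutative N := Cfsg.Agent.H4.isMulCommutative_of_commutator_eq_bot h2
    set S : Set (Subgroup G) := {N : Subgroup G | N.Normal ∧ N ≠ ⊥ ∧ IsMulCommutative N ∧ ∀ K : Subgroup G, K.Normal → K ≤ N → K = ⊥ ∨ K = N} with hS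
    set T : Subgroup G := sSup {L | L ∈ S ∧ L ≤ N} with hT
    have hTn : T.Normal := Subgroup.sSup_normal _ (fun L hL => hL.1.1)
    have hTN : T ≤ N := sSup_le (fun L hL => hL.2)
    have hTS : T ≤ sSup S := sSup_le_sSup (fun L hL => hL.1)
    have hTc : IsMulCommutative T := Cfsg.Agent.H4.isMulCommutative_of_le hTN
    obtain ⟨H, hH⟩ := Cfsg.Agent.H4.exists_complement_of_frattini_eq_bot hΦ T
    have hsup : T ⊔ H = ⊤ := hH.sup_eq_top
    have hinf : T ⊓ H = ⊥ := hH.disjoint.eq_bot
    have hDn : (N ⊓ H).Normal := by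
      rw [← Subgroup.normalizer_eq_top_iff, eq_top_iff, ← hsup]
      apply sup_le
      · intro a ha
        rw [Subgroup.mem_normalizer_iff]
        intro d
        have key : ∀ d ∈ N, a * d * a⁻¹ = d := by
          intro d hd
          rw [Cfsg.Agent.H4.comm_of_mem (hTN ha) hd]; group
        constructor
        · intro hd
          have hd' : d ∈ N ⊓ H := hd
          rw [key d hd'.1]; exact hd
        · intro hd
          have hd' : a * d * a⁻¹ ∈ N ⊓ H := hd
          have hdA : d ∈ N := by
            have := mul_mem (mul_mem (inv_mem (hTN ha)) hd'.1) (hTN ha)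
            simpa [mul_assoc] using this
          rw [key d hdA] at hd
          exact hd
      · intro h hh
        rw [Subgroup.mem_normalizer_iff]
        intro d
        constructor
        · intro hd
          have hd' : d ∈ N ⊓ H := hd
          exact ⟨hNn.conj_mem d hd'.1 h, H.mul_mem (H.mul_mem hh hd'.2) (H.inv_mem hh)⟩
        · intro hd
          have hd' : h * d * h⁻¹ ∈ N ⊓ H := hd
          constructor
          · have := hNn.conj_mem _ hd'.1 h⁻¹
            simpa [mul_assoc] using this
          · have := mul_mem (mul_mem (inv_mem hh) hd'.2) hh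
            simpa [mul_assoc] using this
    have hD0 : N ⊓ H = ⊥ := by
      by_contra hne
      obtain ⟨L, hLn, hL0, hLD, hLmin⟩ := Cfsg.Agent.H4.exists_minimal_normal_le hDn hne
      have hLN : L ≤ N := hLD.trans inf_le_left
      have hLS : L ∈ S := ⟨hLn, hL0, Cfsg.Agent.H4.isMulCommutative_of_le hLN, hLmin⟩
      have hLT : L ≤ T := le_sSup ⟨hLS, hLN⟩
      apply hL0
      rw [eq_bot_iff, ← hinf]
      exact le_inf hLT (hLD.trans inf_le_right)
    refine le_trans ?_ hTS
    intro n hn
    have hg : n ∈ T ⊔ H := by rw [hsup]; trivial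
    rw [Subgroup.mem_sup_of_normal_left] at hg
    obtain ⟨t, ht, h, hh, hth⟩ := hg
    have hhN : h ∈ N ⊓ H := by
      refine ⟨?_, hh⟩
      have : h = t⁻¹ * n := by rw [← hth]; group
      rw [this]; exact N.mul_mem (N.inv_mem (hTN ht)) hn
    rw [hD0, Subgroup.mem_bot] at hhN
    rw [← hth, hhN, mul_one]; exact ht
  · apply sSup_le
    rintro N ⟨hNn, -, hNc, -⟩
    exact le_sSup ⟨hNn, Cfsg.Agent.H4.isNilpotent_of_isMulCommutative⟩

end Cfsg.Agent.S0586
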