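import Cfsg.Statements.S0587
import Mathlib
import Cfsg.Agent.H4.PCoreMax
import Cfsg.Agent.H1.Fit
import Cfsg.Agent.H4.MinNormal

set_option autoImplicit false
open Cfsg

namespace Cfsg.Agent.S0587

open Subgroup Cfsg.Agent.H4
open scoped Pointwise

/-- Let G be a finite group whose largest normal p-subgroup L is nontrivial, and M a maximal subgroup of G with trivial normal core. Then L is elementary abelian, M is a complement to L, L is a minimal normal subgroup of G, the centralizer of L is L, and for every prime q such that the largest normal q-subgroup of M is nontrivial, the order of L is congruent to 1 modulo q and q ≠ p. -/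
theorem result {G : Type*} [Group G] [Finite G] (p : ℕ) [Fact p.Prime] (hL : Cfsg.pCore p G ≠ ⊥) (M : Subgroup G) (hM : IsCoatom M) (hcore : M.normalCore = ⊥) : Cfsg.IsElementaryAbelian p (Cfsg.pCore p G) ∧ Subgroup.IsComplement' (Cfsg.pCore p G) M ∧ (∀ K : Subgroup G, K.Normal → K ≤ Cfsg.pCore p G → K = ⊥ ∨ K = Cfsg.pCore p G) ∧ Subgroup.centralizer ((Cfsg.pCore p G : Subgroup G) : Set G) = Cfsg.pCore p G ∧ ∀ (q : ℕ) [Fact q.Prime], Cfsg.pCore q ↥M ≠ ⊥ → Nat.card (Cfsg.pCore p G) % q = 1 % q ∧ q ≠ p := by
  set L := Cfsg.pCore p G with hLdef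
  have hLn : L.Normal := Cfsg.H1.pCore_normal p
  have hLp : IsPGroup p L := Cfsg.H1.pCore_isPGroup p
  obtain ⟨N, hNn, hN0, hNL, hNmin⟩ := exists_minimal_normal_le hLn hL
  have hNp : IsPGroup p N := hLp.to_le hNL
  have hNnil : Group.IsNilpotent N := hNp.isNilpotent
  have hLnil : Group.IsNilpotent L := hLp.isNilpotent
  obtain ⟨hNc, -⟩ := minimal_normal_of_solvable N hN0 hNmin
  have h1 := centralizer_inf_eq_bot_of_coreFree hM hcore N hN0
  have h2 := sup_eq_top_of_coreFree hM hcore N hN0
  have hNC : N ≤ centralizer (N : Set G) := by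
    intro a ha
    rw [mem_centralizer_iff]
    intro b hb
    exact comm_of_mem hb ha
  have h3 : N = centralizer (N : Set G) :=
    (centralizer_minimal_of_coreFree hM hcore N hN0 N hNn hNC).resolve_left hN0
  have h4 : L ≤ centralizer (N : Set G) := nilpotent_normal_le_centralizer_minimal_normal N hNmin L
  have hLN : L = N := le_antisymm (h4.trans h3.symm.le) hNL
  have hLM : L ⊓ M = ⊥ := by rw [hLN]; rw [← h3] at h1; exact h1
  have hsup : M ⊔ L = ⊤ := by rw [hLN]; exact h2
  have hCL : centralizer (L : Set G) = L := by rw [hLN]; exact h3.symm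
  have hmin : ∀ K : Subgroup G, K.Normal → K ≤ L → K = ⊥ ∨ K = L := by rw [hLN]; exact hNmin
  have hLc : IsMulCommutative L := by rw [hLN]; exact hNc
  refine ⟨⟨hLc, pow_eq_one_of_minimal_normal L hL hmin hLc hLp⟩, ?_, hmin, hCL, ?_⟩
  · apply isComplement'_of_disjoint_and_mul_eq_univ (disjoint_iff.mpr hLM)
    rw [← normal_mul, sup_comm, hsup, coe_top]
  · intro q _ hQ0
    set Q := (Cfsg.pCore q M).map M.subtype with hQdef
    have hQM : Q ≤ M := map_subtype_le _
    have hQq : IsPGroup q Q := (Cfsg.H1.pCore_isPGroup q).map _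
    have hQne : Q ≠ ⊥ := by
      intro h
      exact hQ0 ((Subgroup.map_eq_bot_iff_of_injective _ M.subtype_injective).mp h)
    have hMQ : M ≤ normalizer (Q : Set G) := by
      have : (Cfsg.pCore q M).Normal := Cfsg.H1.pCore_normal q
      have h5 := le_normalizer_map (H := Cfsg.pCore q M) M.subtype
      rw [normalizer_eq_top, ← MonoidHom.range_eq_map, range_subtype] at h5
      exact h5
    have hnot : ¬ Q ≤ L := by
      intro h
      apply hQne
      rw [eq_bot_iff, ← hLM]
      exact le_inf h hQM
    have hnorm : ∀ X : Subgroup G, M ≤ normalizer (X : Set G) → L ≤ normalizer (X : Set G) →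
        X.Normal := by
      intro X hX1 hX2
      rw [← normalizer_eq_top_iff, eq_top_iff, ← hsup]
      exact sup_le hX1 hX2
    constructor
    · have hC : (L ⊓ centralizer (Q : Set G)).Normal := by
        apply hnorm
        · rw [le_normalizer_iff]
          intro m hm c hc
          refine mem_inf.2 ⟨hLn.conj_mem c hc.1 m, ?_⟩
          rw [mem_centralizer_iff]
          intro x hx
          have h5 : m⁻¹ * x * m⁻¹⁻¹ ∈ Q := (le_normalizer_iff.mp hMQ) m⁻¹ (M.inv_mem hm) x hx
          have h6 := (mem_centralizer_iff.mp (mem_inf.1 hc).2) _ h5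
          calc x * (m * c * m⁻¹) = m * ((m⁻¹ * x * m⁻¹⁻¹) * c) * m⁻¹ := by group
            _ = m * (c * (m⁻¹ * x * m⁻¹⁻¹)) * m⁻¹ := by rw [h6]
            _ = m * c * m⁻¹ * x := by group
        · rw [le_normalizer_iff]
          intro l hl c hc
          have h5 : l * c = c * l := comm_of_mem hl hc.1
          rw [h5, mul_inv_cancel_right]
          exact hc
      rcases hmin _ hC inf_le_left with h5 | h5
      · exact card_modEq_one_of_centralizer_eq_bot L Q hQq h5
      · exfalso
        apply hnot
        rw [← hCL, le_centralizer_iff]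
        exact inf_eq_left.mp h5
    · rintro rfl
      apply hnot
      have hn : (L ⊔ Q).Normal := by
        apply hnorm
        · intro m hm
          rw [← conj_smul_eq_iff_mem_normalizer, smul_sup, hLn.conj_smul_eq_self,
            conj_smul_eq_iff_mem_normalizer.mpr (hMQ hm)]
        · exact le_sup_left.trans le_normalizer
      exact le_sup_right.trans (Cfsg.H1.le_pCore hn (IsPGroup.to_sup_of_normal_left hLp hQq))

end Cfsg.Agent.S0587
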