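import Cfsg.Statements.S0591
import Cfsg.Agent.Lib.Helper13.Offender

set_option autoImplicit false
open Cfsg

namespace Cfsg.Agent.S0591

open Cfsg.Agent.Lib.Helper13
open scoped commutatorElement

/-- For a quadratically acting element a on an elementary abelian p-group V, the fixed points C_V(a) have order at least the square root of the order of V. -/
theorem result {G : Type*} [Group G] [Finite G] {p : ℕ} [Fact p.Prime] (V : Subgroup G) (hV : Cfsg.IsElementaryAbelian p V) (a : G) (ha : a ∈ Subgroup.normalizer (V : Set G)) (hq : ⁅⁅V, Subgroup.zpowers a⁆, Subgroup.zpowers a⁆ = ⊥) : Nat.card V ≤ Nat.card ↥(V ⊓ Subgroup.centralizer (Subgroup.zpowers a : Set G)) ^ 2 := by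
  have hn : Subgroup.zpowers a ≤ Subgroup.normalizer (V : Set G) := by
    rw [Subgroup.zpowers_le]; exact ha
  have h1 : (V ⊓ Subgroup.centralizer (Subgroup.zpowers a : Set G)).relIndex V ≤
      (⊥ : Subgroup G).relIndex (V ⊓ Subgroup.centralizer (Subgroup.zpowers a : Set G)) := by
    apply relIndex_le_of_map (fun v => ⁅v, a⁆)
    · intro v hv
      have hc : ⁅v, a⁆ ∈ ⁅V, Subgroup.zpowers a⁆ :=
        Subgroup.commutator_mem_commutator hv (Subgroup.mem_zpowers a)
      exact ⟨(Subgroup.le_normalizer_iff_commutator_le_left.mp hn) hc,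
        (Subgroup.commutator_eq_bot_iff_le_centralizer.mp hq) hc⟩
    · intro v hv w hw h
      rw [Subgroup.mem_bot, inv_mul_eq_one, commutatorElement_def, commutatorElement_def] at h
      refine Subgroup.mem_inf.mpr ⟨V.mul_mem (V.inv_mem hv) hw, ?_⟩
      rw [Subgroup.zpowers_eq_closure, Subgroup.centralizer_closure, Subgroup.mem_centralizer_singleton_iff]
      have h2 : v * a * v⁻¹ = w * a * w⁻¹ := mul_right_cancel h
      calc v⁻¹ * w * a = v⁻¹ * (w * a * w⁻¹) * w := by group
        _ = v⁻¹ * (v * a * v⁻¹) * w := by rw [h2]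
        _ = a * (v⁻¹ * w) := by group
  rw [Subgroup.relIndex_bot_left] at h1
  rw [← relIndex_mul_card' (inf_le_left : V ⊓ Subgroup.centralizer (Subgroup.zpowers a : Set G) ≤ V), sq]
  exact Nat.mul_le_mul_right _ h1

end Cfsg.Agent.S0591
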