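import Mathlib
import Cfsg.Statements.S0592
-- import your own Cfsg.Agent.* helpers here

set_option autoImplicit false
open Cfsg

namespace Cfsg.Agent.S0592

section aux
open Polynomial

theorem prodId {K : Type*} [Field K] [Fintype K] :
    (∏ l : K, (X - C l) : K[X]) = X ^ Fintype.card K - X := by
  classical
  have h1 : 1 < Fintype.card K := Fintype.one_lt_card
  have hm : (X ^ Fintype.card K - X : K[X]).Monic := by
    apply Polynomial.monic_X_pow_sub
    simpa using h1
  have hd : (X ^ Fintype.card K - X : K[X]).natDegree = Fintype.card K :=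
    FiniteField.X_pow_card_sub_X_natDegree_eq K h1
  have := Polynomial.prod_multiset_X_sub_C_of_monic_of_roots_card_eq hm
    (by rw [FiniteField.roots_X_pow_card_sub_X, hd]; simp)
  rw [FiniteField.roots_X_pow_card_sub_X] at this
  exact this

theorem injProd {K : Type*} [Field K] {W : Type*} [AddCommGroup W] [Module K W]
    (Cc : Module.End K W) (s : Finset K)
    (h : ∀ l ∈ s, ∀ v, Cc v = l • v → v = 0) :
    ∀ v, aeval Cc (∏ l ∈ s, (X - C l) : K[X]) v = 0 → v = 0 := by
  classical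
  induction s using Finset.induction_on with
  | empty => intro v hv; simpa using hv
  | insert l s hl ih =>
    intro v hv
    rw [Finset.prod_insert hl, map_mul, Module.End.mul_apply] at hv
    have h2 := h l (Finset.mem_insert_self _ _) _ (by
      have : aeval Cc (X - C l : K[X]) = Cc - algebraMap K _ l := by simp
      rw [this] at hv
      simp only [LinearMap.sub_apply, Module.algebraMap_end_apply] at hv
      exact sub_eq_zero.mp hv)
    exact ih (fun l' hl' => h l' (Finset.mem_insert_of_mem hl')) v h2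

theorem dich {K : Type*} [Field K] [Fintype K] {p : ℕ} [Fact p.Prime] [CharP K p]
    {W : Type*} [AddCommGroup W] [Module K W]
    (Cc : Module.End K W) (e k : ℕ) (hk : k ∣ Fintype.card K - 1)
    (hC : Cc ^ (p ^ e * k) = 1)
    (h : ∀ l : K, l ≠ 1 → ∀ v, Cc v = l • v → v = 0) :
    (Cc - 1) ^ (p ^ e) = 0 := by
  classical
  set q := Fintype.card K with hq
  have h1 : 1 < q := Fintype.one_lt_card
  set T : K[X] := ∏ l ∈ Finset.univ.erase (1 : K), (X - C l) with hT
  have hid : (X - C 1) * T = X ^ q - X := by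
    rw [hT, Finset.mul_prod_erase Finset.univ (fun l : K => (X - C l : K[X])) (Finset.mem_univ _)]
    exact prodId
  have hid2 : (T ^ (p ^ e)) * (X - 1) ^ (p ^ e) = X ^ (p ^ e) * (X ^ ((q - 1) * p ^ e) - 1) := by
    have : (X ^ q - X : K[X]) = X * (X ^ (q - 1) - 1) := by
      obtain ⟨r, hr⟩ : ∃ r, q = r + 1 := ⟨q - 1, by omega⟩
      rw [hr]; simp; ring
    rw [← mul_pow, mul_comm T, show (X - 1 : K[X]) = X - C 1 by simp, hid, this, mul_pow, sub_pow_char_pow, one_pow, ← pow_mul]
  have hz : aeval Cc (X ^ (p ^ e) * (X ^ ((q - 1) * p ^ e) - 1) : K[X]) = 0 := by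
    obtain ⟨d, hd⟩ := hk
    have : Cc ^ ((q - 1) * p ^ e) = 1 := by
      rw [hd, show k * d * p ^ e = (p ^ e * k) * d by ring, pow_mul, hC, one_pow]
    simp [this]
  rw [← hid2, map_mul] at hz
  have hinj : ∀ n : ℕ, ∀ v, aeval Cc (T ^ n) v = 0 → v = 0 := by
    intro n
    induction n with
    | zero => intro v hv; simpa using hv
    | succ n ih =>
      intro v hv
      rw [pow_succ, map_mul, Module.End.mul_apply] at hv
      exact injProd Cc _ (fun l hl => h l (Finset.ne_of_mem_erase hl)) v (ih _ hv)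
  ext v
  have := congrArg (fun f => f v) hz
  simp only [Module.End.mul_apply, LinearMap.zero_apply] at this
  have h3 := hinj _ _ this
  simpa using h3

theorem nilAB {R : Type*} [Ring R] (A B : R) (hA : A * A = 0) (hB : B * B = 0) (n : ℕ)
    (Ci : R) (hCi : Ci * ((1 + A) * (1 + B)) = 1)
    (hn : ((1 + A) * (1 + B) - 1) ^ n = 0) : (A * B) ^ (n + 1) = 0 ∧ (B * A) ^ (n + 1) = 0 := by
  have hAA : ∀ X, A * (A * X) = 0 := fun X => by rw [← mul_assoc, hA, zero_mul]
  have hBB : ∀ X, B * (B * X) = 0 := fun X => by rw [← mul_assoc, hB, zero_mul]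
  set Cc := (1 + A) * (1 + B) with hCc
  set S := A * B + B * A with hS
  have hC1 : Cc - 1 = A + B + A * B := by rw [hCc]; noncomm_ring
  have hC2 : Cc = 1 + (A + B + A * B) := by rw [← hC1]; abel
  have hCS : Cc * S = (Cc - 1) ^ 2 := by
    rw [hC1, hC2, hS, sq]
    simp only [mul_add, add_mul, mul_one, one_mul, mul_assoc, hA, hB, hAA, hBB, mul_zero, zero_mul,
      add_zero, zero_add]
    abel
  have hSC : S * Cc = (Cc - 1) ^ 2 := by
    rw [hC1, hC2, hS, sq]
    simp only [mul_add, add_mul, mul_one, one_mul, mul_assoc, hA, hB, hAA, hBB, mul_zero, zero_mul,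
      add_zero, zero_add]
    abel
  have hcomm : Commute Cc S := by rw [Commute, SemiconjBy, hCS, hSC]
  have h1 : Cc ^ n * S ^ n = 0 := by
    rw [← hcomm.mul_pow, hCS, ← pow_mul, mul_comm, pow_mul, hn, zero_pow (by norm_num)]
  have h2 : ∀ m : ℕ, Ci ^ m * Cc ^ m = 1 := by
    intro m
    induction m with
    | zero => simp
    | succ m ih =>
      rw [pow_succ, pow_succ', mul_assoc, ← mul_assoc Ci, hCi, one_mul, ih]
  have h3 : S ^ n = 0 := by
    have := congrArg (fun x => Ci ^ n * x) h1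
    simp only [← mul_assoc, h2, one_mul, mul_zero] at this
    exact this
  have hABS : A * B * S = (A * B) ^ 2 := by
    rw [hS, sq]
    simp only [mul_add, mul_assoc, hBB, mul_zero, add_zero]
  have hBAS : B * A * S = (B * A) ^ 2 := by
    rw [hS, sq]
    simp only [mul_add, mul_assoc, hAA, mul_zero, zero_add]
  have h4 : ∀ j : ℕ, A * B * S ^ j = (A * B) ^ (j + 1) := by
    intro j
    induction j with
    | zero => simp
    | succ j ih =>
      rw [pow_succ, ← mul_assoc, ih, pow_succ (A * B) j, mul_assoc, hABS, ← pow_add]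
  have h5 : ∀ j : ℕ, B * A * S ^ j = (B * A) ^ (j + 1) := by
    intro j
    induction j with
    | zero => simp
    | succ j ih =>
      rw [pow_succ, ← mul_assoc, ih, pow_succ (B * A) j, mul_assoc, hBAS, ← pow_add]
  exact ⟨by rw [← h4, h3, mul_zero], by rw [← h5, h3, mul_zero]⟩

theorem closure_ind_fin {G : Type*} [Group G] [Finite G] (S : Set G) (P : G → Prop) (h1 : P 1)
    (hS : ∀ s ∈ S, P s) (hmul : ∀ x y, P x → P y → P (x * y)) :
    ∀ g ∈ Subgroup.closure S, P g := by
  have hpow : ∀ x, P x → ∀ n : ℕ, P (x ^ n) := by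
    intro x hx n
    induction n with
    | zero => simpa using h1
    | succ n ih => rw [pow_succ]; exact hmul _ _ ih hx
  intro g hg
  induction hg using Subgroup.closure_induction with
  | mem x hx => exact hS x hx
  | one => exact h1
  | mul x y _ _ hx hy => exact hmul x y hx hy
  | inv x _ hx =>
    have : x⁻¹ = x ^ (orderOf x - 1) := by
      rw [inv_eq_iff_mul_eq_one, ← pow_succ', Nat.sub_add_cancel (orderOf_pos x), pow_orderOf_eq_one]
    rw [this]; exact hpow x hx _

noncomputable def XY {K W : Type*} [Field K] [AddCommGroup W] [Module K W] (A B : Module.End K W) :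
    ℕ → Submodule K W × Submodule K W
  | 0 => (⊤, ⊤)
  | (j + 1) => ((XY A B j).2.map A, (XY A B j).1.map B)

section
variable {K W : Type*} [Field K] [AddCommGroup W] [Module K W] (A B : Module.End K W)

theorem XY_mono (j : ℕ) : (XY A B (j + 1)).1 ≤ (XY A B j).1 ∧ (XY A B (j + 1)).2 ≤ (XY A B j).2 := by
  induction j with
  | zero => exact ⟨le_top, le_top⟩
  | succ j ih => exact ⟨Submodule.map_mono ih.2, Submodule.map_mono ih.1⟩

theorem XY_A (hA : A * A = 0) (j : ℕ) (w : W) (hw : w ∈ (XY A B j).1 ⊔ (XY A B j).2) :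
    A w ∈ (XY A B (j + 1)).1 := by
  obtain ⟨x, hx, y, hy, rfl⟩ := Submodule.mem_sup.mp hw
  rw [map_add]
  refine Submodule.add_mem _ ?_ (Submodule.mem_map_of_mem hy)
  cases j with
  | zero => exact Submodule.mem_map_of_mem (by trivial)
  | succ i =>
    obtain ⟨z, _, rfl⟩ := Submodule.mem_map.mp hx
    have : A (A z) = 0 := by rw [← Module.End.mul_apply, hA]; rfl
    rw [this]; exact Submodule.zero_mem _

theorem XY_B (hB : B * B = 0) (j : ℕ) (w : W) (hw : w ∈ (XY A B j).1 ⊔ (XY A B j).2) :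
    B w ∈ (XY A B (j + 1)).2 := by
  obtain ⟨x, hx, y, hy, rfl⟩ := Submodule.mem_sup.mp hw
  rw [map_add]
  refine Submodule.add_mem _ (Submodule.mem_map_of_mem hx) ?_
  cases j with
  | zero => exact Submodule.mem_map_of_mem (by trivial)
  | succ i =>
    obtain ⟨z, _, rfl⟩ := Submodule.mem_map.mp hy
    have : B (B z) = 0 := by rw [← Module.End.mul_apply, hB]; rfl
    rw [this]; exact Submodule.zero_mem _

theorem XY_even (m : ℕ) : (∀ w ∈ (XY A B (2 * m)).1, ∃ v, w = ((A * B) ^ m) v) ∧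
    (∀ w ∈ (XY A B (2 * m)).2, ∃ v, w = ((B * A) ^ m) v) := by
  induction m with
  | zero => exact ⟨fun w _ => ⟨w, by simp⟩, fun w _ => ⟨w, by simp⟩⟩
  | succ m ih =>
    constructor
    · intro w hw
      obtain ⟨y, hy, rfl⟩ := Submodule.mem_map.mp (show w ∈ ((XY A B (2 * m + 1)).2).map A from hw)
      obtain ⟨x, hx, rfl⟩ := Submodule.mem_map.mp (show y ∈ ((XY A B (2 * m)).1).map B from hy)
      obtain ⟨v, rfl⟩ := ih.1 x hx
      exact ⟨v, by rw [pow_succ']; rfl⟩
    · intro w hw
      obtain ⟨y, hy, rfl⟩ := Submodule.mem_map.mp (show w ∈ ((XY A B (2 * m + 1)).1).map B from hw)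
      obtain ⟨x, hx, rfl⟩ := Submodule.mem_map.mp (show y ∈ ((XY A B (2 * m)).2).map A from hy)
      obtain ⟨v, rfl⟩ := ih.2 x hx
      exact ⟨v, by rw [pow_succ']; rfl⟩
end

section
variable {K W : Type*} [Field K] [AddCommGroup W] [Module K W]

theorem coe_pow_apply (h : W ≃ₗ[K] W) (n : ℕ) (w : W) :
    (h ^ n) w = (((h : W →ₗ[K] W) : Module.End K W) ^ n) w := by
  induction n generalizing w with
  | zero => simp
  | succ n ih =>
    rw [pow_succ, pow_succ, LinearEquiv.mul_apply, Module.End.mul_apply, ih]; rfl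

theorem caseII [Finite W] (p : ℕ) [Fact p.Prime] [CharP K p] (a b : W ≃ₗ[K] W)
    (ha : ∀ w : W, a (a w - w) = a w - w) (hb : ∀ w : W, b (b w - w) = b w - w) (N : ℕ)
    (hN : ((((a * b : W ≃ₗ[K] W) : W →ₗ[K] W) : Module.End K W) - 1) ^ N = 0) :
    IsPGroup p (Subgroup.closure ({a, b} : Set (W ≃ₗ[K] W))) := by
  haveI : Finite (W ≃ₗ[K] W) := Finite.of_injective (fun f => (f : W → W)) DFunLike.coe_injective
  set A : Module.End K W := (a : W →ₗ[K] W) - 1 with hAd
  set B : Module.End K W := (b : W →ₗ[K] W) - 1 with hBd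
  have hAw : ∀ w, A w = a w - w := fun w => rfl
  have hBw : ∀ w, B w = b w - w := fun w => rfl
  have hA : A * A = 0 := by
    ext w
    rw [Module.End.mul_apply, hAw, hAw, ha, sub_self]; rfl
  have hB : B * B = 0 := by
    ext w
    rw [Module.End.mul_apply, hBw, hBw, hb, sub_self]; rfl
  have hC : (1 + A) * (1 + B) = (((a * b : W ≃ₗ[K] W) : W →ₗ[K] W) : Module.End K W) := by
    ext w
    simp [hAd, hBd]
  obtain ⟨h1, h2⟩ := nilAB A B hA hB N ((((a * b)⁻¹ : W ≃ₗ[K] W) : W →ₗ[K] W) : Module.End K W)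
    (by rw [hC]; ext w; simp) (by rw [hC]; exact hN)
  set T : ℕ → Submodule K W := fun j => (XY A B j).1 ⊔ (XY A B j).2 with hT
  have hTm : ∀ j, T (j + 1) ≤ T j := fun j => sup_le_sup (XY_mono A B j).1 (XY_mono A B j).2
  have hT0 : T (2 * (N + 1)) = ⊥ := by
    rw [eq_bot_iff]
    refine sup_le ?_ ?_
    · intro w hw
      obtain ⟨v, rfl⟩ := (XY_even A B (N + 1)).1 w hw
      rw [h1]; simp
    · intro w hw
      obtain ⟨v, rfl⟩ := (XY_even A B (N + 1)).2 w hw
      rw [h2]; simp
  have hP : ∀ g ∈ Subgroup.closure ({a, b} : Set (W ≃ₗ[K] W)), ∀ j, ∀ w ∈ T j, g w - w ∈ T (j + 1) := by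
    apply closure_ind_fin
    · intro j w _; simp
    · intro s hs j w hw
      rcases hs with rfl | hs
      · rw [← hAw]; exact Submodule.mem_sup_left (XY_A A B hA j w hw)
      · rw [Set.mem_singleton_iff] at hs
        subst hs
        rw [← hBw]; exact Submodule.mem_sup_right (XY_B A B hB j w hw)
    · intro x y hx hy j w hw
      have e : (x * y) w - w = (x (y w - w) - (y w - w)) + (y w - w) + (x w - w) := by
        rw [LinearEquiv.mul_apply, map_sub]; abel
      rw [e]
      exact Submodule.add_mem _ (Submodule.add_mem _ (hTm _ (hx _ _ (hy j w hw))) (hy j w hw)) (hx j w hw)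
  intro ⟨g, hg⟩
  have hu : ∀ j w, ((((g : W →ₗ[K] W) : Module.End K W) - 1) ^ j) w ∈ T j := by
    intro j
    induction j with
    | zero => intro w; exact Submodule.mem_sup_left (by trivial)
    | succ j ih =>
      intro w
      rw [pow_succ', Module.End.mul_apply]
      exact hP g hg j _ (ih w)
  have hz : (((g : W →ₗ[K] W) : Module.End K W) - 1) ^ (2 * (N + 1)) = 0 := by
    ext w
    have := hu (2 * (N + 1)) w
    rw [hT0] at this
    simpa using this
  obtain ⟨t, ht⟩ : ∃ t, 2 * (N + 1) ≤ p ^ t :=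
    ⟨2 * (N + 1), (Nat.lt_pow_self (Fact.out : p.Prime).one_lt).le⟩
  have hz2 : (((g : W →ₗ[K] W) : Module.End K W) - 1) ^ (p ^ t) = 0 := pow_eq_zero_of_le ht hz
  have hpoly : ((X - 1 : K[X])) ^ (p ^ t) = X ^ (p ^ t) - 1 := by
    rw [sub_pow_char_pow, one_pow]
  have h3 := congrArg (aeval ((g : W →ₗ[K] W) : Module.End K W)) hpoly
  simp only [map_pow, map_sub, aeval_X, map_one] at h3
  rw [hz2] at h3
  refine ⟨t, ?_⟩
  apply Subtype.ext
  apply LinearEquiv.ext
  intro w
  have h4 : (((g : W →ₗ[K] W) : Module.End K W)) ^ (p ^ t) = 1 := (sub_eq_zero.mp h3.symm)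
  show (g ^ (p ^ t)) w = w
  rw [coe_pow_apply, h4]; rfl
end

section
variable {K W : Type*} [Field K] [AddCommGroup W] [Module K W]

theorem caseI [Finite W] (p : ℕ) [Fact p.Prime] [CharP K p] (a b : W ≃ₗ[K] W)
    (ha : ∀ w : W, a (a w - w) = a w - w) (hb : ∀ w : W, b (b w - w) = b w - w)
    (l : K) (hl : l ≠ 1) (w : W) (hw : w ≠ 0) (hcw : a (b w) = l • w) :
    ∃ φ : (Subgroup.closure ({a, b} : Set (W ≃ₗ[K] W))) →* Matrix.SpecialLinearGroup (Fin 2) K,
      ¬ IsPGroup p φ.range := by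
  classical
  haveI : Finite (W ≃ₗ[K] W) := Finite.of_injective (fun f => (f : W → W)) DFunLike.coe_injective
  have hl0 : l ≠ 0 := by
    rintro rfl
    rw [zero_smul] at hcw
    have : b w = 0 := by simpa using hcw
    exact hw (by simpa using this)
  have haa : ∀ v, a (a v) = a v + a v - v := by
    intro v
    have := ha v
    rw [map_sub] at this
    rw [sub_eq_iff_eq_add.mp this]; abel
  have hbb : ∀ v, b (b v) = b v + b v - v := by
    intro v
    have := hb v
    rw [map_sub] at this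
    rw [sub_eq_iff_eq_add.mp this]; abel
  have haw : a w = w + w - l⁻¹ • b w := by
    have h1 := haa (b w)
    rw [hcw, map_smul] at h1
    have h2 := congrArg (fun z => l⁻¹ • z) h1
    simp only [smul_smul, inv_mul_cancel₀ hl0, one_smul, smul_sub, smul_add] at h2
    exact h2
  -- unipotent eigenvalue lemma
  have huni : ∀ (g : W ≃ₗ[K] W), (∀ v, g (g v - v) = g v - v) → ∀ (ν : K), g w = ν • w → ν = 1 := by
    intro g hg ν hν
    have := hg w
    rw [hν, ← one_smul K w, smul_smul, mul_one, ← sub_smul, map_smul, hν, smul_smul] at this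
    have h2 : ((ν - 1) * ν - (ν - 1)) • w = 0 := by rw [sub_smul, this, sub_self]
    rcases smul_eq_zero.mp h2 with h3 | h3
    · have : (ν - 1) * (ν - 1) = 0 := by linear_combination h3
      exact sub_eq_zero.mp (mul_self_eq_zero.mp this)
    · exact absurd h3 hw
  set ι : (Fin 2 → K) →ₗ[K] W :=
    (LinearMap.proj 0 : (Fin 2 → K) →ₗ[K] K).smulRight w + (LinearMap.proj 1 : (Fin 2 → K) →ₗ[K] K).smulRight (b w) with hι
  have hιx : ∀ x, ι x = x 0 • w + x 1 • b w := fun x => rfl
  have hker : LinearMap.ker ι = ⊥ := by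
    rw [LinearMap.ker_eq_bot']
    intro x hx
    rw [hιx] at hx
    by_cases h1 : x 1 = 0
    · rw [h1, zero_smul, add_zero] at hx
      have h0 : x 0 = 0 := (smul_eq_zero.mp hx).resolve_right hw
      ext i; fin_cases i <;> simp [h0, h1]
    · exfalso
      have hbw : b w = (-(x 1)⁻¹ * x 0) • w := by
        have h2 := congrArg (fun z => (x 1)⁻¹ • z) hx
        simp only [smul_add, smul_smul, inv_mul_cancel₀ h1, one_smul, smul_zero] at h2
        rw [neg_mul, neg_smul]
        exact eq_neg_of_add_eq_zero_right h2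
      have hν := huni b hb _ hbw
      rw [hν, one_smul] at hbw
      rw [hbw] at hcw
      exact hl (huni a ha l hcw)
  obtain ⟨π, hπ⟩ := LinearMap.exists_leftInverse_of_injective ι hker
  have hπι : ∀ x, π (ι x) = x := fun x => by
    have := congrArg (fun f => f x) hπ
    simpa using this
  have hPa : ∀ x, a (ι x) = ι ![2 * x 0 + l * x 1, -l⁻¹ * x 0] := by
    intro x
    rw [hιx, hιx, map_add, map_smul, map_smul, hcw, haw]
    simp only [Matrix.cons_val_zero, Matrix.cons_val_one, smul_sub, smul_add, smul_smul, add_smul,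
      neg_smul, neg_mul, two_mul, mul_comm l⁻¹, mul_comm l]
    abel
  have hPb : ∀ x, b (ι x) = ι ![-x 1, x 0 + 2 * x 1] := by
    intro x
    rw [hιx, hιx, map_add, map_smul, map_smul, hbb]
    simp only [Matrix.cons_val_zero, Matrix.cons_val_one, smul_sub, smul_add, smul_smul, add_smul,
      neg_smul, two_mul]
    abel
  set ψ : (W ≃ₗ[K] W) → Matrix (Fin 2) (Fin 2) K :=
    fun h => LinearMap.toMatrix' (π ∘ₗ (h : W →ₗ[K] W) ∘ₗ ι) with hψ
  have hψmul : ∀ h h' : W ≃ₗ[K] W, (∀ x, ∃ y, h' (ι x) = ι y) → ψ (h * h') = ψ h * ψ h' := by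
    intro h h' hP
    simp only [hψ]
    rw [← LinearMap.toMatrix'_comp]
    congr 1
    ext1 x
    apply LinearMap.ext
    intro c
    simp only [LinearMap.comp_apply, LinearEquiv.coe_coe, LinearEquiv.mul_apply]
    obtain ⟨y, hy⟩ := hP (LinearMap.single K (fun _ => K) x c)
    rw [hy, hπι]
  have hQ : ∀ g ∈ Subgroup.closure ({a, b} : Set (W ≃ₗ[K] W)),
      (∀ x, ∃ y, g (ι x) = ι y) ∧ (ψ g).det = 1 := by
    apply closure_ind_fin
    · refine ⟨fun x => ⟨x, rfl⟩, ?_⟩
      have : ψ 1 = 1 := by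
        simp only [hψ]
        rw [← LinearMap.toMatrix'_id]
        have e1 : π ∘ₗ ((1 : W ≃ₗ[K] W) : W →ₗ[K] W) ∘ₗ ι = LinearMap.id := by
          apply LinearMap.ext
          intro x
          exact hπι x
        rw [e1]
      rw [this, Matrix.det_one]
    · intro s hs
      rcases hs with rfl | hs
      · refine ⟨fun x => ⟨_, hPa x⟩, ?_⟩
        rw [Matrix.det_fin_two]
        simp only [hψ, LinearMap.toMatrix'_apply, LinearMap.comp_apply, LinearEquiv.coe_coe, hPa, hπι]
        simp [hl0]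
      · rw [Set.mem_singleton_iff] at hs
        subst hs
        refine ⟨fun x => ⟨_, hPb x⟩, ?_⟩
        rw [Matrix.det_fin_two]
        simp only [hψ, LinearMap.toMatrix'_apply, LinearMap.comp_apply, LinearEquiv.coe_coe, hPb, hπι]
        simp
    · intro x y hx hy
      refine ⟨fun z => ?_, ?_⟩
      · obtain ⟨y1, hy1⟩ := hy.1 z
        obtain ⟨y2, hy2⟩ := hx.1 y1
        exact ⟨y2, by rw [LinearEquiv.mul_apply, hy1, hy2]⟩
      · rw [hψmul x y hy.1, Matrix.det_mul, hx.2, hy.2, one_mul]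
  let φ : (Subgroup.closure ({a, b} : Set (W ≃ₗ[K] W))) →* Matrix.SpecialLinearGroup (Fin 2) K :=
    MonoidHom.mk' (fun h => ⟨ψ h.1, (hQ h.1 h.2).2⟩)
      (fun h h' => Subtype.ext (hψmul h.1 h'.1 (hQ h'.1 h'.2).1))
  refine ⟨φ, fun hp => ?_⟩
  have hc : a * b ∈ Subgroup.closure ({a, b} : Set (W ≃ₗ[K] W)) :=
    Subgroup.mul_mem _ (Subgroup.subset_closure (by simp)) (Subgroup.subset_closure (by simp))
  obtain ⟨t, ht⟩ := hp ⟨φ ⟨a * b, hc⟩, ⟨_, rfl⟩⟩
  have h1 : φ (⟨a * b, hc⟩ ^ (p ^ t)) = 1 := by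
    rw [map_pow]
    exact congrArg Subtype.val ht
  have h2 : ψ ((a * b) ^ (p ^ t)) = 1 := congrArg Subtype.val h1
  have hpw : ∀ n : ℕ, ((a * b) ^ n) w = l ^ n • w := by
    intro n
    induction n with
    | zero => simp
    | succ n ih =>
      rw [pow_succ, LinearEquiv.mul_apply, LinearEquiv.mul_apply, hcw, map_smul, ih, smul_smul, pow_succ, mul_comm]
  have h3 : (ψ ((a * b) ^ (p ^ t))) 0 0 = l ^ (p ^ t) := by
    simp only [hψ, LinearMap.toMatrix'_apply, LinearMap.comp_apply, LinearEquiv.coe_coe]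
    have : ι (Pi.single 0 1) = w := by
      rw [hιx]; simp
    rw [this, hpw, ← this, map_smul, hπι]
    simp
  rw [h2] at h3
  have h4 : (l - 1) ^ (p ^ t) = 0 := by
    rw [sub_pow_char_pow, one_pow, ← h3]; simp
  exact hl (sub_eq_zero.mp ((pow_eq_zero_iff (pow_ne_zero _ (Fact.out : p.Prime).ne_zero)).mp h4))
end

end aux

/-- Two quadratically acting generators of a linear group that is not a p-group, with the p'-part of the order of their product dividing q - 1, give a homomorphism onto a subgroup of SL(2, q) that is not a p-group. -/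
theorem result {K : Type*} [Field K] [Fintype K] {p : ℕ} [Fact p.Prime] [CharP K p] {W : Type*} [AddCommGroup W] [Module K W] [FiniteDimensional K W] [Finite W] [Nontrivial W] (H : Subgroup (W ≃ₗ[K] W)) (a b : W ≃ₗ[K] W) (hH : H = Subgroup.closure {a, b}) (ha : ∀ w : W, a (a w - w) = a w - w) (hb : ∀ w : W, b (b w - w) = b w - w) (hnp : ¬ IsPGroup p H) (hk : ∃ e k : ℕ, orderOf (a * b) = p ^ e * k ∧ k ∣ Fintype.card K - 1) : ∃ φ : H →* Matrix.SpecialLinearGroup (Fin 2) K, ¬ IsPGroup p φ.range := by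
  obtain ⟨e, k, hord, hkd⟩ := hk
  subst hH
  have hC : ((((a * b : W ≃ₗ[K] W) : W →ₗ[K] W) : Module.End K W)) ^ (p ^ e * k) = 1 := by
    ext w
    rw [← coe_pow_apply, ← hord, pow_orderOf_eq_one]; rfl
  by_cases h : ∃ l : K, l ≠ 1 ∧ ∃ v : W, v ≠ 0 ∧ a (b v) = l • v
  · obtain ⟨l, hl, v, hv, hcv⟩ := h
    exact caseI p a b ha hb l hl v hv hcv
  · exfalso
    apply hnp
    apply caseII p a b ha hb (p ^ e)
    apply dich _ e k hkd hC
    intro l hl v hv
    by_contra hv0
    exact h ⟨l, hl, v, hv0, hv⟩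

end Cfsg.Agent.S0592
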