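import Cfsg.Statements.S0594
import Cfsg.Agent.H12.Dk28

set_option autoImplicit false
open Cfsg
open Cfsg.Agent.H12.Dk
open scoped commutatorElement

namespace Cfsg.Agent.S0594

/-- For odd p, two quadratic generators of a faithful group that is not a p-group, one of which acts nontrivially on a normal subgroup of order prime to p, force p = 3 and a section isomorphic to SL(2,3). -/
theorem result {G : Type*} [Group G] [Finite G] {p : ℕ} [Fact p.Prime] (hp : p ≠ 2) (V H : Subgroup G) (hV : Cfsg.IsElementaryAbelian p V) (hHV : H ≤ Subgroup.normalizer (V : Set G)) (hf : H ⊓ Subgroup.centralizer (V : Set G) = ⊥) (a b : G) (hab : H = Subgroup.closure {a, b}) (ha : ⁅⁅V, Subgroup.zpowers a⁆, Subgroup.zpowers a⁆ = ⊥) (hb : ⁅⁅V, Subgroup.zpowers b⁆, Subgroup.zpowers b⁆ = ⊥) (hnp : ¬ IsPGroup p H) (Q : Subgroup G) (hQH : Q ≤ H) (hQn : H ≤ Subgroup.normalizer (Q : Set G)) (hQ : (Nat.card Q).Coprime p) (hQa : ⁅Q, Subgroup.zpowers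 a⁆ ≠ ⊥) : p = 3 ∧ ∃ (K L : Subgroup G) (hL : (L.subgroupOf K).Normal), K ≤ H ∧ Nonempty ((K ⧸ L.subgroupOf K) ≃* Matrix.SpecialLinearGroup (Fin 2) (ZMod 3)) := by

  have haH : a ∈ H := by rw [hab]; exact Subgroup.subset_closure (by simp)
  have hH₀ : Q ⊔ Subgroup.zpowers a ≤ H := sup_le hQH (by rw [Subgroup.zpowers_le]; exact haH)
  have hf₀ : (Q ⊔ Subgroup.zpowers a) ⊓ Subgroup.centralizer (V : Set G) = ⊥ := by
    rw [eq_bot_iff, ← hf]
    exact inf_le_inf_right _ hH₀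
  have haH₀ : a ∈ Q ⊔ Subgroup.zpowers a := Subgroup.mem_sup_right (Subgroup.mem_zpowers a)
  have hna : a ∉ (Cfsg.pCore p ↥(Q ⊔ Subgroup.zpowers a)).map (Q ⊔ Subgroup.zpowers a).subtype := by
    intro haO
    apply hQa
    have hOp : IsPGroup p ((Cfsg.pCore p ↥(Q ⊔ Subgroup.zpowers a)).map (Q ⊔ Subgroup.zpowers a).subtype) :=
      (Cfsg.Agent.H12.pCore_isPGroup p _).map _
    have hbot := Cfsg.Agent.H12.inf_eq_bot_of_pGroup_of_coprime hOp hQ
    rw [eq_bot_iff, ← hbot, Subgroup.commutator_le]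
    intro q hq z hz
    have hzO : z ∈ (Cfsg.pCore p ↥(Q ⊔ Subgroup.zpowers a)).map (Q ⊔ Subgroup.zpowers a).subtype := by
      have : Subgroup.zpowers a ≤ (Cfsg.pCore p ↥(Q ⊔ Subgroup.zpowers a)).map (Q ⊔ Subgroup.zpowers a).subtype := by
        rw [Subgroup.zpowers_le]; exact haO
      exact this hz
    have hzH : z ∈ H := hH₀ (Subgroup.mem_sup_right hz)
    rw [commutatorElement_def]
    constructor
    · -- in `O`
      obtain ⟨z', hz', rfl⟩ := hzO
      have hchar := Cfsg.Agent.H12.pCore_characteristic p ↥(Q ⊔ Subgroup.zpowers a)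
      have hn : (Cfsg.pCore p ↥(Q ⊔ Subgroup.zpowers a)).Normal := inferInstance
      have h1 := hn.conj_mem z' hz' ⟨q, Subgroup.mem_sup_left hq⟩
      exact ⟨⟨q, Subgroup.mem_sup_left hq⟩ * z' * (⟨q, Subgroup.mem_sup_left hq⟩ : ↥(Q ⊔ Subgroup.zpowers a))⁻¹ * z'⁻¹,
        mul_mem h1 (inv_mem hz'), rfl⟩
    · -- in `Q`
      have h1 : z * q⁻¹ * z⁻¹ ∈ Q := (Subgroup.mem_normalizer_iff.mp (hQn hzH) _).mp (inv_mem hq)
      have e : q * z * q⁻¹ * z⁻¹ = q * (z * q⁻¹ * z⁻¹) := by group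
      rw [e]
      exact mul_mem hq h1
  obtain ⟨K, D, hj, hK, -⟩ := natData_of_faithful hp V _ hV (hH₀.trans hHV) hf₀ a haH₀ ha hna
  have h3 : p = 3 := by
    apply eq_three_of_lt_five hp
    intro h5
    obtain ⟨r, hr⟩ := IsPGroup.iff_card.mp (isPGroup_of_elem hV)
    have har : a ^ (p ^ r) = 1 := by
      have h1 := (quadOn_of_comm ha).pow_card_mem_centralizer (hHV haH)
      rw [hr] at h1
      have h2 : a ^ (p ^ r) ∈ H ⊓ Subgroup.centralizer (V : Set G) := ⟨pow_mem haH _, h1⟩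
      rwa [hf, Subgroup.mem_bot] at h2
    exact not_involves_sl2_of_isPSolvable h5 (isPSolvable_sup_zpowers hQ (hQn haH) har)
      (Cfsg.Agent.Lib.Helper27.involves_of_span (Subgroup.inclusion hK) D.ρ (Subgroup.inclusion_injective hK) D.ρ_surj)
  subst h3
  obtain ⟨L, hL, hiso⟩ := section_of_surj K D.ρ D.ρ_surj
  exact ⟨rfl, K, L, hL, hK.trans hH₀, hiso⟩

end Cfsg.Agent.S0594
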