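import Cfsg.Statements.S0595
import Cfsg.Agent.Lib.Helper13.QuadSL

set_option autoImplicit false
open Cfsg

namespace Cfsg.Agent.S0595

/-- For odd p, a faithful action on an elementary abelian p-group that is not p-stable forces non-abelian Sylow 2-subgroups. -/
theorem result {G : Type*} [Group G] [Finite G] {p : ℕ} [Fact p.Prime] (hp : p ≠ 2) (V H : Subgroup G) (hV : Cfsg.IsElementaryAbelian p V) (hHV : H ≤ Subgroup.normalizer (V : Set G)) (hf : H ⊓ Subgroup.centralizer (V : Set G) = ⊥) (a : G) (haH : a ∈ H) (hq : ⁅⁅V, Subgroup.zpowers a⁆, Subgroup.zpowers a⁆ = ⊥) (hna : a ∉ (Cfsg.pCore p H).map H.subtype) (T : Sylow 2 H) : ¬ IsMulCommutative T := by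
  intro hT
  obtain ⟨K, f, hKH, hfs⟩ := Cfsg.Agent.Lib.Helper13.exists_SL2_of_quad_elt hp V H hV hHV hf haH hq hna
  exact (Cfsg.Agent.Lib.Helper13.abTwo_of_sylow T hT).not_involves_SL2 p hp
    (Cfsg.Agent.Lib.Helper13.involves_of_le f hKH hfs)

end Cfsg.Agent.S0595
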