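import Cfsg.Statements.S0596
import Cfsg.Agent.H12.Dk28

set_option autoImplicit false
open Cfsg
open Cfsg.Agent.H12.Dk

namespace Cfsg.Agent.S0596

/-- For odd p, a p-separable group with a faithful action on an elementary abelian p-group that is not p-stable has p = 3 and involves SL(2,3). -/
theorem result {G : Type*} [Group G] [Finite G] {p : ℕ} [Fact p.Prime] (hp : p ≠ 2) (V H : Subgroup G) (hV : Cfsg.IsElementaryAbelian p V) (hHV : H ≤ Subgroup.normalizer (V : Set G)) (hf : H ⊓ Subgroup.centralizer (V : Set G) = ⊥) (hsep : Cfsg.IsPSolvable p H) (a : G) (haH : a ∈ H) (hq : ⁅⁅V, Subgroup.zpowers a⁆, Subgroup.zpowers a⁆ = ⊥) (hna : a ∉ (Cfsg.pCore p H).map H.subtype) : p = 3 ∧ ∃ (K L : Subgroup G) (hL : (L.subgroupOf K).Normal), K ≤ H ∧ Nonempty ((K ⧸ L.subgroupOf K) ≃* Matrix.SpecialLinearGroup (Fin 2) (ZMod 3)) := by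

  obtain ⟨K, D, hj, hK, -⟩ := natData_of_faithful hp V H hV hHV hf a haH hq hna
  have h3 : p = 3 := by
    apply eq_three_of_lt_five hp
    intro h5
    exact not_involves_sl2_of_isPSolvable h5 hsep
      (Cfsg.Agent.Lib.Helper27.involves_of_span (Subgroup.inclusion hK) D.ρ (Subgroup.inclusion_injective hK) D.ρ_surj)
  subst h3
  obtain ⟨L, hL, hiso⟩ := section_of_surj K D.ρ D.ρ_surj
  exact ⟨rfl, K, L, hL, hK, hiso⟩

end Cfsg.Agent.S0596
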