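import Cfsg.Statements.S0597
import Cfsg.Agent.Lib.Helper13.Chain
import Cfsg.Agent.Lib.Helper13.EA
import Cfsg.Agent.S0590
import Cfsg.Agent.H4.Subnormal
import Cfsg.Agent.H9.Cores

set_option autoImplicit false
open Cfsg

namespace Cfsg.Agent.S0597

open Cfsg.Agent.Lib.Helper13
open scoped commutatorElement

/-- If two subnormal subgroups of a faithful group on an elementary abelian p-group satisfy [V, E₁, E₂] = 1, then their commutator lies in the largest normal p-subgroup. -/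
theorem result {G : Type*} [Group G] [Finite G] {p : ℕ} [Fact p.Prime] (V H : Subgroup G) (hV : Cfsg.IsElementaryAbelian p V) (hHV : H ≤ Subgroup.normalizer (V : Set G)) (hf : H ⊓ Subgroup.centralizer (V : Set G) = ⊥) (E₁ E₂ : Subgroup G) (h₁ : E₁ ≤ H) (h₂ : E₂ ≤ H) (hs₁ : (E₁.subgroupOf H).IsSubnormal) (hs₂ : (E₂.subgroupOf H).IsSubnormal) (hc : ⁅⁅V, E₁⁆, E₂⁆ = ⊥) : ⁅E₁, E₂⁆ ≤ (Cfsg.pCore p H).map H.subtype := by
  have hDH : ⁅E₁, E₂⁆ ≤ H := (Subgroup.commutator_mono h₁ h₂).trans (Subgroup.commutator_le_self H)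
  have hWV : ⁅V, E₁⁆ ≤ V := Subgroup.le_normalizer_iff_commutator_le_left.mp (h₁.trans hHV)
  have hE₂W : E₂ ≤ Subgroup.normalizer ((⁅V, E₁⁆ : Subgroup G) : Set G) := by
    rw [Subgroup.commutator_eq_bot_iff_le_centralizer, Subgroup.le_centralizer_iff] at hc
    exact hc.trans (Subgroup.centralizer_le_normalizer _)
  -- `[W, D] = 1`
  have hWD : ⁅⁅V, E₁⁆, ⁅E₁, E₂⁆⁆ = ⊥ := by
    rw [Subgroup.commutator_comm]
    apply Subgroup.commutator_commutator_eq_bot_of_rotate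
    · rw [Subgroup.commutator_comm E₂, hc, Subgroup.commutator_bot_left]
    · exact le_bot_iff.mp (hc ▸ Subgroup.commutator_mono (Subgroup.commutator_mono hWV le_rfl) le_rfl)
  -- `[V, D] ≤ W`
  have hDK : ⁅E₁, E₂⁆ ≤ chainStab V ⁅V, E₁⁆ := by
    rw [Subgroup.commutator_le]
    intro e₁ he₁ e₂ he₂
    have hk : ∀ e ∈ E₁, e ∈ chainStab V ⁅V, E₁⁆ := fun e he =>
      ⟨Subgroup.normalizer_commutator_ge_right V E₁ he, fun v hv => Subgroup.commutator_mem_commutator hv he⟩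
    have h1 := conj_mem_chainStab (hHV (h₂ he₂)) (hE₂W he₂) (hk e₁⁻¹ (E₁.inv_mem he₁))
    have h2 : ⁅e₁, e₂⁆ = e₁ * (e₂ * e₁⁻¹ * e₂⁻¹) := by rw [commutatorElement_def]; group
    rw [h2]
    exact Subgroup.mul_mem _ (hk e₁ he₁) h1
  have hVD : ⁅V, ⁅E₁, E₂⁆⁆ ≤ ⁅V, E₁⁆ :=
    (Subgroup.commutator_mono le_rfl hDK).trans (commutator_chainStab_le _ _)
  have hquad : ⁅⁅V, ⁅E₁, E₂⁆⁆, ⁅E₁, E₂⁆⁆ = ⊥ :=
    le_bot_iff.mp (hWD ▸ Subgroup.commutator_mono hVD le_rfl)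
  have hpow := (Cfsg.Agent.S0590.result V ⁅E₁, E₂⁆ hV (hDH.trans hHV) hquad).2
  have hDp : IsPGroup p (⁅E₁, E₂⁆.subgroupOf H) := by
    intro d
    refine ⟨1, ?_⟩
    rw [pow_one]
    apply Subtype.ext
    apply Subtype.ext
    have hd : (d.1.1 : G) ∈ ⁅E₁, E₂⁆ := d.2
    have h1 : (d.1.1 : G) ^ p ∈ H ⊓ Subgroup.centralizer (V : Set G) :=
      ⟨H.pow_mem (hDH hd) p, hpow _ hd⟩
    rw [hf, Subgroup.mem_bot] at h1
    simpa using h1
  -- subnormality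
  have hE : ((E₁ ⊔ E₂).subgroupOf H).IsSubnormal := by
    rw [Subgroup.subgroupOf_sup h₁ h₂]
    exact Cfsg.Agent.H4.sup_isSubnormal_aux _ H rfl _ _ hs₁ hs₂
  have hDE : ⁅E₁, E₂⁆ ≤ E₁ ⊔ E₂ := Subgroup.commutator_le_sup E₁ E₂
  have hle : ⁅E₁, E₂⁆.subgroupOf H ≤ (E₁ ⊔ E₂).subgroupOf H := fun x hx => hDE hx
  have hsn : (⁅E₁, E₂⁆.subgroupOf H).IsSubnormal := by
    refine Subgroup.IsSubnormal.step _ _ hle hE ?_
    rw [Subgroup.normal_subgroupOf_iff_le_normalizer hle]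
    intro x hx
    have hx' : (x : G) ∈ Subgroup.normalizer ((⁅E₁, E₂⁆ : Subgroup G) : Set G) :=
      (sup_le (Subgroup.normalizer_commutator_ge_left E₁ E₂) (Subgroup.normalizer_commutator_ge_right E₁ E₂)) hx
    rw [Subgroup.mem_normalizer_iff]
    intro y
    exact Subgroup.mem_normalizer_iff.mp hx' y
  have hfin := Cfsg.H9.subnormal_le_pCore p hsn hDp
  rw [← Subgroup.map_subgroupOf_eq_of_le hDH]
  exact Subgroup.map_mono hfin

end Cfsg.Agent.S0597
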