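import Cfsg.Statements.S0604
import Cfsg.Agent.Lib.Helper13.EA

set_option autoImplicit false
open Cfsg

namespace Cfsg.Agent.S0604

open Cfsg.Agent.Lib.Helper13

/-- The Thompson subgroup of G is the join of the Thompson subgroups of its Sylow p-subgroups. -/
theorem result {G : Type*} [Group G] [Finite G] {p : ℕ} [Fact p.Prime] : Cfsg.thompsonSubgroup p G = ⨆ S : Sylow p G, Cfsg.thompsonSubgroupOf p (S : Subgroup G) := by
  apply le_antisymm
  · apply sSup_le
    intro A hA
    obtain ⟨S, hS⟩ := (IsEA.isPGroup hA.1).exists_le_sylow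
    exact (le_thompsonOf hA hS).trans (le_iSup (fun S : Sylow p G => Cfsg.thompsonSubgroupOf p (S : Subgroup G)) S)
  · apply iSup_le
    intro S
    obtain ⟨A₀, hA₀⟩ := exists_maxEA (G := G) (p := p)
    obtain ⟨T, hT⟩ := (IsEA.isPGroup hA₀.1).exists_le_sylow
    obtain ⟨g, hg⟩ := MulAction.exists_smul_eq G T S
    refine thompsonOf_le (maxEA_conj hA₀ g) ?_
    rw [← hg]
    rintro _ ⟨a, ha, rfl⟩
    rw [Sylow.coe_subgroup_smul]
    exact Subgroup.smul_mem_pointwise_smul_iff.mpr (hT ha)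

end Cfsg.Agent.S0604
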