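import Cfsg.Statements.S0605
import Cfsg.Agent.Lib.Helper13.EA

set_option autoImplicit false
open Cfsg

namespace Cfsg.Agent.S0605

open Cfsg.Agent.Lib.Helper13

/-- Elements of order p in the centralizer of the Thompson subgroup belong to the Thompson subgroup (so to its centre). -/
theorem result {G : Type*} [Group G] [Finite G] {p : ℕ} [Fact p.Prime] (x : G) (hx : x ∈ Subgroup.centralizer (Cfsg.thompsonSubgroup p G : Set G)) (ho : orderOf x = p) : x ∈ Cfsg.thompsonSubgroup p G := by
  obtain ⟨A, hA⟩ := exists_maxEA (G := G) (p := p)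
  have h1 : Subgroup.zpowers x ≤ A := by
    apply maxEA_contains hA (isEA_zpowers (by rw [← ho]; exact pow_orderOf_eq_one x))
    rw [Subgroup.zpowers_le]
    exact Subgroup.centralizer_le (le_thompson hA) hx
  exact le_thompson hA (h1 (Subgroup.mem_zpowers x))

end Cfsg.Agent.S0605
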