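import Cfsg.Statements.S0608
import Cfsg.Agent.Lib.Helper13.Thompson
import Cfsg.Agent.S0604

set_option autoImplicit false
open Cfsg

namespace Cfsg.Agent.S0608

open Cfsg.Agent.Lib.Helper13

/-- With trivial p'-core, Thompson factorizability is equivalent to J(G) centralizing the subgroup generated by all Ω₁(Z(S)), S Sylow. -/
theorem result {G : Type*} [Group G] [Finite G] {p : ℕ} [Fact p.Prime] (hO : Cfsg.pPrimeCore p G = ⊥) : Cfsg.IsThompsonFactorizable p G ↔ Cfsg.thompsonSubgroup p G ≤ Subgroup.centralizer ((⨆ S : Sylow p G, Cfsg.omegaOne p (((S : Subgroup G)) ⊓ Subgroup.centralizer ((S : Subgroup G) : Set G)) : Subgroup G) : Set G) := by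
  have hN := iSup_omega_normal (G := G) (p := p)
  have hle : ∀ S : Sylow p G, Cfsg.omegaOne p (((S : Subgroup G)) ⊓ Subgroup.centralizer ((S : Subgroup G) : Set G)) ≤
      ⨆ S : Sylow p G, Cfsg.omegaOne p (((S : Subgroup G)) ⊓ Subgroup.centralizer ((S : Subgroup G) : Set G)) :=
    fun S => le_iSup (fun S : Sylow p G => Cfsg.omegaOne p (((S : Subgroup G)) ⊓ Subgroup.centralizer ((S : Subgroup G) : Set G))) S
  constructor
  · intro hTF
    rw [Cfsg.Agent.S0604.result]
    apply iSup_le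
    intro S
    rw [Subgroup.le_centralizer_iff]
    apply iSup_le
    intro S'
    obtain ⟨g, rfl⟩ := MulAction.exists_smul_eq G S S'
    obtain ⟨x, hx, c, hc, n, hn, hg⟩ := hTF S g⁻¹
    rw [hO, Subgroup.mem_bot] at hx
    subst hx
    rw [one_mul] at hg
    have hg' : g = n⁻¹ * c⁻¹ := by rw [← mul_inv_rev, ← hg, inv_inv]
    rw [sylow_smul_eq_map, ← map_conj_inf_centralizer, ← omegaOne_map_of_injective _ (MulAut.conj g).injective]
    rintro _ ⟨z, hz, rfl⟩
    rw [Subgroup.mem_centralizer_iff]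
    intro j hj
    have hcz := Subgroup.mem_centralizer_iff.mp hc z hz
    have hj' : n * j * n⁻¹ ∈ thompsonSubgroupOf p (S : Subgroup G) :=
      (Subgroup.mem_normalizer_iff.mp hn j).mp hj
    have hzS : z ∈ Subgroup.centralizer ((S : Subgroup G) : Set G) := (omegaOne_le _ hz).2
    have h1 := Subgroup.mem_centralizer_iff.mp hzS _ (thompsonOf_le_self _ hj')
    have h2 : (MulAut.conj g).toMonoidHom z = n⁻¹ * z * n := by
      change g * z * g⁻¹ = _
      rw [hg']
      calc n⁻¹ * c⁻¹ * z * (n⁻¹ * c⁻¹)⁻¹ = n⁻¹ * c⁻¹ * (z * c) * n := by group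
        _ = n⁻¹ * c⁻¹ * (c * z) * n := by rw [hcz]
        _ = n⁻¹ * z * n := by group
    rw [h2]
    calc j * (n⁻¹ * z * n) = n⁻¹ * ((n * j * n⁻¹) * z) * n := by group
      _ = n⁻¹ * (z * (n * j * n⁻¹)) * n := by rw [h1]
      _ = n⁻¹ * z * n * j := by group
  · intro hJ S g
    set V := ⨆ S : Sylow p G, Cfsg.omegaOne p (((S : Subgroup G)) ⊓ Subgroup.centralizer ((S : Subgroup G) : Set G)) with hVdef
    obtain ⟨c, hc, n, hn, rfl⟩ := frattini_inf S (Subgroup.centralizer (V : Set G)) g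
    refine ⟨1, one_mem _, c, Subgroup.centralizer_le (hle S) hc, n, ?_, by rw [one_mul]⟩
    have hJS : thompsonSubgroupOf p (S : Subgroup G) ≤ (S : Subgroup G) ⊓ Subgroup.centralizer (V : Set G) := by
      refine le_inf (thompsonOf_le_self _) (le_trans ?_ hJ)
      rw [Cfsg.Agent.S0604.result]
      exact le_iSup (fun S : Sylow p G => thompsonSubgroupOf p (S : Subgroup G)) S
    rw [← thompsonOf_eq_of_le inf_le_left hJS]
    exact normalizer_le_normalizer_thompsonOf _ hn

end Cfsg.Agent.S0608
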