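import Cfsg.Statements.S0609
import Cfsg.Agent.Lib.Helper13.NPC6
import Cfsg.Agent.Lib.Helper13.JFun
import Cfsg.Agent.H9.Cores
-- import your own Cfsg.Agent.* helpers here

set_option autoImplicit false
open Cfsg

namespace Cfsg.Agent.S0609

theorem omega_map {G G' : Type*} [Group G] [Group G'] {p : ℕ} (π : G →* G') (S : Subgroup G)
    (hinj : Set.InjOn π (S : Set G)) :
    (Cfsg.omegaOne p (S ⊓ Subgroup.centralizer (S : Set G))).map π =
      Cfsg.omegaOne p (S.map π ⊓ Subgroup.centralizer ((S.map π : Subgroup G') : Set G')) := by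
  unfold Cfsg.omegaOne
  rw [MonoidHom.map_closure]
  congr 1
  ext y
  constructor
  · rintro ⟨x, ⟨⟨hxS, hxC⟩, hxp⟩, rfl⟩
    refine ⟨⟨⟨x, hxS, rfl⟩, ?_⟩, by rw [← map_pow, hxp, map_one]⟩
    show π x ∈ Subgroup.centralizer ((S.map π : Subgroup G') : Set G')
    have hxC' : x ∈ Subgroup.centralizer (S : Set G) := hxC
    rw [Subgroup.mem_centralizer_iff]
    rintro _ ⟨t, ht, rfl⟩
    rw [Subgroup.mem_centralizer_iff] at hxC'
    rw [← map_mul, ← map_mul, hxC' t ht]
  · rintro ⟨⟨⟨s, hs, rfl⟩, hC⟩, hp⟩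
    refine ⟨s, ⟨⟨hs, ?_⟩, ?_⟩, rfl⟩
    · show s ∈ Subgroup.centralizer (S : Set G)
      have hC' : π s ∈ Subgroup.centralizer ((S.map π : Subgroup G') : Set G') := hC
      rw [Subgroup.mem_centralizer_iff]
      intro t ht
      rw [Subgroup.mem_centralizer_iff] at hC'
      have h1 := hC' (π t) ⟨t, ht, rfl⟩
      rw [← map_mul, ← map_mul] at h1
      exact hinj (S.mul_mem ht hs) (S.mul_mem hs ht) h1
    · apply hinj (S.pow_mem hs p) S.one_mem
      rw [map_pow, map_one]
      exact hp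

/-- Thompson factorizability passes to and from the quotient by the largest normal subgroup of order prime to p. -/
theorem result {G : Type*} [Group G] [Finite G] {p : ℕ} [Fact p.Prime] : Cfsg.IsThompsonFactorizable p G ↔ Cfsg.IsThompsonFactorizable p (G ⧸ Cfsg.pPrimeCore p G) := by
  set K := Cfsg.pPrimeCore p G with hKdef
  have hπ : Function.Surjective (QuotientGroup.mk' K) := QuotientGroup.mk'_surjective K
  have hD : (Nat.card (QuotientGroup.mk' K).ker).Coprime p := by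
    rw [QuotientGroup.ker_mk']
    exact Cfsg.H9.pPrimeCore_coprime p
  have hZ : ∀ S : Sylow p G, (Cfsg.omegaOne p ((S : Subgroup G) ⊓ Subgroup.centralizer ((S : Subgroup G) : Set G))).map
      (QuotientGroup.mk' K) = Cfsg.omegaOne p ((S : Subgroup G).map (QuotientGroup.mk' K) ⊓
        Subgroup.centralizer (((S : Subgroup G).map (QuotientGroup.mk' K) : Subgroup (G ⧸ K)) : Set (G ⧸ K))) :=
    fun S => omega_map _ _ (Cfsg.Agent.H12.injOn_of_coprime_ker hD S.2)
  have hJ : ∀ S : Sylow p G, (Cfsg.thompsonSubgroupOf p (S : Subgroup G)).map (QuotientGroup.mk' K) =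
      Cfsg.thompsonSubgroupOf p ((S : Subgroup G).map (QuotientGroup.mk' K)) := by
    intro S
    have := Cfsg.Agent.H12.inducedFunctor_map (Cfsg.Agent.Lib.Helper13.isCharPFunctor_WJ (p := p))
      (QuotientGroup.mk' K) (S : Subgroup G) S.2 (Cfsg.Agent.H12.injOn_of_coprime_ker hD S.2)
    rw [Cfsg.Agent.Lib.Helper13.inducedFunctor_WJ, Cfsg.Agent.Lib.Helper13.inducedFunctor_WJ] at this
    exact this
  have hZp : ∀ S : Sylow p G, IsPGroup p ↥(Cfsg.omegaOne p ((S : Subgroup G) ⊓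
      Subgroup.centralizer ((S : Subgroup G) : Set G))) := by
    intro S
    apply S.2.to_le
    unfold Cfsg.omegaOne
    rw [Subgroup.closure_le]
    intro x hx
    exact hx.1.1
  have hJp : ∀ S : Sylow p G, IsPGroup p ↥(Cfsg.thompsonSubgroupOf p (S : Subgroup G)) := by
    intro S
    apply S.2.to_le
    unfold Cfsg.thompsonSubgroupOf
    exact Subgroup.map_subtype_le _
  constructor
  · intro h Sbar gbar
    obtain ⟨S, rfl⟩ := Sylow.mapSurjective_surjective hπ p Sbar
    obtain ⟨g, rfl⟩ := hπ gbar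
    obtain ⟨x, hx, c, hc, n, hn, rfl⟩ := h S g
    rw [Sylow.coe_mapSurjective, ← hZ, ← hJ,
      Cfsg.Agent.Lib.Helper13.centralizer_map_of_coprime_ker hπ hD (hZp S),
      Cfsg.Agent.H12.normalizer_map_of_coprime_ker hπ hD (hJp S)]
    refine ⟨1, one_mem _, _, ⟨c, hc, rfl⟩, _, ⟨n, hn, rfl⟩, ?_⟩
    have hx1 : QuotientGroup.mk' K x = 1 := by
      rw [← MonoidHom.mem_ker, QuotientGroup.ker_mk']; exact hx
    rw [map_mul, map_mul, hx1]
  · intro h S g
    obtain ⟨x, hx, c, hc, n, hn, hg⟩ := h (S.mapSurjective hπ) (QuotientGroup.mk' K g)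
    rw [Sylow.coe_mapSurjective, ← hZ,
      Cfsg.Agent.Lib.Helper13.centralizer_map_of_coprime_ker hπ hD (hZp S)] at hc
    rw [Sylow.coe_mapSurjective, ← hJ,
      Cfsg.Agent.H12.normalizer_map_of_coprime_ker hπ hD (hJp S)] at hn
    rw [Cfsg.H9.pPrimeCore_quotient, Subgroup.mem_bot] at hx
    obtain ⟨c, hc, rfl⟩ := hc
    obtain ⟨n, hn, rfl⟩ := hn
    subst hx
    refine ⟨g * (c * n)⁻¹, ?_, c, hc, n, hn, by group⟩
    show g * (c * n)⁻¹ ∈ K
    rw [← QuotientGroup.ker_mk' K, MonoidHom.mem_ker, map_mul, map_inv, map_mul, hg]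
    group

end Cfsg.Agent.S0609
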