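import Cfsg.Statements.S0611
import Cfsg.Agent.Lib.Helper13.FF2

set_option autoImplicit false
open Cfsg

namespace Cfsg.Agent.S0611

/-- Minimal nontrivially-acting best offenders in such a faithful group have order p, commutator [V, B] of order p and fixed points of index p. -/
theorem result {G : Type*} [Group G] [Finite G] {p : ℕ} [Fact p.Prime] (V H : Subgroup G) (hV : Cfsg.IsElementaryAbelian p V) (hHV : H ≤ Subgroup.normalizer (V : Set G)) (hf : H ⊓ Subgroup.centralizer (V : Set G) = ⊥) (hS1 : Subgroup.centralizer (Cfsg.pPrimeCore p ↥H : Set ↥H) ≤ Cfsg.pPrimeCore p ↥H) (hS3 : H = ⨆ A : {A : Subgroup G // A ≤ H ∧ Cfsg.IsBestOffenderOn p V A}, (A : Subgroup G)) (hH1 : H ≠ ⊥) (A : Subgroup G) (hAH : A ≤ H) (hA : Cfsg.IsBestOffenderOn p V A) (hAV : ⁅V, A⁆ ≠ ⊥) (hmin : ∀ B : Subgroup G, B ≤ A → Cfsg.IsBestOffenderOn p V B → ⁅V, B⁆ ≠ ⊥ → B = A) : Nat.card A = p ∧ Nat.card ↥(⁅V, A⁆) = p ∧ ((V ⊓ Subgroup.centralizer (A : Set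 G))).relIndex V = p := by
  have h : Cfsg.Agent.Lib.Helper13.FFSetup p V H := ⟨hV, hHV, hf, hS1⟩
  have hA1 : A ≠ ⊥ := by
    rintro rfl
    exact hAV (Subgroup.commutator_bot_right V)
  have hcard : Nat.card A = p := by
    apply h.card_eq_of_min hAH hA hA1
    intro B hBA hB hB1
    apply hmin B hBA hB
    intro hc
    exact hB1 (h.eq_bot_of_centralizes (hBA.trans hAH) hc)
  exact ⟨hcard, h.of_card_eq hAH hA hcard⟩

end Cfsg.Agent.S0611
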