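import Cfsg.Statements.S0615
import Cfsg.Agent.Lib.Helper13.SubPair5

set_option autoImplicit false
open Cfsg

namespace Cfsg.Agent.S0615

open scoped commutatorElement

/-- Two subnormal subgroups acting irreducibly on their incomparable commutator modules, in a faithful group with trivial largest normal p-subgroup, generate their direct product, and the commutator module splits accordingly. -/
theorem result {G : Type*} [Group G] [Finite G] {p : ℕ} [Fact p.Prime] (V E E₁ E₂ : Subgroup G) (hV : Cfsg.IsElementaryAbelian p V) (hEV : E ≤ Subgroup.normalizer (V : Set G)) (hf : E ⊓ Subgroup.centralizer (V : Set G) = ⊥) (hgen : E = E₁ ⊔ E₂) (hs₁ : (E₁.subgroupOf E).IsSubnormal) (hs₂ : (E₂.subgroupOf E).IsSubnormal) (hOp : Cfsg.pCore p ↥E = ⊥) (hirr₁ : (∀ U : Subgroup G, U ≤ ⁅V, E₁⁆ → E₁ ≤ Subgroup.normalizer (U : Set G) → U = ⊥ ∨ U = ⁅V, E₁⁆)) (hirr₂ : (∀ U : Subgroup G,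 U ≤ ⁅V, E₂⁆ → E₂ ≤ Subgroup.normalizer (U : Set G) → U = ⊥ ∨ U = ⁅V, E₂⁆)) (h12 : ¬ ⁅V, E₁⁆ ≤ ⁅V, E₂⁆) (h21 : ¬ ⁅V, E₂⁆ ≤ ⁅V, E₁⁆) (hc₁ : 2 < Nat.card E₁) (hc₂ : 2 < Nat.card E₂) : ⁅E₁, E₂⁆ = ⊥ ∧ E₁ ⊓ E₂ = ⊥ ∧ ⁅V, E₁⁆ ⊓ ⁅V, E₂⁆ = ⊥ ∧ ⁅V, E⁆ = ⁅V, E₁⁆ ⊔ ⁅V, E₂⁆ := by
  have hle₁ : E₁ ≤ E := by rw [hgen]; exact le_sup_left
  have hle₂ : E₂ ≤ E := by rw [hgen]; exact le_sup_right
  have h₁ := Cfsg.Agent.Lib.Helper13.irrSub_of_subnormal hEV hf hle₁ hs₁ hOp hirr₁ hc₁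
  have h₂ := Cfsg.Agent.Lib.Helper13.irrSub_of_subnormal hEV hf hle₂ hs₂ hOp hirr₂ hc₂
  have hpair := Cfsg.Agent.Lib.Helper13.irr_pair hV _ E₁ E₂ rfl h₁ h₂
    ⟨le_sup_left, by rw [← hgen]; exact hs₁⟩ ⟨le_sup_right, by rw [← hgen]; exact hs₂⟩
  rcases hpair with h | h | ⟨ha, hb⟩
  · exact absurd h h12
  · exact absurd h h21
  have hW : ⁅V, E₁⁆ ⊓ ⁅V, E₂⁆ = ⊥ := by
    rw [eq_bot_iff, ← h₁.inf_centralizer hV]
    exact inf_le_inf_left _ (Subgroup.commutator_eq_bot_iff_le_centralizer.mp hb)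
  refine ⟨?_, ?_, hW, ?_⟩
  · have h3 : ⁅⁅E₁, E₂⁆, V⁆ = ⊥ := by
      apply Subgroup.commutator_commutator_eq_bot_of_rotate
      · rw [Subgroup.commutator_comm E₂ V]; exact hb
      · exact ha
    rw [eq_bot_iff, ← hf]
    refine le_inf ((Subgroup.commutator_mono hle₁ hle₂).trans (Subgroup.commutator_le_self E)) ?_
    exact Subgroup.commutator_eq_bot_iff_le_centralizer.mp h3
  · rw [eq_bot_iff, ← hf]
    intro x hx
    refine Subgroup.mem_inf.mpr ⟨hle₁ hx.1, ?_⟩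
    rw [Subgroup.mem_centralizer_iff]
    intro v hv
    have h4 : ⁅v, x⁆ ∈ ⁅V, E₁⁆ ⊓ ⁅V, E₂⁆ :=
      Subgroup.mem_inf.mpr ⟨Subgroup.commutator_mem_commutator hv hx.1, Subgroup.commutator_mem_commutator hv hx.2⟩
    rw [hW, Subgroup.mem_bot] at h4
    exact commutatorElement_eq_one_iff_mul_comm.mp h4
  · apply le_antisymm
    · have hn₁ : E₁ ≤ Subgroup.normalizer ((⁅V, E₁⁆ ⊔ ⁅V, E₂⁆ : Subgroup G) : Set G) := by
        intro e he
        rw [← Cfsg.Agent.H12.cj_eq_self_iff, Cfsg.Agent.Lib.Helper13.cj_sup,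
          Cfsg.Agent.H12.cj_eq_self (h₁.le_normalizer_comm he),
          Cfsg.Agent.H12.cj_eq_self (Subgroup.centralizer_le_normalizer _
            ((Subgroup.le_centralizer_iff.mp (Subgroup.commutator_eq_bot_iff_le_centralizer.mp hb)) he))]
      have hn₂ : E₂ ≤ Subgroup.normalizer ((⁅V, E₁⁆ ⊔ ⁅V, E₂⁆ : Subgroup G) : Set G) := by
        intro e he
        rw [← Cfsg.Agent.H12.cj_eq_self_iff, Cfsg.Agent.Lib.Helper13.cj_sup,
          Cfsg.Agent.H12.cj_eq_self (h₂.le_normalizer_comm he),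
          Cfsg.Agent.H12.cj_eq_self (Subgroup.centralizer_le_normalizer _
            ((Subgroup.le_centralizer_iff.mp (Subgroup.commutator_eq_bot_iff_le_centralizer.mp ha)) he))]
      have hE : E ≤ Cfsg.Agent.Lib.Helper13.chainStab V (⁅V, E₁⁆ ⊔ ⁅V, E₂⁆) := by
        rw [hgen]
        apply sup_le
        · intro e he
          exact ⟨hn₁ he, fun v hv => (le_sup_left : ⁅V, E₁⁆ ≤ ⁅V, E₁⁆ ⊔ ⁅V, E₂⁆) (Subgroup.commutator_mem_commutator hv he)⟩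
        · intro e he
          exact ⟨hn₂ he, fun v hv => (le_sup_right : ⁅V, E₂⁆ ≤ ⁅V, E₁⁆ ⊔ ⁅V, E₂⁆) (Subgroup.commutator_mem_commutator hv he)⟩
      exact (Subgroup.commutator_mono le_rfl hE).trans (Cfsg.Agent.Lib.Helper13.commutator_chainStab_le _ _)
    · exact sup_le (Subgroup.commutator_mono le_rfl hle₁) (Subgroup.commutator_mono le_rfl hle₂)

end Cfsg.Agent.S0615
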