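import Cfsg.Statements.S0618
import Cfsg.Agent.Lib.Helper13.FF10
import Cfsg.Agent.Lib.Helper13.S4Class2
import Cfsg.Agent.S0602
import Cfsg.Agent.S0606
import Cfsg.Agent.S0608

set_option autoImplicit false
open Cfsg

namespace Cfsg.Agent.S0618

/-- A p-separable group with trivial p'-core in which the Thompson factorization fails has p = 2 or 3, and J(G) induces on the normal closure of Ω₁(Z(S)) a group containing a normal SL(2, p). -/
theorem result {G : Type*} [Group G] [Finite G] {p : ℕ} [Fact p.Prime] (hsep : Cfsg.IsPSolvable p G) (hO : Cfsg.pPrimeCore p G = ⊥) (hnf : ¬ Cfsg.IsThompsonFactorizable p G) : (p = 2 ∨ p = 3) ∧ ∃ E : Subgroup G, Subgroup.centralizer ((⨆ S : Sylow p G, Cfsg.omegaOne p ((S : Subgroup G) ⊓ Subgroup.centralizer ((S : Subgroup G) : Set G))) : Set G) ≤ E ∧ E ≤ Cfsg.thompsonSubgroup p G ⊔ Subgroup.centralizer ((⨆ S : Sylow p G, Cfsg.omegaOne p ((S : Subgroup G) ⊓ Subgroup.centralizer ((S : Subgroup G) : Set G))) : Set G) ∧ Cfsg.thompsonSubgroup p G ⊔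 Subgroup.centralizer ((⨆ S : Sylow p G, Cfsg.omegaOne p ((S : Subgroup G) ⊓ Subgroup.centralizer ((S : Subgroup G) : Set G))) : Set G) ≤ Subgroup.normalizer (E : Set G) ∧ ∃ hn : ((Subgroup.centralizer ((⨆ S : Sylow p G, Cfsg.omegaOne p ((S : Subgroup G) ⊓ Subgroup.centralizer ((S : Subgroup G) : Set G))) : Set G)).subgroupOf E).Normal, Nonempty ((↥E ⧸ (Subgroup.centralizer ((⨆ S : Sylow p G, Cfsg.omegaOne p ((S : Subgroup G) ⊓ Subgroup.centralizer ((S : Subgroup G) : Set G))) : Set G)).subgroupOf E) ≃* Matrix.SpecialLinearGroup (Fin 2) (ZMod p)) := by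
  open Cfsg.Agent.Lib.Helper13 Subgroup in
  have hc : centralizer (pCore p G : Set G) ≤ pCore p G :=
    Cfsg.Agent.Lib.Helper23.centralizer_pCore_le_of_isPSolvable p hsep hO
  obtain ⟨hVn, hVE, -⟩ := Cfsg.Agent.S0601.result (p := p) hc
  have hJ := (not_congr (Cfsg.Agent.S0608.result (p := p) hO)).mp hnf
  change (VOm p G).Normal at hVn
  change IsElementaryAbelian p (VOm p G) at hVE
  have hOp : pCore p (G ⧸ centralizer (VOm p G : Set G)) = ⊥ := Cfsg.Agent.S0600.result _ hVE (VOm_gen p G)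
  have hJn : (sSup (maxElementaryAbelianSubgroups p G)).Normal := by
    have : (thompsonSubgroup p G).Characteristic := (Cfsg.Agent.S0602.result (p := p)).1
    exact (inferInstance : (thompsonSubgroup p G).Normal)
  have hset : centralizer (⨆ S : Sylow p G, ((omegaOne p ((S : Subgroup G) ⊓ centralizer ((S : Subgroup G) : Set G)) : Subgroup G) : Set G)) =
      centralizer (VOm p G : Set G) := by
    unfold VOm
    rw [Subgroup.iSup_eq_closure, centralizer_closure]
    rfl
  rw [hset]
  exact exists_normal_SL_section (VOm p G) hVE hOp hsep (maxElementaryAbelianSubgroups p G)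
    (fun A hA => Cfsg.Agent.S0606.result _ hVE A hA) hJn hJ

end Cfsg.Agent.S0618
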