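import Cfsg.Statements.S0627
import Cfsg.Agent.Lib.Helper13.FunFact
import Cfsg.Agent.Lib.Helper13.ActStab
import Cfsg.Agent.H12.Dk27
import Cfsg.Agent.Lib.Helper23.PSolv

set_option autoImplicit false
open Cfsg

namespace Cfsg.Agent.S0627

/-- In a p-separable group with p at least 5, the normalizer of W(S) supplements the largest normal subgroup of order prime to p. -/
theorem result {G : Type*} [Group G] [Finite G] {p : ℕ} [Fact p.Prime] (hp : 5 ≤ p) (hsep : Cfsg.IsPSolvable p G) (S : Sylow p G) : Cfsg.pPrimeCore p G ⊔ Subgroup.normalizer (((Cfsg.stableNormalClosure p ↥(S : Subgroup G)).map (S : Subgroup G).subtype) : Set G) = ⊤ := by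
  have hq : Cfsg.IsPSolvable p (G ⧸ Cfsg.pPrimeCore p G) :=
    Cfsg.Agent.H12.Dk.isPSolvable_of_surjective hsep _ (QuotientGroup.mk'_surjective _)
  have hst : Cfsg.IsActionPStable p (G ⧸ Cfsg.pPrimeCore p G) :=
    Cfsg.Agent.Lib.Helper13.isActionPStable_of_not_involves (by omega)
      (Cfsg.Agent.H12.Dk.not_involves_sl2_of_isPSolvable hp hq)
  have hc := Cfsg.Agent.Lib.Helper23.centralizer_pCore_le_of_isPSolvable p hq (Cfsg.H9.pPrimeCore_quotient p)
  have hn := Cfsg.Agent.Lib.Helper13.WOf_normal hst hc (S.mapSurjective (QuotientGroup.mk'_surjective _))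
  exact Cfsg.Agent.Lib.Helper13.functor_factorization Cfsg.Agent.Lib.Helper13.isCharPFunctor_snc S hn

end Cfsg.Agent.S0627
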