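import Cfsg.Statements.S0628
import Cfsg.Agent.Lib.Helper13.PStab4

set_option autoImplicit false
open Cfsg

namespace Cfsg.Agent.S0628

/-- The normal p-complement Theorem of Thompson in the form with W(S): for odd p, G has a normal p-complement as soon as the normalizer of the characteristic subgroup W(S) of a Sylow p-subgroup S has one. -/
theorem result {G : Type*} [Group G] [Finite G] {p : ℕ} [Fact p.Prime] (hp : p ≠ 2) (S : Sylow p G) (hN : Cfsg.HasNormalPComplement p ↥(Subgroup.normalizer (((Cfsg.stableNormalClosure p ↥(S : Subgroup G)).map (S : Subgroup G).subtype) : Set G))) : Cfsg.HasNormalPComplement p G := by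
  have hW : Cfsg.IsCharPFunctor p (fun (Q : Type _) [Group Q] => Cfsg.stableNormalClosure p Q) := by
    constructor
    · intro Q _ _ hQ hnt
      exact Cfsg.Agent.Lib.Helper13.snc_ne_bot hQ
    · intro Q R _ _ _ _ φ
      exact Cfsg.Agent.Lib.Helper13.snc_map_equiv φ
  refine Cfsg.Agent.Lib.Helper13.npc_of_functor hW (fun _ _ => True) (fun _ _ _ _ _ => trivial)
    (fun _ _ _ _ _ _ => trivial) ?_ G trivial S hN
  intro X _ _ _ _ hc hnpc hmax
  obtain ⟨T⟩ : Nonempty (Sylow p X) := inferInstance
  obtain ⟨K, hK⟩ := Cfsg.Agent.Lib.Helper13.exists_InD hnpc T (hmax T)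
  exact ⟨T, Cfsg.Agent.Lib.Helper13.WOf_normal (hK.isActionPStable hp) hc T⟩

end Cfsg.Agent.S0628
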