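import Cfsg.Statements.S0635
import Cfsg.Agent.H20.PLen2

set_option autoImplicit false
open Cfsg

namespace Cfsg.Agent.S0635

open Subgroup Cfsg.Agent.H20 Cfsg.H1

universe u

theorem main {p : ℕ} [hp : Fact p.Prime] (c : ℕ) : ∀ (G : Type u) [Group G] [Finite G],
    Cfsg.IsPSolvable p G → ∀ S : Sylow p G, (S : Subgroup G).lowerCentralSeries c = ⊥ →
    PL p c (⊥ : Subgroup G) ⊤ := by
  induction c with
  | zero =>
    intro G _ _ _ S hS
    rw [Subgroup.lowerCentralSeries_zero] at hS
    refine ⟨bot_le, ?_⟩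
    rw [relIndex_bot_left, card_top]
    have := S.not_dvd_index
    rw [hS, index_bot] at this
    exact ((Nat.Prime.coprime_iff_not_dvd hp.out).2 this).symm
  | succ c ih =>
    intro G _ _ hs S hS
    have hN : (Cfsg.pPrimeCore p G).Normal := inferInstance
    have hR : (Cfsg.pCore p (G ⧸ Cfsg.pPrimeCore p G)).Normal := inferInstance
    apply PL.of_quotient
    have hf := QuotientGroup.mk'_surjective (Cfsg.pPrimeCore p G)
    have hg := QuotientGroup.mk'_surjective (Cfsg.pCore p (G ⧸ Cfsg.pPrimeCore p G))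
    have hs1 := isPSolvable_quotient hp.out hs (Cfsg.pPrimeCore p G)
    have hs2 := isPSolvable_quotient hp.out hs1 (Cfsg.pCore p (G ⧸ Cfsg.pPrimeCore p G))
    apply ih _ hs2 ((S.mapSurjective hf).mapSurjective hg)
    rw [Sylow.coe_mapSurjective, ← map_lowerCentralSeries, Subgroup.map_eq_bot_iff,
      QuotientGroup.ker_mk']
    have hcent := Cfsg.Agent.Lib.Helper23.centralizer_pCore_le_of_isPSolvable p hs1
      (pPrimeCore_quotient p)
    refine le_trans ?_ hcent
    have hRS : Cfsg.pCore p (G ⧸ Cfsg.pPrimeCore p G) ≤ (S.mapSurjective hf : Sylow p _) :=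
      (pCore_isPGroup p).le_sylow_of_normal _
    refine le_trans ?_ (centralizer_le hRS)
    rw [← commutator_eq_bot_iff_le_centralizer, ← Subgroup.lowerCentralSeries_succ,
      Sylow.coe_mapSurjective, ← map_lowerCentralSeries, hS, Subgroup.map_bot]

/-- The p-length of a p-soluble group is at most the nilpotency class of its Sylow p-subgroups. -/
theorem result {G : Type*} [Group G] [Finite G] {p : ℕ} [Fact p.Prime] (hsol : Cfsg.IsPSolvable p G) (S : Sylow p G) : Cfsg.PLengthLE p (Group.nilpotencyClass ↥(S : Subgroup G)) G := by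
  rw [pLengthLE_iff_PL]
  have : Group.IsNilpotent (S : Subgroup G) := S.2.isNilpotent
  exact main _ G hsol S (lowerCentralSeries_eq_bot_of_nilpotencyClass_le le_rfl)

end Cfsg.Agent.S0635
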