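import Cfsg.Statements.S0641
-- import your own Cfsg.Agent.* helpers here

set_option autoImplicit false
open Cfsg

namespace Cfsg.Agent.S0641

/-- Regularity of a p-group passes to quotient groups. -/
theorem result {G : Type*} [Group G] {p : ℕ} [Fact p.Prime] (hG : Cfsg.IsRegularPGroup p G) (N : Subgroup G) [N.Normal] : Cfsg.IsRegularPGroup p (G ⧸ N) := by
  obtain ⟨hp, hreg⟩ := hG
  refine ⟨hp.to_quotient N, ?_⟩
  intro a b n
  obtain ⟨a, rfl⟩ := QuotientGroup.mk_surjective a
  obtain ⟨b, rfl⟩ := QuotientGroup.mk_surjective b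
  obtain ⟨c, hc, hc'⟩ := hreg a b n
  refine ⟨QuotientGroup.mk' N c, ?_, ?_⟩
  · have hmap : ∀ H : Subgroup G, (Cfsg.powerClosure p n H).map (QuotientGroup.mk' N) ≤ Cfsg.powerClosure p n (H.map (QuotientGroup.mk' N)) := by
      intro H
      unfold Cfsg.powerClosure
      rw [MonoidHom.map_closure]
      apply Subgroup.closure_mono
      rintro _ ⟨y, ⟨x, hx, rfl⟩, rfl⟩
      exact ⟨QuotientGroup.mk' N x, Subgroup.mem_map_of_mem _ hx, by simp⟩
    have h1 := hmap _ (Subgroup.mem_map_of_mem (QuotientGroup.mk' N) hc)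
    rw [Subgroup.map_commutator, MonoidHom.map_closure] at h1
    have h2 : (QuotientGroup.mk' N) '' ({a, b} : Set G) = {(QuotientGroup.mk a : G ⧸ N), (QuotientGroup.mk b : G ⧸ N)} := by
      simp [Set.image_pair]
    rw [h2] at h1
    exact h1
  · have := congrArg (QuotientGroup.mk' N) hc'
    simpa using this

end Cfsg.Agent.S0641
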