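import Cfsg.Statements.S0642
import Cfsg.Agent.H1.Regular3

set_option autoImplicit false
open Cfsg

namespace Cfsg.Agent.S0642

/-- Among finite 2-groups the regular ones are exactly the abelian ones. -/
theorem result {G : Type*} [Group G] [Finite G] (hG : IsPGroup 2 G) : Cfsg.IsRegularPGroup 2 G ↔ ∀ a b : G, a * b = b * a := by
  constructor
  · intro h
    obtain ⟨h1, h2⟩ := Cfsg.H1.isRegularPGroup_iff.1 h
    exact Cfsg.H1.commute_of_regAt_two h1 (h2 1)
  · intro h
    refine ⟨hG, fun a b n => ⟨1, one_mem _, ?_⟩⟩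
    rw [mul_one]
    exact (show Commute a b from h a b).mul_pow _

end Cfsg.Agent.S0642
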