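import Cfsg.Statements.S0656
import Cfsg.Agent.H12.Dk18

set_option autoImplicit false
open Cfsg
open Cfsg.Agent.H12.Dk

namespace Cfsg.Agent.S0656

/-- For odd p, a faithful group on an elementary abelian p-group with no nontrivial normal p-subgroup in which some nontrivial p-element acts quadratically has a section isomorphic to SL(2, p). -/
theorem result {G : Type*} [Group G] [Finite G] {p : ℕ} [Fact p.Prime] (hp : p ≠ 2) (V H : Subgroup G) (hV : Cfsg.IsElementaryAbelian p V) (hHV : H ≤ Subgroup.normalizer (V : Set G)) (hf : H ⊓ Subgroup.centralizer (V : Set G) = ⊥) (hO : Cfsg.pCore p ↥H = ⊥) (x : G) (hxH : x ∈ H) (hx1 : x ≠ 1) (hxp : ∃ k : ℕ, orderOf x = p ^ k) (hq : ⁅⁅V, Subgroup.zpowers x⁆, Subgroup.zpowers x⁆ = ⊥) : ∃ (K L : Subgroup G) (hL : (L.subgroupOf K).Normal), K ≤ H ∧ Nonempty ((K ⧸ L.subgroupOf K) ≃* Matrix.SpecialLinearGroup (Fin 2) (ZMod p)) := by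

  have hxp' : ∃ n : ℕ, (⟨x, hxH⟩ : H) ^ (p ^ n) = 1 := by
    obtain ⟨k, hk⟩ := hxp
    refine ⟨k, Subtype.ext ?_⟩
    change x ^ (p ^ k) = 1
    rw [← hk, pow_orderOf_eq_one]
  have hx' : (⟨x, hxH⟩ : H) ∉ Cfsg.pCore p ↥H := by
    rw [hO, Subgroup.mem_bot]
    intro h
    exact hx1 (congrArg Subtype.val h)
  obtain ⟨g, l, hl, hln⟩ := baer_suzuki_elt p hxp' hx'
  have hlG : (l : G) ∈ Subgroup.closure {x, (g : G) * x * (g : G)⁻¹} := by
    have h1 : H.subtype l ∈ (Subgroup.closure {(⟨x, hxH⟩ : H), g * ⟨x, hxH⟩ * g⁻¹}).map H.subtype :=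
      Subgroup.mem_map_of_mem _ hl
    rw [MonoidHom.map_closure, Set.image_pair] at h1
    exact h1
  have qx := quadOn_of_comm hq
  obtain ⟨K, D, hj, hK, -⟩ := exists_natData p hp V hV (hHV hxH) (hHV (mul_mem (mul_mem g.2 hxH) (inv_mem g.2)))
    qx (qx.conj (hHV g.2)) ⟨l, hlG, by
      intro n hn
      apply hln n
      have h2 : ((l ^ (p ^ n) : H) : G) ∈ H ⊓ Subgroup.centralizer (V : Set G) := ⟨(l ^ (p ^ n) : H).2, hn⟩
      rw [hf, Subgroup.mem_bot] at h2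
      exact Subtype.ext h2⟩
  obtain ⟨L, hL, hiso⟩ := section_of_surj K D.ρ D.ρ_surj
  refine ⟨K, L, hL, hK.trans ?_, hiso⟩
  rw [Subgroup.closure_le]
  rintro z (rfl | hz)
  · exact hxH
  · rw [Set.mem_singleton_iff] at hz
    subst hz
    exact mul_mem (mul_mem g.2 hxH) (inv_mem g.2)

end Cfsg.Agent.S0656
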