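import Cfsg.Statements.S0657
import Cfsg.Agent.H12.Dk25

set_option autoImplicit false
open Cfsg
open Cfsg.Agent.H12.Dk

namespace Cfsg.Agent.S0657

/-- For odd p, a group that fails to be p-stable modulo its largest normal subgroup of order prime to p, and whose upper p-series does not stop there, has a section isomorphic to SL(2, p). -/
theorem result {G : Type*} [Group G] [Finite G] {p : ℕ} [Fact p.Prime] (hp : p ≠ 2) (hO : Cfsg.pPrimeCore p G < Cfsg.pPrimePCore p G) (hns : ¬ Cfsg.IsPStable p (G ⧸ Cfsg.pPrimeCore p G)) : ∃ (K L : Subgroup G) (hL : (L.subgroupOf K).Normal), K ≤ ⊤ ∧ Nonempty ((K ⧸ L.subgroupOf K) ≃* Matrix.SpecialLinearGroup (Fin 2) (ZMod p)) := by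

  have hcq : Cq p (G ⧸ Cfsg.pPrimeCore p G) := by
    by_contra hcon
    apply hns
    refine ⟨(Fact.out : p.Prime).odd_of_ne_two hp, ?_, ?_⟩
    · intro hbot
      obtain ⟨x, hx, hx'⟩ := SetLike.exists_of_lt hO
      apply hx'
      have h1 : QuotientGroup.mk' (Cfsg.pPrimeCore p G) x ∈ Cfsg.pCore p (G ⧸ Cfsg.pPrimeCore p G) := hx
      rw [hbot, Subgroup.mem_bot, QuotientGroup.mk'_apply, QuotientGroup.eq_one_iff] at h1
      exact h1
    · intro A P hA hP hAP _ _ hq
      rintro _ ⟨⟨a, haN⟩, haA, rfl⟩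
      by_contra hnot
      apply hcon
      have haA' : a ∈ A := haA
      have hq' : ⁅⁅P, Subgroup.zpowers a⁆, Subgroup.zpowers a⁆ = ⊥ := by
        rw [eq_bot_iff, ← hq]
        have hz : Subgroup.zpowers a ≤ A := by
          rw [Subgroup.zpowers_le]; exact haA'
        exact Subgroup.commutator_mono (Subgroup.commutator_mono le_rfl hz) hz
      exact cq_of_quad hp P hP a haN (quadOn_of_comm hq') hnot
  obtain ⟨-, P₀, -, -, hinv⟩ := hcq
  have h1 : Cfsg.Involves (Matrix.SpecialLinearGroup (Fin 2) (ZMod p)) (G ⧸ Cfsg.pPrimeCore p G) :=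
    Cfsg.Agent.Lib.Helper27.Involves.of_injective hinv (Subgroup.subtype _) (Subgroup.subtype_injective _)
  obtain ⟨K, L, hL, hiso⟩ := involves_of_surjective h1 (QuotientGroup.mk' _) (QuotientGroup.mk'_surjective _)
  exact ⟨K, L, hL, le_top, hiso⟩

end Cfsg.Agent.S0657
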