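import Cfsg.Statements.S0660
import Cfsg.Agent.Lib.Helper16.SS6
import Cfsg.Agent.H4.Supersolvable4

set_option autoImplicit false
open Cfsg

namespace Cfsg.Agent.S0660

open Cfsg.Agent.Lib.Helper16


/-- Under a coprime action on an abelian group, an invariant subgroup that is complemented admits an invariant complement. -/
theorem result {G : Type*} [Group G] [Finite G] (V A U : Subgroup G) (hVab : IsMulCommutative V) (hAV : A ≤ Subgroup.normalizer (V : Set G)) (hcop : (Nat.card A).Coprime (Nat.card V)) (hUV : U ≤ V) (hAU : A ≤ Subgroup.normalizer (U : Set G)) (W : Subgroup G) (hWV : W ≤ V) (hUW : U ⊓ W = ⊥) (hUWV : U ⊔ W = V) : ∃ W' : Subgroup G, W' ≤ V ∧ A ≤ Subgroup.normalizer (W' : Set G) ∧ U ⊓ W' = ⊥ ∧ U ⊔ W' = V := by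
  have hcV : ∀ a ∈ V, ∀ b ∈ V, a * b = b * a := fun a ha b hb =>
    congrArg Subtype.val (hVab.is_comm.comm ⟨a, ha⟩ ⟨b, hb⟩)
  have hVX : V ≤ V ⊔ A := le_sup_left
  have hAX : A ≤ V ⊔ A := le_sup_right
  have hVU : V ≤ Subgroup.normalizer (U : Set G) := by
    intro v hv
    apply Subgroup.centralizer_le_normalizer _
    rw [Subgroup.mem_centralizer_iff]
    intro u hu
    exact hcV u (hUV hu) v hv
  have hKn : (U.subgroupOf (V ⊔ A)).Normal :=
    (Subgroup.normal_subgroupOf_iff_le_normalizer (hUV.trans hVX)).2 (sup_le hVU hAU)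
  have hVn : (V.subgroupOf (V ⊔ A)).Normal :=
    (Subgroup.normal_subgroupOf_iff_le_normalizer hVX).2 (sup_le Subgroup.le_normalizer hAV)
  have hVc : IsMulCommutative (V.subgroupOf (V ⊔ A)) :=
    ⟨⟨fun a b => Subtype.ext (Subtype.ext (hcV _ a.2 _ b.2))⟩⟩
  have hKc : IsMulCommutative (U.subgroupOf (V ⊔ A)) :=
    ⟨⟨fun a b => Subtype.ext (Subtype.ext (hcV _ (hUV a.2) _ (hUV b.2)))⟩⟩
  have hKV : U.subgroupOf (V ⊔ A) ≤ V.subgroupOf (V ⊔ A) := Subgroup.comap_mono hUV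
  have hcop' : (Nat.card (U.subgroupOf (V ⊔ A))).Coprime (V.subgroupOf (V ⊔ A)).index := by
    have h1 : Nat.card (U.subgroupOf (V ⊔ A)) ∣ Nat.card V := by
      rw [Cfsg.Agent.H4.card_subgroupOf_of_le (hUV.trans hVX)]
      exact Subgroup.card_dvd_of_le hUV
    have h2 : (V.subgroupOf (V ⊔ A)).index ∣ Nat.card A := by
      have h3 := Subgroup.relIndex_sup_left (A.subgroupOf (V ⊔ A)) (V.subgroupOf (V ⊔ A))
      rw [← Subgroup.subgroupOf_sup hVX hAX, Subgroup.subgroupOf_self,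
        Subgroup.relIndex_top_right] at h3
      rw [h3, ← Cfsg.Agent.H4.card_subgroupOf_of_le hAX]
      exact Subgroup.relIndex_dvd_card _ _
    exact (Nat.Coprime.coprime_dvd_left h2 (Nat.Coprime.coprime_dvd_right h1 hcop)).symm
  have hAK : W.subgroupOf (V ⊔ A) ⊓ U.subgroupOf (V ⊔ A) = ⊥ := by
    rw [eq_bot_iff]
    rintro x ⟨h1, h2⟩
    have h3 : (x : G) ∈ U ⊓ W := ⟨h2, h1⟩
    rw [hUW, Subgroup.mem_bot] at h3
    exact Subtype.ext h3
  have hKA : U.subgroupOf (V ⊔ A) ⊔ W.subgroupOf (V ⊔ A) = V.subgroupOf (V ⊔ A) := by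
    rw [← Subgroup.subgroupOf_sup (hUV.trans hVX) (hWV.trans hVX), hUWV]
  obtain ⟨H, hH⟩ := Cfsg.H1.gaschutz_exists (K := U.subgroupOf (V ⊔ A)) (V.subgroupOf (V ⊔ A)) hKV hcop'
    (W.subgroupOf (V ⊔ A)) hAK hKA
  have hVH : V.subgroupOf (V ⊔ A) ⊔ H = ⊤ := by
    rw [eq_top_iff, ← hH.sup_eq_top]
    exact sup_le_sup_right hKV H
  have hDn : (V.subgroupOf (V ⊔ A) ⊓ H).Normal := normal_inf_of_sup_eq_top hVH
  refine ⟨(V.subgroupOf (V ⊔ A) ⊓ H).map (V ⊔ A).subtype, ?_, ?_, ?_, ?_⟩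
  · rintro _ ⟨d, hd, rfl⟩
    exact hd.1
  · intro a ha
    apply mem_normalizer_of_conj_mem
    rintro _ ⟨d, hd, rfl⟩
    exact ⟨⟨a, hAX ha⟩ * d * ⟨a, hAX ha⟩⁻¹, hDn.conj_mem d hd _, rfl⟩
  · rw [eq_bot_iff]
    rintro _ ⟨hu, d, hd, rfl⟩
    have h1 : d ∈ U.subgroupOf (V ⊔ A) ⊓ H := ⟨hu, hd.2⟩
    rw [hH.disjoint.eq_bot, Subgroup.mem_bot] at h1
    rw [h1]; exact Subgroup.one_mem _
  · apply le_antisymm
    · apply sup_le hUV
      rintro _ ⟨d, hd, rfl⟩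
      exact hd.1
    · intro v hv
      have h1 : (⟨v, hVX hv⟩ : ↥(V ⊔ A)) ∈ U.subgroupOf (V ⊔ A) ⊔ H := by
        rw [hH.sup_eq_top]; exact Subgroup.mem_top _
      rw [Subgroup.mem_sup_of_normal_left] at h1
      obtain ⟨k, hk, h, hh, hkh⟩ := h1
      have h2 : h ∈ V.subgroupOf (V ⊔ A) := by
        have : h = k⁻¹ * ⟨v, hVX hv⟩ := by rw [← hkh]; group
        rw [this]
        exact Subgroup.mul_mem _ (Subgroup.inv_mem _ (hKV hk)) hv
      have h3 : v = (k : G) * (h : G) := (congrArg Subtype.val hkh).symm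
      rw [h3]
      exact Subgroup.mul_mem _ (Subgroup.mem_sup_left hk) (Subgroup.mem_sup_right ⟨h, ⟨h2, hh⟩, rfl⟩)

end Cfsg.Agent.S0660
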