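import Cfsg.Statements.S0663
import Cfsg.Agent.H9.FStar2

set_option autoImplicit false
open Cfsg
open scoped commutatorElement

namespace Cfsg.Agent.S0663

section gen
variable {L : Type*} [Group L]

theorem iter_succ' (N G : Subgroup L) (k : ℕ) :
    iterCommutator N G (k + 1) = iterCommutator ⁅N, G⁆ G k := by
  induction k with
  | zero => rfl
  | succ k ih =>
    show ⁅iterCommutator N G (k + 1), G⁆ = ⁅iterCommutator ⁅N, G⁆ G k, G⁆
    rw [ih]

theorem nz_comm_right (K Y : Subgroup L) :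
    Y ≤ Subgroup.normalizer ((⁅K, Y⁆ : Subgroup L) : Set L) := by
  rw [Subgroup.commutator_comm]
  exact Cfsg.H9.le_normalizer_commutator_left Y K

theorem comm_le_left {K Y : Subgroup L}
    (h : Y ≤ Subgroup.normalizer (K : Set L)) : ⁅K, Y⁆ ≤ K := by
  rw [Subgroup.commutator_le]
  intro k hk y hy
  have h1 : y * k⁻¹ * y⁻¹ ∈ K := (Subgroup.mem_normalizer_iff.1 (h hy) k⁻¹).1 (K.inv_mem hk)
  have h2 : ⁅k, y⁆ = k * (y * k⁻¹ * y⁻¹) := by simp only [commutatorElement_def]; group
  rw [h2]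
  exact K.mul_mem hk h1

theorem nz_of_comm_le {K Y : Subgroup L} (h : ⁅K, Y⁆ ≤ K) :
    Y ≤ Subgroup.normalizer (K : Set L) := by
  rw [Subgroup.le_normalizer_iff]
  intro y hy k hk
  have h1 : ⁅k⁻¹, y⁆ ∈ K := h (Subgroup.commutator_mem_commutator (K.inv_mem hk) hy)
  have h2 : y * k * y⁻¹ = k * ⁅k⁻¹, y⁆ := by simp only [commutatorElement_def]; group
  rw [h2]
  exact K.mul_mem hk h1

theorem iter_inv {N G : Subgroup L} (h : G ≤ Subgroup.normalizer (N : Set L)) (k : ℕ) :
    G ≤ Subgroup.normalizer (iterCommutator N G k : Set L) := by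
  cases k with
  | zero => exact h
  | succ k => exact nz_comm_right _ _

theorem iter_succ_le {N G : Subgroup L} (h : G ≤ Subgroup.normalizer (N : Set L)) (k : ℕ) :
    iterCommutator N G (k + 1) ≤ iterCommutator N G k :=
  comm_le_left (iter_inv h k)

theorem iter_le {N G : Subgroup L} (h : G ≤ Subgroup.normalizer (N : Set L)) (k : ℕ) :
    iterCommutator N G k ≤ N := by
  induction k with
  | zero => exact le_rfl
  | succ k ih => exact (iter_succ_le h k).trans ih

/-- `G` normalizes `⁅A, B⁆` if it normalizes `A` and `B`. -/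
theorem nz_comm {A B G : Subgroup L} (hA : G ≤ Subgroup.normalizer (A : Set L))
    (hB : G ≤ Subgroup.normalizer (B : Set L)) :
    G ≤ Subgroup.normalizer ((⁅A, B⁆ : Subgroup L) : Set L) := by
  rw [Subgroup.commutator_def, Subgroup.le_normalizer_closure_iff]
  rintro g hg _ ⟨a, ha, b, hb, rfl⟩
  have h1 : g * ⁅a, b⁆ * g⁻¹ = ⁅g * a * g⁻¹, g * b * g⁻¹⁆ := by
    simp only [commutatorElement_def]; group
  rw [h1, ← Subgroup.commutator_def]
  exact Subgroup.commutator_mem_commutator (Subgroup.le_normalizer_iff.1 hA g hg a ha)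
    (Subgroup.le_normalizer_iff.1 hB g hg b hb)

theorem nz_sup {A B G : Subgroup L} (hA : G ≤ Subgroup.normalizer (A : Set L))
    (hB : G ≤ Subgroup.normalizer (B : Set L)) :
    G ≤ Subgroup.normalizer ((A ⊔ B : Subgroup L) : Set L) := by
  rw [Subgroup.sup_eq_closure, Subgroup.le_normalizer_closure_iff]
  rintro g hg x (hx | hx)
  · exact Subgroup.subset_closure (Or.inl (Subgroup.le_normalizer_iff.1 hA g hg x hx))
  · exact Subgroup.subset_closure (Or.inr (Subgroup.le_normalizer_iff.1 hB g hg x hx))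

/-- `G` normalizes `N_N(H)` if it normalizes `N` and `H`. -/
theorem nz_nz {H N G : Subgroup L} (hH : G ≤ Subgroup.normalizer (H : Set L))
    (hN : G ≤ Subgroup.normalizer (N : Set L)) :
    G ≤ Subgroup.normalizer ((Subgroup.normalizer (H : Set L) ⊓ N : Subgroup L) : Set L) := by
  rw [Subgroup.le_normalizer_iff]
  rintro g hg x ⟨hx1, hx2⟩
  refine ⟨?_, Subgroup.le_normalizer_iff.1 hN g hg x hx2⟩
  exact Subgroup.mul_mem _ (Subgroup.mul_mem _ (hH hg) hx1) (Subgroup.inv_mem _ (hH hg))

theorem comm_sup_le {A B H G : Subgroup L} (hA : A ≤ H ⊔ B)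
    (hB : B ≤ Subgroup.normalizer (H : Set L)) (hG : G ≤ Subgroup.normalizer (H : Set L)) :
    ⁅A, G⁆ ≤ H ⊔ ⁅B, G⁆ := by
  rw [Subgroup.commutator_le]
  intro a ha g hg
  obtain ⟨h, hh, b, hb, rfl⟩ := (Cfsg.H9.mem_sup_of_le_normalizer hB).1 (hA ha)
  have h1 : ⁅h * b, g⁆ = h * ⁅b, g⁆ * (g * h⁻¹ * g⁻¹) := by
    simp only [commutatorElement_def]; group
  rw [h1]
  refine Subgroup.mul_mem _ (Subgroup.mul_mem _ (Subgroup.mem_sup_left hh)
    (Subgroup.mem_sup_right (Subgroup.commutator_mem_commutator hb hg))) (Subgroup.mem_sup_left ?_)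
  exact Subgroup.le_normalizer_iff.1 hG g hg _ (H.inv_mem hh)

end gen

section fin
variable {L : Type*} [Group L] [Finite L] {p : ℕ} [Fact p.Prime]

theorem iter_eq_bot {N G : Subgroup L} (hN : IsPGroup p N) (hG : IsPGroup p G)
    (h : G ≤ Subgroup.normalizer (N : Set L)) : ∃ k, iterCommutator N G k = ⊥ := by
  have hW : IsPGroup p (G ⊔ N : Subgroup L) := hG.to_sup_of_normal_right' hN h
  have : Group.IsNilpotent (G ⊔ N : Subgroup L) := hW.isNilpotent
  obtain ⟨k, hk⟩ := (Subgroup.isNilpotent_iff_lowerCentralSeries _).mp this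
  refine ⟨k, ?_⟩
  rw [eq_bot_iff, ← hk]
  clear hk
  induction k with
  | zero => rw [Subgroup.lowerCentralSeries_zero]; exact le_sup_right
  | succ k ih =>
    rw [Subgroup.lowerCentralSeries_succ]
    exact Subgroup.commutator_mono ih le_sup_left

theorem comm_ne {N G : Subgroup L} (hN : IsPGroup p N) (hG : IsPGroup p G)
    (h : G ≤ Subgroup.normalizer (N : Set L)) (hN1 : N ≠ ⊥) : ⁅N, G⁆ ≠ N := by
  intro he
  obtain ⟨k, hk⟩ := iter_eq_bot hN hG h
  apply hN1
  rw [← hk]
  clear hk
  induction k with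
  | zero => rfl
  | succ k ih =>
    show N = ⁅iterCommutator N G k, G⁆
    rw [← ih, he]

theorem exists_nz_not_mem {P Q : Subgroup L} (hQ : IsPGroup p Q)
    (hPQ : P < Q) : ∃ g ∈ Q, g ∈ Subgroup.normalizer (P : Set L) ∧ g ∉ P := by
  have : Group.IsNilpotent Q := hQ.isNilpotent
  have hlt : P.subgroupOf Q < ⊤ := by
    rw [lt_top_iff_ne_top]
    intro h
    rw [Subgroup.subgroupOf_eq_top] at h
    exact absurd h (not_le_of_gt hPQ)
  have h1 := Group.normalizerCondition_of_isNilpotent (G := Q) _ hlt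
  obtain ⟨g, hgN, hg⟩ := SetLike.exists_of_lt h1
  refine ⟨g, g.2, ?_, fun h => hg (Subgroup.mem_subgroupOf.2 h)⟩
  rw [Subgroup.mem_normalizer_iff] at hgN ⊢
  intro x
  constructor
  · intro hx
    have := (hgN ⟨x, hPQ.le hx⟩).1 (Subgroup.mem_subgroupOf.2 hx)
    exact Subgroup.mem_subgroupOf.1 this
  · intro hx
    have hxQ : x ∈ Q := by
      have h2 := Q.mul_mem (Q.mul_mem (Q.inv_mem g.2) (hPQ.le hx)) g.2
      have h3 : (g : L)⁻¹ * ((g : L) * x * (g : L)⁻¹) * g = x := by group
      rwa [h3] at h2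
    have := (hgN ⟨x, hxQ⟩).2 (Subgroup.mem_subgroupOf.2 hx)
    exact Subgroup.mem_subgroupOf.1 this

/-- a proper subgroup normalized by `N` and `G` does not supplement `⁅N, G⁆`. -/
theorem sup_comm_ne {N G H : Subgroup L} (hN : IsPGroup p N) (hG : IsPGroup p G)
    (h : G ≤ Subgroup.normalizer (N : Set L)) (hHN : H ≤ N) (hne : H ≠ N)
    (hNH : N ≤ Subgroup.normalizer (H : Set L)) (hGH : G ≤ Subgroup.normalizer (H : Set L)) :
    H ⊔ ⁅N, G⁆ ≠ N := by
  intro he
  obtain ⟨k, hk⟩ := iter_eq_bot hN hG h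
  have key : ∀ k, N ≤ H ⊔ iterCommutator N G k := by
    intro k
    induction k with
    | zero => exact le_sup_right
    | succ k ih =>
      have h1 : ⁅N, G⁆ ≤ H ⊔ ⁅iterCommutator N G k, G⁆ :=
        comm_sup_le ih ((iter_le h k).trans hNH) hGH
      calc N = H ⊔ ⁅N, G⁆ := he.symm
        _ ≤ H ⊔ ⁅iterCommutator N G k, G⁆ := sup_le le_sup_left h1
  have h2 := key k
  rw [hk, sup_bot_eq] at h2
  exact hne (le_antisymm hHN h2)

/-- Key lemma: if `⁅N, G⁆` is a maximal subgroup of `N`, it contains all proper invariant subgroups. -/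
theorem le_comm_of_ne {N G : Subgroup L} (hN : IsPGroup p N) (hG : IsPGroup p G)
    (h : G ≤ Subgroup.normalizer (N : Set L))
    (hmax : ∀ M : Subgroup L, ⁅N, G⁆ ≤ M → M ≤ N → M = ⁅N, G⁆ ∨ M = N) :
    ∀ (m : ℕ) (H : Subgroup L), Nat.card N - Nat.card H ≤ m → H ≤ N → H ≠ N →
      G ≤ Subgroup.normalizer (H : Set L) → H ≤ ⁅N, G⁆ := by
  intro m
  induction m with
  | zero =>
    intro H hm hHN hne _
    exfalso
    apply hne
    exact Subgroup.eq_of_le_of_card_ge hHN (by omega)
  | succ m ih =>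
    intro H hm hHN hne hGH
    obtain ⟨g, hgN, hgH, hg⟩ := exists_nz_not_mem hN (lt_of_le_of_ne hHN hne)
    set H' : Subgroup L := Subgroup.normalizer (H : Set L) ⊓ N with hH'
    have hHH' : H ≤ H' := le_inf Subgroup.le_normalizer hHN
    have hlt : H < H' := lt_of_le_of_ne hHH' (fun he => hg (he ▸ ⟨hgH, hgN⟩))
    by_cases hc : H' = N
    · have hNH : N ≤ Subgroup.normalizer (H : Set L) := by
        rw [← hc]; exact inf_le_left
      have h1 := sup_comm_ne hN hG h hHN hne hNH hGH
      rcases hmax (H ⊔ ⁅N, G⁆) le_sup_right (sup_le hHN (comm_le_left h)) with h2 | h2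
      · rw [← h2]; exact le_sup_left
      · exact absurd h2 h1
    · refine hHH'.trans (ih H' ?_ inf_le_right hc (nz_nz hGH h))
      have h1 : Nat.card H < Nat.card H' := by
        refine lt_of_le_of_ne (Subgroup.card_le_of_le hHH') (fun hc => ?_)
        exact absurd (Subgroup.eq_of_le_of_card_ge hHH' hc.ge) hlt.ne
      omega

theorem card_mul_relIndex' {A H : Subgroup L} (h : A ≤ H) :
    Nat.card A * A.relIndex H = Nat.card H := by
  have := Subgroup.relIndex_mul_relIndex (⊥ : Subgroup L) A H bot_le h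
  rwa [Subgroup.relIndex_bot_left, Subgroup.relIndex_bot_left] at this

theorem max_of_card {A N : Subgroup L} (hc : Nat.card N = p * Nat.card A)
    (M : Subgroup L) (h1 : A ≤ M) (h2 : M ≤ N) : M = A ∨ M = N := by
  obtain ⟨a, ha⟩ := Subgroup.card_dvd_of_le h1
  obtain ⟨b, hb⟩ := Subgroup.card_dvd_of_le h2
  have hpos : 0 < Nat.card A := Nat.card_pos
  have hab : a * b = p := by
    have : Nat.card A * (a * b) = Nat.card A * p := by
      rw [← mul_assoc, ← ha, ← hb, hc, mul_comm]
    exact Nat.eq_of_mul_eq_mul_left hpos this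
  have hp : p.Prime := Fact.out
  rcases (Nat.dvd_prime hp).1 ⟨b, hab.symm⟩ with h | h
  · left
    exact (Subgroup.eq_of_le_of_card_ge h1 (by rw [ha, h, mul_one])).symm
  · right
    have hb1 : b = 1 := by
      rw [h] at hab
      exact Nat.eq_of_mul_eq_mul_left hp.pos (by rw [hab, mul_one])
    exact Subgroup.eq_of_le_of_card_ge h2 (by rw [hb, hb1, mul_one])

theorem p_mul_card_dvd {A H : Subgroup L} (hH : IsPGroup p H) (hA : A ≤ H) (hne : A ≠ H) :
    p * Nat.card A ∣ Nat.card H := by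
  have hp : p.Prime := Fact.out
  obtain ⟨a, ha⟩ := Subgroup.card_dvd_of_le hA
  obtain ⟨e, he⟩ := IsPGroup.iff_card.1 hH
  have h1 : a ∣ p ^ e := by rw [← he, ha]; exact dvd_mul_left _ _
  obtain ⟨f, _, hf⟩ := (Nat.dvd_prime_pow hp).1 h1
  cases f with
  | zero =>
    exfalso
    apply hne
    exact Subgroup.eq_of_le_of_card_ge hA (by rw [ha, hf, pow_zero, mul_one])
  | succ f =>
    rw [ha, hf, pow_succ, mul_comm p]
    exact mul_dvd_mul_left _ (dvd_mul_left _ _)

/-- the commutator chain drops by exactly `p` at each step. -/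
def Chain (p : ℕ) (N G : Subgroup L) (n : ℕ) : Prop :=
  ∀ i ≤ n, Nat.card (iterCommutator N G i) = p ^ (n - i)

theorem Chain.shift {N G : Subgroup L} {n : ℕ} (h : Chain p N G (n + 1)) : Chain p ⁅N, G⁆ G n := by
  intro i hi
  rw [← iter_succ', h (i + 1) (by omega)]
  congr 1
  omega

theorem Chain.max {N G : Subgroup L} {n : ℕ} (h : Chain p N G (n + 1)) (M : Subgroup L)
    (h1 : ⁅N, G⁆ ≤ M) (h2 : M ≤ N) : M = ⁅N, G⁆ ∨ M = N := by
  refine max_of_card (p := p) ?_ M h1 h2
  have e0 : Nat.card N = p ^ (n + 1 - 0) := h 0 (by omega)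
  have e1 : Nat.card (⁅N, G⁆ : Subgroup L) = p ^ (n + 1 - 1) := h 1 (by omega)
  rw [e0, e1]
  simp [pow_succ, mul_comm]

theorem Chain.ne_bot {N G : Subgroup L} {n : ℕ} (h : Chain p N G n) {i : ℕ} (hi : i < n) :
    iterCommutator N G i ≠ ⊥ := by
  intro he
  have h1 := h i hi.le
  rw [he, Subgroup.card_bot] at h1
  have hp : p.Prime := Fact.out
  have : 1 < p ^ (n - i) := Nat.one_lt_pow (by omega) hp.one_lt
  omega

theorem classify {G : Subgroup L} (hG : IsPGroup p G) :
    ∀ (n : ℕ) (N : Subgroup L), IsPGroup p N → G ≤ Subgroup.normalizer (N : Set L) → Chain p N G n →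
      ∀ H : Subgroup L, H ≤ N → G ≤ Subgroup.normalizer (H : Set L) →
        ∃ i ≤ n, H = iterCommutator N G i := by
  intro n
  induction n with
  | zero =>
    intro N _ _ hc H hHN _
    refine ⟨0, le_rfl, ?_⟩
    have h1 : Nat.card N = p ^ (0 - 0) := hc 0 le_rfl
    have h2 : 0 < Nat.card H := Nat.card_pos
    have h3 : H = N := Subgroup.eq_of_le_of_card_ge hHN (by rw [h1, Nat.sub_self, pow_zero]; exact h2)
    exact h3
  | succ n ih =>
    intro N hN h hc H hHN hGH
    by_cases hne : H = N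
    · exact ⟨0, by omega, hne⟩
    · have h1 : H ≤ ⁅N, G⁆ := le_comm_of_ne hN hG h hc.max _ H le_rfl hHN hne hGH
      obtain ⟨i, hi, hi'⟩ := ih ⁅N, G⁆ (hN.to_le (comm_le_left h)) (nz_comm_right _ _) hc.shift H h1 hGH
      exact ⟨i + 1, by omega, by rw [iter_succ']; exact hi'⟩

theorem normal_aux {G X : Subgroup L} (hG : IsPGroup p G) (hX : IsPGroup p X)
    (hGX : G ≤ Subgroup.normalizer (X : Set L)) :
    ∀ (n : ℕ) (N : Subgroup L), IsPGroup p N → G ≤ Subgroup.normalizer (N : Set L) →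
      X ≤ Subgroup.normalizer (N : Set L) → Chain p N G n →
      ∀ i ≤ n, X ≤ Subgroup.normalizer (iterCommutator N G i : Set L) := by
  intro n
  induction n with
  | zero =>
    intro N _ _ hXN _ i hi
    obtain rfl : i = 0 := by omega
    exact hXN
  | succ n ih =>
    intro N hN h hXN hc i hi
    cases i with
    | zero => exact hXN
    | succ j =>
      rw [iter_succ']
      refine ih ⁅N, G⁆ (hN.to_le (comm_le_left h)) (nz_comm_right _ _) ?_ hc.shift j (by omega)
      apply nz_of_comm_le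
      have hN1 : N ≠ ⊥ := hc.ne_bot (i := 0) (by omega)
      have h1 : ⁅N, X⁆ ≤ ⁅N, G⁆ :=
        le_comm_of_ne hN hG h hc.max _ ⁅N, X⁆ le_rfl (comm_le_left hXN) (comm_ne hN hX hXN hN1)
          (nz_comm h hGX)
      exact (Subgroup.commutator_mono (comm_le_left h) le_rfl).trans h1

theorem chain_of_U {N G : Subgroup L} (h : G ≤ Subgroup.normalizer (N : Set L)) {n : ℕ}
    (hn : Nat.card N = p ^ n)
    (hU : ∀ H : Subgroup L, H ≤ N → G ≤ Subgroup.normalizer (H : Set L) → H ≠ ⊥ →
      (⁅H, G⁆).relIndex H = p) : Chain p N G n := by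
  have hp : p.Prime := Fact.out
  intro i
  induction i with
  | zero => intro _; exact hn
  | succ i ih =>
    intro hi
    have h1 := ih (by omega)
    have hne : iterCommutator N G i ≠ ⊥ := by
      intro he
      rw [he, Subgroup.card_bot] at h1
      have : 1 < p ^ (n - i) := Nat.one_lt_pow (by omega) hp.one_lt
      omega
    have h2 := hU _ (iter_le h i) (iter_inv h i) hne
    have h3 := card_mul_relIndex' (iter_succ_le h i)
    rw [h1] at h3
    have h4 : (iterCommutator N G (i + 1)).relIndex (iterCommutator N G i) = p := h2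
    rw [h4] at h3
    have h5 : p ^ (n - i) = p ^ (n - (i + 1)) * p := by
      rw [← pow_succ]; congr 1; omega
    rw [h5] at h3
    exact Nat.eq_of_mul_eq_mul_right hp.pos h3

theorem chain_of_full {N G : Subgroup L} (hN : IsPGroup p N) (hG : IsPGroup p G)
    (h : G ≤ Subgroup.normalizer (N : Set L)) {n : ℕ}
    (hn : Nat.card N = p ^ n) (hfull : ∀ j < n, iterCommutator N G j ≠ ⊥) : Chain p N G n := by
  have hp : p.Prime := Fact.out
  have key : ∀ k i, i + k ≤ n →
      p ^ k * Nat.card (iterCommutator N G (i + k)) ∣ Nat.card (iterCommutator N G i) := by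
    intro k
    induction k with
    | zero => intro i _; simp
    | succ k ih =>
      intro i hi
      refine dvd_trans ?_ (ih i (by omega))
      rw [pow_succ, mul_assoc]
      apply mul_dvd_mul_left
      have hP : IsPGroup p (iterCommutator N G (i + k)) := hN.to_le (iter_le h _)
      exact p_mul_card_dvd hP (iter_succ_le h (i + k))
        (comm_ne hP hG (iter_inv h _) (hfull (i + k) (by omega)))
  intro i hi
  apply Nat.dvd_antisymm
  · have h1 := key i 0 (by omega)
    rw [zero_add] at h1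
    have h2 : Nat.card (iterCommutator N G 0) = p ^ i * p ^ (n - i) := by
      rw [← pow_add]
      show Nat.card N = _
      rw [hn]; congr 1; omega
    rw [h2] at h1
    exact Nat.dvd_of_mul_dvd_mul_left (pow_pos hp.pos _) h1
  · have h1 := key (n - i) i (by omega)
    exact dvd_trans (dvd_mul_right _ _) h1

theorem U_of_chain {N G : Subgroup L} (hN : IsPGroup p N) (hG : IsPGroup p G)
    (h : G ≤ Subgroup.normalizer (N : Set L)) {n : ℕ} (hc : Chain p N G n)
    (H : Subgroup L) (hHN : H ≤ N) (hGH : G ≤ Subgroup.normalizer (H : Set L)) (hH : H ≠ ⊥) :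
    (⁅H, G⁆).relIndex H = p := by
  have hp : p.Prime := Fact.out
  obtain ⟨i, hi, rfl⟩ := classify hG n N hN h hc H hHN hGH
  have hin : i < n := by
    rcases Nat.lt_or_ge i n with h1 | h1
    · exact h1
    · exfalso
      apply hH
      have h2 := hc i hi
      have h3 : n - i = 0 := by omega
      rw [h3, pow_zero] at h2
      exact (Subgroup.card_eq_one).1 h2
  have h3 := card_mul_relIndex' (iter_succ_le h i)
  rw [hc i hi, hc (i + 1) (by omega)] at h3
  have h5 : p ^ (n - i) = p ^ (n - (i + 1)) * p := by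
    rw [← pow_succ]; congr 1; omega
  rw [h5] at h3
  exact Nat.eq_of_mul_eq_mul_left (pow_pos hp.pos _) h3

end fin

/-- A p-group acts uniserially on a p-group N of order p^n exactly when the iterated commutator chain from N has length n; in that case the chain terms are all the invariant subgroups of N and they are normal in N. -/
theorem result {L : Type*} [Group L] [Finite L] {p : ℕ} [Fact p.Prime] (N G : Subgroup L) (hN : IsPGroup p N) (hG : IsPGroup p G) (hGN : G ≤ Subgroup.normalizer (N : Set L)) (n : ℕ) (hn : Nat.card N = p ^ n) : ((∀ H : Subgroup L, H ≤ N → G ≤ Subgroup.normalizer (H : Set L) → H ≠ ⊥ → (⁅H, G⁆).relIndex H = p) ↔ Cfsg.iterCommutator N G (n - 1) ≠ ⊥ ∨ n = 0) ∧ ((∀ H : Subgroup L, H ≤ N → G ≤ Subgroup.normalizer (H : Set L) → H ≠ ⊥ → (⁅H, G⁆).relIndex H = p) → ∀ H : Subgroup L, H ≤ N → G ≤ Subgroup.normalizer (H : Set L) → (∃ i ≤ n, H = Cfsg.iterCommutator N G i) ∧ N ≤ Subgroup.normalizer (H : Set L)) := by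
  refine ⟨⟨fun hU => ?_, fun hf => ?_⟩, fun hU H hHN hGH => ?_⟩
  · have hc := chain_of_U hGN hn hU
    rcases Nat.eq_zero_or_pos n with h0 | h0
    · exact Or.inr h0
    · exact Or.inl (hc.ne_bot (by omega))
  · have hc : Chain p N G n := by
      apply chain_of_full hN hG hGN hn
      intro j hj he
      rcases hf with hf | hf
      · apply hf
        rw [eq_bot_iff, ← he]
        have hanti : Antitone (iterCommutator N G) := antitone_nat_of_succ_le (iter_succ_le hGN)
        exact hanti (by omega)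
      · omega
    exact U_of_chain hN hG hGN hc
  · have hc := chain_of_U hGN hn hU
    obtain ⟨i, hi, rfl⟩ := classify hG n N hN hGN hc H hHN hGH
    exact ⟨⟨i, hi, rfl⟩, normal_aux hG hN hGN n N hN hGN Subgroup.le_normalizer hc i hi⟩

end Cfsg.Agent.S0663
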