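import Cfsg.Statements.S0668
-- import your own Cfsg.Agent.* helpers here

set_option autoImplicit false
open Cfsg

namespace Cfsg.Agent.S0668

/-- The equivariant linear maps between the permutation modules of two finite `G`-sets form a space whose dimension is the number of `G`-orbits on the product of the two sets. -/
theorem result {G : Type*} [Group G] {K : Type*} [Field K] {Ω₁ Ω₂ : Type*} [Fintype Ω₁] [Fintype Ω₂] [MulAction G Ω₁] [MulAction G Ω₂] : Module.finrank K ((Cfsg.permRep K G Ω₁).linHom (Cfsg.permRep K G Ω₂)).invariants = Nat.card (MulAction.orbitRel.Quotient G (Ω₁ × Ω₂)) := by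
  classical
  set Q := MulAction.orbitRel.Quotient G (Ω₁ × Ω₂) with hQ
  have : Fintype Q := Fintype.ofFinite Q
  set ρ₁ := Cfsg.permRep K G Ω₁ with hρ₁
  set ρ₂ := Cfsg.permRep K G Ω₂ with hρ₂
  -- the kernel of an operator
  have hsingle : ∀ (g : G) (j : Ω₁), ρ₁ g (Pi.single j 1) = Pi.single (g • j) 1 := by
    intro g j
    funext x
    show (Pi.single j (1 : K) : Ω₁ → K) (g⁻¹ • x) = (Pi.single (g • j) (1 : K) : Ω₁ → K) x
    rw [Pi.single_apply, Pi.single_apply]
    have : g⁻¹ • x = j ↔ x = g • j := inv_smul_eq_iff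
    simp only [this]
  let Ψ : (Q → K) →ₗ[K] ((Ω₁ → K) →ₗ[K] (Ω₂ → K)) :=
    { toFun := fun φ => Matrix.toLin' (Matrix.of fun (i : Ω₂) (j : Ω₁) => φ (Quotient.mk'' (j, i)))
      map_add' := by
        intro φ ψ
        rw [← map_add]
        rfl
      map_smul' := by
        intro c φ
        rw [RingHom.id_apply, ← map_smul]
        rfl }
  have hΨ : ∀ (φ : Q → K) (j : Ω₁) (i : Ω₂), Ψ φ (Pi.single j 1) i = φ (Quotient.mk'' (j, i)) := by
    intro φ j i
    show Matrix.toLin' _ (Pi.single j 1) i = _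
    rw [Matrix.toLin'_apply, Matrix.mulVec_single_one]
    rfl
  have hinj : Function.Injective Ψ := by
    intro φ ψ h
    funext q
    induction q using Quotient.inductionOn' with
    | h p =>
      obtain ⟨j, i⟩ := p
      rw [← hΨ φ j i, ← hΨ ψ j i, h]
  have hmem : ∀ T : (Ω₁ → K) →ₗ[K] (Ω₂ → K), T ∈ (ρ₁.linHom ρ₂).invariants ↔
      ∀ (g : G) (j : Ω₁) (i : Ω₂), T (Pi.single (g • j) 1) (g • i) = T (Pi.single j 1) i := by
    intro T
    constructor
    · intro h g j i
      have h1 : ρ₂ g⁻¹ ∘ₗ T ∘ₗ ρ₁ (g⁻¹)⁻¹ = T := h g⁻¹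
      have h2 := congrArg (fun S : (Ω₁ → K) →ₗ[K] (Ω₂ → K) => S (Pi.single j 1) i) h1
      simp only [LinearMap.comp_apply, inv_inv, hsingle] at h2
      have h3 : (ρ₂ g⁻¹ (T (Pi.single (g • j) 1))) i =
          T (Pi.single (g • j) 1) ((g⁻¹)⁻¹ • i) := rfl
      rw [h3, inv_inv] at h2
      exact h2
    · intro h g
      show ρ₂ g ∘ₗ T ∘ₗ ρ₁ g⁻¹ = T
      apply LinearMap.pi_ext'
      intro j
      apply LinearMap.ext_ring
      funext i
      simp only [LinearMap.comp_apply, LinearMap.single_apply, hsingle]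
      show T (Pi.single (g⁻¹ • j) 1) (g⁻¹ • i) = _
      exact h g⁻¹ j i
  have hrange : LinearMap.range Ψ = (ρ₁.linHom ρ₂).invariants := by
    apply le_antisymm
    · rintro _ ⟨φ, rfl⟩
      rw [hmem]
      intro g j i
      rw [hΨ, hΨ]
      congr 1
      apply Quotient.sound'
      exact ⟨g, rfl⟩
    · intro T hT
      rw [hmem] at hT
      refine ⟨fun q => T (Pi.single q.out.1 1) q.out.2, ?_⟩
      apply LinearMap.pi_ext'
      intro j
      apply LinearMap.ext_ring
      funext i
      simp only [LinearMap.comp_apply, LinearMap.single_apply]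
      rw [hΨ]
      have h1 : (Quotient.mk'' (j, i) : Q).out ∈ MulAction.orbit G (j, i) := by
        have := Quotient.out_eq' (Quotient.mk'' (j, i) : Q)
        exact Quotient.exact' this
      obtain ⟨g, hg⟩ := h1
      rw [← hg]
      exact hT g j i
  rw [← hrange, LinearMap.finrank_range_of_inj hinj, Module.finrank_fintype_fun_eq_card,
    Nat.card_eq_fintype_card]

end Cfsg.Agent.S0668
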