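import Cfsg.Statements.S0669
import Mathlib

set_option autoImplicit false
open Cfsg

namespace Cfsg.Agent.S0669

/-- The rank of a transitive action: orbits on ordered pairs correspond to orbits of a point stabiliser. -/
theorem result {G : Type*} [Group G] {Ω : Type*} [Finite Ω] [MulAction G Ω] [MulAction.IsPretransitive G Ω] (a : Ω) : Nat.card (MulAction.orbitRel.Quotient G (Ω × Ω)) = Nat.card (MulAction.orbitRel.Quotient (MulAction.stabilizer G a) Ω) := by
  symm
  apply Nat.card_congr
  let φ : MulAction.orbitRel.Quotient (MulAction.stabilizer G a) Ω →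
      MulAction.orbitRel.Quotient G (Ω × Ω) :=
    Quotient.map' (s₁ := MulAction.orbitRel (MulAction.stabilizer G a) Ω)
      (s₂ := MulAction.orbitRel G (Ω × Ω)) (fun b => (a, b)) (by
      intro b b' h
      obtain ⟨s, hs⟩ := MulAction.orbitRel_apply.1 h
      apply MulAction.orbitRel_apply.2
      refine ⟨s.1, ?_⟩
      have h1 : (s : G) • a = a := s.2
      have h2 : (s : G) • b' = b := hs
      change ((s : G) • a, (s : G) • b') = (a, b)
      rw [h1, h2])
  refine Equiv.ofBijective φ ⟨?_, ?_⟩
  · intro q1 q2
    induction q1 using Quotient.inductionOn' with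
    | h b =>
      induction q2 using Quotient.inductionOn' with
      | h b' =>
        intro h
        have h1 : (Quotient.mk'' (a, b) : MulAction.orbitRel.Quotient G (Ω × Ω)) = Quotient.mk'' (a, b') := h
        have h2 := MulAction.orbitRel_apply.1 (Quotient.eq''.1 h1)
        obtain ⟨g, hg⟩ := h2
        have hg' : (g • a, g • b') = (a, b) := hg
        have h3 : g • a = a := congrArg Prod.fst hg'
        have h4 : g • b' = b := congrArg Prod.snd hg'
        apply Quotient.eq''.2
        apply MulAction.orbitRel_apply.2
        exact ⟨⟨g, h3⟩, h4⟩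
  · intro q
    induction q using Quotient.inductionOn' with
    | h cd =>
      obtain ⟨c, d⟩ := cd
      obtain ⟨g, hg⟩ := MulAction.exists_smul_eq G c a
      refine ⟨Quotient.mk'' (g • d), ?_⟩
      change (Quotient.mk'' (a, g • d) : MulAction.orbitRel.Quotient G (Ω × Ω)) = Quotient.mk'' (c, d)
      apply Quotient.eq''.2
      apply MulAction.orbitRel_apply.2
      refine ⟨g, ?_⟩
      change (g • c, g • d) = (a, g • d)
      rw [hg]

end Cfsg.Agent.S0669
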