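import Cfsg.Statements.S0672
import Mathlib
-- import your own Cfsg.Agent.* helpers here

set_option autoImplicit false
open Cfsg

namespace Cfsg.Agent.S0672

open scoped Pointwise


/-- Let a finite group act faithfully and doubly transitively with point stabilisers of even order, and let `K` have characteristic `p` dividing the degree. If the heart of the permutation module admits no non-zero equivariant map to the permutation module on unordered pairs (phrased: every intertwining map from the sum-zero functions vanishing on the constants is zero), the action is triply transitive. -/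
theorem result {G : Type*} [Group G] [Finite G] {K : Type*} [Field K] {p : ℕ} [Fact p.Prime] [CharP K p] {Ω : Type*} [Fintype Ω] [DecidableEq Ω] [MulAction G Ω] [FaithfulSMul G Ω] (h2 : MulAction.IsMultiplyPretransitive G Ω 2) (hp : p ∣ Fintype.card Ω) (heven : ∀ a : Ω, Even (Nat.card (MulAction.stabilizer G a))) (h : ∀ f : Representation.IntertwiningMap (Cfsg.permSumZero K G Ω).toRepresentation (Cfsg.permRep K G (Set.powersetCard Ω 2)), (∀ v : (Cfsg.permSumZero K G Ω).toSubmodule, (v : Ω → K) ∈ (Cfsg.permConstants K G Ω).toSubmodule → f v = 0) → f = 0) : MulAction.IsMultiplyPretransitive G Ω 3 := by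
  classical
  by_contra h3
  have h2' : ∀ {a b c d : Ω}, a ≠ b → c ≠ d → ∃ g : G, g • a = c ∧ g • b = d :=
    MulAction.is_two_pretransitive_iff.mp h2
  -- core consequence of the hypothesis
  have core : ∀ M : Set.powersetCard Ω 2 → Ω → K, (∀ (g : G) s z, M (g • s) (g • z) = M s z) →
      (∀ s, ∑ z, M s z = 0) → ∀ s z z', M s z = M s z' := by
    intro M hinv hsum s z z'
    let f₀ : (Ω → K) →ₗ[K] (Set.powersetCard Ω 2 → K) :=
      { toFun := fun v s => ∑ z, M s z * v z
        map_add' := by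
          intro v w
          funext s
          simp only [Pi.add_apply, mul_add, Finset.sum_add_distrib]
        map_smul' := by
          intro k v
          funext s
          simp only [Pi.smul_apply, smul_eq_mul, RingHom.id_apply, Finset.mul_sum]
          apply Finset.sum_congr rfl
          intro y _
          ring }
    have hf₀ : ∀ v s, f₀ v s = ∑ z, M s z * v z := fun v s => rfl
    have hcomm : ∀ (g : G) v, f₀ (Cfsg.permRep K G Ω g v) =
        Cfsg.permRep K G (Set.powersetCard Ω 2) g (f₀ v) := by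
      intro g v
      funext s
      change ∑ z, M s z * v (g⁻¹ • z) = ∑ z, M (g⁻¹ • s) z * v z
      apply Fintype.sum_equiv (MulAction.toPerm g⁻¹)
      intro y
      rw [MulAction.toPerm_apply, hinv]
    let f : Representation.IntertwiningMap (Cfsg.permSumZero K G Ω).toRepresentation
        (Cfsg.permRep K G (Set.powersetCard Ω 2)) :=
      { toLinearMap := f₀ ∘ₗ (Cfsg.permSumZero K G Ω).toSubmodule.subtype
        isIntertwining' := by
          intro g
          ext1 v
          exact hcomm g v.1 }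
    have hf0 : f = 0 := by
      apply h
      intro v hv
      change f₀ v.1 = 0
      have hv' : v.1 ∈ Submodule.span K {fun _ : Ω => (1 : K)} := hv
      rw [Submodule.mem_span_singleton] at hv'
      obtain ⟨k, hk⟩ := hv'
      rw [← hk, map_smul]
      have : f₀ (fun _ => 1) = 0 := by
        funext s
        rw [hf₀]
        simpa using hsum s
      rw [this, smul_zero]
    have hmem : (Pi.single z 1 - Pi.single z' 1 : Ω → K) ∈ (Cfsg.permSumZero K G Ω).toSubmodule := by
      change ∑ x, (Pi.single z 1 - Pi.single z' 1 : Ω → K) x = 0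
      simp
    have h4 : f ⟨_, hmem⟩ = 0 := by rw [hf0]; rfl
    have h5 : f₀ (Pi.single z 1 - Pi.single z' 1) s = 0 := congrFun h4 s
    rw [hf₀] at h5
    simp only [Pi.sub_apply, mul_sub, Finset.sum_sub_distrib, Pi.single_apply, mul_ite, mul_one,
      mul_zero, Finset.sum_ite_eq', Finset.mem_univ, if_true] at h5
    exact sub_eq_zero.mp h5
  -- two distinct points
  obtain ⟨a, b, hab⟩ : ∃ a b : Ω, a ≠ b := by
    by_contra hcon
    push Not at hcon
    apply h3
    refine ⟨fun x y => ?_⟩
    exact absurd (x.injective (hcon (x 0) (x 1))) (by decide)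
  -- an involution swapping `a` and `b` and fixing a point
  obtain ⟨t, c₀, hta, htb, htc⟩ : ∃ (t : G) (c₀ : Ω), t • a = b ∧ t • b = a ∧ t • c₀ = c₀ := by
    obtain ⟨t, ht⟩ := exists_prime_orderOf_dvd_card' (G := MulAction.stabilizer G a) 2
      (even_iff_two_dvd.mp (heven a))
    have ht1 : (t : G) ≠ 1 := by
      intro h1
      have : t = 1 := Subtype.ext h1
      rw [this, orderOf_one] at ht
      norm_num at ht
    have htt : (t : G) * t = 1 := by
      have := pow_orderOf_eq_one t
      rw [ht, pow_two] at this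
      exact congrArg Subtype.val this
    obtain ⟨u, hu⟩ : ∃ u : Ω, (t : G) • u ≠ u := by
      by_contra hcon
      push Not at hcon
      apply ht1
      apply FaithfulSMul.eq_of_smul_eq_smul (α := Ω)
      intro z
      rw [hcon, one_smul]
    obtain ⟨k, hku, hkw⟩ := h2' (Ne.symm hu) hab
    refine ⟨k * t * k⁻¹, k • a, ?_, ?_, ?_⟩
    · rw [mul_smul, mul_smul, inv_smul_eq_iff.mpr hku.symm, hkw]
    · rw [mul_smul, mul_smul, inv_smul_eq_iff.mpr hkw.symm, smul_smul (t : G) (t : G) u, htt, one_smul,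
        hku]
    · rw [mul_smul, mul_smul, inv_smul_smul]
      congr 1
      exact t.2
  have hc₀a : c₀ ≠ a := by
    intro h1
    rw [h1, hta] at htc
    exact hab htc.symm
  have hc₀b : c₀ ≠ b := by
    intro h1
    rw [h1, htb] at htc
    exact hab htc
  -- a point outside the orbit of `c₀`
  obtain ⟨c₁, hc₁a, hc₁b, hc₁⟩ : ∃ c₁ : Ω, c₁ ≠ a ∧ c₁ ≠ b ∧
      ∀ g : G, g • a = a → g • b = b → g • c₀ ≠ c₁ := by
    by_contra hcon
    push Not at hcon
    apply h3
    have key : ∀ x : Fin 3 ↪ Ω, ∃ g : G, g • x 0 = a ∧ g • x 1 = b ∧ g • x 2 = c₀ := by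
      intro x
      have h01 : x 0 ≠ x 1 := fun h1 => absurd (x.injective h1) (by decide)
      have h02 : x 2 ≠ x 0 := fun h1 => absurd (x.injective h1) (by decide)
      have h12 : x 2 ≠ x 1 := fun h1 => absurd (x.injective h1) (by decide)
      obtain ⟨g₁, h1, h4⟩ := h2' h01 hab
      obtain ⟨k, hka, hkb, hkc⟩ := hcon (g₁ • x 2)
        (fun h5 => h02 (smul_left_cancel g₁ (h5.trans h1.symm)))
        (fun h5 => h12 (smul_left_cancel g₁ (h5.trans h4.symm)))
      refine ⟨k⁻¹ * g₁, ?_, ?_, ?_⟩
      · rw [mul_smul, h1, inv_smul_eq_iff, hka]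
      · rw [mul_smul, h4, inv_smul_eq_iff, hkb]
      · rw [mul_smul, inv_smul_eq_iff, hkc]
    refine ⟨fun x y => ?_⟩
    obtain ⟨g, hg0, hg1, hg2⟩ := key x
    obtain ⟨k, hk0, hk1, hk2⟩ := key y
    refine ⟨k⁻¹ * g, ?_⟩
    ext i
    change (k⁻¹ * g) • x i = y i
    fin_cases i
    · change (k⁻¹ * g) • x 0 = y 0
      rw [mul_smul, hg0, inv_smul_eq_iff, hk0]
    · change (k⁻¹ * g) • x 1 = y 1
      rw [mul_smul, hg1, inv_smul_eq_iff, hk1]
    · change (k⁻¹ * g) • x 2 = y 2
      rw [mul_smul, hg2, inv_smul_eq_iff, hk2]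
  let s₀ : Set.powersetCard Ω 2 := ⟨{a, b}, Finset.card_pair hab⟩
  have hs₀ : ∀ g : G, ((g • s₀ : Set.powersetCard Ω 2) : Finset Ω) = {g • a, g • b} := by
    intro g
    rw [Set.powersetCard.coe_smul]
    change g • ({a, b} : Finset Ω) = _
    rw [Finset.smul_finset_insert, Finset.smul_finset_singleton]
  have htrans : ∀ s : Set.powersetCard Ω 2, ∃ g : G, g • s₀ = s := by
    intro s
    obtain ⟨x, y, hxy, hs⟩ := Finset.card_eq_two.mp s.2
    obtain ⟨g, hga, hgb⟩ := h2' hab hxy
    refine ⟨g, Subtype.ext ?_⟩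
    rw [hs₀, hga, hgb]
    exact hs.symm
  let Θ : Set.powersetCard Ω 2 → Ω → Prop := fun s z => ∃ g : G, g • s₀ = s ∧ g • c₀ = z
  have hΘ : ∀ (g : G) s z, Θ (g • s) (g • z) ↔ Θ s z := by
    intro g s z
    constructor
    · rintro ⟨k, h1, h4⟩
      refine ⟨g⁻¹ * k, ?_, ?_⟩
      · rw [mul_smul, h1, inv_smul_smul]
      · rw [mul_smul, h4, inv_smul_smul]
    · rintro ⟨k, h1, h4⟩
      refine ⟨g * k, ?_, ?_⟩
      · rw [mul_smul, h1]
      · rw [mul_smul, h4]
  have hmem : ∀ (g : G) (s : Set.powersetCard Ω 2) z,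
      g • z ∈ ((g • s : Set.powersetCard Ω 2) : Finset Ω) ↔ z ∈ (s : Finset Ω) := by
    intro g s z
    rw [Set.powersetCard.coe_smul, Finset.smul_mem_smul_finset_iff]
  have hstab : ∀ g : G, g • s₀ = s₀ → (g • a = a ∧ g • b = b) ∨ (g • a = b ∧ g • b = a) := by
    intro g hg
    have h1 := hs₀ g
    rw [hg] at h1
    have h4 : ({a, b} : Finset Ω) = {g • a, g • b} := h1
    have hga : g • a ∈ ({a, b} : Finset Ω) := by rw [h4]; simp
    have hgb : g • b ∈ ({a, b} : Finset Ω) := by rw [h4]; simp
    have hne : g • a ≠ g • b := fun h5 => hab (smul_left_cancel g h5)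
    simp only [Finset.mem_insert, Finset.mem_singleton] at hga hgb
    rcases hga with h5 | h5 <;> rcases hgb with h6 | h6
    · exact absurd (h5.trans h6.symm) hne
    · exact Or.inl ⟨h5, h6⟩
    · exact Or.inr ⟨h5, h6⟩
    · exact absurd (h5.trans h6.symm) hne
  have F1 : ¬ Θ s₀ a := by
    rintro ⟨g, hg, hgc⟩
    rcases hstab g hg with ⟨h1, -⟩ | ⟨-, h1⟩
    · exact hc₀a (smul_left_cancel g (hgc.trans h1.symm))
    · exact hc₀b (smul_left_cancel g (hgc.trans h1.symm))
  have F2 : ¬ Θ s₀ c₁ := by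
    rintro ⟨g, hg, hgc⟩
    rcases hstab g hg with ⟨h1, h4⟩ | ⟨h1, h4⟩
    · exact hc₁ g h1 h4 hgc
    · apply hc₁ (g * t)
      · rw [mul_smul, hta, h4]
      · rw [mul_smul, htb, h1]
      · rw [mul_smul, htc, hgc]
  have F3 : Θ s₀ c₀ := ⟨1, one_smul _ _, one_smul _ _⟩
  let A : Set.powersetCard Ω 2 → Ω → K := fun s z => if Θ s z then 1 else 0
  let B : Set.powersetCard Ω 2 → Ω → K := fun s z => if z ∉ (s : Finset Ω) ∧ ¬ Θ s z then 1 else 0
  have hA : ∀ (g : G) s z, A (g • s) (g • z) = A s z := by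
    intro g s z
    simp only [A, hΘ]
  have hB : ∀ (g : G) s z, B (g • s) (g • z) = B s z := by
    intro g s z
    simp only [B, hΘ, hmem]
  have hsumA : ∀ s, ∑ z, A s z = ∑ z, A s₀ z := by
    intro s
    obtain ⟨g, rfl⟩ := htrans s
    symm
    apply Fintype.sum_equiv (MulAction.toPerm g)
    intro z
    exact (hA g s₀ z).symm
  have hsumB : ∀ s, ∑ z, B s z = ∑ z, B s₀ z := by
    intro s
    obtain ⟨g, rfl⟩ := htrans s
    symm
    apply Fintype.sum_equiv (MulAction.toPerm g)
    intro z
    exact (hB g s₀ z).symm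
  have hAa : A s₀ a = 0 := if_neg F1
  have hAc₀ : A s₀ c₀ = 1 := if_pos F3
  have hAc₁ : A s₀ c₁ = 0 := if_neg F2
  have hBa : B s₀ a = 0 := by
    apply if_neg
    intro h1
    apply h1.1
    change a ∈ ({a, b} : Finset Ω)
    simp
  have hBc₁ : B s₀ c₁ = 1 := by
    apply if_pos
    refine ⟨?_, F2⟩
    change c₁ ∉ ({a, b} : Finset Ω)
    simp [hc₁a, hc₁b]
  by_cases hdA : ∑ z, A s₀ z = 0
  · have := core A hA (fun s => by rw [hsumA, hdA]) s₀ a c₀
    rw [hAa, hAc₀] at this
    exact zero_ne_one this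
  · have := core (fun s z => (∑ z, B s₀ z) * A s z - (∑ z, A s₀ z) * B s z)
      (fun g s z => by simp only [hA, hB])
      (fun s => by
        rw [Finset.sum_sub_distrib, ← Finset.mul_sum, ← Finset.mul_sum, hsumA s, hsumB s]
        ring) s₀ a c₁
    simp only [hAa, hBa, hAc₁, hBc₁, mul_zero, sub_zero, mul_one, zero_sub] at this
    exact hdA (neg_eq_zero.mp this.symm)

end Cfsg.Agent.S0672
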