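import Cfsg.Statements.S0681
import Mathlib
-- import your own Cfsg.Agent.* helpers here

set_option autoImplicit false
open Cfsg

namespace Cfsg.Agent.S0681

section
variable {F : Type*} [Cfsg.NearField F]

theorem nf_rd (a b c : F) : (a + b) * c = a * c + b * c := Cfsg.NearField.right_distrib a b c

theorem nf_zero_mul (c : F) : (0 : F) * c = 0 := by
  have h := nf_rd (0 : F) 0 c
  rw [add_zero] at h
  exact (add_eq_left.mp h.symm)

theorem nf_neg_mul (a c : F) : (-a) * c = -(a * c) := by
  have h := nf_rd (-a) a c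
  rw [neg_add_cancel, nf_zero_mul] at h
  exact eq_neg_of_add_eq_zero_left h.symm

theorem nf_mul_ne_zero {a b : F} (ha : a ≠ 0) (hb : b ≠ 0) : a * b ≠ 0 := by
  intro h
  obtain ⟨b', hb1, hb2⟩ := Cfsg.NearField.exists_inv b hb
  apply ha
  have : a * b * b' = 0 * b' := by rw [h]
  rwa [mul_assoc, hb1, mul_one, nf_zero_mul] at this

end


/-- The affine maps `x ↦ x * a + b`, `a ≠ 0`, of a near-field form a sharply doubly transitive permutation group. -/
theorem result {F : Type*} [Cfsg.NearField F] : ∃ H : Subgroup (Equiv.Perm F), (∀ σ : Equiv.Perm F, σ ∈ H ↔ ∃ a b : F, a ≠ 0 ∧ ∀ x : F, σ x = x * a + b) ∧ MulAction.IsMultiplyPretransitive H F 2 ∧ ∀ x : Fin 2 ↪ F, MulAction.stabilizer H x = ⊥ := by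
  classical
  let H : Subgroup (Equiv.Perm F) :=
    { carrier := {σ | ∃ a b : F, a ≠ 0 ∧ ∀ x : F, σ x = x * a + b}
      one_mem' := ⟨1, 0, fun h => Cfsg.NearField.zero_ne_one h.symm, fun x => by simp⟩
      mul_mem' := by
        rintro σ τ ⟨a, b, ha, hσ⟩ ⟨c, d, hc, hτ⟩
        refine ⟨c * a, d * a + b, nf_mul_ne_zero hc ha, fun x => ?_⟩
        rw [Equiv.Perm.mul_apply, hτ, hσ, nf_rd, mul_assoc, add_assoc]
      inv_mem' := by
        rintro σ ⟨a, b, ha, hσ⟩
        obtain ⟨a', h1, h2⟩ := Cfsg.NearField.exists_inv a ha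
        have ha' : a' ≠ 0 := by
          intro h
          rw [h, nf_zero_mul] at h2
          exact Cfsg.NearField.zero_ne_one h2
        refine ⟨a', (-b) * a', ha', fun x => ?_⟩
        apply σ.injective
        rw [Equiv.Perm.inv_def, Equiv.apply_symm_apply, hσ, nf_rd, mul_assoc, mul_assoc, h2, mul_one, mul_one,
          add_assoc, neg_add_cancel, add_zero] }
  have hmem : ∀ σ : Equiv.Perm F, σ ∈ H ↔ ∃ a b : F, a ≠ 0 ∧ ∀ x : F, σ x = x * a + b :=
    fun σ => Iff.rfl
  refine ⟨H, hmem, ?_, ?_⟩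
  · refine ⟨fun x y => ?_⟩
    have hx : x 1 - x 0 ≠ 0 := by
      intro h
      have := x.injective (sub_eq_zero.mp h)
      exact absurd this (by decide)
    have hy : y 1 - y 0 ≠ 0 := by
      intro h
      have := y.injective (sub_eq_zero.mp h)
      exact absurd this (by decide)
    obtain ⟨u, hu1, hu2⟩ := Cfsg.NearField.exists_inv _ hx
    have hu : u ≠ 0 := by
      intro h
      rw [h, nf_zero_mul] at hu2
      exact Cfsg.NearField.zero_ne_one hu2
    set a := u * (y 1 - y 0) with ha
    have ha0 : a ≠ 0 := nf_mul_ne_zero hu hy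
    obtain ⟨a', h1, h2⟩ := Cfsg.NearField.exists_inv a ha0
    set b := -(x 0 * a) + y 0 with hb
    let σ : Equiv.Perm F :=
      { toFun := fun z => z * a + b
        invFun := fun z => (z - b) * a'
        left_inv := fun z => by
          simp only [add_sub_cancel_right, mul_assoc, h1, mul_one]
        right_inv := fun z => by
          simp only [mul_assoc, h2, mul_one, sub_add_cancel] }
    have hσ : σ ∈ H := ⟨a, b, ha0, fun z => rfl⟩
    refine ⟨⟨σ, hσ⟩, ?_⟩
    ext i
    change σ (x i) = y i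
    change x i * a + b = y i
    fin_cases i
    · simp [hb]
    · have : (x 1 - x 0) * a = y 1 - y 0 := by
        rw [ha, ← mul_assoc, hu1, one_mul]
      rw [sub_eq_add_neg, nf_rd, nf_neg_mul] at this
      simp only [hb, Fin.mk_one, Fin.isValue]
      rw [← add_assoc, this, sub_add_cancel]
  · intro x
    rw [eq_bot_iff]
    rintro ⟨σ, a, b, ha, hσ⟩ hs
    rw [MulAction.mem_stabilizer_iff] at hs
    have h0 : σ (x 0) = x 0 := by
      have := congrArg (fun e : Fin 2 ↪ F => e 0) hs
      exact this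
    have h1 : σ (x 1) = x 1 := by
      have := congrArg (fun e : Fin 2 ↪ F => e 1) hs
      exact this
    have hx : x 1 - x 0 ≠ 0 := by
      intro h
      have := x.injective (sub_eq_zero.mp h)
      exact absurd this (by decide)
    obtain ⟨u, hu1, hu2⟩ := Cfsg.NearField.exists_inv _ hx
    rw [hσ] at h0 h1
    have h3 : (x 1 - x 0) * a = x 1 - x 0 := by
      rw [sub_eq_add_neg, nf_rd, nf_neg_mul]
      conv_rhs => rw [← h0, ← h1]
      rw [neg_add_rev, add_assoc, add_neg_cancel_left]
    have ha1 : a = 1 := by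
      have : u * ((x 1 - x 0) * a) = u * (x 1 - x 0) := by rw [h3]
      rwa [← mul_assoc, hu2, one_mul] at this
    have hb0 : b = 0 := by
      rw [ha1, mul_one] at h0
      exact add_eq_left.mp h0
    rw [Subgroup.mem_bot]
    apply Subtype.ext
    ext z
    simp [hσ, ha1, hb0]

end Cfsg.Agent.S0681
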