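import Cfsg.Statements.S0682
import Mathlib
-- import your own Cfsg.Agent.* helpers here

set_option autoImplicit false
open Cfsg

namespace Cfsg.Agent.S0682

section
variable {F : Type*} [Cfsg.NearField F]

theorem nf_rd (a b c : F) : (a + b) * c = a * c + b * c := Cfsg.NearField.right_distrib a b c

theorem nf_zero_mul (c : F) : (0 : F) * c = 0 := by
  have h := nf_rd (0 : F) 0 c
  rw [add_zero] at h
  exact (add_eq_left.mp h.symm)

/-- right multiplication as an additive hom -/
def rmul (c : F) : F →+ F where
  toFun x := x * c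
  map_zero' := nf_zero_mul c
  map_add' a b := nf_rd a b c

theorem rmul_inj {c : F} (hc : c ≠ 0) : Function.Injective (rmul c) := by
  obtain ⟨c', h1, h2⟩ := Cfsg.NearField.exists_inv c hc
  intro a b hab
  have : a * c * c' = b * c * c' := by
    have h : a * c = b * c := hab
    rw [h]
  simpa [mul_assoc, h1] using this

end


/-- A finite near-field has prime-power order; its additive group is commutative of prime exponent. -/
theorem result {F : Type*} [Cfsg.NearField F] [Finite F] : ∃ p j : ℕ, p.Prime ∧ 1 ≤ j ∧ Nat.card F = p ^ j ∧ (∀ x y : F, x + y = y + x) ∧ ∀ x : F, p • x = 0 := by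
  classical
  have h10 : (1 : F) ≠ 0 := fun h => Cfsg.NearField.zero_ne_one h.symm
  have hord : ∀ x : F, x ≠ 0 → addOrderOf x = addOrderOf (1 : F) := by
    intro x hx
    have := addOrderOf_injective (rmul x) (rmul_inj hx) (1 : F)
    rw [← this]
    congr 1
    exact (one_mul x).symm
  set n := addOrderOf (1 : F) with hn
  have hnpos : 0 < n := addOrderOf_pos (1 : F)
  have hn1 : n ≠ 1 := by
    intro h
    exact h10 (AddMonoid.addOrderOf_eq_one_iff.mp h)
  obtain ⟨p, hp, hpn⟩ := Nat.exists_prime_and_dvd hn1
  have hnp : n = p := by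
    obtain ⟨m, hm⟩ := hpn
    have hmpos : 0 < m := by
      rcases Nat.eq_zero_or_pos m with h | h
      · rw [h, mul_zero] at hm; omega
      · exact h
    have h1 : addOrderOf (m • (1 : F)) = p := by
      rw [addOrderOf_nsmul' _ hmpos.ne', ← hn, hm, Nat.gcd_eq_right (Dvd.intro_left p rfl),
        Nat.mul_div_cancel _ hmpos]
    have h2 : m • (1 : F) ≠ 0 := by
      intro h
      rw [h, addOrderOf_zero] at h1
      exact hp.one_lt.ne h1
    rw [← hord _ h2, h1]
  have hpx : ∀ x : F, p • x = 0 := by
    intro x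
    by_cases hx : x = 0
    · rw [hx, smul_zero]
    · rw [← hnp, ← hord x hx]; exact addOrderOf_nsmul_eq_zero x
  haveI : Fact p.Prime := ⟨hp⟩
  have hPG : IsPGroup p (Multiplicative F) := by
    intro x
    refine ⟨1, ?_⟩
    rw [pow_one]
    exact congrArg Multiplicative.ofAdd (hpx x.toAdd)
  haveI : Nontrivial (Multiplicative F) := ⟨⟨Multiplicative.ofAdd 1, Multiplicative.ofAdd 0, fun h => h10 (Multiplicative.ofAdd.injective h)⟩⟩
  haveI : Finite (Multiplicative F) := inferInstanceAs (Finite F)
  obtain ⟨j, hj⟩ := IsPGroup.iff_card.mp hPG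
  have hcard : Nat.card F = p ^ j := hj
  have hj1 : 1 ≤ j := by
    rcases Nat.eq_zero_or_pos j with h | h
    · rw [h, pow_zero] at hj
      have := Finite.one_lt_card (α := Multiplicative F)
      omega
    · exact h
  refine ⟨p, j, hp, hj1, hcard, ?_, hpx⟩
  have hcen := hPG.center_nontrivial
  obtain ⟨⟨z, hz⟩, hz1⟩ := exists_ne (1 : Subgroup.center (Multiplicative F))
  have hz0 : z.toAdd ≠ 0 := by
    intro h
    apply hz1
    apply Subtype.ext
    exact Multiplicative.toAdd.injective h
  have hzc : ∀ y : F, y + z.toAdd = z.toAdd + y := by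
    intro y
    have := (Subgroup.mem_center_iff.mp hz) (Multiplicative.ofAdd y)
    exact congrArg Multiplicative.toAdd this
  set z' := z.toAdd with hz'
  obtain ⟨w, hw1, hw2⟩ := Cfsg.NearField.exists_inv z' hz0
  intro x y
  by_cases hx : x = 0
  · rw [hx, zero_add, add_zero]
  · -- x = z' * (w * x)
    set a := w * x with ha
    have hxa : x = z' * a := by rw [ha, ← mul_assoc, hw1, one_mul]
    have ha0 : a ≠ 0 := by
      intro h
      rw [h, Cfsg.NearField.mul_zero] at hxa
      exact hx hxa
    obtain ⟨a', h1, h2⟩ := Cfsg.NearField.exists_inv a ha0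
    have hy : y = (y * a') * a := by rw [mul_assoc, h2, mul_one]
    rw [hxa, hy, ← nf_rd, ← nf_rd, hzc]

end Cfsg.Agent.S0682
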