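import Cfsg.Statements.S0683
import Mathlib
-- import your own Cfsg.Agent.* helpers here
import Cfsg.Agent.S0680

set_option autoImplicit false
open Cfsg

namespace Cfsg.Agent.S0683



/-- A finite sharply doubly transitive permutation group is the affine group of a near-field: the permuted set carries a near-field structure for which the group consists exactly of the maps `x ↦ x * a + b` with `a ≠ 0`. -/
theorem result {α : Type*} [Fintype α] [DecidableEq α] (H : Subgroup (Equiv.Perm α)) [MulAction.IsMultiplyPretransitive H α 2] (hsharp : ∀ x : Fin 2 ↪ α, MulAction.stabilizer H x = ⊥) (h2 : 2 ≤ Fintype.card α) : ∃ _ : Cfsg.NearField α, ∀ σ : Equiv.Perm α, σ ∈ H ↔ ∃ a b : α, a ≠ 0 ∧ ∀ x : α, σ x = x * a + b := by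
  classical
  obtain ⟨p, j, hp, hj, hcard, hS⟩ := Cfsg.Agent.S0680.result H hsharp h2
  haveI hpF : Fact p.Prime := ⟨hp⟩
  obtain ⟨P⟩ : Nonempty (Sylow p H) := inferInstance
  obtain ⟨hKn, -, -, hKt, hKs, -⟩ := hS hpF P
  set K : Subgroup H := (P : Subgroup H) with hK
  obtain ⟨o, e, hoe⟩ := Fintype.exists_pair_of_one_lt_card (α := α) (by omega)
  have hfix : ∀ g : H, ∀ a b : α, a ≠ b → g • a = a → g • b = b → g = 1 := by
    intro g a b hab ha hb
    let x : Fin 2 ↪ α := ⟨![a, b], by
      intro i j hij
      fin_cases i <;> fin_cases j <;> simp_all⟩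
    have : g ∈ MulAction.stabilizer H x := by
      rw [MulAction.mem_stabilizer_iff]
      ext i
      fin_cases i
      · exact ha
      · exact hb
    rw [hsharp x, Subgroup.mem_bot] at this
    exact this
  -- translations
  have hTex : ∀ a : α, ∃ k : H, k ∈ K ∧ k • o = a := by
    intro a
    obtain ⟨k, hk⟩ := hKt.exists_smul_eq o a
    exact ⟨k.1, k.2, hk⟩
  choose t htK hto using hTex
  have htu : ∀ (k : H) (a : α), k ∈ K → k • o = a → k = t a := by
    intro k a hk hka
    have h1 : (⟨(t a)⁻¹ * k, K.mul_mem (K.inv_mem (htK a)) hk⟩ : K) ∈ MulAction.stabilizer K o := by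
      rw [MulAction.mem_stabilizer_iff]
      change ((t a)⁻¹ * k) • o = o
      rw [mul_smul, hka, inv_smul_eq_iff, hto]
    rw [hKs o, Subgroup.mem_bot] at h1
    have h2 : (t a)⁻¹ * k = 1 := congrArg Subtype.val h1
    exact (inv_mul_eq_one.mp h2).symm
  -- multiplications
  have hMex : ∀ b : α, ∃ h : H, b ≠ o → h • o = o ∧ h • e = b := by
    intro b
    by_cases hb : b = o
    · exact ⟨1, fun h => absurd hb h⟩
    · have h2t : MulAction.IsMultiplyPretransitive H α 2 := inferInstance
      rw [MulAction.is_two_pretransitive_iff] at h2t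
      obtain ⟨g, h1, h2⟩ := h2t hoe (Ne.symm hb)
      exact ⟨g, fun _ => ⟨h1, h2⟩⟩
  choose m hm using hMex
  have hmu : ∀ (h : H) (b : α), b ≠ o → h • o = o → h • e = b → h = m b := by
    intro h b hb h1 h2
    have h3 : (m b)⁻¹ * h = 1 := by
      apply hfix _ o e hoe
      · rw [mul_smul, h1, inv_smul_eq_iff, (hm b hb).1]
      · rw [mul_smul, h2, inv_smul_eq_iff, (hm b hb).2]
    exact (inv_mul_eq_one.mp h3).symm
  let add : α → α → α := fun a b => t b • a
  let mul : α → α → α := fun a b => if b = o then o else m b • a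
  let neg : α → α := fun a => (t a)⁻¹ • o
  have hto1 : t o = 1 := (htu 1 o K.one_mem (one_smul _ _)).symm
  have hme1 : m e = 1 := (hmu 1 e (Ne.symm hoe) (one_smul _ _) (one_smul _ _)).symm
  have hadd_t : ∀ a b : α, t (add a b) = t b * t a := by
    intro a b
    symm
    apply htu _ _ (K.mul_mem (htK b) (htK a))
    rw [mul_smul, hto]
  have add_assoc' : ∀ a b c : α, add (add a b) c = add a (add b c) := by
    intro a b c
    change t c • t b • a = t (add b c) • a
    rw [hadd_t, mul_smul]
  have zero_add' : ∀ a : α, add o a = a := fun a => hto a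
  have add_zero' : ∀ a : α, add a o = a := by
    intro a
    change t o • a = a
    rw [hto1, one_smul]
  have neg_add' : ∀ a : α, add (neg a) a = o := by
    intro a
    change t a • (t a)⁻¹ • o = o
    rw [smul_inv_smul]
  have mul_o : ∀ a : α, mul a o = o := fun a => if_pos rfl
  have mul_ne : ∀ a b : α, b ≠ o → mul a b = m b • a := fun a b hb => if_neg hb
  have o_mul : ∀ b : α, mul o b = o := by
    intro b
    by_cases hb : b = o
    · rw [hb, mul_o]
    · rw [mul_ne _ _ hb, (hm b hb).1]
  have mul_ne_o : ∀ a b : α, a ≠ o → b ≠ o → mul a b ≠ o := by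
    intro a b ha hb h
    rw [mul_ne _ _ hb] at h
    apply ha
    have h1 := (hm b hb).1
    exact smul_left_cancel (m b) (h.trans h1.symm)
  have one_mul' : ∀ b : α, mul e b = b := by
    intro b
    by_cases hb : b = o
    · rw [hb, mul_o]
    · rw [mul_ne _ _ hb, (hm b hb).2]
  have mul_one' : ∀ a : α, mul a e = a := by
    intro a
    rw [mul_ne _ _ (Ne.symm hoe), hme1, one_smul]
  have mul_assoc' : ∀ a b c : α, mul (mul a b) c = mul a (mul b c) := by
    intro a b c
    by_cases hc : c = o
    · rw [hc, mul_o, mul_o, mul_o]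
    · by_cases hb : b = o
      · rw [hb, mul_o, o_mul, mul_o]
      · have hbc := mul_ne_o b c hb hc
        rw [mul_ne _ _ hbc, mul_ne _ _ hc, mul_ne _ _ hb]
        have : m c * m b = m (mul b c) := by
          apply hmu _ _ hbc
          · rw [mul_smul, (hm b hb).1, (hm c hc).1]
          · rw [mul_smul, (hm b hb).2, mul_ne _ _ hc]
        rw [← this, mul_smul]
  have rdist : ∀ a b c : α, mul (add a b) c = add (mul a c) (mul b c) := by
    intro a b c
    by_cases hc : c = o
    · rw [hc, mul_o, mul_o, mul_o, add_zero']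
    · rw [mul_ne _ _ hc, mul_ne _ _ hc, mul_ne _ _ hc]
      change m c • t b • a = t (m c • b) • m c • a
      have : m c * t b * (m c)⁻¹ = t (m c • b) := by
        apply htu _ _ (hKn.conj_mem _ (htK b) _)
        rw [mul_smul, mul_smul, inv_smul_eq_iff.mpr (hm c hc).1.symm, hto]
      rw [← this, mul_smul, mul_smul, inv_smul_smul]
  have hinv : ∀ a : α, a ≠ o → ∃ b : α, mul a b = e ∧ mul b a = e := by
    intro a ha
    have hb : (m a)⁻¹ • e ≠ o := by
      intro h
      rw [inv_smul_eq_iff, (hm a ha).1] at h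
      exact hoe h.symm
    refine ⟨(m a)⁻¹ • e, ?_, ?_⟩
    · rw [mul_ne _ _ hb]
      have : (m a)⁻¹ = m ((m a)⁻¹ • e) := by
        apply hmu _ _ hb _ rfl
        rw [inv_smul_eq_iff, (hm a ha).1]
      rw [← this, inv_smul_eq_iff, (hm a ha).2]
    · rw [mul_ne _ _ ha, smul_inv_smul]
  letI iA : Add α := ⟨add⟩
  letI iZ : Zero α := ⟨o⟩
  letI iN : Neg α := ⟨neg⟩
  let AG : AddGroup α := AddGroup.ofLeftAxioms add_assoc' zero_add' neg_add'
  let MN : Monoid α :=
    { mul := mul
      mul_assoc := mul_assoc'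
      one := e
      one_mul := one_mul'
      mul_one := mul_one' }
  let NF : Cfsg.NearField α :=
    { AG, MN with
      right_distrib := rdist
      mul_zero := mul_o
      zero_ne_one := hoe
      exists_inv := hinv }
  refine ⟨NF, fun σ => ?_⟩
  change σ ∈ H ↔ ∃ a b : α, a ≠ o ∧ ∀ x : α, σ x = add (mul x a) b
  constructor
  · intro hσ
    set s : H := ⟨σ, hσ⟩ with hs
    set b := s • o with hb
    set r : H := (t b)⁻¹ * s with hr
    have hro : r • o = o := by
      rw [hr, mul_smul, inv_smul_eq_iff, hto]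
    have hre : r • e ≠ o := by
      intro h
      exact hoe (smul_left_cancel r (hro.trans h.symm))
    refine ⟨r • e, b, hre, fun x => ?_⟩
    rw [mul_ne _ _ hre, ← hmu r _ hre hro rfl]
    change σ x = t b • r • x
    rw [hr, mul_smul, smul_inv_smul]
    rfl
  · rintro ⟨a, b, ha, h⟩
    have : σ = ((t b * m a : H) : Equiv.Perm α) := by
      ext x
      rw [h x, mul_ne _ _ ha]
      rfl
    rw [this]
    exact (t b * m a).2

end Cfsg.Agent.S0683
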