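import Cfsg.Statements.S0684
import Mathlib
-- import your own Cfsg.Agent.* helpers here
import Cfsg.Agent.H5.FpfCyc

set_option autoImplicit false
open Cfsg

namespace Cfsg.Agent.S0684


/-- a group acting semiregularly on an invariant subset has order dividing its cardinality -/
theorem card_dvd_of_semiregular {A V : Type*} [Group A] [MulAction A V] (X : Set V)
    (hX : ∀ a : A, ∀ v ∈ X, a • v ∈ X) (hs : ∀ a : A, ∀ v ∈ X, a • v = v → a = 1) :
    Nat.card A ∣ Nat.card X := by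
  let S : SubMulAction A V := ⟨X, fun a v hv => hX a v hv⟩
  have h1 : ∀ b : S, MulAction.stabilizer A b = ⊥ := by
    intro b
    rw [eq_bot_iff]
    intro a ha
    rw [Subgroup.mem_bot]
    apply hs a b.1 b.2
    have := congrArg Subtype.val (MulAction.mem_stabilizer_iff.mp ha)
    exact this
  have e := MulAction.selfEquivOrbitsQuotientProd h1
  have h2 : Nat.card X = Nat.card (Quotient (MulAction.orbitRel A S)) * Nat.card A := by
    rw [← Nat.card_prod]
    exact Nat.card_congr e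
  rw [h2]
  exact Dvd.intro_left _ rfl


/-- Point stabiliser of a sharply doubly transitive group not of semilinear type: a maximal normal abelian subgroup `A` of a linear group `H` that is regular on non-zero vectors and has no irreducible cyclic normal subgroup is cyclic and reducible, and the order of `A` divides `p ^ k - 1` for `k` the dimension of a minimal `A`-invariant subspace. -/
theorem result {p : ℕ} [Fact p.Prime] {V : Type*} [AddCommGroup V] [Module (ZMod p) V] [Finite V] (H : Subgroup (V ≃ₗ[ZMod p] V)) (hreg : ∀ v w : V, v ≠ 0 → w ≠ 0 → ∃! h : H, (h : V ≃ₗ[ZMod p] V) v = w) (hI : ∀ A : Subgroup H, A.Normal → IsCyclic A → ∃ W : Submodule (ZMod p) V, W ≠ ⊥ ∧ W ≠ ⊤ ∧ ∀ a ∈ A, ∀ v ∈ W, ((a : H) : V ≃ₗ[ZMod p] V) v ∈ W) (A : Subgroup H) (hAn : A.Normal) (hAc : IsMulCommutative A) (hAmax : ∀ B : Subgroup H, B.Normal → IsMulCommutative B → A ≤ B → B = A) : IsCyclic A ∧ ∃ W : Submodule (ZMod p) V, W ≠ ⊥ ∧ W ≠ ⊤ ∧ (∀ a ∈ A, ∀ v ∈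 W, ((a : H) : V ≃ₗ[ZMod p] V) v ∈ W) ∧ (∀ W' : Submodule (ZMod p) V, W' ≤ W → (∀ a ∈ A, ∀ v ∈ W', ((a : H) : V ≃ₗ[ZMod p] V) v ∈ W') → W' = ⊥ ∨ W' = W) ∧ Nat.card A ∣ p ^ Module.finrank (ZMod p) W - 1 := by
  have hsemi : ∀ a : A, ∀ v : V, v ≠ 0 → a • v = v → a = 1 := by
    intro a v hv hav
    obtain ⟨h, -, hu⟩ := hreg v v hv hv
    have h1 : (a : H) = h := hu a hav
    have h2 : (1 : H) = h := hu 1 rfl
    apply Subtype.ext
    rw [h1, ← h2]; rfl
  have hnt : Nontrivial V := by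
    obtain ⟨W, hW0, -, -⟩ := hI ⊥ inferInstance inferInstance
    obtain ⟨w, -, hw⟩ := (Submodule.ne_bot_iff W).mp hW0
    exact ⟨⟨w, 0, hw⟩⟩
  have hfin : Finite (V ≃ₗ[ZMod p] V) :=
    Finite.of_injective (fun f : V ≃ₗ[ZMod p] V => (f : V → V)) DFunLike.coe_injective
  have hcyc : IsCyclic A := by
    apply Cfsg.Agent.H5FpfCyc.isCyclic_of_fpf (V := V)
    intro a ha v hav
    by_contra hv
    exact ha (hsemi a v hv hav)
  refine ⟨hcyc, ?_⟩
  obtain ⟨W₀, hW₀0, hW₀T, hW₀⟩ := hI A hAn hcyc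
  let S : Set (Submodule (ZMod p) V) := {W | W ≠ ⊥ ∧ W ≤ W₀ ∧
    ∀ a ∈ A, ∀ v ∈ W, ((a : H) : V ≃ₗ[ZMod p] V) v ∈ W}
  have hSne : S.Nonempty := ⟨W₀, hW₀0, le_refl _, hW₀⟩
  obtain ⟨W, ⟨hW0, hWle, hWinv⟩, hWmin⟩ := wellFounded_lt.has_min S hSne
  refine ⟨W, hW0, ?_, hWinv, ?_, ?_⟩
  · rintro rfl
    exact hW₀T (top_le_iff.mp hWle)
  · intro W' hW' hinv
    by_cases h0 : W' = ⊥
    · exact Or.inl h0
    · right
      have := hWmin W' ⟨h0, hW'.trans hWle, hinv⟩
      exact eq_of_le_of_not_lt hW' this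
  · have h1 := card_dvd_of_semiregular (A := A) ((W : Set V) \ {0})
      (by
        intro a v hv
        refine ⟨hWinv a.1 a.2 v hv.1, ?_⟩
        intro h0
        apply hv.2
        have : ((a : H) : V ≃ₗ[ZMod p] V) v = 0 := h0
        exact (LinearEquiv.map_eq_zero_iff _).mp this)
      (by
        intro a v hv hav
        exact hsemi a v hv.2 hav)
    rw [Nat.card_coe_set_eq, Set.ncard_diff_singleton_of_mem W.zero_mem, ← Nat.card_coe_set_eq] at h1
    have h2 : Nat.card W = p ^ Module.finrank (ZMod p) W := by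
      rw [Module.natCard_eq_pow_finrank (K := ZMod p), Nat.card_zmod]
    rw [← h2]
    exact h1

end Cfsg.Agent.S0684
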