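import Cfsg.Statements.S0685
import Mathlib
-- import your own Cfsg.Agent.* helpers here
import Cfsg.Agent.S0684

set_option autoImplicit false
open Cfsg

namespace Cfsg.Agent.S0685



/-- In a linear group over the prime field that is regular on non-zero vectors and has no irreducible cyclic normal subgroup, a maximal normal abelian subgroup is properly contained in its centraliser, which is non-abelian. -/
theorem result {p : ℕ} [Fact p.Prime] {V : Type*} [AddCommGroup V] [Module (ZMod p) V] [Finite V] (H : Subgroup (V ≃ₗ[ZMod p] V)) (hreg : ∀ v w : V, v ≠ 0 → w ≠ 0 → ∃! h : H, (h : V ≃ₗ[ZMod p] V) v = w) (hI : ∀ A : Subgroup H, A.Normal → IsCyclic A → ∃ W : Submodule (ZMod p) V, W ≠ ⊥ ∧ W ≠ ⊤ ∧ ∀ a ∈ A, ∀ v ∈ W, ((a : H) : V ≃ₗ[ZMod p] V) v ∈ W) (A : Subgroup H) (hAn : A.Normal) (hAc : IsMulCommutative A) (hAmax : ∀ B : Subgroup H, B.Normal → IsMulCommutative B → A ≤ B → B = A) : A < Subgroup.centralizer (A : Set H) ∧ ¬ IsMulCommutative (Subgroup.centralizer (A : Set H)) := by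
  have hpp : p.Prime := Fact.out
  obtain ⟨hcyc, W, hW0, hWT, hWinv, hWmin, hdvd⟩ := Cfsg.Agent.S0684.result H hreg hI A hAn hAc hAmax
  have hfin : Finite (V ≃ₗ[ZMod p] V) :=
    Finite.of_injective (fun f : V ≃ₗ[ZMod p] V => (f : V → V)) DFunLike.coe_injective
  have hAC : A ≤ Subgroup.centralizer (A : Set H) := by
    intro a ha
    rw [Subgroup.mem_centralizer_iff]
    intro b hb
    have := mul_comm' (⟨b, hb⟩ : A) ⟨a, ha⟩
    exact congrArg Subtype.val this
  have hne : Subgroup.centralizer (A : Set H) ≠ A := by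
    intro hCA
    -- vectors
    obtain ⟨w, hwW, hw0⟩ := (Submodule.ne_bot_iff W).mp hW0
    have hv : ∃ v : V, v ∉ W := by
      by_contra hall
      push Not at hall
      exact hWT (eq_top_iff.mpr (fun x _ => hall x))
    obtain ⟨v, hvW⟩ := hv
    have hv0 : v ≠ 0 := by
      rintro rfl
      exact hvW W.zero_mem
    obtain ⟨h, hh, -⟩ := hreg w v hw0 hv0
    set W₂ : Submodule (ZMod p) V := W.map ((h : V ≃ₗ[ZMod p] V) : V →ₗ[ZMod p] V) with hW₂
    have hfr : Module.finrank (ZMod p) W₂ = Module.finrank (ZMod p) W :=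
      LinearEquiv.finrank_map_eq _ _
    have hinv₂ : ∀ a ∈ A, ∀ x ∈ W₂, ((a : H) : V ≃ₗ[ZMod p] V) x ∈ W₂ := by
      rintro a ha _ ⟨x, hx, rfl⟩
      refine ⟨((h⁻¹ * a * h : H) : V ≃ₗ[ZMod p] V) x, hWinv _ ?_ x hx, ?_⟩
      · have := hAn.conj_mem a ha h⁻¹
        rwa [inv_inv] at this
      · show ((h * (h⁻¹ * a * h) : H) : V ≃ₗ[ZMod p] V) x = ((a * h : H) : V ≃ₗ[ZMod p] V) x
        congr 2
        group
    have hdisj : W ⊓ W₂ = ⊥ := by
      rcases hWmin (W ⊓ W₂) inf_le_left
        (fun a ha x hx => ⟨hWinv a ha x hx.1, hinv₂ a ha x hx.2⟩) with h1 | h1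
      · exact h1
      · exfalso
        have h2 : W ≤ W₂ := inf_eq_left.mp h1
        have h3 : W = W₂ := Submodule.eq_of_le_of_finrank_eq h2 hfr.symm
        apply hvW
        rw [h3, ← hh]
        exact ⟨w, hwW, rfl⟩
    have hk : Module.finrank (ZMod p) W + Module.finrank (ZMod p) W ≤ Module.finrank (ZMod p) V := by
      have := Submodule.finrank_add_finrank_le_of_disjoint (disjoint_iff.mpr hdisj)
      rwa [hfr] at this
    -- cardinality of H
    have hcardH : Nat.card H = p ^ Module.finrank (ZMod p) V - 1 := by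
      have e : H ≃ ((Set.univ : Set V) \ {0} : Set V) := by
        refine Equiv.ofBijective (fun x => ⟨(x : V ≃ₗ[ZMod p] V) w, trivial, ?_⟩) ⟨?_, ?_⟩
        · intro h0
          exact hw0 ((LinearEquiv.map_eq_zero_iff _).mp h0)
        · intro x y hxy
          have hxy' : (x : V ≃ₗ[ZMod p] V) w = (y : V ≃ₗ[ZMod p] V) w := congrArg Subtype.val hxy
          have hne0 : (y : V ≃ₗ[ZMod p] V) w ≠ 0 := fun h0 =>
            hw0 ((LinearEquiv.map_eq_zero_iff _).mp h0)
          obtain ⟨t, -, ht⟩ := hreg w _ hw0 hne0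
          rw [ht x hxy', ht y rfl]
        · rintro ⟨u, -, hu⟩
          obtain ⟨t, ht, -⟩ := hreg w u hw0 hu
          exact ⟨t, Subtype.ext ht⟩
      rw [Nat.card_congr e, Nat.card_coe_set_eq, Set.ncard_diff_singleton_of_mem (Set.mem_univ _),
        Set.ncard_univ, Module.natCard_eq_pow_finrank (K := ZMod p), Nat.card_zmod]
    -- bound on H
    have hbound : Nat.card H ≤ Nat.card A * Nat.card A := by
      have hker : (MulAut.conjNormal (H := A)).ker ≤ A := by
        intro x hx
        have hgoal : x ∈ Subgroup.centralizer (A : Set H) := ?_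
        · rw [hCA] at hgoal; exact hgoal
        rw [Subgroup.mem_centralizer_iff]
        intro a ha
        have h1 : MulAut.conjNormal x (⟨a, ha⟩ : A) = ⟨a, ha⟩ := by
          rw [MonoidHom.mem_ker.mp hx]; rfl
        have h2 := congrArg Subtype.val h1
        rw [MulAut.conjNormal_apply] at h2
        exact (mul_inv_eq_iff_eq_mul.mp h2).symm
      have h1 := Subgroup.index_mul_card (MulAut.conjNormal (H := A)).ker
      rw [Subgroup.index_ker] at h1
      obtain ⟨g, hg⟩ := hcyc.exists_generator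
      have hinj : Function.Injective (fun φ : MulAut A => φ g) := by
        intro φ ψ hφ
        ext a
        obtain ⟨k, rfl⟩ := hg a
        have : φ g = ψ g := hφ
        simp only [map_zpow, this]
      have hfinAut : Finite (MulAut A) := Finite.of_injective _ hinj
      have h2 : Nat.card (MulAut.conjNormal (H := A)).range ≤ Nat.card A :=
        (Subgroup.card_le_card_group _).trans (Nat.card_le_card_of_injective _ hinj)
      rw [← h1]
      exact Nat.mul_le_mul h2 (Subgroup.card_le_of_le hker)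
    -- arithmetic
    set k := Module.finrank (ZMod p) W with hkdef
    set n := Module.finrank (ZMod p) V with hndef
    have hkpos : 0 < k := by
      rw [hkdef, Module.finrank_pos_iff]
      exact ⟨⟨⟨w, hwW⟩, 0, fun h0 => hw0 (congrArg Subtype.val h0)⟩⟩
    have hx2 : 2 ≤ p ^ k := by
      calc 2 ≤ p := hpp.two_le
        _ = p ^ 1 := (pow_one p).symm
        _ ≤ p ^ k := Nat.pow_le_pow_right hpp.pos hkpos
    have hA1 : Nat.card A ≤ p ^ k - 1 := Nat.le_of_dvd (by omega) hdvd
    have hApos : 0 < Nat.card A := Nat.card_pos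
    have hN : p ^ k * p ^ k ≤ p ^ n := by
      rw [← pow_add]
      exact Nat.pow_le_pow_right hpp.pos hk
    rw [hcardH] at hbound
    have h5 : Nat.card A + 1 ≤ p ^ k := by omega
    have h6 : (Nat.card A + 1) * (Nat.card A + 1) ≤ p ^ n := (Nat.mul_le_mul h5 h5).trans hN
    have h7 : p ^ n ≤ Nat.card A * Nat.card A + 1 := by omega
    nlinarith
  refine ⟨lt_of_le_of_ne hAC (Ne.symm hne), ?_⟩
  intro hcomm
  exact hne (hAmax _ inferInstance hcomm hAC)

end Cfsg.Agent.S0685
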