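import Cfsg.Statements.S0691
import Mathlib
-- import your own Cfsg.Agent.* helpers here
import Cfsg.Agent.H5.Mat2

set_option autoImplicit false
open Cfsg

namespace Cfsg.Agent.S0691

open Cfsg.Agent.H5Mat2 Cfsg.Agent.H5Mat2.M2

def gens : List M2 := [⟨2, 0, 0, 3⟩, ⟨0, 4, 1, 0⟩, ⟨1, 2, 1, 3⟩]
def invs : List M2 := [⟨3, 0, 0, 2⟩, ⟨0, 1, 4, 0⟩, ⟨3, 3, 4, 1⟩]
def L : List M2 := [⟨4, 1, 2, 2⟩, ⟨4, 4, 3, 2⟩, ⟨2, 3, 4, 4⟩, ⟨2, 2, 1, 4⟩, ⟨1, 1, 2, 3⟩, ⟨3, 4, 3, 1⟩, ⟨3, 2, 1, 1⟩, ⟨1, 3, 4, 3⟩, ⟨1, 4, 3, 3⟩, ⟨3, 1, 2, 1⟩, ⟨4, 3, 4, 2⟩, ⟨0, 1, 4, 0⟩, ⟨3, 0, 0, 2⟩, ⟨3, 3, 4, 1⟩, ⟨4, 2, 1, 2⟩, ⟨2, 4, 3, 4⟩, ⟨0, 3, 3, 0⟩, ⟨2, 1, 2, 4⟩, ⟨0, 2, 2, 0⟩, ⟨4, 0, 0, 4⟩, ⟨1, 2, 1, 3⟩, ⟨0, 4, 1, 0⟩, ⟨2, 0, 0, 3⟩, ⟨1, 0, 0, 1⟩]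


/-- An exceptional sharply doubly transitive group of degree 5^2: the listed matrices generate a subgroup of GL(2,5) of order 24 acting regularly on the non-zero vectors. -/
theorem result (A : Matrix.GeneralLinearGroup (Fin 2) (ZMod 5)) (B : Matrix.GeneralLinearGroup (Fin 2) (ZMod 5)) (C : Matrix.GeneralLinearGroup (Fin 2) (ZMod 5)) (hA : (A : Matrix (Fin 2) (Fin 2) (ZMod 5)) = !![2, 0; 0, -2]) (hB : (B : Matrix (Fin 2) (Fin 2) (ZMod 5)) = !![0, -1; 1, 0]) (hC : (C : Matrix (Fin 2) (Fin 2) (ZMod 5)) = !![1, 2; 1, -2]) : Nat.card (Subgroup.closure ({A, B, C} : Set (Matrix.GeneralLinearGroup (Fin 2) (ZMod 5)))) = 24 ∧ ∀ v w : Fin 2 → ZMod 5, v ≠ 0 → w ≠ 0 → ∃! h : Subgroup.closure ({A, B, C} : Set (Matrix.GeneralLinearGroup (Fin 2) (ZMod 5))), Matrix.mulVec ((h : Matrix.GeneralLinearGroup (Fin 2) (ZMod 5)) : Matrix (Fin 2) (Fin 2) (ZMod 5)) v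 = w := by
  haveI : Fact (Nat.Prime 5) := ⟨by norm_num⟩
  have hcA : toMat 5 ⟨2, 0, 0, 3⟩ = (A : Matrix (Fin 2) (Fin 2) (ZMod 5)) := by
    rw [hA]; ext i j; fin_cases i <;> fin_cases j <;> simp [toMat] <;> decide
  have hcB : toMat 5 ⟨0, 4, 1, 0⟩ = (B : Matrix (Fin 2) (Fin 2) (ZMod 5)) := by
    rw [hB]; ext i j; fin_cases i <;> fin_cases j <;> simp [toMat] <;> decide
  have hcC : toMat 5 ⟨1, 2, 1, 3⟩ = (C : Matrix (Fin 2) (Fin 2) (ZMod 5)) := by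
    rw [hC]; ext i j; fin_cases i <;> fin_cases j <;> simp [toMat] <;> decide
  obtain ⟨hmem, hcard⟩ := closure_enum (p := 5) ({A, B, C} : Set (Matrix.GeneralLinearGroup (Fin 2) (ZMod 5)))
    gens invs L
    (by
      rintro g (rfl | rfl | rfl)
      · exact ⟨_, by simp [gens], hcA⟩
      · exact ⟨_, by simp [gens], hcB⟩
      · exact ⟨_, by simp [gens], hcC⟩)
    (by
      intro c hc
      simp only [gens, List.mem_cons, List.not_mem_nil, or_false] at hc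
      rcases hc with rfl | rfl | rfl
      · exact ⟨A, by simp, hcA⟩
      · exact ⟨B, by simp, hcB⟩
      · exact ⟨C, by simp, hcC⟩)
    (by decide +kernel) (by decide +kernel) (by decide +kernel) (by decide +kernel)
    (by decide +kernel) (by decide +kernel)
  have hlen : L.length = 24 := by decide +kernel
  rw [hlen] at hcard
  refine ⟨hcard, ?_⟩
  apply regular_of _ _ (by rw [hcard]; norm_num)
  intro h hh h1
  obtain ⟨t, ht, hth⟩ := (hmem h).mp hh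
  have hsr : srchk 5 L = true := by decide +kernel
  simp only [srchk, List.all_eq_true, Bool.or_eq_true, decide_eq_true_eq] at hsr
  rcases hsr t ht with h2 | h2
  · exfalso
    apply h1
    apply Units.ext
    rw [← hth, h2, toMat_one]; rfl
  · rw [← hth]
    exact det_ne_zero_of_detm1 h2

end Cfsg.Agent.S0691
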