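import Cfsg.Statements.S0692
import Mathlib
-- import your own Cfsg.Agent.* helpers here
import Cfsg.Agent.H5.Mat2

set_option autoImplicit false
open Cfsg

namespace Cfsg.Agent.S0692

open Cfsg.Agent.H5Mat2 Cfsg.Agent.H5Mat2.M2

def gens : List M2 := [⟨0, 10, 1, 0⟩, ⟨2, 4, 1, 8⟩]
def invs : List M2 := [⟨0, 1, 10, 0⟩, ⟨8, 7, 10, 2⟩]
def L : List M2 := [⟨4, 4, 4, 7⟩, ⟨4, 7, 7, 7⟩, ⟨8, 2, 6, 3⟩, ⟨4, 6, 10, 7⟩, ⟨7, 4, 4, 4⟩, ⟨9, 8, 8, 6⟩, ⟨10, 7, 7, 5⟩, ⟨7, 8, 8, 3⟩, ⟨2, 2, 2, 8⟩, ⟨5, 4, 4, 10⟩, ⟨7, 7, 7, 4⟩, ⟨6, 3, 3, 9⟩, ⟨3, 9, 5, 8⟩, ⟨7, 5, 1, 4⟩, ⟨8, 6, 2, 3⟩, ⟨4, 10, 6, 7⟩, ⟨3, 7, 8, 8⟩, ⟨9, 2, 3, 2⟩, ⟨8, 3, 4, 3⟩, ⟨2, 8, 9, 9⟩, ⟨2, 3, 3, 5⟩, ⟨6, 7, 7, 1⟩, ⟨3, 10, 0, 4⟩, ⟨5, 8, 8,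 2⟩, ⟨1, 4, 4, 6⟩, ⟨4, 3, 3, 8⟩, ⟨9, 9, 9, 3⟩, ⟨1, 3, 7, 0⟩, ⟨8, 8, 8, 4⟩, ⟨3, 2, 2, 9⟩, ⟨0, 4, 8, 1⟩, ⟨6, 2, 1, 6⟩, ⟨4, 1, 0, 3⟩, ⟨2, 6, 5, 10⟩, ⟨3, 5, 9, 8⟩, ⟨7, 1, 5, 4⟩, ⟨8, 4, 3, 3⟩, ⟨2, 9, 8, 9⟩, ⟨8, 1, 0, 7⟩, ⟨3, 8, 7, 8⟩, ⟨9, 3, 2, 2⟩, ⟨7, 0, 10, 8⟩, ⟨9, 6, 5, 1⟩, ⟨10, 4, 8, 0⟩, ⟨5, 2, 1, 5⟩, ⟨1, 6, 5, 9⟩, ⟨0, 3, 7, 10⟩, ⟨5, 10, 9, 5⟩, ⟨10, 8, 4, 0⟩, ⟨3, 3, 3, 7⟩, ⟨8, 9, 9, 2⟩, ⟨0, 7, 3, 10⟩, ⟨5, 9, 10, 5⟩, ⟨7, 10, 0, 8⟩, ⟨9, 5, 6, 1⟩, ⟨5, 1, 2, 5⟩, ⟨8, 0, 1, 7⟩, ⟨1, 5, 6, 9⟩, ⟨0, 9, 6, 4⟩, ⟨10, 1, 9, 1⟩, ⟨5, 6, 3, 6⟩, ⟨4, 5, 2, 0⟩, ⟨4, 0, 1, 3⟩, ⟨2, 5, 6, 10⟩, ⟨1, 7, 3, 0⟩, ⟨6, 9, 10, 6⟩, ⟨10, 5, 6, 2⟩, ⟨0, 8, 4, 1⟩, ⟨6, 1, 2, 6⟩, ⟨2, 0, 7, 6⟩, ⟨10, 10, 10, 9⟩, ⟨5, 5, 5, 3⟩,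 ⟨6, 4, 0, 2⟩, ⟨9, 1, 1, 10⟩, ⟨3, 6, 6, 5⟩, ⟨2, 7, 0, 6⟩, ⟨6, 10, 9, 6⟩, ⟨3, 0, 10, 4⟩, ⟨10, 6, 5, 2⟩, ⟨0, 2, 5, 7⟩, ⟨1, 10, 2, 10⟩, ⟨6, 5, 8, 5⟩, ⟨7, 6, 9, 0⟩, ⟨10, 9, 1, 1⟩, ⟨5, 3, 6, 6⟩, ⟨4, 2, 5, 0⟩, ⟨2, 1, 4, 8⟩, ⟨0, 6, 9, 4⟩, ⟨9, 0, 4, 5⟩, ⟨1, 1, 1, 2⟩, ⟨6, 6, 6, 8⟩, ⟨5, 7, 0, 9⟩, ⟨2, 10, 10, 1⟩, ⟨8, 5, 5, 6⟩, ⟨9, 4, 0, 5⟩, ⟨10, 2, 3, 4⟩, ⟨5, 0, 7, 9⟩, ⟨4, 8, 9, 10⟩, ⟨8, 10, 7, 2⟩, ⟨1, 2, 10, 10⟩, ⟨6, 8, 5, 5⟩, ⟨7, 9, 6, 0⟩, ⟨9, 10, 7, 3⟩, ⟨0, 5, 2, 7⟩, ⟨3, 4, 1, 9⟩, ⟨1, 8, 9, 7⟩, ⟨7, 2, 3, 1⟩, ⟨1, 9, 8, 7⟩, ⟨6, 0, 4, 2⟩, ⟨7, 3, 2, 1⟩, ⟨3, 1, 4, 9⟩, ⟨9, 7, 10, 3⟩, ⟨0, 1, 10, 0⟩, ⟨8, 7, 10, 2⟩, ⟨10, 3, 2, 4⟩, ⟨4, 9, 8, 10⟩, ⟨10, 0, 0, 10⟩, ⟨2, 4, 1, 8⟩, ⟨0, 10, 1, 0⟩, ⟨1, 0, 0,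 1⟩]


/-- An exceptional sharply doubly transitive group of degree 11^2: the listed matrices generate a subgroup of GL(2,11) of order 120 acting regularly on the non-zero vectors. -/
theorem result (A : Matrix.GeneralLinearGroup (Fin 2) (ZMod 11)) (B : Matrix.GeneralLinearGroup (Fin 2) (ZMod 11)) (hA : (A : Matrix (Fin 2) (Fin 2) (ZMod 11)) = !![0, -1; 1, 0]) (hB : (B : Matrix (Fin 2) (Fin 2) (ZMod 11)) = !![2, 4; 1, -3]) : Nat.card (Subgroup.closure ({A, B} : Set (Matrix.GeneralLinearGroup (Fin 2) (ZMod 11)))) = 120 ∧ ∀ v w : Fin 2 → ZMod 11, v ≠ 0 → w ≠ 0 → ∃! h : Subgroup.closure ({A, B} : Set (Matrix.GeneralLinearGroup (Fin 2) (ZMod 11))), Matrix.mulVec ((h : Matrix.GeneralLinearGroup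 (Fin 2) (ZMod 11)) : Matrix (Fin 2) (Fin 2) (ZMod 11)) v = w := by
  haveI : Fact (Nat.Prime 11) := ⟨by norm_num⟩
  have hcA : toMat 11 ⟨0, 10, 1, 0⟩ = (A : Matrix (Fin 2) (Fin 2) (ZMod 11)) := by
    rw [hA]; ext i j; fin_cases i <;> fin_cases j <;> simp [toMat] <;> decide
  have hcB : toMat 11 ⟨2, 4, 1, 8⟩ = (B : Matrix (Fin 2) (Fin 2) (ZMod 11)) := by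
    rw [hB]; ext i j; fin_cases i <;> fin_cases j <;> simp [toMat] <;> decide
  obtain ⟨hmem, hcard⟩ := closure_enum (p := 11) ({A, B} : Set (Matrix.GeneralLinearGroup (Fin 2) (ZMod 11)))
    gens invs L
    (by
      rintro g (rfl | rfl)
      · exact ⟨_, by simp [gens], hcA⟩
      · exact ⟨_, by simp [gens], hcB⟩)
    (by
      intro c hc
      simp only [gens, List.mem_cons, List.not_mem_nil, or_false] at hc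
      rcases hc with rfl | rfl
      · exact ⟨A, by simp, hcA⟩
      · exact ⟨B, by simp, hcB⟩)
    (by decide +kernel) (by decide +kernel) (by decide +kernel) (by decide +kernel)
    (by decide +kernel) (by decide +kernel)
  have hlen : L.length = 120 := by decide +kernel
  rw [hlen] at hcard
  refine ⟨hcard, ?_⟩
  apply regular_of _ _ (by rw [hcard]; norm_num)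
  intro h hh h1
  obtain ⟨t, ht, hth⟩ := (hmem h).mp hh
  have hsr : srchk 11 L = true := by decide +kernel
  simp only [srchk, List.all_eq_true, Bool.or_eq_true, decide_eq_true_eq] at hsr
  rcases hsr t ht with h2 | h2
  · exfalso
    apply h1
    apply Units.ext
    rw [← hth, h2, toMat_one]; rfl
  · rw [← hth]
    exact det_ne_zero_of_detm1 h2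

end Cfsg.Agent.S0692
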