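import Cfsg.Statements.S0693
import Mathlib
-- import your own Cfsg.Agent.* helpers here
import Cfsg.Agent.H5.Mat2

set_option autoImplicit false
open Cfsg

namespace Cfsg.Agent.S0693

open Cfsg.Agent.H5Mat2 Cfsg.Agent.H5Mat2.M2

def gens : List M2 := [⟨0, 58, 1, 0⟩, ⟨9, 15, 49, 49⟩]
def invs : List M2 := [⟨0, 1, 58, 0⟩, ⟨49, 44, 10, 9⟩]
def L : List M2 := [⟨3, 7, 7, 56⟩, ⟨7, 56, 56, 52⟩, ⟨41, 14, 40, 18⟩, ⟨34, 17, 43, 25⟩, ⟨52, 3, 3, 7⟩, ⟨45, 41, 41, 40⟩, ⟨43, 25, 25, 42⟩, ⟨53, 21, 21, 5⟩, ⟨48, 40, 40, 10⟩, ⟨42, 34, 34, 43⟩, ⟨56, 52, 52, 3⟩, ⟨40, 18, 18, 45⟩, ⟨18, 45, 19, 41⟩, ⟨25, 42, 16, 34⟩, ⟨41, 40, 14, 18⟩, ⟨34, 43, 17, 25⟩, ⟨38, 53, 54, 21⟩, ⟨19, 48, 49, 40⟩, ⟨21, 5, 6, 38⟩, ⟨40, 10, 11, 19⟩, ⟨14, 18, 18, 19⟩, ⟨17, 25, 25, 16⟩, ⟨38, 30, 31, 54⟩, ⟨19, 41, 41, 14⟩, ⟨16, 34, 34, 17⟩, ⟨6, 38, 38, 54⟩, ⟨11, 19, 19,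 49⟩, ⟨29, 38, 5, 31⟩, ⟨54, 21, 21, 6⟩, ⟨49, 40, 40, 11⟩, ⟨31, 54, 21, 29⟩, ⟨32, 25, 24, 28⟩, ⟨54, 29, 28, 38⟩, ⟨25, 28, 27, 35⟩, ⟨18, 19, 45, 41⟩, ⟨25, 16, 42, 34⟩, ⟨21, 6, 5, 38⟩, ⟨40, 11, 10, 19⟩, ⟨21, 29, 28, 5⟩, ⟨38, 54, 53, 21⟩, ⟨19, 49, 48, 40⟩, ⟨5, 31, 30, 21⟩, ⟨34, 32, 31, 24⟩, ⟨30, 54, 21, 28⟩, ⟨31, 25, 24, 27⟩, ⟨24, 28, 27, 34⟩, ⟨28, 38, 5, 30⟩, ⟨27, 35, 34, 31⟩, ⟨30, 21, 54, 28⟩, ⟨5, 38, 38, 53⟩, ⟨10, 19, 19, 48⟩, ⟨28, 5, 38, 30⟩, ⟨27, 34, 35, 31⟩, ⟨5, 30, 31, 21⟩, ⟨34, 31, 32, 24⟩, ⟨31, 24, 25, 27⟩, ⟨21, 28, 29, 5⟩, ⟨24, 27, 28, 34⟩, ⟨39, 14, 48, 46⟩, ⟨4, 36, 11, 55⟩, ⟨58, 55, 30, 1⟩, ⟨46, 11, 45, 39⟩, ⟨54, 28, 29, 38⟩, ⟨25, 27, 28, 35⟩, ⟨29, 5, 38, 31⟩, ⟨28, 34, 35, 32⟩, ⟨35, 31, 32, 25⟩, ⟨31, 21, 54, 29⟩, ⟨32, 24, 25, 28⟩, ⟨45, 39, 13, 48⟩, ⟨23, 4, 4, 11⟩, ⟨4, 58, 58, 30⟩, ⟨48, 46, 20, 45⟩, ⟨11, 55, 55,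 23⟩, ⟨30, 1, 1, 4⟩, ⟨45, 13, 39, 48⟩, ⟨28, 35, 34, 32⟩, ⟨38, 31, 30, 54⟩, ⟨35, 32, 31, 25⟩, ⟨20, 45, 11, 13⟩, ⟨55, 23, 48, 4⟩, ⟨1, 4, 29, 58⟩, ⟨13, 48, 14, 20⟩, ⟨4, 11, 36, 55⟩, ⟨58, 30, 55, 1⟩, ⟨46, 45, 11, 39⟩, ⟨9, 49, 15, 49⟩, ⟨39, 48, 14, 46⟩, ⟨14, 20, 46, 11⟩, ⟨36, 55, 55, 48⟩, ⟨55, 1, 1, 29⟩, ⟨11, 13, 39, 14⟩, ⟨48, 4, 4, 36⟩, ⟨29, 58, 58, 55⟩, ⟨14, 46, 20, 11⟩, ⟨10, 9, 10, 15⟩, ⟨11, 39, 13, 14⟩, ⟨15, 49, 50, 10⟩, ⟨49, 10, 44, 9⟩, ⟨55, 48, 23, 4⟩, ⟨1, 29, 4, 58⟩, ⟨13, 14, 48, 20⟩, ⟨50, 10, 44, 10⟩, ⟨20, 11, 45, 13⟩, ⟨10, 15, 49, 50⟩, ⟨49, 49, 50, 44⟩, ⟨44, 9, 10, 49⟩, ⟨49, 50, 49, 44⟩, ⟨48, 20, 46, 45⟩, ⟨44, 10, 9, 49⟩, ⟨10, 49, 15, 50⟩, ⟨50, 44, 10, 10⟩, ⟨0, 1, 58, 0⟩, ⟨49, 44, 10, 9⟩, ⟨10, 10, 9, 15⟩, ⟨15, 50, 49, 10⟩, ⟨58, 0, 0, 58⟩, ⟨9, 15, 49, 49⟩, ⟨0, 58, 1, 0⟩, ⟨1, 0, 0, 1⟩]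
def Lam : List ℕ := [1, 4, 16, 5, 20, 21, 25, 41, 46, 7, 28, 53, 35, 22, 29, 57, 51, 27, 49, 19, 17, 9, 36, 26, 45, 3, 12, 48, 15]

theorem toMat_scalar (p l : ℕ) : toMat p ⟨l, 0, 0, l⟩ = (l : ZMod p) • (1 : Matrix (Fin 2) (Fin 2) (ZMod p)) := by
  ext i j; fin_cases i <;> fin_cases j <;> simp [toMat]

theorem four_pow : ((4 : ℕ) : ZMod 59) ^ 29 = 1 := by decide +kernel

theorem four_ne : ¬ (4 : ZMod 59) = 1 := by decide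


/-- An exceptional sharply doubly transitive group of degree 59^2: the listed matrices generate a subgroup of GL(2,59) of order 3480 acting regularly on the non-zero vectors. -/
theorem result (A : Matrix.GeneralLinearGroup (Fin 2) (ZMod 59)) (B : Matrix.GeneralLinearGroup (Fin 2) (ZMod 59)) (C : Matrix.GeneralLinearGroup (Fin 2) (ZMod 59)) (hA : (A : Matrix (Fin 2) (Fin 2) (ZMod 59)) = !![0, -1; 1, 0]) (hB : (B : Matrix (Fin 2) (Fin 2) (ZMod 59)) = !![9, 15; -10, -10]) (hC : (C : Matrix (Fin 2) (Fin 2) (ZMod 59)) = !![4, 0; 0, 4]) : Nat.card (Subgroup.closure ({A, B, C} : Set (Matrix.GeneralLinearGroup (Fin 2) (ZMod 59)))) = 3480 ∧ ∀ v w : Fin 2 → ZMod 59, v ≠ 0 → w ≠ 0 → ∃! h : Subgroup.closure ({A, B, C} : Set (Matrix.GeneralLinearGroup (Fin 2) (ZMod 59))), Matrix.mulVec ((h : Matrix.GeneralLinearGroup (Fin 2)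 (ZMod 59)) : Matrix (Fin 2) (Fin 2) (ZMod 59)) v = w := by
  haveI : Fact (Nat.Prime 59) := ⟨by norm_num⟩
  have hcA : toMat 59 ⟨0, 58, 1, 0⟩ = (A : Matrix (Fin 2) (Fin 2) (ZMod 59)) := by
    rw [hA]; ext i j; fin_cases i <;> fin_cases j <;> simp [toMat] <;> decide
  have hcB : toMat 59 ⟨9, 15, 49, 49⟩ = (B : Matrix (Fin 2) (Fin 2) (ZMod 59)) := by
    rw [hB]; ext i j; fin_cases i <;> fin_cases j <;> simp [toMat] <;> decide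
  have hcC : toMat 59 ⟨4, 0, 0, 4⟩ = (C : Matrix (Fin 2) (Fin 2) (ZMod 59)) := by
    rw [hC]; ext i j; fin_cases i <;> fin_cases j <;> simp [toMat]
  have hcl : closed 59 (gens ++ invs) L = true := by decide +kernel
  have hcl' := closed_iff hcl
  obtain ⟨hmem, hcard⟩ := closure_enum (p := 59) ({A, B} : Set (Matrix.GeneralLinearGroup (Fin 2) (ZMod 59)))
    gens invs L
    (by
      rintro g (rfl | rfl)
      · exact ⟨_, by simp [gens], hcA⟩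
      · exact ⟨_, by simp [gens], hcB⟩)
    (by
      intro c hc
      simp only [gens, List.mem_cons, List.not_mem_nil, or_false] at hc
      rcases hc with rfl | rfl
      · exact ⟨A, by simp, hcA⟩
      · exact ⟨B, by simp, hcB⟩)
    (by decide +kernel) (by decide +kernel) hcl (by decide +kernel)
    (by decide +kernel) (by decide +kernel)
  have hlen : L.length = 120 := by decide +kernel
  rw [hlen] at hcard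
  set H := Subgroup.closure ({A, B, C} : Set (Matrix.GeneralLinearGroup (Fin 2) (ZMod 59))) with hH
  -- description of the elements of H
  have hcAi : toMat 59 ⟨0, 1, 58, 0⟩ = ((A⁻¹ : Matrix.GeneralLinearGroup (Fin 2) (ZMod 59)) : Matrix (Fin 2) (Fin 2) (ZMod 59)) :=
    inv_code hcA (by decide +kernel)
  have hcBi : toMat 59 ⟨49, 44, 10, 9⟩ = ((B⁻¹ : Matrix.GeneralLinearGroup (Fin 2) (ZMod 59)) : Matrix (Fin 2) (Fin 2) (ZMod 59)) :=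
    inv_code hcB (by decide +kernel)
  have hcCi : toMat 59 ⟨15, 0, 0, 15⟩ = ((C⁻¹ : Matrix.GeneralLinearGroup (Fin 2) (ZMod 59)) : Matrix (Fin 2) (Fin 2) (ZMod 59)) :=
    inv_code hcC (by decide +kernel)
  have hL4 : ∀ l ∈ Lam, (4 * l) % 59 ∈ Lam := by decide +kernel
  have hL15 : ∀ l ∈ Lam, (15 * l) % 59 ∈ Lam := by decide +kernel
  have hdesc : ∀ h ∈ H, ∃ l ∈ Lam, ∃ t ∈ L,
      (h : Matrix (Fin 2) (Fin 2) (ZMod 59)) = (l : ZMod 59) • toMat 59 t := by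
    have step : ∀ (c : M2) (X : Matrix (Fin 2) (Fin 2) (ZMod 59)), c ∈ gens ++ invs → toMat 59 c = X →
        ∀ M, (∃ l ∈ Lam, ∃ t ∈ L, M = (l : ZMod 59) • toMat 59 t) →
        (∃ l ∈ Lam, ∃ t ∈ L, X * M = (l : ZMod 59) • toMat 59 t) := by
      rintro c X hc rfl M ⟨l, hl, t, ht, rfl⟩
      exact ⟨l, hl, mul 59 c t, hcl' c hc t ht, by rw [Matrix.mul_smul, toMat_mul]⟩
    have stepS : ∀ (k : ℕ) (X : Matrix (Fin 2) (Fin 2) (ZMod 59)), (∀ l ∈ Lam, (k * l) % 59 ∈ Lam) →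
        toMat 59 ⟨k, 0, 0, k⟩ = X →
        ∀ M, (∃ l ∈ Lam, ∃ t ∈ L, M = (l : ZMod 59) • toMat 59 t) →
        (∃ l ∈ Lam, ∃ t ∈ L, X * M = (l : ZMod 59) • toMat 59 t) := by
      rintro k X hk rfl M ⟨l, hl, t, ht, rfl⟩
      refine ⟨(k * l) % 59, hk l hl, t, ht, ?_⟩
      rw [toMat_scalar, Matrix.smul_mul, one_mul, smul_smul, ZMod.natCast_mod, Nat.cast_mul]
    apply closure_sub _ (fun M => ∃ l ∈ Lam, ∃ t ∈ L, M = (l : ZMod 59) • toMat 59 t)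
    · exact ⟨1, by decide +kernel, one, by decide +kernel, by rw [toMat_one]; simp⟩
    · rintro g (rfl | rfl | rfl) M hM
      · exact step _ _ (by decide +kernel) hcA M hM
      · exact step _ _ (by decide +kernel) hcB M hM
      · exact stepS 4 _ hL4 hcC M hM
    · rintro g (rfl | rfl | rfl) M hM
      · exact step _ _ (by decide +kernel) hcAi M hM
      · exact step _ _ (by decide +kernel) hcBi M hM
      · exact stepS 15 _ hL15 hcCi M hM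
  have hsrc : ∀ l ∈ Lam, ∀ t ∈ L, mul 59 ⟨l, 0, 0, l⟩ t = one ∨ detm1 59 (mul 59 ⟨l, 0, 0, l⟩ t) ≠ 0 := by
    decide +kernel
  have hsr : ∀ h ∈ H, h ≠ 1 → ((h : Matrix (Fin 2) (Fin 2) (ZMod 59)) - 1).det ≠ 0 := by
    intro h hh h1
    obtain ⟨l, hl, t, ht, hlt⟩ := hdesc h hh
    have hcode : (h : Matrix (Fin 2) (Fin 2) (ZMod 59)) = toMat 59 (mul 59 ⟨l, 0, 0, l⟩ t) := by
      rw [hlt, toMat_mul, toMat_scalar, Matrix.smul_mul, one_mul]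
    rcases hsrc l hl t ht with h2 | h2
    · exfalso
      apply h1
      apply Units.ext
      rw [hcode, h2, toMat_one]; rfl
    · rw [hcode]
      exact det_ne_zero_of_detm1 h2
  have hle : Nat.card H ≤ 3480 := by
    have := card_le_of_semiregular H hsr
    norm_num at this
    exact this
  have h120 : 120 ∣ Nat.card H := by
    rw [← hcard]
    apply Subgroup.card_dvd_of_le
    apply Subgroup.closure_mono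
    intro x hx
    rcases hx with rfl | rfl
    · simp
    · simp
  have hCord : orderOf C = 29 := by
    haveI : Fact (Nat.Prime 29) := ⟨by norm_num⟩
    apply orderOf_eq_prime
    · apply Units.ext
      rw [Units.val_pow_eq_pow_val, ← hcC, toMat_scalar, smul_pow, one_pow]
      have : ((4 : ℕ) : ZMod 59) ^ 29 = 1 := four_pow
      rw [this, one_smul]; rfl
    · intro h
      have h2 := congrArg (fun u : Matrix.GeneralLinearGroup (Fin 2) (ZMod 59) => (u : Matrix (Fin 2) (Fin 2) (ZMod 59)) 0 0) h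
      simp only [hC] at h2
      revert h2
      simp
      exact four_ne
  have h29 : 29 ∣ Nat.card H := by
    have hCH : C ∈ H := Subgroup.subset_closure (by simp)
    have := orderOf_dvd_natCard (⟨C, hCH⟩ : H)
    rwa [Subgroup.orderOf_mk, hCord] at this
  have h3480 : 3480 ∣ Nat.card H := by
    have : Nat.Coprime 120 29 := by norm_num
    exact this.mul_dvd_of_dvd_of_dvd h120 h29
  have hcardH : Nat.card H = 3480 := by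
    have hpos : 0 < Nat.card H := Nat.card_pos
    exact le_antisymm hle (Nat.le_of_dvd hpos h3480)
  refine ⟨hcardH, ?_⟩
  exact regular_of H hsr (by rw [hcardH]; norm_num)

end Cfsg.Agent.S0693
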