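import Mathlib
import Cfsg.Statements.S0694

set_option autoImplicit false
open Cfsg

namespace Cfsg.Agent.S0694

theorem dvd_of_val {a b : ℕ} (ha : a ≠ 0) (hb : b ≠ 0)
    (h : ∀ t, t.Prime → padicValNat t a ≤ padicValNat t b) : a ∣ b :=
  (Nat.factorization_prime_le_iff_dvd ha hb).1 (fun t ht => by
    rw [Nat.factorization_def _ ht, Nat.factorization_def _ ht]; exact h t ht)

theorem val_le_of_dvd {a b : ℕ} (hb : b ≠ 0) (h : a ∣ b) (t : ℕ) (ht : t.Prime) :
    padicValNat t a ≤ padicValNat t b := by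
  have ha : a ≠ 0 := by rintro rfl; exact hb (Nat.eq_zero_of_zero_dvd h)
  have := (Nat.factorization_prime_le_iff_dvd ha hb).2 h t ht
  rwa [Nat.factorization_def _ ht, Nat.factorization_def _ ht] at this

theorem not_dvd_q {q t : ℕ} (hq : 2 ≤ q) (ht : t.Prime) (hd : t ∣ q - 1) : ¬ t ∣ q := by
  intro h
  have h1 : t ∣ q - (q - 1) := Nat.dvd_sub h hd
  have h2 : q - (q - 1) = 1 := by omega
  rw [h2] at h1
  exact ht.one_lt.ne' (Nat.dvd_one.1 h1)

theorem pow_sub_ne {q i : ℕ} (hq : 2 ≤ q) (hi : i ≠ 0) : q ^ i - 1 ≠ 0 := by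
  have : 1 < q ^ i := Nat.one_lt_pow hi (by omega)
  omega

theorem lte_odd {q t i : ℕ} (hq : 2 ≤ q) (ht : t.Prime) (h2 : t ≠ 2) (hd : t ∣ q - 1)
    (hi : i ≠ 0) :
    padicValNat t (q ^ i - 1) = padicValNat t (q - 1) + padicValNat t i := by
  have := Fact.mk ht
  have := padicValNat.pow_sub_pow (p := t) (ht.odd_of_ne_two h2) (x := q) (y := 1) (by omega) hd
    (not_dvd_q hq ht hd) hi
  simpa using this

theorem lte_two {q i : ℕ} (hq : 2 ≤ q) (hd : 2 ∣ q - 1) (hi : i ≠ 0) (he : Even i) :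
    padicValNat 2 (q ^ i - 1) + 1
      = padicValNat 2 (q + 1) + padicValNat 2 (q - 1) + padicValNat 2 i := by
  have := padicValNat.pow_two_sub_pow (x := q) (y := 1) (by omega) hd
    (not_dvd_q hq Nat.prime_two hd) hi he
  simpa using this

theorem geom_parity {q : ℕ} (hq : q % 2 = 1) (i : ℕ) :
    (∑ j ∈ Finset.range i, q ^ j) % 2 = i % 2 := by
  induction i with
  | zero => simp
  | succ i ih =>
    rw [Finset.sum_range_succ, Nat.add_mod, ih, Nat.pow_mod, hq, one_pow]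
    omega

theorem val_two_odd {q i : ℕ} (hq : 2 ≤ q) (hd : 2 ∣ q - 1) (hi : Odd i) :
    padicValNat 2 (q ^ i - 1) = padicValNat 2 (q - 1) := by
  have h := geom_sum_mul_add (q - 1) i
  have hq1 : q - 1 + 1 = q := by omega
  rw [hq1] at h
  have h2 : q ^ i - 1 = (∑ j ∈ Finset.range i, q ^ j) * (q - 1) := by omega
  have hG : (∑ j ∈ Finset.range i, q ^ j) % 2 = 1 := by
    rw [geom_parity (by omega)]
    exact Nat.odd_iff.1 hi
  have hG0 : (∑ j ∈ Finset.range i, q ^ j) ≠ 0 := by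
    intro h0; rw [h0] at hG; simp at hG
  rw [h2, padicValNat.mul hG0 (by omega),
    padicValNat.eq_zero_of_not_dvd (by omega : ¬ 2 ∣ (∑ j ∈ Finset.range i, q ^ j)), zero_add]

theorem val_eq_one {a : ℕ} (ha : a ≠ 0) (h2 : 2 ∣ a) (h4 : ¬ 4 ∣ a) : padicValNat 2 a = 1 := by
  have h1 : 1 ≤ padicValNat 2 a := (padicValNat_dvd_iff_le ha).1 (by simpa using h2)
  have h3 : ¬ 2 ≤ padicValNat 2 a := fun h => h4 (by
    have := (padicValNat_dvd_iff_le (p := 2) ha).2 h
    simpa using this)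
  omega

theorem two_le_val {a : ℕ} (ha : a ≠ 0) (h4 : 4 ∣ a) : 2 ≤ padicValNat 2 a :=
  (padicValNat_dvd_iff_le ha).1 (by simpa using h4)

/-- good primes -/
theorem lte_good {q t i : ℕ} (hq : 2 ≤ q) (ht : t.Prime) (hd : t ∣ q - 1)
    (hg : t ≠ 2 ∨ 4 ∣ q - 1) (hi : i ≠ 0) :
    padicValNat t (q ^ i - 1) = padicValNat t (q - 1) + padicValNat t i := by
  by_cases h2 : t = 2
  · subst h2
    have h4 : 4 ∣ q - 1 := by
      rcases hg with h | h
      · exact absurd rfl h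
      · exact h
    rcases Nat.even_or_odd i with he | ho
    · have h1 := lte_two hq hd hi he
      have h3 : padicValNat 2 (q + 1) = 1 := val_eq_one (by omega) (by omega) (by omega)
      omega
    · have h0 : padicValNat 2 i = 0 := padicValNat.eq_zero_of_not_dvd (by
        rw [Nat.odd_iff] at ho; omega)
      rw [val_two_odd hq hd ho, h0, add_zero]
  · exact lte_odd hq ht h2 hd hi

theorem fwdA {q n t i : ℕ} (hq : 2 ≤ q) (hn : n ≠ 0) (ht : t.Prime) (hd : t ∣ q - 1) (htn : t ∣ n)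
    (hD2 : 4 ∣ n → 4 ∣ q - 1) (hi : i ≠ 0) (hni : n ∣ i) :
    padicValNat t n + padicValNat t (q - 1) ≤ padicValNat t (q ^ i - 1) := by
  by_cases hg : t ≠ 2 ∨ 4 ∣ q - 1
  · rw [lte_good hq ht hd hg hi]
    have := val_le_of_dvd hi hni t ht
    omega
  · push Not at hg
    obtain ⟨rfl, h4⟩ := hg
    have hn4 : ¬ 4 ∣ n := fun h => h4 (hD2 h)
    have h1 := val_eq_one hn htn hn4
    have h2 := val_eq_one (a := q - 1) (by omega) hd h4
    have he : Even i := (even_iff_two_dvd).2 (htn.trans hni)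
    have h3 := lte_two hq hd hi he
    have h5 : 2 ≤ padicValNat 2 (q + 1) := two_le_val (by omega) (by omega)
    omega

theorem fwdB {q n t i : ℕ} (hq : 2 ≤ q) (hn : n ≠ 0) (ht : t.Prime) (hd : t ∣ q - 1) (htn : t ∣ n)
    (hD2 : 4 ∣ n → 4 ∣ q - 1) (hi : i ≠ 0)
    (h : padicValNat t n + padicValNat t (q - 1) ≤ padicValNat t (q ^ i - 1)) :
    padicValNat t n ≤ padicValNat t i := by
  by_cases hg : t ≠ 2 ∨ 4 ∣ q - 1
  · rw [lte_good hq ht hd hg hi] at h
    omega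
  · push Not at hg
    obtain ⟨rfl, h4⟩ := hg
    have hn4 : ¬ 4 ∣ n := fun h => h4 (hD2 h)
    have h1 := val_eq_one hn htn hn4
    have h2 := val_eq_one (a := q - 1) (by omega) hd h4
    rcases Nat.even_or_odd i with he | ho
    · have : 1 ≤ padicValNat 2 i := one_le_padicValNat_of_dvd hi (even_iff_two_dvd.1 he)
      omega
    · rw [val_two_odd hq hd ho] at h
      omega

theorem forward {q n : ℕ} (hq : 2 ≤ q) (hn : 1 < n)
    (hD1 : ∀ r : ℕ, r.Prime → r ∣ n → r ∣ q - 1) (hD2 : 4 ∣ n → 4 ∣ q - 1) :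
    n * (q - 1) ∣ q ^ n - 1 ∧ ∀ i : ℕ, 0 < i → i < n → ¬ n * (q - 1) ∣ q ^ i - 1 := by
  have hn0 : n ≠ 0 := by omega
  have hq0 : q - 1 ≠ 0 := by omega
  constructor
  · apply dvd_of_val (Nat.mul_ne_zero hn0 hq0) (pow_sub_ne hq hn0)
    intro t ht
    have := Fact.mk ht
    rw [padicValNat.mul hn0 hq0]
    by_cases htn : t ∣ n
    · exact fwdA hq hn0 ht (hD1 t ht htn) htn hD2 hn0 dvd_rfl
    · rw [padicValNat.eq_zero_of_not_dvd htn, zero_add]
      exact val_le_of_dvd (pow_sub_ne hq hn0) (Nat.sub_one_dvd_pow_sub_one _ _) t ht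
  · intro i hi hin hdv
    have hi0 : i ≠ 0 := by omega
    have : n ∣ i := by
      apply dvd_of_val hn0 hi0
      intro t ht
      have := Fact.mk ht
      by_cases htn : t ∣ n
      · apply fwdB hq hn0 ht (hD1 t ht htn) htn hD2 hi0
        rw [← padicValNat.mul hn0 hq0]
        exact val_le_of_dvd (pow_sub_ne hq hi0) hdv t ht
      · rw [padicValNat.eq_zero_of_not_dvd htn]
        exact Nat.zero_le _
    exact absurd (Nat.le_of_dvd hi this) (by omega)

/-- combining two exponents -/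
theorem dvd_of_two {q d a b m : ℕ} (h1 : d ∣ q ^ a - 1) (h2 : d ∣ q ^ b - 1)
    (hg : Nat.gcd a b ∣ m) : d ∣ q ^ m - 1 := by
  have h := Nat.dvd_gcd h1 h2
  rw [Nat.pow_sub_one_gcd_pow_sub_one] at h
  exact h.trans (Nat.pow_sub_one_dvd_pow_sub_one q hg)

theorem pow_dvd_of_dvd_sub {q t : ℕ} (hq : 2 ≤ q) (hd : t ∣ q - 1) (k : ℕ) :
    t ^ (k + 1) ∣ q ^ (t ^ k) - 1 := by
  have h1 : ((t : ℕ) : ℤ) ∣ (q : ℤ) - 1 := by
    have := Int.natCast_dvd_natCast.2 hd
    rwa [Nat.cast_sub (by omega), Nat.cast_one] at this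
  have h2 := dvd_sub_pow_of_dvd_sub h1 k
  rw [one_pow] at h2
  have h3 : 1 ≤ q ^ (t ^ k) := Nat.one_le_pow _ _ (by omega)
  rw [← Int.natCast_dvd_natCast, Nat.cast_sub h3]
  push_cast
  exact h2

theorem back1 {q n : ℕ} (hq : 2 ≤ q) (hn : 1 < n)
    (hP : n * (q - 1) ∣ q ^ n - 1) (hmin : ∀ i : ℕ, 0 < i → i < n → ¬ n * (q - 1) ∣ q ^ i - 1) :
    ∀ r : ℕ, r.Prime → r ∣ n → r ∣ q - 1 := by
  classical
  by_contra hcon
  push Not at hcon
  obtain ⟨r, hr, hrn, hrq⟩ := hcon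
  have hn0 : n ≠ 0 := by omega
  set Pr : ℕ → Prop := fun s => s.Prime ∧ s ∣ n ∧ ¬ s ∣ q - 1 with hPr
  have hrle : r ≤ n := Nat.le_of_dvd (by omega) hrn
  obtain ⟨hs, hsn, hsq⟩ : Pr (Nat.findGreatest Pr n) := Nat.findGreatest_spec hrle ⟨hr, hrn, hrq⟩
  have hmax : ∀ t, t.Prime → t ∣ n → ¬ t ∣ q - 1 → t ≤ Nat.findGreatest Pr n := by
    intro t ht htn htq
    by_contra hlt
    exact Nat.findGreatest_is_greatest (P := Pr) (not_le.1 hlt) (Nat.le_of_dvd (by omega) htn)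
      ⟨ht, htn, htq⟩
  generalize Nat.findGreatest Pr n = s at hs hsn hsq hmax
  obtain ⟨m, rfl⟩ := hsn
  have hm0 : 0 < m := Nat.pos_of_ne_zero (by rintro rfl; simp at hn0)
  have hmn : m < s * m := by
    have := hs.two_le
    nlinarith
  apply hmin m hm0 hmn
  rw [Nat.dvd_iff_prime_pow_dvd_dvd]
  intro t k ht htk
  rcases k with _ | k
  · simp
  have h1 : t ^ (k + 1) ∣ q ^ (s * m) - 1 := htk.trans hP
  by_cases htq : t ∣ q - 1
  · -- exponent t ^ k
    have hts : t ≠ s := by rintro rfl; exact hsq htq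
    have hcop : Nat.Coprime s (t ^ k) :=
      Nat.Coprime.pow_right _ ((Nat.coprime_primes hs ht).2 (Ne.symm hts))
    apply dvd_of_two h1 (pow_dvd_of_dvd_sub hq htq k)
    rw [Nat.Coprime.gcd_mul_left_cancel m hcop]
    exact Nat.gcd_dvd_left _ _
  · have hcq : Nat.Coprime (t ^ (k + 1)) (q - 1) :=
      Nat.Coprime.pow_left _ ((Nat.Prime.coprime_iff_not_dvd ht).2 htq)
    have htn : t ^ (k + 1) ∣ s * m := hcq.dvd_of_dvd_mul_right htk
    have htn1 : t ∣ s * m := (dvd_pow_self t (Nat.succ_ne_zero k)).trans htn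
    have hle : t ≤ s := hmax t ht htn1 htq
    have htnq : ¬ t ∣ q := by
      intro h
      have h2 : t ∣ q ^ (s * m) := h.trans (dvd_pow_self q (by omega))
      have h3 : t ∣ q ^ (s * m) - 1 := (dvd_pow_self t (Nat.succ_ne_zero k)).trans h1
      have h4 : t ∣ q ^ (s * m) - (q ^ (s * m) - 1) := Nat.dvd_sub h2 h3
      have h5 : 1 ≤ q ^ (s * m) := Nat.one_le_pow _ _ (by omega)
      have h6 : q ^ (s * m) - (q ^ (s * m) - 1) = 1 := by omega
      rw [h6] at h4
      exact ht.one_lt.ne' (Nat.dvd_one.1 h4)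
    have hcop : Nat.Coprime q (t ^ (k + 1)) :=
      Nat.Coprime.pow_right _ ((Nat.Prime.coprime_iff_not_dvd ht).2 htnq).symm
    have h2 : t ^ (k + 1) ∣ q ^ (t ^ k * (t - 1)) - 1 := by
      have := Nat.ModEq.pow_totient hcop
      rw [Nat.totient_prime_pow_succ ht] at this
      exact (Nat.modEq_iff_dvd' (Nat.one_le_pow _ _ (by omega))).1 this.symm
    apply dvd_of_two h1 h2
    rcases lt_or_eq_of_le hle with hlt | rfl
    · have hc1 : Nat.Coprime s (t ^ k) :=
        Nat.Coprime.pow_right _ ((Nat.coprime_primes hs ht).2 (by omega))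
      have hc2 : Nat.Coprime s (t - 1) := by
        rw [Nat.Prime.coprime_iff_not_dvd hs]
        intro h
        have := Nat.le_of_dvd (by have := ht.two_le; omega) h
        omega
      rw [Nat.Coprime.gcd_mul_left_cancel m (Nat.Coprime.mul_right hc1 hc2)]
      exact Nat.gcd_dvd_left _ _
    · -- t = s
      have hkm : t ^ k ∣ m := by
        rw [pow_succ, mul_comm] at htn
        exact Nat.dvd_of_mul_dvd_mul_left ht.pos htn
      obtain ⟨m', rfl⟩ := hkm
      have hc2 : Nat.Coprime t (t - 1) := by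
        rw [Nat.Prime.coprime_iff_not_dvd ht]
        intro h
        have := Nat.le_of_dvd (by have := ht.two_le; omega) h
        have := ht.two_le
        omega
      have e1 : t * (t ^ k * m') = t ^ k * (t * m') := by ring
      rw [e1, Nat.gcd_mul_left, Nat.Coprime.gcd_mul_left_cancel m' hc2]
      exact Nat.mul_dvd_mul_left _ (Nat.gcd_dvd_left _ _)

theorem back2 {q n : ℕ} (hq : 2 ≤ q) (hn : 1 < n)
    (hmin : ∀ i : ℕ, 0 < i → i < n → ¬ n * (q - 1) ∣ q ^ i - 1)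
    (hD1 : ∀ r : ℕ, r.Prime → r ∣ n → r ∣ q - 1) : 4 ∣ n → 4 ∣ q - 1 := by
  intro h4n
  by_contra h4
  obtain ⟨m, rfl⟩ : 2 ∣ n := by omega
  have hm2 : 2 ∣ m := by omega
  have hm0 : m ≠ 0 := by omega
  have hq0 : q - 1 ≠ 0 := by omega
  have hd2 : 2 ∣ q - 1 := hD1 2 Nat.prime_two (Dvd.intro _ rfl)
  apply hmin m (by omega) (by omega)
  apply dvd_of_val (Nat.mul_ne_zero (by omega) hq0) (pow_sub_ne hq hm0)
  intro t ht
  have := Fact.mk ht
  rw [padicValNat.mul (by omega) hq0, padicValNat.mul (by omega) hm0]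
  by_cases htn : t ∣ 2 * m
  · by_cases ht2 : t = 2
    · subst ht2
      have h1 := lte_two hq hd2 hm0 (even_iff_two_dvd.2 hm2)
      have h2 := val_eq_one (a := q - 1) hq0 hd2 h4
      have h5 : 2 ≤ padicValNat 2 (q + 1) := two_le_val (by omega) (by omega)
      have h6 : padicValNat 2 2 = 1 := padicValNat.self (by norm_num)
      omega
    · rw [lte_odd hq ht ht2 (hD1 t ht htn) hm0]
      have h6 : padicValNat t 2 = 0 := padicValNat.eq_zero_of_not_dvd (by
        intro h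
        exact ht2 ((Nat.prime_dvd_prime_iff_eq ht Nat.prime_two).1 h))
      omega
  · have h6 : padicValNat t 2 = 0 := padicValNat.eq_zero_of_not_dvd (fun h => htn (h.mul_right m))
    have h7 : padicValNat t m = 0 := padicValNat.eq_zero_of_not_dvd (fun h => htn (h.mul_left 2))
    rw [h6, h7]
    have := val_le_of_dvd (pow_sub_ne hq hm0) (Nat.sub_one_dvd_pow_sub_one q m) t ht
    omega

/-- The Dickson pair condition: for a prime power `q` and `n > 1`, (every prime factor of `n` divides `q - 1`, and `4 ∣ n → 4 ∣ q - 1`) holds exactly when `q ^ n ≡ 1` modulo `n * (q - 1)` but `q ^ i` is not, for `0 < i < n`. -/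
theorem result (q n : ℕ) (hq : IsPrimePow q) (hn : 1 < n) : ((∀ r : ℕ, r.Prime → r ∣ n → r ∣ q - 1) ∧ (4 ∣ n → 4 ∣ q - 1)) ↔ (q ^ n ≡ 1 [MOD n * (q - 1)] ∧ ∀ i : ℕ, 0 < i → i < n → ¬ q ^ i ≡ 1 [MOD n * (q - 1)]) := by
  have hq2 : 2 ≤ q := hq.two_le
  have key : ∀ i : ℕ, q ^ i ≡ 1 [MOD n * (q - 1)] ↔ n * (q - 1) ∣ q ^ i - 1 := by
    intro i
    rw [← Nat.modEq_iff_dvd' (Nat.one_le_pow _ _ (by omega))]
    exact ⟨fun h => h.symm, fun h => h.symm⟩
  simp only [key]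
  constructor
  · rintro ⟨h1, h2⟩
    exact forward hq2 hn h1 h2
  · rintro ⟨h1, h2⟩
    have hD1 := back1 hq2 hn h1 h2
    exact ⟨hD1, back2 hq2 hn h2 hD1⟩

end Cfsg.Agent.S0694
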