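import Cfsg.Statements.S0695
import Mathlib
-- import your own Cfsg.Agent.* helpers here
import Cfsg.Agent.H5.RegNormal

set_option autoImplicit false
open Cfsg

namespace Cfsg.Agent.S0695

open Cfsg.Agent.H5RegNormal


/-- A regular normal subgroup of a doubly primitive group of finite degree at least 2 is an elementary abelian 2-group (and the degree is a power of 2), unless the degree is 3. -/
theorem result {G : Type*} [Group G] {X : Type*} [Fintype X] [MulAction G X] (hX : 2 ≤ Fintype.card X) (h2 : MulAction.IsMultiplyPreprimitive G X 2) (N : Subgroup G) [N.Normal] (htrans : MulAction.IsPretransitive N X) (hreg : ∀ x : X, MulAction.stabilizer N x = ⊥) : Fintype.card X = 3 ∨ (IsMulCommutative N ∧ (∀ n ∈ N, n ^ 2 = 1) ∧ ∃ m : ℕ, Fintype.card X = 2 ^ m) := by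
  classical
  haveI : Nonempty X := Fintype.card_pos_iff.mp (by omega)
  obtain ⟨a⟩ : Nonempty X := inferInstance
  have hex : ∀ x : X, ∃ n : G, n ∈ N ∧ n • a = x := fun x => by
    obtain ⟨n, hn, h⟩ := reg_exists N htrans a x
    exact ⟨n, hn, h⟩
  choose ν hνN hν using hex
  have hνu : ∀ (n : G) (x : X), n ∈ N → n • a = x → n = ν x := fun n x hn h =>
    reg_unique N hreg hn (hνN x) (h.trans (hν x).symm)
  let τ₀ : X → X := fun x => (ν x)⁻¹ • a
  have hντ : ∀ x, ν (τ₀ x) = (ν x)⁻¹ := fun x => (hνu _ _ (N.inv_mem (hνN x)) rfl).symm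
  have hτ₀2 : ∀ x, τ₀ (τ₀ x) = x := by
    intro x
    change (ν (τ₀ x))⁻¹ • a = x
    rw [hντ, inv_inv, hν]
  have hτ₀a : ∀ x, x ≠ a → τ₀ x ≠ a := by
    intro x hx h
    apply hx
    have := hτ₀2 x
    rw [h] at this
    rw [← this]
    change (ν a)⁻¹ • a = a
    rw [← hνu 1 a N.one_mem (one_smul _ _), inv_one, one_smul]
  have hτ₀c : ∀ (g : G), g • a = a → ∀ x, τ₀ (g • x) = g • τ₀ x := by
    intro g hg x
    have h1 : g * ν x * g⁻¹ = ν (g • x) := by
      apply hνu _ _ (Subgroup.Normal.conj_mem inferInstance _ (hνN x) g)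
      rw [mul_smul, mul_smul, inv_smul_eq_iff.mpr hg.symm, hν]
    change (ν (g • x))⁻¹ • a = g • (ν x)⁻¹ • a
    rw [← h1]
    have : (g * ν x * g⁻¹)⁻¹ = g * (ν x)⁻¹ * g⁻¹ := by group
    rw [this, mul_smul, mul_smul, inv_smul_eq_iff.mpr hg.symm]
  haveI hprim : MulAction.IsPreprimitive (fixingSubgroup G ({a} : Set X))
      (SubMulAction.ofFixingSubgroup G ({a} : Set X)) :=
    h2.isPreprimitive_ofFixingSubgroup (s := {a}) (by rw [Set.encard_singleton]; rfl)
  let τ : SubMulAction.ofFixingSubgroup G ({a} : Set X) → SubMulAction.ofFixingSubgroup G ({a} : Set X) :=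
    fun y => ⟨τ₀ y, by
      rw [SubMulAction.mem_ofFixingSubgroup_iff, Set.mem_singleton_iff]
      apply hτ₀a
      have := y.2
      rw [SubMulAction.mem_ofFixingSubgroup_iff, Set.mem_singleton_iff] at this
      exact this⟩
  have hτ2 : ∀ y, τ (τ y) = y := fun y => Subtype.ext (hτ₀2 y)
  have hτc : ∀ (g : fixingSubgroup G ({a} : Set X)) y, τ (g • y) = g • τ y := by
    intro g y
    apply Subtype.ext
    have hg : (g : G) • a = a := (mem_fixingSubgroup_iff G).mp g.2 a rfl
    exact hτ₀c g hg y
  by_cases hall : ∀ y, τ y = y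
  · right
    have hsq : ∀ n ∈ N, n ^ 2 = 1 := by
      intro n hn
      by_cases hna : n • a = a
      · have := reg_unique N hreg hn N.one_mem (hna.trans (one_smul G a).symm)
        rw [this, one_pow]
      · have h1 := hall ⟨n • a, by
          rw [SubMulAction.mem_ofFixingSubgroup_iff, Set.mem_singleton_iff]; exact hna⟩
        have h2' : τ₀ (n • a) = n • a := congrArg Subtype.val h1
        have h3 : ν (n • a) = n := (hνu n _ hn rfl).symm
        change (ν (n • a))⁻¹ • a = n • a at h2'
        rw [h3] at h2'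
        have h4 := reg_unique N hreg (N.inv_mem hn) hn h2'
        rw [pow_two]
        nth_rewrite 1 [← h4]
        exact inv_mul_cancel n
    have hcomm : ∀ x ∈ N, ∀ y ∈ N, x * y = y * x := by
      intro x hx y hy
      have hinv : ∀ z ∈ N, z⁻¹ = z := by
        intro z hz
        rw [inv_eq_iff_mul_eq_one, ← pow_two]
        exact hsq z hz
      calc x * y = (x * y)⁻¹ := (hinv _ (N.mul_mem hx hy)).symm
        _ = y⁻¹ * x⁻¹ := mul_inv_rev x y
        _ = y * x := by rw [hinv x hx, hinv y hy]
    have hbij : Function.Bijective (fun n : N => (n : G) • a) := by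
      constructor
      · intro n n' h
        exact Subtype.ext (reg_unique N hreg n.2 n'.2 h)
      · intro x
        exact ⟨⟨ν x, hνN x⟩, hν x⟩
    haveI : Finite N := Finite.of_injective _ hbij.1
    haveI : Fact (Nat.Prime 2) := ⟨Nat.prime_two⟩
    have hPG : IsPGroup 2 N := by
      intro n
      exact ⟨1, by rw [pow_one]; exact Subtype.ext (hsq n n.2)⟩
    obtain ⟨m, hm⟩ := IsPGroup.iff_card.mp hPG
    refine ⟨⟨⟨fun x y => Subtype.ext (hcomm x x.2 y y.2)⟩⟩, hsq, m, ?_⟩
    rw [← hm, ← Nat.card_eq_fintype_card]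
    exact (Nat.card_congr (Equiv.ofBijective _ hbij)).symm
  · left
    push Not at hall
    obtain ⟨y, hy⟩ := hall
    have h1 := (prim_invol τ hτ2 hτc y).resolve_left hy
    have hya : (y : X) ≠ a := by
      have := y.2
      rw [SubMulAction.mem_ofFixingSubgroup_iff, Set.mem_singleton_iff] at this
      exact this
    have hτya : ((τ y : SubMulAction.ofFixingSubgroup G ({a} : Set X)) : X) ≠ a := by
      have := (τ y).2
      rw [SubMulAction.mem_ofFixingSubgroup_iff, Set.mem_singleton_iff] at this
      exact this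
    have hne : ((τ y : SubMulAction.ofFixingSubgroup G ({a} : Set X)) : X) ≠ y :=
      fun h => hy (Subtype.ext h)
    rw [← Finset.card_univ, Finset.card_eq_three]
    refine ⟨a, y, (τ y : SubMulAction.ofFixingSubgroup G ({a} : Set X)), Ne.symm hya, Ne.symm hτya,
      Ne.symm hne, ?_⟩
    ext z
    simp only [Finset.mem_univ, Finset.mem_insert, Finset.mem_singleton, true_iff]
    by_cases hz : z = a
    · left; exact hz
    · right
      rcases h1 ⟨z, by rw [SubMulAction.mem_ofFixingSubgroup_iff, Set.mem_singleton_iff]; exact hz⟩ with h | h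
      · left; exact congrArg Subtype.val h
      · right; exact congrArg Subtype.val h

end Cfsg.Agent.S0695
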