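import Cfsg.Statements.S0696
import Mathlib
-- import your own Cfsg.Agent.* helpers here
import Cfsg.Agent.H5.RegNormal
import Cfsg.Agent.S0695

set_option autoImplicit false
open Cfsg

namespace Cfsg.Agent.S0696

open Cfsg.Agent.H5RegNormal


/-- A triply primitive group of degree at least 3 having a regular normal subgroup has degree 3 or 4. -/
theorem result {G : Type*} [Group G] {X : Type*} [Fintype X] [MulAction G X] (hX : 3 ≤ Fintype.card X) (h3 : MulAction.IsMultiplyPreprimitive G X 3) (N : Subgroup G) [N.Normal] (htrans : MulAction.IsPretransitive N X) (hreg : ∀ x : X, MulAction.stabilizer N x = ⊥) : Fintype.card X = 3 ∨ Fintype.card X = 4 := by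
  classical
  have h2 : MulAction.IsMultiplyPreprimitive G X 2 := by
    apply MulAction.isMultiplyPreprimitive_of_le G X h3 (by omega)
    rw [ENat.card_eq_coe_fintype_card]
    exact_mod_cast hX
  rcases Cfsg.Agent.S0695.result (by omega) h2 N htrans hreg with h | ⟨-, hsq, -⟩
  · left; exact h
  right
  obtain ⟨a, b, y₀, -, -, -, hab, hay, hby⟩ := Finset.two_lt_card_iff.mp
    (show 2 < (Finset.univ : Finset X).card by rw [Finset.card_univ]; omega)
  obtain ⟨x₀, hx₀N, hx₀⟩ := reg_exists N htrans a b
  have hx₀2 : x₀ * x₀ = 1 := by rw [← pow_two]; exact hsq x₀ hx₀N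
  have hx₀b : x₀ • b = a := by rw [← hx₀, ← mul_smul, hx₀2, one_smul]
  have hx₀1 : x₀ ≠ 1 := by
    intro h
    rw [h, one_smul] at hx₀
    exact hab hx₀
  haveI hprim : MulAction.IsPreprimitive (fixingSubgroup G ({a, b} : Set X))
      (SubMulAction.ofFixingSubgroup G ({a, b} : Set X)) :=
    h3.isPreprimitive_ofFixingSubgroup (s := {a, b}) (by rw [Set.encard_pair hab]; rfl)
  have hmem : ∀ z : X, z ∈ SubMulAction.ofFixingSubgroup G ({a, b} : Set X) ↔ z ≠ a ∧ z ≠ b := by
    intro z
    rw [SubMulAction.mem_ofFixingSubgroup_iff]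
    simp
  let τ : SubMulAction.ofFixingSubgroup G ({a, b} : Set X) → SubMulAction.ofFixingSubgroup G ({a, b} : Set X) :=
    fun y => ⟨x₀ • (y : X), by
      have hy := (hmem y).mp y.2
      rw [hmem]
      constructor
      · intro h
        apply hy.2
        exact smul_left_cancel x₀ (h.trans hx₀b.symm)
      · intro h
        apply hy.1
        exact smul_left_cancel x₀ (h.trans hx₀.symm)⟩
  have hτ2 : ∀ y, τ (τ y) = y := by
    intro y
    apply Subtype.ext
    change x₀ • x₀ • (y : X) = y
    rw [← mul_smul, hx₀2, one_smul]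
  have hτc : ∀ (g : fixingSubgroup G ({a, b} : Set X)) y, τ (g • y) = g • τ y := by
    intro g y
    apply Subtype.ext
    have hga : (g : G) • a = a := (mem_fixingSubgroup_iff G).mp g.2 a (by simp)
    have hgb : (g : G) • b = b := (mem_fixingSubgroup_iff G).mp g.2 b (by simp)
    have h1 : (g : G) * x₀ * (g : G)⁻¹ = x₀ := by
      apply reg_unique N hreg (a := a) (Subgroup.Normal.conj_mem inferInstance _ hx₀N g) hx₀N
      rw [mul_smul, mul_smul, inv_smul_eq_iff.mpr hga.symm, hx₀, hgb]
    have h4 : x₀ * (g : G) = g * x₀ := by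
      have := congrArg (· * (g : G)) h1
      simpa using this.symm
    change x₀ • (g : G) • (y : X) = (g : G) • x₀ • (y : X)
    rw [← mul_smul, h4, mul_smul]
  let y : SubMulAction.ofFixingSubgroup G ({a, b} : Set X) := ⟨y₀, (hmem y₀).mpr ⟨Ne.symm hay, Ne.symm hby⟩⟩
  have hτy : τ y ≠ y := by
    intro h
    have h1 : x₀ • y₀ = y₀ := congrArg Subtype.val h
    exact hx₀1 (reg_unique N hreg hx₀N N.one_mem (h1.trans (one_smul G y₀).symm))
  have h1 := (prim_invol τ hτ2 hτc y).resolve_left hτy
  have hτy' := (hmem _).mp (τ y).2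
  have hne : x₀ • y₀ ≠ y₀ := fun h => hτy (Subtype.ext h)
  have huniv : (Finset.univ : Finset X) = {a, b, y₀, x₀ • y₀} := by
    ext z
    simp only [Finset.mem_univ, Finset.mem_insert, Finset.mem_singleton, true_iff]
    by_cases hza : z = a
    · left; exact hza
    · by_cases hzb : z = b
      · right; left; exact hzb
      · right; right
        rcases h1 ⟨z, (hmem z).mpr ⟨hza, hzb⟩⟩ with h | h
        · left; exact congrArg Subtype.val h
        · right; exact congrArg Subtype.val h
  rw [← Finset.card_univ, huniv]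
  have e1 : x₀ • y₀ ≠ a := hτy'.1
  have e2 : x₀ • y₀ ≠ b := hτy'.2
  rw [Finset.card_insert_of_notMem, Finset.card_insert_of_notMem, Finset.card_pair (Ne.symm hne)]
  · simp only [Finset.mem_insert, Finset.mem_singleton, not_or]
    exact ⟨hby, Ne.symm e2⟩
  · simp only [Finset.mem_insert, Finset.mem_singleton, not_or]
    exact ⟨hab, hay, Ne.symm e1⟩

end Cfsg.Agent.S0696
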