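import Cfsg.Statements.S0697
import Mathlib
-- import your own Cfsg.Agent.* helpers here
import Cfsg.Agent.H5.MultTrans
import Cfsg.Agent.S0696

set_option autoImplicit false
open Cfsg

namespace Cfsg.Agent.S0697

open MulAction SubMulAction Cfsg.Agent.H5RegNormal Cfsg.Agent.H5MultTrans

universe u v

theorem wiel (j : ℕ) : ∀ (G : Type u) (X : Type v) [Group G] [Finite G] [MulAction G X] [Finite X]
    [FaithfulSMul G X], j + 1 ≤ Nat.card X → IsMultiplyPreprimitive G X (j + 1) →
    ¬ IsMultiplyPretransitive G X (Nat.card X - 1) →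
    ∀ (H : Subgroup G) [H.Normal], H ≠ ⊥ → (j = 0 ∨ ∃ a : X, stabilizer H a ≠ ⊥) →
    IsMultiplyPretransitive H X (j + 1) := by
  induction j with
  | zero =>
    intro G X _ _ _ _ _ hX hG _ H _ hH _
    have hprim : IsPreprimitive G X := (is_one_preprimitive_iff G X).mp hG
    have := normal_trans hprim H hH
    exact is_one_pretransitive_iff.mpr this
  | succ j ih =>
    intro G X _ _ _ _ _ hX hG hnot H hHn hH hnr
    have hENat : ((j + 1 + 1 : ℕ) : ℕ∞) ≤ ENat.card X := by
      haveI := Fintype.ofFinite X
      rw [ENat.card_eq_coe_fintype_card, ← Nat.card_eq_fintype_card]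
      exact_mod_cast hX
    have hprim : IsPreprimitive G X :=
      (is_one_preprimitive_iff G X).mp (isMultiplyPreprimitive_of_le G X hG (by omega) hENat)
    haveI hGt : IsPretransitive G X := hprim.toIsPretransitive
    haveI hHt : IsPretransitive H X := normal_trans hprim H hH
    obtain ⟨a, ha⟩ := hnr.resolve_left (by omega)
    haveI := hG
    have hGa : IsMultiplyPreprimitive (stabilizer G a) (ofStabilizer G a) (j + 1) :=
      isMultiplyPreprimitive_ofStabilizer G X
    have hYcard := nat_card_ofStabilizer_add_one_eq G a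
    set K := H.subgroupOf (stabilizer G a) with hK
    haveI hKn : K.Normal := hHn.subgroupOf _
    have hKbot : K ≠ ⊥ := by
      intro hKb
      apply ha
      rw [eq_bot_iff]
      intro h hh
      have hmem : (⟨h, hh⟩ : stabilizer G a) ∈ K := Subgroup.mem_subgroupOf.mpr h.2
      rw [hKb, Subgroup.mem_bot] at hmem
      rw [Subgroup.mem_bot]
      have h5 : ((⟨h, hh⟩ : stabilizer G a) : G) = 1 := congrArg Subtype.val hmem
      exact Subtype.ext h5
    have hnotY : ¬ IsMultiplyPretransitive (stabilizer G a) (ofStabilizer G a)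
        (Nat.card (ofStabilizer G a) - 1) := by
      intro h
      apply hnot
      have := (ofStabilizer.isMultiplyPretransitive (G := G) (a := a)).mpr h
      rwa [show (Nat.card (ofStabilizer G a) - 1).succ = Nat.card X - 1 by omega] at this
    by_cases hcase : j = 0 ∨ ∃ y : ofStabilizer G a, stabilizer K y ≠ ⊥
    · exact transfer H a (j + 1) (ih (stabilizer G a) (ofStabilizer G a) (by omega) hGa hnotY K hKbot hcase)
    · exfalso
      push Not at hcase
      obtain ⟨hj, hKreg⟩ := hcase
      have hENatY : ((j + 1 : ℕ) : ℕ∞) ≤ ENat.card (ofStabilizer G a) := by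
        haveI := Fintype.ofFinite (ofStabilizer G a)
        rw [ENat.card_eq_coe_fintype_card, ← Nat.card_eq_fintype_card]
        exact_mod_cast (show j + 1 ≤ Nat.card (ofStabilizer G a) by omega)
      have hprimY : IsPreprimitive (stabilizer G a) (ofStabilizer G a) :=
        (is_one_preprimitive_iff _ _).mp (isMultiplyPreprimitive_of_le _ _ hGa (by omega) hENatY)
      haveI hKt : IsPretransitive K (ofStabilizer G a) := normal_trans hprimY K hKbot
      obtain ⟨R, hRn, hRt, hRreg⟩ := sr H a (by omega)
        (by
          intro y z hy hz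
          obtain ⟨k, hk⟩ := exists_smul_eq K (⟨y, hy⟩ : ofStabilizer G a) ⟨z, hz⟩
          exact ⟨k.1.1, k.2, k.1.2, congrArg Subtype.val hk⟩)
        (by
          intro h hh hha y hy hhy
          have h1 : (⟨⟨h, hha⟩, Subgroup.mem_subgroupOf.mpr hh⟩ : K) ∈
              stabilizer K (⟨y, hy⟩ : ofStabilizer G a) := by
            rw [mem_stabilizer_iff]
            exact Subtype.ext hhy
          rw [hKreg, Subgroup.mem_bot] at h1
          exact congrArg (fun k : K => (k.1.1 : G)) h1)
      have h3p : IsMultiplyPreprimitive G X 3 := isMultiplyPreprimitive_of_le G X hG (by omega) hENat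
      haveI := Fintype.ofFinite X
      have hc := Cfsg.Agent.S0696.result (by rw [← Nat.card_eq_fintype_card]; omega) h3p R hRt hRreg
      rw [← Nat.card_eq_fintype_card] at hc
      have h3t : IsMultiplyPretransitive G X 3 := h3p.isMultiplyPretransitive
      apply hnot
      exact isMultiplyPretransitive_of_le (n := 3) (by omega) (by omega)


/-- In a `k`-primitive permutation group which is not the whole symmetric group, a non-trivial non-regular normal subgroup is `k`-transitive. -/
theorem result {α : Type*} [Fintype α] [DecidableEq α] (G : Subgroup (Equiv.Perm α)) {k : ℕ} (hk : 1 ≤ k) (hkn : k ≤ Fintype.card α) (hG : MulAction.IsMultiplyPreprimitive G α k) (htop : G ≠ ⊤) (H : Subgroup G) [H.Normal] (hH : H ≠ ⊥) (hnr : ∃ a : α, MulAction.stabilizer H a ≠ ⊥) : MulAction.IsMultiplyPretransitive H α k := by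
  obtain ⟨j, rfl⟩ : ∃ j, k = j + 1 := ⟨k - 1, by omega⟩
  apply wiel j G α (by rw [Nat.card_eq_fintype_card]; exact hkn) hG _ H hH (Or.inr hnr)
  intro h
  exact htop (Equiv.Perm.eq_top_of_isMultiplyPretransitive h)

end Cfsg.Agent.S0697
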