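import Cfsg.Statements.S0698
import Mathlib
-- import your own Cfsg.Agent.* helpers here
import Cfsg.Agent.H5.MultTrans

set_option autoImplicit false
open Cfsg

namespace Cfsg.Agent.S0698

open MulAction SubMulAction Cfsg.Agent.H5RegNormal Cfsg.Agent.H5MultTrans

universe u v

theorem jordan (j : ℕ) : ∀ (G : Type u) (X : Type v) [Group G] [Finite G] [MulAction G X] [Finite X]
    [FaithfulSMul G X], j + 2 < Nat.card X → IsMultiplyPretransitive G X (j + 2) →
    ∀ (N : Subgroup G) [N.Normal], N ≠ ⊥ →
    IsMultiplyPretransitive N X (j + 1) ∨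
      (j = 1 ∧ (∀ x ∈ N, ∀ y ∈ N, x * y = y * x) ∧ ∀ n ∈ N, n * n = 1) := by
  induction j with
  | zero =>
    intro G X _ _ _ _ _ hX hG N _ hN
    left
    have hprim : IsPreprimitive G X := isPreprimitive_of_is_two_pretransitive hG
    have := normal_trans hprim N hN
    exact is_one_pretransitive_iff.mpr this
  | succ j ih =>
    intro G X _ _ _ _ _ hX hG N hNn hN
    have h2 : IsMultiplyPretransitive G X 2 :=
      isMultiplyPretransitive_of_le (n := j + 1 + 2) (by omega) (by omega)
    have h3 : IsMultiplyPretransitive G X 3 :=
      isMultiplyPretransitive_of_le (n := j + 1 + 2) (by omega) (by omega)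
    have hprim : IsPreprimitive G X := isPreprimitive_of_is_two_pretransitive h2
    haveI hGt : IsPretransitive G X := hprim.toIsPretransitive
    haveI hNt : IsPretransitive N X := normal_trans hprim N hN
    haveI : Nonempty X := by
      rw [← Finite.card_pos_iff]; omega
    obtain ⟨a⟩ : Nonempty X := inferInstance
    have hGa : IsMultiplyPretransitive (stabilizer G a) (ofStabilizer G a) (j + 2) :=
      ofStabilizer.isMultiplyPretransitive.mp hG
    have hYcard := nat_card_ofStabilizer_add_one_eq G a
    set K := N.subgroupOf (stabilizer G a) with hK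
    haveI hKn : K.Normal := hNn.subgroupOf _
    by_cases hKbot : K = ⊥
    · have hreg : ∀ x : X, stabilizer N x = ⊥ := by
        intro x
        rw [eq_bot_iff]
        intro n hn
        obtain ⟨g, hg⟩ := exists_smul_eq G x a
        have hfix : (g * n * g⁻¹) • a = a := by
          have hn' : (n : G) • x = x := hn
          rw [mul_smul, mul_smul, ← hg, inv_smul_smul, hn']
        have hmem : (⟨g * n * g⁻¹, hfix⟩ : stabilizer G a) ∈ K :=
          Subgroup.mem_subgroupOf.mpr (hNn.conj_mem n n.2 g)
        rw [hKbot, Subgroup.mem_bot] at hmem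
        have h1 : g * (n : G) * g⁻¹ = 1 := congrArg Subtype.val hmem
        rw [Subgroup.mem_bot]
        apply Subtype.ext
        have h4 : (n : G) = g⁻¹ * (g * n * g⁻¹) * g := by group
        rw [h4, h1]
        simp
      have hsq := rn3 h3 (by omega) N hNt hreg
      by_cases hj : j = 0
      · right
        refine ⟨by omega, ?_, hsq⟩
        intro x hx y hy
        have hinv : ∀ z ∈ N, z⁻¹ = z := by
          intro z hz
          rw [inv_eq_iff_mul_eq_one]
          exact hsq z hz
        calc x * y = (x * y)⁻¹ := (hinv _ (N.mul_mem hx hy)).symm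
          _ = y⁻¹ * x⁻¹ := mul_inv_rev x y
          _ = y * x := by rw [hinv x hx, hinv y hy]
      · exfalso
        have h4 : IsMultiplyPretransitive G X 4 :=
          isMultiplyPretransitive_of_le (n := j + 1 + 2) (by omega) (by omega)
        exact rn4 h4 (by omega) N hNt hreg
    · rcases ih (stabilizer G a) (ofStabilizer G a) (by omega) hGa K hKbot with h | ⟨hj, hKc, hKs⟩
      · left
        exact transfer N a (j + 1) h
      · exfalso
        have h4 : IsMultiplyPretransitive G X 4 :=
          isMultiplyPretransitive_of_le (n := j + 1 + 2) (by omega) (by omega)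
        have hGa2 : IsMultiplyPretransitive (stabilizer G a) (ofStabilizer G a) 2 :=
          isMultiplyPretransitive_of_le (n := j + 2) (by omega) (by omega)
        have hprimY : IsPreprimitive (stabilizer G a) (ofStabilizer G a) :=
          isPreprimitive_of_is_two_pretransitive hGa2
        haveI hKt : IsPretransitive K (ofStabilizer G a) := normal_trans hprimY K hKbot
        have hKreg : ∀ y : ofStabilizer G a, stabilizer K y = ⊥ := fun y =>
          abelian_reg (G := K) (fun (x y : K) => Subtype.ext (hKc x x.2 y y.2)) y
        obtain ⟨R, hRn, hRt, hRreg⟩ := sr N a (by omega)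
          (by
            intro y z hy hz
            obtain ⟨k, hk⟩ := exists_smul_eq K (⟨y, hy⟩ : ofStabilizer G a) ⟨z, hz⟩
            exact ⟨k.1.1, k.2, k.1.2, congrArg Subtype.val hk⟩)
          (by
            intro h hh hha y hy hhy
            have h1 : (⟨⟨h, hha⟩, Subgroup.mem_subgroupOf.mpr hh⟩ : K) ∈
                stabilizer K (⟨y, hy⟩ : ofStabilizer G a) := by
              rw [mem_stabilizer_iff]
              exact Subtype.ext hhy
            rw [hKreg, Subgroup.mem_bot] at h1
            exact congrArg (fun k : K => (k.1.1 : G)) h1)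
        exact rn4 h4 (by omega) R hRt hRreg


/-- Jordan's Theorem on normal subgroups of multiply transitive groups: if `G` is `k`-transitive (`k > 1`) of degree greater than `k`, a non-trivial normal subgroup is `(k-1)`-transitive, except possibly for `k = 3` when it may be an elementary abelian 2-group. -/
theorem result {α : Type*} [Fintype α] [DecidableEq α] (G : Subgroup (Equiv.Perm α)) {k : ℕ} (hk : 1 < k) (hdeg : k < Fintype.card α) (hG : MulAction.IsMultiplyPretransitive G α k) (N : Subgroup G) [N.Normal] (hN : N ≠ ⊥) : MulAction.IsMultiplyPretransitive N α (k - 1) ∨ (k = 3 ∧ IsMulCommutative N ∧ ∀ n ∈ N, n ^ 2 = 1) := by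
  obtain ⟨j, rfl⟩ : ∃ j, k = j + 2 := ⟨k - 2, by omega⟩
  rcases jordan j G α (by rw [Nat.card_eq_fintype_card]; exact hdeg) hG N hN with h | ⟨hj, hc, hs⟩
  · left
    exact h
  · right
    refine ⟨by omega, ⟨⟨fun x y => Subtype.ext (hc x x.2 y y.2)⟩⟩, fun n hn => ?_⟩
    rw [pow_two]
    exact hs n hn

end Cfsg.Agent.S0698
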