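import Cfsg.Statements.S0712
import Mathlib
-- import your own Cfsg.Agent.* helpers here

set_option autoImplicit false
open Cfsg

namespace Cfsg.Agent.S0712

open MulAction SubMulAction in
theorem mt_of_fixing {G α : Type*} [Group G] [MulAction G α] [Finite α] (m k : ℕ) (s : Set α)
    (hs : s.ncard = m) (hm : IsMultiplyPretransitive G α m)
    (hk : IsMultiplyPretransitive (fixingSubgroup G s) (ofFixingSubgroup G s) k) :
    IsMultiplyPretransitive G α (m + k) := by
  induction m generalizing G α s with
  | zero =>
    rw [Set.ncard_eq_zero] at hs
    subst hs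
    rw [zero_add]
    exact (IsPretransitive.of_embedding_congr of_fixingSubgroupEmpty_mapScalars_surjective
      ofFixingSubgroupEmpty_equivariantMap_bijective).mp hk
  | succ m ih =>
    have hne : s.Nonempty := by
      rw [← Set.ncard_pos, hs]; exact Nat.succ_pos m
    obtain ⟨a, ha⟩ := hne
    have hcard : m + 1 ≤ Nat.card α := by
      rw [← hs, ← Set.ncard_univ]
      exact Set.ncard_le_ncard s.subset_univ Set.finite_univ
    have hGX : IsPretransitive G α := by
      rw [← is_one_pretransitive_iff]
      apply isMultiplyPretransitive_of_le (n := m + 1)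
      · omega
      · exact hcard
    let t : Set (SubMulAction.ofStabilizer G a) := Subtype.val ⁻¹' s
    have hst : s = insert a (Subtype.val '' t) := by
      ext x
      by_cases hx : x = a <;> simp [t, hx, mem_ofStabilizer_iff, ha]
    have ha' : a ∉ Subtype.val '' t := by
      intro h; rw [Set.mem_image] at h; obtain ⟨x, hx⟩ := h
      apply x.prop; rw [hx.right]; exact Set.mem_singleton a
    have htcard : t.ncard = m := by
      rw [← Set.ncard_image_of_injective t Subtype.val_injective]
      apply Nat.add_right_cancel
      rw [← Set.ncard_insert_of_notMem ha', ← hst, hs]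
    have h1 : IsMultiplyPretransitive (stabilizer G a) (ofStabilizer G a) m :=
      ofStabilizer.isMultiplyPretransitive.mp hm
    have h2 : IsMultiplyPretransitive ↥(fixingSubgroup G (insert a (Subtype.val '' t)))
          (ofFixingSubgroup G (insert a (Subtype.val '' t))) k :=
      (IsPretransitive.of_embedding_congr (MulEquiv.surjective _)
          (ofFixingSubgroup_of_eq_bijective (hst := hst))).mp hk
    have h3 : IsMultiplyPretransitive (fixingSubgroup (stabilizer G a) t)
        (ofFixingSubgroup (stabilizer G a) t) k :=
      (IsPretransitive.of_embedding_congr (fixingSubgroupInsertEquiv a t).surjective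
          ofFixingSubgroup_insert_map_bijective).mp h2
    have h4 := ih t htcard h1 h3
    rw [show m + 1 + k = (m + k).succ by omega]
    exact ofStabilizer.isMultiplyPretransitive.mpr h4


/-- Jordan: a primitive group in which the pointwise stabiliser of a set `s` is doubly transitive on the complement of `s` (which has at least 2 points) is `(|s| + 2)`-transitive. -/
theorem result {α : Type*} [Fintype α] [DecidableEq α] (G : Subgroup (Equiv.Perm α)) (hG : MulAction.IsPreprimitive G α) (s : Set α) {m : ℕ} (hsm : s.ncard = m) (hm : m + 2 ≤ Fintype.card α) (h2 : MulAction.IsMultiplyPretransitive (fixingSubgroup G s) (SubMulAction.ofFixingSubgroup G s) 2) : MulAction.IsMultiplyPretransitive G α (m + 2) := by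
  apply mt_of_fixing m 2 s hsm _ h2
  rcases Nat.eq_zero_or_pos m with rfl | hmpos
  · exact MulAction.is_zero_pretransitive
  obtain ⟨n, rfl⟩ : ∃ n, m = n + 1 := ⟨m - 1, by omega⟩
  have hprim : MulAction.IsPreprimitive (fixingSubgroup G s) (SubMulAction.ofFixingSubgroup G s) :=
    MulAction.isPreprimitive_of_is_two_pretransitive h2
  have h3 : MulAction.IsMultiplyPreprimitive G α (n + 2) := by
    apply hG.isMultiplyPreprimitive hsm _ hprim
    rw [Nat.card_eq_fintype_card]; omega
  have h4 : MulAction.IsMultiplyPretransitive G α (n + 2) := h3.isMultiplyPretransitive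
  apply MulAction.isMultiplyPretransitive_of_le (n := n + 2) (by omega)
  rw [Nat.card_eq_fintype_card]; omega

end Cfsg.Agent.S0712
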