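import Cfsg.Statements.S0699
import Mathlib
-- import your own Cfsg.Agent.* helpers here
import Cfsg.Agent.H5.MultTrans
import Cfsg.Agent.S0698
import Cfsg.Agent.S0712

set_option autoImplicit false
open Cfsg

namespace Cfsg.Agent.S0699

open MulAction SubMulAction Cfsg.Agent.H5RegNormal Cfsg.Agent.H5MultTrans
open scoped Pointwise

theorem wagner_core {G X : Type*} [Group G] [Finite G] [MulAction G X] [Finite X]
    (hodd : Odd (Nat.card X)) (h3 : IsMultiplyPretransitive G X 3) (N : Subgroup G) [hNn : N.Normal]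
    (hN2 : IsMultiplyPretransitive N X 2) (hX : 3 ≤ Nat.card X) :
    IsMultiplyPretransitive N X 3 := by
  classical
  haveI : Fact (Nat.Prime 2) := ⟨Nat.prime_two⟩
  haveI : Nontrivial X := by
    rw [← Finite.one_lt_card_iff_nontrivial]; omega
  obtain ⟨a, b, hab⟩ := exists_pair_ne X
  have hN2' := hN2
  rw [is_two_pretransitive_iff] at hN2'
  let St : X → X → Subgroup G := fun c d => N ⊓ stabilizer G c ⊓ stabilizer G d
  have hStmem : ∀ c d g, g ∈ St c d ↔ g ∈ N ∧ g • c = c ∧ g • d = d := by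
    intro c d g
    simp only [St, Subgroup.mem_inf, mem_stabilizer_iff, and_assoc]
  have hStcard : ∀ c d, c ≠ d → Nat.card (St c d) = Nat.card (St a b) := by
    intro c d hcd
    obtain ⟨n, hna, hnb⟩ := hN2' hab hcd
    have hna' : (n : G) • a = c := hna
    have hnb' : (n : G) • b = d := hnb
    have : (St a b).map (MulAut.conj (n : G)).toMonoidHom = St c d := by
      ext x
      rw [hStmem]
      constructor
      · rintro ⟨h, hh, rfl⟩
        rw [SetLike.mem_coe, hStmem] at hh
        simp only [MulEquiv.coe_toMonoidHom, MulAut.conj_apply]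
        refine ⟨N.mul_mem (N.mul_mem n.2 hh.1) (N.inv_mem n.2), ?_, ?_⟩
        · rw [mul_smul, mul_smul, ← hna', inv_smul_smul, hh.2.1]
        · rw [mul_smul, mul_smul, ← hnb', inv_smul_smul, hh.2.2]
      · rintro ⟨hx, hxc, hxd⟩
        refine ⟨(n : G)⁻¹ * x * n, ?_, ?_⟩
        · rw [SetLike.mem_coe, hStmem]
          refine ⟨N.mul_mem (N.mul_mem (N.inv_mem n.2) hx) n.2, ?_, ?_⟩
          · rw [mul_smul, mul_smul, hna', hxc, ← hna', inv_smul_smul]
          · rw [mul_smul, mul_smul, hnb', hxd, ← hnb', inv_smul_smul]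
        · simp only [MulEquiv.coe_toMonoidHom, MulAut.conj_apply]
          group
    rw [← this, Subgroup.card_map_of_injective (MulAut.conj (n : G)).injective]
  let M : Subgroup G :=
    { carrier := {g | g ∈ N ∧ ((g • a = a ∧ g • b = b) ∨ (g • a = b ∧ g • b = a))}
      one_mem' := ⟨N.one_mem, Or.inl ⟨one_smul _ _, one_smul _ _⟩⟩
      mul_mem' := by
        rintro g h ⟨hg, hg'⟩ ⟨hh, hh'⟩
        refine ⟨N.mul_mem hg hh, ?_⟩
        rcases hg' with ⟨g1, g2⟩ | ⟨g1, g2⟩ <;> rcases hh' with ⟨k1, k2⟩ | ⟨k1, k2⟩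
        · left; rw [mul_smul, mul_smul, k1, k2, g1, g2]; exact ⟨rfl, rfl⟩
        · right; rw [mul_smul, mul_smul, k1, k2, g1, g2]; exact ⟨rfl, rfl⟩
        · right; rw [mul_smul, mul_smul, k1, k2, g1, g2]; exact ⟨rfl, rfl⟩
        · left; rw [mul_smul, mul_smul, k1, k2, g1, g2]; exact ⟨rfl, rfl⟩
      inv_mem' := by
        rintro g ⟨hg, hg'⟩
        refine ⟨N.inv_mem hg, ?_⟩
        rcases hg' with ⟨g1, g2⟩ | ⟨g1, g2⟩
        · left; exact ⟨inv_smul_eq_iff.mpr g1.symm, inv_smul_eq_iff.mpr g2.symm⟩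
        · right; exact ⟨inv_smul_eq_iff.mpr g2.symm, inv_smul_eq_iff.mpr g1.symm⟩ }
  have hMmem : ∀ g, g ∈ M ↔ g ∈ N ∧ ((g • a = a ∧ g • b = b) ∨ (g • a = b ∧ g • b = a)) :=
    fun g => Iff.rfl
  have hStM : St a b ≤ M := by
    intro g hg
    rw [hStmem] at hg
    exact ⟨hg.1, Or.inl hg.2⟩
  obtain ⟨t, hta, htb⟩ := hN2' hab (Ne.symm hab)
  have htM : (t : G) ∈ M := ⟨t.2, Or.inr ⟨hta, htb⟩⟩
  have hcardM : Nat.card M = 2 * Nat.card (St a b) := by
    have hidx : ((St a b).subgroupOf M).index = 2 := by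
      rw [Subgroup.index_eq_two_iff]
      refine ⟨⟨t, htM⟩, fun m => ?_⟩
      rw [Subgroup.mem_subgroupOf, Subgroup.mem_subgroupOf, hStmem, hStmem]
      have hta' : (t : G) • a = b := hta
      have htb' : (t : G) • b = a := htb
      rcases m.2.2 with ⟨m1, m2⟩ | ⟨m1, m2⟩
      · right
        refine ⟨⟨m.2.1, m1, m2⟩, ?_⟩
        rintro ⟨-, h1, -⟩
        rw [Subgroup.coe_mul, mul_smul, hta', m2] at h1
        exact hab h1.symm
      · left
        refine ⟨⟨N.mul_mem m.2.1 t.2, ?_, ?_⟩, ?_⟩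
        · rw [Subgroup.coe_mul, mul_smul, hta', m2]
        · rw [Subgroup.coe_mul, mul_smul, htb', m1]
        · rintro ⟨-, h1, -⟩
          rw [m1] at h1
          exact hab h1.symm
    have h1 := Subgroup.index_mul_card ((St a b).subgroupOf M)
    rw [hidx, Nat.card_congr (Subgroup.subgroupOfEquivOfLe hStM).toEquiv] at h1
    exact h1.symm
  obtain ⟨P⟩ : Nonempty (Sylow 2 M) := inferInstance
  set P' : Subgroup G := (P : Subgroup M).map M.subtype with hP'
  have hP'card : Nat.card P' = 2 ^ ((Nat.card (St a b)).factorization 2 + 1) := by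
    rw [hP', Subgroup.card_map_of_injective (Subgroup.subtype_injective M), P.card_eq_multiplicity,
      hcardM, Nat.factorization_mul (by norm_num) Nat.card_pos.ne']
    simp [Nat.Prime.factorization_self Nat.prime_two, add_comm]
  have hkey : ∀ L : Subgroup G, Nat.card L = Nat.card (St a b) → ¬ P' ≤ L := by
    intro L hL hle
    have h1 := Subgroup.card_dvd_of_le hle
    rw [hP'card, hL] at h1
    exact Nat.pow_succ_factorization_not_dvd Nat.card_pos.ne' Nat.prime_two h1
  have hP'M : P' ≤ M := Subgroup.map_subtype_le _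
  -- an element of P' interchanging a and b
  obtain ⟨t₀, ht₀P, ht₀a, ht₀b⟩ : ∃ t₀ ∈ P', t₀ • a = b ∧ t₀ • b = a := by
    by_contra hcon
    push Not at hcon
    apply hkey (St a b) rfl
    intro g hg
    rw [hStmem]
    rcases (hP'M hg).2 with h | h
    · exact ⟨(hP'M hg).1, h⟩
    · exact absurd h.2 (hcon g hg h.1)
  -- fixed points of P
  have hfixmod := P.2.card_modEq_card_fixedPoints X
  have hfixne : (fixedPoints (P : Subgroup M) X).Nonempty := by
    by_contra hcon
    rw [Set.not_nonempty_iff_eq_empty] at hcon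
    rw [hcon] at hfixmod
    have h1 : Nat.card X % 2 = 1 := Nat.odd_iff.mp hodd
    have h2 : Nat.card X % 2 = Nat.card (∅ : Set X) % 2 := hfixmod
    simp at h2
    omega
  obtain ⟨c, hc⟩ := hfixne
  have hfixP' : ∀ x : X, x ∈ fixedPoints (P : Subgroup M) X ↔ ∀ g ∈ P', g • x = x := by
    intro x
    constructor
    · rintro hx _ ⟨p, hp, rfl⟩
      exact hx ⟨p, hp⟩
    · intro hx p
      exact hx _ ⟨p.1, p.2, rfl⟩
  have hc' := (hfixP' c).mp hc
  have hca : c ≠ a := by
    intro h
    have := hc' t₀ ht₀P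
    rw [h, ht₀a] at this
    exact hab this.symm
  have hcb : c ≠ b := by
    intro h
    have := hc' t₀ ht₀P
    rw [h, ht₀b] at this
    exact hab this
  have huniq : ∀ d : X, (∀ g ∈ P', g • d = d) → d = c := by
    intro d hd
    by_contra hdc
    apply hkey (St c d) (hStcard c d (Ne.symm hdc))
    intro g hg
    rw [hStmem]
    exact ⟨(hP'M hg).1, hc' g hg, hd g hg⟩
  -- M is transitive outside {a, b}
  have hMtrans : ∀ x : X, x ≠ a → x ≠ b → ∃ m ∈ M, m • c = x := by
    intro x hxa hxb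
    obtain ⟨g, hga, hgb, hgc⟩ := t3 h3 hab (Ne.symm hca) (Ne.symm hcb) hab (Ne.symm hxa) (Ne.symm hxb)
    have hconjM : ∀ (u : G), u • a = a → u • b = b → ∀ m ∈ M, u * m * u⁻¹ ∈ M := by
      intro u hua hub m hm
      refine ⟨hNn.conj_mem m hm.1 u, ?_⟩
      rcases hm.2 with ⟨m1, m2⟩ | ⟨m1, m2⟩
      · left
        rw [mul_smul, mul_smul, mul_smul, mul_smul, inv_smul_eq_iff.mpr hua.symm,
          inv_smul_eq_iff.mpr hub.symm, m1, m2]
        exact ⟨hua, hub⟩
      · right
        rw [mul_smul, mul_smul, mul_smul, mul_smul, inv_smul_eq_iff.mpr hua.symm,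
          inv_smul_eq_iff.mpr hub.symm, m1, m2]
        exact ⟨hub, hua⟩
    let φ : MulAut M :=
      { toFun := fun m => ⟨g * m * g⁻¹, hconjM g hga hgb m m.2⟩
        invFun := fun m => ⟨g⁻¹ * m * g, by
          have := hconjM g⁻¹ (inv_smul_eq_iff.mpr hga.symm) (inv_smul_eq_iff.mpr hgb.symm) m m.2
          rwa [inv_inv] at this⟩
        left_inv := fun m => by
          apply Subtype.ext
          change g⁻¹ * (g * m * g⁻¹) * g = m
          group
        right_inv := fun m => by
          apply Subtype.ext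
          change g * (g⁻¹ * m * g) * g⁻¹ = m
          group
        map_mul' := fun m m' => by
          apply Subtype.ext
          change g * (m * m') * g⁻¹ = (g * m * g⁻¹) * (g * m' * g⁻¹)
          group }
    obtain ⟨m, hm⟩ := exists_smul_eq M P (φ • P)
    refine ⟨m, m.2, ?_⟩
    have h1 : (m : G)⁻¹ • x = c := by
      apply huniq
      rintro _ ⟨p, hp, rfl⟩
      have h2 : MulAut.conj m • p ∈ MulAut.conj m • (P : Subgroup M) :=
        Subgroup.smul_mem_pointwise_smul p _ _ hp
      rw [← Sylow.coe_subgroup_smul, hm, Sylow.pointwise_smul_def,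
        Subgroup.mem_smul_pointwise_iff_exists] at h2
      obtain ⟨p', hp', hpp⟩ := h2
      have h4 : g * (p' : G) * g⁻¹ = m * p * (m : G)⁻¹ := congrArg Subtype.val hpp
      have h5 : (p' : G) • c = c := hc' _ ⟨p', hp', rfl⟩
      have h6 : ((m : G) * p * (m : G)⁻¹) • x = x := by
        rw [← h4, mul_smul, mul_smul, ← hgc, inv_smul_smul, h5]
      change (p : G) • (m : G)⁻¹ • x = (m : G)⁻¹ • x
      rw [mul_smul, mul_smul] at h6
      rw [eq_inv_smul_iff]
      exact h6
    rw [inv_smul_eq_iff] at h1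
    exact h1.symm
  have hSttrans : ∀ x : X, x ≠ a → x ≠ b → ∃ h ∈ St a b, h • c = x := by
    intro x hxa hxb
    obtain ⟨m, hm, hmc⟩ := hMtrans x hxa hxb
    rcases hm.2 with h | ⟨m1, m2⟩
    · exact ⟨m, (hStmem _ _ _).mpr ⟨hm.1, h⟩, hmc⟩
    · refine ⟨m * t₀, (hStmem _ _ _).mpr ⟨N.mul_mem hm.1 (hP'M ht₀P).1, ?_, ?_⟩, ?_⟩
      · rw [mul_smul, ht₀a, m2]
      · rw [mul_smul, ht₀b, m1]
      · rw [mul_smul, hc' t₀ ht₀P, hmc]
  -- conclusion
  have hs : ({a, b} : Set X).ncard = 2 := Set.ncard_pair hab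
  apply Cfsg.Agent.S0712.mt_of_fixing 2 1 {a, b} hs hN2
  rw [is_one_pretransitive_iff]
  have hlift : ∀ x : ofFixingSubgroup N ({a, b} : Set X), ∃ k : fixingSubgroup N ({a, b} : Set X),
      ((k : N) : G) • c = x := by
    intro x
    have hx := x.2
    rw [mem_ofFixingSubgroup_iff] at hx
    simp only [Set.mem_insert_iff, Set.mem_singleton_iff, not_or] at hx
    obtain ⟨h, hh, hhc⟩ := hSttrans x hx.1 hx.2
    rw [hStmem] at hh
    refine ⟨⟨⟨h, hh.1⟩, ?_⟩, hhc⟩
    rw [mem_fixingSubgroup_iff]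
    intro y hy
    rcases hy with rfl | rfl
    · exact hh.2.1
    · exact hh.2.2
  refine ⟨fun x y => ?_⟩
  obtain ⟨k, hk⟩ := hlift x
  obtain ⟨l, hl⟩ := hlift y
  refine ⟨l * k⁻¹, ?_⟩
  apply Subtype.ext
  change (((l * k⁻¹ : fixingSubgroup N ({a, b} : Set X)) : N) : G) • (x : X) = y
  rw [← hk, ← hl]
  simp only [Subgroup.coe_mul, Subgroup.coe_inv, mul_smul, inv_smul_smul]


/-- Wagner's Theorem: a non-trivial normal subgroup of a triply transitive permutation group of odd degree at least 5 is triply transitive. -/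
theorem result {α : Type*} [Fintype α] [DecidableEq α] (G : Subgroup (Equiv.Perm α)) (hodd : Odd (Fintype.card α)) (h5 : 5 ≤ Fintype.card α) (hG : MulAction.IsMultiplyPretransitive G α 3) (N : Subgroup G) [N.Normal] (hN : N ≠ ⊥) : MulAction.IsMultiplyPretransitive N α 3 := by
  have hcard : Nat.card α = Fintype.card α := Nat.card_eq_fintype_card
  rcases Cfsg.Agent.S0698.jordan 1 G α (by rw [hcard]; omega) hG N hN with h | ⟨-, hc, hs⟩
  · exact wagner_core (by rw [hcard]; exact hodd) hG N h (by rw [hcard]; omega)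
  · exfalso
    have h2 : IsMultiplyPretransitive G α 2 :=
      isMultiplyPretransitive_of_le (n := 3) (by omega) (by rw [hcard]; omega)
    have hprim : IsPreprimitive G α := isPreprimitive_of_is_two_pretransitive h2
    haveI hNt : IsPretransitive N α := normal_trans hprim N hN
    have hreg : ∀ y : α, stabilizer N y = ⊥ := fun y =>
      abelian_reg (G := N) (fun (x y : N) => Subtype.ext (hc x x.2 y y.2)) y
    haveI : Nonempty α := Fintype.card_pos_iff.mp (by omega)
    obtain ⟨a⟩ : Nonempty α := inferInstance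
    have hbij : Function.Bijective (fun n : N => n • a) := by
      constructor
      · intro n n' h
        have h1 : (n'⁻¹ * n) ∈ stabilizer N a := by
          rw [mem_stabilizer_iff, mul_smul, inv_smul_eq_iff]
          exact h
        rw [hreg a, Subgroup.mem_bot] at h1
        exact (inv_mul_eq_one.mp h1).symm
      · intro x
        exact exists_smul_eq N a x
    haveI : Fact (Nat.Prime 2) := ⟨Nat.prime_two⟩
    have hPG : IsPGroup 2 N := by
      intro n
      exact ⟨1, by rw [pow_one, pow_two]; exact Subtype.ext (hs n n.2)⟩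
    obtain ⟨m, hm⟩ := IsPGroup.iff_card.mp hPG
    have h5 : Nat.card N = Nat.card α := Nat.card_congr (Equiv.ofBijective _ hbij)
    rw [hm, hcard] at h5
    rcases m with _ | m
    · rw [pow_zero] at h5; omega
    · rw [← h5, pow_succ] at hodd
      exact (Nat.not_odd_iff_even.mpr (Even.mul_left even_two _)) hodd

end Cfsg.Agent.S0699
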