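import Cfsg.Statements.S0701
-- import your own Cfsg.Agent.* helpers here

set_option autoImplicit false
open Cfsg

namespace Cfsg.Agent.S0701

/-- The centraliser in the full symmetric group of a transitive permutation group `G` is semiregular, and it is transitive if and only if `G` is regular. -/
theorem result {α : Type*} (G : Subgroup (Equiv.Perm α)) [MulAction.IsPretransitive G α] : (∀ c ∈ Subgroup.centralizer (G : Set (Equiv.Perm α)), ∀ a : α, c a = a → c = 1) ∧ (MulAction.IsPretransitive (Subgroup.centralizer (G : Set (Equiv.Perm α))) α ↔ ∀ a : α, MulAction.stabilizer G a = ⊥) := by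
  have hcomm : ∀ c ∈ Subgroup.centralizer (G : Set (Equiv.Perm α)), ∀ g ∈ G, ∀ x : α, c (g x) = g (c x) := by
    intro c hc g hg x
    have := (Subgroup.mem_centralizer_iff.mp hc) g hg
    have h2 := congrArg (fun f : Equiv.Perm α => f x) this
    simpa using h2.symm
  refine ⟨?_, ?_, ?_⟩
  · intro c hc a hca
    ext b
    obtain ⟨g, rfl⟩ := MulAction.exists_smul_eq G a b
    change c ((g : Equiv.Perm α) a) = (g : Equiv.Perm α) a
    rw [hcomm c hc g g.2, hca]
  · intro ht a
    rw [eq_bot_iff]
    intro g hg
    rw [Subgroup.mem_bot]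
    ext b
    obtain ⟨c, rfl⟩ := MulAction.exists_smul_eq (Subgroup.centralizer (G : Set (Equiv.Perm α))) a b
    change (g : Equiv.Perm α) ((c : Equiv.Perm α) a) = (c : Equiv.Perm α) a
    rw [← hcomm c c.2 g g.2]
    congr 1
  · intro hreg
    refine ⟨fun a b => ?_⟩
    have hbij : ∀ a : α, Function.Bijective (fun g : G => g • a) := by
      intro a
      refine ⟨?_, fun b => MulAction.exists_smul_eq G a b⟩
      intro g h hgh
      have : h⁻¹ * g ∈ MulAction.stabilizer G a := by
        rw [MulAction.mem_stabilizer_iff, mul_smul]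
        simp only at hgh
        rw [hgh, inv_smul_smul]
      rw [hreg a, Subgroup.mem_bot] at this
      exact (inv_mul_eq_one.mp this).symm
    let ea := Equiv.ofBijective _ (hbij a)
    let eb := Equiv.ofBijective _ (hbij b)
    have hea : ∀ g : G, ea g = g • a := fun g => rfl
    have heb : ∀ g : G, eb g = g • b := fun g => rfl
    let c : Equiv.Perm α := ea.symm.trans eb
    have hc : c ∈ Subgroup.centralizer (G : Set (Equiv.Perm α)) := by
      rw [Subgroup.mem_centralizer_iff]
      intro h hh
      ext x
      obtain ⟨g, rfl⟩ := ea.surjective x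
      have h1 : h (ea g) = ea (⟨h, hh⟩ * g) := by
        rw [hea, hea, mul_smul]; rfl
      simp only [Equiv.Perm.coe_mul, Function.comp_apply]
      rw [h1]
      simp only [c, Equiv.trans_apply, Equiv.symm_apply_apply]
      rw [heb, heb, mul_smul]; rfl
    refine ⟨⟨c, hc⟩, ?_⟩
    change c a = b
    have : a = ea 1 := by rw [hea, one_smul]
    rw [this]
    simp only [c, Equiv.trans_apply, Equiv.symm_apply_apply]
    rw [heb, one_smul]

end Cfsg.Agent.S0701
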