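import Cfsg.Statements.S0702
import Mathlib
-- import your own Cfsg.Agent.* helpers here

set_option autoImplicit false
open Cfsg

namespace Cfsg.Agent.S0702

theorem mem_norm_of_conj_le {G : Type*} [Group G] (H : Subgroup G) [Finite H] (g : G)
    (h : ∀ x ∈ H, g * x * g⁻¹ ∈ H) : g ∈ Subgroup.normalizer (H : Set G) := by
  have hle : H.map (MulAut.conj g).toMonoidHom ≤ H := by
    rintro _ ⟨x, hx, rfl⟩
    exact h x hx
  have hcard : Nat.card (H.map (MulAut.conj g).toMonoidHom) = Nat.card H :=
    Subgroup.card_map_of_injective (MulAut.conj g).injective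
  have heq : H.map (MulAut.conj g).toMonoidHom = H := Subgroup.eq_of_le_of_card_ge hle hcard.ge
  rw [Subgroup.mem_normalizer_iff]
  intro x
  refine ⟨h x, fun hx => ?_⟩
  rw [← heq] at hx
  obtain ⟨y, hy, hyx⟩ := hx
  have : y = x := (MulAut.conj g).injective hyx
  exact this ▸ hy


/-- For a transitive permutation group `G` on a finite set, the centraliser of `G` in the symmetric group is isomorphic to `N_G(G_ω)/G_ω`, and its orbit of `ω` is the set of fixed points of `G_ω`. -/
theorem result {α : Type*} [Finite α] (G : Subgroup (Equiv.Perm α)) [MulAction.IsPretransitive G α] (a : α) : Nonempty (Subgroup.centralizer (G : Set (Equiv.Perm α)) ≃* Subgroup.normalizer ((MulAction.stabilizer G a : Subgroup G) : Set G) ⧸ (MulAction.stabilizer G a).subgroupOf (Subgroup.normalizer ((MulAction.stabilizer G a : Subgroup G) : Set G))) ∧ MulAction.orbit (Subgroup.centralizer (G : Set (Equiv.Perm α))) a = MulAction.fixedPoints (MulAction.stabilizer G a) α := by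
  classical
  set H := MulAction.stabilizer G a with hH
  set N := Subgroup.normalizer (H : Set G) with hN
  have hsurj : ∀ x : α, ∃ g : G, g • a = x := fun x => MulAction.exists_smul_eq G a x
  let cf : G → α → α := fun n x => (Classical.choose (hsurj x)) • (n⁻¹ • a)
  have hcf : ∀ n ∈ N, ∀ g : G, cf n (g • a) = g • n⁻¹ • a := by
    intro n hn g
    have hs := Classical.choose_spec (hsurj (g • a))
    show (Classical.choose (hsurj (g • a))) • n⁻¹ • a = g • n⁻¹ • a
    generalize Classical.choose (hsurj (g • a)) = g' at hs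
    have h1 : g⁻¹ * g' ∈ H := by
      rw [hH, MulAction.mem_stabilizer_iff, mul_smul, hs, inv_smul_smul]
    have h2 := (Subgroup.mem_normalizer_iff.mp hn _).mp h1
    rw [hH, MulAction.mem_stabilizer_iff] at h2
    have h3 : g' • n⁻¹ • a = g • n⁻¹ • ((n * (g⁻¹ * g') * n⁻¹) • a) := by
      simp only [← mul_smul]; congr 1; group
    rw [h3, h2]
  let cp : N → Equiv.Perm α := fun n =>
    { toFun := cf n.1
      invFun := cf n.1⁻¹
      left_inv := by
        intro x
        obtain ⟨g, rfl⟩ := hsurj x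
        rw [hcf n.1 n.2, ← mul_smul, hcf n.1⁻¹ (N.inv_mem n.2), inv_inv, ← mul_smul]
        simp
      right_inv := by
        intro x
        obtain ⟨g, rfl⟩ := hsurj x
        rw [hcf n.1⁻¹ (N.inv_mem n.2), ← mul_smul, hcf n.1 n.2, inv_inv, ← mul_smul]
        simp }
  have hcp : ∀ (n : N) (g : G), cp n (g • a) = g • (n.1)⁻¹ • a := fun n g => hcf n.1 n.2 g
  have hcent : ∀ n : N, cp n ∈ Subgroup.centralizer (G : Set (Equiv.Perm α)) := by
    intro n
    rw [Subgroup.mem_centralizer_iff]
    intro h hh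
    ext x
    obtain ⟨g, rfl⟩ := hsurj x
    show h (cp n (g • a)) = cp n ((⟨h, hh⟩ : G) • g • a)
    rw [← mul_smul, hcp, hcp, mul_smul]
    rfl
  let φ : N →* Subgroup.centralizer (G : Set (Equiv.Perm α)) :=
    MonoidHom.mk' (fun n => ⟨cp n, hcent n⟩) (by
      intro n m
      apply Subtype.ext
      ext x
      obtain ⟨g, rfl⟩ := hsurj x
      show cp (n * m) (g • a) = cp n (cp m (g • a))
      rw [hcp, hcp, ← mul_smul g (m.1)⁻¹ a, hcp]
      simp [mul_smul])
  have hφ : ∀ n : N, ((φ n : Subgroup.centralizer (G : Set (Equiv.Perm α))) : Equiv.Perm α) = cp n := fun n => rfl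
  -- commuting property
  have hcomm : ∀ c ∈ Subgroup.centralizer (G : Set (Equiv.Perm α)), ∀ (g : G) (x : α), c (g • x) = g • c x := by
    intro c hc g x
    have := Subgroup.mem_centralizer_iff.mp hc g.1 g.2
    exact (congrArg (fun f : Equiv.Perm α => f x) this).symm
  -- fixed points give normalizer elements
  have hfixN : ∀ n' : G, (∀ h ∈ H, h • n' • a = n' • a) → n'⁻¹ ∈ N := by
    intro n' hn'
    apply mem_norm_of_conj_le
    intro h hh
    rw [hH, MulAction.mem_stabilizer_iff, inv_inv, mul_smul, mul_smul, hn' h hh, inv_smul_smul]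
  have hφsurj : Function.Surjective φ := by
    rintro ⟨c, hc⟩
    obtain ⟨n', hn'⟩ := hsurj (c a)
    have hnN : n'⁻¹ ∈ N := by
      apply hfixN
      intro h hh
      rw [hn', ← hcomm c hc, MulAction.mem_stabilizer_iff.mp hh]
    refine ⟨⟨n'⁻¹, hnN⟩, ?_⟩
    apply Subtype.ext
    rw [hφ]
    ext x
    obtain ⟨g, rfl⟩ := hsurj x
    rw [hcp, hcomm c hc, ← hn']
    simp
  have hker : φ.ker = H.subgroupOf N := by
    ext n
    rw [MonoidHom.mem_ker, Subgroup.mem_subgroupOf, hH, MulAction.mem_stabilizer_iff]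
    constructor
    · intro h
      have h1 : cp n ((1 : G) • a) = (1 : G) • a := by
        rw [← hφ, h]; rfl
      rw [hcp, one_smul, one_smul] at h1
      rw [inv_smul_eq_iff] at h1
      exact h1.symm
    · intro h
      apply Subtype.ext
      rw [hφ]
      ext x
      obtain ⟨g, rfl⟩ := hsurj x
      rw [hcp]
      have : (n.1)⁻¹ • a = a := by rw [inv_smul_eq_iff]; exact h.symm
      rw [this]
      rfl
  constructor
  · exact ⟨((QuotientGroup.quotientMulEquivOfEq hker).symm.trans
      (QuotientGroup.quotientKerEquivOfSurjective φ hφsurj)).symm⟩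
  · ext x
    constructor
    · rintro ⟨c, rfl⟩ h
      show h.1 • (c.1 a) = c.1 a
      rw [← hcomm c.1 c.2, MulAction.mem_stabilizer_iff.mp h.2]
    · intro hx
      obtain ⟨n', rfl⟩ := hsurj x
      have hnN : n'⁻¹ ∈ N := hfixN n' (fun h hh => hx ⟨h, hh⟩)
      refine ⟨φ ⟨n'⁻¹, hnN⟩, ?_⟩
      show cp ⟨n'⁻¹, hnN⟩ a = n' • a
      have := hcp ⟨n'⁻¹, hnN⟩ 1
      rw [one_smul, one_smul] at this
      rw [this]
      simp

end Cfsg.Agent.S0702
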