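import Cfsg.Statements.S0703
import Mathlib
-- import your own Cfsg.Agent.* helpers here

set_option autoImplicit false
open Cfsg

namespace Cfsg.Agent.S0703

theorem semireg {α : Type*} (K : Subgroup (Equiv.Perm α)) (hK : MulAction.IsPretransitive K α)
    (c : Equiv.Perm α) (hc : c ∈ Subgroup.centralizer (K : Set (Equiv.Perm α))) (a : α) (hca : c a = a) : c = 1 := by
  ext b
  obtain ⟨g, rfl⟩ := MulAction.exists_smul_eq K a b
  change c ((g : Equiv.Perm α) a) = (g : Equiv.Perm α) a
  have := (Subgroup.mem_centralizer_iff.mp hc) g g.2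
  have h2 := congrArg (fun f : Equiv.Perm α => f a) this
  simp only [Equiv.Perm.coe_mul, Function.comp_apply] at h2
  rw [← h2, hca]

theorem trans_map {α : Type*} (G : Subgroup (Equiv.Perm α)) (M : Subgroup G) (h : MulAction.IsPretransitive M α) :
    MulAction.IsPretransitive (M.map G.subtype) α := by
  refine ⟨fun a b => ?_⟩
  obtain ⟨m, hm⟩ := h.exists_smul_eq a b
  exact ⟨⟨(m : G), Subgroup.mem_map_of_mem _ m.2⟩, hm⟩

/-- a transitive subgroup of the (semiregular) centraliser of a transitive group is the whole centraliser -/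
theorem cent_eq {α : Type*} (K N : Subgroup (Equiv.Perm α)) (hK : MulAction.IsPretransitive K α)
    (hN : MulAction.IsPretransitive N α) (hle : N ≤ Subgroup.centralizer (K : Set (Equiv.Perm α))) [Nonempty α] :
    Subgroup.centralizer (K : Set (Equiv.Perm α)) = N := by
  apply le_antisymm _ hle
  intro c hc
  obtain ⟨a⟩ := ‹Nonempty α›
  obtain ⟨n, hn⟩ := hN.exists_smul_eq a (c a)
  have hn' : (n : Equiv.Perm α) a = c a := hn
  have h1 : (n : Equiv.Perm α)⁻¹ * c = 1 := by
    apply semireg K hK _ (Subgroup.mul_mem _ (Subgroup.inv_mem _ (hle n.2)) hc) a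
    simp [← hn']
  have : c = n := by
    rw [inv_mul_eq_one] at h1; exact h1.symm
  rw [this]; exact n.2

theorem inf_bot_of_min {G : Type*} [Group G] (M L : Subgroup G) [M.Normal] (hLn : L.Normal)
    (hMmin : ∀ L : Subgroup G, L.Normal → L ≤ M → L = ⊥ ∨ L = M)
    (hL : L ≠ ⊥) (hLmin : ∀ L' : Subgroup G, L'.Normal → L' ≤ L → L' = ⊥ ∨ L' = L) (hne : L ≠ M) : L ⊓ M = ⊥ := by
  have hn : (L ⊓ M).Normal := inferInstance
  rcases hLmin _ hn inf_le_left with h | h
  · exact h
  · exfalso
    have hle : L ≤ M := by rw [← h]; exact inf_le_right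
    rcases hMmin L hLn hle with h' | h'
    · exact hL h'
    · exact hne h'

theorem map_le_cent {α : Type*} (G : Subgroup (Equiv.Perm α)) (M L : Subgroup G) [M.Normal] [L.Normal] (h : L ⊓ M = ⊥) :
    L.map G.subtype ≤ Subgroup.centralizer ((M.map G.subtype : Subgroup (Equiv.Perm α)) : Set (Equiv.Perm α)) := by
  have hcomm : ∀ l ∈ L, ∀ m ∈ M, m * l = l * m := by
    intro l hl m hm
    have h1 : m * l * m⁻¹ * l⁻¹ ∈ L ⊓ M := by
      constructor
      · exact L.mul_mem (‹L.Normal›.conj_mem l hl m) (L.inv_mem hl)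
      · have : m * l * m⁻¹ * l⁻¹ = m * (l * m⁻¹ * l⁻¹) := by group
        rw [this]
        exact M.mul_mem hm (‹M.Normal›.conj_mem _ (M.inv_mem hm) l)
    rw [h, Subgroup.mem_bot] at h1
    have : m * l = (m * l * m⁻¹ * l⁻¹) * (l * m) := by group
    rw [this, h1, one_mul]
  rintro _ ⟨l, hl, rfl⟩
  rw [Subgroup.mem_centralizer_iff]
  rintro _ ⟨m, hm, rfl⟩
  have := hcomm l hl m hm
  exact congrArg Subtype.val this


/-- An abelian transitive minimal normal subgroup `M` of a permutation group on a finite set is self-centralising in the symmetric group, regular, elementary abelian, and is the unique minimal normal subgroup. -/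
theorem result {α : Type*} [Finite α] (G : Subgroup (Equiv.Perm α)) (M : Subgroup G) [M.Normal] (hM : M ≠ ⊥) (hmin : ∀ L : Subgroup G, L.Normal → L ≤ M → L = ⊥ ∨ L = M) (hab : IsMulCommutative M) (htrans : MulAction.IsPretransitive M α) : Subgroup.centralizer ((M.map G.subtype : Subgroup (Equiv.Perm α)) : Set (Equiv.Perm α)) = M.map G.subtype ∧ (∀ a : α, MulAction.stabilizer M a = ⊥) ∧ (∃ p : ℕ, p.Prime ∧ ∀ m ∈ M, m ^ p = 1) ∧ ∀ L : Subgroup G, L.Normal → L ≠ ⊥ → (∀ L' : Subgroup G, L'.Normal → L' ≤ L → L' = ⊥ ∨ L' = L) → L = M := by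
  classical
  have hne : Nonempty α := by
    by_contra hemp
    rw [not_nonempty_iff] at hemp
    apply hM
    rw [eq_bot_iff]
    intro m _
    rw [Subgroup.mem_bot]
    ext x
    exact hemp.elim x
  have hMt := trans_map G M htrans
  have hMc : M.map G.subtype ≤ Subgroup.centralizer ((M.map G.subtype : Subgroup (Equiv.Perm α)) : Set (Equiv.Perm α)) := by
    have : IsMulCommutative (M.map G.subtype) := inferInstance
    exact Subgroup.le_centralizer _
  have h1 := cent_eq _ _ hMt hMt hMc
  have h2 : ∀ a : α, MulAction.stabilizer M a = ⊥ := by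
    intro a
    rw [eq_bot_iff]
    intro m hm
    rw [Subgroup.mem_bot]
    have h3 : ((m : G) : Equiv.Perm α) = 1 := by
      apply semireg _ hMt _ (hMc (Subgroup.mem_map_of_mem _ m.2)) a
      exact hm
    ext x
    rw [h3]; rfl
  refine ⟨h1, h2, ?_, ?_⟩
  · -- exponent p
    have hnt : Nontrivial M := (Subgroup.nontrivial_iff_ne_bot M).mpr hM
    have hcard : Nat.card M ≠ 1 := by
      intro h
      have := (Nat.card_eq_one_iff_unique.mp h).1
      exact not_subsingleton M this
    obtain ⟨p, hp, hpd⟩ := Nat.exists_prime_and_dvd hcard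
    refine ⟨p, hp, ?_⟩
    haveI := Fact.mk hp
    obtain ⟨x, hx⟩ := exists_prime_orderOf_dvd_card' p hpd
    let L : Subgroup G :=
      { carrier := {g | g ∈ M ∧ g ^ p = 1}
        mul_mem' := by
          rintro a b ⟨ha, ha'⟩ ⟨hb, hb'⟩
          refine ⟨M.mul_mem ha hb, ?_⟩
          have hc : Commute a b := setLike_mul_comm ha hb
          rw [hc.mul_pow, ha', hb', one_mul]
        one_mem' := ⟨M.one_mem, one_pow _⟩
        inv_mem' := by
          rintro a ⟨ha, ha'⟩
          exact ⟨M.inv_mem ha, by rw [inv_pow, ha', inv_one]⟩ }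
    have hLn : L.Normal := by
      refine ⟨fun n hn g => ⟨‹M.Normal›.conj_mem n hn.1 g, ?_⟩⟩
      rw [conj_pow, hn.2]; simp
    have hLM : L ≤ M := fun g hg => hg.1
    rcases hmin L hLn hLM with h | h
    · exfalso
      have hxL : (x : G) ∈ L := by
        refine ⟨x.2, ?_⟩
        have := pow_orderOf_eq_one x
        rw [hx] at this
        exact_mod_cast congrArg Subtype.val this
      rw [h, Subgroup.mem_bot] at hxL
      have : x = 1 := Subtype.ext hxL
      rw [this, orderOf_one] at hx
      exact hp.one_lt.ne hx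
    · intro m hm
      have : m ∈ L := h ▸ hm
      exact this.2
  · intro L hLn hL hLmin
    by_contra hne'
    have hinf := inf_bot_of_min M L hLn hmin hL hLmin hne'
    haveI := hLn
    have h3 := map_le_cent G M L hinf
    rw [h1] at h3
    have hLM : L ≤ M := by
      intro l hl
      obtain ⟨m, hm, hml⟩ := h3 (Subgroup.mem_map_of_mem _ hl)
      have : m = l := Subtype.ext hml
      rw [← this]; exact hm
    apply hL
    rw [← hinf]
    exact (inf_eq_left.mpr hLM).symm

end Cfsg.Agent.S0703
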