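import Cfsg.Statements.S0704
import Mathlib
-- import your own Cfsg.Agent.* helpers here

set_option autoImplicit false
open Cfsg

namespace Cfsg.Agent.S0704

theorem semireg {α : Type*} (K : Subgroup (Equiv.Perm α)) (hK : MulAction.IsPretransitive K α)
    (c : Equiv.Perm α) (hc : c ∈ Subgroup.centralizer (K : Set (Equiv.Perm α))) (a : α) (hca : c a = a) : c = 1 := by
  ext b
  obtain ⟨g, rfl⟩ := MulAction.exists_smul_eq K a b
  change c ((g : Equiv.Perm α) a) = (g : Equiv.Perm α) a
  have := (Subgroup.mem_centralizer_iff.mp hc) g g.2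
  have h2 := congrArg (fun f : Equiv.Perm α => f a) this
  simp only [Equiv.Perm.coe_mul, Function.comp_apply] at h2
  rw [← h2, hca]

theorem trans_map {α : Type*} (G : Subgroup (Equiv.Perm α)) (M : Subgroup G) (h : MulAction.IsPretransitive M α) :
    MulAction.IsPretransitive (M.map G.subtype) α := by
  refine ⟨fun a b => ?_⟩
  obtain ⟨m, hm⟩ := h.exists_smul_eq a b
  exact ⟨⟨(m : G), Subgroup.mem_map_of_mem _ m.2⟩, hm⟩

/-- a transitive subgroup of the (semiregular) centraliser of a transitive group is the whole centraliser -/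
theorem cent_eq {α : Type*} (K N : Subgroup (Equiv.Perm α)) (hK : MulAction.IsPretransitive K α)
    (hN : MulAction.IsPretransitive N α) (hle : N ≤ Subgroup.centralizer (K : Set (Equiv.Perm α))) [Nonempty α] :
    Subgroup.centralizer (K : Set (Equiv.Perm α)) = N := by
  apply le_antisymm _ hle
  intro c hc
  obtain ⟨a⟩ := ‹Nonempty α›
  obtain ⟨n, hn⟩ := hN.exists_smul_eq a (c a)
  have hn' : (n : Equiv.Perm α) a = c a := hn
  have h1 : (n : Equiv.Perm α)⁻¹ * c = 1 := by
    apply semireg K hK _ (Subgroup.mul_mem _ (Subgroup.inv_mem _ (hle n.2)) hc) a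
    simp [← hn']
  have : c = n := by
    rw [inv_mul_eq_one] at h1; exact h1.symm
  rw [this]; exact n.2

theorem inf_bot_of_min {G : Type*} [Group G] (M L : Subgroup G) [M.Normal] (hLn : L.Normal)
    (hMmin : ∀ L : Subgroup G, L.Normal → L ≤ M → L = ⊥ ∨ L = M)
    (hL : L ≠ ⊥) (hLmin : ∀ L' : Subgroup G, L'.Normal → L' ≤ L → L' = ⊥ ∨ L' = L) (hne : L ≠ M) : L ⊓ M = ⊥ := by
  have hn : (L ⊓ M).Normal := inferInstance
  rcases hLmin _ hn inf_le_left with h | h
  · exact h
  · exfalso
    have hle : L ≤ M := by rw [← h]; exact inf_le_right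
    rcases hMmin L hLn hle with h' | h'
    · exact hL h'
    · exact hne h'

theorem map_le_cent {α : Type*} (G : Subgroup (Equiv.Perm α)) (M L : Subgroup G) [M.Normal] [L.Normal] (h : L ⊓ M = ⊥) :
    L.map G.subtype ≤ Subgroup.centralizer ((M.map G.subtype : Subgroup (Equiv.Perm α)) : Set (Equiv.Perm α)) := by
  have hcomm : ∀ l ∈ L, ∀ m ∈ M, m * l = l * m := by
    intro l hl m hm
    have h1 : m * l * m⁻¹ * l⁻¹ ∈ L ⊓ M := by
      constructor
      · exact L.mul_mem (‹L.Normal›.conj_mem l hl m) (L.inv_mem hl)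
      · have : m * l * m⁻¹ * l⁻¹ = m * (l * m⁻¹ * l⁻¹) := by group
        rw [this]
        exact M.mul_mem hm (‹M.Normal›.conj_mem _ (M.inv_mem hm) l)
    rw [h, Subgroup.mem_bot] at h1
    have : m * l = (m * l * m⁻¹ * l⁻¹) * (l * m) := by group
    rw [this, h1, one_mul]
  rintro _ ⟨l, hl, rfl⟩
  rw [Subgroup.mem_centralizer_iff]
  rintro _ ⟨m, hm, rfl⟩
  have := hcomm l hl m hm
  exact congrArg Subtype.val this


/-- Two distinct transitive minimal normal subgroups `M`, `N` of a permutation group are regular, non-abelian, isomorphic, each other's centraliser in the symmetric group, and the only minimal normal subgroups. -/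
theorem result {α : Type*} (G : Subgroup (Equiv.Perm α)) (M N : Subgroup G) [M.Normal] [N.Normal] (hM : M ≠ ⊥) (hN : N ≠ ⊥) (hMmin : ∀ L : Subgroup G, L.Normal → L ≤ M → L = ⊥ ∨ L = M) (hNmin : ∀ L : Subgroup G, L.Normal → L ≤ N → L = ⊥ ∨ L = N) (hMN : M ≠ N) (hMt : MulAction.IsPretransitive M α) (hNt : MulAction.IsPretransitive N α) : (∀ a : α, MulAction.stabilizer M a = ⊥) ∧ (∀ a : α, MulAction.stabilizer N a = ⊥) ∧ ¬ IsMulCommutative M ∧ Nonempty (M ≃* N) ∧ Subgroup.centralizer ((M.map G.subtype : Subgroup (Equiv.Perm α)) : Set (Equiv.Perm α)) = N.map G.subtype ∧ Subgroup.centralizer ((N.map G.subtype : Subgroup (Equiv.Perm α)) : Set (Equiv.Perm α)) = M.map G.subtype ∧ ∀ L : Subgroup G, L.Normal → L ≠ ⊥ → (∀ L' : Subgroup G, L'.Normal → L' ≤ L → L' = ⊥ ∨ L' = L) → L = M ∨ L = N := by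
  classical
  have hne : Nonempty α := by
    by_contra hemp
    rw [not_nonempty_iff] at hemp
    apply hM
    rw [eq_bot_iff]
    intro m _
    rw [Subgroup.mem_bot]
    ext x
    exact hemp.elim x
  have hMt' := trans_map G M hMt
  have hNt' := trans_map G N hNt
  have hinf : N ⊓ M = ⊥ := inf_bot_of_min M N inferInstance hMmin hN hNmin (Ne.symm hMN)
  have hinf' : M ⊓ N = ⊥ := by rw [inf_comm]; exact hinf
  have hNc := map_le_cent G M N hinf
  have hMc := map_le_cent G N M hinf'
  have hCM := cent_eq _ _ hMt' hNt' hNc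
  have hCN := cent_eq _ _ hNt' hMt' hMc
  have hregM : ∀ a : α, MulAction.stabilizer M a = ⊥ := by
    intro a
    rw [eq_bot_iff]
    intro m hm
    rw [Subgroup.mem_bot]
    have h3 : ((m : G) : Equiv.Perm α) = 1 := by
      apply semireg _ hNt' _ (hMc (Subgroup.mem_map_of_mem _ m.2)) a
      exact hm
    ext x
    rw [h3]; rfl
  have hregN : ∀ a : α, MulAction.stabilizer N a = ⊥ := by
    intro a
    rw [eq_bot_iff]
    intro m hm
    rw [Subgroup.mem_bot]
    have h3 : ((m : G) : Equiv.Perm α) = 1 := by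
      apply semireg _ hMt' _ (hNc (Subgroup.mem_map_of_mem _ m.2)) a
      exact hm
    ext x
    rw [h3]; rfl
  have hle_of_map : ∀ L K : Subgroup G, L.map G.subtype ≤ K.map G.subtype → L ≤ K := by
    intro L K h l hl
    obtain ⟨m, hm, hml⟩ := h (Subgroup.mem_map_of_mem _ hl)
    have : m = l := Subtype.ext hml
    rw [← this]; exact hm
  refine ⟨hregM, hregN, ?_, ?_, hCM, hCN, ?_⟩
  · intro hab
    have : IsMulCommutative (M.map G.subtype) := inferInstance
    have h1 : M.map G.subtype ≤ Subgroup.centralizer ((M.map G.subtype : Subgroup (Equiv.Perm α)) : Set (Equiv.Perm α)) :=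
      Subgroup.le_centralizer _
    rw [hCM] at h1
    have hMN' : M ≤ N := hle_of_map M N h1
    apply hM
    rw [← hinf']
    exact (inf_eq_left.mpr hMN').symm
  · obtain ⟨a⟩ := hne
    have hbij : ∀ (K : Subgroup G), MulAction.IsPretransitive K α → (∀ a : α, MulAction.stabilizer K a = ⊥) →
        Function.Bijective (fun k : K => k • a) := by
      intro K hK hreg
      refine ⟨?_, fun c => hK.exists_smul_eq a c⟩
      intro k l hkl
      have : l⁻¹ * k ∈ MulAction.stabilizer K a := by
        rw [MulAction.mem_stabilizer_iff, mul_smul]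
        simp only at hkl
        rw [hkl, inv_smul_smul]
      rw [hreg a, Subgroup.mem_bot] at this
      exact (inv_mul_eq_one.mp this).symm
    let eM := Equiv.ofBijective _ (hbij M hMt hregM)
    let eN := Equiv.ofBijective _ (hbij N hNt hregN)
    have heM : ∀ m : M, eM m = m • a := fun _ => rfl
    have heN : ∀ n : N, eN n = n • a := fun _ => rfl
    -- φ m is the element of N with φ m • a = m • a
    let φ : M ≃ N := eM.trans eN.symm
    have hφ : ∀ m : M, φ m • a = m • a := by
      intro m
      rw [← heN, ← heM]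
      simp [φ]
    have hcomm : ∀ (m : M) (n : N) (x : α), m • n • x = n • m • x := by
      intro m n x
      have h1 := hNc (Subgroup.mem_map_of_mem G.subtype n.2)
      have h2 := (Subgroup.mem_centralizer_iff.mp h1) _ (Subgroup.mem_map_of_mem G.subtype m.2)
      exact congrArg (fun f : Equiv.Perm α => f x) h2
    have hanti : ∀ m₁ m₂ : M, φ (m₁ * m₂) = φ m₂ * φ m₁ := by
      intro m₁ m₂
      apply eN.injective
      rw [heN, heN, hφ, mul_smul, mul_smul, hφ, ← hφ m₂, hcomm]
    refine ⟨{ toFun := fun m => (φ m)⁻¹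
              invFun := fun n => φ.symm n⁻¹
              left_inv := fun m => by simp
              right_inv := fun n => by simp
              map_mul' := fun m₁ m₂ => by rw [hanti, mul_inv_rev] }⟩
  · intro L hLn hL hLmin
    by_contra hcon
    push Not at hcon
    have hinfL := inf_bot_of_min M L hLn hMmin hL hLmin hcon.1
    haveI := hLn
    have h3 := map_le_cent G M L hinfL
    rw [hCM] at h3
    have hLN : L ≤ N := hle_of_map L N h3
    rcases hNmin L hLn hLN with h | h
    · exact hL h
    · exact hcon.2 h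

end Cfsg.Agent.S0704
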