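import Cfsg.Statements.S0705
import Mathlib
-- import your own Cfsg.Agent.* helpers here

set_option autoImplicit false
open scoped Pointwise
open Cfsg

namespace Cfsg.Agent.S0705

/-- A generously `k`-transitive permutation group (every `(k+1)`-subset has its full symmetric group induced by the setwise stabiliser) of degree greater than `k` is `k`-transitive, and for a `k`-subset the setwise and pointwise stabilisers have the same orbits outside it. -/
theorem result {α : Type*} [Fintype α] [DecidableEq α] (G : Subgroup (Equiv.Perm α)) {k : ℕ} (hk : k < Fintype.card α) (hgen : ∀ s : Finset α, s.card = k + 1 → ∀ σ : Equiv.Perm ↥s, ∃ g ∈ G, ∀ x : ↥s, g (x : α) = σ x) : MulAction.IsMultiplyPretransitive G α k ∧ ∀ s : Finset α, s.card = k → ∀ a b : α, a ∉ s → b ∉ s → (∃ g ∈ G, g • s = s ∧ g a = b) → ∃ g ∈ G, (∀ x ∈ s, g x = x) ∧ g a = b := by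
  classical
  have ias : ∀ (g : Equiv.Perm α) (x : α), g⁻¹ (g x) = x := fun g x => Equiv.Perm.inv_eq_iff_eq.mpr rfl
  have ais : ∀ (g : Equiv.Perm α) (x : α), g (g⁻¹ x) = x := fun g x => (Equiv.eq_symm_apply g).mp rfl
  -- restriction helper
  have H : ∀ (f : Equiv.Perm α) (t : Finset α), t.card = k + 1 → (∀ x, f x ∈ t ↔ x ∈ t) →
      ∃ g ∈ G, ∀ x ∈ t, g x = f x := by
    intro f t ht hf
    obtain ⟨g, hg, hgx⟩ := hgen t ht (f.subtypePerm hf)
    refine ⟨g, hg, fun x hx => ?_⟩
    have := hgx ⟨x, hx⟩
    rw [Equiv.Perm.subtypePerm_apply] at this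
    exact this
  constructor
  · have stepA : ∀ (x : Fin k ↪ α) (u v : α), u ≠ v →
        ∃ g ∈ G, ∀ i, g (x i) = Equiv.swap u v (x i) := by
      intro x u v huv
      set I : Finset α := Finset.univ.map x with hI
      have hIc : I.card = k := by rw [hI, Finset.card_map, Finset.card_univ, Fintype.card_fin]
      have hxI : ∀ i, x i ∈ I := fun i => Finset.mem_map_of_mem x (Finset.mem_univ i)
      by_cases huv' : u ∉ I ∧ v ∉ I
      · refine ⟨1, G.one_mem, fun i => ?_⟩
        rw [Equiv.swap_apply_of_ne_of_ne, Equiv.Perm.one_apply]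
        · rintro rfl; exact huv'.1 (hxI i)
        · rintro rfl; exact huv'.2 (hxI i)
      · have hJ : (insert u (insert v I)).card ≤ k + 1 := by
          by_cases hu : u ∈ I
          · rw [Finset.insert_eq_of_mem (Finset.mem_insert_of_mem hu)]
            exact (Finset.card_insert_le _ _).trans (by rw [hIc])
          · have hv : v ∈ I := by
              by_contra hv
              exact huv' ⟨hu, hv⟩
            rw [Finset.insert_eq_of_mem hv]
            exact (Finset.card_insert_le _ _).trans (by rw [hIc])
        obtain ⟨t, hJt, -, ht⟩ := Finset.exists_subsuperset_card_eq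
          (Finset.subset_univ (insert u (insert v I))) hJ (by rw [Finset.card_univ]; omega)
        have hut : u ∈ t := hJt (Finset.mem_insert_self _ _)
        have hvt : v ∈ t := hJt (Finset.mem_insert_of_mem (Finset.mem_insert_self _ _))
        obtain ⟨g, hg, hgx⟩ := H (Equiv.swap u v) t ht (by
          intro y
          by_cases hyu : y = u
          · rw [hyu, Equiv.swap_apply_left]; exact ⟨fun _ => hut, fun _ => hvt⟩
          by_cases hyv : y = v
          · rw [hyv, Equiv.swap_apply_right]; exact ⟨fun _ => hvt, fun _ => hut⟩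
          rw [Equiv.swap_apply_of_ne_of_ne hyu hyv])
        exact ⟨g, hg, fun i => hgx _ (hJt (Finset.mem_insert_of_mem (Finset.mem_insert_of_mem (hxI i))))⟩
    have stepB : ∀ (τ : Equiv.Perm α) (x : Fin k ↪ α), ∃ g ∈ G, ∀ i, g (x i) = τ (x i) := by
      intro τ
      induction τ using Equiv.Perm.swap_induction_on with
      | one => exact fun x => ⟨1, G.one_mem, fun i => rfl⟩
      | swap_mul f u v huv ih =>
        intro x
        obtain ⟨g', hg', hgx'⟩ := ih x
        obtain ⟨g, hg, hgx⟩ := stepA (x.trans f.toEmbedding) u v huv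
        refine ⟨g * g', G.mul_mem hg hg', fun i => ?_⟩
        rw [Equiv.Perm.mul_apply, hgx', Equiv.Perm.mul_apply]
        exact hgx i
    refine ⟨fun x y => ?_⟩
    obtain ⟨τ, hτ⟩ := (Equiv.Perm.isMultiplyPretransitive α k).exists_smul_eq x y
    obtain ⟨g, hg, hgx⟩ := stepB τ x
    refine ⟨⟨g, hg⟩, ?_⟩
    ext i
    rw [← hτ]
    exact hgx i
  · rintro s hs a b ha hb ⟨g, hg, hgs, hgab⟩
    have hmem : ∀ y, g y ∈ s ↔ y ∈ s := by
      intro y
      have := Finset.smul_mem_smul_finset_iff (s := s) (b := y) g
      rw [hgs] at this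
      exact this
    have hmem' : ∀ y, g⁻¹ y ∈ s ↔ y ∈ s := by
      intro y
      rw [← hmem (g⁻¹ y), ais]
    have hga : g⁻¹ b = a := by rw [← hgab, ias]
    set f : Equiv.Perm α := Equiv.swap a b * g⁻¹ with hf
    have hfs : ∀ y ∈ s, f y = g⁻¹ y := by
      intro y hy
      have h1 := (hmem' y).2 hy
      rw [hf, Equiv.Perm.mul_apply, Equiv.swap_apply_of_ne_of_ne]
      · rintro h; exact ha (h ▸ h1)
      · rintro h; exact hb (h ▸ h1)
    have hfb : f b = b := by
      rw [hf, Equiv.Perm.mul_apply, hga, Equiv.swap_apply_left]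
    have hft : ∀ y, f y ∈ insert b s ↔ y ∈ insert b s := by
      intro y
      constructor
      · intro h
        rw [Finset.mem_insert] at h ⊢
        rcases h with h | h
        · left
          exact f.injective (h.trans hfb.symm)
        · right
          have h2 : f (g (f y)) = f y := by
            rw [hfs _ ((hmem _).2 h), ias]
          rw [← f.injective h2]
          exact (hmem _).2 h
      · intro h
        rw [Finset.mem_insert] at h ⊢
        rcases h with rfl | h
        · left; exact hfb
        · right; rw [hfs y h]; exact (hmem' y).2 h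
    obtain ⟨h, hh, hhx⟩ := H f (insert b s) (by rw [Finset.card_insert_of_notMem hb, hs]) hft
    refine ⟨h * g, G.mul_mem hh hg, ?_, ?_⟩
    · intro x hx
      have h1 : g x ∈ s := (hmem x).2 hx
      rw [Equiv.Perm.mul_apply, hhx _ (Finset.mem_insert_of_mem h1), hfs _ h1,
        ias]
    · rw [Equiv.Perm.mul_apply, hgab, hhx _ (Finset.mem_insert_self _ _), hfb]

end Cfsg.Agent.S0705
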