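import Cfsg.Statements.S0707
import Mathlib
-- import your own Cfsg.Agent.* helpers here

set_option autoImplicit false
open Cfsg

namespace Cfsg.Agent.S0707

/-- In a primitive permutation group, distinct points have distinct stabilisers unless the group is regular of prime degree. -/
theorem result {α : Type*} (G : Subgroup (Equiv.Perm α)) [MulAction.IsPreprimitive G α] (h : ¬ (Nat.card α).Prime ∨ ∃ a : α, MulAction.stabilizer G a ≠ ⊥) {a b : α} (hab : a ≠ b) : MulAction.stabilizer G a ≠ MulAction.stabilizer G b := by
  intro hstab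
  have : Nontrivial α := ⟨a, b, hab⟩
  have : MulAction.IsPretransitive G α := inferInstance
  have hco : IsCoatom (MulAction.stabilizer G a) := MulAction.IsPreprimitive.isCoatom_stabilizer_of_isPreprimitive G a
  obtain ⟨g, hg⟩ := MulAction.exists_smul_eq G a b
  have hgN : g ∈ Subgroup.normalizer ((MulAction.stabilizer G a : Subgroup G) : Set G) := by
    rw [Subgroup.mem_normalizer_iff_map_conj_eq]
    have := MulAction.stabilizer_smul_eq_stabilizer_map_conj g a
    rw [hg, ← hstab] at this
    exact this.symm
  have hgS : g ∉ MulAction.stabilizer G a := by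
    intro h
    rw [MulAction.mem_stabilizer_iff] at h
    exact hab (h.symm.trans hg)
  have hN : Subgroup.normalizer ((MulAction.stabilizer G a : Subgroup G) : Set G) = ⊤ := by
    apply hco.2
    exact lt_of_le_of_ne Subgroup.le_normalizer (fun h => hgS (h ▸ hgN))
  have hnormal : (MulAction.stabilizer G a).Normal := Subgroup.normalizer_eq_top_iff.mp hN
  have hall : ∀ c : α, MulAction.stabilizer G c = MulAction.stabilizer G a := by
    intro c
    obtain ⟨k, rfl⟩ := MulAction.exists_smul_eq G a c
    rw [MulAction.stabilizer_smul_eq_stabilizer_map_conj]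
    have hk : k ∈ Subgroup.normalizer ((MulAction.stabilizer G a : Subgroup G) : Set G) := hN ▸ Subgroup.mem_top k
    exact Subgroup.mem_normalizer_iff_map_conj_eq.mp hk
  have hbot : MulAction.stabilizer G a = ⊥ := by
    rw [eq_bot_iff]
    intro k hk
    rw [Subgroup.mem_bot]
    ext c
    have : k ∈ MulAction.stabilizer G c := by rw [hall c]; exact hk
    exact this
  have hallbot : ∀ c : α, MulAction.stabilizer G c = ⊥ := fun c => (hall c).trans hbot
  rw [hbot] at hco
  -- G has prime order
  have hg1 : g ≠ 1 := by
    rintro rfl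
    exact hgS (Subgroup.one_mem _)
  have hsub : ∀ K : Subgroup G, K = ⊥ ∨ K = ⊤ := by
    intro K
    by_cases hK : K = ⊥
    · exact Or.inl hK
    · exact Or.inr (hco.2 K (bot_lt_iff_ne_bot.mpr hK))
  have hz : Subgroup.zpowers g = ⊤ := by
    rcases hsub (Subgroup.zpowers g) with h | h
    · exact absurd (Subgroup.zpowers_eq_bot.mp h) hg1
    · exact h
  have hfin : IsOfFinOrder g := by
    rcases hsub (Subgroup.zpowers (g ^ 2)) with h | h
    · rw [Subgroup.zpowers_eq_bot] at h
      exact isOfFinOrder_iff_pow_eq_one.mpr ⟨2, by norm_num, h⟩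
    · have : g ∈ Subgroup.zpowers (g ^ 2) := h ▸ Subgroup.mem_top g
      obtain ⟨k, hk⟩ := Subgroup.mem_zpowers_iff.mp this
      rw [isOfFinOrder_iff_zpow_eq_one]
      refine ⟨2 * k - 1, by omega, ?_⟩
      rw [zpow_sub, zpow_mul, zpow_one]
      have : g ^ (2 : ℤ) = g ^ 2 := by norm_cast
      rw [this, hk, mul_inv_cancel]
  have hcard : Nat.card G = orderOf g := by
    rw [← Nat.card_zpowers, hz]
    exact (Nat.card_congr Subgroup.topEquiv.toEquiv).symm
  have hn1 : orderOf g ≠ 1 := by
    intro h
    exact hg1 (orderOf_eq_one_iff.mp h)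
  have hprime : (orderOf g).Prime := by
    set p := (orderOf g).minFac with hp
    have hpp : p.Prime := Nat.minFac_prime hn1
    have hpd : p ∣ orderOf g := Nat.minFac_dvd _
    rcases hsub (Subgroup.zpowers (g ^ p)) with h | h
    · rw [Subgroup.zpowers_eq_bot] at h
      have := orderOf_dvd_of_pow_eq_one h
      have h2 : orderOf g = p := Nat.dvd_antisymm this hpd
      rw [h2]; exact hpp
    · exfalso
      have h1 : Nat.card (Subgroup.zpowers (g ^ p)) = Nat.card G := by
        rw [h]; exact Nat.card_congr Subgroup.topEquiv.toEquiv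
      rw [Nat.card_zpowers, hcard, orderOf_pow_of_dvd hpp.ne_zero hpd] at h1
      have hpos : 0 < orderOf g := hfin.orderOf_pos
      have := Nat.div_lt_self hpos hpp.one_lt
      omega
  have hbij : Function.Bijective (fun k : G => k • a) := by
    refine ⟨?_, fun c => MulAction.exists_smul_eq G a c⟩
    intro k l hkl
    have : l⁻¹ * k ∈ MulAction.stabilizer G a := by
      rw [MulAction.mem_stabilizer_iff, mul_smul]
      simp only at hkl
      rw [hkl, inv_smul_smul]
    rw [hbot, Subgroup.mem_bot] at this
    exact (inv_mul_eq_one.mp this).symm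
  have hcα : Nat.card α = orderOf g := by
    rw [← hcard]
    exact (Nat.card_congr (Equiv.ofBijective _ hbij)).symm
  rcases h with h | ⟨c, hc⟩
  · exact h (hcα ▸ hprime)
  · exact hc (hallbot c)

end Cfsg.Agent.S0707
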