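import Cfsg.Statements.S0709
import Mathlib
-- import your own Cfsg.Agent.* helpers here

set_option autoImplicit false
open Cfsg

namespace Cfsg.Agent.S0709

theorem ext1 {α : Type*} (Γ : Subgroup (Equiv.Perm α)) (Ω : Set α) (x y : α)
    (hpres : ∀ f ∈ Γ, ∀ u ∈ Ω, f u ∈ Ω)
    (T2 : ∀ u1 u2 v1 v2 : α, u1 ∈ Ω → u2 ∈ Ω → v1 ∈ Ω → v2 ∈ Ω → u1 ≠ u2 → v1 ≠ v2 →
      ∃ f ∈ Γ, f u1 = v1 ∧ f u2 = v2)
    (hx : x ∈ Ω) (hy : y ∈ Ω) (hxy : x ≠ y)
    (h g : Equiv.Perm α) (hg : g ∈ Γ) (h4 : g x = y)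
    (h6 : (g * h) ^ 3 ∈ Γ) (h7 : h ^ 2 ∈ Γ)
    (h8 : ∀ f ∈ Γ, f x = x → h * f * h ∈ Γ) :
    ∀ f ∈ Subgroup.closure ((Γ : Set (Equiv.Perm α)) ∪ {h}),
      f ∈ Γ ∨ ∃ a ∈ Γ, ∃ b ∈ Γ, f = a * h * b := by
  have K : ∀ f ∈ Γ, h * f * h ∈ Γ ∨ ∃ a ∈ Γ, ∃ b ∈ Γ, h * f * h = a * h * b := by
    intro f hf
    by_cases hfx : f x = x
    · exact Or.inl (h8 f hf hfx)
    · right
      obtain ⟨a, ha, hax, hay⟩ := T2 x y x (f x) hx hy hx (hpres f hf x hx) hxy (Ne.symm hfx)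
      set b := (a * g)⁻¹ * f with hb
      have hbG : b ∈ Γ := Γ.mul_mem (Γ.inv_mem (Γ.mul_mem ha hg)) hf
      have hbx : b x = x := by
        rw [hb, Equiv.Perm.mul_apply, Equiv.Perm.inv_eq_iff_eq, Equiv.Perm.mul_apply, h4, hay]
      have hfab : f = a * g * b := by rw [hb]; group
      refine ⟨h * a * h * (h ^ 2)⁻¹ * g⁻¹ * (g * h) ^ 3 * (h ^ 2)⁻¹, ?_,
        g⁻¹ * (h ^ 2)⁻¹ * (h * b * h), ?_, ?_⟩
      · exact Γ.mul_mem (Γ.mul_mem (Γ.mul_mem (Γ.mul_mem (h8 a ha hax) (Γ.inv_mem h7))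
          (Γ.inv_mem hg)) h6) (Γ.inv_mem h7)
      · exact Γ.mul_mem (Γ.mul_mem (Γ.inv_mem hg) (Γ.inv_mem h7)) (h8 b hbG hbx)
      · have e3 : (g * h) ^ 3 = g * h * (g * h) * (g * h) := by rw [pow_succ, pow_two]
        rw [hfab, e3]; group
  let D : Subgroup (Equiv.Perm α) :=
    { carrier := {f | f ∈ Γ ∨ ∃ a ∈ Γ, ∃ b ∈ Γ, f = a * h * b}
      mul_mem' := by
        rintro f1 f2 (hf1 | ⟨a, ha, b, hb, rfl⟩) (hf2 | ⟨a', ha', b', hb', rfl⟩)
        · exact Or.inl (Γ.mul_mem hf1 hf2)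
        · exact Or.inr ⟨f1 * a', Γ.mul_mem hf1 ha', b', hb', by group⟩
        · exact Or.inr ⟨a, ha, b * f2, Γ.mul_mem hb hf2, by group⟩
        · rcases K (b * a') (Γ.mul_mem hb ha') with hk | ⟨c, hc, d, hd, hk⟩
          · left
            have : a * h * b * (a' * h * b') = a * (h * (b * a') * h) * b' := by group
            rw [this]
            exact Γ.mul_mem (Γ.mul_mem ha hk) hb'
          · right
            refine ⟨a * c, Γ.mul_mem ha hc, d * b', Γ.mul_mem hd hb', ?_⟩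
            have : a * h * b * (a' * h * b') = a * (h * (b * a') * h) * b' := by group
            rw [this, hk]; group
      one_mem' := Or.inl Γ.one_mem
      inv_mem' := by
        rintro f (hf | ⟨a, ha, b, hb, rfl⟩)
        · exact Or.inl (Γ.inv_mem hf)
        · exact Or.inr ⟨b⁻¹ * (h ^ 2)⁻¹, Γ.mul_mem (Γ.inv_mem hb) (Γ.inv_mem h7), a⁻¹,
            Γ.inv_mem ha, by group⟩ }
  have : Subgroup.closure ((Γ : Set (Equiv.Perm α)) ∪ {h}) ≤ D := by
    rw [Subgroup.closure_le]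
    rintro f (hf | hf)
    · exact Or.inl hf
    · rw [Set.mem_singleton_iff] at hf
      exact Or.inr ⟨1, Γ.one_mem, 1, Γ.one_mem, by rw [hf]; group⟩
  exact fun f hf => this hf

def Tr {α : Type*} (m : ℕ) (Γ : Subgroup (Equiv.Perm α)) (Ω : Set α) : Prop :=
  ∀ k ≤ m, ∀ u v : Fin k ↪ α, (∀ i, u i ∈ Ω) → (∀ i, v i ∈ Ω) → ∃ f ∈ Γ, ∀ i, f (u i) = v i

theorem tr_step {α : Type*} (m : ℕ) (Γ Γ' : Subgroup (Equiv.Perm α)) (Ω Ω' : Set α) (inf : α)
    (hle : Γ ≤ Γ') (hfix : ∀ f ∈ Γ, f inf = inf)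
    (hΩ : ∀ w, w ∈ Ω' → w ≠ inf → w ∈ Ω)
    (hpres : ∀ f ∈ Γ', ∀ u ∈ Ω', f u ∈ Ω')
    (hA : ∀ w ∈ Ω', ∃ γ ∈ Γ', γ w = inf)
    (hT : Tr m Γ Ω) : Tr (m+1) Γ' Ω' := by
  intro k hk u v hu hv
  cases k with
  | zero => exact ⟨1, Γ'.one_mem, fun i => i.elim0⟩
  | succ k =>
    obtain ⟨γ1, hγ1, e1⟩ := hA (u 0) (hu 0)
    obtain ⟨γ2, hγ2, e2⟩ := hA (v 0) (hv 0)
    let u' : Fin k ↪ α := ⟨fun i => γ1 (u i.succ),
      fun i j hij => Fin.succ_injective _ (u.injective (γ1.injective hij))⟩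
    let v' : Fin k ↪ α := ⟨fun i => γ2 (v i.succ),
      fun i j hij => Fin.succ_injective _ (v.injective (γ2.injective hij))⟩
    have hu' : ∀ i, u' i ∈ Ω := fun i => hΩ _ (hpres γ1 hγ1 _ (hu _)) (fun h =>
      Fin.succ_ne_zero i (u.injective (γ1.injective (h.trans e1.symm))))
    have hv' : ∀ i, v' i ∈ Ω := fun i => hΩ _ (hpres γ2 hγ2 _ (hv _)) (fun h =>
      Fin.succ_ne_zero i (v.injective (γ2.injective (h.trans e2.symm))))
    obtain ⟨f, hf, hfi⟩ := hT k (by omega) u' v' hu' hv'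
    refine ⟨γ2⁻¹ * f * γ1, mul_mem (mul_mem (inv_mem hγ2) (hle hf)) hγ1, fun i => ?_⟩
    rw [Equiv.Perm.mul_apply, Equiv.Perm.mul_apply, Equiv.Perm.inv_eq_iff_eq]
    refine Fin.cases ?_ (fun j => ?_) i
    · rw [e1, e2, hfix f hf]
    · exact hfi j

theorem tr_two {α : Type*} {m : ℕ} {Γ : Subgroup (Equiv.Perm α)} {Ω : Set α} (hm : 2 ≤ m)
    (hT : Tr m Γ Ω) : ∀ u1 u2 v1 v2 : α, u1 ∈ Ω → u2 ∈ Ω → v1 ∈ Ω → v2 ∈ Ω → u1 ≠ u2 → v1 ≠ v2 →
      ∃ f ∈ Γ, f u1 = v1 ∧ f u2 = v2 := by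
  intro u1 u2 v1 v2 a b c d hu hv
  have inj : ∀ z1 z2 : α, z1 ≠ z2 → Function.Injective ![z1, z2] := by
    intro z1 z2 hz i j hij
    fin_cases i <;> fin_cases j <;> simp_all
  obtain ⟨f, hf, hfi⟩ := hT 2 hm ⟨![u1,u2], inj _ _ hu⟩ ⟨![v1,v2], inj _ _ hv⟩
    (by intro i; fin_cases i <;> simpa) (by intro i; fin_cases i <;> simpa)
  exact ⟨f, hf, hfi 0, hfi 1⟩

theorem tr_one {α : Type*} {m : ℕ} {Γ : Subgroup (Equiv.Perm α)} {Ω : Set α} (hm : 1 ≤ m)
    (hT : Tr m Γ Ω) : ∀ u v : α, u ∈ Ω → v ∈ Ω → ∃ f ∈ Γ, f u = v := by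
  intro u v hu hv
  obtain ⟨f, hf, hfi⟩ := hT 1 hm ⟨fun _ => u, fun i j _ => Subsingleton.elim i j⟩
    ⟨fun _ => v, fun i j _ => Subsingleton.elim i j⟩ (fun _ => hu) (fun _ => hv)
  exact ⟨f, hf, hfi 0⟩

def Gam {α : Type*} (G : Subgroup (Equiv.Perm α)) (s : ℕ → Equiv.Perm α) (m : ℕ) :
    Subgroup (Equiv.Perm α) :=
  Subgroup.closure ((G : Set (Equiv.Perm α)) ∪ {x | ∃ i : ℕ, 2 ≤ i ∧ i + 1 ≤ m ∧ x = s i})

def Om {α : Type*} (q : ℕ → α) (t m : ℕ) : Set α := {x | ∀ i, m < i → i ≤ t → x ≠ q i}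

section
variable {α : Type*} {G : Subgroup (Equiv.Perm α)} {s : ℕ → Equiv.Perm α}

theorem gam_two : Gam G s 2 = G := by
  unfold Gam
  have : {x | ∃ i : ℕ, 2 ≤ i ∧ i + 1 ≤ 2 ∧ x = s i} = (∅ : Set (Equiv.Perm α)) := by
    ext x
    simp only [Set.mem_setOf_eq, Set.mem_empty_iff_false, iff_false]
    rintro ⟨i, h1, h2, -⟩
    omega
  rw [this, Set.union_empty, Subgroup.closure_eq]

theorem G_le_gam (m : ℕ) : G ≤ Gam G s m := fun _ hf => Subgroup.subset_closure (Or.inl hf)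

theorem s_mem_gam {i m : ℕ} (h1 : 2 ≤ i) (h2 : i + 1 ≤ m) : s i ∈ Gam G s m :=
  Subgroup.subset_closure (Or.inr ⟨i, h1, h2, rfl⟩)

theorem gam_mono {m n : ℕ} (h : m ≤ n) : Gam G s m ≤ Gam G s n := by
  apply Subgroup.closure_mono
  rintro x (hx | ⟨i, h1, h2, rfl⟩)
  · exact Or.inl hx
  · exact Or.inr ⟨i, h1, by omega, rfl⟩

theorem gam_succ_le (m : ℕ) :
    Gam G s (m+1) ≤ Subgroup.closure ((Gam G s m : Set (Equiv.Perm α)) ∪ {s m}) := by
  have : Gam G s (m+1) = Subgroup.closure ((G : Set (Equiv.Perm α)) ∪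
      {x | ∃ i : ℕ, 2 ≤ i ∧ i + 1 ≤ m + 1 ∧ x = s i}) := rfl
  rw [this, Subgroup.closure_le]
  rintro x (hx | ⟨i, h1, h2, rfl⟩)
  · exact Subgroup.subset_closure (Or.inl (G_le_gam m hx))
  · by_cases hi : i = m
    · subst hi; exact Subgroup.subset_closure (Or.inr rfl)
    · exact Subgroup.subset_closure (Or.inl (s_mem_gam h1 (by omega)))
end


/-- Witt's Lemma for constructing transitive extensions. Points `q 1, …, q t` (`t ≥ 2`) of a finite set are given; `G` fixes `q i` for `i ≥ 3` and is doubly transitive on the remaining points; `s 1 ∈ G` swaps `q 1, q 2`; for `2 ≤ i ≤ t-1`, `s i` swaps `q i, q (i+1)` and fixes the other `q j`; with `H` the stabiliser of `q 1, q 2` in `G`: `s i ^ 2 ∈ H`, `(s i * s (i+1)) ^ 3 ∈ H`, `(s i * s j) ^ 2 ∈ H` for `j ≥ i + 2`, and `s i` (`i ≥ 2`) normalises the stabiliser of `q 2` in `G`. Then `G` and the `s i` generate a `t`-transitive group whose pointwise stabiliser of the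 `q`'s is `H`. -/
theorem result {α : Type*} [Fintype α] [DecidableEq α] (t : ℕ) (ht : 2 ≤ t) (q : ℕ → α) (hq : ∀ i j : ℕ, 1 ≤ i → i ≤ t → 1 ≤ j → j ≤ t → q i = q j → i = j) (G : Subgroup (Equiv.Perm α)) (hfix : ∀ g ∈ G, ∀ i : ℕ, 3 ≤ i → i ≤ t → g (q i) = q i) (h2 : ∀ a b c d : α, (∀ i, 3 ≤ i → i ≤ t → a ≠ q i ∧ b ≠ q i ∧ c ≠ q i ∧ d ≠ q i) → a ≠ b → c ≠ d → ∃ g ∈ G, g a = c ∧ g b = d) (s : ℕ → Equiv.Perm α) (hs1 : s 1 ∈ G) (hs1q : s 1 (q 1) = q 2 ∧ s 1 (q 2) = q 1) (hsq : ∀ i : ℕ, 2 ≤ i → i + 1 ≤ t → s i (q i) = q (i + 1) ∧ s i (q (i + 1)) = q i ∧ ∀ j : ℕ, 1 ≤ j → j ≤ t → j ≠ i → j ≠ i + 1 → s i (q j) = q j) (H : Subgroup (Equiv.Perm α)) (hH : H = G ⊓ MulAction.stabilizer (Equiv.Perm α) (q 1) ⊓ MulAction.stabilizer (Equiv.Perm α) (q 2)) (hsq2 : ∀ i : ℕ, 1 ≤ i → i + 1 ≤ t → s i ^ 2 ∈ H) (hbraid : ∀ i : ℕ, 1 ≤ i → i + 2 ≤ t → (s i * s (i + 1)) ^ 3 ∈ H) (hcomm : ∀ i j : ℕ, 1 ≤ i → i + 2 ≤ j → j + 1 ≤ t → (s i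 * s j) ^ 2 ∈ H ∧ (s j * s i) ^ 2 ∈ H) (hnorm : ∀ i : ℕ, 2 ≤ i → i + 1 ≤ t → ∀ g ∈ G ⊓ MulAction.stabilizer (Equiv.Perm α) (q 2), s i * g * (s i)⁻¹ ∈ G ⊓ MulAction.stabilizer (Equiv.Perm α) (q 2)) : MulAction.IsMultiplyPretransitive ↥(Subgroup.closure ((G : Set (Equiv.Perm α)) ∪ {x | ∃ i : ℕ, 2 ≤ i ∧ i + 1 ≤ t ∧ x = s i})) α t ∧ Subgroup.closure ((G : Set (Equiv.Perm α)) ∪ {x | ∃ i : ℕ, 2 ≤ i ∧ i + 1 ≤ t ∧ x = s i}) ⊓ fixingSubgroup (Equiv.Perm α) {x | ∃ i : ℕ, 1 ≤ i ∧ i ≤ t ∧ x = q i} = H := by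
  classical
  have hHG : H ≤ G := by rw [hH]; exact inf_le_left.trans inf_le_left
  have hqne : ∀ i j, 1 ≤ i → i ≤ t → 1 ≤ j → j ≤ t → i ≠ j → q i ≠ q j :=
    fun i j a b c d e h => e (hq i j a b c d h)
  have hA : ∀ m, 2 ≤ m → ∀ f ∈ Gam G s m, ∀ i, m < i → i ≤ t → f (q i) = q i := by
    intro m hm f hf
    unfold Gam at hf
    induction hf using Subgroup.closure_induction with
    | mem x hx =>
      rcases hx with hx | ⟨j, h1, h2, rfl⟩
      · intro i hi hit; exact hfix x hx i (by omega) hit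
      · intro i hi hit
        exact (hsq j h1 (by omega)).2.2 i (by omega) hit (by omega) (by omega)
    | one => intro i _ _; rfl
    | mul x y _ _ hx hy => intro i hi hit; rw [Equiv.Perm.mul_apply, hy i hi hit, hx i hi hit]
    | inv x _ hx => intro i hi hit; rw [Equiv.Perm.inv_eq_iff_eq, hx i hi hit]
  have hP : ∀ m, 2 ≤ m → ∀ f ∈ Gam G s m, ∀ u ∈ Om q t m, f u ∈ Om q t m := by
    intro m hm f hf u hu i hi hit h
    exact hu i hi hit (f.injective (h.trans (hA m hm f hf i hi hit).symm))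
  have hqO : ∀ m j, 1 ≤ j → j ≤ m → m ≤ t → q j ∈ Om q t m := by
    intro m j h1 h2 h3 i hi hit
    exact hqne j i h1 (by omega) (by omega) hit (by omega)
  have hconj : ∀ i m, 1 ≤ i → i + 2 ≤ m → m + 1 ≤ t →
      ∃ η ∈ H, s m * s i * (s m)⁻¹ = η * (s i)⁻¹ * (s m ^ 2)⁻¹ := by
    intro i m h1 h2 h3
    refine ⟨(s m * s i) ^ 2, (hcomm i m h1 h2 h3).2, ?_⟩
    rw [pow_two, pow_two]; group
  have hN : ∀ m, 3 ≤ m → m + 1 ≤ t → ∀ f ∈ G, s m * f * (s m)⁻¹ ∈ G := by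
    intro m hm hmt f hf
    have hst : ∀ f ∈ G, f (q 2) = q 2 → s m * f * (s m)⁻¹ ∈ G := fun f hf h =>
      (hnorm m (by omega) hmt f ⟨hf, h⟩).1
    by_cases h2' : f (q 2) = q 2
    · exact hst f hf h2'
    · obtain ⟨a, ha, ha2, ha1⟩ := h2 (q 2) (q 1) (q 2) (f (q 2))
        (fun i h3 hit => ⟨hqne 2 i (by omega) (by omega) (by omega) hit (by omega),
          hqne 1 i (by omega) (by omega) (by omega) hit (by omega),
          hqne 2 i (by omega) (by omega) (by omega) hit (by omega),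
          fun h => hqne 2 i (by omega) (by omega) (by omega) hit (by omega)
            (f.injective (h.trans (hfix f hf i h3 hit).symm))⟩)
        (hqne 2 1 (by omega) (by omega) (by omega) (by omega) (by omega)) (Ne.symm h2')
      set b := (a * s 1)⁻¹ * f with hb
      have hbG : b ∈ G := G.mul_mem (G.inv_mem (G.mul_mem ha hs1)) hf
      have hb2 : b (q 2) = q 2 := by
        rw [hb, Equiv.Perm.mul_apply, Equiv.Perm.inv_eq_iff_eq, Equiv.Perm.mul_apply, hs1q.2, ha1]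
      obtain ⟨η, hη, he⟩ := hconj 1 m le_rfl (by omega) hmt
      have : s m * f * (s m)⁻¹
          = (s m * a * (s m)⁻¹) * (s m * s 1 * (s m)⁻¹) * (s m * b * (s m)⁻¹) := by
        rw [hb]; group
      rw [this, he]
      exact G.mul_mem (G.mul_mem (hst a ha ha2) (G.mul_mem (G.mul_mem (hHG hη) (G.inv_mem hs1))
        (G.inv_mem (hHG (hsq2 m (by omega) hmt))))) (hst b hbG hb2)
  have hNG : ∀ m, 3 ≤ m → m + 1 ≤ t → ∀ f ∈ Gam G s (m-1),
      s m * f * (s m)⁻¹ ∈ Gam G s (m-1) := by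
    intro m hm hmt f hf
    have hf' : f ∈ Subgroup.closure ((G : Set (Equiv.Perm α)) ∪
      {x | ∃ i : ℕ, 2 ≤ i ∧ i + 1 ≤ m - 1 ∧ x = s i}) := hf
    clear hf
    induction hf' using Subgroup.closure_induction with
    | mem x hx =>
      rcases hx with hx | ⟨j, h1, h2', rfl⟩
      · exact G_le_gam _ (hN m hm hmt x hx)
      · obtain ⟨η, hη, he⟩ := hconj j m (by omega) (by omega) hmt
        rw [he]
        exact mul_mem (mul_mem (G_le_gam _ (hHG hη)) (inv_mem (s_mem_gam h1 h2')))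
          (inv_mem (G_le_gam _ (hHG (hsq2 m (by omega) hmt))))
    | one => simp [one_mem]
    | mul x y _ _ hx hy =>
      have : s m * (x * y) * (s m)⁻¹ = (s m * x * (s m)⁻¹) * (s m * y * (s m)⁻¹) := by group
      rw [this]; exact mul_mem hx hy
    | inv x _ hx =>
      have : s m * x⁻¹ * (s m)⁻¹ = (s m * x * (s m)⁻¹)⁻¹ := by group
      rw [this]; exact inv_mem hx
  have main : ∀ m, 2 ≤ m → m ≤ t → Tr m (Gam G s m) (Om q t m) ∧
      (3 ≤ m → ∀ f ∈ Gam G s m, f (q m) = q m → f ∈ Gam G s (m-1)) := by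
    intro m hm
    induction m, hm using Nat.le_induction with
    | base =>
      intro _
      refine ⟨?_, fun h => absurd h (by norm_num)⟩
      rw [gam_two]
      intro k hk u v hu hv
      interval_cases k
      · exact ⟨1, G.one_mem, fun i => i.elim0⟩
      · by_cases huv : u 0 = v 0
        · exact ⟨1, G.one_mem, fun i => by rw [Subsingleton.elim i 0]; exact huv⟩
        · obtain ⟨g, hg, h1, -⟩ := h2 (u 0) (v 0) (v 0) (u 0)
            (fun i h3 hit => ⟨hu 0 i (by omega) hit, hv 0 i (by omega) hit,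
              hv 0 i (by omega) hit, hu 0 i (by omega) hit⟩) huv (Ne.symm huv)
          exact ⟨g, hg, fun i => by rw [Subsingleton.elim i 0]; exact h1⟩
      · obtain ⟨g, hg, h1, h2'⟩ := h2 (u 0) (u 1) (v 0) (v 1)
            (fun i h3 hit => ⟨hu 0 i (by omega) hit, hu 1 i (by omega) hit,
              hv 0 i (by omega) hit, hv 1 i (by omega) hit⟩)
            (u.injective.ne (by decide)) (v.injective.ne (by decide))
        exact ⟨g, hg, fun i => by fin_cases i; exacts [h1, h2']⟩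
    | succ m hm ih =>
      intro hmt
      obtain ⟨ihT, ihS⟩ := ih (by omega)
      have hg : s (m-1) ∈ Gam G s m := by
        rcases Nat.lt_or_ge m 3 with h | h
        · have : m = 2 := by omega
          subst this; exact G_le_gam _ hs1
        · exact s_mem_gam (by omega) (by omega)
      have hgx : s (m-1) (q m) = q (m-1) := by
        rcases Nat.lt_or_ge m 3 with h | h
        · have : m = 2 := by omega
          subst this; exact hs1q.2
        · have := (hsq (m-1) (by omega) (by omega)).2.1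
          rwa [Nat.sub_add_cancel (by omega)] at this
      have hbr : (s (m-1) * s m) ^ 3 ∈ H := by
        have := hbraid (m-1) (by omega) (by omega)
        rwa [Nat.sub_add_cancel (by omega)] at this
      have h8 : ∀ f ∈ Gam G s m, f (q m) = q m → s m * f * s m ∈ Gam G s m := by
        intro f hf hfx
        have e : s m * f * s m = (s m * f * (s m)⁻¹) * (s m) ^ 2 := by rw [pow_two]; group
        rw [e]
        refine mul_mem ?_ (G_le_gam _ (hHG (hsq2 m (by omega) hmt)))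
        rcases Nat.lt_or_ge m 3 with h | h
        · have : m = 2 := by omega
          subst this
          rw [gam_two] at hf ⊢
          exact (hnorm 2 le_rfl hmt f ⟨hf, hfx⟩).1
        · exact gam_mono (by omega) (hNG m h hmt f (ihS h f hf hfx))
      have hE := ext1 (Gam G s m) (Om q t m) (q m) (q (m-1)) (hP m hm) (tr_two hm ihT)
        (hqO m m (by omega) le_rfl (by omega)) (hqO m (m-1) (by omega) (by omega) (by omega))
        (hqne m (m-1) (by omega) (by omega) (by omega) (by omega) (by omega))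
        (s m) (s (m-1)) hg hgx (G_le_gam _ (hHG hbr))
        (G_le_gam _ (hHG (hsq2 m (by omega) hmt))) h8
      have hE' : ∀ f ∈ Gam G s (m+1), f ∈ Gam G s m ∨
          ∃ a ∈ Gam G s m, ∃ b ∈ Gam G s m, f = a * s m * b :=
        fun f hf => hE f (gam_succ_le m hf)
      have hOm : ∀ w, w ∈ Om q t (m+1) → w ≠ q (m+1) → w ∈ Om q t m := by
        intro w hw hne i hi hit
        by_cases h : i = m+1
        · subst h; exact hne
        · exact hw i (by omega) hit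
      constructor
      · refine tr_step m (Gam G s m) (Gam G s (m+1)) (Om q t m) (Om q t (m+1)) (q (m+1))
          (gam_mono (by omega)) (fun f hf => hA m hm f hf (m+1) (by omega) hmt) hOm
          (hP (m+1) (by omega)) ?_ ihT
        intro w hw
        by_cases h : w = q (m+1)
        · exact ⟨1, one_mem _, h⟩
        · obtain ⟨f, hf, hfw⟩ := tr_one (by omega) ihT w (q m) (hOm w hw h)
            (hqO m m (by omega) le_rfl (by omega))
          exact ⟨s m * f, mul_mem (s_mem_gam hm le_rfl) (gam_mono (by omega) hf),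
            by rw [Equiv.Perm.mul_apply, hfw]; exact (hsq m hm hmt).1⟩
      · intro _ f hf hfq
        rw [Nat.add_sub_cancel]
        rcases hE' f hf with h | ⟨a, ha, b, hb, rfl⟩
        · exact h
        · exfalso
          rw [Equiv.Perm.mul_apply, Equiv.Perm.mul_apply, hA m hm b hb (m+1) (by omega) hmt,
            (hsq m hm hmt).2.1] at hfq
          have := a.injective (hfq.trans (hA m hm a ha (m+1) (by omega) hmt).symm)
          exact hqne m (m+1) (by omega) (by omega) (by omega) hmt (by omega) this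
  obtain ⟨hT, -⟩ := main t ht le_rfl
  change MulAction.IsMultiplyPretransitive ↥(Gam G s t) α t ∧ Gam G s t ⊓ _ = H
  constructor
  · refine ⟨fun u v => ?_⟩
    obtain ⟨f, hf, hfi⟩ := hT t le_rfl u v (fun i j hj hjt => absurd hj (by omega))
      (fun i j hj hjt => absurd hj (by omega))
    exact ⟨⟨f, hf⟩, by ext i : 1; exact hfi i⟩
  · apply le_antisymm
    · rintro f ⟨hf, hfix'⟩
      have hfq : ∀ i, 1 ≤ i → i ≤ t → f (q i) = q i := fun i h1 h2 =>
        (mem_fixingSubgroup_iff _).mp hfix' (q i) ⟨i, h1, h2, rfl⟩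
      have desc : ∀ k, k + 2 ≤ t → f ∈ Gam G s (t - k) := by
        intro k
        induction k with
        | zero => intro _; exact hf
        | succ k ih =>
          intro hk
          have := (main (t-k) (by omega) (by omega)).2 (by omega) f (ih (by omega))
            (hfq _ (by omega) (by omega))
          rwa [show t - k - 1 = t - (k+1) by omega] at this
      have hfG : f ∈ G := by
        have := desc (t-2) (by omega)
        rwa [show t - (t-2) = 2 by omega, gam_two] at this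
      rw [hH]
      exact ⟨⟨hfG, hfq 1 le_rfl (by omega)⟩, hfq 2 (by omega) ht⟩
    · intro f hf
      have hfG := hHG hf
      rw [hH] at hf
      refine ⟨G_le_gam _ hfG, ?_⟩
      show f ∈ fixingSubgroup (Equiv.Perm α) {x | ∃ i, 1 ≤ i ∧ i ≤ t ∧ x = q i}
      rw [mem_fixingSubgroup_iff]
      rintro _ ⟨i, h1, h2', rfl⟩
      rcases (by omega : i = 1 ∨ i = 2 ∨ 3 ≤ i) with rfl | rfl | h3
      · exact hf.1.2
      · exact hf.2
      · exact hfix f hfG i h3 h2'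

end Cfsg.Agent.S0709
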