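import Cfsg.Statements.S0989
import Mathlib
import Cfsg.Agent.Lib.Helper21.PrimeCent

set_option autoImplicit false
open Cfsg

namespace Cfsg.Agent.S0989

/-- In the symmetric group on p or p + 1 letters, p a prime, the normalizer of a Sylow p-subgroup has order p * (p - 1). -/
theorem result {α : Type*} [Fintype α] [DecidableEq α] (p : ℕ) [Fact p.Prime] (hα : Fintype.card α = p ∨ Fintype.card α = p + 1) (P : Sylow p (Equiv.Perm α)) : Nat.card ↥(Subgroup.normalizer ((P : Subgroup (Equiv.Perm α)) : Set (Equiv.Perm α))) = p * (p - 1) := by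
  classical
  have hp : p.Prime := Fact.out
  have hlt : Fintype.card α < 2 * p := by
    have := hp.two_le
    rcases hα with h | h <;> omega
  have hct : ∀ σ : Equiv.Perm α, orderOf σ = p → σ.cycleType = {p} := by
    intro σ hσ
    have hc : σ.IsCycle := Equiv.Perm.isCycle_of_prime_order' (by rw [hσ]; exact hp) (by rw [hσ]; exact hlt)
    rw [hc.cycleType, ← hc.orderOf, hσ]
  have hdvd : p ∣ Nat.card (Equiv.Perm α) := by
    rw [Nat.card_perm]
    apply Nat.dvd_factorial hp.pos
    rw [Nat.card_eq_fintype_card]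
    rcases hα with h | h <;> omega
  obtain ⟨z, hz⟩ := exists_prime_orderOf_dvd_card' p hdvd
  have hC : Subgroup.centralizer ({z} : Set (Equiv.Perm α)) = Subgroup.zpowers z := by
    symm
    apply Subgroup.eq_of_le_of_card_ge
    · rw [Subgroup.zpowers_le, Subgroup.mem_centralizer_singleton_iff]
    · rw [Equiv.Perm.nat_card_centralizer, hct z hz, Nat.card_zpowers, hz]
      have h1 : (Fintype.card α - p).factorial = 1 := by
        rcases hα with h | h
        · rw [h, Nat.sub_self]; rfl
        · rw [h, Nat.add_sub_cancel_left]; rfl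
      simp [h1]
  obtain ⟨n, t, ht, -, hn, hmain⟩ := Cfsg.Agent.Lib.Helper21.prime_cent_count p z hz hC
  have ht1 : t = 1 := by
    rw [ht, Nat.card_eq_one_iff_unique]
    refine ⟨⟨?_⟩, ⟨⟨ConjClasses.mk z, z, rfl, hz⟩⟩⟩
    rintro ⟨_, g, rfl, hg⟩ ⟨_, g', rfl, hg'⟩
    apply Subtype.ext
    rw [ConjClasses.mk_eq_mk_iff_isConj, Equiv.Perm.isConj_iff_cycleType_eq, hct g hg, hct g' hg']
  rw [ht1, mul_one, ← hn] at hmain
  have h1 := P.card_eq_index_normalizer
  have h2 := (Subgroup.normalizer ((P : Subgroup (Equiv.Perm α)) : Set (Equiv.Perm α))).card_mul_index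
  have h3 : (Subgroup.normalizer ((P : Subgroup (Equiv.Perm α)) : Set (Equiv.Perm α))).index =
      Nat.card (Sylow p (Equiv.Perm α)) := h1.symm
  rw [h3, hmain] at h2
  have hpos : 0 < Nat.card (Sylow p (Equiv.Perm α)) := Nat.card_pos
  have := Nat.eq_of_mul_eq_mul_right hpos h2
  rw [this, mul_comm]

end Cfsg.Agent.S0989
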