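import Cfsg.Statements.S0710
import Mathlib
import Cfsg.Agent.Lib.Helper21.SimpleOrd
import Cfsg.Agent.S0989

set_option autoImplicit false
open Cfsg

namespace Cfsg.Agent.S0710

/-- No transitive permutation group on 13 points has order `13 * 12 * 11 * 10 * 9 * 8`. -/
theorem result {α : Type*} [Fintype α] [DecidableEq α] (hα : Fintype.card α = 13) (G : Subgroup (Equiv.Perm α)) [MulAction.IsPretransitive G α] : Nat.card G ≠ 13 * 12 * 11 * 10 * 9 * 8 := by
  classical
  intro h
  haveI : Fact (Nat.Prime 13) := ⟨by norm_num⟩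
  obtain ⟨P⟩ : Nonempty (Sylow 13 ↥G) := inferInstance
  have hP : Nat.card (P : Subgroup ↥G) = 13 := by
    have := Cfsg.Agent.Lib.Helper21.card_sylow_of_card_eq P 1 95040 (by rw [h]; norm_num) (by norm_num)
    simpa using this
  -- the image in the symmetric group is a Sylow subgroup
  have hP' : Nat.card ((P : Subgroup ↥G).map G.subtype) = 13 := by
    rw [Subgroup.card_map_of_injective G.subtype_injective, hP]
  have hS : Nat.card (Equiv.Perm α) = 13 ^ 1 * 479001600 := by
    rw [Nat.card_perm, Nat.card_eq_fintype_card, hα]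
    rfl
  obtain ⟨R0⟩ : Nonempty (Sylow 13 (Equiv.Perm α)) := inferInstance
  have hR0 := Cfsg.Agent.Lib.Helper21.card_sylow_of_card_eq R0 1 479001600 hS (by norm_num)
  let R : Sylow 13 (Equiv.Perm α) := Sylow.ofCard ((P : Subgroup ↥G).map G.subtype) (by
    rw [hP', ← R0.card_eq_multiplicity]
    simpa using hR0.symm)
  have hR : (R : Subgroup (Equiv.Perm α)) = (P : Subgroup ↥G).map G.subtype := rfl
  have hNR := Cfsg.Agent.S0989.result 13 (Or.inl hα) R
  have hle : (Subgroup.normalizer ((P : Subgroup ↥G) : Set ↥G)).map G.subtype ≤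
      Subgroup.normalizer ((R : Subgroup (Equiv.Perm α)) : Set (Equiv.Perm α)) := by
    rintro _ ⟨x, hx, rfl⟩
    rw [hR, Subgroup.mem_normalizer_iff]
    intro z
    have hx' := Subgroup.mem_normalizer_iff.mp hx
    constructor
    · rintro ⟨w, hw, rfl⟩
      exact ⟨x * w * x⁻¹, (hx' w).mp hw, by simp⟩
    · rintro ⟨w, hw, hwz⟩
      refine ⟨x⁻¹ * w * x, ?_, ?_⟩
      · refine (hx' _).mpr ?_
        have : x * (x⁻¹ * w * x) * x⁻¹ = w := by group
        rw [this]; exact hw
      · have : (G.subtype w : Equiv.Perm α) = G.subtype x * z * (G.subtype x)⁻¹ := hwz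
        simp only [map_mul, map_inv, this]
        group
  have hdvd : Nat.card (Subgroup.normalizer ((P : Subgroup ↥G) : Set ↥G)) ∣ 156 := by
    have h1 := Subgroup.card_dvd_of_le hle
    rw [Subgroup.card_map_of_injective G.subtype_injective, hNR] at h1
    exact h1
  have hmul := Cfsg.Agent.Lib.Helper21.card_normalizer_mul_card_sylow P
  have hmod : Nat.card (Sylow 13 ↥G) % 13 = 1 := card_sylow_modEq_one 13 ↥G
  rw [h] at hmul
  set m := Nat.card (Subgroup.normalizer ((P : Subgroup ↥G) : Set ↥G)) with hm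
  set n := Nat.card (Sylow 13 ↥G) with hn
  have hmle : m ≤ 156 := Nat.le_of_dvd (by norm_num) hdvd
  interval_cases m <;> omega

end Cfsg.Agent.S0710
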