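import Cfsg.Statements.S0713
import Mathlib
-- import your own Cfsg.Agent.* helpers here

set_option autoImplicit false
open Cfsg

namespace Cfsg.Agent.S0713

/-- Jordan's Theorem: a primitive permutation group of degree `n ≥ 5` containing a `p`-cycle for a prime `p ≤ n - 3` contains the alternating group. -/
theorem result {α : Type*} [Fintype α] [DecidableEq α] (G : Subgroup (Equiv.Perm α)) (hG : MulAction.IsPreprimitive G α) {p : ℕ} (hp : p.Prime) (hn : 5 ≤ Fintype.card α) (hpn : p + 3 ≤ Fintype.card α) {g : Equiv.Perm α} (hgc : g.IsCycle) (hgp : g.support.card = p) (hg : g ∈ G) : alternatingGroup α ≤ G := by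
  classical
  haveI hpF : Fact p.Prime := ⟨hp⟩
  set Δ : Set α := (g.support : Set α)ᶜ with hΔ
  have hmemΔ : ∀ d : α, d ∈ Δ ↔ g d = d := by
    intro d
    simp [hΔ]
  have hord : orderOf g = p := by rw [hgc.orderOf, hgp]
  -- Step 1 : multiple transitivity
  have hΔcard : Δ.ncard + p = Fintype.card α := by
    have := Set.ncard_add_ncard_compl (g.support : Set α)
    rw [Set.ncard_coe_finset, hgp, Nat.card_eq_fintype_card, ← hΔ] at this
    omega
  obtain ⟨N, hN⟩ : ∃ N, Δ.ncard = N + 1 := ⟨Δ.ncard - 1, by omega⟩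
  have hXcard : Nat.card (SubMulAction.ofFixingSubgroup G Δ) = p := by
    rw [Nat.card_eq_fintype_card, Fintype.card_subtype, ← hgp]
    congr 1
    ext x
    simp [SubMulAction.mem_ofFixingSubgroup_iff, hΔ]
  have hprim' : MulAction.IsPreprimitive (fixingSubgroup G Δ) (SubMulAction.ofFixingSubgroup G Δ) := by
    have := Equiv.Perm.isPretransitive_of_isCycle_mem hgc hg
    apply MulAction.IsPreprimitive.of_prime_card
    rw [hXcard]; exact hp
  have hmp : MulAction.IsMultiplyPreprimitive G α (N + 2) :=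
    hG.isMultiplyPreprimitive hN (by rw [Nat.card_eq_fintype_card]; have := hp.two_le; omega) hprim'
  have hmt : MulAction.IsMultiplyPretransitive G α (N + 1) := by
    have := hmp.isMultiplyPretransitive
    exact MulAction.isMultiplyPretransitive_of_le (n := N + 2) (by omega)
      (by rw [Nat.card_eq_fintype_card]; have := hp.two_le; omega)
  -- the group F
  set F := fixingSubgroup G Δ with hF
  have hFcard : Nat.card F ∣ p.factorial := by
    have hinj : Function.Injective (MulAction.toPermHom F (SubMulAction.ofFixingSubgroup G Δ)) := by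
      rw [injective_iff_map_eq_one]
      intro u hu
      apply Subtype.ext
      apply Subtype.ext
      ext x
      by_cases hx : x ∈ Δ
      · exact (mem_fixingSubgroup_iff G).mp u.2 x hx
      · have := congrArg (fun e : Equiv.Perm (SubMulAction.ofFixingSubgroup G Δ) => ((e ⟨x, hx⟩ : SubMulAction.ofFixingSubgroup G Δ) : α)) hu
        exact this
    have := Subgroup.card_dvd_of_injective _ hinj
    rwa [Nat.card_perm, hXcard] at this
  have hp2 : ¬ p ^ 2 ∣ p.factorial := by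
    intro h
    rw [← Nat.mul_factorial_pred hp.pos.ne', pow_two] at h
    have h1 : p ∣ (p - 1).factorial := Nat.dvd_of_mul_dvd_mul_left hp.pos h
    have h2 := (hp.dvd_factorial).mp h1
    have := hp.pos
    omega
  have hsyl : ∀ u : F, orderOf u = p → ∃ Q : Sylow p F, (Q : Subgroup F) = Subgroup.zpowers u := by
    intro u hu
    have hPG : IsPGroup p (Subgroup.zpowers u) := by
      apply IsPGroup.of_card (n := 1)
      rw [Nat.card_zpowers, hu, pow_one]
    obtain ⟨Q, hQ⟩ := hPG.exists_le_sylow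
    refine ⟨Q, ?_⟩
    obtain ⟨m, hm⟩ := IsPGroup.iff_card.mp Q.2
    have hdvd : p ^ m ∣ p.factorial := by
      rw [← hm]
      exact (Subgroup.card_subgroup_dvd_card _).trans hFcard
    have hm1 : m ≤ 1 := by
      by_contra hcon
      exact hp2 ((pow_dvd_pow p (by omega)).trans hdvd)
    symm
    apply Subgroup.eq_of_le_of_card_ge hQ
    rw [hm, Nat.card_zpowers, hu]
    calc p ^ m ≤ p ^ 1 := Nat.pow_le_pow_right hp.pos hm1
      _ = p := pow_one p
  have hgF : (⟨g, hg⟩ : G) ∈ F := by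
    rw [hF, mem_fixingSubgroup_iff]
    intro d hd
    exact (hmemΔ d).mp hd
  -- Step 2
  have key : ∀ a b : α, a ∈ Δ → b ∈ Δ → ∃ x ∈ G, (∀ d ∈ Δ, x d = Equiv.swap a b d) ∧
      ∃ i : ℤ, x * g * x⁻¹ = g ^ i := by
    intro a b ha hb
    have hswΔ : ∀ d ∈ Δ, Equiv.swap a b d ∈ Δ := by
      intro d hd
      by_cases h1 : d = a
      · rw [h1, Equiv.swap_apply_left]; exact hb
      · by_cases h2 : d = b
        · rw [h2, Equiv.swap_apply_right]; exact ha
        · rw [Equiv.swap_apply_of_ne_of_ne h1 h2]; exact hd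
    have hcardΔ : Fintype.card Δ = N + 1 := by
      rw [← hN, ← Nat.card_eq_fintype_card]; rfl
    let e₀ : Fin (N + 1) ≃ Δ := (Fintype.equivFinOfCardEq hcardΔ).symm
    let e : Fin (N + 1) ↪ α := e₀.toEmbedding.trans (Function.Embedding.subtype _)
    let e' : Fin (N + 1) ↪ α := e.trans (Equiv.swap a b).toEmbedding
    obtain ⟨x₀, hx₀⟩ := hmt.exists_smul_eq e e'
    have hx₀Δ : ∀ d ∈ Δ, (x₀ : Equiv.Perm α) d = Equiv.swap a b d := by
      intro d hd
      have := congrArg (fun f : Fin (N + 1) ↪ α => f (e₀.symm ⟨d, hd⟩)) hx₀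
      simp [e, e'] at this
      exact this
    have hx₀inv : ∀ d ∈ Δ, ((x₀ : Equiv.Perm α)⁻¹) d = Equiv.swap a b d := by
      intro d hd
      rw [Equiv.Perm.inv_eq_iff_eq, hx₀Δ _ (hswΔ d hd), Equiv.swap_apply_self]
    have hg2F : x₀ * ⟨g, hg⟩ * x₀⁻¹ ∈ F := by
      rw [hF, mem_fixingSubgroup_iff]
      intro d hd
      change (x₀ : Equiv.Perm α) (g (((x₀ : Equiv.Perm α)⁻¹) d)) = d
      rw [hx₀inv d hd, (hmemΔ _).mp (hswΔ d hd), hx₀Δ _ (hswΔ d hd), Equiv.swap_apply_self]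
    let g₁ : F := ⟨⟨g, hg⟩, hgF⟩
    let g₂ : F := ⟨x₀ * ⟨g, hg⟩ * x₀⁻¹, hg2F⟩
    have ho1 : orderOf g₁ = p := by
      rw [← hord]
      rw [← Subgroup.orderOf_coe g₁, ← Subgroup.orderOf_coe (g₁ : G)]
    have ho2 : orderOf g₂ = p := by
      rw [← ho1, ← Subgroup.orderOf_coe g₂, ← Subgroup.orderOf_coe g₁]
      change orderOf (x₀ * ⟨g, hg⟩ * x₀⁻¹) = orderOf (⟨g, hg⟩ : G)
      exact orderOf_injective (MulAut.conj x₀).toMonoidHom (MulAut.conj x₀).injective _
    obtain ⟨Q₁, hQ₁⟩ := hsyl g₁ ho1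
    obtain ⟨Q₂, hQ₂⟩ := hsyl g₂ ho2
    obtain ⟨y, hy⟩ := MulAction.exists_smul_eq F Q₂ Q₁
    have h3 : y * g₂ * y⁻¹ ∈ Subgroup.zpowers g₁ := by
      rw [← hQ₁, ← hy, Sylow.coe_subgroup_smul]
      have : g₂ ∈ (Q₂ : Subgroup F) := by rw [hQ₂]; exact Subgroup.mem_zpowers g₂
      exact Subgroup.smul_mem_pointwise_smul g₂ (MulAut.conj y) _ this
    obtain ⟨i, hi⟩ := Subgroup.mem_zpowers_iff.mp h3
    refine ⟨((y : G) * x₀ : G), ((y : G) * x₀).2, ?_, i, ?_⟩
    · intro d hd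
      change ((y : G) : Equiv.Perm α) ((x₀ : Equiv.Perm α) d) = _
      rw [hx₀Δ d hd]
      exact (mem_fixingSubgroup_iff G).mp y.2 _ (hswΔ d hd)
    · have := congrArg (fun u : F => ((u : G) : Equiv.Perm α)) hi
      simp only [g₁, g₂, Subgroup.coe_zpow, Subgroup.coe_mul, Subgroup.coe_inv] at this
      rw [this]
      simp only [Subgroup.coe_mul, mul_inv_rev, mul_assoc]
  -- three points
  have hc3 : 2 < Δ.toFinset.card := by
    rw [← Set.ncard_eq_toFinset_card']
    omega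
  obtain ⟨a, b, c, ha, hb, hc, hab, hac, hbc⟩ := Finset.two_lt_card_iff.mp hc3
  rw [Set.mem_toFinset] at ha hb hc
  obtain ⟨x, hxG, hxΔ, i, hxi⟩ := key a b ha hb
  obtain ⟨y, hyG, hyΔ, j, hyj⟩ := key a c ha hc
  have hswΔ : ∀ a b : α, a ∈ Δ → b ∈ Δ → ∀ d ∈ Δ, Equiv.swap a b d ∈ Δ := by
    intro a b ha hb d hd
    by_cases h1 : d = a
    · rw [h1, Equiv.swap_apply_left]; exact hb
    · by_cases h2 : d = b
      · rw [h2, Equiv.swap_apply_right]; exact ha
      · rw [Equiv.swap_apply_of_ne_of_ne h1 h2]; exact hd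
  have hxinv : ∀ d ∈ Δ, x⁻¹ d = Equiv.swap a b d := by
    intro d hd
    rw [Equiv.Perm.inv_eq_iff_eq, hxΔ _ (hswΔ a b ha hb d hd), Equiv.swap_apply_self]
  have hyinv : ∀ d ∈ Δ, y⁻¹ d = Equiv.swap a c d := by
    intro d hd
    rw [Equiv.Perm.inv_eq_iff_eq, hyΔ _ (hswΔ a c ha hc d hd), Equiv.swap_apply_self]
  set τ : Equiv.Perm α := Equiv.swap a b * Equiv.swap a c with hτ
  set c₁ : Equiv.Perm α := (y * x)⁻¹ * (x * y) with hc₁
  have hcomm : c₁ * g = g * c₁ := by
    have h1 : (x * y) * g * (x * y)⁻¹ = g ^ (i * j) := by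
      calc (x * y) * g * (x * y)⁻¹ = x * (y * g * y⁻¹) * x⁻¹ := by group
        _ = x * g ^ j * x⁻¹ := by rw [hyj]
        _ = (x * g * x⁻¹) ^ j := by rw [conj_zpow]
        _ = g ^ (i * j) := by rw [hxi, zpow_mul]
    have h2 : (y * x) * g * (y * x)⁻¹ = g ^ (i * j) := by
      calc (y * x) * g * (y * x)⁻¹ = y * (x * g * x⁻¹) * y⁻¹ := by group
        _ = y * g ^ i * y⁻¹ := by rw [hxi]
        _ = (y * g * y⁻¹) ^ i := by rw [conj_zpow]
        _ = g ^ (i * j) := by rw [hyj, mul_comm i j, zpow_mul]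
    have h3 : (x * y) * g * (x * y)⁻¹ = (y * x) * g * (y * x)⁻¹ := h1.trans h2.symm
    have h4 : (x * y) * g = (y * x) * g * (y * x)⁻¹ * (x * y) := by rw [← h3]; group
    calc c₁ * g = (y * x)⁻¹ * ((x * y) * g) := by rw [hc₁]; group
      _ = (y * x)⁻¹ * ((y * x) * g * (y * x)⁻¹ * (x * y)) := by rw [h4]
      _ = g * c₁ := by rw [hc₁]; group
  have hc₁Δ : ∀ d ∈ Δ, c₁ d = (τ * τ) d := by
    intro d hd
    have e1 := hswΔ a c ha hc d hd
    have e2 := hswΔ a b ha hb _ e1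
    have e3 := hswΔ a c ha hc _ e2
    rw [hc₁, hτ, mul_inv_rev]
    simp only [Equiv.Perm.mul_apply]
    rw [hyΔ d hd, hxΔ _ e1, hyinv _ e2, hxinv _ e3]
  have hττΔ : ∀ d ∈ Δ, (τ * τ) d ∈ Δ := by
    intro d hd
    have e1 := hswΔ a c ha hc d hd
    have e2 := hswΔ a b ha hb _ e1
    have e3 := hswΔ a c ha hc _ e2
    exact hswΔ a b ha hb _ e3
  have hc₁G : c₁ ∈ G := G.mul_mem (G.inv_mem (G.mul_mem hyG hxG)) (G.mul_mem hxG hyG)
  obtain ⟨s, hs, hcyc⟩ := hgc
  have hc₁s : g (c₁ s) ≠ c₁ s := by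
    intro h
    apply hs
    have : (g * c₁) s = c₁ s := h
    rw [← hcomm] at this
    exact c₁.injective this
  obtain ⟨k, hk⟩ := hcyc hc₁s
  set h := (g ^ k)⁻¹ * c₁ with hh
  have hhG : h ∈ G := G.mul_mem (G.inv_mem (G.zpow_mem hg k)) hc₁G
  have hhs : h s = s := by
    rw [hh, Equiv.Perm.mul_apply, ← hk, Equiv.Perm.inv_def, Equiv.symm_apply_apply]
  have hhcomm : Commute h g := by
    have h1 : Commute c₁ g := hcomm
    have h2 : Commute ((g ^ k)⁻¹) g := ((Commute.refl g).zpow_left k).inv_left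
    exact h2.mul_left h1
  have hhτ : h = τ * τ := by
    ext t
    by_cases ht : t ∈ Δ
    · rw [hh, Equiv.Perm.mul_apply, hc₁Δ t ht, Equiv.Perm.inv_eq_iff_eq]
      exact (Equiv.Perm.zpow_apply_eq_self_of_apply_eq_self ((hmemΔ _).mp (hττΔ t ht)) k).symm
    · have ht' : g t ≠ t := fun h' => ht ((hmemΔ t).mpr h')
      obtain ⟨m, hm⟩ := hcyc ht'
      have h5 : h t = t := by
        rw [← hm, ← Equiv.Perm.mul_apply, (hhcomm.zpow_right m).eq, Equiv.Perm.mul_apply, hhs]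
      have hta : t ≠ a := fun h' => ht (h' ▸ ha)
      have htb : t ≠ b := fun h' => ht (h' ▸ hb)
      have htc : t ≠ c := fun h' => ht (h' ▸ hc)
      rw [h5, hτ]
      simp only [Equiv.Perm.mul_apply]
      rw [Equiv.swap_apply_of_ne_of_ne hta htc, Equiv.swap_apply_of_ne_of_ne hta htb,
        Equiv.swap_apply_of_ne_of_ne hta htc, Equiv.swap_apply_of_ne_of_ne hta htb]
  have h3c : (τ * τ).IsThreeCycle :=
    (Equiv.Perm.isThreeCycle_swap_mul_swap_same hab hac hbc).isThreeCycle_sq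
  exact Equiv.Perm.alternatingGroup_le_of_isPreprimitive_of_isThreeCycle_mem hG h3c (hhτ ▸ hhG)

end Cfsg.Agent.S0713
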