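import Cfsg.Statements.S0714
import Mathlib
-- import your own Cfsg.Agent.* helpers here

set_option autoImplicit false
open Cfsg

namespace Cfsg.Agent.S0714

/-- Over any field, the permutation module of the alternating group of degree at least 5 has exactly four invariant subspaces: zero, the constant functions, the functions with coordinate sum zero, and everything. -/
theorem result {α : Type*} [Fintype α] [DecidableEq α] (hα : 5 ≤ Fintype.card α) {K : Type*} [Field K] (W : Subrepresentation (Cfsg.permRep K (alternatingGroup α) α)) : W.toSubmodule = ⊥ ∨ W = Cfsg.permConstants K (alternatingGroup α) α ∨ W = Cfsg.permSumZero K (alternatingGroup α) α ∨ W.toSubmodule = ⊤ := by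
  classical
  let ρ := Cfsg.permRep K (alternatingGroup α) α
  have hρa : ∀ (g : alternatingGroup α) (f : α → K) (s : α), ρ g f s = f (g⁻¹ • s) :=
    fun _ _ _ => rfl
  haveI : Nonempty α := Fintype.card_pos_iff.mp (by omega)
  let a₀ : α := Classical.arbitrary α
  by_cases hconst : ∀ f ∈ W.toSubmodule, ∀ x y, f x = f y
  · by_cases hbot : W.toSubmodule = ⊥
    · left; exact hbot
    · right; left
      apply Subrepresentation.toSubmodule_injective
      obtain ⟨f, hf, hf0⟩ := Submodule.exists_mem_ne_zero_of_ne_bot hbot
      apply le_antisymm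
      · intro g hg
        change g ∈ Submodule.span K {fun _ => 1}
        rw [Submodule.mem_span_singleton]
        exact ⟨g a₀, funext fun x => by simp [hconst g hg x a₀]⟩
      · change Submodule.span K {fun _ => 1} ≤ _
        rw [Submodule.span_singleton_le_iff_mem]
        have hfa : f a₀ ≠ 0 := by
          intro h
          apply hf0
          funext x
          rw [hconst f hf x a₀, h]; rfl
        have : (fun _ => 1 : α → K) = (f a₀)⁻¹ • f := by
          funext x
          simp [hconst f hf x a₀, hfa]
        rw [this]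
        exact W.toSubmodule.smul_mem _ hf
  · push Not at hconst
    obtain ⟨f, hf, x, y, hxy⟩ := hconst
    have hxy' : x ≠ y := fun h => hxy (by rw [h])
    right; right
    have hdiff : ∀ (g : alternatingGroup α) (h : α → K), h ∈ W.toSubmodule →
        h - ρ g h ∈ W.toSubmodule := fun g h hh =>
      W.toSubmodule.sub_mem hh (W.apply_mem_toSubmodule g hh)
    -- three further points
    have hc3 : 2 < (Finset.univ \ {x, y} : Finset α).card := by
      have h1 := Finset.card_sdiff_add_card_inter (Finset.univ : Finset α) {x, y}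
      have h2 : ((Finset.univ : Finset α) ∩ {x, y}).card ≤ 2 := by
        refine (Finset.card_le_card Finset.inter_subset_right).trans Finset.card_le_two
      rw [Finset.card_univ] at h1
      omega
    obtain ⟨z, v, w, hz, hv, hw, hzv, hzw, hvw⟩ := Finset.two_lt_card_iff.mp hc3
    simp only [Finset.mem_sdiff, Finset.mem_univ, Finset.mem_insert, Finset.mem_singleton,
      true_and, not_or] at hz hv hw
    obtain ⟨hzx, hzy⟩ := hz
    obtain ⟨hvx, hvy⟩ := hv
    obtain ⟨hwx, hwy⟩ := hw
    have hmem3 : ∀ a b c : α, a ≠ b → b ≠ c → Equiv.swap a b * Equiv.swap b c ∈ alternatingGroup α := by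
      intro a b c hab hbc
      rw [Equiv.Perm.mem_alternatingGroup, map_mul, Equiv.Perm.sign_swap hab, Equiv.Perm.sign_swap hbc]
      rfl
    let σ : alternatingGroup α := ⟨Equiv.swap x y * Equiv.swap y z, hmem3 x y z hxy' (Ne.symm hzy)⟩
    let τ : alternatingGroup α := ⟨Equiv.swap y v * Equiv.swap v w, hmem3 y v w (Ne.symm hvy) hvw⟩
    have hσinv : ∀ s : α, σ⁻¹ • s = Equiv.swap y z (Equiv.swap x y s) := by
      intro s
      change ((Equiv.swap x y * Equiv.swap y z)⁻¹ : Equiv.Perm α) s = _
      rw [mul_inv_rev, Equiv.swap_inv, Equiv.swap_inv]; rfl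
    have hτinv : ∀ s : α, τ⁻¹ • s = Equiv.swap v w (Equiv.swap y v s) := by
      intro s
      change ((Equiv.swap y v * Equiv.swap v w)⁻¹ : Equiv.Perm α) s = _
      rw [mul_inv_rev, Equiv.swap_inv, Equiv.swap_inv]; rfl
    set u := f - ρ σ f with hu
    have huW : u ∈ W.toSubmodule := hdiff σ f hf
    have hu_apply : ∀ s, u s = f s - f (Equiv.swap y z (Equiv.swap x y s)) := by
      intro s
      rw [hu, Pi.sub_apply, hρa, hσinv]
    have huy : u y = f y - f x := by
      rw [hu_apply, Equiv.swap_apply_right, Equiv.swap_apply_of_ne_of_ne hxy' (Ne.symm hzx)]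
    have hu0 : ∀ s, s ≠ x → s ≠ y → s ≠ z → u s = 0 := by
      intro s h1 h2 h3
      rw [hu_apply, Equiv.swap_apply_of_ne_of_ne h1 h2, Equiv.swap_apply_of_ne_of_ne h2 h3, sub_self]
    set u' := u - ρ τ u with hu'
    have hu'W : u' ∈ W.toSubmodule := hdiff τ u huW
    have hu'_apply : ∀ s, u' s = u s - u (Equiv.swap v w (Equiv.swap y v s)) := by
      intro s
      rw [hu', Pi.sub_apply, hρa, hτinv]
    have huy0 : u y ≠ 0 := by
      rw [huy]; exact sub_ne_zero.mpr (Ne.symm hxy)
    have hu'eq : u' = u y • (Pi.single y 1 - Pi.single v 1) := by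
      funext s
      rw [hu'_apply]
      simp only [Pi.smul_apply, Pi.sub_apply, smul_eq_mul, Pi.single_apply]
      by_cases hsy : s = y
      · subst hsy
        rw [Equiv.swap_apply_left, Equiv.swap_apply_left, hu0 w hwx hwy (Ne.symm hzw)]
        simp [Ne.symm hvy]
      · by_cases hsv : s = v
        · subst hsv
          rw [Equiv.swap_apply_right, Equiv.swap_apply_of_ne_of_ne (Ne.symm hvy) (Ne.symm hwy),
            hu0 s hvx hvy (Ne.symm hzv)]
          simp [hvy]
        · by_cases hsw : s = w
          · subst hsw
            rw [Equiv.swap_apply_of_ne_of_ne hsy hsv, Equiv.swap_apply_right,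
              hu0 s hwx hwy (Ne.symm hzw), hu0 v hvx hvy (Ne.symm hzv)]
            simp [hsy, hsv]
          · rw [Equiv.swap_apply_of_ne_of_ne hsy hsv, Equiv.swap_apply_of_ne_of_ne hsv hsw]
            simp [hsy, hsv]
    have he : (Pi.single y 1 - Pi.single v 1 : α → K) ∈ W.toSubmodule := by
      have : (Pi.single y 1 - Pi.single v 1 : α → K) = (u y)⁻¹ • u' := by
        rw [hu'eq, smul_smul, inv_mul_cancel₀ huy0, one_smul]
      rw [this]
      exact W.toSubmodule.smul_mem _ hu'W
    have h2t : MulAction.IsMultiplyPretransitive (alternatingGroup α) α 2 := by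
      have := alternatingGroup.isMultiplyPretransitive α
      apply MulAction.isMultiplyPretransitive_of_le (n := Nat.card α - 2)
      · rw [Nat.card_eq_fintype_card]; omega
      · exact Nat.sub_le _ _
    rw [MulAction.is_two_pretransitive_iff] at h2t
    have hsingle : ∀ (g : alternatingGroup α) (a : α), ρ g (Pi.single a 1) = Pi.single (g • a) 1 := by
      intro g a
      funext s
      rw [hρa]
      simp only [Pi.single_apply]
      by_cases h : s = g • a
      · rw [if_pos h, if_pos (by rw [h, inv_smul_smul])]
      · rw [if_neg h, if_neg (fun h' => h (by rw [← h', smul_inv_smul]))]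
    have hall : ∀ a b : α, (Pi.single a 1 - Pi.single b 1 : α → K) ∈ W.toSubmodule := by
      intro a b
      by_cases hab : a = b
      · rw [hab, sub_self]; exact W.toSubmodule.zero_mem
      · obtain ⟨g, hg1, hg2⟩ := h2t (Ne.symm hvy) hab
        have := W.apply_mem_toSubmodule g he
        rw [map_sub] at this
        change ρ g _ - ρ g _ ∈ _ at this
        rwa [hsingle, hsingle, hg1, hg2] at this
    have hsz : (Cfsg.permSumZero K (alternatingGroup α) α).toSubmodule ≤ W.toSubmodule := by
      intro h hh
      have hh' : ∑ s, h s = 0 := hh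
      have : h = ∑ s, h s • (Pi.single s 1 - Pi.single a₀ 1 : α → K) := by
        simp only [smul_sub, Finset.sum_sub_distrib, ← Finset.sum_smul, hh', zero_smul, sub_zero]
        funext t
        simp [Finset.sum_apply, Pi.single_apply]
      rw [this]
      exact W.toSubmodule.sum_mem (fun s _ => W.toSubmodule.smul_mem _ (hall s a₀))
    by_cases hle : W.toSubmodule ≤ (Cfsg.permSumZero K (alternatingGroup α) α).toSubmodule
    · left
      apply Subrepresentation.toSubmodule_injective
      exact le_antisymm hle hsz
    · right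
      rw [SetLike.not_le_iff_exists] at hle
      obtain ⟨g, hg, hg0⟩ := hle
      have hc : ∑ s, g s ≠ 0 := hg0
      rw [eq_top_iff]
      intro h _
      have h1 : h - ((∑ s, h s) / (∑ s, g s)) • g ∈ (Cfsg.permSumZero K (alternatingGroup α) α).toSubmodule := by
        change ∑ s, (h - ((∑ s, h s) / (∑ s, g s)) • g) s = 0
        simp only [Pi.sub_apply, Pi.smul_apply, smul_eq_mul, Finset.sum_sub_distrib, ← Finset.mul_sum]
        rw [div_mul_cancel₀ _ hc, sub_self]
      have h2 := W.toSubmodule.add_mem (hsz h1) (W.toSubmodule.smul_mem ((∑ s, h s) / (∑ s, g s)) hg)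
      rwa [sub_add_cancel] at h2

end Cfsg.Agent.S0714
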