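import Cfsg.Statements.S0718
import Cfsg.Agent.H25.MultFree
import Cfsg.Agent.H25.PermRepChar

set_option autoImplicit false
open Cfsg

namespace Cfsg.Agent.S0718

/-- Multiplicity-freeness of the permutation character is equivalent to commutativity of the centraliser ring, i.e. of the algebra of `G`-equivariant endomorphisms of the complex permutation module. -/
theorem result {G : Type*} [Group G] [Fintype G] {Ω : Type*} [Fintype Ω] [MulAction G Ω] : (∀ χ : G → ℂ, Cfsg.IsIrrCharacter G χ → Cfsg.classInner (fun g : G => (Nat.card (MulAction.fixedBy Ω g) : ℂ)) χ = 0 ∨ Cfsg.classInner (fun g : G => (Nat.card (MulAction.fixedBy Ω g) : ℂ)) χ = 1) ↔ ∀ S T : (Ω → ℂ) →ₗ[ℂ] (Ω → ℂ), S ∈ ((Cfsg.permRep ℂ G Ω).linHom (Cfsg.permRep ℂ G Ω)).invariants → T ∈ ((Cfsg.permRep ℂ G Ω).linHom (Cfsg.permRep ℂ G Ω)).invariants → S ∘ₗ T = T ∘ₗ S := by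
  have hchar : (Cfsg.permRep ℂ G Ω).character =
      fun g : G => (Nat.card (MulAction.fixedBy Ω g) : ℂ) := by
    funext g
    exact Cfsg.Agent.H25.MultFree.permRep_character g
  rw [← hchar]
  exact ⟨fun h S T hS hT => Cfsg.Agent.H25.MultFree.comm_of_mult_free _ h S T hS hT,
    fun h => Cfsg.Agent.H25.MultFree.mult_free_of_comm _ h⟩

end Cfsg.Agent.S0718
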