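import Cfsg.Statements.S0724
import Mathlib

set_option autoImplicit false
open Cfsg

namespace Cfsg.Agent.S0724

/-- Blichfeldt's Theorem: if a finite set `L` of natural numbers contains the number of fixed points of every non-identity element of a permutation group `G` of degree `n`, then the order of `G` divides `∏ (n - l)` over `l ∈ L`. -/
theorem result {α : Type*} [Fintype α] [DecidableEq α] (G : Subgroup (Equiv.Perm α)) (L : Finset ℕ) (hL : ∀ g ∈ G, g ≠ 1 → Nat.card (MulAction.fixedBy α g) ∈ L) : Nat.card G ∣ ∏ l ∈ L, (Fintype.card α - l) := by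
  classical
  haveI : Fintype G := Fintype.ofFinite _
  set π : G → ℤ := fun g => (Nat.card (MulAction.fixedBy α (g : Equiv.Perm α)) : ℤ) with hπ
  have hA : ∀ k : ℕ, (Nat.card G : ℤ) ∣ ∑ g : G, π g ^ k := by
    intro k
    haveI : ∀ g : G, Fintype (MulAction.fixedBy (Fin k → α) g) := fun g => Fintype.ofFinite _
    haveI : Fintype (MulAction.orbitRel.Quotient G (Fin k → α)) := Fintype.ofFinite _
    have h1 := MulAction.sum_card_fixedBy_eq_card_orbits_mul_card_group G (Fin k → α)
    have h2 : ∀ g : G, Fintype.card (MulAction.fixedBy (Fin k → α) g) =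
        Nat.card (MulAction.fixedBy α (g : Equiv.Perm α)) ^ k := by
      intro g
      rw [← Nat.card_eq_fintype_card]
      have e : MulAction.fixedBy (Fin k → α) g ≃ (Fin k → MulAction.fixedBy α (g : Equiv.Perm α)) :=
        { toFun := fun f i => ⟨f.1 i, congrFun f.2 i⟩
          invFun := fun h => ⟨fun i => (h i).1, funext fun i => (h i).2⟩
          left_inv := fun f => rfl
          right_inv := fun h => rfl }
      rw [Nat.card_congr e, Nat.card_fun, Nat.card_eq_fintype_card (α := Fin k), Fintype.card_fin]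
    have h3 : ∑ g : G, π g ^ k = ((∑ g : G, Fintype.card (MulAction.fixedBy (Fin k → α) g) : ℕ) : ℤ) := by
      rw [Nat.cast_sum]
      apply Finset.sum_congr rfl
      intro g _
      rw [h2 g, Nat.cast_pow]
    rw [h3, h1, Nat.card_eq_fintype_card]
    exact ⟨_, by rw [Nat.cast_mul, mul_comm]⟩
  have hB : ∀ (L : Finset ℕ) (k : ℕ),
      (Nat.card G : ℤ) ∣ ∑ g : G, π g ^ k * ∏ l ∈ L, (π g - (l : ℤ)) := by
    intro L
    induction L using Finset.induction_on with
    | empty =>
      intro k
      simpa using hA k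
    | insert l0 L hl0 ih =>
      intro k
      have h1 : ∑ g : G, π g ^ k * ∏ l ∈ insert l0 L, (π g - (l : ℤ)) =
          ∑ g : G, π g ^ (k + 1) * ∏ l ∈ L, (π g - (l : ℤ)) -
            (l0 : ℤ) * ∑ g : G, π g ^ k * ∏ l ∈ L, (π g - (l : ℤ)) := by
        rw [Finset.mul_sum, ← Finset.sum_sub_distrib]
        apply Finset.sum_congr rfl
        intro g _
        rw [Finset.prod_insert hl0]
        ring
      rw [h1]
      exact dvd_sub (ih (k + 1)) (Dvd.dvd.mul_left (ih k) _)
  have hC := hB L 0
  have hD : ∑ g : G, π g ^ 0 * ∏ l ∈ L, (π g - (l : ℤ)) = ∏ l ∈ L, ((Fintype.card α : ℤ) - (l : ℤ)) := by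
    rw [Finset.sum_eq_single (1 : G)]
    · have : π 1 = (Fintype.card α : ℤ) := by
        have h5 : MulAction.fixedBy α ((1 : G) : Equiv.Perm α) = Set.univ := by
          ext a
          simp [MulAction.mem_fixedBy]
        change ((Nat.card (MulAction.fixedBy α ((1 : G) : Equiv.Perm α)) : ℕ) : ℤ) = _
        rw [h5, Nat.card_univ, Nat.card_eq_fintype_card]
      rw [this, pow_zero, one_mul]
    · intro g _ hg
      have hg' : (g : Equiv.Perm α) ≠ 1 := fun h => hg (Subtype.ext h)
      have := hL g g.2 hg'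
      rw [Finset.prod_eq_zero this (sub_self _), mul_zero]
    · intro h
      exact absurd (Finset.mem_univ _) h
  rw [hD] at hC
  by_cases hle : ∀ l ∈ L, l ≤ Fintype.card α
  · rw [← Int.natCast_dvd_natCast, Nat.cast_prod]
    have : ∏ l ∈ L, ((Fintype.card α - l : ℕ) : ℤ) = ∏ l ∈ L, ((Fintype.card α : ℤ) - (l : ℤ)) := by
      apply Finset.prod_congr rfl
      intro l hl
      rw [Nat.cast_sub (hle l hl)]
    rw [this]
    exact hC
  · push Not at hle
    obtain ⟨l, hl, hlt⟩ := hle
    rw [Finset.prod_eq_zero hl (by omega)]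
    exact dvd_zero _

end Cfsg.Agent.S0724
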