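import Cfsg.Statements.S0726
-- import your own Cfsg.Agent.* helpers here

set_option autoImplicit false
open Cfsg

namespace Cfsg.Agent.S0726

/-- The left and right regular permutation representations of a group are each other's centralisers in the symmetric group: the centraliser of the left regular image is the right regular image, and a transitive subgroup centralising the left regular image is the whole right regular image. -/
theorem result {G : Type*} [Group G] : Subgroup.centralizer ((MulAction.toPermHom G G).range : Set (Equiv.Perm G)) = (MulAction.toPermHom Gᵐᵒᵖ G).range ∧ ∀ H : Subgroup (Equiv.Perm G), H ≤ Subgroup.centralizer ((MulAction.toPermHom G G).range : Set (Equiv.Perm G)) → MulAction.IsPretransitive H G → H = (MulAction.toPermHom Gᵐᵒᵖ G).range := by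
  have key : Subgroup.centralizer ((MulAction.toPermHom G G).range : Set (Equiv.Perm G)) = (MulAction.toPermHom Gᵐᵒᵖ G).range := by
    ext c
    constructor
    · intro hc
      refine ⟨MulOpposite.op (c 1), ?_⟩
      ext x
      have := (Subgroup.mem_centralizer_iff.mp hc) (MulAction.toPermHom G G x) ⟨x, rfl⟩
      have h2 := congrArg (fun f : Equiv.Perm G => f 1) this
      simp only [Equiv.Perm.coe_mul, Function.comp_apply, MulAction.toPermHom_apply, MulAction.toPerm_apply, smul_eq_mul, mul_one] at h2
      simp only [MulAction.toPermHom_apply, MulAction.toPerm_apply, op_smul_eq_mul]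
      exact h2
    · rintro ⟨g, rfl⟩
      rw [Subgroup.mem_centralizer_iff]
      rintro _ ⟨h, rfl⟩
      ext x
      simp only [Equiv.Perm.coe_mul, Function.comp_apply, MulAction.toPermHom_apply, MulAction.toPerm_apply, smul_eq_mul]
      induction g using MulOpposite.rec' with
      | h g => simp [mul_assoc]
  refine ⟨key, ?_⟩
  intro H hH ht
  apply le_antisymm (key ▸ hH)
  rintro _ ⟨g, rfl⟩
  obtain ⟨h, hh⟩ := ht.exists_smul_eq (1 : G) (MulOpposite.unop g)
  have h1 : (h : Equiv.Perm G) ∈ (MulAction.toPermHom Gᵐᵒᵖ G).range := key ▸ hH h.2
  obtain ⟨g', hg'⟩ := h1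
  have h2 : (h : Equiv.Perm G) 1 = MulOpposite.unop g := hh
  rw [← hg'] at h2
  simp only [MulAction.toPermHom_apply, MulAction.toPerm_apply] at h2
  have h3 : g' = g := by
    induction g' using MulOpposite.rec' with
    | h g' =>
      simp only [op_smul_eq_mul, one_mul] at h2
      rw [h2]; simp
  rw [← h3, hg']
  exact h.2

end Cfsg.Agent.S0726
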