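import Cfsg.Statements.S0728
import Mathlib
-- import your own Cfsg.Agent.* helpers here

set_option autoImplicit false
open Cfsg

namespace Cfsg.Agent.S0728

theorem key {α : Type*} [Fintype α] [DecidableEq α] (G : Subgroup (Equiv.Perm α))
    (L1 : ∀ x1 x2 x3 y1 y2 y3 : α, x1 ≠ x2 → x1 ≠ x3 → x2 ≠ x3 → y1 ≠ y2 → y1 ≠ y3 → y2 ≠ y3 →
      ∃ g ∈ G, g x1 = y1 ∧ g x2 = y2 ∧ g x3 = y3)
    (L2 : ∀ g ∈ G, ∀ x1 x2 x3 : α, x1 ≠ x2 → x1 ≠ x3 → x2 ≠ x3 → g x1 = x1 → g x2 = x2 →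
      g x3 = x3 → g = 1)
    {a b c : α} (hab : a ≠ b) (hac : a ≠ c) (hbc : b ≠ c)
    (E : Finset (Equiv.Perm α))
    (hE : ∀ h ∈ E, h ∈ G ∧ h ≠ 1 ∧ h ^ 3 = 1 ∧ h a = a ∧ h b = b) : E.card ≤ 2 := by
  classical
  have ias : ∀ (f : Equiv.Perm α) (z : α), f⁻¹ (f z) = z :=
    fun f z => Equiv.Perm.inv_eq_iff_eq.mpr rfl
  let P : Finset (α × α) := Finset.univ.filter (fun p => p.1 ≠ p.2 ∧ p.1 ≠ c ∧ p.2 ≠ c)
  have hPm : ∀ p : α × α, p ∈ P ↔ (p.1 ≠ p.2 ∧ p.1 ≠ c ∧ p.2 ≠ c) := by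
    intro p; simp [P]
  have hγ : ∀ p : α × α, ∃ γ : Equiv.Perm α, p ∈ P →
      (γ ∈ G ∧ γ a = p.1 ∧ γ b = p.2 ∧ γ c = c) := by
    intro p
    by_cases hp : p ∈ P
    · obtain ⟨h1, h2, h3⟩ := (hPm p).mp hp
      obtain ⟨γ, hγ, e1, e2, e3⟩ := L1 a b c p.1 p.2 c hab hac hbc h1 h2 h3
      exact ⟨γ, fun _ => ⟨hγ, e1, e2, e3⟩⟩
    · exact ⟨1, fun h => absurd h hp⟩
  choose γ hγ using hγ
  let F : (α × α) × Equiv.Perm α → α × α := fun x => (γ x.1 (x.2 c), γ x.1 (x.2 (x.2 c)))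
  -- facts on E
  have f3 : ∀ h ∈ E, h (h (h c)) = c := by
    intro h hh
    have := congrArg (fun f : Equiv.Perm α => f c) (hE h hh).2.2.1
    simpa [pow_succ, Equiv.Perm.mul_apply] using this
  have f1 : ∀ h ∈ E, h c ≠ c := by
    intro h hh e
    obtain ⟨hG, h1, -, ha, hb⟩ := hE h hh
    exact h1 (L2 h hG a b c hab hac hbc ha hb e)
  have f2 : ∀ h ∈ E, h (h c) ≠ c := by
    intro h hh e
    have := f3 h hh
    rw [e] at this
    exact f1 h hh this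
  have agree : ∀ g ∈ G, ∀ g' ∈ G, ∀ x1 x2 x3 : α, x1 ≠ x2 → x1 ≠ x3 → x2 ≠ x3 →
      g x1 = g' x1 → g x2 = g' x2 → g x3 = g' x3 → g = g' := by
    intro g hg g' hg' x1 x2 x3 a1 a2 a3 e1 e2 e3
    have : g'⁻¹ * g = 1 := by
      refine L2 _ (G.mul_mem (G.inv_mem hg') hg) x1 x2 x3 a1 a2 a3 ?_ ?_ ?_
      · rw [Equiv.Perm.mul_apply, Equiv.Perm.inv_eq_iff_eq, e1]
      · rw [Equiv.Perm.mul_apply, Equiv.Perm.inv_eq_iff_eq, e2]
      · rw [Equiv.Perm.mul_apply, Equiv.Perm.inv_eq_iff_eq, e3]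
    exact (inv_mul_eq_one.mp this).symm
  have hmaps : ∀ x ∈ P ×ˢ E, F x ∈ P := by
    rintro ⟨p, h⟩ hx
    obtain ⟨hp, hh⟩ := Finset.mem_product.mp hx
    obtain ⟨-, -, -, ec⟩ := hγ p hp
    rw [hPm]
    refine ⟨?_, ?_, ?_⟩
    · intro e
      exact f1 h hh (h.injective ((γ p).injective e)).symm
    · intro e
      exact f1 h hh ((γ p).injective (e.trans ec.symm))
    · intro e
      exact f2 h hh ((γ p).injective (e.trans ec.symm))
  have Kfib : ∀ x ∈ P ×ˢ E, ∀ x' ∈ P ×ˢ E, F x = F x' →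
      (x.1 = x'.1 → x = x') ∧ (x'.1 = x.1 ∨ x'.1 = x.1.swap) := by
    rintro ⟨p, h⟩ hx ⟨p', h'⟩ hx' hF
    obtain ⟨hp, hh⟩ := Finset.mem_product.mp hx
    obtain ⟨hp', hh'⟩ := Finset.mem_product.mp hx'
    obtain ⟨gG, ea, eb, ec⟩ := hγ p hp
    obtain ⟨gG', ea', eb', ec'⟩ := hγ p' hp'
    obtain ⟨hG, hne, -, ha, hb⟩ := hE h hh
    obtain ⟨hG', hne', -, ha', hb'⟩ := hE h' hh'
    have hF1 : γ p (h c) = γ p' (h' c) := congrArg Prod.fst hF
    have hF2 : γ p (h (h c)) = γ p' (h' (h' c)) := congrArg Prod.snd hF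
    have inv_c : (γ p)⁻¹ c = c := by rw [Equiv.Perm.inv_eq_iff_eq, ec]
    have inv_c' : (γ p')⁻¹ c = c := by rw [Equiv.Perm.inv_eq_iff_eq, ec']
    have hPF := (hPm _).mp (hmaps _ hx)
    have hgg : γ p * h * (γ p)⁻¹ = γ p' * h' * (γ p')⁻¹ := by
      refine agree _ (G.mul_mem (G.mul_mem gG hG) (G.inv_mem gG)) _
        (G.mul_mem (G.mul_mem gG' hG') (G.inv_mem gG')) c (γ p (h c)) (γ p (h (h c)))
        (Ne.symm hPF.2.1) (Ne.symm hPF.2.2) hPF.1 ?_ ?_ ?_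
      · simp only [Equiv.Perm.mul_apply, inv_c, inv_c']
        exact hF1
      · rw [Equiv.Perm.mul_apply, Equiv.Perm.mul_apply, ias, hF1,
          Equiv.Perm.mul_apply, Equiv.Perm.mul_apply, ias]
        exact hF2
      · rw [Equiv.Perm.mul_apply, Equiv.Perm.mul_apply, ias, hF2,
          Equiv.Perm.mul_apply, Equiv.Perm.mul_apply, ias, f3 h hh,
          f3 h' hh', ec, ec']
    set g := γ p * h * (γ p)⁻¹ with hg
    have gmem : g ∈ G := G.mul_mem (G.mul_mem gG hG) (G.inv_mem gG)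
    have gne : g ≠ 1 := by
      intro e
      have : g c = γ p (h c) := by
        rw [hg, Equiv.Perm.mul_apply, Equiv.Perm.mul_apply, inv_c]
      rw [e] at this
      exact hPF.2.1 this.symm
    have fx1 : g p.1 = p.1 := by
      rw [hg, ← ea, Equiv.Perm.mul_apply, Equiv.Perm.mul_apply, ias, ha]
    have fx2 : g p.2 = p.2 := by
      rw [hg, ← eb, Equiv.Perm.mul_apply, Equiv.Perm.mul_apply, ias, hb]
    have fx1' : g p'.1 = p'.1 := by
      rw [hgg, ← ea', Equiv.Perm.mul_apply, Equiv.Perm.mul_apply, ias, ha']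
    have fx2' : g p'.2 = p'.2 := by
      rw [hgg, ← eb', Equiv.Perm.mul_apply, Equiv.Perm.mul_apply, ias, hb']
    have hp12 := ((hPm p).mp hp).1
    have hp12' := ((hPm p').mp hp').1
    have two : ∀ z, g z = z → z = p.1 ∨ z = p.2 := by
      intro z hz
      by_contra hcon
      push_neg at hcon
      exact gne (L2 g gmem p.1 p.2 z hp12 (Ne.symm hcon.1) (Ne.symm hcon.2) fx1 fx2 hz)
    constructor
    · intro hpp
      have hpp' : p = p' := hpp
      subst hpp'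
      have : h = h' := by
        have h5 : γ p * h * (γ p)⁻¹ = γ p * h' * (γ p)⁻¹ := hgg
        exact mul_left_cancel (mul_right_cancel h5)
      rw [this]
    · show p' = p ∨ p' = p.swap
      rcases two _ fx1' with e1 | e1 <;> rcases two _ fx2' with e2 | e2
      · exact absurd (e1.trans e2.symm) hp12'
      · left; exact Prod.ext e1 e2
      · right; exact Prod.ext e1 e2
      · exact absurd (e1.trans e2.symm) hp12'
  have hfib : ∀ w ∈ P, ((P ×ˢ E).filter (fun x => F x = w)).card ≤ 2 := by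
    intro w _
    by_contra hcon
    push_neg at hcon
    obtain ⟨x1, x2, x3, m1, m2, m3, n12, n13, n23⟩ := Finset.two_lt_card_iff.mp hcon
    obtain ⟨m1, q1⟩ := Finset.mem_filter.mp m1
    obtain ⟨m2, q2⟩ := Finset.mem_filter.mp m2
    obtain ⟨m3, q3⟩ := Finset.mem_filter.mp m3
    have k12 := Kfib x1 m1 x2 m2 (q1.trans q2.symm)
    have k13 := Kfib x1 m1 x3 m3 (q1.trans q3.symm)
    have k23 := Kfib x2 m2 x3 m3 (q2.trans q3.symm)
    have e2 : x2.1 = x1.1.swap := by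
      rcases k12.2 with e | e
      · exact absurd (k12.1 e.symm) n12
      · exact e
    have e3 : x3.1 = x1.1.swap := by
      rcases k13.2 with e | e
      · exact absurd (k13.1 e.symm) n13
      · exact e
    exact n23 (k23.1 (e2.trans e3.symm))
  have hcard := Finset.card_le_mul_card_image_of_maps_to (s := P ×ˢ E) (t := P) (f := F) hmaps 2 hfib
  rw [Finset.card_product] at hcard
  have hPpos : 0 < P.card := Finset.card_pos.mpr ⟨(a, b), (hPm _).mpr ⟨hab, hac, hbc⟩⟩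
  exact Nat.le_of_mul_le_mul_left (by linarith : P.card * E.card ≤ P.card * 2) hPpos


/-- In a sharply triply transitive group of even degree at least 6 (degree `q + 1`, `q` odd), a two-point stabiliser has at most one subgroup of order 3. -/
theorem result {α : Type*} [Fintype α] [DecidableEq α] (heven : Even (Fintype.card α)) (h6 : 6 ≤ Fintype.card α) (G : Subgroup (Equiv.Perm α)) (h3 : MulAction.IsMultiplyPretransitive G α 3) (hsharp : ∀ x : Fin 3 ↪ α, MulAction.stabilizer G x = ⊥) {a b : α} (hab : a ≠ b) (A B : Subgroup G) (hA : A ≤ MulAction.stabilizer G a ⊓ MulAction.stabilizer G b) (hB : B ≤ MulAction.stabilizer G a ⊓ MulAction.stabilizer G b) (hA3 : Nat.card A = 3) (hB3 : Nat.card B = 3) : A = B := by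
  classical
  have inj3 : ∀ x1 x2 x3 : α, x1 ≠ x2 → x1 ≠ x3 → x2 ≠ x3 → Function.Injective ![x1, x2, x3] := by
    intro x1 x2 x3 h12 h13 h23 i j hij
    fin_cases i <;> fin_cases j <;> simp_all
  have L1 : ∀ x1 x2 x3 y1 y2 y3 : α, x1 ≠ x2 → x1 ≠ x3 → x2 ≠ x3 → y1 ≠ y2 → y1 ≠ y3 → y2 ≠ y3 →
      ∃ g ∈ G, g x1 = y1 ∧ g x2 = y2 ∧ g x3 = y3 := by
    intro x1 x2 x3 y1 y2 y3 a1 a2 a3 b1 b2 b3
    obtain ⟨g, hg⟩ := h3.exists_smul_eq ⟨![x1, x2, x3], inj3 _ _ _ a1 a2 a3⟩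
      ⟨![y1, y2, y3], inj3 _ _ _ b1 b2 b3⟩
    exact ⟨g, g.2, DFunLike.congr_fun hg 0, DFunLike.congr_fun hg 1, DFunLike.congr_fun hg 2⟩
  have L2 : ∀ g ∈ G, ∀ x1 x2 x3 : α, x1 ≠ x2 → x1 ≠ x3 → x2 ≠ x3 → g x1 = x1 → g x2 = x2 →
      g x3 = x3 → g = 1 := by
    intro g hg x1 x2 x3 a1 a2 a3 e1 e2 e3
    have : (⟨g, hg⟩ : G) ∈ MulAction.stabilizer G
        (⟨![x1, x2, x3], inj3 _ _ _ a1 a2 a3⟩ : Fin 3 ↪ α) := by
      rw [MulAction.mem_stabilizer_iff]
      ext i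
      fin_cases i
      · exact e1
      · exact e2
      · exact e3
    rw [hsharp, Subgroup.mem_bot] at this
    exact congrArg Subtype.val this
  -- a third point
  obtain ⟨c, hc⟩ : ∃ c : α, c ∉ ({a, b} : Finset α) := by
    by_contra hcon
    push_neg at hcon
    have : Fintype.card α ≤ ({a, b} : Finset α).card := by
      rw [← Finset.card_univ]
      exact Finset.card_le_card (fun x _ => hcon x)
    have h2 : ({a, b} : Finset α).card ≤ 2 := Finset.card_le_two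
    omega
  have hac : a ≠ c := by
    rintro rfl; exact hc (by simp)
  have hbc : b ≠ c := by
    rintro rfl; exact hc (by simp)
  by_contra hne
  have cube : ∀ (C : Subgroup G), Nat.card C = 3 → ∀ h ∈ C, h ^ 3 = 1 := by
    intro C hC h hh
    have := pow_card_eq_one' (x := (⟨h, hh⟩ : C))
    rw [hC] at this
    exact congrArg Subtype.val this
  have hBA : ¬ B ≤ A := by
    intro hle
    exact hne (Subgroup.eq_of_le_of_card_ge hle (by rw [hA3, hB3])).symm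
  obtain ⟨h2, h2B, h2A⟩ := SetLike.not_le_iff_exists.mp hBA
  have hAbot : A ≠ ⊥ := by
    rintro rfl
    rw [Subgroup.card_bot] at hA3
    omega
  obtain ⟨h1, h1A, h1ne⟩ := (Subgroup.ne_bot_iff_exists_ne_one.mp hAbot) |>.imp
    (fun x hx => hx) |> fun ⟨x, hx⟩ => (⟨x.1, x.2, fun e => hx (Subtype.ext e)⟩ :
      ∃ h1 : G, h1 ∈ A ∧ h1 ≠ 1)
  have h2ne : h2 ≠ 1 := by
    rintro rfl; exact h2A A.one_mem
  have c1 := cube A hA3 h1 h1A
  have n1 : h1 ≠ h1⁻¹ := by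
    intro e
    have e2 : h1 * h1 = 1 := by
      nth_rewrite 2 [e]
      exact mul_inv_cancel h1
    apply h1ne
    calc h1 = h1 ^ 3 * (h1 * h1)⁻¹ := by group
      _ = 1 := by rw [c1, e2]; simp
  have n2 : h1 ≠ h2 := by
    rintro rfl; exact h2A h1A
  have n3 : h1⁻¹ ≠ h2 := by
    rintro rfl; exact h2A (A.inv_mem h1A)
  have fixA : ∀ h ∈ A, (h : Equiv.Perm α) a = a ∧ (h : Equiv.Perm α) b = b := fun h hh =>
    ⟨(hA hh).1, (hA hh).2⟩
  have fixB : ∀ h ∈ B, (h : Equiv.Perm α) a = a ∧ (h : Equiv.Perm α) b = b := fun h hh =>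
    ⟨(hB hh).1, (hB hh).2⟩
  have prop : ∀ h : G, h ≠ 1 → h ^ 3 = 1 →
      ((h : Equiv.Perm α) a = a ∧ (h : Equiv.Perm α) b = b) →
      (h : Equiv.Perm α) ∈ G ∧ (h : Equiv.Perm α) ≠ 1 ∧ (h : Equiv.Perm α) ^ 3 = 1 ∧
        (h : Equiv.Perm α) a = a ∧ (h : Equiv.Perm α) b = b := by
    intro h hn h3' hf
    exact ⟨h.2, fun e => hn (Subtype.ext e), congrArg Subtype.val h3', hf.1, hf.2⟩
  have hcard := key G L1 L2 hab hac hbc
    ({(h1 : Equiv.Perm α), ((h1⁻¹ : G) : Equiv.Perm α), (h2 : Equiv.Perm α)} : Finset _) (by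
      intro h hh
      simp only [Finset.mem_insert, Finset.mem_singleton] at hh
      rcases hh with rfl | rfl | rfl
      · exact prop h1 h1ne c1 (fixA h1 h1A)
      · exact prop h1⁻¹ (inv_ne_one.mpr h1ne) (cube A hA3 _ (A.inv_mem h1A))
          (fixA _ (A.inv_mem h1A))
      · exact prop h2 h2ne (cube B hB3 h2 h2B) (fixB h2 h2B))
  have : ({(h1 : Equiv.Perm α), ((h1⁻¹ : G) : Equiv.Perm α), (h2 : Equiv.Perm α)} :
      Finset _).card = 3 := by
    apply Finset.card_eq_three.mpr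
    exact ⟨_, _, _, fun e => n1 (Subtype.ext e), fun e => n2 (Subtype.ext e),
      fun e => n3 (Subtype.ext e), rfl⟩
  omega

end Cfsg.Agent.S0728
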