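import Cfsg.Statements.S0733
import Mathlib
-- import your own Cfsg.Agent.* helpers here

set_option autoImplicit false
open Cfsg

namespace Cfsg.Agent.S0733

open scoped Pointwise


/-- A permutation group of affine type — generated by the translations of a finite vector space `V` over `ZMod p` together with a group `G₀` of linear automorphisms — is primitive on `V` if and only if `G₀` is irreducible on `V`. -/
theorem result {p : ℕ} [Fact p.Prime] {V : Type*} [AddCommGroup V] [Module (ZMod p) V] [Finite V] [Nontrivial V] (G₀ : Subgroup (V ≃ₗ[ZMod p] V)) (G : Subgroup (Equiv.Perm V)) (hG : ∀ σ : Equiv.Perm V, σ ∈ G ↔ ∃ g ∈ G₀, ∃ b : V, ∀ x : V, σ x = (g : V ≃ₗ[ZMod p] V) x + b) : MulAction.IsPreprimitive G V ↔ ∀ W : Submodule (ZMod p) V, (∀ g ∈ G₀, ∀ v ∈ W, (g : V ≃ₗ[ZMod p] V) v ∈ W) → W = ⊥ ∨ W = ⊤ := by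
  classical
  constructor
  · intro hprim W hW
    have hblock : MulAction.IsBlock G (W : Set V) := by
      rw [MulAction.isBlock_iff_smul_eq_of_mem]
      rintro ⟨σ, hσ⟩ a ha hσa
      obtain ⟨g, hg, b, hgb⟩ := (hG σ).mp hσ
      have hσa' : σ a ∈ W := hσa
      have hb : b ∈ W := by
        rw [hgb] at hσa'
        exact (Submodule.add_mem_iff_right W (hW g hg a ha)).mp hσa'
      ext y
      constructor
      · rintro ⟨x, hx, rfl⟩
        show σ x ∈ W
        rw [hgb]
        exact W.add_mem (hW g hg x hx) hb
      · intro hy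
        refine ⟨(g⁻¹ : V ≃ₗ[ZMod p] V) (y - b), hW g⁻¹ (G₀.inv_mem hg) _ (W.sub_mem hy hb), ?_⟩
        show σ _ = y
        rw [hgb]
        have : g ((g⁻¹ : V ≃ₗ[ZMod p] V) (y - b)) = y - b := LinearEquiv.apply_symm_apply g _
        rw [this]
        abel
    rcases hprim.isTrivialBlock_of_isBlock hblock with h | h
    · left
      rw [Submodule.eq_bot_iff]
      intro v hv
      exact h hv W.zero_mem
    · right
      rw [Submodule.eq_top_iff']
      intro v
      have : v ∈ (W : Set V) := h ▸ Set.mem_univ v
      exact this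
  · intro hirr
    have htr : ∀ b : V, Equiv.addRight b ∈ G := fun b =>
      (hG _).mpr ⟨1, G₀.one_mem, b, fun z => by simp⟩
    haveI : MulAction.IsPretransitive G V :=
      ⟨fun x y => ⟨⟨Equiv.addRight (y - x), htr _⟩, by
        show x + (y - x) = y
        abel⟩⟩
    apply MulAction.IsPreprimitive.of_isTrivialBlock_base (0 : V)
    intro B h0 hB
    have hadd : ∀ a ∈ B, ∀ b ∈ B, a + b ∈ B := by
      intro a ha b hb
      have h1 : (⟨Equiv.addRight b, htr b⟩ : G) • B = B := by
        apply hB.smul_eq_of_mem h0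
        show (0 : V) + b ∈ B
        rwa [zero_add]
      rw [← h1]
      exact ⟨a, ha, rfl⟩
    have hnsmul : ∀ (n : ℕ), ∀ x ∈ B, n • x ∈ B := by
      intro n x hx
      induction n with
      | zero => rwa [zero_smul]
      | succ n ih => rw [succ_nsmul]; exact hadd _ ih _ hx
    let W : Submodule (ZMod p) V :=
      { carrier := B
        add_mem' := fun {a b} ha hb => hadd a ha b hb
        zero_mem' := h0
        smul_mem' := fun c x hx => by
          have : c • x = c.val • x := by
            rw [← Nat.cast_smul_eq_nsmul (ZMod p), ZMod.natCast_zmod_val]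
          rw [this]
          exact hnsmul _ x hx }
    have hWinv : ∀ g ∈ G₀, ∀ v ∈ W, (g : V ≃ₗ[ZMod p] V) v ∈ W := by
      intro g hg v hv
      have hgG : g.toEquiv ∈ G := (hG _).mpr ⟨g, hg, 0, fun z => by simp⟩
      have h1 : (⟨g.toEquiv, hgG⟩ : G) • B = B := by
        apply hB.smul_eq_of_mem h0
        show g (0 : V) ∈ B
        rwa [map_zero]
      show g v ∈ B
      rw [← h1]
      exact ⟨v, hv, rfl⟩
    rcases hirr W hWinv with h | h
    · left
      intro x hx y hy
      have hx' : x ∈ W := hx
      have hy' : y ∈ W := hy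
      rw [h, Submodule.mem_bot] at hx' hy'
      rw [hx', hy']
    · right
      rw [Set.eq_univ_iff_forall]
      intro x
      have : x ∈ W := h ▸ Submodule.mem_top
      exact this

end Cfsg.Agent.S0733
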