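import Cfsg.Statements.S0734
import Mathlib
-- import your own Cfsg.Agent.* helpers here

set_option autoImplicit false
open Cfsg

namespace Cfsg.Agent.S0734

open scoped Pointwise


/-- Higman's criterion for primitivity: a transitive action on a finite set is primitive if and only if every non-trivial orbital graph (edges = images of a fixed pair of distinct points) is connected. -/
theorem result {G : Type*} [Group G] {Ω : Type*} [Finite Ω] [MulAction G Ω] [MulAction.IsPretransitive G Ω] [Nontrivial Ω] : MulAction.IsPreprimitive G Ω ↔ ∀ a b : Ω, a ≠ b → (SimpleGraph.fromRel fun x y : Ω => ∃ g : G, g • a = x ∧ g • b = y).Connected := by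
  classical
  constructor
  · intro hprim a b hab
    set Γ := SimpleGraph.fromRel fun x y : Ω => ∃ g : G, g • a = x ∧ g • b = y with hΓ
    have inv : ∀ (g : G) (x y : Ω), Γ.Adj x y → Γ.Adj (g • x) (g • y) := by
      intro g x y hxy
      rw [hΓ, SimpleGraph.fromRel_adj] at hxy ⊢
      refine ⟨fun h => hxy.1 (MulAction.injective g h), ?_⟩
      rcases hxy.2 with ⟨h, h1, h2⟩ | ⟨h, h1, h2⟩
      · exact Or.inl ⟨g * h, by rw [mul_smul, h1], by rw [mul_smul, h2]⟩
      · exact Or.inr ⟨g * h, by rw [mul_smul, h1], by rw [mul_smul, h2]⟩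
    have rinv : ∀ (g : G) (x y : Ω), Γ.Reachable x y → Γ.Reachable (g • x) (g • y) := by
      intro g x y hxy
      exact hxy.map (⟨fun x => g • x, fun {x y} h => inv g x y h⟩ : Γ →g Γ)
    set B : Set Ω := {x | Γ.Reachable a x} with hB
    have hblock : MulAction.IsBlock G B := by
      rw [MulAction.isBlock_iff_smul_eq_of_mem]
      intro g x hx hgx
      have h1 : Γ.Reachable a (g • a) := (show Γ.Reachable a (g • x) from hgx).trans (rinv g a x hx).symm
      ext y
      rw [Set.mem_smul_set_iff_inv_smul_mem]
      constructor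
      · intro hy
        have h2 := rinv g _ _ (show Γ.Reachable a (g⁻¹ • y) from hy)
        rw [smul_inv_smul] at h2
        exact h1.trans h2
      · intro hy
        have h2 := rinv g⁻¹ _ _ (h1.symm.trans (show Γ.Reachable a y from hy))
        rw [inv_smul_smul] at h2
        exact h2
    have haB : a ∈ B := SimpleGraph.Reachable.refl a
    have hbB : b ∈ B := by
      apply SimpleGraph.Adj.reachable
      rw [hΓ, SimpleGraph.fromRel_adj]
      exact ⟨hab, Or.inl ⟨1, one_smul _ _, one_smul _ _⟩⟩
    rcases hprim.isTrivialBlock_of_isBlock hblock with hs | hu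
    · exact absurd (hs haB hbB) hab
    · rw [SimpleGraph.connected_iff]
      refine ⟨fun x y => ?_, ⟨a⟩⟩
      have hx : x ∈ B := hu ▸ Set.mem_univ x
      have hy : y ∈ B := hu ▸ Set.mem_univ y
      exact (show Γ.Reachable a x from hx).symm.trans hy
  · intro h
    apply MulAction.IsPreprimitive.mk
    intro B hB
    by_cases hsub : B.Subsingleton
    · exact Or.inl hsub
    right
    rw [Set.not_subsingleton_iff] at hsub
    obtain ⟨a, ha, b, hb, hab⟩ := hsub
    have hconn := h a b hab
    set Γ := SimpleGraph.fromRel fun x y : Ω => ∃ g : G, g • a = x ∧ g • b = y with hΓ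
    have hstep : ∀ x y : Ω, x ∈ B → Γ.Adj x y → y ∈ B := by
      intro x y hx hxy
      rw [hΓ, SimpleGraph.fromRel_adj] at hxy
      rcases hxy.2 with ⟨g, h1, h2⟩ | ⟨g, h1, h2⟩
      · have h3 : g • B = B := hB.smul_eq_of_mem ha (by rw [h1]; exact hx)
        rw [← h3, ← h2]
        exact Set.smul_mem_smul_set hb
      · have h3 : g • B = B := hB.smul_eq_of_mem hb (by rw [h2]; exact hx)
        rw [← h3, ← h1]
        exact Set.smul_mem_smul_set ha
    have hwalk : ∀ (u v : Ω) (w : Γ.Walk u v), u ∈ B → v ∈ B := by
      intro u v w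
      induction w with
      | nil => exact id
      | cons hadj _ ih => exact fun hu => ih (hstep _ _ hu hadj)
    rw [Set.eq_univ_iff_forall]
    intro c
    obtain ⟨w⟩ := hconn.preconnected a c
    exact hwalk a c w ha

end Cfsg.Agent.S0734
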