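import Cfsg.Statements.S0735
import Mathlib
-- import your own Cfsg.Agent.* helpers here

set_option autoImplicit false
open Cfsg

namespace Cfsg.Agent.S0735

open scoped Pointwise


/-- A 2-homogeneous permutation group (transitive on 2-subsets) of even order is doubly transitive; a non-trivial 2-homogeneous group is primitive. -/
theorem result {α : Type*} [Fintype α] [DecidableEq α] (G : Subgroup (Equiv.Perm α)) (h2 : MulAction.IsPretransitive G (Set.powersetCard α 2)) (hα : 3 ≤ Fintype.card α) : (Even (Nat.card G) → MulAction.IsMultiplyPretransitive G α 2) ∧ (G ≠ ⊥ → MulAction.IsPreprimitive G α) := by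
  classical
  have hom2 : ∀ a b c d : α, a ≠ b → c ≠ d →
      ∃ g : G, (g • a = c ∧ g • b = d) ∨ (g • a = d ∧ g • b = c) := by
    intro a b c d hab hcd
    obtain ⟨g, hg⟩ := h2.exists_smul_eq ⟨{a, b}, Finset.card_pair hab⟩ ⟨{c, d}, Finset.card_pair hcd⟩
    have h1 : g • ({a, b} : Finset α) = {c, d} := congrArg Subtype.val hg
    have ha : g • a ∈ ({c, d} : Finset α) := h1 ▸ Finset.smul_mem_smul_finset (by simp)
    have hb : g • b ∈ ({c, d} : Finset α) := h1 ▸ Finset.smul_mem_smul_finset (by simp)
    have hne : g • a ≠ g • b := fun h => hab (MulAction.injective g h)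
    simp only [Finset.mem_insert, Finset.mem_singleton] at ha hb
    refine ⟨g, ?_⟩
    rcases ha with ha | ha <;> rcases hb with hb | hb
    · exact absurd (ha.trans hb.symm) hne
    · exact Or.inl ⟨ha, hb⟩
    · exact Or.inr ⟨ha, hb⟩
    · exact absurd (ha.trans hb.symm) hne
  constructor
  · intro heven
    obtain ⟨t, ht⟩ := exists_prime_orderOf_dvd_card' (G := G) 2 heven.two_dvd
    have ht1 : t ≠ 1 := by
      intro h
      rw [h, orderOf_one] at ht
      omega
    obtain ⟨a, ha⟩ : ∃ a : α, t • a ≠ a := by
      by_contra hcon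
      push_neg at hcon
      apply ht1
      apply Subtype.ext
      apply Equiv.ext
      intro x
      exact hcon x
    have htt : t • t • a = a := by
      rw [← mul_smul, ← pow_two, ← ht, pow_orderOf_eq_one, one_smul]
    have hfrom : ∀ c d : α, c ≠ d → ∃ g : G, g • a = c ∧ g • (t • a) = d := by
      intro c d hcd
      obtain ⟨g, hg | hg⟩ := hom2 a (t • a) c d (Ne.symm ha) hcd
      · exact ⟨g, hg⟩
      · refine ⟨g * t, ?_, ?_⟩
        · rw [mul_smul]; exact hg.2
        · rw [mul_smul, htt]; exact hg.1
    rw [MulAction.is_two_pretransitive_iff]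
    intro c d c' d' hcd hcd'
    obtain ⟨g, hg1, hg2⟩ := hfrom c d hcd
    obtain ⟨g', hg1', hg2'⟩ := hfrom c' d' hcd'
    refine ⟨g' * g⁻¹, ?_, ?_⟩
    · rw [mul_smul, ← hg1, inv_smul_smul, hg1']
    · rw [mul_smul, ← hg2, inv_smul_smul, hg2']
  · intro _
    have htr : MulAction.IsPretransitive G α := by
      refine ⟨fun x y => ?_⟩
      by_cases hxy : x = y
      · exact ⟨1, by rw [one_smul, hxy]⟩
      obtain ⟨z, hz⟩ : ∃ z, z ∉ ({x, y} : Finset α) := by
        by_contra hcon
        push_neg at hcon
        have h1 : ({x, y} : Finset α) = Finset.univ := Finset.eq_univ_iff_forall.2 hcon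
        have h3 := Finset.card_pair hxy
        rw [h1, Finset.card_univ] at h3
        omega
      simp only [Finset.mem_insert, Finset.mem_singleton, not_or] at hz
      by_contra hy
      push_neg at hy
      by_cases hzO : ∃ h : G, h • x = z
      · obtain ⟨h, hh⟩ := hzO
        obtain ⟨g, hg | hg⟩ := hom2 x z x y (Ne.symm hz.1) hxy
        · apply hy (g * h)
          rw [mul_smul, hh]; exact hg.2
        · exact hy g hg.1
      · push_neg at hzO
        obtain ⟨g, hg | hg⟩ := hom2 y z x y (Ne.symm hz.2) hxy
        · apply hy g⁻¹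
          rw [← hg.1, inv_smul_smul]
        · apply hzO g⁻¹
          rw [← hg.2, inv_smul_smul]
    refine { toIsPretransitive := htr, isTrivialBlock_of_isBlock := ?_ }
    intro B hB
    by_cases hsub : B.Subsingleton
    · exact Or.inl hsub
    right
    rw [Set.not_subsingleton_iff] at hsub
    obtain ⟨a, ha, b, hb, hab⟩ := hsub
    rw [Set.eq_univ_iff_forall]
    intro c
    by_contra hc
    have hac : a ≠ c := fun h => hc (h ▸ ha)
    obtain ⟨g, hg | hg⟩ := hom2 a b a c hab hac
    · have h1 : g • B = B := hB.smul_eq_of_mem ha (by rw [hg.1]; exact ha)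
      apply hc
      rw [← h1, ← hg.2]
      exact Set.smul_mem_smul_set hb
    · have h1 : g • B = B := hB.smul_eq_of_mem hb (by rw [hg.2]; exact ha)
      apply hc
      rw [← h1, ← hg.1]
      exact Set.smul_mem_smul_set ha

end Cfsg.Agent.S0735
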