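import Cfsg.Statements.S0736
import Mathlib
-- import your own Cfsg.Agent.* helpers here

set_option autoImplicit false
open Cfsg

namespace Cfsg.Agent.S0736

open scoped Pointwise

theorem not_dvd_choose {p a k : ℕ} (hp : p.Prime) (hk : p ^ a ∣ k) :
    ¬ p ∣ (k + (p ^ a - 1)).choose (p ^ a - 1) := by
  haveI : Fact p.Prime := ⟨hp⟩
  have h := padicValNat_choose' (p := p) (n := k) (k := p ^ a - 1)
    (b := Nat.log p (k + (p ^ a - 1)) + 1) (Nat.lt_succ_self _)
  have hempty : (Finset.filter (fun i => p ^ i ≤ (p ^ a - 1) % p ^ i + k % p ^ i)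
      (Finset.Ico 1 (Nat.log p (k + (p ^ a - 1)) + 1))) = ∅ := by
    rw [Finset.filter_eq_empty_iff]
    intro i _
    push Not
    have hpi : 0 < p ^ i := pow_pos hp.pos i
    have hpa : 0 < p ^ a := pow_pos hp.pos a
    rcases le_or_gt i a with hia | hia
    · have h1 : p ^ i ∣ k := (pow_dvd_pow p hia).trans hk
      rw [Nat.mod_eq_zero_of_dvd h1, add_zero]
      exact Nat.mod_lt _ hpi
    · have h1 : p ^ a ∣ p ^ i := pow_dvd_pow p hia.le
      have h2 : p ^ a ∣ k % p ^ i := (Nat.dvd_mod_iff h1).2 hk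
      obtain ⟨j, hj⟩ := h2
      obtain ⟨l, hl⟩ := h1
      have h3 : k % p ^ i < p ^ i := Nat.mod_lt _ hpi
      rw [hj, hl] at h3
      have h4 : j < l := lt_of_mul_lt_mul_left h3 (Nat.zero_le _)
      have h5 : p ^ a * (j + 1) ≤ p ^ a * l := Nat.mul_le_mul_left _ h4
      have h6 : (p ^ a - 1) % p ^ i ≤ p ^ a - 1 := Nat.mod_le _ _
      rw [hj]
      rw [← hl, mul_add, mul_one] at h5
      omega
  rw [hempty, Finset.card_empty, padicValNat.eq_zero_iff] at h
  rcases h with h | h | h
  · exact absurd h hp.one_lt.ne'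
  · exact absurd h (Nat.choose_pos (Nat.le_add_left _ _)).ne'
  · exact h


/-- A `k`-homogeneous permutation group of degree `n`, `k ≥ 2`, with `k + q - 1 ≤ n` for every prime power `q` dividing `k`, is `(k-1)`-homogeneous. -/
theorem result {α : Type*} [Fintype α] [DecidableEq α] (G : Subgroup (Equiv.Perm α)) {k : ℕ} (hk : 2 ≤ k) (hG : MulAction.IsPretransitive G (Set.powersetCard α k)) (hq : ∀ q : ℕ, IsPrimePow q → q ∣ k → k + q - 1 ≤ Fintype.card α) : MulAction.IsPretransitive G (Set.powersetCard α (k - 1)) := by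
  classical
  have hkn : k + 1 ≤ Fintype.card α := by
    obtain ⟨p, hp, hpk⟩ := Nat.exists_prime_and_dvd (show k ≠ 1 by omega)
    have h1 := hq p hp.isPrimePow hpk
    have h2 := hp.two_le
    omega
  refine ⟨fun A0 B0 => ?_⟩
  let 𝒪 : Finset α → Prop := fun A => ∃ g : G, g • A0.1 = A
  have h𝒪 : ∀ (g : G) A, 𝒪 A → 𝒪 (g • A) := by
    rintro g _ ⟨h, rfl⟩
    exact ⟨g * h, mul_smul _ _ _⟩
  let c : Finset α → ℕ := fun K => ((K.powersetCard (k - 1)).filter 𝒪).card
  have hle : ∀ (g : G) K, c K ≤ c (g • K) := by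
    intro g K
    apply Finset.card_le_card_of_injOn (fun A => g • A)
    · intro A hA
      simp only [Finset.coe_filter, Finset.mem_powersetCard, Set.mem_ofPred_eq] at hA ⊢
      refine ⟨⟨Finset.smul_finset_subset_smul_finset hA.1.1, ?_⟩, h𝒪 g A hA.2⟩
      rw [Finset.card_smul_finset, hA.1.2]
    · intro A _ B _ hAB
      exact MulAction.injective g hAB
  have hinv : ∀ (g : G) K, c (g • K) = c K := by
    intro g K
    apply le_antisymm _ (hle g K)
    have := hle g⁻¹ (g • K)
    rwa [inv_smul_smul] at this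
  have hconst : ∀ K K' : Finset α, K.card = k → K'.card = k → c K = c K' := by
    intro K K' hK hK'
    obtain ⟨g, hg⟩ := hG.exists_smul_eq ⟨K, hK⟩ ⟨K', hK'⟩
    have h1 : g • K = K' := congrArg Subtype.val hg
    rw [← h1, hinv]
  -- extend a (k-1)-set
  have hext : ∀ A : Finset α, A.card = k - 1 → ∃ x, x ∉ A ∧ (insert x A).card = k := by
    intro A hA
    obtain ⟨x, hx⟩ : ∃ x, x ∉ A := by
      by_contra hcon
      push Not at hcon
      have : A = Finset.univ := Finset.eq_univ_iff_forall.2 hcon
      rw [this, Finset.card_univ] at hA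
      omega
    exact ⟨x, hx, by rw [Finset.card_insert_of_notMem hx, hA]; omega⟩
  obtain ⟨x0, hx0, hK0⟩ := hext A0.1 A0.2
  set K0 := insert x0 A0.1 with hK0def
  set c0 := c K0 with hc0
  have hc0pos : 0 < c0 := by
    apply Finset.card_pos.2
    refine ⟨A0.1, ?_⟩
    simp only [Finset.mem_filter, Finset.mem_powersetCard]
    exact ⟨⟨Finset.subset_insert _ _, A0.2⟩, ⟨1, one_smul _ _⟩⟩
  have hc0le : c0 ≤ k := by
    calc c0 ≤ (K0.powersetCard (k - 1)).card := Finset.card_filter_le _ _
      _ = k := by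
        rw [Finset.card_powersetCard, hK0]
        obtain ⟨j, rfl⟩ : ∃ j, k = j + 1 := ⟨k - 1, by omega⟩
        simp
  have hdvd : k ∣ c0 := by
    rw [Nat.dvd_iff_prime_pow_dvd_dvd]
    intro p a hp hpa
    rcases Nat.eq_zero_or_pos a with rfl | ha
    · simp
    have hpp : IsPrimePow (p ^ a) := hp.isPrimePow.pow ha.ne'
    have hn := hq _ hpp hpa
    set q := p ^ a with hqdef
    have hqpos : 0 < q := pow_pos hp.pos a
    obtain ⟨X, -, hX⟩ := Finset.exists_subset_card_eq (s := (Finset.univ : Finset α))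
      (n := k + q - 1) (by rw [Finset.card_univ]; exact hn)
    set T := (X.powersetCard (k - 1)).filter 𝒪 with hT
    have hcount := Finset.sum_card_bipartiteAbove_eq_sum_card_bipartiteBelow
      (s := X.powersetCard k) (t := T) (fun K A => A ⊆ K)
    have hL : ∑ K ∈ X.powersetCard k, (T.bipartiteAbove (fun K A => A ⊆ K) K).card
        = (X.powersetCard k).card * c0 := by
      apply Finset.sum_const_nat
      intro K hK
      rw [Finset.mem_powersetCard] at hK
      rw [hc0, hconst K0 K hK0 hK.2]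
      show _ = ((K.powersetCard (k - 1)).filter 𝒪).card
      congr 1
      ext A
      simp only [Finset.bipartiteAbove, hT, Finset.mem_filter, Finset.mem_powersetCard]
      constructor
      · rintro ⟨⟨⟨_, h2⟩, h3⟩, h4⟩
        exact ⟨⟨h4, h2⟩, h3⟩
      · rintro ⟨⟨h4, h2⟩, h3⟩
        exact ⟨⟨⟨h4.trans hK.1, h2⟩, h3⟩, h4⟩
    have hR : ∑ A ∈ T, ((X.powersetCard k).bipartiteBelow (fun K A => A ⊆ K) A).card
        = T.card * q := by
      apply Finset.sum_const_nat
      intro A hA
      rw [hT, Finset.mem_filter, Finset.mem_powersetCard] at hA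
      obtain ⟨⟨hAX, hAc⟩, -⟩ := hA
      have himg : (X.powersetCard k).bipartiteBelow (fun K A => A ⊆ K) A
          = (X \ A).image (fun a => insert a A) := by
        ext K
        simp only [Finset.bipartiteBelow, Finset.mem_filter, Finset.mem_powersetCard,
          Finset.mem_image, Finset.mem_sdiff]
        constructor
        · rintro ⟨⟨hKX, hKc⟩, hAK⟩
          have h1 : (K \ A).card = 1 := by
            rw [Finset.card_sdiff_of_subset hAK, hKc, hAc]
            omega
          obtain ⟨a, ha⟩ := Finset.card_eq_one.1 h1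
          have ha' : a ∈ K \ A := by rw [ha]; exact Finset.mem_singleton_self a
          rw [Finset.mem_sdiff] at ha'
          refine ⟨a, ⟨hKX ha'.1, ha'.2⟩, ?_⟩
          rw [Finset.insert_eq, ← ha, Finset.sdiff_union_of_subset hAK]
        · rintro ⟨a, ⟨haX, haA⟩, rfl⟩
          refine ⟨⟨Finset.insert_subset haX hAX, ?_⟩, Finset.subset_insert _ _⟩
          rw [Finset.card_insert_of_notMem haA, hAc]
          omega
      rw [himg, Finset.card_image_of_injOn, Finset.card_sdiff_of_subset hAX, hX, hAc]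
      · omega
      · intro a ha b hb hab
        simp only [Finset.coe_sdiff, Set.mem_diff, Finset.mem_coe] at ha hb
        have : a ∈ insert b A := by
          rw [← show insert a A = insert b A from hab]
          exact Finset.mem_insert_self a A
        rcases Finset.mem_insert.1 this with h | h
        · exact h
        · exact absurd h ha.2
    rw [hL, hR, Finset.card_powersetCard, hX] at hcount
    have hch : (k + q - 1).choose k = (k + (q - 1)).choose (q - 1) := by
      rw [show k + q - 1 = k + (q - 1) by omega, Nat.choose_symm_add]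
    rw [hch] at hcount
    have hcop : Nat.Coprime q ((k + (q - 1)).choose (q - 1)) := by
      rw [hqdef]
      apply Nat.Coprime.pow_left
      exact (Nat.Prime.coprime_iff_not_dvd hp).2 (not_dvd_choose hp hpa)
    exact hcop.dvd_of_dvd_mul_left ⟨T.card, by rw [hcount, mul_comm]⟩
  have hc0k : c0 = k := le_antisymm hc0le (Nat.le_of_dvd hc0pos hdvd)
  obtain ⟨y, hy, hK1⟩ := hext B0.1 B0.2
  have hc1 : c (insert y B0.1) = k := by rw [hconst _ K0 hK1 hK0, ← hc0, hc0k]
  have hfull : ((insert y B0.1).powersetCard (k - 1)).filter 𝒪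
      = (insert y B0.1).powersetCard (k - 1) := by
    apply Finset.eq_of_subset_of_card_le (Finset.filter_subset _ _)
    rw [Finset.card_powersetCard, hK1]
    show _ ≤ c (insert y B0.1)
    rw [hc1]
    obtain ⟨j, rfl⟩ : ∃ j, k = j + 1 := ⟨k - 1, by omega⟩
    simp
  have hB : B0.1 ∈ ((insert y B0.1).powersetCard (k - 1)).filter 𝒪 := by
    rw [hfull, Finset.mem_powersetCard]
    exact ⟨Finset.subset_insert _ _, B0.2⟩
  obtain ⟨g, hg⟩ := (Finset.mem_filter.1 hB).2
  exact ⟨g, Subtype.ext hg⟩

end Cfsg.Agent.S0736
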