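import Cfsg.Statements.S0738
import Mathlib
-- import your own Cfsg.Agent.* helpers here

set_option autoImplicit false
open Cfsg

namespace Cfsg.Agent.S0738

theorem card_dvd_of_free_conj {G : Type*} [Group G] (H : Subgroup G) (T : Set G)
    (hinv : ∀ h ∈ H, ∀ x ∈ T, h * x * h⁻¹ ∈ T)
    (hfree : ∀ h ∈ H, ∀ x ∈ T, h * x * h⁻¹ = x → h = 1) : Nat.card H ∣ T.ncard := by
  letI : MulAction H T :=
    { smul := fun h x => ⟨h * x * h⁻¹, hinv h h.2 x x.2⟩
      one_smul := by
        intro x
        apply Subtype.ext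
        change ((1 : H) : G) * x * ((1 : H) : G)⁻¹ = x
        simp
      mul_smul := by
        intro g h x
        apply Subtype.ext
        change ((g * h : H) : G) * x * ((g * h : H) : G)⁻¹ = (g : G) * ((h : G) * x * (h : G)⁻¹) * (g : G)⁻¹
        rw [Subgroup.coe_mul]
        group }
  have hstab : ∀ x : T, MulAction.stabilizer H x = ⊥ := by
    intro x
    rw [eq_bot_iff]
    intro h hh
    rw [MulAction.mem_stabilizer_iff] at hh
    have h1 : (h : G) * x * (h : G)⁻¹ = x := congrArg Subtype.val hh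
    rw [Subgroup.mem_bot]
    exact Subtype.ext (hfree h h.2 x x.2 h1)
  have e := MulAction.selfEquivOrbitsQuotientProd hstab
  have h2 := Nat.card_congr e
  rw [Nat.card_prod] at h2
  exact ⟨_, by rw [← Nat.card_coe_set_eq, h2, mul_comm]⟩


/-- Let a finite Zassenhaus group of degree `n + 1` have two-point stabilisers of order `d` with `2d ≥ n - 1`. Then a normal subgroup of a point stabiliser acting regularly on the remaining points is elementary abelian, and the degree is a prime power plus one. -/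
theorem result {G Ω : Type*} [Group G] [Finite G] [MulAction G Ω] [Fintype Ω] (hZ : Cfsg.IsZassenhausGroup G Ω) {a b : Ω} (hab : a ≠ b) (hd : Fintype.card Ω - 2 ≤ 2 * Nat.card ↥(MulAction.stabilizer G a ⊓ MulAction.stabilizer G b)) (F : Subgroup G) (hFle : F ≤ MulAction.stabilizer G a) (hFn : (F.subgroupOf (MulAction.stabilizer G a)).Normal) (hreg : ∀ y z : Ω, y ≠ a → z ≠ a → ∃! u : F, (u : G) • y = z) : IsMulCommutative F ∧ ∃ p f : ℕ, p.Prime ∧ (∀ u ∈ F, u ^ p = 1) ∧ Fintype.card Ω = p ^ f + 1 := by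
  classical
  obtain ⟨hfaith, h2, h3, ⟨g₀, hg₀1, a₁, b₁, hab₁, hg₀a, hg₀b⟩, -⟩ := hZ
  set H := MulAction.stabilizer G a ⊓ MulAction.stabilizer G b with hH
  set d := Nat.card H with hd'
  have hdpos : 0 < d := Nat.card_pos
  have hFa : ∀ u ∈ F, u • a = a := fun u hu => hFle hu
  -- (1) the order of F
  have hn : Nat.card F + 1 = Fintype.card Ω := by
    have hne : ∀ u : F, (u : G) • b ≠ a := by
      intro u h
      apply hab
      have : (u : G) • b = (u : G) • a := by rw [h, hFa u u.2]
      exact (smul_left_cancel _ this).symm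
    have hbij : Function.Bijective (fun u : F => (⟨(u : G) • b, hne u⟩ : {z : Ω // z ≠ a})) := by
      constructor
      · intro u v huv
        have h1 : (u : G) • b = (v : G) • b := congrArg Subtype.val huv
        obtain ⟨w, _, hw⟩ := hreg b ((v : G) • b) (Ne.symm hab) (hne v)
        rw [hw u h1, hw v rfl]
      · rintro ⟨z, hz⟩
        obtain ⟨w, hw, _⟩ := hreg b z (Ne.symm hab) hz
        exact ⟨w, Subtype.ext hw⟩
    have h1 := Nat.card_congr (Equiv.ofBijective _ hbij)
    rw [h1, Nat.card_eq_fintype_card, Fintype.card_subtype_compl, Fintype.card_subtype_eq]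
    have : 0 < Fintype.card Ω := Fintype.card_pos_iff.mpr ⟨a⟩
    omega
  set n := Nat.card F with hn'
  have hnd : n - 1 ≤ 2 * d := by omega
  -- at least three points
  have hn2 : 2 ≤ n := by
    have hmove : ∃ x : Ω, g₀ • x ≠ x := by
      by_contra hcon
      push Not at hcon
      apply hg₀1
      apply hfaith.eq_of_smul_eq_smul
      intro x
      rw [hcon x, one_smul]
    obtain ⟨x, hx⟩ := hmove
    have hxa : x ≠ a₁ := fun h => hx (h ▸ hg₀a)
    have hxb : x ≠ b₁ := fun h => hx (h ▸ hg₀b)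
    have hcard : 2 < (Finset.univ : Finset Ω).card := by
      rw [Finset.two_lt_card_iff]
      exact ⟨a₁, b₁, x, Finset.mem_univ _, Finset.mem_univ _, Finset.mem_univ _, hab₁,
        Ne.symm hxa, Ne.symm hxb⟩
    rw [Finset.card_univ] at hcard
    omega
  -- (2) H normalises F
  have hconj : ∀ h ∈ H, ∀ u ∈ F, h * u * h⁻¹ ∈ F := by
    intro h hh u hu
    have hha : h ∈ MulAction.stabilizer G a := (Subgroup.mem_inf.mp hh).1
    have := hFn.conj_mem ⟨u, hFle hu⟩ (Subgroup.mem_subgroupOf.mpr hu) ⟨h, hha⟩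
    exact Subgroup.mem_subgroupOf.mp this
  -- (3) the action is free
  have hfree : ∀ h ∈ H, ∀ u ∈ F, u ≠ 1 → h * u * h⁻¹ = u → h = 1 := by
    intro h hh u hu hu1 hhu
    have hha : h • a = a := (Subgroup.mem_inf.mp hh).1
    have hhb : h • b = b := (Subgroup.mem_inf.mp hh).2
    have hub_a : u • b ≠ a := by
      intro h'
      apply hab
      have : u • b = u • a := by rw [h', hFa u hu]
      exact (smul_left_cancel _ this).symm
    have hub_b : u • b ≠ b := by
      intro h'
      apply hu1
      obtain ⟨w, _, hw⟩ := hreg b b (Ne.symm hab) (Ne.symm hab)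
      have e1 := hw ⟨u, hu⟩ h'
      have e2 := hw 1 (one_smul _ _)
      exact congrArg Subtype.val (e1.trans e2.symm)
    apply h3 h a b (u • b) hab (Ne.symm hub_b) (Ne.symm hub_a) hha hhb
    have : h * u = u * h := by
      have := congrArg (· * h) hhu
      simpa using this
    rw [← mul_smul, this, mul_smul, hhb]
  -- (4) divisibility
  have hdvd : ∀ T : Set G, (∀ x ∈ T, x ∈ F ∧ x ≠ 1) → (∀ h ∈ H, ∀ x ∈ T, h * x * h⁻¹ ∈ T) →
      d ∣ T.ncard := by
    intro T hT hinv
    exact card_dvd_of_free_conj H T hinv (fun h hh x hx => hfree h hh x (hT x hx).1 (hT x hx).2)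
  have hFm1 : ((F : Set G) \ {1}).ncard = n - 1 := by
    rw [Set.ncard_diff (by simpa using F.one_mem), Set.ncard_singleton]
    rfl
  -- (5) no proper invariant subgroups
  have hkey : ∀ M : Subgroup G, M ≤ F → (∀ h ∈ H, ∀ x ∈ M, h * x * h⁻¹ ∈ M) → M ≠ ⊥ → M = F := by
    intro M hMF hMinv hM
    have h1 : d ∣ ((M : Set G) \ {1}).ncard := by
      apply hdvd
      · intro x hx
        exact ⟨hMF hx.1, hx.2⟩
      · intro h hh x hx
        refine ⟨hMinv h hh x hx.1, ?_⟩
        intro h'
        apply hx.2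
        have h'' : h * x * h⁻¹ = 1 := h'
        have : x = h⁻¹ * (h * x * h⁻¹) * h := by group
        rw [Set.mem_singleton_iff, this, h'']; group
    have h4 : ((M : Set G) \ {1}).ncard = Nat.card M - 1 := by
      rw [Set.ncard_diff (by simpa using M.one_mem), Set.ncard_singleton]
      rfl
    rw [h4] at h1
    have h5 : 1 < Nat.card M := (Subgroup.one_lt_card_iff_ne_bot M).mpr hM
    have h6 : d ≤ Nat.card M - 1 := Nat.le_of_dvd (by omega) h1
    by_contra hne
    have h7 : Nat.card M ∣ n := Subgroup.card_dvd_of_le hMF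
    obtain ⟨k, hk⟩ := h7
    have hk2 : 2 ≤ k := by
      rcases k with _ | _ | k
      · omega
      · exfalso
        apply hne
        apply Subgroup.eq_of_le_of_card_ge hMF
        omega
      · omega
    have : 2 * Nat.card M ≤ n := by
      rw [hk, mul_comm]
      exact Nat.mul_le_mul_left _ hk2
    omega
  -- (7) elements of a given order
  let A : ℕ → Set G := fun r => {u | u ∈ F ∧ orderOf u = r}
  have hAinv : ∀ r, ∀ h ∈ H, ∀ x ∈ A r, h * x * h⁻¹ ∈ A r := by
    intro r h hh x hx
    refine ⟨hconj h hh x hx.1, ?_⟩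
    rw [← hx.2]
    exact orderOf_injective (MulAut.conj h).toMonoidHom (MulAut.conj h).injective x
  have hAsub : ∀ r, r ≠ 1 → ∀ x ∈ A r, x ∈ F ∧ x ≠ 1 := by
    intro r hr x hx
    exact ⟨hx.1, fun h => hr (by rw [← hx.2, h, orderOf_one])⟩
  have hAdvd : ∀ r, r ≠ 1 → d ∣ (A r).ncard := fun r hr => hdvd _ (hAsub r hr) (hAinv r)
  have hAd : ∀ r, r ≠ 1 → (A r).Nonempty → d ≤ (A r).ncard := by
    intro r hr hne
    exact Nat.le_of_dvd ((Set.ncard_pos (Set.toFinite _)).mpr hne) (hAdvd r hr)
  have hAdisj : ∀ r s, r ≠ s → Disjoint (A r) (A s) := by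
    intro r s hrs
    rw [Set.disjoint_left]
    intro x hx hx'
    exact hrs (hx.2.symm.trans hx'.2)
  have hAF : ∀ r, r ≠ 1 → A r ⊆ (F : Set G) \ {1} := fun r hr x hx => hAsub r hr x hx
  have htwo : ∀ r s, r ≠ 1 → s ≠ 1 → r ≠ s → (A r).ncard + (A s).ncard ≤ n - 1 := by
    intro r s hr hs hrs
    rw [← Set.ncard_union_eq (hAdisj r s hrs) (Set.toFinite _) (Set.toFinite _), ← hFm1]
    exact Set.ncard_le_ncard (Set.union_subset (hAF r hr) (hAF s hs)) (Set.toFinite _)
  have hthree : ∀ r s t, r ≠ 1 → s ≠ 1 → t ≠ 1 → r ≠ s → r ≠ t → s ≠ t →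
      (A r).Nonempty → (A s).Nonempty → (A t).Nonempty → False := by
    intro r s t hr hs ht hrs hrt hst h1 h4 h5
    have e1 : ((A r ∪ A s) ∪ A t).ncard = (A r).ncard + (A s).ncard + (A t).ncard := by
      rw [Set.ncard_union_eq _ (Set.toFinite _) (Set.toFinite _),
        Set.ncard_union_eq (hAdisj r s hrs) (Set.toFinite _) (Set.toFinite _)]
      rw [Set.disjoint_union_left]
      exact ⟨hAdisj r t hrt, hAdisj s t hst⟩
    have e2 : ((A r ∪ A s) ∪ A t).ncard ≤ n - 1 := by
      rw [← hFm1]
      exact Set.ncard_le_ncard (Set.union_subset (Set.union_subset (hAF r hr) (hAF s hs)) (hAF t ht))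
        (Set.toFinite _)
    have := hAd r hr h1
    have := hAd s hs h4
    have := hAd t ht h5
    omega
  have hcauchy : ∀ q, q.Prime → q ∣ n → (A q).Nonempty := by
    intro q hq hqn
    haveI : Fact q.Prime := ⟨hq⟩
    obtain ⟨x, hx⟩ := exists_prime_orderOf_dvd_card' (G := F) q hqn
    exact ⟨x, x.2, by rw [Subgroup.orderOf_coe]; exact hx⟩
  obtain ⟨p, hp, hpn⟩ := Nat.exists_prime_and_dvd (show n ≠ 1 by omega)
  have huniq : ∀ q, q.Prime → q ∣ n → q = p := by
    intro q hq hqn
    by_contra hqp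
    have hAp := hcauchy p hp hpn
    have hAq := hcauchy q hq hqn
    have hnc : ∀ x ∈ A p, ∀ y ∈ A q, x * y ≠ y * x := by
      intro x hx y hy hxy
      have hcop : Nat.Coprime (orderOf x) (orderOf y) := by
        rw [hx.2, hy.2]
        exact (Nat.coprime_primes hp hq).mpr (Ne.symm hqp)
      have ho : orderOf (x * y) = p * q := by
        rw [Commute.orderOf_mul_eq_mul_orderOf_of_coprime hxy hcop, hx.2, hy.2]
      have hp2 := hp.two_le
      have hq2 := hq.two_le
      refine hthree p q (p * q) hp.one_lt.ne' hq.one_lt.ne' ?_ (Ne.symm hqp) ?_ ?_ hAp hAq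
        ⟨x * y, F.mul_mem hx.1 hy.1, ho⟩
      · nlinarith
      · nlinarith
      · nlinarith
    obtain ⟨z, hz⟩ := hAp
    have hpd : p ∣ (A q).ncard := by
      have h1 : Nat.card (Subgroup.zpowers z) = p := by rw [Nat.card_zpowers, hz.2]
      rw [← h1]
      apply card_dvd_of_free_conj
      · intro h hh x hx
        have hhF : h ∈ F := (Subgroup.zpowers_le.mpr hz.1) hh
        refine ⟨F.mul_mem (F.mul_mem hhF hx.1) (F.inv_mem hhF), ?_⟩
        rw [← hx.2]
        exact orderOf_injective (MulAut.conj h).toMonoidHom (MulAut.conj h).injective x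
      · intro h hh x hx hhx
        by_contra hh1
        have hhF : h ∈ F := (Subgroup.zpowers_le.mpr hz.1) hh
        have hho : orderOf h = p := by
          have h4 : orderOf h ∣ p := by
            have := orderOf_dvd_natCard (⟨h, hh⟩ : Subgroup.zpowers z)
            rwa [h1, Subgroup.orderOf_mk] at this
          rcases (Nat.dvd_prime hp).mp h4 with h5 | h5
          · exact absurd (orderOf_eq_one_iff.mp h5) hh1
          · exact h5
        apply hnc h ⟨hhF, hho⟩ x hx
        have := congrArg (· * h) hhx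
        simpa using this
    have e1 := htwo p q hp.one_lt.ne' hq.one_lt.ne' (Ne.symm hqp)
    have e2 := hAd p hp.one_lt.ne' ⟨z, hz⟩
    have e3 := hAd q hq.one_lt.ne' hAq
    have e4 : (A q).ncard = d := by omega
    have e5 : n - 1 = 2 * d := by omega
    rw [e4] at hpd
    have e6 : p ∣ n - 1 := by rw [e5]; exact Dvd.dvd.mul_left hpd 2
    have e7 : p ∣ n - (n - 1) := Nat.dvd_sub hpn e6
    have e8 : n - (n - 1) = 1 := by omega
    rw [e8] at e7
    exact hp.one_lt.ne' (Nat.dvd_one.mp e7)
  have hnpow : n = p ^ n.primeFactorsList.length :=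
    Nat.eq_prime_pow_of_unique_prime_dvd (by omega) (fun hq hqn => huniq _ hq hqn)
  haveI hpF : Fact p.Prime := ⟨hp⟩
  have hPG : IsPGroup p F := IsPGroup.of_card hnpow
  haveI : Nontrivial F := by
    rw [← Finite.one_lt_card_iff_nontrivial]
    omega
  -- (8) F is abelian
  have hcomm : ∀ x ∈ F, ∀ y ∈ F, x * y = y * x := by
    have hcen := hPG.center_nontrivial
    have hM : (Subgroup.center F).map F.subtype = F := by
      apply hkey
      · exact Subgroup.map_subtype_le _
      · rintro h hh _ ⟨z, hz, rfl⟩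
        refine ⟨⟨h * z * h⁻¹, hconj h hh z z.2⟩, ?_, rfl⟩
        rw [SetLike.mem_coe, Subgroup.mem_center_iff]
        intro u
        apply Subtype.ext
        change (u : G) * (h * z * h⁻¹) = h * z * h⁻¹ * u
        have hu' : h⁻¹ * u * h ∈ F := by
          have := hconj h⁻¹ (H.inv_mem hh) u u.2
          rwa [inv_inv] at this
        have hz' := (Subgroup.mem_center_iff.mp hz) ⟨h⁻¹ * u * h, hu'⟩
        have hz'' : h⁻¹ * u * h * (z : G) = z * (h⁻¹ * u * h) := congrArg Subtype.val hz'
        calc (u : G) * (h * z * h⁻¹) = h * (h⁻¹ * u * h * z) * h⁻¹ := by group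
          _ = h * (z * (h⁻¹ * u * h)) * h⁻¹ := by rw [hz'']
          _ = h * z * h⁻¹ * u := by group
      · intro hbot
        obtain ⟨⟨z, hz⟩, hz1⟩ := exists_ne (1 : Subgroup.center F)
        apply hz1
        have : (z : G) ∈ (Subgroup.center F).map F.subtype := ⟨z, hz, rfl⟩
        rw [hbot, Subgroup.mem_bot] at this
        exact Subtype.ext (Subtype.ext this)
    intro x hx y hy
    rw [← hM] at hx
    obtain ⟨z, hz, rfl⟩ := hx
    have := (Subgroup.mem_center_iff.mp hz) ⟨y, hy⟩
    exact (congrArg Subtype.val this).symm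
  -- (9) exponent p
  have hexp : ∀ u ∈ F, u ^ p = 1 := by
    let M : Subgroup G :=
      { carrier := {x | x ∈ F ∧ x ^ p = 1}
        one_mem' := ⟨F.one_mem, one_pow p⟩
        mul_mem' := by
          rintro x y ⟨hx, hxp⟩ ⟨hy, hyp⟩
          refine ⟨F.mul_mem hx hy, ?_⟩
          have hc : Commute x y := hcomm x hx y hy
          rw [hc.mul_pow, hxp, hyp, one_mul]
        inv_mem' := by
          rintro x ⟨hx, hxp⟩
          exact ⟨F.inv_mem hx, by rw [inv_pow, hxp, inv_one]⟩ }
    have hM : M = F := by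
      apply hkey
      · intro x hx; exact hx.1
      · rintro h hh x ⟨hx, hxp⟩
        exact ⟨hconj h hh x hx, by rw [conj_pow, hxp]; group⟩
      · intro hbot
        obtain ⟨x, hx⟩ := hcauchy p hp hpn
        have : x ∈ M := ⟨hx.1, by rw [← hx.2]; exact pow_orderOf_eq_one x⟩
        rw [hbot, Subgroup.mem_bot] at this
        have hx2 := hx.2
        rw [this, orderOf_one] at hx2
        exact hp.one_lt.ne hx2
    intro u hu
    rw [← hM] at hu
    exact hu.2
  refine ⟨⟨⟨fun x y => Subtype.ext (hcomm x x.2 y y.2)⟩⟩, p, n.primeFactorsList.length, hp, hexp, ?_⟩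
  rw [← hn, ← hnpow]

end Cfsg.Agent.S0738
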