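import Cfsg.Statements.S0740
import Mathlib
-- import your own Cfsg.Agent.* helpers here
import Cfsg.Agent.H5.Zass

set_option autoImplicit false
open Cfsg

namespace Cfsg.Agent.S0740



/-- In a finite Zassenhaus group any two points `a ≠ b` are swapped by an involution; every such involution has exactly one fixed point when the degree is odd and 0 or 2 fixed points when the degree is even; and if the two-point stabiliser has even order, some such involution has exactly 2 fixed points. -/
theorem result {G Ω : Type*} [Group G] [Finite G] [MulAction G Ω] [Fintype Ω] (hZ : Cfsg.IsZassenhausGroup G Ω) {a b : Ω} (hab : a ≠ b) : (∃ s : G, orderOf s = 2 ∧ s • a = b ∧ s • b = a) ∧ (∀ s : G, orderOf s = 2 → s • a = b → s • b = a → (Odd (Fintype.card Ω) → Nat.card (MulAction.fixedBy Ω s) = 1) ∧ (Even (Fintype.card Ω) → Nat.card (MulAction.fixedBy Ω s) = 0 ∨ Nat.card (MulAction.fixedBy Ω s) = 2)) ∧ (Even (Fintype.card Ω) → Even (Nat.card ↥(MulAction.stabilizer G a ⊓ MulAction.stabilizer G b)) → ∃ s : G, orderOf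 s = 2 ∧ s • a = b ∧ s • b = a ∧ Nat.card (MulAction.fixedBy Ω s) = 2) := by
  classical
  obtain ⟨hfaith, h2, h3, ⟨g₀, hg₀1, a₁, b₁, hab₁, hg₀a, hg₀b⟩, -⟩ := hZ
  haveI : Fact (Nat.Prime 2) := ⟨Nat.prime_two⟩
  set H := MulAction.stabilizer G a ⊓ MulAction.stabilizer G b with hH
  -- a third point
  have hthird : ∃ c : Ω, c ≠ a ∧ c ≠ b := by
    have hmove : ∃ x : Ω, g₀ • x ≠ x := by
      by_contra hcon
      push Not at hcon
      apply hg₀1
      apply hfaith.eq_of_smul_eq_smul
      intro x
      rw [hcon x, one_smul]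
    obtain ⟨x, hx⟩ := hmove
    have hxa : x ≠ a₁ := fun h => hx (h ▸ hg₀a)
    have hxb : x ≠ b₁ := fun h => hx (h ▸ hg₀b)
    have hcard : 2 < (Finset.univ : Finset Ω).card := by
      rw [Finset.two_lt_card_iff]
      exact ⟨a₁, b₁, x, Finset.mem_univ _, Finset.mem_univ _, Finset.mem_univ _, hab₁,
        Ne.symm hxa, Ne.symm hxb⟩
    have h4 : 0 < ((Finset.univ : Finset Ω) \ {a, b}).card := by
      rw [Finset.card_sdiff_of_subset (Finset.subset_univ _), Finset.card_pair hab]
      omega
    obtain ⟨c, hc⟩ := Finset.card_pos.mp h4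
    simp only [Finset.mem_sdiff, Finset.mem_univ, Finset.mem_insert, Finset.mem_singleton,
      true_and, not_or] at hc
    exact ⟨c, hc⟩
  -- fixed points of involutions
  have hfixle : ∀ s : G, s ≠ 1 → Nat.card (MulAction.fixedBy Ω s) ≤ 2 := by
    intro s hs
    rw [Nat.card_eq_fintype_card, ← Set.toFinset_card]
    by_contra hcon
    rw [not_le, Finset.two_lt_card_iff] at hcon
    obtain ⟨x, y, z, hx, hy, hz, hxy, hxz, hyz⟩ := hcon
    rw [Set.mem_toFinset] at hx hy hz
    exact hs (h3 s x y z hxy hyz hxz hx hy hz)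
  have hfixmod : ∀ s : G, s * s = 1 →
      Fintype.card Ω ≡ Nat.card (MulAction.fixedBy Ω s) [MOD 2] := by
    intro s hs
    let f : Function.End Ω := fun x => s • x
    have hf : f ^ 2 ^ 1 = 1 := by
      rw [pow_one, pow_two]
      funext x
      change s • s • x = x
      rw [← mul_smul, hs, one_smul]
    have := Equiv.Perm.card_fixedPoints_modEq (p := 2) (n := 1) hf
    rw [Nat.card_eq_fintype_card]
    convert this using 2
    rfl
  have hord : ∀ s : G, orderOf s = 2 → s ≠ 1 ∧ s * s = 1 := by
    intro s hs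
    constructor
    · intro h
      rw [h, orderOf_one] at hs
      omega
    · have := pow_orderOf_eq_one s
      rwa [hs, pow_two] at this
  have hord' : ∀ s : G, s ≠ 1 → s * s = 1 → orderOf s = 2 := by
    intro s h1 h4
    exact orderOf_eq_prime (by rw [pow_two]; exact h4) h1
  -- even case
  have heven : Even (Nat.card H) → ∃ c : Ω, ∃ s : G, orderOf s = 2 ∧ s • a = b ∧ s • b = a ∧ s • c = c := by
    intro hev
    obtain ⟨t₁, ht₁⟩ := exists_prime_orderOf_dvd_card' (G := H) 2 hev.two_dvd
    have ht1 : (t₁ : G) ≠ 1 := by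
      intro h
      have : t₁ = 1 := Subtype.ext h
      rw [this, orderOf_one] at ht₁
      omega
    have ht2 : (t₁ : G) * t₁ = 1 := by
      have := pow_orderOf_eq_one t₁
      rw [ht₁, pow_two] at this
      exact congrArg Subtype.val this
    have hta : (t₁ : G) • a = a := (Subgroup.mem_inf.mp t₁.2).1
    have htb : (t₁ : G) • b = b := (Subgroup.mem_inf.mp t₁.2).2
    obtain ⟨c, hca, hcb⟩ := hthird
    obtain ⟨t, h1, h4, h5, h6, h7⟩ := Cfsg.Agent.H5Zass.exists_invol_swap h2 h3 hab ht1 ht2 hta htb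
        (Ne.symm hca) (Ne.symm hcb)
    exact ⟨c, t, hord' t h1 h4, h6, h7, h5⟩
  refine ⟨?_, ?_, ?_⟩
  · by_cases hev : Even (Nat.card H)
    · obtain ⟨c, s, h1, h4, h5, -⟩ := heven hev
      exact ⟨s, h1, h4, h5⟩
    · rw [Nat.not_even_iff_odd] at hev
      have h2' := h2
      rw [MulAction.is_two_pretransitive_iff] at h2'
      obtain ⟨g, hga, hgb⟩ := h2' hab (Ne.symm hab)
      obtain ⟨k, m, hm, hkm⟩ := Nat.exists_eq_two_pow_mul_odd (orderOf_pos g).ne'
      have hpow : ∀ j : ℕ, g ^ (2 * j) • a = a ∧ g ^ (2 * j) • b = b := by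
        intro j
        induction j with
        | zero => simp
        | succ j ih =>
          rw [show 2 * (j + 1) = 2 * j + 1 + 1 by ring, pow_succ, pow_succ, mul_smul, mul_smul,
            mul_smul, mul_smul, hga, hgb, hga, ih.1, ih.2]
          exact ⟨rfl, rfl⟩
      obtain ⟨j, hj⟩ := hm
      set u := g ^ m with hu
      have hua : u • a = b := by
        rw [hu, hj, pow_succ, mul_smul, hga, (hpow j).2]
      have hub : u • b = a := by
        rw [hu, hj, pow_succ, mul_smul, hgb, (hpow j).1]
      have huH : u * u ∈ H := by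
        rw [hH, Subgroup.mem_inf, MulAction.mem_stabilizer_iff, MulAction.mem_stabilizer_iff,
          mul_smul, mul_smul, hua, hub, hua]
        exact ⟨rfl, rfl⟩
      have hu2k : (u * u) ^ (2 ^ k) = 1 := by
        rw [← pow_two, ← pow_mul, hu, ← pow_mul]
        rw [show m * (2 * 2 ^ k) = (2 ^ k * m) * 2 by ring, ← hkm, pow_mul, pow_orderOf_eq_one,
          one_pow]
      have hv : (⟨u * u, huH⟩ : H) = 1 := by
        rw [← orderOf_eq_one_iff]
        have h5 : orderOf (⟨u * u, huH⟩ : H) ∣ 2 ^ k := by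
          apply orderOf_dvd_of_pow_eq_one
          exact Subtype.ext hu2k
        have h6 : orderOf (⟨u * u, huH⟩ : H) ∣ Nat.card H := orderOf_dvd_natCard _
        have h7 : Nat.Coprime (2 ^ k) (Nat.card H) := by
          apply Nat.Coprime.pow_left
          exact (Nat.coprime_two_left).mpr hev
        exact Nat.eq_one_of_dvd_coprimes h7 h5 h6
      have huu : u * u = 1 := congrArg Subtype.val hv
      have hu1 : u ≠ 1 := by
        intro h
        rw [h, one_smul] at hua
        exact hab hua
      exact ⟨u, hord' u hu1 huu, hua, hub⟩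
  · intro s hs _ _
    obtain ⟨hs1, hs2⟩ := hord s hs
    have hle := hfixle s hs1
    have hmod := hfixmod s hs2
    constructor
    · intro hodd
      have h5 : Fintype.card Ω % 2 = 1 := Nat.odd_iff.mp hodd
      have h6 : Fintype.card Ω % 2 = Nat.card (MulAction.fixedBy Ω s) % 2 := hmod
      omega
    · intro hev
      have h5 : Fintype.card Ω % 2 = 0 := Nat.even_iff.mp hev
      have h6 : Fintype.card Ω % 2 = Nat.card (MulAction.fixedBy Ω s) % 2 := hmod
      omega
  · intro hev hdev
    obtain ⟨c, s, hs, hsa, hsb, hsc⟩ := heven hdev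
    obtain ⟨hs1, hs2⟩ := hord s hs
    have hle := hfixle s hs1
    have hmod := hfixmod s hs2
    refine ⟨s, hs, hsa, hsb, ?_⟩
    have h5 : Fintype.card Ω % 2 = 0 := Nat.even_iff.mp hev
    have h6 : Fintype.card Ω % 2 = Nat.card (MulAction.fixedBy Ω s) % 2 := hmod
    have h7 : 0 < Nat.card (MulAction.fixedBy Ω s) := by
      haveI : Nonempty (MulAction.fixedBy Ω s) := ⟨⟨c, hsc⟩⟩
      exact Nat.card_pos
    omega

end Cfsg.Agent.S0740
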