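import Cfsg.Statements.S0741
import Mathlib
-- import your own Cfsg.Agent.* helpers here
import Cfsg.Agent.H5.Zass

set_option autoImplicit false
open Cfsg

namespace Cfsg.Agent.S0741



/-- If the two-point stabilisers of a finite Zassenhaus group of degree `n + 1` have even order `d`, then `2d ≥ n - 1`. -/
theorem result {G Ω : Type*} [Group G] [Finite G] [MulAction G Ω] [Fintype Ω] (hZ : Cfsg.IsZassenhausGroup G Ω) {a b : Ω} (hab : a ≠ b) (heven : Even (Nat.card ↥(MulAction.stabilizer G a ⊓ MulAction.stabilizer G b))) : Fintype.card Ω - 2 ≤ 2 * Nat.card ↥(MulAction.stabilizer G a ⊓ MulAction.stabilizer G b) := by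
  classical
  obtain ⟨hfaith, h2, h3, -, -⟩ := hZ
  set H := MulAction.stabilizer G a ⊓ MulAction.stabilizer G b with hH
  -- an involution in H
  haveI : Fact (Nat.Prime 2) := ⟨Nat.prime_two⟩
  obtain ⟨t₁, ht₁⟩ := exists_prime_orderOf_dvd_card' (G := H) 2 heven.two_dvd
  have ht1 : (t₁ : G) ≠ 1 := by
    intro h
    have : t₁ = 1 := Subtype.ext h
    rw [this, orderOf_one] at ht₁
    omega
  have ht2 : (t₁ : G) * t₁ = 1 := by
    have := pow_orderOf_eq_one t₁
    rw [ht₁, pow_two] at this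
    exact congrArg Subtype.val this
  have hta : (t₁ : G) • a = a := (Subgroup.mem_inf.mp t₁.2).1
  have htb : (t₁ : G) • b = b := (Subgroup.mem_inf.mp t₁.2).2
  have hex : ∀ c : Ω, ∃ t : G, (c ≠ a ∧ c ≠ b) → t ≠ 1 ∧ t • c = c ∧ t • a = b ∧ t • b = a := by
    intro c
    by_cases hc : c ≠ a ∧ c ≠ b
    · obtain ⟨t, h1, -, h4, h5, h6⟩ := Cfsg.Agent.H5Zass.exists_invol_swap h2 h3 hab ht1 ht2 hta htb
        (Ne.symm hc.1) (Ne.symm hc.2)
      exact ⟨t, fun _ => ⟨h1, h4, h5, h6⟩⟩
    · exact ⟨1, fun h => absurd h hc⟩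
  choose τ hτ using hex
  let s : Finset Ω := Finset.univ.filter (fun c => c ≠ a ∧ c ≠ b)
  have hs : s.card = Fintype.card Ω - 2 := by
    have h1 : s = Finset.univ \ {a, b} := by
      ext c
      simp [s]
    rw [h1, Finset.card_sdiff_of_subset (Finset.subset_univ _), Finset.card_univ, Finset.card_pair hab]
  rw [← hs]
  have hfib : ∀ g ∈ s.image τ, (s.filter (fun c => τ c = g)).card ≤ 2 := by
    intro g _
    by_contra hcon
    rw [not_le, Finset.two_lt_card_iff] at hcon
    obtain ⟨x, y, z, hx, hy, hz, hxy, hxz, hyz⟩ := hcon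
    simp only [Finset.mem_filter, Finset.mem_univ, true_and, s] at hx hy hz
    have hx' := hτ x hx.1
    have hy' := hτ y hy.1
    have hz' := hτ z hz.1
    rw [hx.2] at hx'
    rw [hy.2] at hy'
    rw [hz.2] at hz'
    exact hx'.1 (h3 g x y z hxy hyz hxz hx'.2.1 hy'.2.1 hz'.2.1)
  refine (Finset.card_le_mul_card_image s 2 hfib).trans ?_
  apply Nat.mul_le_mul_left
  by_cases hse : s.Nonempty
  · obtain ⟨c₀, hc₀⟩ := hse
    simp only [Finset.mem_filter, Finset.mem_univ, true_and, s] at hc₀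
    have hw₀ := hτ c₀ hc₀
    rw [← Fintype.card_coe, ← Nat.card_eq_fintype_card]
    have hmem : ∀ g : ↥(s.image τ), (τ c₀)⁻¹ * (g : G) ∈ H := by
      rintro ⟨g, hg⟩
      rw [Finset.mem_image] at hg
      obtain ⟨c, hc, rfl⟩ := hg
      simp only [Finset.mem_filter, Finset.mem_univ, true_and, s] at hc
      have hw := hτ c hc
      rw [hH, Subgroup.mem_inf, MulAction.mem_stabilizer_iff, MulAction.mem_stabilizer_iff]
      constructor
      · rw [mul_smul, hw.2.2.1, inv_smul_eq_iff, hw₀.2.2.1]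
      · rw [mul_smul, hw.2.2.2, inv_smul_eq_iff, hw₀.2.2.2]
    apply Nat.card_le_card_of_injective (fun g : ↥(s.image τ) => (⟨(τ c₀)⁻¹ * (g : G), hmem g⟩ : H))
    intro g g' hgg
    have := congrArg Subtype.val hgg
    exact Subtype.ext (mul_left_cancel this)
  · rw [Finset.not_nonempty_iff_eq_empty] at hse
    rw [hse]
    simp

end Cfsg.Agent.S0741
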