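import Cfsg.Statements.S0743
import Mathlib
-- import your own Cfsg.Agent.* helpers here

set_option autoImplicit false
open Cfsg

namespace Cfsg.Agent.S0743

theorem modeq_inv {P α : Type*} [Group P] [MulAction P α] [Finite α] (p : ℕ) [Fact p.Prime]
    (hP : IsPGroup p P) (Δ : Set α) (hinv : ∀ u : P, ∀ y ∈ Δ, u • y ∈ Δ) :
    Nat.card Δ ≡ Nat.card (Δ ∩ MulAction.fixedPoints P α : Set α) [MOD p] := by
  let S : SubMulAction P α := ⟨Δ, fun u {y} hy => hinv u y hy⟩
  have h := hP.card_modEq_card_fixedPoints S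
  have e : Nat.card (MulAction.fixedPoints P S) = Nat.card (Δ ∩ MulAction.fixedPoints P α : Set α) :=
    Nat.card_congr
      { toFun := fun y => ⟨y.1.1, y.1.2, fun u => congrArg Subtype.val (y.2 u)⟩
        invFun := fun y => ⟨⟨y.1, y.2.1⟩, fun u => Subtype.ext (y.2.2 u)⟩
        left_inv := fun y => rfl
        right_inv := fun y => rfl }
  rw [e] at h
  exact h


/-- Gleason's Lemma: let `p` be a prime and `1 ≤ k < n`; if every `k`-subset of the `n` points is exactly the fixed-point set of some `p`-subgroup of `G`, then `G` is `k`-transitive. -/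
theorem result {α : Type*} [Fintype α] [DecidableEq α] (G : Subgroup (Equiv.Perm α)) {p k : ℕ} (hp : p.Prime) (hk : 1 ≤ k) (hkn : k < Fintype.card α) (h : ∀ s : Finset α, s.card = k → ∃ P : Subgroup G, IsPGroup p P ∧ MulAction.fixedPoints P α = (s : Set α)) : MulAction.IsMultiplyPretransitive G α k := by
  classical
  haveI := Fact.mk hp
  have T : ∀ (s' : Finset α) (a b : α), s'.card = k - 1 → a ∉ s' → b ∉ s' →
      ∃ g ∈ G, (∀ x ∈ s', g x = x) ∧ g a = b := by
    intro s' a b hs' ha hb
    by_contra hcon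
    set Δ : Set α := {y | ∃ g ∈ G, (∀ x ∈ s', g x = x) ∧ g a = y} with hΔ
    have hdisj : ∀ y ∈ Δ, y ∉ s' := by
      rintro y ⟨g, hg, hgs, rfl⟩ hy
      have h1 := g.injective (hgs _ hy)
      rw [h1] at hy
      exact ha hy
    have key : ∀ c, c ∉ s' → Nat.card Δ ≡ Nat.card (Δ ∩ {c} : Set α) [MOD p] := by
      intro c hc
      obtain ⟨P, hP, hfix⟩ := h (insert c s') (by rw [Finset.card_insert_of_notMem hc, hs']; omega)
      have h1 := modeq_inv p hP Δ (by
        rintro u y ⟨g, hg, hgs, rfl⟩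
        refine ⟨(u : G).1 * g, G.mul_mem (u : G).2 hg, fun x hx => ?_, rfl⟩
        rw [Equiv.Perm.mul_apply, hgs x hx]
        have : x ∈ MulAction.fixedPoints P α := by
          rw [hfix]; exact Finset.mem_coe.mpr (Finset.mem_insert_of_mem hx)
        exact this u)
      have h2 : (Δ ∩ MulAction.fixedPoints P α : Set α) = Δ ∩ {c} := by
        rw [hfix]
        ext y
        simp only [Set.mem_inter_iff, Finset.coe_insert, Set.mem_insert_iff, Finset.mem_coe,
          Set.mem_singleton_iff]
        constructor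
        · rintro ⟨h1, h2 | h2⟩
          · exact ⟨h1, h2⟩
          · exact absurd h2 (hdisj y h1)
        · rintro ⟨h1, h2⟩; exact ⟨h1, Or.inl h2⟩
      rw [h2] at h1
      exact h1
    have ka := key a ha
    have kb := key b hb
    have ea : (Δ ∩ {a} : Set α) = {a} := by
      rw [Set.inter_eq_right, Set.singleton_subset_iff]
      exact ⟨1, G.one_mem, fun _ _ => rfl, rfl⟩
    have eb : (Δ ∩ {b} : Set α) = ∅ := by
      rw [Set.eq_empty_iff_forall_notMem]
      rintro y ⟨hy, hyb⟩
      rw [Set.mem_singleton_iff] at hyb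
      subst hyb
      exact hcon hy
    rw [ea] at ka
    rw [eb] at kb
    have c1 : Nat.card (({a} : Set α)) = 1 := by simp
    have c0 : Nat.card ((∅ : Set α)) = 0 := by simp
    rw [c1] at ka
    rw [c0] at kb
    have := (Nat.modEq_zero_iff_dvd.mp (ka.symm.trans kb))
    exact hp.one_lt.ne' (Nat.dvd_one.mp this)
  have stepA0 : ∀ (x : Fin k ↪ α) (u v : α), (∀ i, x i ≠ v) →
      ∃ g ∈ G, ∀ i, g (x i) = Equiv.swap u v (x i) := by
    intro x u v hv
    by_cases hu : ∃ i, x i = u
    · obtain ⟨i0, rfl⟩ := hu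
      set I : Finset α := Finset.univ.map x with hI
      have hIc : I.card = k := by rw [hI, Finset.card_map, Finset.card_univ, Fintype.card_fin]
      have hxI : ∀ i, x i ∈ I := fun i => Finset.mem_map_of_mem x (Finset.mem_univ i)
      obtain ⟨g, hg, hgs, hgu⟩ := T (I.erase (x i0)) (x i0) v
        (by rw [Finset.card_erase_of_mem (hxI i0), hIc]) (Finset.notMem_erase _ _)
        (by
          intro h
          obtain ⟨i, -, hi⟩ := Finset.mem_map.mp (Finset.mem_of_mem_erase h)
          exact hv i hi)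
      refine ⟨g, hg, fun i => ?_⟩
      by_cases hi : i = i0
      · rw [hi, Equiv.swap_apply_left, hgu]
      · have hne : x i ≠ x i0 := fun h => hi (x.injective h)
        rw [Equiv.swap_apply_of_ne_of_ne hne (hv i)]
        exact hgs _ (Finset.mem_erase.mpr ⟨hne, hxI i⟩)
    · push_neg at hu
      exact ⟨1, G.one_mem, fun i => by rw [Equiv.swap_apply_of_ne_of_ne (hu i) (hv i)]; rfl⟩
  have stepA : ∀ (x : Fin k ↪ α) (u v : α), u ≠ v →
      ∃ g ∈ G, ∀ i, g (x i) = Equiv.swap u v (x i) := by
    intro x u v huv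
    by_cases hv : ∀ i, x i ≠ v
    · exact stepA0 x u v hv
    by_cases hu : ∀ i, x i ≠ u
    · rw [Equiv.swap_comm]; exact stepA0 x v u hu
    set I : Finset α := Finset.univ.map x with hI
    have hIc : I.card = k := by rw [hI, Finset.card_map, Finset.card_univ, Fintype.card_fin]
    have hxI : ∀ i, x i ∈ I := fun i => Finset.mem_map_of_mem x (Finset.mem_univ i)
    obtain ⟨w, hw⟩ : ∃ w, w ∉ I := by
      by_contra hh
      push_neg at hh
      have : I = Finset.univ := Finset.eq_univ_iff_forall.mpr hh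
      rw [this, Finset.card_univ] at hIc
      omega
    have hxw : ∀ i, x i ≠ w := fun i h => hw (h ▸ hxI i)
    push_neg at hu hv
    obtain ⟨iu, hiu⟩ := hu
    obtain ⟨iv, hiv⟩ := hv
    have hwu : w ≠ u := fun h => hxw iu (hiu.trans h.symm)
    have hwv : w ≠ v := fun h => hxw iv (hiv.trans h.symm)
    obtain ⟨g1, hg1, h1⟩ := stepA0 x u w hxw
    obtain ⟨g2, hg2, h2⟩ := stepA0 (x.trans (Equiv.swap u w).toEmbedding) v u (by
      intro i hi
      have : Equiv.swap u w (x i) = u := hi
      rw [Equiv.swap_apply_eq_iff, Equiv.swap_apply_left] at this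
      exact hxw i this)
    obtain ⟨g3, hg3, h3⟩ := stepA0 ((x.trans (Equiv.swap u w).toEmbedding).trans (Equiv.swap v u).toEmbedding) w v (by
      intro i hi
      have : Equiv.swap v u (Equiv.swap u w (x i)) = v := hi
      rw [Equiv.swap_apply_eq_iff, Equiv.swap_apply_left, Equiv.swap_apply_eq_iff, Equiv.swap_apply_left] at this
      exact hxw i this)
    refine ⟨g3 * g2 * g1, G.mul_mem (G.mul_mem hg3 hg2) hg1, fun i => ?_⟩
    rw [Equiv.Perm.mul_apply, Equiv.Perm.mul_apply, h1]
    have e2 := h2 i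
    have e3 := h3 i
    simp only [Function.Embedding.trans_apply, Equiv.coe_toEmbedding] at e2 e3
    rw [e2, e3]
    simp only [Equiv.swap_apply_def]
    split_ifs <;> simp_all
  have stepB : ∀ (τ : Equiv.Perm α) (x : Fin k ↪ α), ∃ g ∈ G, ∀ i, g (x i) = τ (x i) := by
    intro τ
    induction τ using Equiv.Perm.swap_induction_on with
    | one => exact fun x => ⟨1, G.one_mem, fun i => rfl⟩
    | swap_mul f u v huv ih =>
      intro x
      obtain ⟨g', hg', hgx'⟩ := ih x
      obtain ⟨g, hg, hgx⟩ := stepA (x.trans f.toEmbedding) u v huv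
      refine ⟨g * g', G.mul_mem hg hg', fun i => ?_⟩
      rw [Equiv.Perm.mul_apply, hgx', Equiv.Perm.mul_apply]
      exact hgx i
  refine ⟨fun x y => ?_⟩
  obtain ⟨τ, hτ⟩ := (Equiv.Perm.isMultiplyPretransitive α k).exists_smul_eq x y
  obtain ⟨g, hg, hgx⟩ := stepB τ x
  refine ⟨⟨g, hg⟩, ?_⟩
  ext i
  rw [← hτ]
  exact hgx i

end Cfsg.Agent.S0743
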