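import Cfsg.Statements.S0744
import Mathlib
-- import your own Cfsg.Agent.* helpers here

set_option autoImplicit false
open Cfsg

namespace Cfsg.Agent.S0744

theorem trans_of_T {α : Type*} [Fintype α] [DecidableEq α] (G : Subgroup (Equiv.Perm α)) {k : ℕ}
    (hkn : k < Fintype.card α)
    (T : ∀ (s' : Finset α) (a b : α), s'.card = k - 1 → a ∉ s' → b ∉ s' →
      ∃ g ∈ G, (∀ x ∈ s', g x = x) ∧ g a = b) : MulAction.IsMultiplyPretransitive G α k := by
  classical
  have stepA0 : ∀ (x : Fin k ↪ α) (u v : α), (∀ i, x i ≠ v) →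
      ∃ g ∈ G, ∀ i, g (x i) = Equiv.swap u v (x i) := by
    intro x u v hv
    by_cases hu : ∃ i, x i = u
    · obtain ⟨i0, rfl⟩ := hu
      set I : Finset α := Finset.univ.map x with hI
      have hIc : I.card = k := by rw [hI, Finset.card_map, Finset.card_univ, Fintype.card_fin]
      have hxI : ∀ i, x i ∈ I := fun i => Finset.mem_map_of_mem x (Finset.mem_univ i)
      obtain ⟨g, hg, hgs, hgu⟩ := T (I.erase (x i0)) (x i0) v
        (by rw [Finset.card_erase_of_mem (hxI i0), hIc]) (Finset.notMem_erase _ _)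
        (by
          intro h
          obtain ⟨i, -, hi⟩ := Finset.mem_map.mp (Finset.mem_of_mem_erase h)
          exact hv i hi)
      refine ⟨g, hg, fun i => ?_⟩
      by_cases hi : i = i0
      · rw [hi, Equiv.swap_apply_left, hgu]
      · have hne : x i ≠ x i0 := fun h => hi (x.injective h)
        rw [Equiv.swap_apply_of_ne_of_ne hne (hv i)]
        exact hgs _ (Finset.mem_erase.mpr ⟨hne, hxI i⟩)
    · push_neg at hu
      exact ⟨1, G.one_mem, fun i => by rw [Equiv.swap_apply_of_ne_of_ne (hu i) (hv i)]; rfl⟩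
  have stepA : ∀ (x : Fin k ↪ α) (u v : α), u ≠ v →
      ∃ g ∈ G, ∀ i, g (x i) = Equiv.swap u v (x i) := by
    intro x u v huv
    by_cases hv : ∀ i, x i ≠ v
    · exact stepA0 x u v hv
    by_cases hu : ∀ i, x i ≠ u
    · rw [Equiv.swap_comm]; exact stepA0 x v u hu
    set I : Finset α := Finset.univ.map x with hI
    have hIc : I.card = k := by rw [hI, Finset.card_map, Finset.card_univ, Fintype.card_fin]
    have hxI : ∀ i, x i ∈ I := fun i => Finset.mem_map_of_mem x (Finset.mem_univ i)
    obtain ⟨w, hw⟩ : ∃ w, w ∉ I := by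
      by_contra hh
      push_neg at hh
      have : I = Finset.univ := Finset.eq_univ_iff_forall.mpr hh
      rw [this, Finset.card_univ] at hIc
      omega
    have hxw : ∀ i, x i ≠ w := fun i h => hw (h ▸ hxI i)
    push_neg at hu hv
    obtain ⟨iu, hiu⟩ := hu
    obtain ⟨iv, hiv⟩ := hv
    have hwu : w ≠ u := fun h => hxw iu (hiu.trans h.symm)
    have hwv : w ≠ v := fun h => hxw iv (hiv.trans h.symm)
    obtain ⟨g1, hg1, h1⟩ := stepA0 x u w hxw
    obtain ⟨g2, hg2, h2⟩ := stepA0 (x.trans (Equiv.swap u w).toEmbedding) v u (by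
      intro i hi
      have : Equiv.swap u w (x i) = u := hi
      rw [Equiv.swap_apply_eq_iff, Equiv.swap_apply_left] at this
      exact hxw i this)
    obtain ⟨g3, hg3, h3⟩ := stepA0 ((x.trans (Equiv.swap u w).toEmbedding).trans (Equiv.swap v u).toEmbedding) w v (by
      intro i hi
      have : Equiv.swap v u (Equiv.swap u w (x i)) = v := hi
      rw [Equiv.swap_apply_eq_iff, Equiv.swap_apply_left, Equiv.swap_apply_eq_iff, Equiv.swap_apply_left] at this
      exact hxw i this)
    refine ⟨g3 * g2 * g1, G.mul_mem (G.mul_mem hg3 hg2) hg1, fun i => ?_⟩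
    rw [Equiv.Perm.mul_apply, Equiv.Perm.mul_apply, h1]
    have e2 := h2 i
    have e3 := h3 i
    simp only [Function.Embedding.trans_apply, Equiv.coe_toEmbedding] at e2 e3
    rw [e2, e3]
    simp only [Equiv.swap_apply_def]
    split_ifs <;> simp_all
  have stepB : ∀ (τ : Equiv.Perm α) (x : Fin k ↪ α), ∃ g ∈ G, ∀ i, g (x i) = τ (x i) := by
    intro τ
    induction τ using Equiv.Perm.swap_induction_on with
    | one => exact fun x => ⟨1, G.one_mem, fun i => rfl⟩
    | swap_mul f u v huv ih =>
      intro x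
      obtain ⟨g', hg', hgx'⟩ := ih x
      obtain ⟨g, hg, hgx⟩ := stepA (x.trans f.toEmbedding) u v huv
      refine ⟨g * g', G.mul_mem hg hg', fun i => ?_⟩
      rw [Equiv.Perm.mul_apply, hgx', Equiv.Perm.mul_apply]
      exact hgx i
  refine ⟨fun x y => ?_⟩
  obtain ⟨τ, hτ⟩ := (Equiv.Perm.isMultiplyPretransitive α k).exists_smul_eq x y
  obtain ⟨g, hg, hgx⟩ := stepB τ x
  refine ⟨⟨g, hg⟩, ?_⟩
  ext i
  rw [← hτ]
  exact hgx i

theorem card_stab_fixing {α : Type*} (G : Subgroup (Equiv.Perm α)) (s : Set α) (c : α) :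
    Nat.card (MulAction.stabilizer (fixingSubgroup G s) c) = Nat.card (fixingSubgroup G (insert c s)) :=
  Nat.card_congr
    { toFun := fun u => ⟨u.1.1, by
        rw [mem_fixingSubgroup_iff]
        intro y hy
        rcases hy with rfl | hy
        · exact u.2
        · exact (mem_fixingSubgroup_iff G).mp u.1.2 y hy⟩
      invFun := fun v => ⟨⟨v.1, by
        rw [mem_fixingSubgroup_iff]
        intro y hy
        exact (mem_fixingSubgroup_iff G).mp v.2 y (Set.mem_insert_of_mem _ hy)⟩,
        (mem_fixingSubgroup_iff G).mp v.2 c (Set.mem_insert _ _)⟩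
      left_inv := fun u => rfl
      right_inv := fun v => rfl }

theorem orb_dvd {H α : Type*} [Group H] [Finite H] [MulAction H α] [Finite α] (X : Set α)
    (hinv : ∀ u : H, ∀ y ∈ X, u • y ∈ X) (m : ℕ)
    (hst : ∀ y ∈ X, Nat.card (MulAction.stabilizer H y) = m) : Nat.card H ∣ Nat.card X * m := by
  classical
  let S : SubMulAction H α := ⟨X, fun u {y} hy => hinv u y hy⟩
  have e1 : (Σ x : S, MulAction.stabilizer H x) ≃ (Σ g : H, MulAction.fixedBy S g) :=
    { toFun := fun z => ⟨z.2.1, ⟨z.1, z.2.2⟩⟩
      invFun := fun z => ⟨z.2.1, ⟨z.1, z.2.2⟩⟩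
      left_inv := fun z => rfl
      right_inv := fun z => rfl }
  have e2 := MulAction.sigmaFixedByEquivOrbitsProdGroup H S
  have c1 : Nat.card (Σ x : S, MulAction.stabilizer H x) = Nat.card X * m := by
    haveI : Fintype S := Fintype.ofFinite S
    rw [Nat.card_sigma]
    have : ∀ x ∈ (Finset.univ : Finset S), Nat.card (MulAction.stabilizer H x) = m := by
      intro x _
      rw [SubMulAction.stabilizer_of_subMul]
      exact hst x.1 x.2
    rw [Finset.sum_congr rfl this, Finset.sum_const, Finset.card_univ, smul_eq_mul,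
      ← Nat.card_eq_fintype_card]
    rfl
  have c2 := Nat.card_congr (e1.trans e2)
  rw [c1, Nat.card_prod] at c2
  exact ⟨_, by rw [c2, mul_comm]⟩


/-- If for some `k > 1` the pointwise stabilisers of all `(k-1)`-subsets have the same order `> 1` and those of all `k`-subsets have the same order, then the group is `(k-1)`-transitive. -/
theorem result {α : Type*} [Fintype α] [DecidableEq α] (G : Subgroup (Equiv.Perm α)) {k : ℕ} (hk : 1 < k) (hkn : k ≤ Fintype.card α) (l m : ℕ) (hl : 1 < l) (hkm1 : ∀ s : Finset α, s.card = k - 1 → Nat.card (fixingSubgroup G (s : Set α)) = l) (hkm : ∀ s : Finset α, s.card = k → Nat.card (fixingSubgroup G (s : Set α)) = m) : MulAction.IsMultiplyPretransitive G α (k - 1) := by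
  classical
  apply trans_of_T G (by omega)
  intro t a b ht ha hb
  by_contra hcon
  set K := fixingSubgroup G (t : Set α) with hK
  have hav : ∀ c, c ∉ t → ∀ y ∈ MulAction.orbit K c, y ∉ t := by
    rintro c hc _ ⟨u, rfl⟩ hy
    have h1 : u • (u • c) = u • c := (mem_fixingSubgroup_iff G).mp u.2 _ (Finset.mem_coe.mpr hy)
    have h2 := MulAction.injective u h1
    have hy' : u • c ∈ t := hy
    rw [h2] at hy'
    exact hc hy'
  have hl1 : ∀ c, c ∉ t → Nat.card (fixingSubgroup G (insert c (t : Set α))) = l := by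
    intro c hc
    have := hkm1 (insert c t) (by rw [Finset.card_insert_of_notMem hc, ht]; omega)
    rwa [Finset.coe_insert] at this
  have hcardK : ∀ c, c ∉ t → Nat.card (MulAction.orbit K c) * l = Nat.card K := by
    intro c hc
    have h1 := Subgroup.card_mul_index (MulAction.stabilizer K c)
    rw [MulAction.index_stabilizer, card_stab_fixing, hl1 c hc] at h1
    rw [← h1, mul_comm]
    rfl
  have hba : b ∉ MulAction.orbit K a := by
    rintro ⟨u, hu⟩
    exact hcon ⟨u.1.1, u.1.2, fun x hx => (mem_fixingSubgroup_iff G).mp u.2 x (Finset.mem_coe.mpr hx), hu⟩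
  have hab : a ∉ MulAction.orbit K b := fun h => hba (MulAction.mem_orbit_symm.mp h)
  have hne : a ≠ b := by
    rintro rfl
    exact hba (MulAction.mem_orbit_self a)
  set H := fixingSubgroup G (insert a (t : Set α)) with hH
  have hHl : Nat.card H = l := hl1 a ha
  have hHK : ∀ u : H, u.1 ∈ K := by
    intro u
    rw [hK, mem_fixingSubgroup_iff]
    intro y hy
    exact (mem_fixingSubgroup_iff G).mp u.2 y (Set.mem_insert_of_mem _ hy)
  have hinv : ∀ c : α, ∀ u : H, ∀ y ∈ MulAction.orbit K c, u • y ∈ MulAction.orbit K c := by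
    rintro c u _ ⟨v, rfl⟩
    exact ⟨⟨u.1, hHK u⟩ * v, by
      show ((⟨u.1, hHK u⟩ : K) * v) • c = u • (v • c)
      rw [mul_smul]; rfl⟩
  have hst : ∀ y, y ≠ a → y ∉ t → Nat.card (MulAction.stabilizer H y) = m := by
    intro y hya hyt
    rw [hH, card_stab_fixing]
    have := hkm (insert y (insert a t)) (by
      rw [Finset.card_insert_of_notMem (by
        rw [Finset.mem_insert]; push_neg; exact ⟨hya, hyt⟩), Finset.card_insert_of_notMem ha, ht]
      omega)
    rwa [Finset.coe_insert, Finset.coe_insert] at this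
  have d2 : l ∣ Nat.card (MulAction.orbit K b) * m := by
    rw [← hHl]
    apply orb_dvd (MulAction.orbit K b) (hinv b) m
    intro y hy
    exact hst y (fun h => hab (h ▸ hy)) (hav b hb y hy)
  have d1 : l ∣ Nat.card (MulAction.orbit K a \ {a} : Set α) * m := by
    rw [← hHl]
    apply orb_dvd (MulAction.orbit K a \ {a} : Set α) _ m
    · intro y hy
      exact hst y hy.2 (hav a ha y hy.1)
    · intro u y hy
      refine ⟨hinv a u y hy.1, ?_⟩
      intro h
      rw [Set.mem_singleton_iff] at h
      have h1 : u • a = a := (mem_fixingSubgroup_iff G).mp u.2 a (Set.mem_insert _ _)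
      apply hy.2
      rw [Set.mem_singleton_iff]
      exact MulAction.injective u (h.trans h1.symm)
  have hN : Nat.card (MulAction.orbit K a) = Nat.card (MulAction.orbit K b) :=
    Nat.eq_of_mul_eq_mul_right (by omega : 0 < l) ((hcardK a ha).trans (hcardK b hb).symm)
  have hN1 : Nat.card (MulAction.orbit K a \ {a} : Set α) + 1 = Nat.card (MulAction.orbit K a) := by
    have := Set.ncard_diff_singleton_add_one (MulAction.mem_orbit_self (M := K) a) (Set.toFinite _)
    exact this
  have hlm : l ∣ m := by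
    rw [← hN, ← hN1, add_mul, one_mul] at d2
    exact (Nat.dvd_add_right d1).mp d2
  have hm0 : 0 < m := by
    rw [← hst b hne.symm hb]
    exact Nat.card_pos
  have hle : l ≤ m := Nat.le_of_dvd hm0 hlm
  have hall : ∀ u : H, u = 1 := by
    intro u
    apply Subtype.ext
    apply Subtype.ext
    apply Equiv.ext
    intro c
    show u • c = c
    by_cases hc : c ∈ insert a (t : Set α)
    · exact (mem_fixingSubgroup_iff G).mp u.2 c hc
    · have h1 : c ≠ a := fun h => hc (h ▸ Set.mem_insert _ _)
      have h2 : c ∉ t := fun h => hc (Set.mem_insert_of_mem _ (Finset.mem_coe.mpr h))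
      have h3 : MulAction.stabilizer H c = ⊤ := by
        apply Subgroup.eq_top_of_le_card
        rw [hst c h1 h2, hHl]
        exact hle
      have : u ∈ MulAction.stabilizer H c := h3 ▸ Subgroup.mem_top u
      exact this
  have : Nat.card H ≤ 1 := by
    haveI : Subsingleton H := ⟨fun u v => (hall u).trans (hall v).symm⟩
    exact Finite.card_le_one_iff_subsingleton.mpr this
  omega

end Cfsg.Agent.S0744
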