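import Cfsg.Statements.S0753
import Mathlib
-- import your own Cfsg.Agent.* helpers here

set_option autoImplicit false
open Cfsg

namespace Cfsg.Agent.S0753

/-- If σ is a ring endomorphism of the field F other than the identity and B is a σ-sesquilinear conjugate-symmetric form with B v v = 0 for every v, then B = 0. -/
theorem result {F V : Type*} [Field F] [AddCommGroup V] [Module F V] (σ : F →+* F) (hσ : σ ≠ RingHom.id F) (B : V →ₛₗ[σ] V →ₗ[F] F) (hS : B.IsSymm) (h0 : ∀ v : V, B v v = 0) : B = 0 := by
  have hsymm : ∀ x y, σ (B x y) = B y x := LinearMap.isSymm_def.mp hS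
  have h1 : ∀ u v : V, B u v + σ (B u v) = 0 := by
    intro u v
    have := h0 (u + v)
    simp only [map_add, LinearMap.add_apply, h0, zero_add, add_zero] at this
    rw [hsymm]
    rw [add_comm]; exact this
  by_contra hB
  have : ∃ u v, B u v ≠ 0 := by
    by_contra hne
    push Not at hne
    apply hB
    ext u v
    simpa using hne u v
  obtain ⟨u, v, huv⟩ := this
  have h2 : ∀ a : F, a + σ a = 0 := by
    intro a
    have := h1 u ((a * (B u v)⁻¹) • v)
    simp only [map_smul, smul_eq_mul] at this
    rw [mul_assoc, inv_mul_cancel₀ huv, mul_one] at this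
    exact this
  apply hσ
  ext a
  have h3 := h2 1
  rw [map_one] at h3
  have h4 := h2 a
  have h5 : σ a = -a := by linear_combination h4
  have h6 : -a = a := by linear_combination (-a) * h3
  simp [h5, h6]

end Cfsg.Agent.S0753
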