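import Cfsg.Statements.S0757
import Mathlib
-- import your own Cfsg.Agent.* helpers here

set_option autoImplicit false
open Cfsg

namespace Cfsg.Agent.S0757

/-- The two diagonal forms Σ x_i^2 and Σ_(i<n) x_i^2 + α x_n^2 on F^(n+1), with α a non-square and 2 ≠ 0 in F, are inequivalent quadratic forms (so over a finite field of odd order there are exactly two classes of non-singular symmetric bilinear forms in each dimension). -/
theorem result {F : Type*} [Field F] (h2 : (2 : F) ≠ 0) (n : ℕ) (α : F) (hα : ¬ IsSquare α) : ¬ (QuadraticMap.weightedSumSquares F (fun _ : Fin (n + 1) => (1 : F))).Equivalent (QuadraticMap.weightedSumSquares F (fun i : Fin (n + 1) => if i = Fin.last n then α else (1 : F))) := by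
  rintro ⟨e⟩
  haveI : Invertible (2 : F) := invertibleOfNonzero h2
  have hmat : ∀ w : Fin (n + 1) → F,
      QuadraticForm.toMatrix' (QuadraticMap.weightedSumSquares F w) = Matrix.diagonal w := by
    intro w
    have h1 : QuadraticMap.weightedSumSquares F w =
        LinearMap.BilinMap.toQuadraticMap (Matrix.toLinearMap₂' F (Matrix.diagonal w)) := by
      ext v
      simp only [QuadraticMap.weightedSumSquares_apply, LinearMap.BilinMap.toQuadraticMap_apply,
        Matrix.toLinearMap₂'_apply', dotProduct, Matrix.mulVec_diagonal, smul_eq_mul]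
      apply Finset.sum_congr rfl
      intro i _
      ring
    have h2' : ∀ x y : Fin (n + 1) → F, (Matrix.toLinearMap₂' F (Matrix.diagonal w)) x y =
        (Matrix.toLinearMap₂' F (Matrix.diagonal w)) y x := by
      intro x y
      simp only [Matrix.toLinearMap₂'_apply', dotProduct, Matrix.mulVec_diagonal]
      apply Finset.sum_congr rfl
      intro i _
      ring
    unfold QuadraticForm.toMatrix'
    rw [h1]
    have := QuadraticMap.associated_left_inverse F h2'
    rw [this]
    simp
  set Q₁ := QuadraticMap.weightedSumSquares F (fun _ : Fin (n + 1) => (1 : F)) with hQ₁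
  set Q₂ := QuadraticMap.weightedSumSquares F (fun i : Fin (n + 1) => if i = Fin.last n then α else (1 : F)) with hQ₂
  have hcomp : Q₁ = Q₂.comp (e.toLinearEquiv : (Fin (n + 1) → F) →ₗ[F] (Fin (n + 1) → F)) := by
    ext v
    simp only [QuadraticMap.comp_apply]
    exact (e.map_app v).symm
  have hd := QuadraticForm.discr'_comp (Q := Q₂) (e.toLinearEquiv : (Fin (n + 1) → F) →ₗ[F] (Fin (n + 1) → F))
  rw [← hcomp] at hd
  unfold QuadraticForm.discr' at hd
  set d := (LinearMap.toMatrix' (e.toLinearEquiv : (Fin (n + 1) → F) →ₗ[F] (Fin (n + 1) → F))).det with hdd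
  clear_value d
  rw [hmat, hmat, Matrix.det_diagonal, Matrix.det_diagonal] at hd
  simp only [Finset.prod_const_one, Finset.prod_ite_eq', Finset.mem_univ, if_true] at hd
  have hd0 : d ≠ 0 := by
    rintro h0
    rw [h0] at hd
    simp at hd
  apply hα
  refine ⟨d⁻¹, ?_⟩
  field_simp
  linear_combination -hd

end Cfsg.Agent.S0757
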