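import Cfsg.Statements.S0758
import Mathlib
-- import your own Cfsg.Agent.* helpers here

set_option autoImplicit false
open Cfsg

namespace Cfsg.Agent.S0758

/-- For a finite field F of odd order q and a non-square α: the form x² + y² is isotropic iff q ≡ 1 mod 4, and the form x² + α y² is isotropic iff q ≡ 3 mod 4. -/
theorem result {F : Type*} [Field F] [Fintype F] (h2 : (2 : F) ≠ 0) (α : F) (hα : ¬ IsSquare α) : ((∃ x y : F, (x ≠ 0 ∨ y ≠ 0) ∧ x ^ 2 + y ^ 2 = 0) ↔ Fintype.card F % 4 = 1) ∧ ((∃ x y : F, (x ≠ 0 ∨ y ≠ 0) ∧ x ^ 2 + α * y ^ 2 = 0) ↔ Fintype.card F % 4 = 3) := by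
  classical
  have hchar : ringChar F ≠ 2 := by
    intro h
    apply h2
    have := CharP.cast_eq_zero F (ringChar F)
    rw [h] at this
    exact_mod_cast this
  have hodd : Fintype.card F % 2 = 1 := FiniteField.odd_card_of_char_ne_two hchar
  have hm1 : IsSquare (-1 : F) ↔ Fintype.card F % 4 ≠ 3 := FiniteField.isSquare_neg_one_iff
  have hα0 : α ≠ 0 := by
    rintro rfl
    exact hα ⟨0, by simp⟩
  constructor
  · constructor
    · rintro ⟨x, y, hxy, h⟩
      have hy : y ≠ 0 := by
        rintro rfl
        rcases hxy with hx | hy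
        · apply hx; simpa using h
        · exact hy rfl
      have : IsSquare (-1 : F) := ⟨x / y, by field_simp; linear_combination -h⟩
      have := hm1.mp this
      omega
    · intro h
      have : IsSquare (-1 : F) := hm1.mpr (by omega)
      obtain ⟨i, hi⟩ := this
      exact ⟨i, 1, Or.inr one_ne_zero, by linear_combination -hi⟩
  · have key : IsSquare (-α) ↔ ¬ IsSquare (-1 : F) := by
      have h1 : quadraticChar F (-α) = quadraticChar F (-1) * quadraticChar F α := by
        rw [← map_mul]; simp
      have h3 : quadraticChar F α = -1 := (quadraticChar_neg_one_iff_not_isSquare).mpr hα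
      have hnα : -α ≠ 0 := neg_ne_zero.mpr hα0
      rw [← quadraticChar_one_iff_isSquare hnα, ← quadraticChar_neg_one_iff_not_isSquare, h1, h3]
      constructor
      · intro h; linarith
      · intro h; rw [h]; norm_num
    constructor
    · rintro ⟨x, y, hxy, h⟩
      have hy : y ≠ 0 := by
        rintro rfl
        rcases hxy with hx | hy
        · apply hx; simpa using h
        · exact hy rfl
      have : IsSquare (-α) := ⟨x / y, by field_simp; linear_combination -h⟩
      have := key.mp this
      rw [hm1] at this
      omega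
    · intro h
      have : ¬ IsSquare (-1 : F) := by rw [hm1]; omega
      obtain ⟨i, hi⟩ := key.mpr this
      exact ⟨i, 1, Or.inr one_ne_zero, by linear_combination -hi⟩

end Cfsg.Agent.S0758
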