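import Cfsg.Statements.S0759
import Mathlib
-- import your own Cfsg.Agent.* helpers here

set_option autoImplicit false
open Cfsg

namespace Cfsg.Agent.S0759

open Matrix

variable {F : Type*} [Field F]

/-- From a linear map `S` with `Σ (S x)² = - Σ x²` build a totally singular subspace of dimension `m`. -/
theorem construct (m : ℕ) (S : (Fin m → F) →ₗ[F] (Fin m → F)) (hS : ∀ x, ∑ j, (S x j) ^ 2 = - ∑ j, (x j) ^ 2) :
    ∃ W : Submodule F (Fin (2 * m) → F), Module.finrank F W = m ∧ ∀ w ∈ W, ∑ i, w i ^ 2 = 0 := by
  let e : Fin (2 * m) ≃ Fin m ⊕ Fin m := (finCongr (two_mul m)).trans finSumFinEquiv.symm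
  let T : (Fin m → F) →ₗ[F] (Fin (2 * m) → F) :=
    { toFun := fun x k => Sum.elim x (S x) (e k)
      map_add' := by
        intro x y
        ext k
        show Sum.elim (x + y) (S (x + y)) (e k) = Sum.elim x (S x) (e k) + Sum.elim y (S y) (e k)
        generalize e k = z
        rcases z with j | j <;> simp
      map_smul' := by
        intro c x
        ext k
        show Sum.elim (c • x) (S (c • x)) (e k) = c • Sum.elim x (S x) (e k)
        generalize e k = z
        rcases z with j | j <;> simp }
  have hT : ∀ x k, T x k = Sum.elim x (S x) (e k) := fun x k => rfl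
  have hinj : Function.Injective T := by
    intro x y hxy
    ext j
    have := congrFun hxy (e.symm (Sum.inl j))
    simpa [hT] using this
  refine ⟨LinearMap.range T, ?_, ?_⟩
  · rw [LinearMap.finrank_range_of_inj hinj]; simp
  · rintro _ ⟨x, rfl⟩
    simp only [hT]
    rw [Equiv.sum_comp e (fun z => (Sum.elim x (S x) z) ^ 2), Fintype.sum_sum_type]
    simp only [Sum.elim_inl, Sum.elim_inr]
    rw [hS]; ring

theorem det_antiblock (m : ℕ) (A C D : Matrix (Fin m) (Fin m) F) :
    (fromBlocks 0 A C D).det = (-1) ^ m * (A.det * C.det) := by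
  have h1 : fromBlocks 0 A C D * J (Fin m) F = fromBlocks A 0 D (-C) := by
    rw [J, fromBlocks_multiply]
    simp
  have h2 := congrArg Matrix.det h1
  rw [det_mul, SymplecticGroup.det_eq_one (SymplecticGroup.J_mem (Fin m) F), mul_one, det_fromBlocks_zero₁₂, det_neg] at h2
  rw [h2]
  simp only [Fintype.card_fin]
  ring

theorem obstruction (h2 : (2 : F) ≠ 0) (m : ℕ) (W : Submodule F (Fin (2 * m) → F)) (hW : Module.finrank F W = m)
    (hs : ∀ w ∈ W, ∑ i, w i ^ 2 = 0) : IsSquare ((-1 : F) ^ m) := by
  classical
  have hiso : ∀ w ∈ W, ∀ w' ∈ W, w ⬝ᵥ w' = 0 := by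
    intro w hw w' hw'
    have h1 := hs _ (W.add_mem hw hw')
    have h3 : ∑ i, (w + w') i ^ 2 = ∑ i, w i ^ 2 + ∑ i, w' i ^ 2 + 2 * (w ⬝ᵥ w') := by
      simp only [dotProduct, Finset.mul_sum, ← Finset.sum_add_distrib, Pi.add_apply]
      apply Finset.sum_congr rfl
      intro i _
      ring
    rw [h3, hs w hw, hs w' hw'] at h1
    have h4 : 2 * (w ⬝ᵥ w') = 0 := by linear_combination h1
    exact (mul_eq_zero.mp h4).resolve_left h2
  obtain ⟨C, hC⟩ := Submodule.exists_isCompl W
  have hCdim : Module.finrank F C = m := by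
    have := Submodule.finrank_add_eq_of_isCompl hC
    simp only [Module.finrank_fin_fun] at this
    omega
  let bW := Module.finBasisOfFinrankEq F W hW
  let bC := Module.finBasisOfFinrankEq F C hCdim
  let b : Module.Basis (Fin m ⊕ Fin m) F (Fin (2 * m) → F) := (bW.prod bC).map (Submodule.prodEquivOfIsCompl W C hC)
  have hbl : ∀ i, b (Sum.inl i) ∈ W := by
    intro i
    simp [b]
  let e : Fin (2 * m) ≃ Fin m ⊕ Fin m := (finCongr (two_mul m)).trans finSumFinEquiv.symm
  let st : Module.Basis (Fin m ⊕ Fin m) F (Fin (2 * m) → F) := (Pi.basisFun F (Fin (2 * m))).reindex e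
  let P := st.toMatrix b
  have hP : ∀ x y, P x y = b y (e.symm x) := by
    intro x y
    simp [P, st, Module.Basis.toMatrix_apply]
  have hPdet : IsUnit P.det := by
    have := st.isUnit_det b
    rwa [Module.Basis.det_apply] at this
  let G := Pᵀ * P
  have hG : ∀ x y, G x y = b x ⬝ᵥ b y := by
    intro x y
    simp only [G, Matrix.mul_apply, Matrix.transpose_apply, hP, dotProduct]
    exact Equiv.sum_comp e.symm (fun k => b x k * b y k)
  have hGb : G = fromBlocks 0 G.toBlocks₁₂ (G.toBlocks₁₂)ᵀ G.toBlocks₂₂ := by
    conv_lhs => rw [← fromBlocks_toBlocks G]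
    congr 1
    · ext i j
      simp only [toBlocks₁₁, of_apply, hG, Matrix.zero_apply]
      exact hiso _ (hbl i) _ (hbl j)
    · ext i j
      simp only [toBlocks₂₁, toBlocks₁₂, of_apply, hG, transpose_apply]
      exact dotProduct_comm _ _
  have hdet : G.det = P.det * P.det := by
    simp only [G, det_mul, det_transpose]
  rw [hGb, det_antiblock, det_transpose] at hdet
  set a := G.toBlocks₁₂.det with ha
  have ha0 : a ≠ 0 := by
    intro h0
    rw [h0] at hdet
    simp only [mul_zero] at hdet
    exact hPdet.ne_zero (mul_self_eq_zero.mp hdet.symm)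
  refine ⟨P.det / a, ?_⟩
  field_simp
  linear_combination hdet


/-- Type of the orthonormal form: over a finite field of odd order q and for m ≥ 1, the quadratic form Σ_(i<2m) x_i² on F^(2m) admits an m-dimensional subspace on which it vanishes identically if and only if it is not the case that q ≡ 3 (mod 4) and m is odd. -/
theorem result {F : Type*} [Field F] [Fintype F] (h2 : (2 : F) ≠ 0) (m : ℕ) (hm : 1 ≤ m) : (∃ W : Submodule F (Fin (2 * m) → F), Module.finrank F W = m ∧ ∀ w ∈ W, ∑ i, w i ^ 2 = 0) ↔ ¬ (Fintype.card F % 4 = 3 ∧ Odd m) := by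
  classical
  have hchar : ringChar F ≠ 2 := by
    intro h
    apply h2
    have := CharP.cast_eq_zero F (ringChar F)
    rw [h] at this
    exact_mod_cast this
  have hm1 : IsSquare (-1 : F) ↔ Fintype.card F % 4 ≠ 3 := FiniteField.isSquare_neg_one_iff
  constructor
  · rintro ⟨W, hW, hs⟩ ⟨hq, hodd⟩
    have := obstruction h2 m W hW hs
    rw [hodd.neg_one_pow] at this
    exact hm1.mp this hq
  · intro h
    by_cases hq : Fintype.card F % 4 = 3
    · have heven : Even m := by
        rw [← Nat.not_odd_iff_even]
        intro ho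
        exact h ⟨hq, ho⟩
      obtain ⟨r, hr⟩ := heven
      subst hr
      -- a^2 + b^2 = -1
      obtain ⟨a, b, hab⟩ : ∃ a b : F, a ^ 2 + b ^ 2 = -1 := by
        have hodd : Fintype.card F % 2 = 1 := FiniteField.odd_card_of_char_ne_two hchar
        let f : Polynomial F := Polynomial.X ^ 2
        let g : Polynomial F := Polynomial.X ^ 2 - Polynomial.C (-1)
        obtain ⟨a, b, hab⟩ : ∃ a b, f.eval a + g.eval b = 0 :=
          FiniteField.exists_root_sum_quadratic (Polynomial.degree_X_pow 2)
            (Polynomial.degree_X_pow_sub_C (by decide) _) hodd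
        refine ⟨a, b, ?_⟩
        simp only [f, g, Polynomial.eval_C, Polynomial.eval_X, Polynomial.eval_pow, Polynomial.eval_sub] at hab
        linear_combination hab
      let e' : Fin (r + r) ≃ Fin r ⊕ Fin r := finSumFinEquiv.symm
      let S : (Fin (r + r) → F) →ₗ[F] (Fin (r + r) → F) :=
        { toFun := fun x j => Sum.elim (fun t => a * x (e'.symm (Sum.inl t)) - b * x (e'.symm (Sum.inr t)))
            (fun t => b * x (e'.symm (Sum.inl t)) + a * x (e'.symm (Sum.inr t))) (e' j)
          map_add' := by
            intro x y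
            ext k
            simp only [Pi.add_apply]
            generalize e' k = z
            rcases z with j | j <;> simp <;> ring
          map_smul' := by
            intro c x
            ext k
            simp only [Pi.smul_apply, RingHom.id_apply, smul_eq_mul]
            generalize e' k = z
            rcases z with j | j <;> simp <;> ring }
      apply construct (r + r) S
      intro x
      have hS : ∀ j, S x j = Sum.elim (fun t => a * x (e'.symm (Sum.inl t)) - b * x (e'.symm (Sum.inr t)))
            (fun t => b * x (e'.symm (Sum.inl t)) + a * x (e'.symm (Sum.inr t))) (e' j) := fun j => rfl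
      simp only [hS]
      rw [Equiv.sum_comp e' (fun z => (Sum.elim (fun t => a * x (e'.symm (Sum.inl t)) - b * x (e'.symm (Sum.inr t)))
            (fun t => b * x (e'.symm (Sum.inl t)) + a * x (e'.symm (Sum.inr t))) z) ^ 2), Fintype.sum_sum_type,
        ← Equiv.sum_comp e'.symm (fun j => x j ^ 2), Fintype.sum_sum_type]
      simp only [Sum.elim_inl, Sum.elim_inr]
      rw [← Finset.sum_add_distrib, ← Finset.sum_add_distrib, ← Finset.sum_neg_distrib]
      apply Finset.sum_congr rfl
      intro t _
      linear_combination (x (e'.symm (Sum.inl t)) ^ 2 + x (e'.symm (Sum.inr t)) ^ 2) * hab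
    · obtain ⟨i, hi⟩ := hm1.mpr hq
      apply construct m (i • LinearMap.id)
      intro x
      simp only [LinearMap.smul_apply, LinearMap.id_apply, Pi.smul_apply, smul_eq_mul]
      rw [← Finset.sum_neg_distrib]
      apply Finset.sum_congr rfl
      intro t _
      linear_combination (-(x t) ^ 2) * hi

end Cfsg.Agent.S0759
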