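import Cfsg.Statements.S0761
import Mathlib
-- import your own Cfsg.Agent.* helpers here

set_option autoImplicit false
open Cfsg

namespace Cfsg.Agent.S0761

/-- Hyperbolic partners: let B be a non-degenerate bilinear form on a finite-dimensional space, either alternating, or symmetric with 2 ≠ 0. If Z is a subspace on which B vanishes, x ∉ Z is isotropic and orthogonal to Z, then there is an isotropic y with B x y = 1 which is orthogonal to Z. -/
theorem result {F V : Type*} [Field F] [AddCommGroup V] [Module F V] [FiniteDimensional F V] (B : LinearMap.BilinForm F V) (hB : B.Nondegenerate) (hform : B.IsAlt ∨ (B.IsSymm ∧ (2 : F) ≠ 0)) (x : V) (Z : Submodule F V) (hxZ : x ∉ Z) (hx : B x x = 0) (hxz : ∀ z ∈ Z, B x z = 0) (hZ : ∀ z ∈ Z, ∀ z' ∈ Z, B z z' = 0) : ∃ y : V, B y y = 0 ∧ B x y = 1 ∧ ∀ z ∈ Z, B z y = 0 := by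
  obtain ⟨f, hfx, hfZ⟩ := Submodule.exists_le_ker_of_notMem hxZ
  -- normalise f
  set f' : Module.Dual F V := (f x)⁻¹ • f with hf'
  have hf'x : f' x = 1 := by simp [hf', inv_mul_cancel₀ hfx]
  have hf'Z : ∀ z ∈ Z, f' z = 0 := by
    intro z hz
    have : f z = 0 := hfZ hz
    simp [hf', this]
  set y₁ := (B.toDual hB).symm f' with hy₁
  have hy : ∀ v, B y₁ v = f' v := by
    intro v
    rw [hy₁, ← LinearMap.BilinForm.toDual_def hB, LinearEquiv.apply_symm_apply]
  rcases hform with hA | ⟨hS, h2⟩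
  · have hneg : ∀ u v, B u v = - B v u := fun u v => by
      have := LinearMap.IsAlt.neg hA v u
      rw [← this]
    refine ⟨-y₁, ?_, ?_, ?_⟩
    · exact hA _
    · rw [map_neg, hneg x y₁, hy, hf'x]; simp
    · intro z hz
      rw [map_neg, hneg z y₁, hy, hf'Z z hz]; simp
  · have hsym : ∀ u v, B u v = B v u := LinearMap.BilinForm.isSymm_def.mp hS
    set c := B y₁ y₁ / 2 with hc
    refine ⟨y₁ - c • x, ?_, ?_, ?_⟩
    · simp only [map_sub, map_smul, LinearMap.sub_apply, LinearMap.smul_apply, smul_eq_mul, hx, hsym x y₁, hy x, hf'x]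
      rw [hc]; field_simp; ring
    · simp only [map_sub, map_smul, smul_eq_mul, hx, hsym x y₁, hy x, hf'x]; ring
    · intro z hz
      simp only [map_sub, map_smul, smul_eq_mul, hsym z y₁, hy z, hf'Z z hz, hsym z x, hxz z hz]; ring

end Cfsg.Agent.S0761
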