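import Cfsg.Statements.S0762
import Mathlib
-- import your own Cfsg.Agent.* helpers here

set_option autoImplicit false
open Cfsg

namespace Cfsg.Agent.S0762

/-- In characteristic two over a finite field, a quadratic form on a space of dimension at least 3 vanishes on some non-zero vector. -/
theorem result {F V : Type*} [Field F] [Finite F] [CharP F 2] [AddCommGroup V] [Module F V] [FiniteDimensional F V] (Q : QuadraticForm F V) (h3 : 3 ≤ Module.finrank F V) : ∃ v : V, v ≠ 0 ∧ Q v = 0 := by
  have : Nontrivial V := Module.nontrivial_of_finrank_pos (R := F) (by omega)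
  obtain ⟨u, hu⟩ := exists_ne (0 : V)
  by_cases hQu : Q u = 0
  · exact ⟨u, hu, hQu⟩
  set φ : V →ₗ[F] F := QuadraticMap.polarBilin Q u with hφ
  have hker : 2 ≤ Module.finrank F (LinearMap.ker φ) := by
    have h1 := LinearMap.finrank_range_add_finrank_ker φ
    have h2 : Module.finrank F (LinearMap.range φ) ≤ 1 := by
      have := Submodule.finrank_le (LinearMap.range φ)
      simpa using this
    omega
  have hex : ∃ w ∈ LinearMap.ker φ, w ∉ Submodule.span F {u} := by
    by_contra hcon
    push Not at hcon
    have hle : LinearMap.ker φ ≤ Submodule.span F {u} := hcon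
    have := Submodule.finrank_mono hle
    rw [finrank_span_singleton hu] at this
    omega
  obtain ⟨w, hw, hwu⟩ := hex
  have hpol : QuadraticMap.polar Q u w = 0 := by
    have : φ w = 0 := hw
    simpa [hφ] using this
  obtain ⟨a, ha⟩ := FiniteField.isSquare_of_char_two (F := F) (by exact CharP.ringChar_of_prime_eq_zero Nat.prime_two (CharP.cast_eq_zero F 2)) (Q w / Q u)
  refine ⟨a • u + w, ?_, ?_⟩
  · intro h
    apply hwu
    have : w = (-a) • u := by
      rw [neg_smul]; exact (neg_eq_of_add_eq_zero_right h).symm ▸ rfl
    rw [this]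
    exact Submodule.smul_mem _ _ (Submodule.mem_span_singleton_self u)
  · rw [QuadraticMap.map_add Q, QuadraticMap.map_smul, QuadraticMap.polar_smul_left, hpol, ← ha]
    simp only [smul_eq_mul, mul_zero, add_zero]
    rw [div_mul_cancel₀ _ hQu]
    exact CharTwo.add_self_eq_zero _

end Cfsg.Agent.S0762
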