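import Cfsg.Statements.S0763
import Mathlib
-- import your own Cfsg.Agent.* helpers here

set_option autoImplicit false
open Cfsg

namespace Cfsg.Agent.S0763

/-- Binary quadratic forms in characteristic two over a finite field: if Q is a quadratic form on a 2-dimensional space whose polar form is non-degenerate, then either there are vectors v, w with Q v = Q w = 0 and polar value 1 (Q is xy in these coordinates), or there are v, w and μ with Q v = 1, Q w = μ, polar value 1 and x² + x + μ without roots in F (Q is x² + xy + μy²). -/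
theorem result {F V : Type*} [Field F] [Finite F] [CharP F 2] [AddCommGroup V] [Module F V] (Q : QuadraticForm F V) (h2 : Module.finrank F V = 2) (hQ : (QuadraticMap.polarBilin Q).Nondegenerate) : (∃ v w : V, LinearIndependent F ![v, w] ∧ Q v = 0 ∧ Q w = 0 ∧ QuadraticMap.polar Q v w = 1) ∨ (∃ (v w : V) (μ : F), LinearIndependent F ![v, w] ∧ (∀ x : F, x ^ 2 + x + μ ≠ 0) ∧ Q v = 1 ∧ Q w = μ ∧ QuadraticMap.polar Q v w = 1) := by
  have hfd : FiniteDimensional F V := Module.finite_of_finrank_pos (by omega)
  have : Nontrivial V := Module.nontrivial_of_finrank_pos (R := F) (by omega)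
  have hchar : ringChar F = 2 := CharP.ringChar_of_prime_eq_zero Nat.prime_two (CharP.cast_eq_zero F 2)
  set B := QuadraticMap.polarBilin Q with hB
  have hBp : ∀ x y, B x y = QuadraticMap.polar Q x y := fun x y => rfl
  have hself : ∀ x, QuadraticMap.polar Q x x = 0 := by
    intro x
    rw [QuadraticMap.polar_self, two_smul]
    exact CharTwo.add_self_eq_zero _
  -- partner with polar value one
  have hpartner : ∀ v : V, v ≠ 0 → ∃ w, QuadraticMap.polar Q v w = 1 := by
    intro v hv
    have : ∃ w, B v w ≠ 0 := by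
      by_contra hcon
      push Not at hcon
      exact hv (hQ.1 v hcon)
    obtain ⟨w, hw⟩ := this
    refine ⟨(B v w)⁻¹ • w, ?_⟩
    rw [QuadraticMap.polar_smul_right, ← hBp, smul_eq_mul, inv_mul_cancel₀ hw]
  have hindep : ∀ v w : V, QuadraticMap.polar Q v w = 1 → LinearIndependent F ![v, w] := by
    intro v w hvw
    rw [LinearIndependent.pair_iff]
    intro s t hst
    have h1 : QuadraticMap.polar Q v (s • v + t • w) = t := by
      rw [QuadraticMap.polar_add_right, QuadraticMap.polar_smul_right, QuadraticMap.polar_smul_right, hself, hvw]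
      simp
    have h2 : QuadraticMap.polar Q (s • v + t • w) w = s := by
      rw [QuadraticMap.polar_add_left, QuadraticMap.polar_smul_left, QuadraticMap.polar_smul_left, hself, hvw]
      simp
    rw [hst] at h1 h2
    simp only [QuadraticMap.polar_zero_right, QuadraticMap.polar_zero_left] at h1 h2
    exact ⟨h2.symm, h1.symm⟩
  by_cases hiso : ∃ v : V, v ≠ 0 ∧ Q v = 0
  · left
    obtain ⟨v, hv, hQv⟩ := hiso
    obtain ⟨w₀, hw₀⟩ := hpartner v hv
    have hpol : QuadraticMap.polar Q v (w₀ + Q w₀ • v) = 1 := by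
      rw [QuadraticMap.polar_add_right, QuadraticMap.polar_smul_right, hself, hw₀]; simp
    refine ⟨v, w₀ + Q w₀ • v, hindep _ _ hpol, hQv, ?_, hpol⟩
    rw [QuadraticMap.map_add Q, QuadraticMap.map_smul, hQv, QuadraticMap.polar_smul_right, QuadraticMap.polar_comm, hw₀]
    simp only [smul_eq_mul, mul_zero, add_zero, mul_one]
    exact CharTwo.add_self_eq_zero _
  · right
    push Not at hiso
    obtain ⟨v₀, hv₀⟩ := exists_ne (0 : V)
    have ha : Q v₀ ≠ 0 := hiso v₀ hv₀
    obtain ⟨s, hs⟩ := FiniteField.isSquare_of_char_two hchar (Q v₀)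
    have hs0 : s ≠ 0 := by
      rintro rfl
      apply ha; rw [hs]; simp
    have hv : s⁻¹ • v₀ ≠ 0 := smul_ne_zero (inv_ne_zero hs0) hv₀
    have hQv : Q (s⁻¹ • v₀) = 1 := by
      rw [QuadraticMap.map_smul, hs, smul_eq_mul]; field_simp
    obtain ⟨w, hw⟩ := hpartner _ hv
    have hli := hindep _ _ hw
    refine ⟨s⁻¹ • v₀, w, Q w, hli, ?_, hQv, rfl, hw⟩
    intro x hx
    have h1 : Q (x • (s⁻¹ • v₀) + w) = x ^ 2 + x + Q w := by
      rw [QuadraticMap.map_add Q, QuadraticMap.map_smul, hQv, QuadraticMap.polar_smul_left, hw]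
      simp only [smul_eq_mul, mul_one]; ring
    rw [hx] at h1
    have h2 : x • (s⁻¹ • v₀) + w = 0 := by
      by_contra hne
      exact hiso _ hne h1
    rw [LinearIndependent.pair_iff] at hli
    have := (hli x 1 (by rw [one_smul]; exact h2)).2
    exact one_ne_zero this

end Cfsg.Agent.S0763
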