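import Cfsg.Statements.S0767
import Mathlib
-- import your own Cfsg.Agent.* helpers here
import Cfsg.Agent.H5.Symp

set_option autoImplicit false
open Cfsg

namespace Cfsg.Agent.S0767

open Cfsg.Agent.H5Symp


/-- The root group of a point: T_v(c) T_v(d) = T_v(c + d), and for A in the symplectic group with A v = a v, the conjugate A T_v(c) A⁻¹ is again some T_v(d). -/
theorem result {F : Type*} [Field F] (m : ℕ) (v : Fin m ⊕ Fin m → F) : (∀ c d : F, Cfsg.sympTransvection m v c * Cfsg.sympTransvection m v d = Cfsg.sympTransvection m v (c + d)) ∧ ∀ (A : Matrix (Fin m ⊕ Fin m) (Fin m ⊕ Fin m) F) (a : F), A ∈ Matrix.symplecticGroup (Fin m) F → A.mulVec v = a • v → ∀ c : F, ∃ d : F, A * Cfsg.sympTransvection m v c * A⁻¹ = Cfsg.sympTransvection m v d := by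
  refine ⟨tv_mul v, ?_⟩
  intro A a hA hAv c
  refine ⟨c * a * a, ?_⟩
  have hdet : IsUnit A.det := SymplecticGroup.symplectic_det hA
  apply mat_ext
  intro x
  rw [← Matrix.mulVec_mulVec, ← Matrix.mulVec_mulVec, tv_mulVec, tv_mulVec, Matrix.mulVec_add, Matrix.mulVec_smul, hAv,
    Matrix.mulVec_mulVec, Matrix.mul_nonsing_inv _ hdet, Matrix.one_mulVec]
  have h1 : sympForm m F (A⁻¹.mulVec x) v = a * sympForm m F x v := by
    rw [← (mem_symp_iff A).mp hA, Matrix.mulVec_mulVec, Matrix.mul_nonsing_inv _ hdet, Matrix.one_mulVec, hAv, form_smul_right]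
  rw [h1]
  module

end Cfsg.Agent.S0767
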