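import Cfsg.Statements.S0768
import Mathlib
-- import your own Cfsg.Agent.* helpers here
import Cfsg.Agent.H5.Symp

set_option autoImplicit false
open scoped LinearAlgebra.Projectivization
open Cfsg

namespace Cfsg.Agent.S0768

open Cfsg.Agent.H5Symp Matrix
open scoped LinearAlgebra.Projectivization Pointwise

variable {F : Type*} [Field F] {m : ℕ}

/-- a symplectic matrix as an element of `spGL` -/
noncomputable def toSp (t : symplecticGroup (Fin m) F) : spGL m F :=
  ⟨Matrix.GeneralLinearGroup.mkOfDetNeZero (t : Matrix (Fin m ⊕ Fin m) (Fin m ⊕ Fin m) F)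
      (SymplecticGroup.symplectic_det t.2).ne_zero, by
    intro u v
    exact (mem_symp_iff _).mp t.2 u v⟩

theorem toSp_smul (t : symplecticGroup (Fin m) F) (v : Fin m ⊕ Fin m → F) :
    toSp t • v = (t : Matrix (Fin m ⊕ Fin m) (Fin m ⊕ Fin m) F) *ᵥ v := rfl

theorem toSp_smul_mk (t : symplecticGroup (Fin m) F) (v : Fin m ⊕ Fin m → F) (hv : v ≠ 0) (w : Fin m ⊕ Fin m → F) (hw : w ≠ 0)
    (h : (t : Matrix (Fin m ⊕ Fin m) (Fin m ⊕ Fin m) F) *ᵥ v = w) :
    toSp t • Projectivization.mk F v hv = Projectivization.mk F w hw := by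
  subst h
  rfl

theorem mk_smul_eq (a : F) (ha : a ≠ 0) (v : Fin m ⊕ Fin m → F) (hv : v ≠ 0) :
    Projectivization.mk F (a • v) (smul_ne_zero ha hv) = Projectivization.mk F v hv := by
  rw [Projectivization.mk_eq_mk_iff']
  exact ⟨a, rfl⟩

theorem nondeg (u : Fin m ⊕ Fin m → F) (hu : u ≠ 0) : ∃ z, sympForm m F u z ≠ 0 := by
  obtain ⟨z, _, hz⟩ := nondeg_top u trivial hu
  exact ⟨z, hz⟩

theorem ne_zero_of_form_left {u w : Fin m ⊕ Fin m → F} (h : sympForm m F u w ≠ 0) : u ≠ 0 := by
  rintro rfl
  exact h (form_zero_left _)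

theorem ne_zero_of_form_right {u w : Fin m ⊕ Fin m → F} (h : sympForm m F u w ≠ 0) : w ≠ 0 := by
  rintro rfl
  exact h (form_zero_right _)

theorem claimA {B : Set (ℙ F (Fin m ⊕ Fin m → F))} (hB : MulAction.IsBlock (spGL m F) B)
    {u w x : Fin m ⊕ Fin m → F} (hu : u ≠ 0) (hw : w ≠ 0) (hx : x ≠ 0)
    (huB : Projectivization.mk F u hu ∈ B) (hwB : Projectivization.mk F w hw ∈ B)
    (huw : sympForm m F u w ≠ 0) (hux : sympForm m F u x ≠ 0) : Projectivization.mk F x hx ∈ B := by
  have h1 : sympForm m F u ((sympForm m F u w)⁻¹ • w) = 1 := by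
    rw [form_smul_right, inv_mul_cancel₀ huw]
  have h2 : sympForm m F u ((sympForm m F u x)⁻¹ • x) = 1 := by
    rw [form_smul_right, inv_mul_cancel₀ hux]
  obtain ⟨t, _, e₁, e₂⟩ := trans_pairs (W := ⊤) nondeg_top (u := u) (u' := u) trivial trivial trivial trivial h1 h2
  have hg : toSp t • B = B := by
    apply hB.smul_eq_of_mem huB
    rw [toSp_smul_mk t u hu u hu e₁]
    exact huB
  have h3 : toSp t • Projectivization.mk F ((sympForm m F u w)⁻¹ • w) (smul_ne_zero (inv_ne_zero huw) hw) =
      Projectivization.mk F ((sympForm m F u x)⁻¹ • x) (smul_ne_zero (inv_ne_zero hux) hx) :=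
    toSp_smul_mk t _ _ _ _ e₂
  rw [mk_smul_eq _ (inv_ne_zero huw) w hw, mk_smul_eq _ (inv_ne_zero hux) x hx] at h3
  rw [← hg, ← h3]
  exact Set.smul_mem_smul_set hwB

theorem claimB {B : Set (ℙ F (Fin m ⊕ Fin m → F))} (hB : MulAction.IsBlock (spGL m F) B)
    {u w : Fin m ⊕ Fin m → F} (hu : u ≠ 0) (hw : w ≠ 0)
    (huB : Projectivization.mk F u hu ∈ B) (hwB : Projectivization.mk F w hw ∈ B)
    (huw : sympForm m F u w ≠ 0) : B = Set.univ := by
  rw [Set.eq_univ_iff_forall]
  intro p
  induction p using Projectivization.ind with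
  | h x hx =>
    by_cases hux : sympForm m F u x ≠ 0
    · exact claimA hB hu hw hx huB hwB huw hux
    · have hz : ∃ z, sympForm m F u z ≠ 0 ∧ sympForm m F x z ≠ 0 := by
        obtain ⟨z₁, h₁⟩ := nondeg u hu
        obtain ⟨z₂, h₂⟩ := nondeg x hx
        by_cases h3 : sympForm m F x z₁ = 0
        · by_cases h4 : sympForm m F u z₂ = 0
          · refine ⟨z₁ + z₂, ?_, ?_⟩
            · rw [form_add_right, h4, add_zero]; exact h₁
            · rw [form_add_right, h3, zero_add]; exact h₂
          · exact ⟨z₂, h4, h₂⟩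
        · exact ⟨z₁, h₁, h3⟩
      obtain ⟨z, hz1, hz2⟩ := hz
      have hz0 : z ≠ 0 := ne_zero_of_form_right hz1
      have hzB := claimA hB hu hw hz0 huB hwB huw hz1
      have hzu : sympForm m F z u ≠ 0 := by rw [form_swap]; exact neg_ne_zero.mpr hz1
      have hzx : sympForm m F z x ≠ 0 := by rw [form_swap]; exact neg_ne_zero.mpr hz2
      exact claimA hB hz0 hu hx hzB huB hzu hzx

theorem claimC {B : Set (ℙ F (Fin m ⊕ Fin m → F))} (hB : MulAction.IsBlock (spGL m F) B)
    {u w : Fin m ⊕ Fin m → F} (hu : u ≠ 0) (hw : w ≠ 0)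
    (huB : Projectivization.mk F u hu ∈ B) (hwB : Projectivization.mk F w hw ∈ B)
    (hne : Projectivization.mk F u hu ≠ Projectivization.mk F w hw) : B = Set.univ := by
  by_cases huw : sympForm m F u w ≠ 0
  · exact claimB hB hu hw huB hwB huw
  · have hz : ∃ z, sympForm m F u z = 0 ∧ sympForm m F w z ≠ 0 := by
      by_contra hcon
      push Not at hcon
      obtain ⟨v₀, hv₀⟩ := nondeg u hu
      set v := (sympForm m F u v₀)⁻¹ • v₀ with hv
      have huv : sympForm m F u v = 1 := by rw [hv, form_smul_right, inv_mul_cancel₀ hv₀]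
      have hall : ∀ y, sympForm m F (w - sympForm m F w v • u) y = 0 := by
        intro y
        have h1 := hcon (y - sympForm m F u y • v) (by rw [form_sub_right, form_smul_right, huv]; ring)
        rw [form_sub_right, form_smul_right] at h1
        rw [form_sub_left, form_smul_left]
        linear_combination h1
      have h0 : w - sympForm m F w v • u = 0 := by
        by_contra hne0
        obtain ⟨z, hz⟩ := nondeg _ hne0
        exact hz (hall z)
      apply hne
      rw [eq_comm, Projectivization.mk_eq_mk_iff']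
      exact ⟨sympForm m F w v, (sub_eq_zero.mp h0).symm⟩
    obtain ⟨z, hz1, hz2⟩ := hz
    set t := tv z (1 : F) with ht
    have e₁ : (t : Matrix (Fin m ⊕ Fin m) (Fin m ⊕ Fin m) F) *ᵥ u = u := by
      change sympTransvection m z 1 *ᵥ u = u
      rw [tv_mulVec, hz1]; simp
    have e₂ : (t : Matrix (Fin m ⊕ Fin m) (Fin m ⊕ Fin m) F) *ᵥ w = w + sympForm m F w z • z := by
      change sympTransvection m z 1 *ᵥ w = _
      rw [tv_mulVec, one_mul]
    have hform : sympForm m F w (w + sympForm m F w z • z) ≠ 0 := by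
      rw [form_add_right, form_self, form_smul_right, zero_add]
      exact mul_ne_zero hz2 hz2
    have hw2 : w + sympForm m F w z • z ≠ 0 := ne_zero_of_form_right hform
    have hg : toSp t • B = B := by
      apply hB.smul_eq_of_mem huB
      rw [toSp_smul_mk t u hu u hu e₁]
      exact huB
    have hw2B : Projectivization.mk F _ hw2 ∈ B := by
      rw [← hg, ← toSp_smul_mk t w hw _ hw2 e₂]
      exact Set.smul_mem_smul_set hwB
    exact claimB hB hw hw2 hwB hw2B hform


/-- Primitivity: for m ≥ 1 and F finite, the symplectic group of the form sympForm (as a subgroup of the general linear group) acts primitively on the projective space of F^(2m). -/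
theorem result {F : Type*} [Field F] [Finite F] (m : ℕ) (hm : 1 ≤ m) : MulAction.IsPreprimitive ↥(Cfsg.spGL m F) (ℙ F (Fin m ⊕ Fin m → F)) := by
  have htrans : MulAction.IsPretransitive ↥(Cfsg.spGL m F) (ℙ F (Fin m ⊕ Fin m → F)) := by
    refine ⟨fun p q => ?_⟩
    induction p using Projectivization.ind with
    | h u hu =>
      induction q using Projectivization.ind with
      | h w hw =>
        obtain ⟨t, _, e⟩ := step1 (W := ⊤) nondeg_top (u := u) (w := w) trivial trivial hu hw
        exact ⟨toSp t, toSp_smul_mk t u hu w hw e⟩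
  refine { toIsPretransitive := htrans, isTrivialBlock_of_isBlock := ?_ }
  intro B hB
  by_cases hsub : B.Subsingleton
  · exact Or.inl hsub
  · right
    rw [Set.not_subsingleton_iff] at hsub
    obtain ⟨p, hp, q, hq, hpq⟩ := hsub
    induction p using Projectivization.ind with
    | h u hu =>
      induction q using Projectivization.ind with
      | h w hw => exact claimC hB hu hw hp hq hpq

end Cfsg.Agent.S0768
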