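import Cfsg.Statements.S0770
import Mathlib
-- import your own Cfsg.Agent.* helpers here

set_option autoImplicit false
open Cfsg

namespace Cfsg.Agent.S0770

open Matrix

variable {F : Type*} [Field F] {n : ℕ}

theorem mem_T (h : GeneralLinearGroup (Fin n) F) :
    h ∈ (Units.map (Matrix.diagonalRingHom (Fin n) F).toMonoidHom).range ↔
      ∃ d : Fin n → F, (∀ i, d i ≠ 0) ∧ (h : Matrix (Fin n) (Fin n) F) = diagonal d := by
  constructor
  · rintro ⟨u, rfl⟩
    refine ⟨(u : Fin n → F), ?_, rfl⟩
    intro i hi
    have := congrFun u.mul_inv i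
    simp only [Pi.mul_apply, hi, zero_mul, Pi.one_apply] at this
    exact zero_ne_one this
  · rintro ⟨d, hd, hh⟩
    refine ⟨⟨d, d⁻¹, ?_, ?_⟩, ?_⟩
    · ext i; simp [hd i]
    · ext i; simp [hd i]
    · apply Units.ext
      rw [hh]; rfl


/-- For a field with at least 3 elements, an invertible matrix normalises the subgroup of invertible diagonal matrices of GL_n if and only if it is monomial (exactly one non-zero entry in each row). -/
theorem result {F : Type*} [Field F] (hF : ∃ a : F, a ≠ 0 ∧ a ≠ 1) (n : ℕ) (g : Matrix.GeneralLinearGroup (Fin n) F) : g ∈ Subgroup.normalizer ((Units.map (Matrix.diagonalRingHom (Fin n) F).toMonoidHom).range : Subgroup (Matrix.GeneralLinearGroup (Fin n) F)) ↔ ∀ i : Fin n, ∃! j : Fin n, (g : Matrix (Fin n) (Fin n) F) i j ≠ 0 := by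
  classical
  obtain ⟨a, ha0, ha1⟩ := hF
  have hdet : (g : Matrix (Fin n) (Fin n) F).det ≠ 0 := by
    have := (Matrix.isUnit_iff_isUnit_det _).mp g.isUnit
    exact this.ne_zero
  rw [Subgroup.mem_normalizer_iff]
  constructor
  · intro hnorm i
    have hex : ∃ j, (g : Matrix (Fin n) (Fin n) F) i j ≠ 0 := by
      by_contra hcon
      push Not at hcon
      exact hdet (Matrix.det_eq_zero_of_row_eq_zero i hcon)
    obtain ⟨j, hj⟩ := hex
    refine ⟨j, hj, ?_⟩
    intro k hk
    by_contra hkj
    let d : Fin n → F := fun l => if l = j then a else 1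
    have hd : ∀ l, d l ≠ 0 := by
      intro l
      simp only [d]
      split_ifs
      · exact ha0
      · exact one_ne_zero
    obtain ⟨h, hh⟩ : ∃ h : Matrix.GeneralLinearGroup (Fin n) F, (h : Matrix (Fin n) (Fin n) F) = Matrix.diagonal d := by
      refine ⟨⟨Matrix.diagonal d, Matrix.diagonal d⁻¹, ?_, ?_⟩, rfl⟩
      · rw [Matrix.diagonal_mul_diagonal]
        have : (fun i => d i * d⁻¹ i) = 1 := by ext i; simp [hd i]
        rw [this]; exact Matrix.diagonal_one
      · rw [Matrix.diagonal_mul_diagonal]
        have : (fun i => d⁻¹ i * d i) = 1 := by ext i; simp [hd i]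
        rw [this]; exact Matrix.diagonal_one
    have hmem := (hnorm h).mp ((mem_T h).mpr ⟨d, hd, hh⟩)
    obtain ⟨d', _, hd'⟩ := (mem_T _).mp hmem
    have heq : (g : Matrix (Fin n) (Fin n) F) * Matrix.diagonal d = Matrix.diagonal d' * g := by
      rw [← hd', ← hh, ← Units.val_mul, ← Units.val_mul]
      congr 1
      group
    have e1 := congrFun (congrFun heq i) j
    have e2 := congrFun (congrFun heq i) k
    rw [Matrix.mul_diagonal, Matrix.diagonal_mul] at e1 e2
    simp only [d, if_true, if_neg hkj] at e1 e2
    have h1 : d' i = a := by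
      have : (g : Matrix (Fin n) (Fin n) F) i j * a = (g : Matrix (Fin n) (Fin n) F) i j * d' i := by rw [e1, mul_comm]
      exact (mul_left_cancel₀ hj this).symm
    have h2 : d' i = 1 := by
      have : (g : Matrix (Fin n) (Fin n) F) i k * 1 = (g : Matrix (Fin n) (Fin n) F) i k * d' i := by rw [e2, mul_comm]
      exact (mul_left_cancel₀ hk this).symm
    exact ha1 (h1.symm.trans h2)
  · intro hmono
    choose π hπ hπu using hmono
    have hzero : ∀ i j, j ≠ π i → (g : Matrix (Fin n) (Fin n) F) i j = 0 := by
      intro i j hj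
      by_contra hne
      exact hj (hπu i j hne)
    have hsurj : Function.Surjective π := by
      intro j
      by_contra hcon
      push Not at hcon
      apply hdet
      apply Matrix.det_eq_zero_of_column_eq_zero j
      intro i
      exact hzero i j (fun h => hcon i h.symm)
    have hbij : Function.Bijective π := (Finite.injective_iff_surjective.mpr hsurj |> fun hi => ⟨hi, hsurj⟩)
    let πe := Equiv.ofBijective π hbij
    have hcomm : ∀ d : Fin n → F, (g : Matrix (Fin n) (Fin n) F) * Matrix.diagonal d = Matrix.diagonal (d ∘ π) * g := by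
      intro d
      ext i j
      rw [Matrix.mul_diagonal, Matrix.diagonal_mul]
      by_cases hj : j = π i
      · subst hj; simp [mul_comm]
      · rw [hzero i j hj]; simp
    intro h
    constructor
    · intro hh
      obtain ⟨d, hd, hh⟩ := (mem_T h).mp hh
      rw [mem_T]
      refine ⟨d ∘ π, fun i => hd _, ?_⟩
      have : (g * h * g⁻¹ : Matrix.GeneralLinearGroup (Fin n) F).val * g.val = Matrix.diagonal (d ∘ π) * g.val := by
        rw [← hcomm, ← hh, ← Units.val_mul, ← Units.val_mul]
        congr 1
        group
      have h3 := congrArg (fun M => M * (g⁻¹ : Matrix.GeneralLinearGroup (Fin n) F).val) this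
      simp only [mul_assoc, ← Units.val_mul, mul_inv_cancel, Units.val_one, mul_one] at h3
      rw [mul_assoc]
      exact h3
    · intro hh
      obtain ⟨d', hd', hh⟩ := (mem_T _).mp hh
      rw [mem_T]
      refine ⟨d' ∘ πe.symm, fun i => hd' _, ?_⟩
      have h1 : (g : Matrix (Fin n) (Fin n) F) * h.val = Matrix.diagonal d' * g.val := by
        rw [← hh, ← Units.val_mul, ← Units.val_mul]
        congr 1
        group
      have h2 := hcomm (d' ∘ πe.symm)
      have h3 : (d' ∘ πe.symm) ∘ π = d' := by
        ext i
        simp only [Function.comp_apply]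
        congr 1
        exact πe.symm_apply_apply i
      rw [h3, ← h1] at h2
      have h4 := congrArg (fun M => (g⁻¹ : Matrix.GeneralLinearGroup (Fin n) F).val * M) h2
      simp only [← mul_assoc, ← Units.val_mul, inv_mul_cancel, Units.val_one, one_mul] at h4
      exact h4.symm

end Cfsg.Agent.S0770
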