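import Cfsg.Statements.S0772
import Cfsg.Agent.Lib.Helper29.Transv

open Cfsg.Agent.Lib.Helper29

set_option autoImplicit false
open Cfsg

namespace Cfsg.Agent.S0772

/-- Maximal parabolics are maximal: over a finite field, for 0 < k < n the stabiliser in GL_n of the span of the first k coordinate vectors is a maximal proper subgroup. -/
theorem result {F : Type*} [Field F] [Finite F] (n k : ℕ) (hk0 : 0 < k) (hkn : k < n) : IsCoatom (Cfsg.stabilizing (Cfsg.glToMat (Fin n) F) {v : Fin n → F | ∀ i : Fin n, k ≤ (i : ℕ) → v i = 0}) := by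
  let W : Submodule F (Fin n → F) :=
    { carrier := {v : Fin n → F | ∀ i : Fin n, k ≤ (i : ℕ) → v i = 0}
      add_mem' := by
        intro a b ha hb i hi
        simp [ha i hi, hb i hi]
      zero_mem' := by intro i _; rfl
      smul_mem' := by
        intro c a ha i hi
        simp [ha i hi] }
  have hW0 : W ≠ ⊥ := by
    intro h
    have h1 : (Pi.single (⟨0, by omega⟩ : Fin n) (1 : F)) ∈ W := by
      intro i hi
      rw [Pi.single_apply, if_neg]
      intro h2
      rw [h2] at hi
      simp at hi
      omega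
    rw [h] at h1
    have h2 := congrFun ((Submodule.mem_bot F).mp h1) (⟨0, by omega⟩ : Fin n)
    simp at h2
  have hW1 : W ≠ ⊤ := by
    intro h
    have h1 : (Pi.single (⟨k, hkn⟩ : Fin n) (1 : F)) ∈ W := by rw [h]; trivial
    have h2 := h1 ⟨k, hkn⟩ le_rfl
    simp at h2
  change IsCoatom (Cfsg.Geo.subspaceStabilizer W)
  constructor
  · intro h
    obtain ⟨f, v, hfv, hn⟩ := exists_tv_not_mem_stab W hW0 hW1
    exact hn (by rw [h]; trivial)
  · intro M hM
    obtain ⟨g, hg, hgW⟩ := SetLike.exists_of_lt hM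
    have htv := all_tv_mem W M (inf_le_left.trans hM.le) hg hgW
    rw [eq_top_iff]
    intro x _
    obtain ⟨t, ht, htW⟩ := exists_mem_glMap_eq M htv W (glMap x W) (finrank_glMap x W).symm
    have h1 : t⁻¹ * x ∈ Cfsg.Geo.subspaceStabilizer W := by
      rw [mem_subspaceStabilizer_iff_glMap, glMap_mul, ← htW, ← glMap_mul, inv_mul_cancel,
        glMap_one]
    have := M.mul_mem ht (hM.le h1)
    rwa [mul_inv_cancel_left] at this

end Cfsg.Agent.S0772
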