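import Mathlib
import Cfsg.Agent.Lib.Helper18.SpIso2
import Cfsg.Statements.S0775
-- import your own Cfsg.Agent.* helpers here

set_option autoImplicit false
open Cfsg Cfsg.Agent.Lib.Helper18 Matrix

namespace Cfsg.Agent.S0775

lemma arith1 (q r : ℕ) : ∏ i ∈ Finset.range r, ((q ^ (2 * (i + 1)) - 1) * q ^ (2 * i + 1)) =
    q ^ (r ^ 2) * ∏ i ∈ Finset.range r, (q ^ (2 * (i + 1)) - 1) := by
  induction r with
  | zero => simp
  | succ r ih =>
    rw [Finset.prod_range_succ, Finset.prod_range_succ, ih,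
      show (r + 1) ^ 2 = r ^ 2 + (2 * r + 1) by ring, pow_add]
    ring

lemma tri_succ (k : ℕ) : (k + 1) * (k + 1 + 1) / 2 = k * (k + 1) / 2 + (k + 1) := by
  have h1 : (k + 1) * (k + 1 + 1) = k * (k + 1) + (k + 1) * 2 := by ring
  rw [h1, Nat.add_mul_div_right _ _ two_pos]

lemma arith2 (q r k : ℕ) : ∏ i ∈ Finset.range k, ((q ^ (i + 1) - 1) * q ^ (2 * (r + i) + 1)) =
    q ^ (k * (k + 1) / 2 + 2 * k * r) * ∏ i : Fin k, (q ^ k - q ^ (i : ℕ)) := by
  induction k with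
  | zero => simp
  | succ k ih =>
    rw [Finset.prod_range_succ, ih, Fin.prod_univ_succ]
    have h1 : ∀ i : Fin k, q ^ (k + 1) - q ^ ((i.succ : Fin (k + 1)) : ℕ) = q * (q ^ k - q ^ (i : ℕ)) := by
      intro i
      rw [Fin.val_succ, Nat.mul_sub, pow_succ, pow_succ, mul_comm, mul_comm (q ^ (i : ℕ))]
    rw [Finset.prod_congr rfl fun i _ => h1 i, Finset.prod_mul_distrib, Finset.prod_const,
      Finset.card_univ, Fintype.card_fin, tri_succ]
    simp only [Fin.val_zero, pow_zero]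
    have h2 : q ^ (k * (k + 1) / 2 + (k + 1) + 2 * (k + 1) * r) * q ^ k =
        q ^ (k * (k + 1) / 2 + 2 * k * r) * q ^ (2 * (r + k) + 1) := by
      rw [← pow_add, ← pow_add]
      congr 1
      ring
    calc _ = (q ^ (k * (k + 1) / 2 + 2 * k * r) * q ^ (2 * (r + k) + 1)) *
          ((q ^ (k + 1) - 1) * ∏ i : Fin k, (q ^ k - q ^ (i : ℕ))) := by ring
      _ = _ := by rw [← h2]; ring


/-- Maximal parabolics of the symplectic group: if W is a k-dimensional subspace of F^(2m) on which the symplectic form vanishes identically, its stabiliser in Sp_2m(q) has order q^(k(k+1)/2 + 2k(m−k)) · |Sp_(2m−2k)(q)| · |GL_k(q)|. -/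
theorem result {F : Type*} [Field F] [Fintype F] {q : ℕ} (hF : Fintype.card F = q) (m k : ℕ) (hk : k ≤ m) (W : Submodule F (Fin m ⊕ Fin m → F)) (hWk : Module.finrank F W = k) (hW : ∀ u ∈ W, ∀ v ∈ W, Cfsg.sympForm m F u v = 0) : Nat.card ↥(Cfsg.stabilizing (Cfsg.spToMat m F) (W : Set (Fin m ⊕ Fin m → F))) = q ^ (k * (k + 1) / 2 + 2 * k * (m - k)) * (q ^ ((m - k) ^ 2) * ∏ i ∈ Finset.range (m - k), (q ^ (2 * (i + 1)) - 1)) * ∏ i : Fin k, (q ^ k - q ^ (i : ℕ)) := by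
  obtain ⟨r, rfl⟩ : ∃ r, m = r + k := ⟨m - k, by omega⟩
  rw [card_sp_stab_iso_aux r k W hWk hW, hF, Nat.add_sub_cancel, arith1, arith2]
  ring

end Cfsg.Agent.S0775
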