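import Mathlib
import Cfsg.Statements.S0779
import Cfsg.Agent.H6.Herm

set_option autoImplicit false
open Cfsg

namespace Cfsg.Agent.S0779

theorem result {F : Type*} [Field F] [Fintype F] {q : ℕ} (hF : Fintype.card F = q ^ 2) (n : ℕ) (v : Fin n → F) (hv : v ≠ 0) (hv0 : Cfsg.hermForm n F q v v = 0) (c : F) : (∀ x y : Fin n → F, Cfsg.hermForm n F q ((Cfsg.unitaryTransvection n q v c).mulVec x) ((Cfsg.unitaryTransvection n q v c).mulVec y) = Cfsg.hermForm n F q x y) ↔ (c = 0 ∨ c ^ (q - 1) = -1) := by
  have hq := H6.q_pos hF
  have hcq : c ^ q = c * c ^ (q - 1) := by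
    rw [← pow_succ']; congr 1; omega
  constructor
  · intro h
    obtain ⟨i, hi⟩ : ∃ i, v i ≠ 0 := by
      by_contra hcon
      push Not at hcon
      exact hv (funext hcon)
    have h1 := h (Pi.single i 1) (Pi.single i 1)
    rw [H6.hermForm_transvection hF v hv0, H6.hermForm_single_left i v,
      H6.hermForm_single_right (by omega) i v] at h1
    have h2 : (c ^ q + c) * (v i ^ q * v i) = 0 := by
      linear_combination h1
    have h3 : v i ^ q * v i ≠ 0 := mul_ne_zero (pow_ne_zero _ hi) hi
    have h4 : c ^ q + c = 0 := (mul_eq_zero.mp h2).resolve_right h3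
    by_cases hc : c = 0
    · exact Or.inl hc
    · right
      rw [hcq] at h4
      have : c * (c ^ (q - 1) + 1) = 0 := by linear_combination h4
      have := (mul_eq_zero.mp this).resolve_left hc
      linear_combination this
  · intro h x y
    rw [H6.hermForm_transvection hF v hv0]
    have : c ^ q + c = 0 := by
      rcases h with h | h
      · rw [h, zero_pow (by omega)]; simp
      · rw [hcq, h]; ring
    rw [this]; ring

end Cfsg.Agent.S0779
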