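import Cfsg.Statements.S0781
import Cfsg.Agent.Lib.Helper29.SuGen
import Cfsg.Agent.Lib.Helper18.Herm4

set_option autoImplicit false
open Cfsg

namespace Cfsg.Agent.S0781


open Matrix Module Cfsg.Agent.H6 Cfsg.Agent.Lib.Helper29

theorem det_of_mem_SL {F : Type*} [Field F] {n : ℕ} {g : GL (Fin n) F}
    (hg : g ∈ Cfsg.Geo.specialLinear (Fin n) F) : (g : Matrix (Fin n) (Fin n) F).det = 1 := by
  have : Matrix.GeneralLinearGroup.det g = 1 := hg
  exact congrArg Units.val this


/-- In SU_n(q) with n ≥ 4, or n = 3 and q > 2, every element whose matrix is a unitary transvection x ↦ x + c h(x, v) v (v isotropic) is a commutator ⁅B, C⁆ of two elements of SU_n(q). -/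
theorem result {F : Type*} [Field F] [Fintype F] {q : ℕ} (hF : Fintype.card F = q ^ 2) (n : ℕ) (hn : 4 ≤ n ∨ (n = 3 ∧ 3 ≤ q)) (A : ↥(Cfsg.SU n F q)) (v : Fin n → F) (c : F) (hv0 : Cfsg.hermForm n F q v v = 0) (hA : ((A : Matrix.SpecialLinearGroup (Fin n) F) : Matrix (Fin n) (Fin n) F) = Cfsg.unitaryTransvection n q v c) : A ∈ commutatorSet ↥(Cfsg.SU n F q) := by
  have hn3 : 3 ≤ n := by omega
  have hq : q ≠ 0 := by have := q_pos hF; omega
  by_cases hv : v = 0
  · refine ⟨1, 1, ?_⟩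
    rw [commutatorElement_self]
    apply Subtype.ext
    apply Subtype.ext
    rw [hA, hv]
    ext i j
    simp [Cfsg.unitaryTransvection, Matrix.vecMulVec_apply]
  have hAM : ∀ x y, Cfsg.hermForm n F q ((A.1 : Matrix (Fin n) (Fin n) F) *ᵥ x) ((A.1 : Matrix (Fin n) (Fin n) F) *ᵥ y) = Cfsg.hermForm n F q x y := A.2
  have hc : c + c ^ q = 0 := by
    obtain ⟨y₀, hy₀⟩ := exists_herm_ne_zero (q := q) hF hv
    have hy₀' := herm_ne_zero_symm hF hy₀
    have := hAM y₀ y₀
    rw [hA, unitaryTransvection_mulVec] at this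
    simp only [hermForm_add_left, hermForm_add_right hF, hermForm_smul_left,
      hermForm_smul_right, hv0, mul_pow, hermForm_conj hF] at this
    have h2 : (c + c ^ q) * (Cfsg.hermForm n F q y₀ v * Cfsg.hermForm n F q v y₀) = 0 := by
      linear_combination this
    exact (mul_eq_zero.1 h2).resolve_right (mul_ne_zero hy₀ hy₀')
  obtain ⟨μ, hμ⟩ : ∃ μ : F, μ ^ q - μ = c := by
    obtain ⟨θ, hθ0, hθ⟩ := exists_trace_zero hF
    have e1 : c ^ q = -c := by linear_combination hc
    have e2 : θ ^ q = -θ := by linear_combination hθ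
    obtain ⟨l, hl⟩ := exists_trace_eq hF (c / θ) (by rw [div_pow, e1, e2, neg_div_neg_eq])
    refine ⟨-θ * l, ?_⟩
    rw [mul_pow, neg_pow_q hF, e2]
    have : c = θ * (c / θ) := by field_simp
    rw [this, ← hl]; ring
  obtain ⟨a, ha, haa⟩ := exists_norm_perp (q := q) hF (fun _ : Fin 1 => v) (by omega) 1 (one_pow q)
  have hav : Cfsg.hermForm n F q a v = 0 := ha 0
  have hva : Cfsg.hermForm n F q v a = 0 := herm_eq_zero_symm hF hav
  have hav' : Cfsg.hermForm n F q (μ • a) v = 0 := by rw [hermForm_smul_left, hav, mul_zero]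
  have hva' : Cfsg.hermForm n F q v (μ • a) = 0 := by rw [hermForm_smul_right, hva, mul_zero]
  obtain ⟨s, hs⟩ := exists_trace_eq hF (-1) (by rw [neg_pow_q hF, one_pow])
  obtain ⟨s', hs'⟩ := exists_trace_eq hF (-(μ * μ ^ q))
    (by rw [neg_pow_q hF, mul_pow, pow_q_pow_q hF, mul_comm])
  have hE := ueich_mem_GU hF v a s hv0 hav hva (by rw [haa, hs]; ring)
  have hE' := ueich_mem_GU hF v (μ • a) s' hv0 hav' hva'
    (by rw [hermForm_smul_left, hermForm_smul_right, haa, hs']; ring)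
  refine ⟨Cfsg.Agent.Lib.Helper18.mkSU _ (det_of_mem_SL (ueich_mem_SL v a s hv0 hav hva)) hE,
    Cfsg.Agent.Lib.Helper18.mkSU _ (det_of_mem_SL (ueich_mem_SL v (μ • a) s' hv0 hav' hva')) hE', ?_⟩
  rw [commutatorElement_def, mul_inv_eq_iff_eq_mul, mul_inv_eq_iff_eq_mul]
  apply Subtype.ext
  apply Subtype.ext
  show (ueich q v a s hv0 hav hva : Matrix (Fin n) (Fin n) F) * (ueich q v (μ • a) s' hv0 hav' hva' : Matrix (Fin n) (Fin n) F)
    = (A.1 : Matrix (Fin n) (Fin n) F) * (ueich q v (μ • a) s' hv0 hav' hva' : Matrix (Fin n) (Fin n) F) * (ueich q v a s hv0 hav hva : Matrix (Fin n) (Fin n) F)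
  apply Matrix.toLin'.injective
  apply LinearMap.ext
  intro x
  simp only [Matrix.toLin'_apply, ← Matrix.mulVec_mulVec]
  rw [hA, unitaryTransvection_mulVec]
  simp only [ueich_mulVec, hermForm_add_left, hermForm_add_right hF, hermForm_smul_left,
      hermForm_smul_right, hv0, hav, hva, haa]
  rw [← hμ]
  module

end Cfsg.Agent.S0781
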