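import Mathlib
import Cfsg.Agent.Lib.Helper18.Herm7
import Cfsg.Statements.S0783
-- import your own Cfsg.Agent.* helpers here

set_option autoImplicit false
open Cfsg

namespace Cfsg.Agent.S0783

/-- PGU_n(q)/PSU_n(q) is cyclic of order (n, q+1): for n ≥ 2 and |F| = q² there is a surjective homomorphism from GU_n(q) onto the cyclic group of order gcd(n, q + 1) whose kernel is generated by the determinant-one elements together with the centre. -/
theorem result {F : Type*} [Field F] [Fintype F] {q : ℕ} (hF : Fintype.card F = q ^ 2) (n : ℕ) (hn : 2 ≤ n) : ∃ φ : ↥(Cfsg.GU n F q) →* Multiplicative (ZMod (Nat.gcd n (q + 1))), Function.Surjective φ ∧ φ.ker = (Matrix.GeneralLinearGroup.det : Matrix.GeneralLinearGroup (Fin n) F →* Fˣ).ker.subgroupOf (Cfsg.GU n F q) ⊔ Subgroup.center ↥(Cfsg.GU n F q) := by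
  classical
  have hq := Cfsg.Agent.Lib.Helper18.herm_q_pos hF
  have hn1 : 1 ≤ n := by omega
  set d := Nat.gcd n (q + 1) with hd
  have hd0 : 0 < d := Nat.gcd_pos_of_pos_left _ (by omega)
  obtain ⟨e, he⟩ : d ∣ q + 1 := Nat.gcd_dvd_right _ _
  have he0 : 0 < e := by
    rcases Nat.eq_zero_or_pos e with h | h
    · rw [h] at he; omega
    · exact h
  let detGU : ↥(Cfsg.GU n F q) →* Fˣ := Matrix.GeneralLinearGroup.det.comp (Cfsg.GU n F q).subtype
  let ψ : ↥(Cfsg.GU n F q) →* Fˣ := (powMonoidHom e).comp detGU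
  have hψ : ∀ g, ψ g = (detGU g) ^ e := fun g => rfl
  obtain ⟨g0, hg0⟩ := IsCyclic.exists_generator (α := Fˣ)
  have hord : orderOf g0 = (q + 1) * (q - 1) := by
    rw [orderOf_eq_card_of_forall_mem_zpowers hg0, Cfsg.Agent.Lib.Helper18.herm_card_units hF]
  have hdetpow : ∀ g, (detGU g) ^ (q + 1) = 1 := by
    intro g
    apply Units.ext
    rw [Units.val_pow_eq_pow_val]
    exact Cfsg.Agent.Lib.Helper18.herm_det_pow hF ((Cfsg.Agent.Lib.Helper18.mem_GU_iff hF g.1).mp g.2)
  have hpowers : ∀ x : Fˣ, ∃ k : ℕ, g0 ^ k = x := fun x => mem_powers_iff_mem_zpowers.mpr (hg0 x)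
  obtain ⟨ω, hω⟩ : ∃ ω : Fˣ, ω = g0 ^ (q - 1) := ⟨_, rfl⟩
  have hω1 : ω ^ (q + 1) = 1 := by
    rw [hω, ← pow_mul, mul_comm, ← hord, pow_orderOf_eq_one]
  -- scalars and diagonal elements
  have hdiag : ∀ x : Fˣ, x ^ (q + 1) = 1 → ∃ g, detGU g = x := by
    intro x hx
    have hx' : (x : F) ^ (q + 1) = 1 := by
      rw [← Units.val_pow_eq_pow_val, hx, Units.val_one]
    refine ⟨Cfsg.Agent.Lib.Helper18.mkGU hF
      (Matrix.diagonal (Function.update (1 : Fin n → F) ⟨0, hn1⟩ (x : F)))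
      (Cfsg.Agent.Lib.Helper18.herm_diag_preserve _ (fun i => by
        by_cases hi : i = ⟨0, hn1⟩
        · subst hi; simpa using hx'
        · simp [Function.update_of_ne hi])), ?_⟩
    apply Units.ext
    exact Cfsg.Agent.Lib.Helper18.det_diag_update _ _
  have hrange : ψ.range = Subgroup.zpowers (ω ^ e) := by
    apply le_antisymm
    · rintro _ ⟨g, rfl⟩
      obtain ⟨k, hk⟩ := hpowers (detGU g)
      have h1 := hdetpow g
      rw [← hk, ← pow_mul] at h1
      have h2 := orderOf_dvd_of_pow_eq_one h1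
      rw [hord, mul_comm k] at h2
      obtain ⟨j, rfl⟩ := Nat.dvd_of_mul_dvd_mul_left (by omega) h2
      have h3 : detGU g = ω ^ j := by rw [← hk, pow_mul, hω]
      rw [hψ, h3, ← pow_mul, mul_comm j, pow_mul]
      exact Subgroup.npow_mem_zpowers _ _
    · rw [Subgroup.zpowers_le]
      obtain ⟨g, hg⟩ := hdiag ω hω1
      exact ⟨g, by rw [hψ, hg]⟩
  have hcard : Nat.card ψ.range = d := by
    rw [hrange, Nat.card_zpowers, hω, ← pow_mul, orderOf_pow_of_dvd (by
      have : 0 < q - 1 := by omega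
      positivity) (by
      rw [hord, he]
      exact ⟨d, by ring⟩), hord, he]
    apply Nat.div_eq_of_eq_mul_left (by
      have : 0 < q - 1 := by omega
      positivity)
    ring
  have hcyc : IsCyclic ψ.range := by
    rw [hrange]
    infer_instance
  obtain ⟨ε⟩ := Cfsg.Agent.Lib.Helper18.exists_mulEquiv_zmod_of_cyclic (G := ψ.range) d hcard
  refine ⟨ε.toMonoidHom.comp ψ.rangeRestrict, ?_, ?_⟩
  · exact ε.surjective.comp ψ.rangeRestrict_surjective
  have hker : (ε.toMonoidHom.comp ψ.rangeRestrict).ker = ψ.ker := by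
    ext g
    rw [MonoidHom.mem_ker, MonoidHom.mem_ker, MonoidHom.comp_apply]
    show ε (ψ.rangeRestrict g) = 1 ↔ _
    rw [ε.map_eq_one_iff, ← MonoidHom.mem_ker, MonoidHom.ker_rangeRestrict, MonoidHom.mem_ker]
  rw [hker]
  apply le_antisymm
  · intro g hg
    rw [MonoidHom.mem_ker, hψ] at hg
    obtain ⟨k, hk⟩ := hpowers (detGU g)
    rw [← hk, ← pow_mul] at hg
    have h2 := orderOf_dvd_of_pow_eq_one hg
    rw [hord, he] at h2
    have h3 : (d * (q - 1)) * e ∣ k * e := by
      have : d * e * (q - 1) = (d * (q - 1)) * e := by ring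
      rwa [this] at h2
    obtain ⟨j, rfl⟩ := Nat.dvd_of_mul_dvd_mul_right he0 h3
    obtain ⟨γ, hγ⟩ : ∃ γ : Fˣ, γ = ω ^ j := ⟨_, rfl⟩
    have hγd : γ ^ d = detGU g := by
      rw [← hk, hγ, hω, ← pow_mul, ← pow_mul]
      congr 1
      ring
    have hγ1 : γ ^ (q + 1) = 1 := by
      rw [hγ, ← pow_mul, mul_comm, pow_mul, hω1, one_pow]
    obtain ⟨c, hc⟩ : ∃ c : Fˣ, c = γ ^ (Nat.gcdA n (q + 1)) := ⟨_, rfl⟩
    have hc1 : c ^ (q + 1) = 1 := by
      rw [hc, ← zpow_natCast, ← _root_.zpow_mul, mul_comm, _root_.zpow_mul, zpow_natCast, hγ1,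
        _root_.one_zpow]
    have hcn : c ^ n = detGU g := by
      have hb := Nat.gcd_eq_gcd_ab n (q + 1)
      rw [← hγd, hc, ← zpow_natCast, ← _root_.zpow_mul, ← zpow_natCast γ d]
      have h5 : (Nat.gcdA n (q + 1)) * (n : ℤ) = (d : ℤ) - ((q + 1 : ℕ) : ℤ) * Nat.gcdB n (q + 1) := by
        rw [hd, hb]; ring
      rw [h5, _root_.zpow_sub, _root_.zpow_mul, zpow_natCast γ (q + 1), hγ1, _root_.one_zpow]
      simp
    have hc1' : (c : F) ^ (q + 1) = 1 := by
      rw [← Units.val_pow_eq_pow_val, hc1, Units.val_one]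
    set s := Cfsg.Agent.Lib.Helper18.mkGU hF (Matrix.diagonal (fun _ : Fin n => (c : F)))
      (Cfsg.Agent.Lib.Helper18.herm_diag_preserve _ (fun _ => hc1')) with hs
    have hsdet : detGU s = c ^ n := by
      apply Units.ext
      rw [Units.val_pow_eq_pow_val]
      show (Matrix.diagonal (fun _ : Fin n => (c : F))).det = _
      rw [Matrix.det_diagonal, Finset.prod_const, Finset.card_univ, Fintype.card_fin]
    have hsc : s ∈ Subgroup.center ↥(Cfsg.GU n F q) :=
      Cfsg.Agent.Lib.Helper18.scalar_mem_center_GU hF _ hc1'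
    have : g = (g * s⁻¹) * s := by group
    rw [this]
    apply Subgroup.mul_mem_sup _ hsc
    rw [Subgroup.mem_subgroupOf, MonoidHom.mem_ker]
    show detGU (g * s⁻¹) = 1
    rw [map_mul, map_inv, hsdet, hcn, mul_inv_cancel]
  · apply sup_le
    · intro g hg
      rw [Subgroup.mem_subgroupOf, MonoidHom.mem_ker] at hg
      rw [MonoidHom.mem_ker, hψ]
      show (Matrix.GeneralLinearGroup.det (g : Matrix.GeneralLinearGroup (Fin n) F)) ^ e = 1
      rw [hg, one_pow]
    · intro z hz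
      rw [MonoidHom.mem_ker, hψ]
      have h1 := Cfsg.Agent.Lib.Helper18.center_GU_scalar hF hn1 z hz
      set c := (z.1 : Matrix (Fin n) (Fin n) F) ⟨0, hn1⟩ ⟨0, hn1⟩ with hc
      have hU := (Cfsg.Agent.Lib.Helper18.mem_GU_iff hF z.1).mp z.2
      rw [h1] at hU
      have h2 := congrFun (congrFun hU ⟨0, hn1⟩) ⟨0, hn1⟩
      rw [Matrix.diagonal_transpose, Matrix.diagonal_mul, Matrix.map_apply,
        Matrix.diagonal_apply_eq, Matrix.one_apply_eq, ← pow_succ'] at h2
      apply Units.ext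
      rw [Units.val_pow_eq_pow_val, Units.val_one]
      show ((z.1 : Matrix (Fin n) (Fin n) F).det) ^ e = 1
      rw [h1, Matrix.det_diagonal, Finset.prod_const, Finset.card_univ, Fintype.card_fin, ← pow_mul]
      obtain ⟨n', hn'⟩ : d ∣ n := Nat.gcd_dvd_left _ _
      have : n * e = (q + 1) * n' := by
        rw [he]
        nth_rewrite 1 [hn']
        ring
      rw [this, pow_mul, h2, one_pow]

end Cfsg.Agent.S0783
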