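import Mathlib
import Cfsg.Statements.S0785
import Cfsg.Agent.H6.Geom

set_option autoImplicit false
open Cfsg

namespace Cfsg.Agent.S0785

open Matrix

theorem result {F : Type*} [Field F] {n : ℕ} (Q : QuadraticForm F (Fin n → F)) (hQ : (QuadraticMap.polarBilin Q).Nondegenerate) : (∀ g : ↥(Cfsg.isometryGroup F ⇑Q), ((g : Matrix.GeneralLinearGroup (Fin n) F) : Matrix (Fin n) (Fin n) F).det = 1 ∨ ((g : Matrix.GeneralLinearGroup (Fin n) F) : Matrix (Fin n) (Fin n) F).det = -1) ∧ ((∃ v, Q v ≠ 0) → ∃ g : ↥(Cfsg.isometryGroup F ⇑Q), ((g : Matrix.GeneralLinearGroup (Fin n) F) : Matrix (Fin n) (Fin n) F).det = -1) := by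
  constructor
  · intro g
    set A : Matrix (Fin n) (Fin n) F := ((g : Matrix.GeneralLinearGroup (Fin n) F) : Matrix (Fin n) (Fin n) F) with hA
    have hg : ∀ u, Q (A *ᵥ u) = Q u := fun u => g.2 u u
    set B := QuadraticMap.polarBilin Q with hB
    have hdet : (LinearMap.toMatrix₂' F B).det ≠ 0 := by
      have := (LinearMap.separatingLeft_iff_det_ne_zero (Pi.basisFun F (Fin n))).mp hQ.1
      rwa [LinearMap.toMatrix₂_basisFun] at this
    have hcomp : B.compl₁₂ (Matrix.toLin' A) (Matrix.toLin' A) = B := by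
      apply LinearMap.ext
      intro x
      apply LinearMap.ext
      intro y
      show QuadraticMap.polar ⇑Q (A *ᵥ x) (A *ᵥ y) = QuadraticMap.polar ⇑Q x y
      unfold QuadraticMap.polar
      rw [← Matrix.mulVec_add, hg, hg, hg]
    have h1 := LinearMap.toMatrix₂'_compl₁₂ B (Matrix.toLin' A) (Matrix.toLin' A)
    rw [hcomp, LinearMap.toMatrix'_toLin'] at h1
    have h2 := congrArg Matrix.det h1
    rw [Matrix.det_mul, Matrix.det_mul, Matrix.det_transpose] at h2
    have h3 : A.det * A.det = 1 := by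
      have : (LinearMap.toMatrix₂' F B).det * (A.det * A.det - 1) = 0 := by
        linear_combination -h2
      rcases mul_eq_zero.mp this with h | h
      · exact absurd h hdet
      · linear_combination h
    exact mul_self_eq_one_iff.mp h3
  · rintro ⟨v, hv⟩
    have hd := H6.reflection_det Q v hv
    have hne : (Cfsg.reflectionMatrix ⇑Q v).det ≠ 0 := by rw [hd]; simp
    refine ⟨⟨Matrix.GeneralLinearGroup.mkOfDetNeZero _ hne, ?_⟩, hd⟩
    intro x _
    exact H6.reflection_preserves Q v hv x

end Cfsg.Agent.S0785
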