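import Cfsg.Statements.S0792
import Cfsg.Agent.Lib.Helper15.PairGen

set_option autoImplicit false
open Cfsg

namespace Cfsg.Agent.S0792



/-- For q odd and Q with non-degenerate polar form on F^n, the determinant-one isometries form the subgroup generated by all products r_u r_v of two reflections (Q(u), Q(v) ≠ 0). -/
theorem result {F : Type*} [Field F] [Fintype F] (h2 : (2 : F) ≠ 0) {n : ℕ} (Q : QuadraticForm F (Fin n → F)) (hQ : (QuadraticMap.polarBilin Q).Nondegenerate) : Cfsg.specialIsometryGroup F ⇑Q = Subgroup.closure {g : ↥(Cfsg.isometryGroup F ⇑Q) | ∃ u v : Fin n → F, Q u ≠ 0 ∧ Q v ≠ 0 ∧ ((g : Matrix.GeneralLinearGroup (Fin n) F) : Matrix (Fin n) (Fin n) F) = Cfsg.reflectionMatrix ⇑Q u * Cfsg.reflectionMatrix ⇑Q v} := by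
  classical
  apply le_antisymm
  · intro g hg
    obtain ⟨vs, h1, h3⟩ := Cfsg.Agent.Lib.Helper15.cartan_dieudonne Q hQ (Or.inl (by
      intro hc
      have := Cfsg.Agent.Lib.Helper15.odd_card_of_two_ne_zero h2
      rw [hc] at this
      exact absurd this (by decide))) g
    have hdet : ((g : Matrix.GeneralLinearGroup (Fin n) F) : Matrix (Fin n) (Fin n) F).det = 1 := by
      have := congrArg Units.val (MonoidHom.mem_ker.1 hg)
      exact this
    have heven : Even vs.length := by
      rw [h3, Cfsg.Agent.Lib.Helper15.coe_prod_reflT Q vs h1, Cfsg.Agent.Lib.Helper15.det_prod_refl Q vs h1] at hdet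
      by_contra hodd
      rw [Nat.not_even_iff_odd] at hodd
      rw [hodd.neg_one_pow] at hdet
      apply h2
      linear_combination (-1 : F) * hdet
    rw [h3]
    exact Cfsg.Agent.Lib.Helper15.even_prod_mem_closure Q vs h1 heven
  · rw [Subgroup.closure_le]
    rintro g ⟨u, v, hu, hv, hg⟩
    apply MonoidHom.mem_ker.2
    apply Units.ext
    show ((g : Matrix.GeneralLinearGroup (Fin n) F) : Matrix (Fin n) (Fin n) F).det = 1
    rw [hg, Matrix.det_mul, Cfsg.Agent.H6.reflection_det Q u hu, Cfsg.Agent.H6.reflection_det Q v hv]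
    ring

end Cfsg.Agent.S0792
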