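import Cfsg.Statements.S0787
import Cfsg.Agent.Lib.Helper15.SpinHom
import Cfsg.Agent.Lib.Helper15.Omega2
import Cfsg.Agent.Lib.Helper15.PairGen
import Cfsg.Agent.S0792

set_option autoImplicit false
open Cfsg

namespace Cfsg.Agent.S0787


open Module QuadraticMap Matrix Cfsg.Agent.Lib.Helper15

variable {F : Type*} [Field F] [Fintype F] {n : ℕ} (Q : QuadraticForm F (Fin n → F))

theorem mem_SO (g : Cfsg.isometryGroup F ⇑Q) :
    g ∈ Cfsg.specialIsometryGroup F ⇑Q ↔ ((g : GL (Fin n) F) : Matrix (Fin n) (Fin n) F).det = 1 := by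
  constructor
  · intro hg
    exact congrArg Units.val (MonoidHom.mem_ker.1 hg)
  · intro hg
    apply MonoidHom.mem_ker.2
    exact Units.ext hg

theorem det_refl (v : Fin n → F) (hv : Q v ≠ 0) :
    (((refl Q v hv : Cfsg.isometryGroup F ⇑Q) : GL (Fin n) F) : Matrix (Fin n) (Fin n) F).det = -1 := by
  rw [refl_coe]; exact Cfsg.Agent.H6.reflection_det Q v hv

theorem det_eq (hQ : (polarBilin Q).Nondegenerate) (h : Fintype.card F ≠ 2 ∨ Fintype.card (Fin n) ≠ 4)
    (g : Cfsg.isometryGroup F ⇑Q) :
    ((g : GL (Fin n) F) : Matrix (Fin n) (Fin n) F).det = 1 ∨ ((g : GL (Fin n) F) : Matrix (Fin n) (Fin n) F).det = -1 := by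
  classical
  obtain ⟨vs, h1, rfl⟩ := cartan_dieudonne Q hQ h g
  rw [coe_prod_reflT Q vs h1, det_prod_refl Q vs h1]
  exact neg_one_pow_eq_or F _

/-- two reflections in vectors of the same norm: the product is a square in `SO` -/
theorem refl_mul_refl_eq_sq (h2 : (2 : F) ≠ 0) (a b : Fin n → F) (ha : Q a ≠ 0) (hb : Q b ≠ 0) (hab : Q a = Q b) :
    ∃ (c : Fin n → F) (hc : Q c ≠ 0),
      refl Q a ha * refl Q b hb = (refl Q a ha * refl Q c hc) * (refl Q a ha * refl Q c hc) := by
  -- one of `a - b`, `a + b` is non-singular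
  have key : ∀ b' : Fin n → F, ∀ hb' : Q b' ≠ 0, Q a = Q b' → Q (a - b') ≠ 0 →
      ∃ (c : Fin n → F) (hc : Q c ≠ 0),
        refl Q a ha * refl Q b' hb' = (refl Q a ha * refl Q c hc) * (refl Q a ha * refl Q c hc) := by
    intro b' hb' hab' hc
    refine ⟨a - b', hc, ?_⟩
    have hact : act Q (refl Q (a - b') hc) a = b' := by
      rw [act_refl]
      have e1 : Q (a - b') = 2 * Q a - polar Q a b' := by
        rw [sub_eq_add_neg, QuadraticMap.map_add Q, QuadraticMap.map_neg, polar_neg_right, ← hab']; ring
      have e2 : polar Q (a - b') a = 2 * Q a - polar Q a b' := by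
        rw [polar_sub_left, polar_self, polar_comm Q b' a]; simp
      rw [e2, ← e1, inv_mul_cancel₀ hc, one_smul, sub_sub_cancel]
    have := conj_refl Q (refl Q (a - b') hc) a ha (by rw [hact]; exact hb')
    rw [refl_inv, refl_congr Q hact _ hb'] at this
    rw [← this]
    group
  by_cases h1 : Q (a - b) = 0
  · have h3 : Q (a - (-b)) ≠ 0 := by
      intro h4
      rw [sub_neg_eq_add, QuadraticMap.map_add Q] at h4
      rw [sub_eq_add_neg, QuadraticMap.map_add Q, QuadraticMap.map_neg, polar_neg_right] at h1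
      apply ha
      have : (2 * 2 : F) * Q a = 0 := by rw [← hab] at h1 h4; linear_combination h1 + h4
      exact (mul_eq_zero.1 this).resolve_left (mul_ne_zero h2 h2)
    have hnb : Q (-b) ≠ 0 := by rw [QuadraticMap.map_neg]; exact hb
    obtain ⟨c, hc, h⟩ := key (-b) hnb (by rw [QuadraticMap.map_neg]; exact hab) h3
    refine ⟨c, hc, ?_⟩
    rw [← h]
    congr 1
    have := refl_smul Q b hb (-1) (by simp) (by rw [neg_one_smul]; exact hnb)
    rw [← this]
    exact refl_congr Q (by simp) _ _
  · exact key b hb hab h1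


/-- Existence and uniqueness of Ω: if F is finite, n ≥ 2, Q is a quadratic form on F^n with non-degenerate polar form and (|F|, n) ≠ (2, 4), then the group of isometries of determinant one has a unique subgroup of index 2. -/
theorem result {F : Type*} [Field F] [Fintype F] {n : ℕ} (hn : 2 ≤ n) (Q : QuadraticForm F (Fin n → F)) (hQ : (QuadraticMap.polarBilin Q).Nondegenerate) (h : Fintype.card F ≠ 2 ∨ n ≠ 4) : ∃! H : Subgroup ↥(Cfsg.specialIsometryGroup F ⇑Q), H.index = 2 := by
  classical
  have hcard : 2 ≤ Fintype.card (Fin n) := by rw [Fintype.card_fin]; exact hn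
  have hex : Fintype.card F ≠ 2 ∨ Fintype.card (Fin n) ≠ 4 := by rw [Fintype.card_fin]; exact h
  set SO := Cfsg.specialIsometryGroup F ⇑Q with hSO
  have hΩSO : Cfsg.Omega F ⇑Q ≤ SO := Abelianization.commutator_subset_ker _
  obtain ⟨a, ha⟩ := exists_nonsingular Q hQ (by omega)
  set r := refl Q a ha with hr
  have hrr : r * r = 1 := refl_mul_self Q a ha
  have hrinv : r⁻¹ = r := refl_inv Q a ha
  -- the index of `SO`
  have hSOidx : ((2 : F) = 0 → SO = ⊤) ∧ ((2 : F) ≠ 0 → SO.index = 2) := by
    constructor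
    · intro h2
      rw [eq_top_iff]
      intro g _
      rw [hSO, mem_SO]
      rcases det_eq Q hQ hex g with h | h
      · exact h
      · rw [h]; linear_combination (-1 : F) * h2
    · intro h2
      rw [Subgroup.index_eq_two_iff]
      refine ⟨r, fun b => ?_⟩
      have e : (((b * r : Cfsg.isometryGroup F ⇑Q) : GL (Fin n) F) : Matrix (Fin n) (Fin n) F).det
          = - ((b : GL (Fin n) F) : Matrix (Fin n) (Fin n) F).det := by
        rw [Subgroup.coe_mul, Units.val_mul, Matrix.det_mul, det_refl]; ring
      have hne : (-1 : F) ≠ 1 := by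
        intro h; apply h2; linear_combination (-1 : F) * h
      rw [hSO, mem_SO, mem_SO, e]
      rcases det_eq Q hQ hex b with h | h
      · rw [h]; exact Or.inr ⟨rfl, hne⟩
      · rw [h, neg_neg]; exact Or.inl ⟨rfl, hne⟩
  have hrel : (Cfsg.Omega F ⇑Q).relIndex SO = 2 := by
    by_cases h2 : (2 : F) = 0
    · have : CharP F 2 := CharTwo.of_one_ne_zero_of_two_eq_zero one_ne_zero h2
      rw [hSOidx.1 h2, Subgroup.relIndex_top_right]
      exact index_Omega_two Q hQ (by omega) hex
    · have := Subgroup.relIndex_mul_index hΩSO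
      rw [hSOidx.2 h2, index_Omega_odd Q h2 hcard hQ] at this
      omega
  have hB : ∀ H : Subgroup SO, H.index = 2 → (Cfsg.Omega F ⇑Q).subgroupOf SO ≤ H := by
    intro H hH
    set T := H.map SO.subtype with hT
    have hTidx : T.index = 2 * SO.index := by rw [hT, Subgroup.index_map_subtype, hH]
    have memT : ∀ x (hx : x ∈ SO), x ∈ T ↔ (⟨x, hx⟩ : SO) ∈ H := by
      intro x hx
      constructor
      · rintro ⟨y, hy, rfl⟩; exact hy
      · intro h; exact ⟨⟨x, hx⟩, h, rfl⟩
    have hTSO : T ≤ SO := by
      rintro _ ⟨y, -, rfl⟩; exact y.2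
    have hmul : ∀ x y, x ∈ SO → y ∈ SO → (x * y ∈ T ↔ (x ∈ T ↔ y ∈ T)) := by
      intro x y hx hy
      rw [memT x hx, memT y hy, memT (x * y) (SO.mul_mem hx hy)]
      exact Subgroup.mul_mem_iff_of_index_two hH (a := ⟨x, hx⟩) (b := ⟨y, hy⟩)
    suffices hsuff : Cfsg.Omega F ⇑Q ≤ T by
      intro x hx
      exact (memT x.1 x.2).1 (hsuff hx)
    by_cases h2 : (2 : F) = 0
    · rw [hSOidx.1 h2, Subgroup.index_top, mul_one] at hTidx
      have hN : T.Normal := Subgroup.normal_of_index_eq_two hTidx
      have : Fact (Nat.Prime 2) := ⟨Nat.prime_two⟩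
      exact Subgroup.Normal.quotient_commutative_iff_commutator_le.1
        (isCyclic_of_prime_card (p := 2) hTidx).isMulCommutative
    · rw [hSOidx.2 h2] at hTidx
      have hreflSO : ∀ c d (hc : Q c ≠ 0) (hd : Q d ≠ 0), refl Q c hc * refl Q d hd ∈ SO := by
        intro c d hc hd
        rw [hSO, mem_SO, Subgroup.coe_mul, Units.val_mul, Matrix.det_mul, det_refl, det_refl]; ring
      have hpair : ∀ c d (hc : Q c ≠ 0) (hd : Q d ≠ 0), Q c = Q d → refl Q c hc * refl Q d hd ∈ T := by
        intro c d hc hd hcd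
        obtain ⟨e, he, h⟩ := refl_mul_refl_eq_sq Q h2 c d hc hd hcd
        rw [h, hmul _ _ (hreflSO _ _ _ _) (hreflSO _ _ _ _)]
      have hconjSO : ∀ x, x ∈ SO → r * x * r ∈ SO := by
        intro x hx
        rw [hSO, mem_SO] at hx ⊢
        rw [Subgroup.coe_mul, Subgroup.coe_mul, Units.val_mul, Units.val_mul, Matrix.det_mul, Matrix.det_mul, hx,
          det_refl]
        ring
      have hP : ∀ x, x ∈ SO → (r * x * r ∈ T ↔ x ∈ T) := by
        intro x hx
        rw [hSO, Cfsg.Agent.S0792.result h2 Q hQ] at hx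
        induction hx using Subgroup.closure_induction with
        | mem x hx =>
          obtain ⟨c, d, hc, hd, hx⟩ := hx
          have hxe : x = refl Q c hc * refl Q d hd := Subtype.ext (Units.ext hx)
          have hc' : Q (act Q r c) ≠ 0 := by rw [Q_act]; exact hc
          have hd' : Q (act Q r d) ≠ 0 := by rw [Q_act]; exact hd
          have e1 : r * x * r = (refl Q (act Q r c) hc' * refl Q c hc) * ((refl Q c hc * refl Q d hd) *
              (refl Q d hd * refl Q (act Q r d) hd')) := by
            rw [← conj_refl Q r c hc hc', ← conj_refl Q r d hd hd', hrinv, hxe]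
            have k1 := refl_mul_self Q c hc
            have k2 := refl_mul_self Q d hd
            symm
            calc r * refl Q c hc * r * refl Q c hc * (refl Q c hc * refl Q d hd * (refl Q d hd * (r * refl Q d hd * r)))
                = r * refl Q c hc * (r * ((refl Q c hc * refl Q c hc) * ((refl Q d hd * refl Q d hd) * r)))
                    * refl Q d hd * r := by simp only [mul_assoc]
              _ = r * refl Q c hc * (r * r) * refl Q d hd * r := by rw [k1, k2, one_mul, one_mul]
              _ = r * (refl Q c hc * refl Q d hd) * r := by rw [hrr, mul_one]; simp only [mul_assoc]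
          rw [e1, hmul _ _ (hreflSO _ _ _ _) (SO.mul_mem (hreflSO _ _ _ _) (hreflSO _ _ _ _)),
            hmul _ _ (hreflSO _ _ _ _) (hreflSO _ _ _ _), ← hxe]
          have t1 := hpair _ _ hc' hc (Q_act r c)
          have t2 := hpair _ _ hd hd' (Q_act r d).symm
          simp only [t1, t2, true_iff, iff_true]
        | one => rw [mul_one, hrr]
        | mul x y hx hy ihx ihy =>
          rw [← Cfsg.Agent.S0792.result h2 Q hQ] at hx hy
          have e : r * (x * y) * r = (r * x * r) * (r * y * r) := by
            calc r * (x * y) * r = r * x * (r * r) * y * r := by rw [hrr, mul_one]; simp only [mul_assoc]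
              _ = _ := by simp only [mul_assoc]
          rw [e, hmul _ _ (hconjSO x hx) (hconjSO y hy), ihx, ihy, hmul _ _ hx hy]
        | inv x hx ih =>
          have e : r * x⁻¹ * r = (r * x * r)⁻¹ := by
            rw [_root_.mul_inv_rev, _root_.mul_inv_rev, hrinv]; group
          rw [e, inv_mem_iff, ih, inv_mem_iff]
      have hHn : H.Normal := Subgroup.normal_of_index_eq_two hH
      have hN : T.Normal := by
        constructor
        intro t ht g
        have htSO := hTSO ht
        have hSOconj : ∀ g', g' ∈ SO → g' * t * g'⁻¹ ∈ T := by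
          intro g' hg'
          rw [memT _ (SO.mul_mem (SO.mul_mem hg' htSO) (SO.inv_mem hg'))]
          exact hHn.conj_mem ⟨t, htSO⟩ ((memT t htSO).1 ht) ⟨g', hg'⟩
        by_cases hg : g ∈ SO
        · exact hSOconj g hg
        · have hg' : r * g ∈ SO := by
            rw [hSO, mem_SO] at hg ⊢
            rw [Subgroup.coe_mul, Units.val_mul, Matrix.det_mul, det_refl, (det_eq Q hQ hex g).resolve_left hg]
            ring
          have e : g * t * g⁻¹ = r * ((r * g) * t * (r * g)⁻¹) * r := by
            rw [_root_.mul_inv_rev, hrinv]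
            calc g * t * g⁻¹ = (r * r) * g * t * g⁻¹ * (r * r) := by rw [hrr, one_mul, mul_one]
              _ = _ := by simp only [mul_assoc]
          rw [e, hP _ (hTSO (hSOconj _ hg'))]
          exact hSOconj _ hg'
      have : Fact (Nat.Prime 2) := ⟨Nat.prime_two⟩
      exact Subgroup.Normal.quotient_commutative_iff_commutator_le.1
        (IsPGroup.isMulCommutative_of_card_eq_prime_sq (p := 2) (by rw [← Subgroup.index_eq_card, hTidx]; norm_num))
  refine ⟨(Cfsg.Omega F ⇑Q).subgroupOf SO, hrel, ?_⟩
  intro H hH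
  have hle := hB H hH
  have h3 := Subgroup.relIndex_mul_index hle
  rw [hH, show ((Cfsg.Omega F ⇑Q).subgroupOf SO).index = 2 from hrel] at h3
  have h1 : ((Cfsg.Omega F ⇑Q).subgroupOf SO).relIndex H = 1 := by omega
  exact le_antisymm (Subgroup.relIndex_eq_one.1 h1) hle

end Cfsg.Agent.S0787
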