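import Mathlib
import Cfsg.Statements.S0793
import Cfsg.Agent.H6.Geom

set_option autoImplicit false
open Cfsg

namespace Cfsg.Agent.S0793

theorem result {F : Type*} [Field F] {n : ℕ} (Q : QuadraticForm F (Fin n → F)) (u v : Fin n → F) (hu : Q u = 0) (hv : Q v = 0) (huv : QuadraticMap.polar ⇑Q u v = 0) : (∀ c x, Q ((Cfsg.siegelMatrix ⇑Q u v c).mulVec x) = Q x) ∧ (∀ c, (Cfsg.siegelMatrix ⇑Q u v c).mulVec u = u ∧ (Cfsg.siegelMatrix ⇑Q u v c).mulVec v = v) ∧ ∀ c d, Cfsg.siegelMatrix ⇑Q u v c * Cfsg.siegelMatrix ⇑Q u v d = Cfsg.siegelMatrix ⇑Q u v (c + d) := by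
  have hvu : QuadraticMap.polar ⇑Q v u = 0 := by rw [QuadraticMap.polar_comm]; exact huv
  have huu : QuadraticMap.polar ⇑Q u u = 0 := by rw [QuadraticMap.polar_self, hu]; simp
  have hvv : QuadraticMap.polar ⇑Q v v = 0 := by rw [QuadraticMap.polar_self, hv]; simp
  refine ⟨?_, ?_, ?_⟩
  · intro c x
    rw [H6.siegelMatrix_mulVec, sub_eq_add_neg, ← neg_smul, H6.map_add_smul, H6.map_add_smul,
      QuadraticMap.polar_add_left, QuadraticMap.polar_smul_left, hu, hv, hvu,
      QuadraticMap.polar_comm ⇑Q x v, QuadraticMap.polar_comm ⇑Q x u]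
    simp only [smul_eq_mul]
    ring
  · intro c
    constructor
    · rw [H6.siegelMatrix_mulVec, huu, hvu]; simp
    · rw [H6.siegelMatrix_mulVec, huv, hvv]; simp
  · intro c d
    apply Matrix.toLin'.injective
    apply LinearMap.ext
    intro x
    rw [Matrix.toLin'_mul, LinearMap.comp_apply, Matrix.toLin'_apply, Matrix.toLin'_apply,
      Matrix.toLin'_apply, H6.siegelMatrix_mulVec Q u v d x, H6.siegelMatrix_mulVec,
      H6.siegelMatrix_mulVec]
    simp only [QuadraticMap.polar_add_right, QuadraticMap.polar_sub_right,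
      QuadraticMap.polar_smul_right, huu, hvv, huv, hvu, smul_eq_mul, mul_zero, add_zero, sub_zero]
    simp only [add_mul, add_smul]
    abel

end Cfsg.Agent.S0793
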