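import Cfsg.Statements.S0794
import Cfsg.Agent.Lib.Helper15.Correct

set_option autoImplicit false
open Cfsg

namespace Cfsg.Agent.S0794


open Cfsg.Agent.Lib.Helper15 QuadraticMap
open scoped commutatorElement


/-- For q odd, n ≥ 5 and Q with non-degenerate polar form: an isometry whose matrix is a Siegel transformation T_(u,v)(c) (u, v singular and orthogonal) is a commutator in the isometry group, so lies in Ω. -/
theorem result {F : Type*} [Field F] [Fintype F] (h2 : (2 : F) ≠ 0) {n : ℕ} (hn : 5 ≤ n) (Q : QuadraticForm F (Fin n → F)) (hQ : (QuadraticMap.polarBilin Q).Nondegenerate) (u v : Fin n → F) (hu : Q u = 0) (hv : Q v = 0) (huv : QuadraticMap.polar ⇑Q u v = 0) (c : F) (g : ↥(Cfsg.isometryGroup F ⇑Q)) (hg : ((g : Matrix.GeneralLinearGroup (Fin n) F) : Matrix (Fin n) (Fin n) F) = Cfsg.siegelMatrix ⇑Q u v c) : g ∈ commutatorSet ↥(Cfsg.isometryGroup F ⇑Q) ∧ g ∈ Cfsg.Omega F ⇑Q := by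
  suffices h : g ∈ commutatorSet ↥(Cfsg.isometryGroup F ⇑Q) from
    ⟨h, by
      obtain ⟨a, b, hab⟩ := h
      rw [← hab]
      exact Subgroup.commutator_mem_commutator (Subgroup.mem_top _) (Subgroup.mem_top _)⟩
  have hact : ∀ x, act Q g x = x + (c * polar Q u x) • v - (c * polar Q v x) • u := by
    intro x
    show ((g : Matrix.GeneralLinearGroup (Fin n) F) : Matrix (Fin n) (Fin n) F).mulVec x = _
    rw [hg]
    exact Cfsg.Agent.H6.siegelMatrix_mulVec Q u v c x
  have hND := nd_of_nondegenerate hQ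
  have hvu : polar Q v u = 0 := by rw [polar_comm]; exact huv
  have huu : polar Q u u = 0 := by rw [polar_self, hu]; simp
  have hvv : polar Q v v = 0 := by rw [polar_self, hv]; simp
  by_cases hcase : ∃ w, polar Q v w = 0 ∧ polar Q u w ≠ 0
  · obtain ⟨w₀, hw1, hw2⟩ := hcase
    obtain ⟨w, hvw, huw⟩ : ∃ w, polar Q v w = 0 ∧ polar Q u w = 1 :=
      ⟨(polar Q u w₀)⁻¹ • w₀, by rw [polar_smul_right, hw1, smul_zero],
        by rw [polar_smul_right, smul_eq_mul, inv_mul_cancel₀ hw2]⟩
    set u' := w - Q w • u with hu'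
    have hQu' : Q u' = 0 := by
      rw [hu', sub_eq_add_neg, ← neg_smul, QuadraticMap.map_add Q, QuadraticMap.map_smul, hu, polar_smul_right,
        polar_comm Q w u, huw]
      simp
    have huu' : polar Q u u' = 1 := by
      rw [hu', polar_sub_right, polar_smul_right, huu, huw]; simp
    have hvu' : polar Q v u' = 0 := by
      rw [hu', polar_sub_right, polar_smul_right, hvu, hvw]; simp
    have hq1 := Q_hyp_sub Q u u' hu hQu' huu'
    have hq2 := Q_hyp_sub_smul Q u u' hu hQu' huu' 2
    have h1 : Q (u - u') ≠ 0 := by rw [hq1]; simp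
    have h3 : Q (u - (2 : F) • u') ≠ 0 := by rw [hq2]; simpa using h2
    obtain ⟨d, hdact⟩ : ∃ d : Cfsg.isometryGroup F ⇑Q, ∀ x, act Q d x
        = x + ((2 - 1) * polar Q u' x) • u + (((2 : F)⁻¹ - 1) * polar Q u x) • u' :=
      ⟨refl Q (u - u') h1 * refl Q (u - (2 : F) • u') h3, fun x => act_dil Q u u' hu hQu' huu' 2 h2 h1 h3 x⟩
    refine ⟨d, g, ?_⟩
    rw [commutatorElement_def, mul_inv_eq_iff_eq_mul, mul_inv_eq_iff_eq_mul]
    apply iso_ext
    intro x
    rw [act_mul, act_mul, act_mul, hact, hdact, hact, hact, hdact]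
    have hu'u : polar Q u' u = 1 := by rw [polar_comm]; exact huu'
    have hu'v : polar Q u' v = 0 := by rw [polar_comm]; exact hvu'
    have hu'u' : polar Q u' u' = 0 := by rw [polar_self, hQu']; simp
    simp only [polar_add_right, polar_sub_right, polar_smul_right, huu, hvv, huv, hvu, huu', hvu', hu'u, hu'v, hu'u',
      smul_eq_mul]
    match_scalars <;> field_simp <;> ring
  · push Not at hcase
    have hg1 : g = 1 := by
      apply iso_ext
      intro x
      rw [hact, act_one]
      by_cases hv0 : v = 0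
      · subst hv0
        simp
      · obtain ⟨a, rfl⟩ := eq_smul_of_ker_le Q hND (a := u) hv0 hcase
        rw [polar_smul_left, smul_smul]
        simp only [smul_eq_mul]
        rw [add_sub_assoc, ← sub_smul]
        have : c * (a * polar Q v x) - c * polar Q v x * a = 0 := by ring
        rw [this, zero_smul, add_zero]
    rw [hg1]
    exact ⟨1, 1, by simp⟩

end Cfsg.Agent.S0794
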