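import Cfsg.Statements.S0795
import Cfsg.Agent.Lib.Helper15.SiegelGen

set_option autoImplicit false
open Cfsg

namespace Cfsg.Agent.S0795


open Module QuadraticMap Matrix Cfsg.Agent.Lib.Helper15


/-- Generation of Ω by root elements: for q odd, n ≥ 5 and Q with non-degenerate polar form on F^n, the commutator subgroup of the isometry group equals the subgroup generated by the isometries whose matrices are Siegel transformations T_(u,v)(c) with u, v singular and orthogonal. -/
theorem result {F : Type*} [Field F] [Fintype F] (h2 : (2 : F) ≠ 0) {n : ℕ} (hn : 5 ≤ n) (Q : QuadraticForm F (Fin n → F)) (hQ : (QuadraticMap.polarBilin Q).Nondegenerate) : Cfsg.Omega F ⇑Q = Subgroup.closure {g : ↥(Cfsg.isometryGroup F ⇑Q) | ∃ (u v : Fin n → F) (c : F), Q u = 0 ∧ Q v = 0 ∧ QuadraticMap.polar ⇑Q u v = 0 ∧ ((g : Matrix.GeneralLinearGroup (Fin n) F) : Matrix (Fin n) (Fin n) F) = Cfsg.siegelMatrix ⇑Q u v c} := by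
  have hn5 : 5 ≤ Fintype.card (Fin n) := by rw [Fintype.card_fin]; exact hn
  set X := {g : ↥(Cfsg.isometryGroup F ⇑Q) | ∃ (u v : Fin n → F) (c : F), Q u = 0 ∧ Q v = 0 ∧ QuadraticMap.polar ⇑Q u v = 0 ∧ ((g : Matrix.GeneralLinearGroup (Fin n) F) : Matrix (Fin n) (Fin n) F) = Cfsg.siegelMatrix ⇑Q u v c} with hX
  have hXeq : ∀ g ∈ X, ∃ (u v : Fin n → F) (hu : Q u = 0) (huv : polar Q u v = 0), Q v = 0 ∧ g = eich Q u v hu huv := by
    rintro g ⟨u, v, c, hu, hv, huv, hg⟩
    refine ⟨u, c • v, hu, by rw [polar_smul_right, huv, smul_zero], by rw [QuadraticMap.map_smul, hv, smul_zero], ?_⟩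
    apply Subtype.ext
    apply Units.ext
    rw [hg, coe_eich_smul Q u v c hu hv huv]
  have hmemX : ∀ (u v : Fin n → F) (hu : Q u = 0) (huv : polar Q u v = 0), Q v = 0 → eich Q u v hu huv ∈ X := by
    intro u v hu huv hv
    refine ⟨u, v, 1, hu, hv, huv, ?_⟩
    rw [← coe_eich_smul Q u v 1 hu hv huv]
    congr 3
    rw [one_smul]
  apply le_antisymm
  · have hnorm : (Subgroup.closure X).Normal := by
      constructor
      intro h hh g
      induction hh using Subgroup.closure_induction with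
      | mem x hx =>
        obtain ⟨u, v, hu, huv, hv, rfl⟩ := hXeq x hx
        apply Subgroup.subset_closure
        rw [conj_eich]
        exact hmemX _ _ _ _ (by rw [Q_act, hv])
      | one => simp
      | mul x y _ _ hx hy =>
        have : g * (x * y) * g⁻¹ = (g * x * g⁻¹) * (g * y * g⁻¹) := by group
        rw [this]; exact Subgroup.mul_mem _ hx hy
      | inv x _ hx =>
        have : g * x⁻¹ * g⁻¹ = (g * x * g⁻¹)⁻¹ := by group
        rw [this]; exact Subgroup.inv_mem _ hx
    exact Omega_le_of_siegel Q _ (fun u v hu huv hv => Subgroup.subset_closure (hmemX u v hu huv hv)) hQ hn5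
  · rw [Subgroup.closure_le]
    intro g hg
    obtain ⟨u, v, hu, huv, hv, rfl⟩ := hXeq g hg
    exact eich_mem_Omega Q hQ hn5 u v hu huv

end Cfsg.Agent.S0795
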