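import Cfsg.Statements.S0797
import Cfsg.Agent.Lib.Helper15.SpinHom

set_option autoImplicit false
open Cfsg

namespace Cfsg.Agent.S0797


open Module QuadraticMap Matrix Cfsg.Agent.Lib.Helper15


/-- O^ε_2m(q) ≅ Ω.2² for q odd: if F is finite of odd characteristic, n ≥ 2 is even and Q has non-degenerate polar form on F^n, the isometry group of Q has exactly three subgroups of index 2. -/
theorem result {F : Type*} [Field F] [Fintype F] (h2 : (2 : F) ≠ 0) {n : ℕ} (hn : 2 ≤ n) (heven : Even n) (Q : QuadraticForm F (Fin n → F)) (hQ : (QuadraticMap.polarBilin Q).Nondegenerate) : Nat.card {H : Subgroup ↥(Cfsg.isometryGroup F ⇑Q) // H.index = 2} = 3 := by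
  classical
  have hcard : 2 ≤ Fintype.card (Fin n) := by rw [Fintype.card_fin]; exact hn
  set f := spin Q h2 hcard hQ with hf
  have hsurj : Function.Surjective f := spin_surjective Q h2 hcard hQ
  have hker : f.ker = Cfsg.Omega F ⇑Q := spin_ker Q h2 hcard hQ
  have hV : ∀ k : ℤˣ × ℤˣ, k ^ 2 = 1 := by decide
  have hcardV : Nat.card (ℤˣ × ℤˣ) = 4 := by rw [Nat.card_prod]; simp
  have hord : ∀ k : ℤˣ × ℤˣ, k ≠ 1 → Nat.card (Subgroup.zpowers k) = 2 := by
    intro k hk
    rw [Nat.card_zpowers]
    exact orderOf_eq_prime (hV k) hk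
  have hidx : ∀ k : ℤˣ × ℤˣ, k ≠ 1 → (Subgroup.zpowers k).index = 2 := by
    intro k hk
    have := (Subgroup.zpowers k).card_mul_index
    rw [hord k hk, hcardV] at this
    omega
  let Φ : {k : ℤˣ × ℤˣ // k ≠ 1} → {H : Subgroup ↥(Cfsg.isometryGroup F ⇑Q) // H.index = 2} :=
    fun k => ⟨(Subgroup.zpowers k.1).comap f, by rw [Subgroup.index_comap_of_surjective _ hsurj]; exact hidx k.1 k.2⟩
  have hbij : Function.Bijective Φ := by
    constructor
    · rintro ⟨k, hk⟩ ⟨k', hk'⟩ h
      have h1 : (Subgroup.zpowers k).comap f = (Subgroup.zpowers k').comap f := congrArg Subtype.val h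
      have h3 : Subgroup.zpowers k = Subgroup.zpowers k' := Subgroup.comap_injective hsurj h1
      have h4 : k ∈ Subgroup.zpowers k' := by rw [← h3]; exact Subgroup.mem_zpowers k
      apply Subtype.ext
      show k = k'
      obtain ⟨i, hi⟩ := Subgroup.mem_zpowers_iff.1 h4
      rcases Int.even_or_odd' i with ⟨j, rfl | rfl⟩
      · exfalso; apply hk
        rw [← hi, _root_.zpow_mul, zpow_ofNat, hV, _root_.one_zpow]
      · rw [← hi, _root_.zpow_add, _root_.zpow_mul, zpow_ofNat, hV, _root_.one_zpow, one_mul, _root_.zpow_one]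
    · rintro ⟨H, hH⟩
      have hN : H.Normal := Subgroup.normal_of_index_eq_two hH
      have : Fact (Nat.Prime 2) := ⟨Nat.prime_two⟩
      have hle : f.ker ≤ H := by
        rw [hker]
        exact Subgroup.Normal.quotient_commutative_iff_commutator_le.1
          (isCyclic_of_prime_card (p := 2) hH).isMulCommutative
      have hK : (H.map f).index = 2 := by rw [Subgroup.index_map_eq _ hsurj hle, hH]
      have hKc : Nat.card (H.map f) = 2 := by
        have := (H.map f).card_mul_index
        rw [hK, hcardV] at this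
        omega
      have hne : H.map f ≠ ⊥ := by
        intro h0
        rw [h0] at hKc
        simp at hKc
      obtain ⟨⟨k, hkK⟩, hk1⟩ := (Subgroup.ne_bot_iff_exists_ne_one).1 hne
      have hk : k ≠ 1 := fun h => hk1 (Subtype.ext h)
      refine ⟨⟨k, hk⟩, ?_⟩
      apply Subtype.ext
      show (Subgroup.zpowers k).comap f = H
      have : Subgroup.zpowers k = H.map f :=
        Subgroup.eq_of_le_of_card_ge (by rw [Subgroup.zpowers_le]; exact hkK) (by rw [hKc, hord k hk])
      rw [this, Subgroup.comap_map_eq_self hle]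
  rw [← Nat.card_congr (Equiv.ofBijective Φ hbij), Nat.card_eq_fintype_card]
  decide

end Cfsg.Agent.S0797
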