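import Cfsg.Statements.S0798
import Cfsg.Agent.Lib.Helper15.OneClass

set_option autoImplicit false
open Cfsg

namespace Cfsg.Agent.S0798


open Cfsg.Agent.Lib.Helper15


/-- For q odd, n ≥ 2 even, Q with non-degenerate polar form (n, |F|) ≠ (4, 3), and a fixed c ≠ 0: the subgroup of the isometry group generated by the reflections r_v with Q(v) ∈ c·(F^×)² has index 2. -/
theorem result {F : Type*} [Field F] [Fintype F] (h2 : (2 : F) ≠ 0) {n : ℕ} (hn : 2 ≤ n) (heven : Even n) (Q : QuadraticForm F (Fin n → F)) (hQ : (QuadraticMap.polarBilin Q).Nondegenerate) (h43 : ¬ (n = 4 ∧ Fintype.card F = 3)) (c : F) (hc : c ≠ 0) : (Subgroup.closure {g : ↥(Cfsg.isometryGroup F ⇑Q) | ∃ (v : Fin n → F) (t : F), t ≠ 0 ∧ Q v = c * t ^ 2 ∧ ((g : Matrix.GeneralLinearGroup (Fin n) F) : Matrix (Fin n) (Fin n) F) = Cfsg.reflectionMatrix ⇑Q v}).index = 2 := by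
  classical
  have hset : {g : ↥(Cfsg.isometryGroup F ⇑Q) | ∃ (v : Fin n → F) (t : F), t ≠ 0 ∧ Q v = c * t ^ 2 ∧
      ((g : Matrix.GeneralLinearGroup (Fin n) F) : Matrix (Fin n) (Fin n) F) = Cfsg.reflectionMatrix ⇑Q v}
      = classSet Q (sqs c) := by
    ext g
    constructor
    · rintro ⟨v, t, ht, hv, hg⟩
      have hv0 : Q v ≠ 0 := by rw [hv]; exact mul_ne_zero hc (pow_ne_zero 2 ht)
      exact ⟨v, hv0, by rw [hv]; exact sqs_mul_sq h2 hc ht, Subtype.ext (Units.ext hg)⟩
    · rintro ⟨v, hv0, hs, rfl⟩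
      have h1 : IsSquare (c * Q v) := by
        rw [← sqs_eq_one_iff, sqs_mul h2 hc hv0, hs, Int.units_mul_self]
      obtain ⟨r, hr⟩ := h1
      have hr0 : r ≠ 0 := by
        rintro rfl
        rw [mul_zero] at hr
        exact (mul_ne_zero hc hv0) hr
      refine ⟨v, r / c, div_ne_zero hr0 hc, ?_, rfl⟩
      field_simp
      rw [mul_comm, hr]; ring
  rw [hset]
  apply index_closure_classSet Q h2 (by simpa using hn) hQ
  have hodd := odd_card_of_two_ne_zero h2
  have h1 : 1 < Fintype.card F := Fintype.one_lt_card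
  by_cases hq : 3 < Fintype.card F
  · exact Or.inl hq
  · right
    have hq3 : Fintype.card F = 3 := by
      obtain ⟨k, hk⟩ := hodd
      omega
    simp only [Fintype.card_fin]
    obtain ⟨k, hk⟩ := heven
    have : n ≠ 4 := fun h => h43 ⟨h, hq3⟩
    omega

end Cfsg.Agent.S0798
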