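import Mathlib
import Cfsg.Statements.S0800
import Cfsg.Agent.H14.SL2Syl

namespace Cfsg.Agent.S0800

open Cfsg Cfsg.Agent.H14

theorem result {F : Type*} [Field F] [Fintype F] {q : ℕ} (hF : Fintype.card F = q) (p : ℕ) [Fact p.Prime] [CharP F p] (g : Matrix.SpecialLinearGroup (Fin 2) F) (hg : Nat.Coprime (orderOf g) p) : orderOf g ∣ q - 1 ∨ orderOf g ∣ q + 1 := by
  classical
  subst hF
  by_cases ht : g.1.trace ^ 2 = 4
  · left
    have h1 := orderOf_dvd_of_pow_eq_one (pow_two_card_eq_one g ht)
    obtain ⟨n, -, hn⟩ := FiniteField.card F p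
    have hcop : Nat.Coprime (orderOf g) (Fintype.card F) := by
      rw [hn]; exact hg.pow_right _
    have h2 : orderOf g ∣ 2 := hcop.dvd_of_dvd_mul_right h1
    rcases Nat.even_or_odd (Fintype.card F) with he | ho
    · -- characteristic two
      have : orderOf g = 1 := by
        rcases (Nat.dvd_prime Nat.prime_two).mp h2 with h | h
        · exact h
        · exfalso
          rw [h] at hcop
          have := Nat.Coprime.eq_one_of_dvd hcop he.two_dvd
          omega
      rw [this]; exact one_dvd _
    · refine h2.trans ?_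
      obtain ⟨k, hk⟩ := ho
      exact ⟨k, by omega⟩
  · by_cases hne : NoEig g
    · right; exact orderOf_dvd_of_pow_eq_one hne.pow_card_add_one
    · left; exact orderOf_dvd_of_pow_eq_one (pow_card_sub_one_eq_one g ht hne)

end Cfsg.Agent.S0800
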