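import Mathlib
import Cfsg.Statements.S0802
import Cfsg.Agent.H14.PSL2A4

set_option autoImplicit false

namespace Cfsg.Agent.S0802

open Cfsg.Agent.H14

theorem result {F : Type*} [Field F] [Fintype F] (p n : ℕ) [Fact p.Prime] [CharP F p] (hF : Fintype.card F = p ^ n) : (∃ H : Subgroup (Matrix.ProjectiveSpecialLinearGroup (Fin 2) F), Nonempty (H ≃* alternatingGroup (Fin 4))) ↔ ¬ (p = 2 ∧ Odd n) := by
  classical
  constructor
  · rintro ⟨H, ⟨e⟩⟩ ⟨rfl, hn⟩
    have h2 : (2 : F) = 0 := by
      have := CharP.cast_eq_zero F 2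
      exact_mod_cast this
    apply no_A4_char_two h2 _ (H.subtype.comp e.symm.toMonoidHom)
    · rw [MonoidHom.coe_comp]
      exact H.subtype_injective.comp e.symm.injective
    · rw [hF]
      obtain ⟨m, rfl⟩ := hn
      have h4 : (4 : ℕ) ^ m % 3 = 1 := by
        rw [Nat.pow_mod]; simp
      have hpos : 0 < 4 ^ m := by positivity
      rw [pow_succ, pow_mul]
      norm_num
      omega
  · intro h
    by_cases hp : p = 2
    · subst hp
      have hn : Even n := by
        rw [← Nat.not_odd_iff_even]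
        exact fun ho => h ⟨rfl, ho⟩
      have h2 : (2 : F) = 0 := by
        have := CharP.cast_eq_zero F 2
        exact_mod_cast this
      obtain ⟨m, rfl⟩ := hn
      have h3 : 3 ∣ Fintype.card Fˣ := by
        rw [Fintype.card_units, hF, ← two_mul, pow_mul]
        have := Nat.sub_dvd_pow_sub_pow 4 1 m
        simpa using this
      haveI : Fact (Nat.Prime 3) := ⟨Nat.prime_three⟩
      obtain ⟨l, hl⟩ := exists_prime_orderOf_dvd_card 3 h3
      have hl3 : l ^ 3 = 1 := by rw [← hl]; exact pow_orderOf_eq_one l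
      have hl1 : l ≠ 1 := by
        rintro rfl
        rw [orderOf_one] at hl
        omega
      exact ⟨_, (a4data_char_two h2 l hl3 hl1).nonempty_mulEquiv⟩
    · have h2 : (2 : F) ≠ 0 := by
        intro h0
        have : ((2 : ℕ) : F) = 0 := by exact_mod_cast h0
        rw [CharP.cast_eq_zero_iff F p] at this
        have hp' := (Nat.prime_dvd_prime_iff_eq (Fact.out : p.Prime) Nat.prime_two).mp this
        exact hp hp'
      obtain ⟨x₀, hx₀⟩ := exists_mul_self_eq (F := F)
      obtain ⟨y₀, hy₀⟩ := exists_inverting x₀ (trace_zero_sq_ne h2 (trace_zero_of_mul_self x₀ hx₀))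
      have h0 : QPair x₀ y₀ := ⟨hx₀, hy₀⟩
      obtain ⟨ω, hω1, hω2⟩ := exists_omega h2 x₀ y₀ h0.1 (h0.sq_right h2) h0.2
      exact ⟨_, (h0.a4data h2 hω1 hω2).nonempty_mulEquiv⟩

end Cfsg.Agent.S0802
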