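import Mathlib
import Cfsg.Statements.S0803
import Cfsg.Agent.H14.PSL2S4

set_option autoImplicit false

namespace Cfsg.Agent.S0803

open Cfsg.Agent.H14

theorem mul_self_of_pow_four {F : Type*} [Field F] (h2 : (2 : F) = 0)
    (g : Matrix.SpecialLinearGroup (Fin 2) F) (h : g * g * (g * g) = 1) : g * g = 1 := by
  by_cases hs : IsScal g.1
  · rw [isScal_iff_eq, neg_one_units_eq_one h2, dg_one] at hs
    have : g = 1 := by tauto
    rw [this, one_mul]
  · have h1 : g.1 * g.1 = lin g (-1) g.1.trace := by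
      rw [sl2_mul_self]; unfold lin; rw [neg_smul, one_smul]; abel
    have h3 : g.1 * g.1 * (g.1 * g.1) = 1 := by
      have := congrArg Subtype.val h
      simpa using this
    rw [h1, lin_mul_lin] at h3
    have h4 : lin g (-1 * -1 - g.1.trace * g.1.trace - 1)
        (-1 * g.1.trace + g.1.trace * -1 + g.1.trace * g.1.trace * g.1.trace) = 0 := by
      have e : ∀ a b : F, lin g (a - 1) b = lin g a b - 1 := by
        intro a b; unfold lin; rw [sub_smul, one_smul]; abel
      rw [e, h3, sub_self]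
    obtain ⟨h5, -⟩ := (lin_eq_zero_iff g hs _ _).mp h4
    have ht : g.1.trace = 0 := by
      have : g.1.trace ^ 2 = 0 := by linear_combination -h5
      exact pow_eq_zero_iff (two_ne_zero) |>.mp this
    apply Subtype.ext
    rw [Matrix.SpecialLinearGroup.coe_mul, h1, ht]
    unfold lin
    rw [zero_smul, add_zero, neg_smul, one_smul]
    have : (-1 : Matrix (Fin 2) (Fin 2) F) = 1 - (2 : F) • 1 := by
      rw [two_smul]; abel
    rw [this, h2, zero_smul, sub_zero]; rfl

theorem exists_perm_order_four : ∃ σ : Equiv.Perm (Fin 4), σ * σ * (σ * σ) = 1 ∧ σ * σ ≠ 1 :=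
  ⟨Equiv.swap 0 1 * Equiv.swap 1 2 * Equiv.swap 2 3, by decide, by decide⟩

theorem arith (q : ℕ) (hq : q % 2 = 1) (h : 16 ∣ q * (q - 1) * (q + 1)) : q % 8 = 1 ∨ q % 8 = 7 := by
  obtain ⟨m, rfl⟩ : ∃ m, q = 2 * m + 1 := ⟨q / 2, by omega⟩
  have e : (2 * m + 1) * (2 * m + 1 - 1) * (2 * m + 1 + 1) = 4 * ((2 * m + 1) * (m * (m + 1))) := by
    rw [Nat.add_sub_cancel]; ring
  rw [e] at h
  have h4 : 4 ∣ (2 * m + 1) * (m * (m + 1)) := by
    have : (4 : ℕ) * 4 ∣ 4 * ((2 * m + 1) * (m * (m + 1))) := by simpa using h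
    exact Nat.dvd_of_mul_dvd_mul_left (by norm_num) this
  have hcop : Nat.Coprime 4 (2 * m + 1) := by
    have : Nat.Coprime 2 (2 * m + 1) := by
      rw [Nat.coprime_two_left]; exact ⟨m, rfl⟩
    exact Nat.Coprime.pow_left 2 this
  have h5 : 4 ∣ m * (m + 1) := hcop.dvd_of_dvd_mul_left h4
  have h6 : m % 4 = 0 ∨ m % 4 = 3 := by
    obtain ⟨j, r, hr, rfl⟩ : ∃ j r, r < 4 ∧ m = 4 * j + r := ⟨m / 4, m % 4, Nat.mod_lt _ (by norm_num), by omega⟩
    interval_cases r
    · omega
    · exfalso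
      have : (4 * j + 1) * (4 * j + 1 + 1) = 4 * (4 * j * j + 3 * j) + 2 := by ring
      rw [this] at h5; omega
    · exfalso
      have : (4 * j + 2) * (4 * j + 2 + 1) = 4 * (4 * j * j + 5 * j + 1) + 2 := by ring
      rw [this] at h5; omega
    · omega
  omega

theorem arith2 (q : ℕ) (h : q % 8 = 1 ∨ q % 8 = 7) : q ^ 2 % 16 = 1 := by
  obtain ⟨j, r, hr, rfl⟩ : ∃ j r, (r = 1 ∨ r = 7) ∧ q = 8 * j + r := ⟨q / 8, q % 8, h, by omega⟩
  rcases hr with rfl | rfl
  · have : (8 * j + 1) ^ 2 = 16 * (4 * j * j + j) + 1 := by ring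
    rw [this]; omega
  · have : (8 * j + 7) ^ 2 = 16 * (4 * j * j + 7 * j + 3) + 1 := by ring
    rw [this]; omega

theorem arith3 (q : ℕ) (h : q ^ 2 % 16 = 1) : q % 2 = 1 ∧ (q % 8 = 1 ∨ q % 8 = 7) := by
  obtain ⟨j, r, hr, rfl⟩ : ∃ j r, r < 8 ∧ q = 8 * j + r := ⟨q / 8, q % 8, Nat.mod_lt _ (by norm_num), by omega⟩
  have e : (8 * j + r) ^ 2 = 16 * (4 * j * j + j * r) + r ^ 2 := by ring
  rw [e] at h
  interval_cases r <;> omega

theorem result {F : Type*} [Field F] [Fintype F] {q : ℕ} (hF : Fintype.card F = q) : (∃ H : Subgroup (Matrix.ProjectiveSpecialLinearGroup (Fin 2) F), Nonempty (H ≃* Equiv.Perm (Fin 4))) ↔ q ^ 2 % 16 = 1 := by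
  classical
  subst hF
  constructor
  · rintro ⟨H, ⟨e⟩⟩
    by_cases hq : Fintype.card F % 2 = 1
    · have h2 : (2 : F) ≠ 0 := odd_two_ne_zero hq
      apply arith2
      apply arith _ hq
      have h1 : Nat.card H = 24 := by rw [Nat.card_congr e.toEquiv, card_perm_fin4]
      have h3 := Subgroup.card_subgroup_dvd_card H
      rw [h1] at h3
      have h4 := card_psl2_mul_two (F := F) h2
      rw [Nat.card_eq_fintype_card (α := Matrix.SpecialLinearGroup (Fin 2) F), card_sl2] at h4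
      rw [← h4]
      obtain ⟨c, hc⟩ := h3
      rw [hc]
      exact ⟨3 * c, by ring⟩
    · exfalso
      have h2 : (2 : F) = 0 := by
        have h := FiniteField.even_card_iff_char_two.mpr (by omega : Fintype.card F % 2 = 0)
        have := CharP.cast_eq_zero F (ringChar F)
        rw [h] at this
        exact_mod_cast this
      obtain ⟨σ, hσ4, hσ2⟩ := exists_perm_order_four
      obtain ⟨g, hg⟩ := QuotientGroup.mk_surjective (e.symm σ).1
      have hg' : pj g = (e.symm σ).1 := hg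
      have h4 : g * g * (g * g) = 1 := by
        apply pj_injective_of_char_two h2
        rw [pj_mul, pj_mul, hg', ← Subgroup.coe_mul, ← Subgroup.coe_mul, ← map_mul, ← map_mul, hσ4, map_one]
        rfl
      have h5 := mul_self_of_pow_four h2 g h4
      apply hσ2
      apply e.symm.injective
      apply Subtype.ext
      rw [map_mul, map_one, Subgroup.coe_mul, ← hg', ← pj_mul, h5]
      rfl
  · intro h
    obtain ⟨h1, h8⟩ := arith3 _ h
    exact exists_S4 (Nat.odd_iff.mpr h1) h8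

end Cfsg.Agent.S0803
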