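import Mathlib
import Cfsg.Statements.S0804
import Cfsg.Agent.H14.PSL2A5

set_option autoImplicit false
open Cfsg

namespace Cfsg.Agent.S0804

theorem result {F : Type*} [Field F] [Fintype F] {q : ℕ} (hF : Fintype.card F = q) : (∃ H : Subgroup (Matrix.ProjectiveSpecialLinearGroup (Fin 2) F), Nonempty (H ≃* alternatingGroup (Fin 5))) ↔ 5 ∣ q * (q ^ 2 - 1) := by
  subst hF
  constructor
  · rintro ⟨H, ⟨e⟩⟩
    exact Cfsg.Agent.H14.dvd_of_A5_subgroup H e
  · exact Cfsg.Agent.H14.exists_A5_subgroup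

end Cfsg.Agent.S0804
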