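import Mathlib
import Cfsg.Statements.S0805
import Cfsg.Agent.H14.PSL2Subfield

set_option autoImplicit false

namespace Cfsg.Agent.S0805

open Cfsg.Agent.H14 in
theorem result {F K : Type*} [Field F] [Fintype F] [Field K] [Fintype K] {q : ℕ} (hF : Fintype.card F = q) (hodd : Odd q) (m : ℕ) (hm : 1 ≤ m) (hK : Fintype.card K ^ m = q) : (∃ H : Subgroup (Matrix.ProjectiveSpecialLinearGroup (Fin 2) F), Nonempty (H ≃* Matrix.ProjectiveSpecialLinearGroup (Fin 2) K)) ∧ ((∃ H : Subgroup (Matrix.ProjectiveSpecialLinearGroup (Fin 2) F), Nonempty (H ≃* Matrix.ProjGenLinGroup (Fin 2) K)) ↔ Even m) := by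
  subst hF
  obtain ⟨f⟩ := exists_ringHom_of_card_pow hK
  refine ⟨exists_psl2_subfield f, ?_, ?_⟩
  · rintro ⟨H, ⟨e⟩⟩
    by_contra hme
    exact not_pgl2_of_odd_degree hK hme hodd H e
  · intro hme
    exact exists_pgl2_subfield f (isSquare_of_even_degree f hK hme hodd)

end Cfsg.Agent.S0805
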