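import Mathlib
import Cfsg.Statements.S0808
import Cfsg.Agent.H14.PSL2KleinConj
import Cfsg.Agent.H14.PSL2KleinCount

set_option autoImplicit false

namespace Cfsg.Agent.S0808

open Cfsg.Agent.H14

theorem result {F : Type*} [Field F] [Fintype F] {q : ℕ} (hF : Fintype.card F = q) (hodd : Odd q) : ((q % 8 = 3 ∨ q % 8 = 5) → ∀ V W : Subgroup (Matrix.ProjectiveSpecialLinearGroup (Fin 2) F), IsKleinFour V → IsKleinFour W → ∃ g : Matrix.ProjectiveSpecialLinearGroup (Fin 2) F, W = V.map (MulAut.conj g).toMonoidHom) ∧ ((q % 8 = 1 ∨ q % 8 = 7) → ∃ V₁ V₂ : Subgroup (Matrix.ProjectiveSpecialLinearGroup (Fin 2) F), IsKleinFour V₁ ∧ IsKleinFour V₂ ∧ (¬ ∃ g : Matrix.ProjectiveSpecialLinearGroup (Fin 2) F, V₂ = V₁.map (MulAut.conj g).toMonoidHom) ∧ ∀ W : Subgroup (Matrix.ProjectiveSpecialLinearGroup (Fin 2) F), IsKleinFour W → (∃ g : Matrix.ProjectiveSpecialLinearGroup (Fin 2) F, W = V₁.map (MulAut.conj g).toMonoidHom)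 ∨ (∃ g : Matrix.ProjectiveSpecialLinearGroup (Fin 2) F, W = V₂.map (MulAut.conj g).toMonoidHom)) := by
  subst hF
  have h2 : (2 : F) ≠ 0 := odd_two_ne_zero (Nat.odd_iff.mp hodd)
  obtain ⟨x₀, hx₀⟩ := exists_mul_self_eq (F := F)
  obtain ⟨y₀, hy₀⟩ := exists_inverting x₀ (trace_zero_sq_ne h2 (trace_zero_of_mul_self x₀ hx₀))
  have h0 : QPair x₀ y₀ := ⟨hx₀, hy₀⟩
  have hx0 : x₀ ∈ Subgroup.centralizer ({x₀} : Set _) := Subgroup.mem_centralizer_singleton_iff.mpr rfl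
  constructor
  · intro h8 V W hV hW
    have hns := not_isSqIn_self hodd h8 hx₀
    have key : ∀ W : Subgroup (Matrix.ProjectiveSpecialLinearGroup (Fin 2) F), IsKleinFour W →
        ∃ g, W = (Kl x₀ y₀).map (MulAut.conj g).toMonoidHom := by
      intro W hW
      rcases klein_conj_cases h2 h0 hx0 hns hW with h | ⟨g, h⟩
      · exact h
      · refine ⟨g, ?_⟩
        have e : Kl x₀ (x₀ * y₀) = Kl x₀ y₀ := by
          unfold Kl
          rw [pj_mul]
          exact closure_pair_mul (pj_mul_self_of_mul_self hx₀)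
        rw [h, e]
    obtain ⟨g, rfl⟩ := key V hV
    obtain ⟨h, rfl⟩ := key W hW
    refine ⟨h * g⁻¹, ?_⟩
    rw [Subgroup.map_map]
    congr 1
    ext v
    simp [mul_assoc]
  · intro h8
    obtain ⟨τ, hτ, hτ'⟩ := exists_not_isSqIn h2 x₀ (h0.not_isScal h2)
    exact ⟨Kl x₀ y₀, Kl x₀ (τ * y₀), h0.isKleinFour h2, (h0.mul_left hτ).isKleinFour h2,
      klein_not_conj h2 h0 hτ hτ' (isSqIn_self hodd h8 hx₀), fun W hW => klein_conj_cases h2 h0 hτ hτ' hW⟩

end Cfsg.Agent.S0808
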