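import Mathlib
import Cfsg.Statements.S0809
import Cfsg.Agent.H14.SL2Four

set_option autoImplicit false

namespace Cfsg.Agent.S0809

open Cfsg.Agent.H14

theorem result {F : Type*} [Field F] [Fintype F] {q : ℕ} (hF : Fintype.card F = q) (hodd : Odd q) (A : Subgroup (Matrix.SpecialLinearGroup (Fin 2) F)) (hA : Nat.card A = 4) : (∀ B : Subgroup (Matrix.SpecialLinearGroup (Fin 2) F), Nat.card B = 4 → ∃ g : Matrix.SpecialLinearGroup (Fin 2) F, B = A.map (MulAut.conj g).toMonoidHom) ∧ (q % 4 = 1 → Nat.card ↥(Subgroup.normalizer (A : Set (Matrix.SpecialLinearGroup (Fin 2) F))) = 2 * (q - 1)) ∧ (q % 4 = 3 → Nat.card ↥(Subgroup.normalizer (A : Set (Matrix.SpecialLinearGroup (Fin 2) F))) = 2 * (q + 1)) ∧ (∀ x y : Matrix.ProjectiveSpecialLinearGroup (Fin 2) F, orderOf x = 2 → orderOf y = 2 → IsConj x y) := by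
  subst hF
  have h2 : (2 : F) ≠ 0 := odd_two_ne_zero (Nat.odd_iff.mp hodd)
  obtain ⟨a, haa, rfl⟩ := exists_gen_of_card_four h2 A hA
  have hta := trace_zero_of_mul_self a haa
  have ht := trace_zero_sq_ne h2 hta
  have hN := (sylow_torus h2 a ht (Subgroup.zpowers a) (Subgroup.mem_zpowers a) (by
    rw [Subgroup.zpowers_le, Subgroup.mem_centralizer_singleton_iff])).2
  refine ⟨?_, ?_, ?_, ?_⟩
  · intro B hB
    obtain ⟨b, hbb, rfl⟩ := exists_gen_of_card_four h2 B hB
    obtain ⟨g, hg⟩ := isConj_iff.mp (isConj_of_mul_self h2 haa hbb)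
    refine ⟨g, ?_⟩
    rw [MonoidHom.map_zpowers]
    congr 1
    exact hg.symm
  · intro hq
    rw [hN, card_normalizer_centralizer h2 a ht, (card_centralizer_of_mul_self hodd haa).1 hq]
  · intro hq
    rw [hN, card_normalizer_centralizer h2 a ht, (card_centralizer_of_mul_self hodd haa).2 hq]
  · intro x y hx hy
    have key : ∀ z : Matrix.ProjectiveSpecialLinearGroup (Fin 2) F, orderOf z = 2 → z ≠ 1 ∧ z ^ 2 = 1 := by
      intro z hz
      refine ⟨?_, ?_⟩
      · rintro rfl
        rw [orderOf_one] at hz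
        norm_num at hz
      · have := pow_orderOf_eq_one z
        rwa [hz] at this
    exact psl2_involutions_conj h2 x y (key x hx).1 (key x hx).2 (key y hy).1 (key y hy).2

end Cfsg.Agent.S0809
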