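import Mathlib
import Cfsg.Statements.S0819

set_option autoImplicit false
open Cfsg

namespace Cfsg.Agent.S0819

open Polynomial Matrix

theorem case_00 {R : Type*} [CommRing R] (X W : R) (h2 : (2 : R) = 0) (hW : W ^ 2 + W + 1 = 0) :
    ∃ Q : R, X ^ 21 - 1 = (X ^ 3 + 0 * X ^ 2 + 0 * X + 1) * Q :=
  ⟨1 * X ^ 0 + 1 * X ^ 3 + 1 * X ^ 6 + 1 * X ^ 9 + 1 * X ^ 12 + 1 * X ^ 15 + 1 * X ^ 18, by
    linear_combination ((-1) * X ^ 0 + (-1) * X ^ 3 + (-1) * X ^ 6 + (-1) * X ^ 9 + (-1) * X ^ 12 + (-1) * X ^ 15 + (-1) * X ^ 18) * h2 + (0) * hW⟩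

theorem case_01 {R : Type*} [CommRing R] (X W : R) (h2 : (2 : R) = 0) (hW : W ^ 2 + W + 1 = 0) :
    ∃ Q : R, X ^ 21 - 1 = (X ^ 3 + 0 * X ^ 2 + 1 * X + 1) * Q :=
  ⟨1 * X ^ 0 + 1 * X ^ 1 + 1 * X ^ 2 + 1 * X ^ 4 + 1 * X ^ 7 + 1 * X ^ 8 + 1 * X ^ 9 + 1 * X ^ 11 + 1 * X ^ 14 + 1 * X ^ 15 + 1 * X ^ 16 + 1 * X ^ 18, by
    linear_combination ((-1) * X ^ 0 + (-1) * X ^ 1 + (-1) * X ^ 2 + (-1) * X ^ 3 + (-1) * X ^ 4 + (-1) * X ^ 5 + (-1) * X ^ 7 + (-1) * X ^ 8 + (-1) * X ^ 9 + (-1) * X ^ 10 + (-1) * X ^ 11 + (-1) * X ^ 12 + (-1) * X ^ 14 + (-1) * X ^ 15 + (-1) * X ^ 16 + (-1) * X ^ 17 + (-1) * X ^ 18 + (-1) * X ^ 19) * h2 + (0) * hW⟩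

theorem case_02 {R : Type*} [CommRing R] (X W : R) (h2 : (2 : R) = 0) (hW : W ^ 2 + W + 1 = 0) :
    ∃ Q : R, X ^ 21 - 1 = (X ^ 3 + 0 * X ^ 2 + W * X + 1) * Q :=
  ⟨1 * X ^ 0 + W * X ^ 1 + (W + 1) * X ^ 2 + W * X ^ 4 + W * X ^ 7 + (W + 1) * X ^ 8 + 1 * X ^ 9 + (W + 1) * X ^ 11 + (W + 1) * X ^ 14 + 1 * X ^ 15 + W * X ^ 16 + 1 * X ^ 18, by
    linear_combination ((-1) * X ^ 0 + (-1) * W * X ^ 1 + (-1) * W * X ^ 4 + (-1) * W * X ^ 7 + (-1) * W * X ^ 10 + (-1) * X ^ 11 + (-1) * W * X ^ 11 + (-1) * X ^ 14 + (-1) * W * X ^ 14 + (-1) * W * X ^ 16 + (-1) * X ^ 18 + (-1) * W * X ^ 19) * h2 + ((-1) * X ^ 2 + (-1) * X ^ 3 + (-1) * X ^ 5 + (-1) * X ^ 8 + (-1) * X ^ 9 + (-1) * X ^ 12 + (-1) * X ^ 15 + (-1) * X ^ 17) * hW⟩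

theorem case_03 {R : Type*} [CommRing R] (X W : R) (h2 : (2 : R) = 0) (hW : W ^ 2 + W + 1 = 0) :
    ∃ Q : R, X ^ 21 - 1 = (X ^ 3 + 0 * X ^ 2 + (W + 1) * X + 1) * Q :=
  ⟨1 * X ^ 0 + (W + 1) * X ^ 1 + W * X ^ 2 + (W + 1) * X ^ 4 + (W + 1) * X ^ 7 + W * X ^ 8 + 1 * X ^ 9 + W * X ^ 11 + W * X ^ 14 + 1 * X ^ 15 + (W + 1) * X ^ 16 + 1 * X ^ 18, by
    linear_combination ((-1) * X ^ 0 + (-1) * X ^ 1 + (-1) * W * X ^ 1 + (-1) * W * X ^ 2 + (-1) * X ^ 4 + (-1) * W * X ^ 4 + (-1) * W * X ^ 5 + (-1) * X ^ 7 + (-1) * W * X ^ 7 + (-1) * W * X ^ 8 + (-1) * X ^ 10 + (-1) * W * X ^ 10 + (-1) * W * X ^ 11 + (-1) * W * X ^ 14 + (-1) * X ^ 16 + (-1) * W * X ^ 16 + (-1) * W * X ^ 17 + (-1) * X ^ 18 + (-1) * X ^ 19 + (-1) * W * X ^ 19) * h2 + ((-1) * X ^ 2 + (-1) * X ^ 3 + (-1) * X ^ 5 + (-1) * X ^ 8 + (-1) * X ^ 9 + (-1) * X ^ 12 + (-1) * X ^ 15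 + (-1) * X ^ 17) * hW⟩

theorem case_10 {R : Type*} [CommRing R] (X W : R) (h2 : (2 : R) = 0) (hW : W ^ 2 + W + 1 = 0) :
    ∃ Q : R, X ^ 21 - 1 = (X ^ 3 + 1 * X ^ 2 + 0 * X + 1) * Q :=
  ⟨1 * X ^ 0 + 1 * X ^ 2 + 1 * X ^ 3 + 1 * X ^ 4 + 1 * X ^ 7 + 1 * X ^ 9 + 1 * X ^ 10 + 1 * X ^ 11 + 1 * X ^ 14 + 1 * X ^ 16 + 1 * X ^ 17 + 1 * X ^ 18, by
    linear_combination ((-1) * X ^ 0 + (-1) * X ^ 2 + (-1) * X ^ 3 + (-1) * X ^ 4 + (-1) * X ^ 5 + (-1) * X ^ 6 + (-1) * X ^ 7 + (-1) * X ^ 9 + (-1) * X ^ 10 + (-1) * X ^ 11 + (-1) * X ^ 12 + (-1) * X ^ 13 + (-1) * X ^ 14 + (-1) * X ^ 16 + (-1) * X ^ 17 + (-1) * X ^ 18 + (-1) * X ^ 19 + (-1) * X ^ 20) * h2 + (0) * hW⟩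

theorem case_11 {R : Type*} [CommRing R] (X W : R) (h2 : (2 : R) = 0) (hW : W ^ 2 + W + 1 = 0) :
    ∃ Q : R, X ^ 12 - 1 = (X ^ 3 + 1 * X ^ 2 + 1 * X + 1) * Q :=
  ⟨1 * X ^ 0 + 1 * X ^ 1 + 1 * X ^ 4 + 1 * X ^ 5 + 1 * X ^ 8 + 1 * X ^ 9, by
    linear_combination ((-1) * X ^ 0 + (-1) * X ^ 1 + (-1) * X ^ 2 + (-1) * X ^ 3 + (-1) * X ^ 4 + (-1) * X ^ 5 + (-1) * X ^ 6 + (-1) * X ^ 7 + (-1) * X ^ 8 + (-1) * X ^ 9 + (-1) * X ^ 10 + (-1) * X ^ 11) * h2 + (0) * hW⟩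

theorem case_12 {R : Type*} [CommRing R] (X W : R) (h2 : (2 : R) = 0) (hW : W ^ 2 + W + 1 = 0) :
    ∃ Q : R, X ^ 5 - (W + 1) = (X ^ 3 + 1 * X ^ 2 + W * X + 1) * Q :=
  ⟨(W + 1) * X ^ 0 + 1 * X ^ 1 + 1 * X ^ 2, by
    linear_combination ((-1) * X ^ 0 + (-1) * W * X ^ 0 + (-1) * X ^ 2 + (-1) * W * X ^ 2 + (-1) * X ^ 3 + (-1) * W * X ^ 3 + (-1) * X ^ 4) * h2 + ((-1) * X ^ 1) * hW⟩

theorem case_13 {R : Type*} [CommRing R] (X W : R) (h2 : (2 : R) = 0) (hW : W ^ 2 + W + 1 = 0) :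
    ∃ Q : R, X ^ 5 - W = (X ^ 3 + 1 * X ^ 2 + (W + 1) * X + 1) * Q :=
  ⟨W * X ^ 0 + 1 * X ^ 1 + 1 * X ^ 2, by
    linear_combination ((-1) * W * X ^ 0 + (-1) * X ^ 2 + (-1) * W * X ^ 2 + (-1) * X ^ 3 + (-1) * W * X ^ 3 + (-1) * X ^ 4) * h2 + ((-1) * X ^ 1) * hW⟩

theorem case_20 {R : Type*} [CommRing R] (X W : R) (h2 : (2 : R) = 0) (hW : W ^ 2 + W + 1 = 0) :
    ∃ Q : R, X ^ 21 - 1 = (X ^ 3 + W * X ^ 2 + 0 * X + 1) * Q :=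
  ⟨1 * X ^ 0 + W * X ^ 2 + 1 * X ^ 3 + (W + 1) * X ^ 4 + (W + 1) * X ^ 7 + 1 * X ^ 9 + (W + 1) * X ^ 10 + W * X ^ 11 + W * X ^ 14 + (W + 1) * X ^ 16 + W * X ^ 17 + 1 * X ^ 18, by
    linear_combination ((-1) * X ^ 0 + (-1) * W * X ^ 2 + (-1) * X ^ 3 + (-1) * W * X ^ 5 + (-1) * X ^ 7 + (-1) * W * X ^ 7 + (-1) * X ^ 10 + (-1) * W * X ^ 10 + (-1) * W * X ^ 11 + (-1) * W * X ^ 14 + (-1) * W * X ^ 17 + (-1) * W * X ^ 20) * h2 + ((-1) * X ^ 4 + (-1) * X ^ 6 + (-1) * X ^ 9 + (-1) * X ^ 12 + (-1) * X ^ 13 + (-1) * X ^ 16 + (-1) * X ^ 18 + (-1) * X ^ 19) * hW⟩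

theorem case_21 {R : Type*} [CommRing R] (X W : R) (h2 : (2 : R) = 0) (hW : W ^ 2 + W + 1 = 0) :
    ∃ Q : R, X ^ 5 - W = (X ^ 3 + W * X ^ 2 + 1 * X + 1) * Q :=
  ⟨W * X ^ 0 + W * X ^ 1 + 1 * X ^ 2, by
    linear_combination ((-1) * W * X ^ 0 + (-1) * W * X ^ 1 + (-1) * W * X ^ 4) * h2 + ((-1) * X ^ 2 + (-1) * X ^ 3) * hW⟩

theorem case_22 {R : Type*} [CommRing R] (X W : R) (h2 : (2 : R) = 0) (hW : W ^ 2 + W + 1 = 0) :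
    ∃ Q : R, X ^ 5 - 1 = (X ^ 3 + W * X ^ 2 + W * X + 1) * Q :=
  ⟨1 * X ^ 0 + W * X ^ 1 + 1 * X ^ 2, by
    linear_combination ((-1) * X ^ 0 + (-1) * W * X ^ 1 + (-1) * W * X ^ 4) * h2 + ((-1) * X ^ 2 + (-1) * X ^ 3) * hW⟩

theorem case_23 {R : Type*} [CommRing R] (X W : R) (h2 : (2 : R) = 0) (hW : W ^ 2 + W + 1 = 0) :
    ∃ Q : R, X ^ 12 - 1 = (X ^ 3 + W * X ^ 2 + (W + 1) * X + 1) * Q :=
  ⟨1 * X ^ 0 + (W + 1) * X ^ 1 + (W + 1) * X ^ 4 + W * X ^ 5 + W * X ^ 8 + 1 * X ^ 9, by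
    linear_combination ((-1) * X ^ 0 + (-1) * X ^ 1 + (-1) * W * X ^ 1 + (-1) * W * X ^ 2 + (-1) * X ^ 4 + (-1) * W * X ^ 4 + (-1) * W * X ^ 5 + (1) * X ^ 6 + (-1) * W * X ^ 8 + (-1) * W * X ^ 11) * h2 + ((-1) * X ^ 2 + (-1) * X ^ 3 + (-1) * X ^ 5 + (-2) * X ^ 6 + (-1) * X ^ 7 + (-1) * X ^ 9 + (-1) * X ^ 10) * hW⟩

theorem case_30 {R : Type*} [CommRing R] (X W : R) (h2 : (2 : R) = 0) (hW : W ^ 2 + W + 1 = 0) :
    ∃ Q : R, X ^ 21 - 1 = (X ^ 3 + (W + 1) * X ^ 2 + 0 * X + 1) * Q :=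
  ⟨1 * X ^ 0 + (W + 1) * X ^ 2 + 1 * X ^ 3 + W * X ^ 4 + W * X ^ 7 + 1 * X ^ 9 + W * X ^ 10 + (W + 1) * X ^ 11 + (W + 1) * X ^ 14 + W * X ^ 16 + (W + 1) * X ^ 17 + 1 * X ^ 18, by
    linear_combination ((-1) * X ^ 0 + (-1) * X ^ 2 + (-1) * W * X ^ 2 + (-1) * X ^ 3 + (-1) * W * X ^ 4 + (-1) * X ^ 5 + (-1) * W * X ^ 5 + (-1) * W * X ^ 7 + (-1) * W * X ^ 10 + (-1) * X ^ 11 + (-1) * W * X ^ 11 + (-1) * W * X ^ 13 + (-1) * X ^ 14 + (-1) * W * X ^ 14 + (-1) * W * X ^ 16 + (-1) * X ^ 17 + (-1) * W * X ^ 17 + (-1) * W * X ^ 19 + (-1) * X ^ 20 + (-1) * W * X ^ 20) * h2 + ((-1) * X ^ 4 + (-1) * X ^ 6 + (-1) * X ^ 9 + (-1) * X ^ 12 + (-1) * X ^ 13 + (-1) * X ^ 16 + (-1) * X ^ 18 + (-1) * X ^ 19) * hW⟩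

theorem case_31 {R : Type*} [CommRing R] (X W : R) (h2 : (2 : R) = 0) (hW : W ^ 2 + W + 1 = 0) :
    ∃ Q : R, X ^ 5 - (W + 1) = (X ^ 3 + (W + 1) * X ^ 2 + 1 * X + 1) * Q :=
  ⟨(W + 1) * X ^ 0 + (W + 1) * X ^ 1 + 1 * X ^ 2, by
    linear_combination ((-1) * X ^ 0 + (-1) * W * X ^ 0 + (-1) * X ^ 1 + (-1) * W * X ^ 1 + (-1) * X ^ 2 + (-1) * W * X ^ 2 + (-1) * X ^ 3 + (-1) * W * X ^ 3 + (-1) * X ^ 4 + (-1) * W * X ^ 4) * h2 + ((-1) * X ^ 2 + (-1) * X ^ 3) * hW⟩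

theorem case_32 {R : Type*} [CommRing R] (X W : R) (h2 : (2 : R) = 0) (hW : W ^ 2 + W + 1 = 0) :
    ∃ Q : R, X ^ 12 - 1 = (X ^ 3 + (W + 1) * X ^ 2 + W * X + 1) * Q :=
  ⟨1 * X ^ 0 + W * X ^ 1 + W * X ^ 4 + (W + 1) * X ^ 5 + (W + 1) * X ^ 8 + 1 * X ^ 9, by
    linear_combination ((-1) * X ^ 0 + (-1) * W * X ^ 1 + (-1) * W * X ^ 4 + (1) * X ^ 6 + (-1) * W * X ^ 7 + (-1) * X ^ 8 + (-1) * W * X ^ 8 + (-1) * W * X ^ 10 + (-1) * X ^ 11 + (-1) * W * X ^ 11) * h2 + ((-1) * X ^ 2 + (-1) * X ^ 3 + (-1) * X ^ 5 + (-2) * X ^ 6 + (-1) * X ^ 7 + (-1) * X ^ 9 + (-1) * X ^ 10) * hW⟩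

theorem case_33 {R : Type*} [CommRing R] (X W : R) (h2 : (2 : R) = 0) (hW : W ^ 2 + W + 1 = 0) :
    ∃ Q : R, X ^ 5 - 1 = (X ^ 3 + (W + 1) * X ^ 2 + (W + 1) * X + 1) * Q :=
  ⟨1 * X ^ 0 + (W + 1) * X ^ 1 + 1 * X ^ 2, by
    linear_combination ((-1) * X ^ 0 + (-1) * X ^ 1 + (-1) * W * X ^ 1 + (-1) * X ^ 2 + (-1) * W * X ^ 2 + (-1) * X ^ 3 + (-1) * W * X ^ 3 + (-1) * X ^ 4 + (-1) * W * X ^ 4) * h2 + ((-1) * X ^ 2 + (-1) * X ^ 3) * hW⟩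


theorem char_two_of_card_four {F : Type*} [Field F] [Fintype F] (hF : Fintype.card F = 4) :
    (2 : F) = 0 := by
  have hchar : CharP F 2 := by
    obtain ⟨p, hp⟩ := CharP.exists F
    obtain ⟨n, hpp, hn⟩ := FiniteField.card F p
    rw [hF] at hn
    have : p ∣ 4 := by rw [hn]; exact dvd_pow_self p n.ne_zero
    have h22 : p ∣ 2 ^ 2 := by simpa using this
    have := (Nat.prime_dvd_prime_iff_eq hpp Nat.prime_two).mp (hpp.dvd_of_dvd_pow h22)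
    rw [this] at hp; exact hp
  exact_mod_cast CharP.cast_eq_zero F 2

theorem exists_omega {F : Type*} [Field F] [Fintype F] (hF : Fintype.card F = 4) :
    ∃ ω : F, ω ^ 2 + ω + 1 = 0 ∧ ∀ x : F, x = 0 ∨ x = 1 ∨ x = ω ∨ x = ω + 1 := by
  classical
  have h2 := char_two_of_card_four hF
  obtain ⟨ω, hω0, hω1⟩ : ∃ ω : F, ω ≠ 0 ∧ ω ≠ 1 := by
    by_contra hcon
    push Not at hcon
    have hsub : (Finset.univ : Finset F) ⊆ {0, 1} := by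
      intro k _
      by_cases h : k = 0
      · simp [h]
      · simp [hcon k h]
    have := Finset.card_le_card hsub
    rw [Finset.card_univ, hF] at this
    have h2 : ({0, 1} : Finset F).card ≤ 2 := Finset.card_le_two
    omega
  have h3 : ω ^ 3 = 1 := by
    have := FiniteField.pow_card_sub_one_eq_one ω hω0
    rwa [hF] at this
  have hω : ω ^ 2 + ω + 1 = 0 := by
    have : (ω - 1) * (ω ^ 2 + ω + 1) = 0 := by linear_combination h3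
    exact (mul_eq_zero.mp this).resolve_left (sub_ne_zero.mpr hω1)
  refine ⟨ω, hω, ?_⟩
  have hcard : ({0, 1, ω, ω + 1} : Finset F).card = 4 := by
    have e1 : ω + 1 ≠ 0 := by
      intro h
      apply hω1
      linear_combination h - h2
    have e2 : ω + 1 ≠ 1 := by
      intro h; apply hω0; linear_combination h
    have e3 : ω + 1 ≠ ω := by
      intro h
      have : (1 : F) = 0 := by linear_combination h
      exact one_ne_zero this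
    rw [Finset.card_insert_of_notMem, Finset.card_insert_of_notMem, Finset.card_insert_of_notMem,
      Finset.card_singleton]
    · simp [e3.symm]
    · simp [hω1.symm, e2.symm]
    · simp [hω0.symm, e1.symm]
  have huniv : ({0, 1, ω, ω + 1} : Finset F) = Finset.univ := by
    apply Finset.eq_univ_of_card
    rw [hcard, hF]
  intro x
  have hx : x ∈ ({0, 1, ω, ω + 1} : Finset F) := by rw [huniv]; exact Finset.mem_univ x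
  simpa using hx

theorem main_poly {F : Type*} [Field F] (ω a b : F) (h2 : (2 : F) = 0) (hω : ω ^ 2 + ω + 1 = 0)
    (ha : a = 0 ∨ a = 1 ∨ a = ω ∨ a = ω + 1) (hb : b = 0 ∨ b = 1 ∨ b = ω ∨ b = ω + 1) :
    ∃ (n : ℕ) (t : F) (Q : F[X]), (n = 21 ∨ n = 12 ∨ n = 5) ∧
      X ^ n - C t = (X ^ 3 + C a * X ^ 2 + C b * X + 1) * Q := by
  have h2' : (2 : F[X]) = 0 := by
    have h : (2 : F[X]) = C 2 := (map_ofNat C 2).symm
    rw [h, h2, map_zero]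
  have hW' : (C ω : F[X]) ^ 2 + C ω + 1 = 0 := by
    have := congrArg (C : F → F[X]) hω
    simpa using this
  rcases ha with ha | ha | ha | ha
  all_goals rcases hb with hb | hb | hb | hb
  all_goals rw [ha, hb]
  · obtain ⟨Q, hQ⟩ := case_00 (X : F[X]) (C ω) h2' hW'
    exact ⟨21, 1, Q, Or.inl rfl, by simpa only [map_zero, map_one, map_add] using hQ⟩
  · obtain ⟨Q, hQ⟩ := case_01 (X : F[X]) (C ω) h2' hW'
    exact ⟨21, 1, Q, Or.inl rfl, by simpa only [map_zero, map_one, map_add] using hQ⟩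
  · obtain ⟨Q, hQ⟩ := case_02 (X : F[X]) (C ω) h2' hW'
    exact ⟨21, 1, Q, Or.inl rfl, by simpa only [map_zero, map_one, map_add] using hQ⟩
  · obtain ⟨Q, hQ⟩ := case_03 (X : F[X]) (C ω) h2' hW'
    exact ⟨21, 1, Q, Or.inl rfl, by simpa only [map_zero, map_one, map_add] using hQ⟩
  · obtain ⟨Q, hQ⟩ := case_10 (X : F[X]) (C ω) h2' hW'
    exact ⟨21, 1, Q, Or.inl rfl, by simpa only [map_zero, map_one, map_add] using hQ⟩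
  · obtain ⟨Q, hQ⟩ := case_11 (X : F[X]) (C ω) h2' hW'
    exact ⟨12, 1, Q, Or.inr (Or.inl rfl), by simpa only [map_zero, map_one, map_add] using hQ⟩
  · obtain ⟨Q, hQ⟩ := case_12 (X : F[X]) (C ω) h2' hW'
    exact ⟨5, (ω + 1), Q, Or.inr (Or.inr rfl), by simpa only [map_zero, map_one, map_add] using hQ⟩
  · obtain ⟨Q, hQ⟩ := case_13 (X : F[X]) (C ω) h2' hW'
    exact ⟨5, ω, Q, Or.inr (Or.inr rfl), by simpa only [map_zero, map_one, map_add] using hQ⟩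
  · obtain ⟨Q, hQ⟩ := case_20 (X : F[X]) (C ω) h2' hW'
    exact ⟨21, 1, Q, Or.inl rfl, by simpa only [map_zero, map_one, map_add] using hQ⟩
  · obtain ⟨Q, hQ⟩ := case_21 (X : F[X]) (C ω) h2' hW'
    exact ⟨5, ω, Q, Or.inr (Or.inr rfl), by simpa only [map_zero, map_one, map_add] using hQ⟩
  · obtain ⟨Q, hQ⟩ := case_22 (X : F[X]) (C ω) h2' hW'
    exact ⟨5, 1, Q, Or.inr (Or.inr rfl), by simpa only [map_zero, map_one, map_add] using hQ⟩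
  · obtain ⟨Q, hQ⟩ := case_23 (X : F[X]) (C ω) h2' hW'
    exact ⟨12, 1, Q, Or.inr (Or.inl rfl), by simpa only [map_zero, map_one, map_add] using hQ⟩
  · obtain ⟨Q, hQ⟩ := case_30 (X : F[X]) (C ω) h2' hW'
    exact ⟨21, 1, Q, Or.inl rfl, by simpa only [map_zero, map_one, map_add] using hQ⟩
  · obtain ⟨Q, hQ⟩ := case_31 (X : F[X]) (C ω) h2' hW'
    exact ⟨5, (ω + 1), Q, Or.inr (Or.inr rfl), by simpa only [map_zero, map_one, map_add] using hQ⟩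
  · obtain ⟨Q, hQ⟩ := case_32 (X : F[X]) (C ω) h2' hW'
    exact ⟨12, 1, Q, Or.inr (Or.inl rfl), by simpa only [map_zero, map_one, map_add] using hQ⟩
  · obtain ⟨Q, hQ⟩ := case_33 (X : F[X]) (C ω) h2' hW'
    exact ⟨5, 1, Q, Or.inr (Or.inr rfl), by simpa only [map_zero, map_one, map_add] using hQ⟩

theorem charpoly_form {F : Type*} [Field F] (h2 : (2 : F) = 0) (A : Matrix (Fin 3) (Fin 3) F)
    (hdet : A.det = 1) :
    A.charpoly = X ^ 3 + C (A.charpoly.coeff 2) * X ^ 2 + C (A.charpoly.coeff 1) * X + 1 := by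
  have hdeg : A.charpoly.natDegree = 3 := by
    rw [Matrix.charpoly_natDegree_eq_dim, Fintype.card_fin]
  have hmon : A.charpoly.coeff 3 = 1 := by
    have := (Matrix.charpoly_monic A).coeff_natDegree
    rwa [hdeg] at this
  have h0 : A.charpoly.coeff 0 = 1 := by
    have := Matrix.det_eq_sign_charpoly_coeff A
    rw [hdet, Fintype.card_fin] at this
    have hneg : (-1 : F) = 1 := by linear_combination -h2
    rw [hneg, one_pow, one_mul] at this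
    exact this.symm
  conv_lhs => rw [A.charpoly.as_sum_range_C_mul_X_pow, hdeg]
  simp only [Finset.sum_range_succ, Finset.sum_range_zero, hmon, h0]
  simp
  ring

theorem matrix_key {F : Type*} [Field F] [Fintype F] (hF : Fintype.card F = 4)
    (A : Matrix (Fin 3) (Fin 3) F) (hdet : A.det = 1) :
    ∃ (n : ℕ) (t : F), (n = 21 ∨ n = 12 ∨ n = 5) ∧ A ^ n = Matrix.scalar (Fin 3) t := by
  have h2 := char_two_of_card_four hF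
  obtain ⟨ω, hω, hall⟩ := exists_omega hF
  obtain ⟨n, t, Q, hn, hQ⟩ := main_poly ω (A.charpoly.coeff 2) (A.charpoly.coeff 1) h2 hω
    (hall _) (hall _)
  rw [← charpoly_form h2 A hdet] at hQ
  refine ⟨n, t, hn, ?_⟩
  have h := congrArg (Polynomial.aeval A) hQ
  rw [map_mul, Matrix.aeval_self_charpoly, zero_mul, map_sub, map_pow, Polynomial.aeval_X,
    Polynomial.aeval_C, sub_eq_zero] at h
  rw [h]
  rfl

theorem result {F : Type*} [Field F] [Fintype F] (hF : Fintype.card F = 4) (g : Matrix.ProjectiveSpecialLinearGroup (Fin 3) F) : orderOf g ≠ 15 := by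
  intro ho
  obtain ⟨g0, rfl⟩ := QuotientGroup.mk_surjective g
  obtain ⟨n, t, hn, hA⟩ := matrix_key hF (g0 : Matrix (Fin 3) (Fin 3) F) g0.2
  have hc : g0 ^ n ∈ Subgroup.center (Matrix.SpecialLinearGroup (Fin 3) F) := by
    rw [Matrix.SpecialLinearGroup.mem_center_iff]
    refine ⟨t, ?_, ?_⟩
    · have h1 : ((g0 : Matrix (Fin 3) (Fin 3) F) ^ n).det = 1 := by
        rw [Matrix.det_pow, g0.2, one_pow]
      rw [hA] at h1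
      simpa using h1
    · rw [Matrix.SpecialLinearGroup.coe_pow, hA]
  have h1 : (QuotientGroup.mk g0 : Matrix.ProjectiveSpecialLinearGroup (Fin 3) F) ^ n = 1 := by
    rw [← QuotientGroup.mk_pow]
    exact (QuotientGroup.eq_one_iff _).mpr hc
  have h2 := orderOf_dvd_of_pow_eq_one h1
  rw [ho] at h2
  rcases hn with rfl | rfl | rfl <;> omega

end Cfsg.Agent.S0819
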