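import Mathlib
import Cfsg.Statements.S0839
import Cfsg.Agent.H6.Transv

set_option autoImplicit false
open Cfsg

namespace Cfsg.Agent.S0839

open Matrix

theorem result {F : Type*} [Field F] (n : ℕ) (t : Matrix.SpecialLinearGroup (Fin (n + 2)) F) (ht : Cfsg.IsTransvection (t : Matrix (Fin (n + 2)) (Fin (n + 2)) F)) : ∃ (g : Matrix.SpecialLinearGroup (Fin (n + 2)) F) (v : Fin (n + 2) → F), v 0 = 0 ∧ ((g⁻¹ * t * g : Matrix.SpecialLinearGroup (Fin (n + 2)) F) : Matrix (Fin (n + 2)) (Fin (n + 2)) F) = 1 + Matrix.vecMulVec v (Pi.single 0 1) := by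
  obtain ⟨hrank, hsq⟩ := ht
  obtain ⟨u, w, hu, hw, hN⟩ := H6.exists_vecMulVec_of_rank_one _ hrank
  have htt : (t : Matrix (Fin (n + 2)) (Fin (n + 2)) F) = 1 + vecMulVec u w := by
    rw [← hN]; abel
  -- w ⬝ u = 0
  have hwu : w ⬝ᵥ u = 0 := by
    rw [hN, Matrix.vecMulVec_mul_vecMulVec] at hsq
    rw [Matrix.vecMulVec_eq_zero] at hsq
    rcases hsq with h | h
    · exact absurd h hu
    · by_contra hne
      apply hw
      have := congrArg (fun z => (w ⬝ᵥ u)⁻¹ • z) h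
      simpa [smul_smul, inv_mul_cancel₀ hne] using this
  obtain ⟨h, a, ha, hh⟩ := H6.exists_SL_mulVec_eq w hw (0 : Fin (n + 2))
  set g : Matrix.SpecialLinearGroup (Fin (n + 2)) F := h.transpose with hg
  have hwg : w ᵥ* (g : Matrix (Fin (n + 2)) (Fin (n + 2)) F) = a • Pi.single 0 1 := by
    rw [hg, Matrix.SpecialLinearGroup.coe_transpose, Matrix.vecMul_transpose, hh]
  set u' := ((g⁻¹ : Matrix.SpecialLinearGroup (Fin (n + 2)) F) : Matrix (Fin (n + 2)) (Fin (n + 2)) F) *ᵥ u with hu'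
  refine ⟨g, a • u', ?_, ?_⟩
  · -- (w g) ⬝ (g⁻¹ u) = w ⬝ u = 0
    have h1 : (w ᵥ* (g : Matrix (Fin (n + 2)) (Fin (n + 2)) F)) ⬝ᵥ u' = 0 := by
      rw [hu', ← Matrix.dotProduct_mulVec, Matrix.mulVec_mulVec, ← Matrix.SpecialLinearGroup.coe_mul,
        mul_inv_cancel, Matrix.SpecialLinearGroup.coe_one, Matrix.one_mulVec, hwu]
    rw [hwg] at h1
    simpa using h1
  · rw [H6.conj_one_add_vecMulVec g t u w htt, hwg, Matrix.vecMulVec_smul, Matrix.smul_vecMulVec]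

end Cfsg.Agent.S0839
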