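import Mathlib
import Cfsg.Statements.S0820
import Cfsg.Agent.H6.Transv
import Cfsg.Agent.S0839

set_option autoImplicit false
open Cfsg

namespace Cfsg.Agent.S0820

open Matrix

/-- the standard transvection matrix -/
def T0 (F : Type*) [Field F] : Matrix (Fin 3) (Fin 3) F :=
  1 + vecMulVec (Pi.single 1 1) (Pi.single 0 1)

theorem conj_to_T0_aux {F : Type*} [Field F] (t : Matrix.SpecialLinearGroup (Fin 3) F)
    (v : Fin 3 → F) (hv0 : v 0 = 0) (hv : v ≠ 0)
    (ht : (t : Matrix (Fin 3) (Fin 3) F) = 1 + vecMulVec v (Pi.single 0 1)) :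
    ∃ h : Matrix.SpecialLinearGroup (Fin 3) F,
      ((h⁻¹ * t * h : Matrix.SpecialLinearGroup (Fin 3) F) : Matrix (Fin 3) (Fin 3) F) = T0 F := by
  -- it suffices to find h with first row e₀ and second column v
  suffices hs : ∃ h : Matrix.SpecialLinearGroup (Fin 3) F,
      (Pi.single 0 1 : Fin 3 → F) ᵥ* (h : Matrix (Fin 3) (Fin 3) F) = Pi.single 0 1 ∧
      (h : Matrix (Fin 3) (Fin 3) F) *ᵥ (Pi.single 1 1) = v by
    obtain ⟨h, h1, h2⟩ := hs
    refine ⟨h, ?_⟩
    rw [H6.conj_one_add_vecMulVec h t v _ ht, h1, ← h2, Matrix.mulVec_mulVec,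
      ← Matrix.SpecialLinearGroup.coe_mul, inv_mul_cancel, Matrix.SpecialLinearGroup.coe_one,
      Matrix.one_mulVec]
    rfl
  by_cases h1 : v 1 = 0
  · have h2 : v 2 ≠ 0 := by
      intro h2
      apply hv
      funext i
      fin_cases i
      · exact hv0
      · exact h1
      · exact h2
    refine ⟨⟨!![1, 0, 0; 0, 0, -(v 2)⁻¹; 0, v 2, 0], ?_⟩, ?_, ?_⟩
    · rw [Matrix.det_fin_three]
      simp [h2]
    · funext i
      fin_cases i <;> simp [Matrix.vecMul, dotProduct, Fin.sum_univ_three]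
    · funext i
      fin_cases i <;> simp [Matrix.mulVec, dotProduct, Fin.sum_univ_three, hv0, h1]
  · refine ⟨⟨!![1, 0, 0; 0, v 1, 0; 0, v 2, (v 1)⁻¹], ?_⟩, ?_, ?_⟩
    · rw [Matrix.det_fin_three]
      simp [h1]
    · funext i
      fin_cases i <;> simp [Matrix.vecMul, dotProduct, Fin.sum_univ_three]
    · funext i
      fin_cases i <;> simp [Matrix.mulVec, dotProduct, Fin.sum_univ_three, hv0]

theorem conj_to_T0 {F : Type*} [Field F] (t : Matrix.SpecialLinearGroup (Fin 3) F)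
    (ht : Cfsg.IsTransvection (t : Matrix (Fin 3) (Fin 3) F)) :
    ∃ g : Matrix.SpecialLinearGroup (Fin 3) F,
      ((g⁻¹ * t * g : Matrix.SpecialLinearGroup (Fin 3) F) : Matrix (Fin 3) (Fin 3) F) = T0 F := by
  obtain ⟨g, v, hv0, hg⟩ : ∃ (g : Matrix.SpecialLinearGroup (Fin 3) F) (v : Fin 3 → F), v 0 = 0 ∧
      ((g⁻¹ * t * g : Matrix.SpecialLinearGroup (Fin 3) F) : Matrix (Fin 3) (Fin 3) F)
        = 1 + Matrix.vecMulVec v (Pi.single 0 1) := S0839.result (F := F) 1 t ht
  have hv : v ≠ 0 := by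
    intro hv
    rw [hv] at hg
    simp only [Matrix.zero_vecMulVec, add_zero] at hg
    have h1 : g⁻¹ * t * g = 1 := Subtype.ext hg
    have h2 : t = 1 := by
      have : t = g * (g⁻¹ * t * g) * g⁻¹ := by group
      rw [this, h1]; group
    have h3 := ht.1
    rw [h2] at h3
    simp at h3
  obtain ⟨h, hh⟩ := conj_to_T0_aux (g⁻¹ * t * g) v hv0 hv hg
  refine ⟨g * h, ?_⟩
  have e : (g * h)⁻¹ * t * (g * h) = h⁻¹ * (g⁻¹ * t * g) * h := by
    simp only [_root_.mul_inv_rev, mul_assoc]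
  rw [e, hh]

theorem isConj_of_isTransvection {F : Type*} [Field F] (s t : Matrix.SpecialLinearGroup (Fin 3) F)
    (hs : Cfsg.IsTransvection (s : Matrix (Fin 3) (Fin 3) F))
    (ht : Cfsg.IsTransvection (t : Matrix (Fin 3) (Fin 3) F)) : IsConj s t := by
  obtain ⟨g, hg⟩ := conj_to_T0 s hs
  obtain ⟨h, hh⟩ := conj_to_T0 t ht
  have heq : g⁻¹ * s * g = h⁻¹ * t * h := Subtype.ext (hg.trans hh.symm)
  rw [isConj_iff]
  refine ⟨h * g⁻¹, ?_⟩
  have : t = h * (h⁻¹ * t * h) * h⁻¹ := by group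
  rw [this, ← heq]
  group

theorem exists_transvection_lift {F : Type*} [Field F] [Fintype F] (hF : Fintype.card F = 4)
    (x : Matrix.ProjectiveSpecialLinearGroup (Fin 3) F) (hx : orderOf x = 2) :
    ∃ g : Matrix.SpecialLinearGroup (Fin 3) F,
      (QuotientGroup.mk g : Matrix.ProjectiveSpecialLinearGroup (Fin 3) F) = x ∧
      Cfsg.IsTransvection (g : Matrix (Fin 3) (Fin 3) F) := by
  obtain ⟨g0, rfl⟩ := QuotientGroup.mk_surjective x
  have hx2 : (QuotientGroup.mk g0 : Matrix.ProjectiveSpecialLinearGroup (Fin 3) F) ^ 2 = 1 := by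
    rw [← hx]; exact pow_orderOf_eq_one _
  have hx1 : (QuotientGroup.mk g0 : Matrix.ProjectiveSpecialLinearGroup (Fin 3) F) ≠ 1 := by
    intro h
    rw [h, orderOf_one] at hx
    omega
  have hc : g0 ^ 2 ∈ Subgroup.center (Matrix.SpecialLinearGroup (Fin 3) F) := by
    rw [← QuotientGroup.eq_one_iff, QuotientGroup.mk_pow]; exact hx2
  obtain ⟨r, hr3, hr⟩ := Matrix.SpecialLinearGroup.mem_center_iff.mp hc
  rw [Fintype.card_fin] at hr3
  -- the scalar matrix `r`
  let z : Matrix.SpecialLinearGroup (Fin 3) F := ⟨Matrix.scalar (Fin 3) r, by simp [hr3]⟩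
  have hz : z ∈ Subgroup.center (Matrix.SpecialLinearGroup (Fin 3) F) :=
    Matrix.SpecialLinearGroup.mem_center_iff.mpr ⟨r, by rw [Fintype.card_fin]; exact hr3, rfl⟩
  have hzg : z = g0 ^ 2 := Subtype.ext hr
  have hz3 : z ^ 3 = 1 := by
    apply Subtype.ext
    show ((z ^ 3 : Matrix.SpecialLinearGroup (Fin 3) F) : Matrix (Fin 3) (Fin 3) F) = 1
    rw [Matrix.SpecialLinearGroup.coe_pow]
    show (Matrix.scalar (Fin 3) r) ^ 3 = 1
    rw [← map_pow, hr3, map_one]
  set g := z * g0 with hg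
  have hg2 : g * g = 1 := by
    have hcomm : g0 * z = z * g0 := Subgroup.mem_center_iff.mp hz g0
    calc g * g = z * (g0 * z) * g0 := by rw [hg]; group
      _ = z * (z * g0) * g0 := by rw [hcomm]
      _ = z * z * (g0 ^ 2) := by rw [pow_two]; simp only [mul_assoc]
      _ = z ^ 3 := by rw [← hzg, pow_succ, pow_two]
      _ = 1 := hz3
  have hmk : (QuotientGroup.mk g : Matrix.ProjectiveSpecialLinearGroup (Fin 3) F) = QuotientGroup.mk g0 := by
    rw [hg, QuotientGroup.mk_mul, (QuotientGroup.eq_one_iff z).mpr hz, one_mul]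
  have hg1 : g ≠ 1 := by
    intro h
    apply hx1
    rw [← hmk, h]; rfl
  -- characteristic two
  have h2 : (2 : F) = 0 := by
    have hchar : CharP F 2 := by
      obtain ⟨p, hp⟩ := CharP.exists F
      obtain ⟨n, hpp, hn⟩ := FiniteField.card F p
      rw [hF] at hn
      have : p ∣ 4 := by rw [hn]; exact dvd_pow_self p n.ne_zero
      have h22 : p ∣ 2 ^ 2 := by simpa using this
      have := (Nat.prime_dvd_prime_iff_eq hpp Nat.prime_two).mp (hpp.dvd_of_dvd_pow h22)
      rw [this] at hp; exact hp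
    exact_mod_cast CharP.cast_eq_zero F 2
  set A : Matrix (Fin 3) (Fin 3) F := (g : Matrix (Fin 3) (Fin 3) F) with hA
  have hAA : A * A = 1 := by
    rw [hA, ← Matrix.SpecialLinearGroup.coe_mul, hg2, Matrix.SpecialLinearGroup.coe_one]
  have hsq : (A - 1) * (A - 1) = 0 := by
    have : (A - 1) * (A - 1) = A * A - (2 : F) • A + 1 := by
      rw [two_smul]; noncomm_ring
    rw [this, hAA, h2, zero_smul, sub_zero]
    have : (1 : Matrix (Fin 3) (Fin 3) F) + 1 = (2 : F) • 1 := by rw [two_smul]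
    rw [this, h2, zero_smul]
  refine ⟨g, hmk, ?_, hsq⟩
  have hle := Matrix.rank_add_rank_le_card_of_mul_eq_zero hsq
  rw [Fintype.card_fin] at hle
  have hne : (A - 1).rank ≠ 0 := by
    intro h0
    apply hg1
    apply Subtype.ext
    have : A - 1 = 0 := by
      have h1 : Module.finrank F (LinearMap.range (A - 1).mulVecLin) = 0 := h0
      rw [Submodule.finrank_eq_zero, LinearMap.range_eq_bot] at h1
      have h2 : Matrix.toLin' (A - 1) = 0 := h1
      exact (LinearEquiv.map_eq_zero_iff _).mp h2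
    show A = 1
    exact sub_eq_zero.mp this
  show (A - 1).rank = 1
  omega

theorem result {F : Type*} [Field F] [Fintype F] (hF : Fintype.card F = 4) (x y : Matrix.ProjectiveSpecialLinearGroup (Fin 3) F) (hx : orderOf x = 2) (hy : orderOf y = 2) : IsConj x y := by
  obtain ⟨g, rfl, hg⟩ := exists_transvection_lift hF x hx
  obtain ⟨h, rfl, hh⟩ := exists_transvection_lift hF y hy
  exact (QuotientGroup.mk' _).map_isConj (isConj_of_isTransvection g h hg hh)

end Cfsg.Agent.S0820
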