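import Mathlib
import Cfsg.Statements.S0823
import Cfsg.Agent.H14.Omega3
import Cfsg.Agent.S1012

set_option autoImplicit false
open Cfsg

namespace Cfsg.Agent.S0823

open Cfsg.Agent.H14

theorem det_N3 {F : Type*} [Field F] (g : Matrix (Fin 2) (Fin 2) F) : (N3 g).det = g.det ^ 3 := by
  simp [N3, Matrix.det_fin_three, Matrix.det_fin_two]
  ring

theorem det_Phi3 {F : Type*} [Field F] (g : GL (Fin 2) F) :
    ((Phi3 g).1 : Matrix (Fin 3) (Fin 3) F).det = 1 := by
  rw [Phi3_coe, Matrix.det_smul, det_N3, Fintype.card_fin]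
  have := det_ne_zero' g
  field_simp

theorem Phi3_of_scal {F : Type*} [Field F] (g : GL (Fin 2) F) (c : F)
    (h : (g : Matrix (Fin 2) (Fin 2) F) = c • 1) : Phi3 g = 1 := by
  apply Subtype.ext
  apply Units.ext
  show ((Phi3 g).1 : Matrix (Fin 3) (Fin 3) F) = 1
  have hd := det_ne_zero' g
  rw [Phi3_coe]
  rw [h] at hd ⊢
  have hc : c ≠ 0 := by
    rintro rfl
    simp at hd
  ext i j
  fin_cases i <;> fin_cases j <;>
    simp [N3, Matrix.det_fin_two, Matrix.one_apply] <;> field_simp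

/-- SO_3(3) ≅ S_4: the determinant-one isometries of the form x_0² + x_1y_1 over the field with 3 elements form a group isomorphic to the symmetric group on 4 letters. -/
theorem result {F : Type*} [Field F] [Fintype F] (hF : Fintype.card F = 3) : Nonempty (↥(Cfsg.specialIsometryGroup F (Cfsg.quadFormOdd 1 F)) ≃* Equiv.Perm (Fin 4)) := by
  classical
  have hodd : Odd (Fintype.card F) := by rw [hF]; decide
  have h012 : ∀ x : F, x = 0 ∨ x = 1 ∨ x = -1 := by
    intro x
    by_cases hx : x = 0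
    · exact Or.inl hx
    · right
      have := FiniteField.pow_card_sub_one_eq_one x hx
      rw [hF] at this
      exact sq_eq_one_iff.mp this
  have h2 : (2 : F) ≠ 0 := by
    apply Ring.two_ne_zero
    intro hc
    have := FiniteField.even_card_of_char_two hc
    rcases hodd with ⟨k, hk⟩
    omega
  have h3 : (3 : F) = 0 := by
    have := Nat.cast_card_eq_zero F
    rw [hF] at this
    exact_mod_cast this
  set H := Cfsg.specialIsometryGroup F (Cfsg.quadFormOdd 1 F) with hH
  have hdetE : ∀ x : Cfsg.isometryGroup F (Cfsg.quadFormOdd 1 F),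
      ((E3 x).1 : Matrix (Fin 3) (Fin 3) F).det = (x.1 : Matrix (Unit ⊕ (Fin 1 ⊕ Fin 1)) (Unit ⊕ (Fin 1 ⊕ Fin 1)) F).det := by
    intro x
    show ((x.1 : Matrix (Unit ⊕ (Fin 1 ⊕ Fin 1)) (Unit ⊕ (Fin 1 ⊕ Fin 1)) F).submatrix idx3.symm idx3.symm).det = _
    rw [Matrix.det_submatrix_equiv_self]
  have hmemH : ∀ x : Cfsg.isometryGroup F (Cfsg.quadFormOdd 1 F), x ∈ H ↔
      (x.1 : Matrix (Unit ⊕ (Fin 1 ⊕ Fin 1)) (Unit ⊕ (Fin 1 ⊕ Fin 1)) F).det = 1 := by
    intro x
    rw [hH, Cfsg.specialIsometryGroup, MonoidHom.mem_ker]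
    constructor
    · intro h
      have := congrArg Units.val h
      simpa using this
    · intro h
      apply Units.ext
      simpa using h
  have hmap : H.map (E3 (F := F)).toMonoidHom = (Phi3 (F := F)).range := by
    ext y
    constructor
    · rintro ⟨x, hx, rfl⟩
      have hx' := (hmemH x).mp hx
      rw [← hdetE] at hx'
      obtain ⟨g, hg | hg⟩ := cover_Phi3 hodd h2 (E3 x)
      · exact ⟨g, hg.symm⟩
      · exfalso
        rw [hg] at hx'
        have e : ((negOne3 * Phi3 g : Cfsg.isometryGroup F (Q3 (F := F))).1 : Matrix (Fin 3) (Fin 3) F)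
            = ((negOne3 (F := F)).1 : Matrix (Fin 3) (Fin 3) F) * ((Phi3 g).1 : Matrix (Fin 3) (Fin 3) F) := rfl
        rw [e, Matrix.det_mul, det_Phi3, negOne3_coe, Matrix.det_smul, Fintype.card_fin] at hx'
        simp at hx'
        apply h2
        linear_combination -hx'
    · rintro ⟨g, rfl⟩
      refine ⟨E3.symm (Phi3 g), ?_, by simp⟩
      rw [SetLike.mem_coe, hmemH, ← hdetE, MulEquiv.apply_symm_apply, det_Phi3]
  have hO : Nat.card (Cfsg.isometryGroup F (Q3 (F := F))) = 48 := by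
    rw [← Nat.card_congr (E3 (F := F)).toEquiv, Cfsg.Agent.S0286.result rfl hodd 1]
    simp [hF]
  have hcard : Nat.card H = 24 := by
    have e1 : Nat.card (H.map (E3 (F := F)).toMonoidHom) = Nat.card H :=
      Subgroup.card_map_of_injective (E3 (F := F)).injective
    have e2 := Subgroup.card_mul_index (Phi3 (F := F)).range
    rw [index_range_Phi3 hodd h2, hO, ← hmap, e1] at e2
    omega
  apply Cfsg.Agent.S1012.result hcard
  intro x hx6
  have hxm : E3 (x : Cfsg.isometryGroup F (Cfsg.quadFormOdd 1 F)) ∈ (Phi3 (F := F)).range := by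
    rw [← hmap]
    exact ⟨x, x.2, rfl⟩
  obtain ⟨g, hg⟩ := hxm
  have ho : orderOf (Phi3 g) = 6 := by
    rw [hg, MulEquiv.orderOf_eq, Subgroup.orderOf_coe, hx6]
  -- Cayley-Hamilton
  have hCH : (g : Matrix (Fin 2) (Fin 2) F) * (g : Matrix (Fin 2) (Fin 2) F) =
      (g : Matrix (Fin 2) (Fin 2) F).trace • (g : Matrix (Fin 2) (Fin 2) F)
        - (g : Matrix (Fin 2) (Fin 2) F).det • 1 := by
    ext i j
    fin_cases i <;> fin_cases j <;>
      simp [Matrix.mul_apply, Fin.sum_univ_two, Matrix.trace_fin_two, Matrix.det_fin_two] <;> ring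
  have hd := det_ne_zero' g
  obtain ⟨M, hM⟩ : ∃ M : Matrix (Fin 2) (Fin 2) F, M = (g : Matrix (Fin 2) (Fin 2) F) := ⟨_, rfl⟩
  obtain ⟨t, ht⟩ : ∃ t : F, t = M.trace := ⟨_, rfl⟩
  obtain ⟨d, hdd⟩ : ∃ d : F, d = M.det := ⟨_, rfl⟩
  rw [← hM, ← ht, ← hdd] at hCH
  rw [← hM, ← hdd] at hd
  have key : ∃ k : ℕ, (k = 2 ∨ k = 3 ∨ k = 4) ∧ ∃ c : F, M ^ k = c • 1 := by
    have hp3 : M ^ 3 = (t ^ 2 - d) • M - (t * d) • 1 := by
      rw [pow_succ, pow_two, hCH]
      simp only [sub_mul, smul_mul_assoc, one_mul, hCH]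
      module
    have hp4 : M ^ 4 = (t ^ 3 - 2 * t * d) • M + (d ^ 2 - t ^ 2 * d) • 1 := by
      rw [show (4 : ℕ) = 2 + 2 from rfl, pow_add, pow_two, hCH]
      simp only [sub_mul, mul_sub, smul_mul_assoc, mul_smul_comm, one_mul, mul_one, hCH]
      module
    have hcase : t = 0 ∨ t ^ 2 = 1 := by
      rcases h012 t with h | h | h
      · exact Or.inl h
      · right; rw [h]; ring
      · right; rw [h]; ring
    rcases hcase with rfl | ht1
    · exact ⟨2, Or.inl rfl, -d, by rw [pow_two, hCH]; simp⟩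
    · rcases h012 d with h | h | h
      · exact absurd h hd
      · refine ⟨3, Or.inr (Or.inl rfl), -t, ?_⟩
        rw [hp3, ht1, h]
        simp
      · refine ⟨4, Or.inr (Or.inr rfl), 2, ?_⟩
        rw [hp4, h]
        have e1 : t ^ 3 - 2 * t * (-1) = 0 := by linear_combination t * ht1 + t * h3
        have e2 : (-1 : F) ^ 2 - t ^ 2 * (-1) = 2 := by linear_combination ht1
        rw [e1, e2]
        simp
  obtain ⟨k, hk, c, hc⟩ := key
  have h1 : (Phi3 g) ^ k = 1 := by
    rw [← map_pow]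
    apply Phi3_of_scal _ c
    rw [Units.val_pow_eq_pow_val, ← hM, hc]
  have := orderOf_dvd_of_pow_eq_one h1
  rw [ho] at this
  rcases hk with rfl | rfl | rfl <;> omega

end Cfsg.Agent.S0823
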