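import Mathlib
import Cfsg.Agent.Lib.Helper18.Quad9
import Cfsg.Statements.S0824
-- import your own Cfsg.Agent.* helpers here

set_option autoImplicit false
open Cfsg Cfsg.Agent.Lib.Helper18

namespace Cfsg.Agent.S0824

/-- O⁻_4(2) ≅ S_5: the isometry group of the form x y + z_1² + z_1 z_2 + z_2² over the field with 2 elements is isomorphic to the symmetric group on 5 letters. -/
theorem result {F : Type*} [Field F] [Fintype F] (hF : Fintype.card F = 2) : Nonempty (↥(Cfsg.isometryGroup F (Cfsg.quadFormMinus 1 F 1 1)) ≃* Equiv.Perm (Fin 5)) := by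
  have h2 := two_eq_zero_of_card hF
  have h11 : (1 : F) + 1 = 0 := by rw [← h2]; norm_num
  have hab := aniso_one_one hF
  apply mulEquiv_perm_of_injective (isoSingHom (Cfsg.quadFormMinus 1 F 1 1)) ?_ 5 ?_ ?_
  · apply isoSingHom_injective
    have he1 : (Pi.single (Sum.inl (Sum.inl 0)) 1 : (Fin 1 ⊕ Fin 1) ⊕ Fin 2 → F) ∈
        Submodule.span F {v : (Fin 1 ⊕ Fin 1) ⊕ Fin 2 → F | v ≠ 0 ∧
          Cfsg.quadFormMinus 1 F 1 1 v = 0} := by
      apply Submodule.subset_span
      refine ⟨?_, ?_⟩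
      · simp
      · simp [Cfsg.quadFormMinus, Pi.single_apply]
    have he2 : (Pi.single (Sum.inl (Sum.inr 0)) 1 : (Fin 1 ⊕ Fin 1) ⊕ Fin 2 → F) ∈
        Submodule.span F {v : (Fin 1 ⊕ Fin 1) ⊕ Fin 2 → F | v ≠ 0 ∧
          Cfsg.quadFormMinus 1 F 1 1 v = 0} := by
      apply Submodule.subset_span
      refine ⟨?_, ?_⟩
      · simp
      · simp [Cfsg.quadFormMinus, Pi.single_apply]
    have hs : ∀ k : Fin 2, (Pi.single (Sum.inl (Sum.inl 0)) 1 + Pi.single (Sum.inl (Sum.inr 0)) 1
        + Pi.single (Sum.inr k) 1 : (Fin 1 ⊕ Fin 1) ⊕ Fin 2 → F) ∈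
        Submodule.span F {v : (Fin 1 ⊕ Fin 1) ⊕ Fin 2 → F | v ≠ 0 ∧
          Cfsg.quadFormMinus 1 F 1 1 v = 0} := by
      intro k
      apply Submodule.subset_span
      refine ⟨?_, ?_⟩
      · intro h
        have := congrFun h (Sum.inr k)
        simp [Pi.single_apply] at this
      · fin_cases k <;> simp [Cfsg.quadFormMinus, Pi.single_apply, h11]
    rintro ((i | i) | k)
    · fin_cases i
      exact he1
    · fin_cases i
      exact he2
    · have := Submodule.sub_mem _ (Submodule.sub_mem _ (hs k) he1) he2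
      convert this using 1
      abel
  · have := card_singular_minus 1 1 1 hab
    rw [hF] at this
    simp [oSeq] at this
    exact this
  · rw [card_isometry_minus 1 1 hab, hF]
    simp [oSeq]
    decide

end Cfsg.Agent.S0824
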