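import Mathlib
import Cfsg.Agent.Lib.Helper18.Symp3
import Cfsg.Statements.S0828
-- import your own Cfsg.Agent.* helpers here

set_option autoImplicit false
open Cfsg

namespace Cfsg.Agent.S0828

/-- The symplectic generalised quadrangle over a field with q elements: the number of 2-dimensional subspaces of F^4 on which the symplectic form vanishes is (q + 1)(q² + 1), and every non-zero vector lies in exactly q + 1 of them. -/
theorem result {F : Type*} [Field F] [Fintype F] {q : ℕ} (hF : Fintype.card F = q) : Nat.card {W : Submodule F (Fin 2 ⊕ Fin 2 → F) // Module.finrank F W = 2 ∧ ∀ u ∈ W, ∀ v ∈ W, Cfsg.sympForm 2 F u v = 0} = (q + 1) * (q ^ 2 + 1) ∧ ∀ v : Fin 2 ⊕ Fin 2 → F, v ≠ 0 → Nat.card {W : Submodule F (Fin 2 ⊕ Fin 2 → F) // Module.finrank F W = 2 ∧ v ∈ W ∧ ∀ u ∈ W, ∀ w ∈ W, Cfsg.sympForm 2 F u w = 0} = q + 1 := by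
  have hq : 1 < q := by rw [← hF]; exact Fintype.one_lt_card
  have e1 : 1 ≤ q ^ 2 := Nat.one_le_pow _ _ (by omega)
  have e4 : 1 ≤ q ^ 4 := Nat.one_le_pow _ _ (by omega)
  have e0 : 1 ≤ q := by omega
  have hJ : q * (q * (q ^ 2 - 1) + q) = q ^ (2 * 2) := by
    zify [e1]
    ring
  constructor
  · have key := Cfsg.Agent.Lib.Helper18.symp_card_ti2 (F := F) (m := 2) (q * (q ^ 2 - 1))
      (by rw [hF]; exact hJ)
    rw [hF, Fin.prod_univ_two] at key
    simp only [Fin.val_zero, pow_zero, Fin.val_one, pow_one] at key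
    have e5 : q ^ 2 - q = q * (q - 1) := by
      rw [Nat.mul_sub, mul_one, pow_two]
    rw [e5] at key
    have hpos : 0 < (q ^ 2 - 1) * (q * (q - 1)) := by
      have h2 : 1 < q ^ 2 := Nat.one_lt_pow (by norm_num) hq
      have : 0 < q ^ 2 - 1 := by omega
      have : 0 < q - 1 := by omega
      positivity
    apply Nat.eq_of_mul_eq_mul_right hpos
    rw [key]
    have e6 : 1 ≤ q ^ (2 * 2) := Nat.one_le_pow _ _ (by omega)
    zify [e1, e0, e6]
    ring
  · intro v hv
    have key := Cfsg.Agent.Lib.Helper18.symp_card_ti2_through v hv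
    have h2 := Cfsg.Agent.Lib.Helper18.symp_card_perp_off v hv
    rw [hF] at key h2
    rw [← hJ] at h2
    have h3 := Nat.eq_of_mul_eq_mul_left (by omega) h2
    have h4 := Nat.add_right_cancel h3
    rw [h4] at key
    have e5 : q ^ 2 - q = q * (q - 1) := by
      rw [Nat.mul_sub, mul_one, pow_two]
    rw [e5] at key
    have hpos : 0 < q * (q - 1) := by
      have : 0 < q - 1 := by omega
      positivity
    apply Nat.eq_of_mul_eq_mul_right hpos
    rw [key]
    zify [e1, e0]
    ring

end Cfsg.Agent.S0828
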