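import Mathlib
import Cfsg.Agent.Lib.Helper18.Herm6
import Cfsg.Agent.S0285
import Cfsg.Statements.S0830
-- import your own Cfsg.Agent.* helpers here

set_option autoImplicit false
open Cfsg

namespace Cfsg.Agent.S0830

/-- The unitary quadrangle of PSU_5(q): with |F| = q², the number of 2-dimensional subspaces of F^5 on which the Hermitian form vanishes is (q³ + 1)(q⁵ + 1). -/
theorem result {F : Type*} [Field F] [Fintype F] {q : ℕ} (hF : Fintype.card F = q ^ 2) : Nat.card {W : Submodule F (Fin 5 → F) // Module.finrank F W = 2 ∧ ∀ u ∈ W, ∀ v ∈ W, Cfsg.hermForm 5 F q u v = 0} = (q ^ 3 + 1) * (q ^ 5 + 1) := by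
  have hq := Cfsg.Agent.Lib.Helper18.herm_q_pos hF
  have hA := Cfsg.Agent.S0285.result hF 5
  rw [if_neg (by decide)] at hA
  simp only [Nat.reduceSub] at hA
  have e1 : 1 ≤ q ^ 4 := Nat.one_le_pow _ _ (by omega)
  have e2 : 1 ≤ q ^ 2 := Nat.one_le_pow _ _ (by omega)
  have key := Cfsg.Agent.Lib.Helper18.herm_card_ti2 hF (n := 5) (q ^ 2 * (q ^ 2 - 1) * (q ^ 3 + 1)) (by
    rw [hA]
    zify [e1, e2]
    ring)
  rw [hA, Nat.add_sub_cancel, Fin.prod_univ_two] at key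
  have e3 : (q ^ 2) ^ 2 - (q ^ 2) ^ ((0 : Fin 2) : ℕ) = q ^ 4 - 1 := by
    simp only [Fin.val_zero, pow_zero]
    rw [← pow_mul]
  have e4 : (q ^ 2) ^ 2 - (q ^ 2) ^ ((1 : Fin 2) : ℕ) = q ^ 2 * (q ^ 2 - 1) := by
    simp only [Fin.val_one, pow_one]
    rw [Nat.mul_sub, mul_one, pow_two (q ^ 2)]
  rw [e3, e4] at key
  have hpos : 0 < (q ^ 4 - 1) * (q ^ 2 * (q ^ 2 - 1)) := by
    have h1 : 1 < q ^ 4 := Nat.one_lt_pow (by norm_num) hq
    have h2 : 1 < q ^ 2 := Nat.one_lt_pow (by norm_num) hq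
    have : 0 < q ^ 4 - 1 := by omega
    have : 0 < q ^ 2 - 1 := by omega
    positivity
  apply Nat.eq_of_mul_eq_mul_right hpos
  rw [key]
  ring

end Cfsg.Agent.S0830
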