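import Cfsg.Statements.S0831
import Cfsg.Agent.Lib.Helper15.Families
import Cfsg.Agent.Lib.Helper15.WittIdx

set_option autoImplicit false
open Cfsg

namespace Cfsg.Agent.S0831


open Module QuadraticMap Cfsg.Agent.Lib.Helper15


/-- The two families of maximal totally singular subspaces of the hyperbolic quadric: for the form Σ x_i y_i on F^(2m), m ≥ 1, and m-dimensional subspaces U, W, X on which it vanishes, the parities of m − dim(U ∩ W), m − dim(W ∩ X) and m − dim(U ∩ X) sum to an even number (so 'even codimension of the intersection' is an equivalence relation), and there exist two such subspaces meeting in codimension 1 (so there are exactly two classes). -/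
theorem result {F : Type*} [Field F] (m : ℕ) (hm : 1 ≤ m) : (∀ U W X : Submodule F (Fin m ⊕ Fin m → F), (Module.finrank F U = m ∧ ∀ w ∈ U, Cfsg.quadFormPlus m F w = 0) → (Module.finrank F W = m ∧ ∀ w ∈ W, Cfsg.quadFormPlus m F w = 0) → (Module.finrank F X = m ∧ ∀ w ∈ X, Cfsg.quadFormPlus m F w = 0) → Even ((m - Module.finrank F ↥(U ⊓ W)) + (m - Module.finrank F ↥(W ⊓ X)) + (m - Module.finrank F ↥(U ⊓ X)))) ∧ ∃ U W : Submodule F (Fin m ⊕ Fin m → F), (Module.finrank F U = m ∧ ∀ w ∈ U, Cfsg.quadFormPlus m F w = 0) ∧ (Module.finrank F W = m ∧ ∀ w ∈ W, Cfsg.quadFormPlus m F w = 0) ∧ Module.finrank F ↥(U ⊓ W) + 1 = m := by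
  have hQ : ND (plusQ m F) := nd_of_nondegenerate (plusQ_nondegenerate m)
  have hV : finrank F (Fin m ⊕ Fin m → F) = 2 * m := by
    rw [finrank_fintype_fun_eq_card]; simp; ring
  rw [← coe_plusQ]
  constructor
  · intro U W X hU hW hX
    exact even_three (plusQ m F) hQ hV U W X hU.2 hW.2 hX.2 hU.1 hW.1 hX.1
  · have hts : ∀ u ∈ plusTS m F, plusQ m F u = 0 := by
      intro u hu; rw [coe_plusQ]; exact plusTS_ts m u hu
    obtain ⟨a, ha⟩ : ∃ a, plusQ m F a ≠ 0 := by
      refine ⟨fun k => Sum.elim (fun i => if i = ⟨0, hm⟩ then 1 else 0) (fun i => if i = ⟨0, hm⟩ then 1 else 0) k, ?_⟩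
      rw [coe_plusQ]
      unfold Cfsg.quadFormPlus
      simp
    exact ⟨plusTS m F, (plusTS m F).map (rL (plusQ m F) a), ⟨finrank_plusTS m, hts⟩,
      ⟨(finrank_map_rL _ _ ha).trans (finrank_plusTS m), ts_map_rL _ _ hts ha⟩,
      finrank_inf_map_rL _ hQ hV _ hts (finrank_plusTS m) ha⟩

end Cfsg.Agent.S0831
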