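import Cfsg.Statements.S0832
import Cfsg.Agent.Lib.Helper15.Families2

set_option autoImplicit false
open Cfsg

namespace Cfsg.Agent.S0832


open Module QuadraticMap Cfsg.Agent.Lib.Helper15


/-- For the form Σ x_i y_i on F^(2m) over a finite field, m ≥ 1: an (m−1)-dimensional subspace on which the form vanishes is contained in exactly two m-dimensional subspaces on which it vanishes. -/
theorem result {F : Type*} [Field F] [Finite F] (m : ℕ) (hm : 1 ≤ m) (U : Submodule F (Fin m ⊕ Fin m → F)) (hU : Module.finrank F U + 1 = m ∧ ∀ u ∈ U, Cfsg.quadFormPlus m F u = 0) : Nat.card {W : Submodule F (Fin m ⊕ Fin m → F) // Module.finrank F W = m ∧ (∀ w ∈ W, Cfsg.quadFormPlus m F w = 0) ∧ U ≤ W} = 2 := by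
  have hQ : ND (plusQ m F) := nd_of_nondegenerate (plusQ_nondegenerate m)
  have hV : finrank F (Fin m ⊕ Fin m → F) = 2 * m := by
    rw [finrank_fintype_fun_eq_card]; simp; ring
  revert hU
  rw [← coe_plusQ]
  intro hU
  have hts : ∀ u ∈ plusTS m F, plusQ m F u = 0 := by
    intro u hu; rw [coe_plusQ]; exact plusTS_ts m u hu
  obtain ⟨W₀, h1, h2, h3⟩ := exists_half_ts_ge (plusQ m F) hQ hV (plusTS m F) hts (finrank_plusTS m) U hU.2
  obtain ⟨W₁, k1, k2, k3, k4, -, k5⟩ := two_max_ts (plusQ m F) hQ hV U hU.1 W₀ h2 h3 h1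
  rw [Nat.card_eq_two_iff]
  refine ⟨⟨W₀, h3, h2, h1⟩, ⟨W₁, k2, k1, k3⟩, ?_, ?_⟩
  · intro h
    exact k4 (congrArg Subtype.val h).symm
  · ext ⟨W, hW1, hW2, hW3⟩
    simp only [Set.mem_insert_iff, Set.mem_singleton_iff, Set.mem_univ, iff_true, Subtype.mk.injEq]
    exact k5 W hW2 hW1 hW3

end Cfsg.Agent.S0832
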