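import Mathlib
import Cfsg.Statements.S0833
import Cfsg.Agent.H6.Forms

set_option autoImplicit false
open Cfsg

namespace Cfsg.Agent.S0833

attribute [local ext] TensorProduct.ext in
theorem tmul_isSymm_of_alt {F U W : Type*} [Field F] [AddCommGroup U] [Module F U]
    [AddCommGroup W] [Module F W] (B₁ : LinearMap.BilinForm F U) (B₂ : LinearMap.BilinForm F W)
    (hA₁ : B₁.IsAlt) (hA₂ : B₂.IsAlt) : (B₁.tmul B₂).IsSymm := by
  rw [LinearMap.isSymm_iff_eq_flip]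
  ext x₁ x₂ y₁ y₂
  show B₂ x₂ y₂ • B₁ x₁ y₁ = B₂ y₂ x₂ • B₁ y₁ x₁
  rw [← hA₁.neg_eq y₁ x₁, ← hA₂.neg_eq y₂ x₂]
  simp

theorem result {F U W : Type*} [Field F] [Fintype F] [AddCommGroup U] [Module F U] [FiniteDimensional F U] [AddCommGroup W] [Module F W] [FiniteDimensional F W] (B₁ : LinearMap.BilinForm F U) (B₂ : LinearMap.BilinForm F W) (h₁ : B₁.Nondegenerate) (h₂ : B₂.Nondegenerate) (hA₁ : B₁.IsAlt) (hA₂ : B₂.IsAlt) (k l : ℕ) (hU : Module.finrank F U = 2 * k) (hW : Module.finrank F W = 2 * l) : (B₁.tmul B₂).IsSymm ∧ (B₁.tmul B₂).Nondegenerate ∧ (∃ X : Submodule F (TensorProduct F U W), Module.finrank F X = 2 * k * l ∧ ∀ x ∈ X, ∀ y ∈ X, (B₁.tmul B₂) x y = 0) := by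
  refine ⟨tmul_isSymm_of_alt B₁ B₂ hA₁ hA₂, H6.tmul_nondegenerate B₁ B₂ h₁ h₂, ?_⟩
  obtain ⟨L, hL, hiso⟩ := H6.exists_isotropic_of_alt B₁ h₁ hA₁ k hU k le_rfl
  obtain ⟨X, hX, hX0⟩ := H6.exists_isotropic_tmul_left B₁ B₂ L hiso
  refine ⟨X, ?_, hX0⟩
  rw [hX, hL, hW]; ring

end Cfsg.Agent.S0833
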