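import Mathlib
import Cfsg.Agent.Lib.Helper18.TensorType
import Cfsg.Statements.S0834
-- import your own Cfsg.Agent.* helpers here

set_option autoImplicit false
open Cfsg Cfsg.Agent.Lib.Helper18

namespace Cfsg.Agent.S0834

/-- Over a finite field with 2 ≠ 0: if B₁ on U (dim 2k, k ≥ 1) and B₂ on W (dim 2l, l ≥ 1) are non-degenerate symmetric forms admitting no totally isotropic subspaces of dimensions k, resp. l (minus type), then B₁ ⊗ B₂ admits a totally isotropic subspace of dimension 2kl (plus type). -/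
theorem result {F U W : Type*} [Field F] [Fintype F] [AddCommGroup U] [Module F U] [FiniteDimensional F U] [AddCommGroup W] [Module F W] [FiniteDimensional F W] (h2 : (2 : F) ≠ 0) (B₁ : LinearMap.BilinForm F U) (B₂ : LinearMap.BilinForm F W) (h₁ : B₁.Nondegenerate) (h₂ : B₂.Nondegenerate) (hS₁ : B₁.IsSymm) (hS₂ : B₂.IsSymm) (k l : ℕ) (hk : 1 ≤ k) (hl : 1 ≤ l) (hU : Module.finrank F U = 2 * k) (hW : Module.finrank F W = 2 * l) (hm₁ : ¬ (∃ X : Submodule F (U), Module.finrank F X = k ∧ ∀ x ∈ X, ∀ y ∈ X, (B₁) x y = 0)) (hm₂ : ¬ (∃ X : Submodule F (W), Module.finrank F X = l ∧ ∀ x ∈ X, ∀ y ∈ X, (B₂) x y = 0)) : (∃ X : Submodule F (TensorProduct F U W), Module.finrank F X = 2 * k * l ∧ ∀ x ∈ X, ∀ y ∈ X, (B₁.tmul B₂) x y = 0) := by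
  classical
  let b := Module.finBasisOfFinrankEq F U hU
  let c := Module.finBasisOfFinrankEq F W hW
  have hsymm : LinearMap.BilinForm.IsSymm (B₁.tmul B₂) :=
    LinearMap.BilinForm.isSymm_iff.2 (LinearMap.IsSymm.tmul
      (LinearMap.BilinForm.isSymm_iff.1 hS₁) (LinearMap.BilinForm.isSymm_iff.1 hS₂))
  have hd1 := (LinearMap.BilinForm.nondegenerate_iff_det_ne_zero b).1 h₁
  have hd2 := (LinearMap.BilinForm.nondegenerate_iff_det_ne_zero c).1 h₂
  have hnd : (B₁.tmul B₂).Nondegenerate :=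
    (LinearMap.BilinForm.nondegenerate_iff_det_ne_zero (b.tensorProduct c)).2 (by
      rw [det_toMatrix_tmul]
      exact mul_ne_zero (pow_ne_zero _ hd1) (pow_ne_zero _ hd2))
  have hfin : Module.finrank F (TensorProduct F U W) = 2 * (2 * k * l) := by
    rw [Module.finrank_tensorProduct, hU, hW]
    ring
  have hpos : 1 ≤ 2 * k * l := by
    have : 1 ≤ k * l := Nat.mul_pos hk hl
    nlinarith
  refine exists_lagrangian_of_isSquare h2 hpos hfin _ hsymm hnd (b.tensorProduct c) ?_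
  rw [det_toMatrix_tmul, Fintype.card_fin, Fintype.card_fin]
  refine ⟨(LinearMap.BilinForm.toMatrix b B₁).det ^ l * (LinearMap.BilinForm.toMatrix c B₂).det ^ k, ?_⟩
  have : (-1 : F) ^ (2 * k * l) = 1 := by
    rw [mul_assoc, pow_mul]
    simp
  rw [this]
  ring

end Cfsg.Agent.S0834
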