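import Mathlib
import Cfsg.Agent.Lib.Helper18.TensorType
import Cfsg.Statements.S0835
-- import your own Cfsg.Agent.* helpers here

set_option autoImplicit false
open Cfsg Cfsg.Agent.Lib.Helper18

namespace Cfsg.Agent.S0835

/-- Over a finite field with 2 ≠ 0: if B₁ on U (dim 2k, k ≥ 1) is non-degenerate symmetric of minus type (no totally isotropic k-subspace) and B₂ on W (dim 2l + 1) is non-degenerate symmetric, then B₁ ⊗ B₂ (dimension 2k(2l+1)) admits no totally isotropic subspace of dimension k(2l+1) (minus type). -/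
theorem result {F U W : Type*} [Field F] [Fintype F] [AddCommGroup U] [Module F U] [FiniteDimensional F U] [AddCommGroup W] [Module F W] [FiniteDimensional F W] (h2 : (2 : F) ≠ 0) (B₁ : LinearMap.BilinForm F U) (B₂ : LinearMap.BilinForm F W) (h₁ : B₁.Nondegenerate) (h₂ : B₂.Nondegenerate) (hS₁ : B₁.IsSymm) (hS₂ : B₂.IsSymm) (k l : ℕ) (hk : 1 ≤ k) (hU : Module.finrank F U = 2 * k) (hW : Module.finrank F W = 2 * l + 1) (hm₁ : ¬ (∃ X : Submodule F (U), Module.finrank F X = k ∧ ∀ x ∈ X, ∀ y ∈ X, (B₁) x y = 0)) : ¬ (∃ X : Submodule F (TensorProduct F U W), Module.finrank F X = k * (2 * l + 1) ∧ ∀ x ∈ X, ∀ y ∈ X, (B₁.tmul B₂) x y = 0) := by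
  classical
  rintro ⟨X, hX, hX0⟩
  let b := Module.finBasisOfFinrankEq F U hU
  let c := Module.finBasisOfFinrankEq F W hW
  have hsymm : LinearMap.BilinForm.IsSymm (B₁.tmul B₂) :=
    LinearMap.BilinForm.isSymm_iff.2 (LinearMap.IsSymm.tmul
      (LinearMap.BilinForm.isSymm_iff.1 hS₁) (LinearMap.BilinForm.isSymm_iff.1 hS₂))
  have hd1 := (LinearMap.BilinForm.nondegenerate_iff_det_ne_zero b).1 h₁
  have hd2 := (LinearMap.BilinForm.nondegenerate_iff_det_ne_zero c).1 h₂
  have hfin : Module.finrank F (TensorProduct F U W) = 2 * (k * (2 * l + 1)) := by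
    rw [Module.finrank_tensorProduct, hU, hW]
    ring
  have hsq := isSquare_disc_of_lagrangian hfin (B₁.tmul B₂) hsymm (b.tensorProduct c) X hX hX0
  rw [det_toMatrix_tmul, Fintype.card_fin, Fintype.card_fin] at hsq
  apply hm₁
  apply exists_lagrangian_of_isSquare h2 hk hU B₁ hS₁ h₁ b
  have e : (-1 : F) ^ (k * (2 * l + 1)) * ((LinearMap.BilinForm.toMatrix b B₁).det ^ (2 * l + 1)
      * (LinearMap.BilinForm.toMatrix c B₂).det ^ (2 * k))
      = (((-1) ^ k * (LinearMap.BilinForm.toMatrix b B₁).det) ^ l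
        * (LinearMap.BilinForm.toMatrix c B₂).det ^ k) ^ 2
        * ((-1) ^ k * (LinearMap.BilinForm.toMatrix b B₁).det) := by
    rw [pow_mul]
    ring
  rw [e, Cfsg.Agent.Lib.Helper15.isSquare_sq_mul_iff (mul_ne_zero (pow_ne_zero _
    (mul_ne_zero (pow_ne_zero _ (by simp)) hd1)) (pow_ne_zero _ hd2))] at hsq
  exact hsq

end Cfsg.Agent.S0835
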