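import Mathlib
import Cfsg.Statements.S0836

set_option autoImplicit false
open Cfsg

namespace Cfsg.Agent.S0836

open Matrix Matrix.SpecialLinearGroup
open scoped commutatorElement MatrixGroups

theorem comm_three {F : Type*} [Field F] {ι : Type*} [Fintype ι] [DecidableEq ι] {i j k : ι}
    (hij : i ≠ j) (hik : i ≠ k) (hkj : k ≠ j) (c : F) :
    ⁅SpecialLinearGroup.transvection hik c, SpecialLinearGroup.transvection hkj (1 : F)⁆
      = SpecialLinearGroup.transvection hij c := by
  rw [commutatorElement_def, SpecialLinearGroup.transvection_inv, SpecialLinearGroup.transvection_inv]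
  refine Subtype.ext ?_
  simp [SpecialLinearGroup.transvection_coe, mul_add, add_mul,
    Matrix.single_mul_single_of_ne _ _ _ _ hij.symm, Matrix.single_mul_single_of_ne _ _ _ _ hik.symm,
    Matrix.single_mul_single_of_ne _ _ _ _ hkj.symm, ← Matrix.single_neg]
  abel

theorem comm_two_10 {F : Type*} [Field F] (a : F) (ha : a ≠ 0) (b c' : F) (hc : c' = b * (a ^ 2 - 1)) :
      ⁅diag2 a⁻¹ (inv_ne_zero ha), SpecialLinearGroup.transvection one_ne_zero b⁆ =
      (SpecialLinearGroup.transvection one_ne_zero c' : SL(2, F)) := by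
  rw [commutatorElement_def, diag2_inv a⁻¹ (inv_ne_zero ha),
    SpecialLinearGroup.transvection_inv one_ne_zero b]
  refine Subtype.ext <| Matrix.ext fun i j ↦ ?_
  fin_cases i <;> fin_cases j <;>
  simp [hc, SpecialLinearGroup.transvection_coe, diag2_coe, inv_inv, mul_add, add_mul,
    mul_inv_cancel₀ ha, inv_mul_cancel₀ ha, mul_comm a b, mul_assoc b a a, ← pow_two,
    mul_sub_one, ← sub_eq_add_neg]

theorem result {F : Type*} [Field F] (n : ℕ) (hn : 3 ≤ n ∨ (n = 2 ∧ ∃ x : F, x ≠ 0 ∧ x ^ 2 ≠ 1)) (i j : Fin n) (hij : i ≠ j) (c : F) (t : Matrix.SpecialLinearGroup (Fin n) F) (ht : (t : Matrix (Fin n) (Fin n) F) = Matrix.transvection i j c) : t ∈ commutatorSet (Matrix.SpecialLinearGroup (Fin n) F) := by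
  have ht' : t = SpecialLinearGroup.transvection hij c := Subtype.ext ht
  rw [ht']
  rcases hn with hn | ⟨rfl, a, ha, hasq⟩
  · obtain ⟨k, hki, hkj⟩ : ∃ k : Fin n, k ≠ i ∧ k ≠ j := by
      by_contra hcon
      push Not at hcon
      have hsub : (Finset.univ : Finset (Fin n)) ⊆ {i, j} := by
        intro k _
        by_cases h : k = i
        · simp [h]
        · simp [hcon k h]
      have := Finset.card_le_card hsub
      rw [Finset.card_univ, Fintype.card_fin] at this
      have h2 : ({i, j} : Finset (Fin n)).card ≤ 2 := Finset.card_le_two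
      omega
    exact ⟨_, _, comm_three hij hki.symm hkj c⟩
  · have hne : a ^ 2 - 1 ≠ 0 := sub_ne_zero_of_ne hasq
    fin_cases i
    · obtain rfl : j = 1 := by fin_cases j <;> tauto
      exact ⟨_, _, commutator_diag2_transvection a ha (c / (a ^ 2 - 1)) c (div_mul_cancel₀ c hne).symm⟩
    · obtain rfl : j = 0 := by fin_cases j <;> tauto
      exact ⟨_, _, comm_two_10 a ha (c / (a ^ 2 - 1)) c (div_mul_cancel₀ c hne).symm⟩

end Cfsg.Agent.S0836
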