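import Cfsg.Statements.S2623
import Cfsg.Agent.S0756
import Cfsg.Agent.Lib.Helper15.Disc

set_option autoImplicit false
open Cfsg

namespace Cfsg.Agent.S2623

open Module QuadraticMap Cfsg.Agent.Lib.Helper15


/-- Over a finite field of odd order, two quadratic forms on F^n with non-degenerate polar forms are isometric (related by an invertible linear change of variables) if and only if their discriminants (determinants of the Gram matrices of their polar forms) lie in the same square class. -/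
theorem result {F : Type*} [Field F] [Fintype F] (h2 : (2 : F) ≠ 0) {n : ℕ} (Q₁ Q₂ : QuadraticForm F (Fin n → F)) (h₁ : (QuadraticMap.polarBilin Q₁).Nondegenerate) (h₂ : (QuadraticMap.polarBilin Q₂).Nondegenerate) : (∃ g : (Fin n → F) ≃ₗ[F] (Fin n → F), ∀ v, Q₂ (g v) = Q₁ v) ↔ IsSquare ((Matrix.of (fun i j : Fin n => QuadraticMap.polar ⇑Q₁ (Pi.single i 1) (Pi.single j 1))).det * (Matrix.of (fun i j : Fin n => QuadraticMap.polar ⇑Q₂ (Pi.single i 1) (Pi.single j 1))).det) := by
  let b := Pi.basisFun F (Fin n)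
  have e1 : ∀ Q : QuadraticForm F (Fin n → F), Matrix.of (fun i j : Fin n => QuadraticMap.polar ⇑Q (Pi.single i 1) (Pi.single j 1)) = gram Q b := by
    intro Q; ext i j; simp [gram, b]
  rw [e1, e1]
  constructor
  · rintro ⟨g, hg⟩
    have h1 := det_gram_map Q₁ Q₂ (g : (Fin n → F) →ₗ[F] (Fin n → F)) 1 (by simpa using hg) b
    obtain ⟨d, hd, h3⟩ := det_gram_change Q₂ b (b.map g)
    have h4 : (⇑(b.map g) : Fin n → Fin n → F) = (g : (Fin n → F) →ₗ[F] (Fin n → F)) ∘ b := by
      funext i; simp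
    rw [h4, h1] at h3
    simp only [one_pow, one_mul] at h3
    rw [h3]
    exact ⟨d * (gram Q₂ b).det, by ring⟩
  · intro hsq
    rcases Nat.eq_zero_or_pos n with rfl | hn
    · refine ⟨LinearEquiv.refl _ _, fun v => ?_⟩
      have : v = 0 := Subsingleton.elim _ _
      rw [this, LinearEquiv.map_zero, QuadraticMap.map_zero, QuadraticMap.map_zero]
    obtain ⟨k, rfl⟩ : ∃ k, n = k + 1 := ⟨n - 1, by omega⟩
    have hchar : ringChar F ≠ 2 := by
      intro h
      apply h2
      have : CharP F 2 := h ▸ ringChar.charP F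
      exact CharTwo.two_eq_zero
    obtain ⟨α, hα⟩ := FiniteField.exists_nonsquare hchar
    have hsymm : ∀ Q : QuadraticForm F (Fin (k + 1) → F), LinearMap.BilinForm.IsSymm (polarBilin Q) := by
      intro Q
      exact ⟨fun x y => by simp [polar_comm]⟩
    obtain ⟨b₁, ha1, hb1, hc1⟩ := Cfsg.Agent.S0756.result h2 (polarBilin Q₁) (hsymm Q₁) h₁ (n := k) (by simp) α hα
    obtain ⟨b₂, ha2, hb2, hc2⟩ := Cfsg.Agent.S0756.result h2 (polarBilin Q₂) (hsymm Q₂) h₂ (n := k) (by simp) α hα
    simp only [polarBilin_apply_apply] at ha1 hb1 hc1 ha2 hb2 hc2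
    have hdet : ∀ (Q : QuadraticForm F (Fin (k + 1) → F)) (b' : Basis (Fin (k + 1)) F (Fin (k + 1) → F)),
        (∀ i j, i ≠ j → polar Q (b' i) (b' j) = 0) → (∀ i, i ≠ Fin.last k → polar Q (b' i) (b' i) = 1) →
        (gram Q b').det = polar Q (b' (Fin.last k)) (b' (Fin.last k)) := by
      intro Q b' h h'
      have : gram Q b' = Matrix.diagonal (fun i => polar Q (b' i) (b' i)) := by
        ext i j
        by_cases hij : i = j
        · subst hij; simp [gram]
        · simp [gram, hij, h i j hij]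
      rw [this, Matrix.det_diagonal, Fin.prod_univ_castSucc]
      rw [Finset.prod_eq_one, one_mul]
      intro i _
      exact h' _ (Fin.castSucc_lt_last i).ne
    obtain ⟨d₁, hd1, hD1⟩ := det_gram_change Q₁ b b₁
    obtain ⟨d₂, hd2, hD2⟩ := det_gram_change Q₂ b b₂
    rw [hdet Q₁ b₁ ha1 hb1] at hD1
    rw [hdet Q₂ b₂ ha2 hb2] at hD2
    have hsq2 : IsSquare (polar Q₁ (b₁ (Fin.last k)) (b₁ (Fin.last k)) * polar Q₂ (b₂ (Fin.last k)) (b₂ (Fin.last k))) := by
      obtain ⟨r, hr⟩ := hsq
      refine ⟨d₁ * d₂ * r, ?_⟩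
      rw [hD1, hD2]
      linear_combination (d₁ ^ 2 * d₂ ^ 2) * hr
    have heq : polar Q₁ (b₁ (Fin.last k)) (b₁ (Fin.last k)) = polar Q₂ (b₂ (Fin.last k)) (b₂ (Fin.last k)) := by
      rcases hc1 with h | h <;> rcases hc2 with h' | h'
      · rw [h, h']
      · rw [h, h', one_mul] at hsq2; exact absurd hsq2 hα
      · rw [h, h', mul_one] at hsq2; exact absurd hsq2 hα
      · rw [h, h']
    have hpol : ∀ i j, polar Q₂ (b₂ i) (b₂ j) = polar Q₁ (b₁ i) (b₁ j) := by
      intro i j
      by_cases hij : i = j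
      · subst hij
        by_cases hi : i = Fin.last k
        · subst hi; exact heq.symm
        · rw [hb1 i hi, hb2 i hi]
      · rw [ha1 i j hij, ha2 i j hij]
    let g := b₁.equiv b₂ (Equiv.refl _)
    have hg : ∀ i, g (b₁ i) = b₂ i := fun i => by simp [g]
    refine ⟨g, fun v => ?_⟩
    have := comp_eq_smul_of_basis b₁ Q₁ Q₂ (g : (Fin (k + 1) → F) →ₗ[F] (Fin (k + 1) → F)) 1 ?_ ?_ v
    · simpa using this
    · intro i
      have h3 := hpol i i
      rw [polar_self, polar_self] at h3
      simp only [LinearEquiv.coe_coe, hg, one_mul]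
      simp only [nsmul_eq_mul, Nat.cast_ofNat] at h3
      exact mul_left_cancel₀ h2 h3
    · intro i j
      simp only [LinearEquiv.coe_coe, hg, one_mul]
      exact hpol i j

end Cfsg.Agent.S2623
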