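import Mathlib
import Cfsg.Agent.S2623
import Cfsg.Statements.S0838
-- import your own Cfsg.Agent.* helpers here

set_option autoImplicit false
open Cfsg Cfsg.Agent.Lib.Helper15

namespace Cfsg.Agent.S0838

/-- Over a finite field with 2 ≠ 0 and n odd: two quadratic forms Q₁, Q₂ on F^n with non-degenerate polar forms are similar — there are an invertible linear map g and a scalar c ≠ 0 with Q₂ (g v) = c · Q₁ v for all v. -/
theorem result {F : Type*} [Field F] [Fintype F] (h2 : (2 : F) ≠ 0) {n : ℕ} (hn : Odd n) (Q₁ Q₂ : QuadraticForm F (Fin n → F)) (h₁ : (QuadraticMap.polarBilin Q₁).Nondegenerate) (h₂ : (QuadraticMap.polarBilin Q₂).Nondegenerate) : ∃ (g : (Fin n → F) ≃ₗ[F] (Fin n → F)) (c : F), c ≠ 0 ∧ ∀ v, Q₂ (g v) = c * Q₁ v := by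
  classical
  let b := Pi.basisFun F (Fin n)
  have e1 : ∀ Q : QuadraticForm F (Fin n → F), Matrix.of (fun i j : Fin n =>
      QuadraticMap.polar ⇑Q (Pi.single i 1) (Pi.single j 1)) = gram Q b := by
    intro Q; ext i j; simp [gram, b]
  have hd1 := det_gram_ne_zero Q₁ h₁ b
  have hd2 := det_gram_ne_zero Q₂ h₂ b
  obtain ⟨c, hc⟩ : ∃ c, c = (gram Q₁ b).det * (gram Q₂ b).det := ⟨_, rfl⟩
  have hc0 : c ≠ 0 := by
    rw [hc]
    exact mul_ne_zero hd1 hd2
  have hg : gram (c • Q₁) b = c • gram Q₁ b := by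
    ext i j
    simp only [gram, Matrix.of_apply, Matrix.smul_apply, smul_eq_mul, QuadraticMap.polar,
      _root_.smul_apply]
    ring
  have hnd : (QuadraticMap.polarBilin (c • Q₁)).Nondegenerate := by
    refine (LinearMap.BilinForm.nondegenerate_iff_det_ne_zero b).2 ?_
    rw [← gram_eq_toMatrix, hg, Matrix.det_smul]
    exact mul_ne_zero (pow_ne_zero _ hc0) hd1
  obtain ⟨g, hg'⟩ := (Cfsg.Agent.S2623.result h2 (c • Q₁) Q₂ hnd h₂).2 (by
    rw [e1, e1, hg, Matrix.det_smul, Fintype.card_fin, mul_assoc, ← hc]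
    obtain ⟨r, rfl⟩ := hn
    exact ⟨c ^ (r + 1), by ring⟩)
  exact ⟨g, c, hc0, fun v => by rw [hg' v]; rfl⟩

end Cfsg.Agent.S0838
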