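import Cfsg.Statements.S0842
import Mathlib
import Cfsg.Agent.Lib.Helper2.BSSetup

set_option autoImplicit false
open Cfsg

namespace Cfsg.Agent.S0842

/-- Suppose a Sylow 2-subgroup S of the finite group G is generalized quaternion of order at least 16, and let D be the commutator subgroup of S, C its centralizer and N its normalizer in G. Then there is a subgroup K of odd order, contained in C and normalized by N, with K ⊔ S = N and K ⊔ (S ⊓ C) = C, and C has index 2 in N. -/
theorem result {G : Type*} [Group G] [Finite G] (S : Sylow 2 G) (n : ℕ) (e : (S : Subgroup G) ≃* QuaternionGroup (2 ^ (n + 2))) (D : Subgroup G) (hD : D = ⁅(S : Subgroup G), (S : Subgroup G)⁆) : ∃ K : Subgroup G, Odd (Nat.card K) ∧ K ≤ Subgroup.centralizer (D : Set G) ∧ Subgroup.normalizer (D : Set G) ≤ Subgroup.normalizer (K : Set G) ∧ K ⊔ (S : Subgroup G) = Subgroup.normalizer (D : Set G) ∧ K ⊔ ((S : Subgroup G) ⊓ Subgroup.centralizer (D : Set G)) = Subgroup.centralizer (D : Set G) ∧ ((Subgroup.centralizer (D : Set G)).subgroupOf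 (Subgroup.normalizer (D : Set G))).index = 2 := by
  obtain ⟨α, β, K, h⟩ := Cfsg.Agent.Lib.Helper2.exists_BS S n e
  have hD' : D = Subgroup.zpowers (α ^ 2) := hD.trans h.gq.commutator_eq
  have hm3 : 3 ≤ 2 ^ (n + 2) := by
    have : 1 ≤ 2 ^ n := Nat.one_le_two_pow
    rw [pow_add]; omega
  subst hD'
  refine ⟨K, h.oddK, h.K_le, h.norm, h.supS, ?_, h.idx⟩
  rw [h.gq.inf_centralizer hm3]
  exact h.supA

end Cfsg.Agent.S0842
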