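import Mathlib
import Cfsg.Statements.S0849

set_option autoImplicit false
open Cfsg

namespace Cfsg.Agent.S0849

theorem finsum_mem_eq_sum_ite {α : Type*} [Fintype α] (s : Set α) [DecidablePred (· ∈ s)]
    (f : α → ℂ) :
    ∑ᶠ i ∈ s, f i = ∑ i, if i ∈ s then f i else 0 := by
  rw [finsum_mem_eq_finite_toFinset_sum f (Set.toFinite s)]
  rw [← Finset.sum_filter]
  congr 1
  ext i
  simp

theorem extendByZero_coe {G : Type*} [Group G] (H : Subgroup G) (φ : H → ℂ) (h : H) :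
    extendByZero H φ (h : G) = φ h :=
  Subtype.val_injective.extend_apply _ _ _

theorem extendByZero_of_not_mem {G : Type*} [Group G] (H : Subgroup G) (φ : H → ℂ) (g : G)
    (hg : g ∉ H) : extendByZero H φ g = 0 :=
  Function.extend_apply' _ _ _ (by rintro ⟨a, rfl⟩; exact hg a.2)

theorem result {G : Type*} [Group G] [Fintype G] (H : Subgroup G) (S : Set G) (hSH : S ⊆ H) (hHS : ∀ h ∈ H, ∀ s ∈ S, h * s * h⁻¹ ∈ S) (hTI : ∀ g : G, g ∉ H → ∀ s ∈ S, g * s * g⁻¹ ∉ S) (hinv : ∀ s ∈ S, s⁻¹ ∈ S) (φ : H → ℂ) (hφ : Cfsg.IsClassFunction H φ) (hφS : ∀ x : H, (x : G) ∉ S → φ x = 0) (u v : G) (hu : orderOf u = 2) (hv : orderOf v = 2) : ∑ᶠ p ∈ {p : G × G | IsConj u p.1 ∧ IsConj v p.2}, Cfsg.indFun H φ (p.1 * p.2) = (H.index : ℂ) * ∑ᶠ p ∈ {p : H × H | IsConj u (p.1 : G) ∧ IsConj v (p.2 : G)}, φ (p.1 * p.2) := by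
  classical
  set ψ := extendByZero H φ with hψ
  set A : Set (G × G) := {p : G × G | IsConj u p.1 ∧ IsConj v p.2} with hA
  -- conjugation bijection
  let cj : G → (G × G) ≃ (G × G) := fun x =>
    { toFun := fun p => (x⁻¹ * p.1 * x, x⁻¹ * p.2 * x)
      invFun := fun p => (x * p.1 * x⁻¹, x * p.2 * x⁻¹)
      left_inv := fun p => by ext <;> simp [mul_assoc]
      right_inv := fun p => by ext <;> simp [mul_assoc] }
  have hcjA : ∀ x p, cj x p ∈ A ↔ p ∈ A := by
    intro x p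
    have h1 : ∀ w y : G, IsConj w (x⁻¹ * y * x) ↔ IsConj w y := by
      intro w y
      have : IsConj y (x⁻¹ * y * x) := isConj_iff.mpr ⟨x⁻¹, by simp⟩
      exact ⟨fun h => h.trans this.symm, fun h => h.trans this⟩
    show (IsConj u (x⁻¹ * p.1 * x) ∧ IsConj v (x⁻¹ * p.2 * x)) ↔ (IsConj u p.1 ∧ IsConj v p.2)
    rw [h1, h1]
  have hstep : ∀ x : G, (∑ p : G × G, if p ∈ A then ψ (x⁻¹ * (p.1 * p.2) * x) else 0)
      = ∑ p : G × G, if p ∈ A then ψ (p.1 * p.2) else 0 := by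
    intro x
    rw [← Equiv.sum_comp (cj x) (fun p : G × G => if p ∈ A then ψ (p.1 * p.2) else 0)]
    apply Finset.sum_congr rfl
    intro p _
    simp only [hcjA]
    have : (cj x p).1 * (cj x p).2 = x⁻¹ * (p.1 * p.2) * x := by
      show x⁻¹ * p.1 * x * (x⁻¹ * p.2 * x) = _
      group
    rw [this]
  have hL : ∑ᶠ p ∈ A, Cfsg.indFun H φ (p.1 * p.2)
      = (H.index : ℂ) * ∑ p : G × G, if p ∈ A then ψ (p.1 * p.2) else 0 := by
    rw [finsum_mem_eq_sum_ite]
    have h1 : ∀ p : G × G, (if p ∈ A then Cfsg.indFun H φ (p.1 * p.2) else 0)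
        = (Nat.card H : ℂ)⁻¹ * ∑ x : G, if p ∈ A then ψ (x⁻¹ * (p.1 * p.2) * x) else 0 := by
      intro p
      by_cases hp : p ∈ A
      · simp only [hp, if_true]; rfl
      · simp [hp]
    simp_rw [h1]
    rw [← Finset.mul_sum, Finset.sum_comm]
    simp_rw [hstep]
    rw [Finset.sum_const, Finset.card_univ, nsmul_eq_mul, ← mul_assoc]
    congr 1
    have hidx : (Nat.card G : ℂ) = (Nat.card H : ℂ) * (H.index : ℂ) := by
      rw [← Nat.cast_mul, Subgroup.card_mul_index]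
    have hH0 : (Nat.card H : ℂ) ≠ 0 := by
      exact_mod_cast (Nat.card_pos (α := H)).ne'
    rw [← Nat.card_eq_fintype_card, hidx]
    field_simp
  rw [hL]
  congr 1
  rw [finsum_mem_eq_sum_ite]
  -- involution facts
  have hinvol : ∀ w y : G, orderOf w = 2 → IsConj w y → y * y = 1 := by
    intro w y hw hy
    obtain ⟨c, hc⟩ := isConj_iff.mp hy
    have hw2 : w * w = 1 := by
      have := pow_orderOf_eq_one w
      rw [hw, pow_two] at this; exact this
    rw [← hc]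
    calc c * w * c⁻¹ * (c * w * c⁻¹) = c * (w * w) * c⁻¹ := by group
      _ = 1 := by rw [hw2]; group
  have hvanish : ∀ p : G × G, p ∈ A → ¬ (p.1 ∈ H ∧ p.2 ∈ H) → ψ (p.1 * p.2) = 0 := by
    intro p hp hnot
    by_contra hne
    have hmem : p.1 * p.2 ∈ H := by
      by_contra hm
      exact hne (extendByZero_of_not_mem H φ _ hm)
    have hS : p.1 * p.2 ∈ S := by
      by_contra hs
      apply hne
      have := extendByZero_coe H φ ⟨p.1 * p.2, hmem⟩
      rw [hψ]
      rw [show p.1 * p.2 = ((⟨p.1 * p.2, hmem⟩ : H) : G) from rfl, this]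
      exact hφS _ hs
    have h11 := hinvol u p.1 hu hp.1
    have h22 := hinvol v p.2 hv hp.2
    have hi1 : p.1⁻¹ = p.1 := inv_eq_of_mul_eq_one_left h11
    have hi2 : p.2⁻¹ = p.2 := inv_eq_of_mul_eq_one_left h22
    have h1H : p.1 ∈ H := by
      by_contra h1
      apply hTI p.1 h1 _ hS
      have : p.1 * (p.1 * p.2) * p.1⁻¹ = (p.1 * p.2)⁻¹ := by
        rw [mul_inv_rev, hi1, hi2, ← mul_assoc, h11, one_mul]
      rw [this]
      exact hinv _ hS
    have h2H : p.2 ∈ H := by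
      have : p.2 = p.1⁻¹ * (p.1 * p.2) := by group
      rw [this]
      exact H.mul_mem (H.inv_mem h1H) hmem
    exact hnot ⟨h1H, h2H⟩
  -- compare sums
  let ι : H × H → G × G := fun p => ((p.1 : G), (p.2 : G))
  have hι : Function.Injective ι := by
    intro a b hab
    have h1 := congrArg Prod.fst hab
    have h2 := congrArg Prod.snd hab
    exact Prod.ext (Subtype.ext h1) (Subtype.ext h2)
  have hR : (∑ p : H × H, if p ∈ {p : H × H | IsConj u (p.1 : G) ∧ IsConj v (p.2 : G)} then φ (p.1 * p.2) else 0)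
      = ∑ p ∈ Finset.univ.map ⟨ι, hι⟩, if p ∈ A then ψ (p.1 * p.2) else 0 := by
    rw [Finset.sum_map]
    apply Finset.sum_congr rfl
    intro p _
    have : ψ ((p.1 : G) * (p.2 : G)) = φ (p.1 * p.2) := extendByZero_coe H φ (p.1 * p.2)
    show _ = if ι p ∈ A then ψ ((p.1 : G) * (p.2 : G)) else 0
    rw [this]
    rfl
  rw [hR]
  symm
  apply Finset.sum_subset (Finset.subset_univ _)
  intro p _ hp
  by_cases hpA : p ∈ A
  · rw [if_pos hpA]
    apply hvanish p hpA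
    rintro ⟨h1, h2⟩
    apply hp
    rw [Finset.mem_map]
    exact ⟨(⟨p.1, h1⟩, ⟨p.2, h2⟩), Finset.mem_univ _, rfl⟩
  · rw [if_neg hpA]

end Cfsg.Agent.S0849
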