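import Mathlib
import Cfsg.Statements.S0850

set_option autoImplicit false
open Cfsg

namespace Cfsg.Agent.S0850

theorem extendByZero_coe' {G : Type*} [Group G] (H : Subgroup G) (φ : H → ℂ) (h : H) :
    extendByZero H φ (h : G) = φ h :=
  Subtype.val_injective.extend_apply _ _ _

theorem extendByZero_of_not_mem' {G : Type*} [Group G] (H : Subgroup G) (φ : H → ℂ) (g : G)
    (hg : g ∉ H) : extendByZero H φ g = 0 :=
  Function.extend_apply' _ _ _ (by rintro ⟨a, rfl⟩; exact hg a.2)

/-- conjugation action of the normalizer of `K` on `K` -/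
@[instance_reducible]
def normAction {G : Type*} [Group G] (K : Subgroup G) :
    MulAction (Subgroup.normalizer (K : Set G)) K where
  smul n k := ⟨(n : G) * k * (n : G)⁻¹, (Subgroup.mem_normalizer_iff.mp n.2 k).mp k.2⟩
  one_smul k := by
    apply Subtype.ext
    show ((1 : Subgroup.normalizer (K : Set G)) : G) * k * ((1 : Subgroup.normalizer (K : Set G)) : G)⁻¹ = k
    simp
  mul_smul a b k := by
    apply Subtype.ext
    show ((a * b : Subgroup.normalizer (K : Set G)) : G) * k * ((a * b : Subgroup.normalizer (K : Set G)) : G)⁻¹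
      = (a : G) * ((b : G) * k * (b : G)⁻¹) * (a : G)⁻¹
    simp [mul_assoc]

/-- prime order case -/
theorem no_fusion_prime {G : Type*} [Group G] [Finite G] (K : Subgroup G)
    (hC : ∀ k ∈ K, k ≠ 1 → Subgroup.centralizer ({k} : Set G) ≤ K)
    (p : ℕ) (hp : p.Prime) (y : G) (hyN : y ∈ Subgroup.normalizer (K : Set G)) (hyK : y ∉ K)
    (hy : orderOf y = p) (hpK : p ∣ Nat.card K) : False := by
  haveI : Fact p.Prime := ⟨hp⟩
  letI := normAction K
  let y' : Subgroup.normalizer (K : Set G) := ⟨y, hyN⟩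
  have hy' : orderOf y' = p := by
    rw [← hy]
    exact (Subgroup.orderOf_coe y').symm
  have hP : IsPGroup p (Subgroup.zpowers y') := by
    apply IsPGroup.of_card (n := 1)
    rw [Nat.card_zpowers, hy', pow_one]
  have key := hP.card_modEq_card_fixedPoints K
  have hfix : Nat.card (MulAction.fixedPoints (Subgroup.zpowers y') K) = 1 := by
    rw [Nat.card_eq_one_iff_unique]
    refine ⟨⟨?_⟩, ⟨⟨1, ?_⟩⟩⟩
    · rintro ⟨a, ha⟩ ⟨b, hb⟩
      have h1 : ∀ c : K, c ∈ MulAction.fixedPoints (Subgroup.zpowers y') K → c = 1 := by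
        intro c hc
        by_contra hne
        have h2 := hc ⟨y', Subgroup.mem_zpowers y'⟩
        have h3 : y * (c : G) * y⁻¹ = c := congrArg Subtype.val h2
        apply hyK
        apply hC c c.2 (fun h => hne (Subtype.ext h))
        rw [Subgroup.mem_centralizer_iff]
        intro z hz
        rw [Set.mem_singleton_iff] at hz
        rw [hz]
        rw [mul_inv_eq_iff_eq_mul] at h3
        exact h3.symm
      apply Subtype.ext
      show a = b
      rw [h1 a ha, h1 b hb]
    · intro u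
      apply Subtype.ext
      show ((u : Subgroup.normalizer (K : Set G)) : G) * ((1 : K) : G) * ((u : Subgroup.normalizer (K : Set G)) : G)⁻¹ = ((1 : K) : G)
      simp
  rw [hfix] at key
  have h0 : Nat.card K ≡ 0 [MOD p] := (Nat.modEq_zero_iff_dvd).mpr hpK
  have h10 : 1 ≡ 0 [MOD p] := key.symm.trans h0
  have := (Nat.modEq_zero_iff_dvd).mp h10
  exact hp.one_lt.ne' (Nat.dvd_one.mp this)

theorem no_fusion {G : Type*} [Group G] [Finite G] (K : Subgroup G)
    (hTI : ∀ g : G, g ∉ Subgroup.normalizer (K : Set G) → ∀ k ∈ K, g * k * g⁻¹ ∈ K → k = 1)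
    (hC : ∀ k ∈ K, k ≠ 1 → Subgroup.centralizer ({k} : Set G) ≤ K) :
    ∀ x ∈ Subgroup.normalizer (K : Set G), x ∉ K → ∀ g : G, g * x * g⁻¹ ∉ K := by
  intro x hxN hxK g hk
  have hx1 : x ≠ 1 := fun h => hxK (h ▸ K.one_mem)
  have hox : orderOf x ≠ 1 := fun h => hx1 (orderOf_eq_one_iff.mp h)
  obtain ⟨p, hp, hpd⟩ := Nat.exists_prime_and_dvd hox
  set m := orderOf x / p with hm
  have hxpos : 0 < orderOf x := orderOf_pos x
  have hy : orderOf (x ^ m) = p := by
    have hmd : m ∣ orderOf x := Nat.div_dvd_of_dvd hpd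
    have hm0 : m ≠ 0 := by
      intro h0
      rw [h0] at hmd
      exact hxpos.ne' (Nat.eq_zero_of_zero_dvd hmd)
    rw [orderOf_pow_of_dvd hm0 hmd, hm, Nat.div_div_self hpd hxpos.ne']
  have hconj : g * x ^ m * g⁻¹ = (g * x * g⁻¹) ^ m := (conj_pow).symm
  have hkm : g * x ^ m * g⁻¹ ∈ K := by rw [hconj]; exact K.pow_mem hk m
  have hgN : g⁻¹ ∉ Subgroup.normalizer (K : Set G) := by
    intro hg
    apply hxK
    have := (Subgroup.mem_normalizer_iff.mp hg (g * x * g⁻¹)).mp hk
    simpa [mul_assoc] using this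
  have hym1 : x ^ m ≠ 1 := by
    intro h
    rw [h, orderOf_one] at hy
    exact hp.one_lt.ne hy
  have hyK : x ^ m ∉ K := by
    intro h
    have h1 := hTI g⁻¹ hgN (g * x ^ m * g⁻¹) hkm (by simpa [mul_assoc] using h)
    apply hym1
    have : x ^ m = g⁻¹ * (g * x ^ m * g⁻¹) * g := by group
    rw [this, h1]; group
  have hpK : p ∣ Nat.card K := by
    have h1 : orderOf (g * x ^ m * g⁻¹) = p := by
      rw [← hy]
      exact orderOf_injective (MulAut.conj g).toMonoidHom (MulAut.conj g).injective (x ^ m)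
    have h2 : orderOf (⟨g * x ^ m * g⁻¹, hkm⟩ : K) = p := by
      rw [← h1]
      exact (Subgroup.orderOf_coe (⟨g * x ^ m * g⁻¹, hkm⟩ : K)).symm
    rw [← h2]
    exact orderOf_dvd_natCard _
  exact no_fusion_prime K hC p hp (x ^ m) ((Subgroup.normalizer (K : Set G)).pow_mem hxN m) hyK hy hpK

theorem result {G : Type*} [Group G] [Fintype G] (K : Subgroup G) (hTI : ∀ g : G, g ∉ Subgroup.normalizer (K : Set G) → ∀ k ∈ K, g * k * g⁻¹ ∈ K → k = 1) (hlt : K < Subgroup.normalizer (K : Set G)) (hC : ∀ k ∈ K, k ≠ 1 → Subgroup.centralizer ({k} : Set G) ≤ K) : (∀ x ∈ Subgroup.normalizer (K : Set G), x ∉ K → ∀ g : G, g * x * g⁻¹ ∉ K) ∧ ∀ (ϑ : Subgroup.normalizer (K : Set G) → ℂ), Cfsg.IsClassFunction (Subgroup.normalizer (K : Set G)) ϑ → (∀ x : Subgroup.normalizer (K : Set G), (x : G) ∉ K → ϑ x = 0) → ϑ 1 = 0 → ∀ x : Subgroup.normalizer (K : Set G), Cfsg.indFun (Subgroup.normalizer (K : Set G)) ϑ x = ϑ x := by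
  classical
  have part1 := no_fusion K hTI hC
  refine ⟨part1, ?_⟩
  set N := Subgroup.normalizer (K : Set G) with hN
  intro ϑ hcl hoff h1 x
  have hterm : ∀ g : G, extendByZero N ϑ (g⁻¹ * (x : G) * g) = if g ∈ N then ϑ x else 0 := by
    intro g
    by_cases hg : g ∈ N
    · rw [if_pos hg]
      have h2 := hcl x (⟨g, hg⟩ : N)⁻¹
      rw [← h2]
      have := extendByZero_coe' N ϑ ((⟨g, hg⟩ : N)⁻¹ * x * ((⟨g, hg⟩ : N)⁻¹)⁻¹)
      rw [← this]
      congr 1
      simp
    · rw [if_neg hg]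
      by_cases hm : g⁻¹ * (x : G) * g ∈ N
      · have := extendByZero_coe' N ϑ ⟨_, hm⟩
        rw [show g⁻¹ * (x : G) * g = ((⟨_, hm⟩ : N) : G) from rfl, this]
        by_cases hK : g⁻¹ * (x : G) * g ∈ K
        · by_cases hxK : (x : G) ∈ K
          · have hg' : g⁻¹ ∉ N := fun h => hg (by simpa using N.inv_mem h)
            have hx1 := hTI g⁻¹ hg' x hxK (by simpa using hK)
            have : (⟨g⁻¹ * (x : G) * g, hm⟩ : N) = 1 := by
              apply Subtype.ext
              show g⁻¹ * (x : G) * g = 1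
              rw [hx1]; group
            rw [this, h1]
          · exact absurd (by simpa using hK) (part1 x x.2 hxK g⁻¹)
        · exact hoff _ hK
      · exact extendByZero_of_not_mem' N ϑ _ hm
  show (Nat.card N : ℂ)⁻¹ * ∑ g : G, extendByZero N ϑ (g⁻¹ * (x : G) * g) = ϑ x
  simp_rw [hterm]
  rw [← Finset.sum_filter, Finset.sum_const, nsmul_eq_mul, ← mul_assoc]
  have hcard : (Finset.univ.filter (fun g : G => g ∈ N)).card = Nat.card N := by
    rw [Nat.card_eq_fintype_card, Fintype.card_subtype]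
  rw [hcard]
  have hN0 : (Nat.card N : ℂ) ≠ 0 := by
    exact_mod_cast (Nat.card_pos (α := N)).ne'
  rw [inv_mul_cancel₀ hN0, one_mul]

end Cfsg.Agent.S0850
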