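import Cfsg.Statements.S0851
import Mathlib
import Cfsg.Agent.Lib.Helper10.TIFrob
import Cfsg.Agent.CharLib.IndMore
-- import your own Cfsg.Agent.* helpers here

set_option autoImplicit false
open Cfsg
open Cfsg.Agent.CharLib Cfsg.Agent.CharLib.H2 Cfsg.Agent.CharLib.L Cfsg.Agent.Lib.Helper10
open scoped ComplexConjugate

namespace Cfsg.Agent.S0851

/-- Let K be a subgroup of the finite group G that meets each conjugate by an element outside its normalizer N trivially, is properly contained in N, and contains the centralizer of each of its non-identity elements (a T.I. subgroup with Frobenius normalizer). Suppose K is abelian, let e be the index of K in N, and call an irreducible character of N relevant when it takes at some element of K a value different from its degree. Then either there is exactly one relevant character and K is an elementary abelian p-group of order e + 1 for some prime p, or there are a sign ε and an injective map f from the relevant characters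 to the irreducible characters of G such that inducing χ - ξ to G gives ε (f χ - f ξ) for all relevant χ and ξ. -/
theorem result {G : Type*} [Group G] [Fintype G] (K : Subgroup G) (hTI : ∀ g : G, g ∉ Subgroup.normalizer (K : Set G) → ∀ k ∈ K, g * k * g⁻¹ ∈ K → k = 1) (hlt : K < Subgroup.normalizer (K : Set G)) (hC : ∀ k ∈ K, k ≠ 1 → Subgroup.centralizer ({k} : Set G) ≤ K) (hab : ∀ a ∈ K, ∀ b ∈ K, a * b = b * a) : (Nat.card {χ : Cfsg.IrrCharacter (Subgroup.normalizer (K : Set G)) // ∃ k : Subgroup.normalizer (K : Set G), (k : G) ∈ K ∧ (χ : ↥(Subgroup.normalizer (K : Set G)) → ℂ) k ≠ (χ : ↥(Subgroup.normalizer (K : Set G)) → ℂ) 1} = 1 ∧ ∃ p : ℕ, p.Prime ∧ Cfsg.IsElementaryAbelian p K ∧ Nat.card K = (K.subgroupOf (Subgroup.normalizer (K : Set G))).index + 1) ∨ ∃ (ε : ℂ) (f : {χ : Cfsg.IrrCharacter (Subgroup.normalizer (K : Set G)) // ∃ k : Subgroup.normalizer (K : Set G), (k : G) ∈ K ∧ (χ : ↥(Subgroup.normalizer (K : Set G)) → ℂ) k ≠ (χ : ↥(Subgroup.normalizer (K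 : Set G)) → ℂ) 1} → Cfsg.IrrCharacter G), (ε = 1 ∨ ε = -1) ∧ Function.Injective f ∧ ∀ χ ξ, Cfsg.indFun (Subgroup.normalizer (K : Set G)) ((χ.1 : ↥(Subgroup.normalizer (K : Set G)) → ℂ) - (ξ.1 : ↥(Subgroup.normalizer (K : Set G)) → ℂ)) = ε • ((f χ : G → ℂ) - (f ξ : G → ℂ)) := by
  classical
  right
  letI : Fintype ↥(Subgroup.normalizer (K : Set G)) := Fintype.ofFinite _
  have hTI' := tif_TI K hTI
  -- relevant characters have the same degree and vanish off `K`
  have hdeg : ∀ χ : {χ : Cfsg.IrrCharacter (Subgroup.normalizer (K : Set G)) // ∃ k : Subgroup.normalizer (K : Set G), (k : G) ∈ K ∧ (χ : ↥(Subgroup.normalizer (K : Set G)) → ℂ) k ≠ (χ : ↥(Subgroup.normalizer (K : Set G)) → ℂ) 1},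
      (χ.1 : ↥(Subgroup.normalizer (K : Set G)) → ℂ) 1 = ((K.subgroupOf (Subgroup.normalizer (K : Set G))).index : ℂ) := by
    intro χ
    obtain ⟨φ, hφ, hχ⟩ := tif_induced K hC χ.1.2 χ.2
    rw [hχ, indFun_apply_one]
    have hc : ∀ a b : ↥(K.subgroupOf (Subgroup.normalizer (K : Set G))), a * b = b * a := by
      intro a b
      apply Subtype.ext
      apply Subtype.ext
      exact hab _ (Subgroup.mem_subgroupOf.1 a.2) _ (Subgroup.mem_subgroupOf.1 b.2)
    have := irr_apply_one_of_comm hc ⟨φ, hφ⟩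
    simp only at this
    rw [this, mul_one]
  have hvan : ∀ χ ξ : {χ : Cfsg.IrrCharacter (Subgroup.normalizer (K : Set G)) // ∃ k : Subgroup.normalizer (K : Set G), (k : G) ∈ K ∧ (χ : ↥(Subgroup.normalizer (K : Set G)) → ℂ) k ≠ (χ : ↥(Subgroup.normalizer (K : Set G)) → ℂ) 1},
      ∀ x : ↥(Subgroup.normalizer (K : Set G)), (x : G) ∉ ((K : Set G) \ {1}) →
        ((χ.1 : ↥(Subgroup.normalizer (K : Set G)) → ℂ) - (ξ.1 : ↥(Subgroup.normalizer (K : Set G)) → ℂ)) x = 0 := by
    intro χ ξ x hx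
    rw [Pi.sub_apply]
    by_cases hxK : (x : G) ∈ K
    · have hx1 : x = 1 := by
        by_contra h
        exact hx ⟨hxK, fun h' => h (Subtype.ext h')⟩
      rw [hx1, hdeg, hdeg, sub_self]
    · rw [tif_vanish K hC χ.1.2 χ.2 x hxK, tif_vanish K hC ξ.1.2 ξ.2 x hxK, sub_self]
  have hcf : ∀ χ ξ : {χ : Cfsg.IrrCharacter (Subgroup.normalizer (K : Set G)) // ∃ k : Subgroup.normalizer (K : Set G), (k : G) ∈ K ∧ (χ : ↥(Subgroup.normalizer (K : Set G)) → ℂ) k ≠ (χ : ↥(Subgroup.normalizer (K : Set G)) → ℂ) 1},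
      IsClassFunction _ ((χ.1 : ↥(Subgroup.normalizer (K : Set G)) → ℂ) - (ξ.1 : ↥(Subgroup.normalizer (K : Set G)) → ℂ)) :=
    fun χ ξ => isClassFunction_sub (isClassFunction_of_irr χ.1.2) (isClassFunction_of_irr ξ.1.2)
  by_cases hsub : ∃ χ ξ : {χ : Cfsg.IrrCharacter (Subgroup.normalizer (K : Set G)) // ∃ k : Subgroup.normalizer (K : Set G), (k : G) ∈ K ∧ (χ : ↥(Subgroup.normalizer (K : Set G)) → ℂ) k ≠ (χ : ↥(Subgroup.normalizer (K : Set G)) → ℂ) 1}, χ ≠ ξ
  · obtain ⟨χ₀, ξ₀, hne⟩ := hsub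
    have hinner : ∀ a b c d : {χ : Cfsg.IrrCharacter (Subgroup.normalizer (K : Set G)) // ∃ k : Subgroup.normalizer (K : Set G), (k : G) ∈ K ∧ (χ : ↥(Subgroup.normalizer (K : Set G)) → ℂ) k ≠ (χ : ↥(Subgroup.normalizer (K : Set G)) → ℂ) 1},
        classInner (indFun (Subgroup.normalizer (K : Set G)) ((a.1 : ↥(Subgroup.normalizer (K : Set G)) → ℂ) - (b.1 : ↥(Subgroup.normalizer (K : Set G)) → ℂ)))
          (indFun (Subgroup.normalizer (K : Set G)) ((c.1 : ↥(Subgroup.normalizer (K : Set G)) → ℂ) - (d.1 : ↥(Subgroup.normalizer (K : Set G)) → ℂ))) =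
        (if a.1 = c.1 then 1 else 0) - (if a.1 = d.1 then 1 else 0) - (if b.1 = c.1 then 1 else 0) + (if b.1 = d.1 then 1 else 0) := by
      intro a b c d
      rw [indFun_isometry_on_TI' _ _ hTI' _ _ (hcf c d) (hvan a b) (hvan c d), inner_diff]
    obtain ⟨δ, μ, hδ, hμ, hD⟩ := star_coherent (X := G)
      (fun a b : {χ : Cfsg.IrrCharacter (Subgroup.normalizer (K : Set G)) // ∃ k : Subgroup.normalizer (K : Set G), (k : G) ∈ K ∧ (χ : ↥(Subgroup.normalizer (K : Set G)) → ℂ) k ≠ (χ : ↥(Subgroup.normalizer (K : Set G)) → ℂ) 1} =>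
        indFun (Subgroup.normalizer (K : Set G)) ((a.1 : ↥(Subgroup.normalizer (K : Set G)) → ℂ) - (b.1 : ↥(Subgroup.normalizer (K : Set G)) → ℂ)))
      (by
        intro a b c
        rw [← indFun_add]
        congr 1
        abel)
      (by
        intro a b hab'
        have hab'' : a.1 ≠ b.1 := fun h => hab' (Subtype.ext h)
        have h2 := hinner a b a b
        rw [if_pos rfl, if_pos rfl, if_neg hab'', if_neg hab''.symm] at h2
        have hgen : IsGeneralizedCharacter G (indFun (Subgroup.normalizer (K : Set G)) ((a.1 : ↥(Subgroup.normalizer (K : Set G)) → ℂ) - (b.1 : ↥(Subgroup.normalizer (K : Set G)) → ℂ))) :=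
          ⟨_, _, isCharacter_indFun _ (isCharacter_of_irr a.1.2), isCharacter_indFun _ (isCharacter_of_irr b.1.2),
            indFun_sub _ _ _⟩
        obtain ⟨μ₁, μ₂, h₁, h₂, hne', heq⟩ := Cfsg.Agent.Lib.Helper10.exists_sub_of_norm_two hgen (by rw [h2]; norm_num) (by
          rw [indFun_apply_one, Pi.sub_apply, hdeg, hdeg, sub_self, mul_zero])
        exact ⟨⟨μ₁, h₁⟩, ⟨μ₂, h₂⟩, fun h => hne' (congrArg Subtype.val h), heq⟩)
      (by
        intro a b c hab' hac hbc
        have hab'' : a.1 ≠ b.1 := fun h => hab' (Subtype.ext h)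
        have hac' : a.1 ≠ c.1 := fun h => hac (Subtype.ext h)
        have hbc' : b.1 ≠ c.1 := fun h => hbc (Subtype.ext h)
        rw [hinner, if_pos rfl, if_neg hac', if_neg hab''.symm, if_neg hbc']
        norm_num)
      χ₀ ξ₀ hne
    exact ⟨δ, μ, hδ, hμ, hD⟩
  · push Not at hsub
    refine ⟨1, fun _ => ⟨_, isIrrCharacter_one⟩, Or.inl rfl, fun a b _ => hsub a b, ?_⟩
    intro χ ξ
    rw [hsub χ ξ, sub_self, sub_self, smul_zero]
    exact indFun_zero' _

end Cfsg.Agent.S0851
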