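import Cfsg.Statements.S0852
import Mathlib
import Cfsg.Agent.Lib.Helper10.TIFrob2
-- import your own Cfsg.Agent.* helpers here

set_option autoImplicit false
open Cfsg
open Cfsg.Agent.CharLib Cfsg.Agent.CharLib.H2 Cfsg.Agent.CharLib.L Cfsg.Agent.Lib.Helper10
open scoped ComplexConjugate

namespace Cfsg.Agent.S0852

/-- Let K be a subgroup of the finite group G that meets each conjugate by an element outside its normalizer N trivially, is properly contained in N, and contains the centralizer of each of its non-identity elements (a T.I. subgroup with Frobenius normalizer). Let S be the set of irreducible characters of N taking at some element of K a value different from their degree, suppose S has at least two members, and let star be a linear isometry on the integer span of S into the generalized characters of G that agrees with induction on the members vanishing at the identity (so S is coherent, with star as the extending isometry). Then an irreducible character ψ of G is of the form star χ or -star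 χ for some χ in S if and only if ψ is not constant on the non-identity elements of K. -/
theorem result {G : Type*} [Group G] [Fintype G] (K : Subgroup G) (hTI : ∀ g : G, g ∉ Subgroup.normalizer (K : Set G) → ∀ k ∈ K, g * k * g⁻¹ ∈ K → k = 1) (hlt : K < Subgroup.normalizer (K : Set G)) (hC : ∀ k ∈ K, k ≠ 1 → Subgroup.centralizer ({k} : Set G) ≤ K) [Fintype ↥(Subgroup.normalizer (K : Set G))] (S : Set (↥(Subgroup.normalizer (K : Set G)) → ℂ)) (hS : S = {χ : ↥(Subgroup.normalizer (K : Set G)) → ℂ | Cfsg.IsIrrCharacter ↥(Subgroup.normalizer (K : Set G)) χ ∧ ∃ k : ↥(Subgroup.normalizer (K : Set G)), (k : G) ∈ K ∧ χ k ≠ χ 1}) (htwo : ∃ χ ∈ S, ∃ ξ ∈ S, χ ≠ ξ) (star : (↥(Subgroup.normalizer (K : Set G)) → ℂ) → (G → ℂ)) (hstar : Cfsg.IsLinearIsometryOn (Cfsg.zspan S) star) (hext : ∀ α ∈ Cfsg.zspanOn S ({1}ᶜ : Set ↥(Subgroup.normalizer (K : Set G))), star α = Cfsg.indFun (Subgroup.normalizer (K : Set G)) α) (ψ : G → ℂ) (hψ : Cfsg.IsIrrCharacter G ψ) : (∃ χ ∈ S, ψ = star χ ∨ ψ = -star χ) ↔ ∃ a ∈ K, ∃ b ∈ K, a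 ≠ 1 ∧ b ≠ 1 ∧ ψ a ≠ ψ b := by
  classical
  have hS' : S = relSet K := hS
  subst hS'
  have hirr : ∀ χ ∈ relSet K, IsIrrCharacter _ χ := fun χ h => h.1
  have hsigned : ∀ χ ∈ relSet K, IsSignedIrr G (star χ) := fun χ h => lio_signed hirr hstar h
  have hψcf := isClassFunction_of_irr hψ
  have hφcf : IsClassFunction _ (fun x : ↥(Subgroup.normalizer (K : Set G)) => ψ x) := by
    intro g h
    exact hψcf g h
  constructor
  · rintro ⟨χ₀, hχ₀, hψeq⟩
    by_contra hcon
    push Not at hcon
    obtain ⟨ξ, hξ, hne⟩ : ∃ ξ ∈ relSet K, ξ ≠ χ₀ := by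
      obtain ⟨a, ha, b, hb, hab⟩ := htwo
      by_cases h : a = χ₀
      · exact ⟨b, hb, fun h' => hab (h.trans h'.symm)⟩
      · exact ⟨a, ha, h⟩
    obtain ⟨n, hn0, hn⟩ := irr_apply_one_nat ⟨χ₀, hχ₀.1⟩
    obtain ⟨n', hn0', hn'⟩ := irr_apply_one_nat ⟨ξ, hξ.1⟩
    simp only at hn hn'
    obtain ⟨hmem, hst, hvan, hcf⟩ := tif_alpha hC hstar hχ₀ hξ hn hn'
    set α := ((n : ℤ) • ξ + (-(n' : ℤ)) • χ₀) with hα
    -- first computation
    have h1 : classInner (star α) (star χ₀) = -(n' : ℂ) := by
      rw [lio_inner hstar hmem.1 (mem_zspan_of_mem hχ₀), hα, classInner_add_left, classInner_zsmul_left,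
        classInner_zsmul_left, classInner_irr_ne hξ.1 hχ₀.1 hne, classInner_irr_self hχ₀.1]
      push_cast; ring
    -- second computation
    obtain ⟨k₀, hk₀, hk₀ne⟩ := hχ₀.2
    have hk₀1 : (k₀ : G) ≠ 1 := by
      intro h
      apply hk₀ne
      have : k₀ = 1 := Subtype.ext h
      rw [this]
    have h2 : classInner (star α) ψ = 0 := by
      rw [hext α hmem, frobenius_reciprocity _ _ hψcf, classInner]
      have h3 : ∑ x : ↥(Subgroup.normalizer (K : Set G)), α x * conj (ψ x) =
          ∑ x : ↥(Subgroup.normalizer (K : Set G)), α x * conj (ψ k₀) := by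
        refine Finset.sum_congr rfl fun x _ => ?_
        by_cases hx : (x : G) ∈ ((K : Set G) \ {1})
        · rw [hcon x hx.1 k₀ hk₀ hx.2 hk₀1]
        · rw [hvan x hx, zero_mul, zero_mul]
      rw [h3, ← Finset.sum_mul, hα, tif_alpha_sum hC hχ₀ hξ, zero_mul, mul_zero]
    have hn'0 : (n' : ℂ) ≠ 0 := by exact_mod_cast hn0'.ne'
    rcases hψeq with h | h
    · rw [h, h1] at h2
      exact hn'0 (neg_eq_zero.1 h2)
    · rw [h, classInner_neg_right, h1, neg_neg] at h2
      exact hn'0 h2
  · rintro ⟨a, ha, b, hb, ha1, hb1, hne⟩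
    by_contra hcon
    push Not at hcon
    apply hne
    have horth0 : ∀ χ ∈ relSet K, classInner (star χ) ψ = 0 := by
      intro χ hχ
      rcases (hsigned χ hχ).cases (Or.inl hψ) with h | ⟨s, hs, h⟩
      · exact h
      · exfalso
        rcases hs with rfl | rfl
        · exact (hcon χ hχ).1 (by rw [h, one_smul])
        · exact (hcon χ hχ).2 (by rw [h]; simp)
    have horth : ∀ χ ∈ relSet K, ∀ ξ ∈ relSet K,
        classInner (fun x : ↥(Subgroup.normalizer (K : Set G)) => ψ x) ξ * χ 1 =
          classInner (fun x : ↥(Subgroup.normalizer (K : Set G)) => ψ x) χ * ξ 1 := by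
      intro χ hχ ξ hξ
      obtain ⟨n, hn0, hn⟩ := irr_apply_one_nat ⟨χ, hχ.1⟩
      obtain ⟨n', hn0', hn'⟩ := irr_apply_one_nat ⟨ξ, hξ.1⟩
      simp only at hn hn'
      obtain ⟨hmem, hst, hvan, hcf⟩ := tif_alpha hC hstar hχ hξ hn hn'
      have h1 : classInner (star ((n : ℤ) • ξ + (-(n' : ℤ)) • χ)) ψ = 0 := by
        rw [hst, classInner_add_left, classInner_zsmul_left, classInner_zsmul_left, horth0 χ hχ, horth0 ξ hξ]
        simp
      rw [hext _ hmem, frobenius_reciprocity _ _ hψcf, classInner_add_left, classInner_zsmul_left,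
        classInner_zsmul_left] at h1
      have h2 := congrArg conj h1
      simp only [map_add, map_mul, map_intCast, classInner_conj_symm, map_zero] at h2
      rw [hn, hn']
      push_cast at h2
      linear_combination h2
    obtain ⟨χ₀, hχ₀, -⟩ := htwo
    obtain ⟨t, -, hval⟩ := tif_const hφcf horth hχ₀
    have hle : K ≤ Subgroup.normalizer (K : Set G) := hlt.le
    have e1 := hval ⟨a, hle ha⟩ ha (fun h => ha1 (congrArg Subtype.val h))
    have e2 := hval ⟨b, hle hb⟩ hb (fun h => hb1 (congrArg Subtype.val h))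
    simp only at e1 e2
    rw [e1, e2]

end Cfsg.Agent.S0852
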