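import Cfsg.Statements.S0853
import Mathlib
import Cfsg.Agent.Lib.Helper10.TIFrob2
import Cfsg.Agent.Lib.Helper10.Virtual2
-- import your own Cfsg.Agent.* helpers here

set_option autoImplicit false
open Cfsg
open Cfsg.Agent.CharLib Cfsg.Agent.CharLib.H2 Cfsg.Agent.CharLib.L Cfsg.Agent.Lib.Helper10
open scoped ComplexConjugate

namespace Cfsg.Agent.S0853

/-- Let K be a subgroup of the finite group G that meets each conjugate by an element outside its normalizer N trivially, is properly contained in N, and contains the centralizer of each of its non-identity elements (a T.I. subgroup with Frobenius normalizer). Let S be the set of irreducible characters of N taking at some element of K a value different from their degree, suppose S has at least two members, and let star be a linear isometry on the integer span of S into the generalized characters of G that agrees with induction on the members vanishing at the identity (so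 S is coherent, with star as the extending isometry). Then there is a single integer m such that star χ k - χ k = m * χ 1 / e for every χ in S and every non-identity element k of K, where e is the index of K in N. -/
theorem result {G : Type*} [Group G] [Fintype G] (K : Subgroup G) (hTI : ∀ g : G, g ∉ Subgroup.normalizer (K : Set G) → ∀ k ∈ K, g * k * g⁻¹ ∈ K → k = 1) (hlt : K < Subgroup.normalizer (K : Set G)) (hC : ∀ k ∈ K, k ≠ 1 → Subgroup.centralizer ({k} : Set G) ≤ K) [Fintype ↥(Subgroup.normalizer (K : Set G))] (S : Set (↥(Subgroup.normalizer (K : Set G)) → ℂ)) (hS : S = {χ : ↥(Subgroup.normalizer (K : Set G)) → ℂ | Cfsg.IsIrrCharacter ↥(Subgroup.normalizer (K : Set G)) χ ∧ ∃ k : ↥(Subgroup.normalizer (K : Set G)), (k : G) ∈ K ∧ χ k ≠ χ 1}) (htwo : ∃ χ ∈ S, ∃ ξ ∈ S, χ ≠ ξ) (star : (↥(Subgroup.normalizer (K : Set G)) → ℂ) → (G → ℂ)) (hstar : Cfsg.IsLinearIsometryOn (Cfsg.zspan S) star) (hext : ∀ α ∈ Cfsg.zspanOn S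 ({1}ᶜ : Set ↥(Subgroup.normalizer (K : Set G))), star α = Cfsg.indFun (Subgroup.normalizer (K : Set G)) α) : ∃ m : ℤ, ∀ χ ∈ S, ∀ k : ↥(Subgroup.normalizer (K : Set G)), (k : G) ∈ K → k ≠ 1 → star χ k - χ k = (m : ℂ) * χ 1 / ((K.subgroupOf (Subgroup.normalizer (K : Set G))).index : ℂ) := by
  classical
  have hS' : S = relSet K := hS
  subst hS'
  have hTI' := tif_TI K hTI
  obtain ⟨χ₀, hχ₀, -⟩ := htwo
  obtain ⟨k₀, hk₀, hk₀ne⟩ := hχ₀.2
  have hk₀1 : k₀ ≠ 1 := by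
    intro h
    apply hk₀ne
    rw [h]
  have hk₀T : (k₀ : G) ∈ ((K : Set G) \ {1}) := ⟨hk₀, fun h => hk₀1 (Subtype.ext h)⟩
  set e := (K.subgroupOf (Subgroup.normalizer (K : Set G))).index with he
  have he0 : (e : ℂ) ≠ 0 := by exact_mod_cast Subgroup.index_ne_zero_of_finite
  -- the degrees
  have hd' : ∀ ξ : IrrCharacter ↥(Subgroup.normalizer (K : Set G)), ∃ d : ℕ,
      Rel (K.subgroupOf (Subgroup.normalizer (K : Set G))) ξ →
        ((ξ : ↥(Subgroup.normalizer (K : Set G)) → ℂ) 1 = (e : ℂ) * d ∧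
          d ∣ Nat.card (K.subgroupOf (Subgroup.normalizer (K : Set G)))) := by
    intro ξ
    by_cases h : Rel (K.subgroupOf (Subgroup.normalizer (K : Set G))) ξ
    · obtain ⟨φ, hφ, hξ⟩ := tif_induced K hC ξ.2 ((rel_iff K ξ).1 h)
      obtain ⟨n, -, hn, hdvd⟩ := irr_degree_dvd ⟨φ, hφ⟩
      refine ⟨n, fun _ => ⟨?_, hdvd⟩⟩
      rw [hξ, indFun_apply_one]
      simp only at hn
      rw [hn]
    · exact ⟨0, fun h' => absurd h' h⟩
  choose d hd using hd'
  have hRel : ∀ {χ}, (hχ : χ ∈ relSet K) →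
      Rel (K.subgroupOf (Subgroup.normalizer (K : Set G))) ((⟨χ, hχ.1⟩ : IrrCharacter _) : _ → ℂ) :=
    fun {χ} hχ => (rel_iff K χ).2 hχ.2
  have hne : ∃ ξ : IrrCharacter ↥(Subgroup.normalizer (K : Set G)),
      Rel (K.subgroupOf (Subgroup.normalizer (K : Set G))) ξ := ⟨⟨χ₀, hχ₀.1⟩, hRel hχ₀⟩
  -- the difference functions
  let γ : (↥(Subgroup.normalizer (K : Set G)) → ℂ) → (↥(Subgroup.normalizer (K : Set G)) → ℂ) :=
    fun χ => (fun x : ↥(Subgroup.normalizer (K : Set G)) => star χ x) - χ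
  have hgen : ∀ χ ∈ relSet K, IsGeneralizedCharacter _ (γ χ) := by
    intro χ hχ
    obtain ⟨a, b, ha, hb, hab⟩ := lio_virtual hstar (mem_zspan_of_mem hχ)
    have h1 : IsGeneralizedCharacter ↥(Subgroup.normalizer (K : Set G))
        (fun x : ↥(Subgroup.normalizer (K : Set G)) => star χ x) :=
      ⟨_, _, isCharacter_restrict ha _, isCharacter_restrict hb _, by rw [hab]; rfl⟩
    exact isGeneralizedCharacter_sub h1 ⟨χ, 0, isCharacter_of_irr hχ.1, isCharacter_zero, by simp⟩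
  have hstarcf : ∀ χ ∈ relSet K, IsClassFunction G (star χ) := by
    intro χ hχ
    obtain ⟨a, b, ha, hb, hab⟩ := lio_virtual hstar (mem_zspan_of_mem hχ)
    rw [hab]
    exact isClassFunction_sub (isClassFunction_of_char ha) (isClassFunction_of_char hb)
  have hγcf : ∀ χ ∈ relSet K, IsClassFunction _ (γ χ) := by
    intro χ hχ
    apply isClassFunction_sub _ (isClassFunction_of_irr hχ.1)
    intro g h
    exact hstarcf χ hχ g h
  have horth : ∀ χ ∈ relSet K, ∀ ζ ∈ relSet K, ∀ ξ ∈ relSet K,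
      classInner (γ χ) ξ * ζ 1 = classInner (γ χ) ζ * ξ 1 := by
    intro χ hχ ζ hζ ξ hξ
    obtain ⟨n, hn0, hn⟩ := irr_apply_one_nat ⟨ζ, hζ.1⟩
    obtain ⟨n', hn0', hn'⟩ := irr_apply_one_nat ⟨ξ, hξ.1⟩
    simp only at hn hn'
    obtain ⟨hmem, hst, hvan, hcf⟩ := tif_alpha hC hstar hζ hξ hn hn'
    have h1 : classInner ((n : ℤ) • ξ + (-(n' : ℤ)) • ζ) (γ χ) = 0 := by
      simp only [γ]
      rw [classInner_sub_right, ← frobenius_reciprocity _ _ (hstarcf χ hχ), ← hext _ hmem,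
        lio_inner hstar hmem.1 (mem_zspan_of_mem hχ), sub_self]
    rw [classInner_add_left, classInner_zsmul_left, classInner_zsmul_left] at h1
    have h2 := congrArg conj h1
    simp only [map_add, map_mul, map_intCast, classInner_conj_symm, map_zero] at h2
    rw [hn, hn']
    push_cast at h2
    linear_combination h2
  -- constancy and integrality
  have hconst : ∀ χ ∈ relSet K, (∀ k : ↥(Subgroup.normalizer (K : Set G)), (k : G) ∈ K → k ≠ 1 → γ χ k = γ χ k₀) ∧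
      ∃ z : ℤ, γ χ k₀ = z := by
    intro χ hχ
    obtain ⟨t, ht, hval⟩ := tif_const (hγcf χ hχ) (horth χ hχ) hχ₀
    refine ⟨fun k hk hk1 => by rw [hval k hk hk1, hval k₀ hk₀ hk₀1], ?_⟩
    rw [hval k₀ hk₀ hk₀1]
    obtain ⟨z₁, hz₁⟩ := int_of_rel (K.subgroupOf (Subgroup.normalizer (K : Set G))) d hd hne (t * e) (by
      intro ξ hξ
      obtain ⟨z, hz⟩ := classInner_virtual_int (hgen χ hχ)
        (⟨ξ, 0, isCharacter_of_irr ξ.2, isCharacter_zero, by simp⟩ : IsGeneralizedCharacter _ (ξ : _ → ℂ))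
      refine ⟨z, ?_⟩
      rw [← hz, ht ξ ⟨ξ.2, (rel_iff K ξ).1 hξ⟩, (hd ξ hξ).1]; ring)
    have hB : ∀ μ : IrrCharacter ↥(Subgroup.normalizer (K : Set G)), ∃ z : ℤ,
        (if Rel (K.subgroupOf (Subgroup.normalizer (K : Set G))) μ then 0 else classInner (γ χ) μ *
          (μ : ↥(Subgroup.normalizer (K : Set G)) → ℂ) 1) = z := by
      intro μ
      split_ifs
      · exact ⟨0, by simp⟩
      · obtain ⟨z, hz⟩ := classInner_virtual_int (hgen χ hχ)
          (⟨μ, 0, isCharacter_of_irr μ.2, isCharacter_zero, by simp⟩ : IsGeneralizedCharacter _ (μ : _ → ℂ))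
        obtain ⟨n, -, hn⟩ := irr_apply_one_nat μ
        exact ⟨z * n, by rw [hz, hn]; push_cast; ring⟩
    choose zB hzB using hB
    refine ⟨∑ μ, zB μ - z₁, ?_⟩
    push_cast
    rw [← hz₁]
    congr 1
    exact Finset.sum_congr rfl fun μ _ => hzB μ
  -- proportionality
  have hprop : ∀ χ ∈ relSet K, ∀ ξ ∈ relSet K, χ 1 * γ ξ k₀ = ξ 1 * γ χ k₀ := by
    intro χ hχ ξ hξ
    obtain ⟨n, hn0, hn⟩ := irr_apply_one_nat ⟨χ, hχ.1⟩
    obtain ⟨n', hn0', hn'⟩ := irr_apply_one_nat ⟨ξ, hξ.1⟩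
    simp only at hn hn'
    obtain ⟨hmem, hst, hvan, hcf⟩ := tif_alpha hC hstar hχ hξ hn hn'
    have h1 := indFun_eq_on_TI' _ _ hTI' _ hcf hvan k₀ hk₀T
    rw [← hext _ hmem, hst] at h1
    simp only [Pi.add_apply, Pi.smul_apply] at h1
    simp only [zsmul_eq_mul] at h1
    push_cast at h1
    simp only [γ, Pi.sub_apply]
    rw [hn, hn']
    linear_combination h1
  have hd₀ : (d ⟨χ₀, hχ₀.1⟩ : ℂ) ≠ 0 := by
    intro h
    have h1 := (hd ⟨χ₀, hχ₀.1⟩ (hRel hχ₀)).1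
    rw [h, mul_zero] at h1
    exact irr_apply_one_ne_zero ⟨χ₀, hχ₀.1⟩ h1
  have hrd : ∀ ξ, (hξ : ξ ∈ relSet K) → γ χ₀ k₀ / (d ⟨χ₀, hχ₀.1⟩ : ℂ) * (d ⟨ξ, hξ.1⟩ : ℂ) = γ ξ k₀ := by
    intro ξ hξ
    have h1 := hprop χ₀ hχ₀ ξ hξ
    have h2 := (hd ⟨χ₀, hχ₀.1⟩ (hRel hχ₀)).1
    have h3 := (hd ⟨ξ, hξ.1⟩ (hRel hξ)).1
    simp only at h2 h3
    rw [h2, h3] at h1
    have h4 : (d ⟨χ₀, hχ₀.1⟩ : ℂ) * γ ξ k₀ = (d ⟨ξ, hξ.1⟩ : ℂ) * γ χ₀ k₀ := by
      apply mul_left_cancel₀ he0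
      linear_combination h1
    field_simp
    linear_combination -h4
  obtain ⟨m, hm⟩ := int_of_rel (K.subgroupOf (Subgroup.normalizer (K : Set G))) d hd hne
    (γ χ₀ k₀ / (d ⟨χ₀, hχ₀.1⟩ : ℂ)) (by
      intro ξ hξ
      have hξ' : (ξ : _ → ℂ) ∈ relSet K := ⟨ξ.2, (rel_iff K ξ).1 hξ⟩
      obtain ⟨z, hz⟩ := (hconst ξ hξ').2
      exact ⟨z, by rw [← hz, ← hrd ξ hξ']⟩)
  refine ⟨m, ?_⟩
  intro χ hχ k hk hk1
  have h1 := (hconst χ hχ).1 k hk hk1
  have h2 := hrd χ hχ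
  have h3 := (hd ⟨χ, hχ.1⟩ (hRel hχ)).1
  simp only at h3
  have h4 : star χ k - χ k = γ χ k := rfl
  rw [h4, h1, ← h2, hm]
  generalize (d ⟨χ, hχ.1⟩ : ℂ) = dd at h3
  rw [h3]
  field_simp

end Cfsg.Agent.S0853
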