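import Cfsg.Statements.S0855
import Cfsg.Agent.S4456
import Cfsg.Agent.S0887
import Cfsg.Agent.S0169
import Cfsg.Agent.Lib.Helper23.DegLib
import Cfsg.Agent.Lib.Helper23.CharDeg2
-- import your own Cfsg.Agent.* helpers here

set_option autoImplicit false
open Cfsg Cfsg.Agent.CharLib Cfsg.Agent.Lib.Helper23

namespace Cfsg.Agent.S0855

/-- For a finite group G and a prime p: every irreducible character of G has degree a power of p if and only if G has an abelian normal subgroup whose order is prime to p and whose index is a power of p. -/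
theorem result {G : Type*} [Group G] [Finite G] (p : ℕ) (hp : p.Prime) : (∀ χ : Cfsg.IrrCharacter G, ∃ k : ℕ, (χ : G → ℂ) 1 = (p : ℂ) ^ k) ↔ ∃ A : Subgroup G, A.Normal ∧ (∀ a ∈ A, ∀ b ∈ A, a * b = b * a) ∧ Nat.Coprime (Nat.card A) p ∧ ∃ k : ℕ, A.index = p ^ k := by
  classical
  cases nonempty_fintype G
  constructor
  · intro h
    have hdeg : ∀ χ : Cfsg.IrrCharacter G, Cfsg.charDegree (χ : G → ℂ) ≠ 1 →
        p ∣ Cfsg.charDegree (χ : G → ℂ) := by
      intro χ hne
      obtain ⟨k, hk⟩ := h χ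
      have h1 : Cfsg.charDegree (χ : G → ℂ) = p ^ k := by
        have := charDegree_cast_irr χ
        rw [hk] at this
        exact_mod_cast this
      rw [h1] at hne ⊢
      rcases Nat.eq_zero_or_pos k with rfl | hk0
      · simp at hne
      · exact dvd_pow_self p hk0.ne'
    obtain ⟨N, hN, hcop, k, hk⟩ := Cfsg.Agent.S4456.result p hp hdeg
    refine ⟨N, hN, ?_, hcop, k, hk⟩
    haveI := hN
    have hlin : ∀ θ : Cfsg.IrrCharacter N, (θ : N → ℂ) 1 = 1 := by
      intro θ
      obtain ⟨χ, hχ⟩ := exists_irr_over N θ.2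
      obtain ⟨j, hj⟩ := h χ
      have h1 := (Cfsg.Agent.S0887.result N (χ : G → ℂ) χ.2 (θ : N → ℂ) θ.2 hχ (p ^ j)
        (Cfsg.charDegree (θ : N → ℂ)) (by rw [hj]; push_cast; rfl) (charDegree_cast_irr θ).symm).1
      have h2 := charDegree_dvd_card θ
      have h3 : Cfsg.charDegree (θ : N → ℂ) = 1 := by
        have h4 : Nat.Coprime (Nat.card N) (p ^ j) := Nat.Coprime.pow_right j hcop
        exact Nat.eq_one_of_dvd_coprimes h4 h2 h1
      rw [← charDegree_cast_irr θ, h3]; simp
    intro a ha b hb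
    have := comm_of_all_linear hlin ⟨a, ha⟩ ⟨b, hb⟩
    exact congrArg Subtype.val this
  · rintro ⟨A, hA, hcomm, hcop, k, hk⟩ χ
    haveI := hA
    obtain ⟨n, ρ, hρ, hχ⟩ := χ.2
    haveI := hρ
    have h1 := Cfsg.Agent.S0169.result ρ A hcomm
    rw [hk] at h1
    obtain ⟨j, -, hj⟩ := (Nat.dvd_prime_pow hp).1 h1
    refine ⟨j, ?_⟩
    rw [← hχ, Representation.char_one, hj]
    push_cast; rfl

end Cfsg.Agent.S0855
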