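import Cfsg.Statements.S0857
import Cfsg.Agent.Lib.Helper10.RelCliff
import Cfsg.Agent.Lib.Helper10.Cliff
import Cfsg.Agent.Lib.Helper10.Star
import Cfsg.Agent.CharLib.CliffordInd
import Cfsg.Agent.Lib.Helper23.DegLib
-- import your own Cfsg.Agent.* helpers here

set_option autoImplicit false
open Cfsg Cfsg.Agent.CharLib Cfsg.Agent.CharLib.H2 Cfsg.Agent.Lib.Helper10 Cfsg.Agent.Lib.Helper23
open scoped ComplexConjugate commutatorElement

namespace Cfsg.Agent.S0857

/-- Let L < K be normal subgroups of the finite group G with no normal subgroup of G strictly between them and with K / L abelian (the commutator subgroup of K lies in L). Let ϑ be an irreducible character of K invariant under conjugation by G. Then the restriction of ϑ to L is irreducible; or it equals e times an irreducible character of L with e ^ 2 equal to the index of L in K; or it is the sum of a family of pairwise distinct irreducible characters of L indexed by a set whose size is the index of L in K. -/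
theorem result {G : Type*} [Group G] [Fintype G] (K L : Subgroup G) [hK : K.Normal] [L.Normal] (hLK : L < K) (hchief : ∀ M : Subgroup G, M.Normal → L ≤ M → M ≤ K → M = L ∨ M = K) (hab : ⁅K, K⁆ ≤ L) (ϑ : K → ℂ) (hϑ : Cfsg.IsIrrCharacter K ϑ) (hinv : ∀ (g : G) (n : K), ϑ ⟨g * n * g⁻¹, hK.conj_mem (n : G) n.2 g⟩ = ϑ n) : Cfsg.IsIrrCharacter L (fun x : L => ϑ ⟨(x : G), hLK.le x.2⟩) ∨ (∃ (φ : L → ℂ) (e : ℕ), Cfsg.IsIrrCharacter L φ ∧ (fun x : L => ϑ ⟨(x : G), hLK.le x.2⟩) = (e : ℂ) • φ ∧ e ^ 2 = L.relIndex K) ∨ (∃ F : Finset (L → ℂ), (∀ φ ∈ F, Cfsg.IsIrrCharacter L φ) ∧ F.card = L.relIndex K ∧ (fun x : L => ϑ ⟨(x : G), hLK.le x.2⟩) = ∑ φ ∈ F, φ) := by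
  classical
  have hL : L.Normal := inferInstance
  letI : Fintype K := Fintype.ofFinite K
  letI : Fintype L := Fintype.ofFinite L
  set r : L → ℂ := fun x : L => ϑ ⟨(x : G), hLK.le x.2⟩ with hr
  let N : Subgroup K := L.subgroupOf K
  haveI hN : N.Normal := hL.subgroupOf K
  letI : Fintype N := Fintype.ofFinite N
  let e : N ≃* L := Subgroup.subgroupOfEquivOfLe hLK.le
  have hQ : ∀ a b : K ⧸ N, a * b = b * a := by
    intro a b
    induction a using QuotientGroup.induction_on with
    | H a =>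
    induction b using QuotientGroup.induction_on with
    | H b =>
    rw [← QuotientGroup.mk_mul, ← QuotientGroup.mk_mul, QuotientGroup.eq]
    rw [Subgroup.mem_subgroupOf]
    apply hab
    have : (((a * b)⁻¹ * (b * a) : K) : G) = ⁅((b : G)⁻¹ : G), ((a : G)⁻¹ : G)⁆ := by
      simp [commutatorElement_def, mul_assoc]
    rw [this]
    exact Subgroup.commutator_mem_commutator (K.inv_mem b.2) (K.inv_mem a.2)
  have hrchar : IsCharacter L r :=
    isCharacter_comp (isCharacter_of_irr hϑ) (Subgroup.inclusion hLK.le)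
  have hnorm : classInner r r = classInner (fun n : N => ϑ n) (fun n : N => ϑ n) :=
    (H6.classInner_comp_mulEquiv e r r).symm
  by_cases hcase : ∀ μ : IrrCharacter (K ⧸ N), twist N μ ϑ = ϑ → ∀ q, (μ : K ⧸ N → ℂ) q = 1
  · left
    apply isIrrCharacter_of_norm_one hrchar
    rw [hnorm]
    exact norm_restrict_eq_one N hQ hϑ hcase
  right
  push Not at hcase
  obtain ⟨μ, hμ, q, hq⟩ := hcase
  obtain ⟨ω, hω⟩ := exists_hom_of_irr_of_comm hQ μ.2
  let W : Subgroup G := (MonoidHom.ker (ω.comp (QuotientGroup.mk' N))).map K.subtype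
  have hWK : W ≤ K := by
    rintro _ ⟨x, -, rfl⟩
    exact x.2
  have hLW : L ≤ W := by
    intro x hx
    refine ⟨⟨x, hLK.le hx⟩, ?_, rfl⟩
    rw [SetLike.mem_coe, MonoidHom.mem_ker, MonoidHom.comp_apply, QuotientGroup.mk'_apply,
      (QuotientGroup.eq_one_iff _).2 (Subgroup.mem_subgroupOf.2 hx), map_one]
  have hmemW : ∀ y : K, (y : G) ∈ W → (μ : K ⧸ N → ℂ) (y : K ⧸ N) = 1 := by
    intro y hy
    obtain ⟨z, hz, hzy⟩ := hy
    have hzy' : z = y := Subtype.ext hzy
    subst hzy'
    have h1 := MonoidHom.mem_ker.1 hz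
    rw [MonoidHom.comp_apply, QuotientGroup.mk'_apply] at h1
    rw [hω]
    change ((ω (z : K ⧸ N) : ℂˣ) : ℂ) = 1
    rw [h1]
    rfl
  have hmemW' : ∀ y : K, (μ : K ⧸ N → ℂ) (y : K ⧸ N) = 1 → (y : G) ∈ W := by
    intro y hy
    refine ⟨y, ?_, rfl⟩
    rw [SetLike.mem_coe, MonoidHom.mem_ker, MonoidHom.comp_apply, QuotientGroup.mk'_apply]
    rw [hω] at hy
    exact Units.ext hy
  have hcore := hchief W.normalCore inferInstance ((Subgroup.normal_le_normalCore).2 hLW)
    ((Subgroup.normalCore_le W).trans hWK)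
  have hcoreL : W.normalCore = L := by
    rcases hcore with h | h
    · exact h
    · exfalso
      obtain ⟨x, rfl⟩ := QuotientGroup.mk_surjective q
      exact hq (hmemW x (Subgroup.normalCore_le W (by rw [h]; exact x.2)))
  have hvan : ∀ x : K, x ∉ N → ϑ x = 0 := by
    intro x hx
    have hx' : (x : G) ∉ W.normalCore := by
      rw [hcoreL]
      exact fun h => hx (Subgroup.mem_subgroupOf.2 h)
    have : ∃ g : G, g * x * g⁻¹ ∉ W := by
      by_contra hcon
      push Not at hcon
      exact hx' hcon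
    obtain ⟨g, hg⟩ := this
    rw [← hinv g x]
    generalize hy : (⟨g * x * g⁻¹, hK.conj_mem (x : G) x.2 g⟩ : K) = y
    have hg' : (y : G) ∉ W := by rw [← hy]; exact hg
    have h1 := congrFun hμ y
    by_contra h0
    apply hg'
    apply hmemW'
    simp only [twist] at h1
    exact mul_right_cancel₀ h0 (h1.trans (one_mul _).symm)
  have hnorm2 : classInner r r = (L.relIndex K : ℂ) := by
    rw [hnorm, norm_restrict_of_vanish N hϑ hvan]
    rfl
  obtain ⟨m, hm, hm2⟩ := H2.exists_mult hrchar
  have hsq : ∑ χ : IrrCharacter L, (m χ) ^ 2 = L.relIndex K := by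
    have h1 : classInner r r = ∑ χ : IrrCharacter L, (m χ : ℂ) * conj (m χ : ℂ) := by
      conv_lhs => rw [hm]
      exact classInner_sum_sum _ _
    rw [hnorm2] at h1
    have h2 : ((L.relIndex K : ℕ) : ℂ) = ((∑ χ : IrrCharacter L, (m χ) ^ 2 : ℕ) : ℂ) := by
      rw [h1]
      push_cast
      refine Finset.sum_congr rfl fun χ _ => ?_
      rw [Complex.conj_natCast, sq]
    exact_mod_cast h2.symm
  have hr0 : r ≠ 0 := by
    intro h
    have h1 := congrFun h 1
    exact irr_apply_one_ne_zero ⟨ϑ, hϑ⟩ h1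
  obtain ⟨φ, hφ⟩ := exists_constituent hrchar hr0
  have hrinv : ∀ g : G, H2.conjFun hL r g = r := by
    intro g
    funext n
    exact hinv g ⟨n, hLK.le n.2⟩
  have hconj : ∀ g : G, classInner r (H2.conjFun hL φ g) = classInner r φ := by
    intro g
    conv_lhs => rw [← hrinv g]
    exact classInner_conjFun hL r φ g
  have htrans : ∀ g : G, ∃ k ∈ K, H2.conjFun hL φ g = H2.conjFun hL φ k := by
    intro g
    exact rel_clifford_conj L K hL hLK.le hϑ φ.2 (isIrrCharacter_conjFun hL φ.2 g) hφ
      (by rw [← hr, hconj g]; exact hφ)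
  let TK : Subgroup G := inertia hL φ ⊓ K
  have hTKn : TK.Normal := by
    constructor
    intro x hx g
    refine ⟨?_, hK.conj_mem x hx.2 g⟩
    change H2.conjFun hL φ (g * x * g⁻¹) = φ
    obtain ⟨k, hk, hgk⟩ := htrans g
    have hx1 : H2.conjFun hL φ x = φ := hx.1
    have h1 : H2.conjFun hL (H2.conjFun hL φ g) x = H2.conjFun hL φ g := by
      rw [hgk, conjFun_conjFun]
      have hc : k⁻¹ * x⁻¹ * k * x ∈ L := hab (by
        have : k⁻¹ * x⁻¹ * k * x = ⁅k⁻¹, x⁻¹⁆ := by simp [commutatorElement_def]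
        rw [this]
        exact Subgroup.commutator_mem_commutator (K.inv_mem hk) (K.inv_mem hx.2))
      have h2 : k * x = x * k * (k⁻¹ * x⁻¹ * k * x) := by group
      rw [h2, ← conjFun_conjFun hL _ (x * k) (k⁻¹ * x⁻¹ * k * x), ← conjFun_conjFun hL _ x k, hx1]
      exact conjFun_of_mem hL (isClassFunction_of_irr (isIrrCharacter_conjFun hL φ.2 k)) hc
    rw [← conjFun_conjFun, ← conjFun_conjFun, h1, conjFun_conjFun, mul_inv_cancel, conjFun_one]
  have hLTK : L ≤ TK := le_inf (le_inertia hL (isClassFunction_of_irr φ.2)) hLK.le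
  rcases hchief TK hTKn hLTK inf_le_right with hT | hT
  · -- the inertia group is `L`
    right
    let f : K → IrrCharacter L := fun k => ⟨H2.conjFun hL φ k, isIrrCharacter_conjFun hL φ.2 k⟩
    let F₀ : Finset (IrrCharacter L) := Finset.univ.image f
    have hmF : ∀ χ ∈ F₀, m χ = m φ := by
      intro χ hχ
      obtain ⟨k, -, rfl⟩ := Finset.mem_image.1 hχ
      have h1 := hconj k
      have h2 : classInner r ((f k : IrrCharacter L) : L → ℂ) = classInner r φ := h1
      rw [hm2, hm2] at h2
      exact_mod_cast h2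
    have hmF' : ∀ χ, χ ∉ F₀ → m χ = 0 := by
      intro χ hχ
      by_contra h0
      apply hχ
      have h1 : classInner r (χ : L → ℂ) ≠ 0 := by
        rw [hm2]
        exact_mod_cast h0
      obtain ⟨k, hk, hk2⟩ := rel_clifford_conj L K hL hLK.le hϑ φ.2 χ.2 hφ h1
      exact Finset.mem_image.2 ⟨⟨k, hk⟩, Finset.mem_univ _, Subtype.ext hk2.symm⟩
    have hcard : F₀.card * Nat.card L = Nat.card K := by
      have h1 : (Finset.univ : Finset K).card =
          ∑ χ ∈ F₀, (Finset.univ.filter (fun k : K => f k = χ)).card :=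
        Finset.card_eq_sum_card_image f Finset.univ
      have h2 : ∀ χ ∈ F₀, (Finset.univ.filter (fun k : K => f k = χ)).card = Nat.card L := by
        intro χ hχ
        obtain ⟨k₀, -, rfl⟩ := Finset.mem_image.1 hχ
        rw [Nat.card_eq_fintype_card, ← Finset.card_univ]
        symm
        refine Finset.card_bij
          (fun (x : L) _ => (⟨x * k₀, K.mul_mem (hLK.le x.2) k₀.2⟩ : K)) ?_ ?_ ?_
        · intro x _
          rw [Finset.mem_filter]
          refine ⟨Finset.mem_univ _, Subtype.ext ?_⟩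
          change H2.conjFun hL φ (x * k₀) = H2.conjFun hL φ k₀
          rw [← conjFun_conjFun, conjFun_of_mem hL (isClassFunction_of_irr φ.2) x.2]
        · intro a _ b _ h
          have h3 := congrArg Subtype.val h
          exact Subtype.ext (mul_right_cancel h3)
        · intro k hk
          have h3 : H2.conjFun hL φ k = H2.conjFun hL φ k₀ := congrArg Subtype.val (Finset.mem_filter.1 hk).2
          rw [conjFun_eq_iff] at h3
          have h4 : (k : G) * (k₀ : G)⁻¹ ∈ TK := ⟨h3, K.mul_mem k.2 (K.inv_mem k₀.2)⟩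
          rw [hT] at h4
          exact ⟨⟨_, h4⟩, Finset.mem_univ _, Subtype.ext (by simp)⟩
      rw [Finset.sum_congr rfl h2, Finset.sum_const, smul_eq_mul, Finset.card_univ,
        ← Nat.card_eq_fintype_card] at h1
      exact h1.symm
    have hcard2 : F₀.card = L.relIndex K := by
      have h1 : L.relIndex K * Nat.card L = Nat.card K := by
        rw [← Nat.card_congr e.toEquiv]
        exact Subgroup.index_mul_card N
      have h2 : 0 < Nat.card L := Nat.card_pos
      exact Nat.eq_of_mul_eq_mul_right h2 (hcard.trans h1.symm)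
    have hsq2 : F₀.card * (m φ) ^ 2 = L.relIndex K := by
      rw [← hsq, ← Finset.sum_subset (Finset.subset_univ F₀)
        (fun χ _ hχ => by rw [hmF' χ hχ]; simp),
        Finset.sum_congr rfl (fun χ hχ => by rw [hmF χ hχ]), Finset.sum_const, smul_eq_mul]
    have hm1 : m φ = 1 := by
      rw [hcard2] at hsq2
      have h0 : 0 < L.relIndex K := by
        rw [← hcard2]
        exact Finset.card_pos.2 ⟨f 1, Finset.mem_image.2 ⟨1, Finset.mem_univ _, rfl⟩⟩
      have h1 : (m φ) ^ 2 = 1 := Nat.eq_of_mul_eq_mul_left h0 (by rw [hsq2, mul_one])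
      exact (Nat.pow_eq_one.1 h1).resolve_right (by norm_num)
    refine ⟨F₀.map ⟨Subtype.val, Subtype.val_injective⟩, ?_, ?_, ?_⟩
    · intro ψ hψ
      obtain ⟨χ, -, rfl⟩ := Finset.mem_map.1 hψ
      exact χ.2
    · rw [Finset.card_map, hcard2]
    · rw [Finset.sum_map]
      conv_lhs => rw [hm]
      rw [← Finset.sum_subset (Finset.subset_univ F₀)
        (fun χ _ hχ => by rw [hmF' χ hχ]; simp)]
      refine Finset.sum_congr rfl fun χ hχ => ?_
      rw [hmF χ hχ, hm1]
      simp
  · -- `φ` is invariant in `K`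
    left
    have hinvK : ∀ g ∈ K, ∀ n : L, (φ : L → ℂ) ⟨g * n * g⁻¹, hL.conj_mem (n : G) n.2 g⟩ =
        (φ : L → ℂ) n := by
      intro g hg n
      have h1 : g ∈ TK := by rw [hT]; exact hg
      exact congrFun h1.1 n
    have h1 := H6.restrict_eq_smul_of_invariant_le L K hL hLK.le hϑ φ.2 hφ hinvK
    have h2 : r = (m φ : ℂ) • (φ : L → ℂ) := by
      rw [← hm2 φ]
      exact h1
    refine ⟨φ, m φ, φ.2, h2, ?_⟩
    have h3 : classInner r r = (m φ : ℂ) ^ 2 := by
      conv_lhs => rw [h2]
      rw [classInner_smul_left, classInner_smul_right, classInner_irr_self φ.2, Complex.conj_natCast]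
      ring
    rw [hnorm2] at h3
    exact_mod_cast h3.symm

end Cfsg.Agent.S0857
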