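import Cfsg.Statements.S0858
import Cfsg.Agent.S0857
import Cfsg.Agent.S0854
import Cfsg.Agent.Lib.Helper10.Descend
import Cfsg.Agent.H6.CliffInv
-- import your own Cfsg.Agent.* helpers here

set_option autoImplicit false
open Cfsg Cfsg.Agent.CharLib Cfsg.Agent.CharLib.H2 Cfsg.Agent.Lib.Helper10

namespace Cfsg.Agent.S0858

universe u

theorem aux (n : ℕ) : ∀ (G : Type u) [Group G] [Fintype G] (N : Subgroup G) [N.Normal], N.index = n →
    Group.IsSolvable (G ⧸ N) →
    (∀ (H K L : Subgroup G), N ≤ L → L < K → K ≤ H → (∀ h ∈ H, ∀ k ∈ K, h * k * h⁻¹ ∈ K) →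
      (∀ h ∈ H, ∀ l ∈ L, h * l * h⁻¹ ∈ L) →
      (∀ M : Subgroup G, L ≤ M → M ≤ K → (∀ h ∈ H, ∀ m ∈ M, h * m * h⁻¹ ∈ M) → M = L ∨ M = K) →
      ¬ IsSquare (L.relIndex K)) →
    ∀ (χ : G → ℂ), Cfsg.IsIrrCharacter G χ →
    ∃ (H : Subgroup G) (hNH : N ≤ H) (ψ : H → ℂ), Cfsg.IsIrrCharacter H ψ ∧ Cfsg.indFun H ψ = χ ∧
      Cfsg.IsIrrCharacter N (fun n : N => ψ ⟨(n : G), hNH n.2⟩) := by
  induction n using Nat.strong_induction_on with
  | _ n ih =>
  intro G _ _ N _ hn hsolv hchief χ hχ
  classical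
  have hNn : N.Normal := inferInstance
  let _ : Fintype N := Fintype.ofFinite N
  have sub : ∀ (H : Subgroup G), N ≤ H → H ≠ ⊤ → ∀ ψ : H → ℂ, IsIrrCharacter H ψ → indFun H ψ = χ →
      ∃ (H : Subgroup G) (hNH : N ≤ H) (ψ : H → ℂ), Cfsg.IsIrrCharacter H ψ ∧
        Cfsg.indFun H ψ = χ ∧ Cfsg.IsIrrCharacter N (fun n : N => ψ ⟨(n : G), hNH n.2⟩) := by
    intro H hNH hH ψ hψ hind
    let _ : Fintype H := Fintype.ofFinite H
    have hlt : (N.subgroupOf H).index < n := by
      have h1 := Subgroup.relIndex_mul_index hNH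
      have h2 : 1 < H.index := by
        have h3 : H.index ≠ 1 := fun h => hH (Subgroup.index_eq_one.1 h)
        have h4 : H.index ≠ 0 := Subgroup.index_ne_zero_of_finite
        omega
      have h5 : 0 < N.relIndex H :=
        Nat.pos_of_ne_zero (Subgroup.index_ne_zero_of_finite (H := N.subgroupOf H))
      rw [hn] at h1
      change N.relIndex H < n
      nlinarith
    have h6 := ih _ hlt H (N.subgroupOf H) rfl (isSolvable_quotient_subgroupOf N H hsolv)
      (chief_transfer (fun k => ¬ IsSquare k) N H hNH hchief) ψ hψ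
    obtain ⟨H₂, h₂, ψ₂, a, b, c⟩ := descend N H hNH ψ h6
    exact ⟨H₂, h₂, ψ₂, a, b.trans hind, c⟩
  by_cases hirrN : IsIrrCharacter N (fun n : N => χ n)
  · refine ⟨⊤, le_top, fun x => χ x, ?_, ?_, hirrN⟩
    · exact isIrrCharacter_comp_of_surjective hχ (⊤ : Subgroup G).subtype
        (fun g => ⟨⟨g, trivial⟩, rfl⟩)
    · funext g
      rw [indFun_top _ (fun x y => isClassFunction_of_irr hχ x y)]
  have hNtop : N ≠ ⊤ := by
    intro h
    apply hirrN
    exact isIrrCharacter_comp_of_surjective hχ N.subtype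
      (fun g => ⟨⟨g, by rw [h]; trivial⟩, rfl⟩)
  obtain ⟨K, hKn, hNK, hchiefK⟩ := exists_chief N hNtop
  have hab : ⁅K, K⁆ ≤ N := commutator_le_of_chief N K hNK hsolv hchiefK
  have hns : ¬ IsSquare (N.relIndex K) := hchief ⊤ K N le_rfl hNK le_top
    (fun h _ k hk => hKn.conj_mem k hk h) (fun h _ l hl => hNn.conj_mem l hl h)
    (fun M hNM hMK hM => hchiefK M ⟨fun m hm g => hM g (Subgroup.mem_top g) m hm⟩ hNM hMK)
  have hrel : 1 < N.relIndex K := by
    have h3 : N.relIndex K ≠ 1 := fun h => absurd hNK (not_lt_of_ge (Subgroup.relIndex_eq_one.1 h))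
    have h4 : N.relIndex K ≠ 0 := Subgroup.index_ne_zero_of_finite (H := N.subgroupOf K)
    omega
  by_cases hirrK : IsIrrCharacter K (fun k : K => χ k)
  · have hinv : ∀ (g : G) (k : K), (fun k : K => χ k) ⟨g * k * g⁻¹, hKn.conj_mem (k : G) k.2 g⟩ =
        (fun k : K => χ k) k := fun g k => isClassFunction_of_irr hχ k g
    rcases Cfsg.Agent.S0857.result K N hNK hchiefK hab (fun k : K => χ k) hirrK hinv with
      h | ⟨φ, e, hφ, he, he2⟩ | ⟨F, hF, hFc, hFs⟩
    · exact absurd h hirrN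
    · exact absurd ⟨e, by rw [← he2, sq]⟩ hns
    · have h1 : 1 < F.card := by rw [hFc]; exact hrel
      obtain ⟨φ, hφ, φ', hφ', hne⟩ := Finset.one_lt_card.1 h1
      have hFs' : (fun n : N => χ n) = ∑ φ ∈ F, φ := hFs
      have hinner : ∀ ψ ∈ F, classInner (fun n : N => χ n) ψ = 1 := by
        intro ψ hψ
        rw [hFs', classInner_sum_left, Finset.sum_eq_single ψ, classInner_irr_self (hF ψ hψ)]
        · intro b hb hbψ
          exact classInner_irr_ne (hF b hb) (hF ψ hψ) hbψ
        · intro h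
          exact absurd hψ h
      have hT : inertia hNn φ ≠ ⊤ := by
        intro hT
        have hinvφ : ∀ (g : G) (n : N), φ ⟨g * n * g⁻¹, hNn.conj_mem (n : G) n.2 g⟩ = φ n := by
          intro g n
          have h2 : g ∈ inertia hNn φ := by rw [hT]; trivial
          exact congrFun h2 n
        have h2 := H6.restrict_eq_smul_of_invariant N hNn hχ (hF φ hφ)
          (by rw [hinner φ hφ]; exact one_ne_zero) hinvφ
        have h3 := hinner φ' hφ'
        rw [h2, classInner_smul_left, classInner_irr_ne (hF φ hφ) (hF φ' hφ') hne, mul_zero] at h3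
        exact zero_ne_one h3
      have hNT : N ≤ inertia hNn φ := le_inertia hNn (isClassFunction_of_irr (hF φ hφ))
      let _ : Fintype (inertia hNn φ) := Fintype.ofFinite _
      obtain ⟨η, hη, hηind, -⟩ := Cfsg.Agent.S0854.result N φ (hF φ hφ) (inertia hNn φ)
        (fun g => ⟨fun h n => congrFun h n, fun h => funext h⟩) hNT χ hχ
        (by rw [hinner φ hφ]; exact one_ne_zero)
      exact sub _ hNT hT η hη hηind
  · have hlt : K.index < n := by
      have h1 := Subgroup.relIndex_mul_index hNK.le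
      have h4 : 0 < K.index := Nat.pos_of_ne_zero Subgroup.index_ne_zero_of_finite
      rw [hn] at h1
      nlinarith
    obtain ⟨H, hKH, ψ, hψ, hind, hres⟩ := ih _ hlt G K rfl
      (isSolvable_quotient_of_le N K hNK.le hsolv)
      (fun H' K' L' hKL => hchief H' K' L' (hNK.le.trans hKL)) χ hχ
    have hH : H ≠ ⊤ := by
      rintro rfl
      apply hirrK
      have h1 : (fun k : K => χ k) = fun k : K => ψ ⟨k, hKH k.2⟩ := by
        funext k
        rw [← hind, indFun_top _ (isClassFunction_of_irr hψ)]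
      rw [h1]
      exact hres
    exact sub H (hNK.le.trans hKH) hH ψ hψ hind

/-- Let N be a normal subgroup of the finite group G with G / N solvable, and suppose that for every subgroup H containing N and all subgroups L < K between N and H that are normal in H with no subgroup normal in H strictly between them, the index of L in K is not a perfect square. Then every irreducible character χ of G is induced from an irreducible character ψ of some subgroup H containing N such that the restriction of ψ to N is irreducible. -/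
theorem result {G : Type*} [Group G] [Fintype G] (N : Subgroup G) [N.Normal] (hsolv : Group.IsSolvable (G ⧸ N)) (hchief : ∀ (H K L : Subgroup G), N ≤ L → L < K → K ≤ H → (∀ h ∈ H, ∀ k ∈ K, h * k * h⁻¹ ∈ K) → (∀ h ∈ H, ∀ l ∈ L, h * l * h⁻¹ ∈ L) → (∀ M : Subgroup G, L ≤ M → M ≤ K → (∀ h ∈ H, ∀ m ∈ M, h * m * h⁻¹ ∈ M) → M = L ∨ M = K) → ¬ IsSquare (L.relIndex K)) (χ : G → ℂ) (hχ : Cfsg.IsIrrCharacter G χ) : ∃ (H : Subgroup G) (hNH : N ≤ H) (ψ : H → ℂ), Cfsg.IsIrrCharacter H ψ ∧ Cfsg.indFun H ψ = χ ∧ Cfsg.IsIrrCharacter N (fun n : N => ψ ⟨(n : G), hNH n.2⟩) := 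
  aux _ G N rfl hsolv hchief χ hχ

end Cfsg.Agent.S0858
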