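import Cfsg.Statements.S0859
import Cfsg.Agent.Lib.Helper23.MG2

set_option autoImplicit false
open Cfsg

namespace Cfsg.Agent.S0859

open Cfsg

/-- Let G be a finite solvable group and N a normal subgroup such that for every prime p every Sylow p-subgroup of N is abelian. Suppose every irreducible character of G is induced from an irreducible character of some subgroup containing N whose restriction to N is irreducible. Then every irreducible character of G is induced from a character of degree 1 of some subgroup. -/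
theorem result {G : Type*} [Group G] [Fintype G] [Group.IsSolvable G] (N : Subgroup G) [N.Normal] (hab : ∀ (p : ℕ) [Fact p.Prime] (P : Sylow p N), ∀ a ∈ P, ∀ b ∈ P, a * b = b * a) (hrel : ∀ χ : G → ℂ, Cfsg.IsIrrCharacter G χ → ∃ (H : Subgroup G) (hNH : N ≤ H) (ψ : H → ℂ), Cfsg.IsIrrCharacter H ψ ∧ Cfsg.indFun H ψ = χ ∧ Cfsg.IsIrrCharacter N (fun n : N => ψ ⟨(n : G), hNH n.2⟩)) (χ : G → ℂ) (hχ : Cfsg.IsIrrCharacter G χ) : ∃ (U : Subgroup G) (lam : U → ℂ), Cfsg.IsCharacter U lam ∧ lam 1 = 1 ∧ Cfsg.indFun U lam = χ := by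
  classical
  obtain ⟨H, hNH, ψ, hψ, hind, hirr⟩ := hrel χ hχ
  letI : Fintype H := Fintype.ofFinite H
  have e := Subgroup.subgroupOfEquivOfLe hNH
  have hab' : Cfsg.Agent.Lib.Helper23.MG.ASyl (N.subgroupOf H) :=
    Cfsg.Agent.Lib.Helper23.MG.ASyl.of_injective (N := N) hab
      (Subgroup.subgroupOfEquivOfLe hNH).toMonoidHom (Subgroup.subgroupOfEquivOfLe hNH).injective
  have hirr' : IsIrrCharacter (N.subgroupOf H) (fun x : N.subgroupOf H => ψ x) :=
    Cfsg.Agent.CharLib.isIrrCharacter_comp_of_surjective hirr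
      (Subgroup.subgroupOfEquivOfLe hNH).toMonoidHom (Subgroup.subgroupOfEquivOfLe hNH).surjective
  obtain ⟨H', lam, hlam⟩ := Cfsg.Agent.Lib.Helper23.MG.monomial_aux _ H (N.subgroupOf H) hab' rfl
    ψ hψ hirr'
  refine ⟨H'.map H.subtype, fun h => ((lam.comp
      (H'.equivMapOfInjective H.subtype H.subtype_injective).symm.toMonoidHom) h : ℂ), ?_, ?_, ?_⟩
  · exact Cfsg.Agent.CharLib.isCharacter_of_irr (Cfsg.Agent.CharLib.isIrrCharacter_of_hom _)
  · simp
  · rw [← hind, hlam, Cfsg.Agent.CharLib.H2.indFun_indFun]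
    rfl

end Cfsg.Agent.S0859
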