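import Mathlib
import Cfsg.Statements.S0860
import Cfsg.Agent.CharLib.PermLemma

set_option autoImplicit false
open Cfsg

namespace Cfsg.Agent.S0860

theorem result {G : Type*} [Group G] [Finite G] {A : Type*} [Group A] [MulAction A (Cfsg.IrrCharacter G)] [MulAction A (ConjClasses G)] (hcompat : ∀ (a : A) (χ : Cfsg.IrrCharacter G) (g g' : G), ConjClasses.mk g' = a • ConjClasses.mk g → ((a • χ : Cfsg.IrrCharacter G) : G → ℂ) g' = (χ : G → ℂ) g) (a : A) : Nat.card {χ : Cfsg.IrrCharacter G // a • χ = χ} = Nat.card {C : ConjClasses G // a • C = C} := by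
  let b : G → G := fun g => Quotient.out (a⁻¹ • ConjClasses.mk g)
  have hb : ∀ g, ConjClasses.mk (b g) = a⁻¹ • ConjClasses.mk g := fun g => Quotient.out_eq _
  have key := CharLib.card_fixed_irr_eq_card_fixed_classes (fun χ : IrrCharacter G => a • χ) b (by
    intro χ g
    apply hcompat a χ (b g) g
    rw [hb, smul_inv_smul])
  rw [key]
  apply Nat.card_congr
  apply Equiv.subtypeEquivRight
  intro C
  obtain ⟨g, rfl⟩ := ConjClasses.exists_rep C
  have h1 : IsConj (b g) g ↔ a • ConjClasses.mk g = ConjClasses.mk g := by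
    rw [← ConjClasses.mk_eq_mk_iff_isConj, hb, inv_smul_eq_iff, eq_comm]
  constructor
  · intro h
    exact h1.mp (h g rfl)
  · intro h g' hg'
    have h2 : IsConj (b g') g' ↔ a • ConjClasses.mk g' = ConjClasses.mk g' := by
      rw [← ConjClasses.mk_eq_mk_iff_isConj, hb, inv_smul_eq_iff, eq_comm]
    rw [h2, hg']
    exact h

end Cfsg.Agent.S0860
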