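import Cfsg.Statements.S0861
import Mathlib
import Cfsg.Agent.Lib.Helper10.GaloisSum
import Cfsg.Agent.Lib.Helper23.DegLib
import Cfsg.Agent.S0169
-- import your own Cfsg.Agent.* helpers here

set_option autoImplicit false
open Cfsg
open Cfsg.Agent.CharLib Cfsg.Agent.Lib.Helper10 Cfsg.Agent.Lib.Helper23
open scoped ComplexConjugate

namespace Cfsg.Agent.S0861

/-- Let P be a normal abelian Sylow p-subgroup of the finite group G and suppose some element g of P has centralizer exactly P. Then the number of irreducible characters of G is at most the order of P, and if equality holds then G / P is abelian (the commutator subgroup lies in P). -/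
theorem result {G : Type*} [Group G] [Finite G] (p : ℕ) [Fact p.Prime] (P : Sylow p G) [(P : Subgroup G).Normal] (hab : ∀ a ∈ P, ∀ b ∈ P, a * b = b * a) (g : G) (hg : g ∈ P) (hC : Subgroup.centralizer ({g} : Set G) = P) : Nat.card (Cfsg.IrrCharacter G) ≤ Nat.card P ∧ (Nat.card (Cfsg.IrrCharacter G) = Nat.card P → commutator G ≤ P) := by
  classical
  cases nonempty_fintype G
  have hp : p.Prime := Fact.out
  set n := Nat.card G with hn
  have hn0 : 0 < n := Nat.card_pos
  haveI : NeZero n := ⟨hn0.ne'⟩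
  -- `g` is a `p`-element
  obtain ⟨j, hj⟩ : ∃ j : ℕ, orderOf g = p ^ j := by
    obtain ⟨k, hk⟩ := P.2 ⟨g, hg⟩
    have h1 : g ^ (p ^ k) = 1 := by
      have := congrArg Subtype.val hk
      simpa using this
    obtain ⟨j, -, hj⟩ := (Nat.dvd_prime_pow hp).1 (orderOf_dvd_of_pow_eq_one h1)
    exact ⟨j, hj⟩
  have hne : ∀ χ : IrrCharacter G, (χ : G → ℂ) g ≠ 0 := by
    intro χ h0
    obtain ⟨d, hd, hpd⟩ := dvd_degree_of_vanish_pElement p (isCharacter_of_irr χ.2) g j hj h0
    obtain ⟨m, ρ, hirr, hch⟩ := χ.2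
    haveI := hirr
    have h1 := Cfsg.Agent.S0169.result ρ (P : Subgroup G) hab
    have h2 : (Module.finrank ℂ (Fin m → ℂ) : ℂ) = d := by
      rw [← hd, ← hch, Representation.char_one]
    have h3 : Module.finrank ℂ (Fin m → ℂ) = d := by exact_mod_cast h2
    rw [h3] at h1
    exact P.not_dvd_index (hpd.trans h1)
  have hcent : ∀ u : (ZMod n)ˣ, Nat.card (Subgroup.centralizer ({g ^ (u : ZMod n).val} : Set G)) = Nat.card P := by
    intro u
    have hcop : ((u : ZMod n).val).Coprime (orderOf g) :=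
      Nat.Coprime.coprime_dvd_right (orderOf_dvd_natCard g) (ZMod.val_coe_unit_coprime u)
    obtain ⟨m, hm⟩ := exists_pow_eq_self_of_coprime hcop
    have : Subgroup.centralizer ({g ^ (u : ZMod n).val} : Set G) = Subgroup.centralizer ({g} : Set G) := by
      ext y
      rw [Subgroup.mem_centralizer_singleton_iff, Subgroup.mem_centralizer_singleton_iff]
      constructor
      · intro h
        have h2 : Commute y (g ^ (u : ZMod n).val) := h
        have h3 := h2.pow_right m
        rw [hm] at h3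
        exact h3
      · intro h
        have h2 : Commute y g := h
        exact h2.pow_right _
    rw [this, hC]
  have hcol : ∀ u : (ZMod n)ˣ, ∑ χ : IrrCharacter G, Complex.normSq ((χ : G → ℂ) (g ^ (u : ZMod n).val)) =
      (Nat.card P : ℝ) := by
    intro u
    have h1 := sum_irr_mul_conj_self (g ^ (u : ZMod n).val)
    rw [hcent u] at h1
    have h2 : ((∑ χ : IrrCharacter G, Complex.normSq ((χ : G → ℂ) (g ^ (u : ZMod n).val)) : ℝ) : ℂ) =
        ((Nat.card P : ℝ) : ℂ) := by
      push_cast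
      rw [← h1]
      exact Finset.sum_congr rfl fun χ _ => (Complex.mul_conj _).symm
    exact_mod_cast h2
  have hA : ∑ χ : IrrCharacter G, ∑ u : (ZMod n)ˣ, Complex.normSq ((χ : G → ℂ) (g ^ (u : ZMod n).val)) =
      (Fintype.card (ZMod n)ˣ : ℝ) * (Nat.card P : ℝ) := by
    rw [Finset.sum_comm]
    simp only [hcol, Finset.sum_const, Finset.card_univ, nsmul_eq_mul]
  have hU : (0 : ℝ) < Fintype.card (ZMod n)ˣ := by exact_mod_cast Fintype.card_pos
  have hle : ∀ χ : IrrCharacter G, (Fintype.card (ZMod n)ˣ : ℝ) ≤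
      ∑ u : (ZMod n)ˣ, Complex.normSq ((χ : G → ℂ) (g ^ (u : ZMod n).val)) :=
    fun χ => card_units_le_sum_normSq_of_ne (isCharacter_of_irr χ.2) g (hne χ)
  have hB : ∑ _χ : IrrCharacter G, (Fintype.card (ZMod n)ˣ : ℝ) =
      (Fintype.card (ZMod n)ˣ : ℝ) * (Nat.card (IrrCharacter G) : ℝ) := by
    rw [Finset.sum_const, Finset.card_univ, nsmul_eq_mul, Nat.card_eq_fintype_card, mul_comm]
  constructor
  · have h1 : (Fintype.card (ZMod n)ˣ : ℝ) * (Nat.card (IrrCharacter G) : ℝ) ≤
        (Fintype.card (ZMod n)ˣ : ℝ) * (Nat.card P : ℝ) := by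
      rw [← hA, ← hB]
      exact Finset.sum_le_sum fun χ _ => hle χ
    have h2 := le_of_mul_le_mul_left h1 hU
    exact_mod_cast h2
  · intro heq
    have h1 : ∑ _χ : IrrCharacter G, (Fintype.card (ZMod n)ˣ : ℝ) =
        ∑ χ : IrrCharacter G, ∑ u : (ZMod n)ˣ, Complex.normSq ((χ : G → ℂ) (g ^ (u : ZMod n).val)) := by
      rw [hA, hB, heq]
    have h2 := (Finset.sum_eq_sum_iff_of_le (fun χ _ => hle χ)).1 h1
    have hlin : ∀ ψ : IrrCharacter (G ⧸ (P : Subgroup G)), (ψ : G ⧸ (P : Subgroup G) → ℂ) 1 = 1 := by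
      intro ψ
      have hirr : IsIrrCharacter G (fun x => (ψ : G ⧸ (P : Subgroup G) → ℂ) (QuotientGroup.mk' (P : Subgroup G) x)) :=
        isIrrCharacter_comp_of_surjective ψ.2 _ (QuotientGroup.mk'_surjective _)
      have h3 := h2 ⟨_, hirr⟩ (Finset.mem_univ _)
      obtain ⟨d, hd0, hd⟩ := irr_apply_one_nat ψ
      have h4 : ∀ u : (ZMod n)ˣ, (ψ : G ⧸ (P : Subgroup G) → ℂ) (QuotientGroup.mk' (P : Subgroup G) (g ^ (u : ZMod n).val)) = d := by
        intro u
        have : QuotientGroup.mk' (P : Subgroup G) (g ^ (u : ZMod n).val) = 1 := by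
          rw [QuotientGroup.mk'_apply, QuotientGroup.eq_one_iff]
          exact Subgroup.pow_mem _ hg _
        rw [this, hd]
      simp only [h4, Complex.normSq_natCast, Finset.sum_const, Finset.card_univ, nsmul_eq_mul] at h3
      have h5 : (d : ℝ) * d = 1 := by
        have h6 : (Fintype.card (ZMod n)ˣ : ℝ) * 1 = (Fintype.card (ZMod n)ˣ : ℝ) * ((d : ℝ) * d) := by
          rw [mul_one]; exact h3
        exact (mul_left_cancel₀ hU.ne' h6).symm
      have h7 : d * d = 1 := by exact_mod_cast h5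
      have h8 : d = 1 := Nat.eq_one_of_mul_eq_one_right h7
      rw [hd, h8]; simp
    have hcomm := comm_of_all_linear hlin
    rw [commutator_def, Subgroup.commutator_le]
    intro a _ b _
    rw [← QuotientGroup.eq_one_iff, commutatorElement_def]
    simp only [QuotientGroup.mk_mul, QuotientGroup.mk_inv]
    rw [hcomm (a : G ⧸ (P : Subgroup G)) b]
    group

end Cfsg.Agent.S0861
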