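import Mathlib
import Cfsg.Prelude.Def_Characters
import Cfsg.Agent.H6.TransferLin

set_option autoImplicit false

namespace Cfsg.Agent.S0864

open Cfsg Cfsg.Agent.CharLib Cfsg.Agent.H6

theorem result {G : Type*} [Group G] [Finite G] (N : Subgroup G) [hN : N.Normal] (lam : N → ℂ) (hlam : Cfsg.IsCharacter N lam ∧ lam 1 = 1) (hinv : ∀ (g : G) (n : N), lam ⟨g * n * g⁻¹, hN.conj_mem (n : G) n.2 g⟩ = lam n) (hsyl : ∀ p : ℕ, p.Prime → p ∣ orderOf lam → ∃ (H : Subgroup G) (hNH : N ≤ H) (ν : H → ℂ), Nat.Coprime H.index p ∧ (∃ k : ℕ, N.relIndex H = p ^ k) ∧ Cfsg.IsCharacter H ν ∧ ν 1 = 1 ∧ ∀ n : N, ν ⟨(n : G), hNH n.2⟩ = lam n) : ∃ μ : G → ℂ, Cfsg.IsCharacter G μ ∧ μ 1 = 1 ∧ ∀ n : N, μ n = lam n := by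
  classical
  let L : N →* ℂˣ := linCharHom lam hlam
  let E : AddSubgroup ℤ :=
    { carrier := {j | ∃ μ : G →* ℂˣ, ∀ n : N, μ n = L n ^ j}
      zero_mem' := ⟨1, fun n => by simp⟩
      add_mem' := by
        rintro a b ⟨μ₁, h₁⟩ ⟨μ₂, h₂⟩
        exact ⟨μ₁ * μ₂, fun n => by rw [MonoidHom.mul_apply, h₁, h₂, zpow_add]⟩
      neg_mem' := by
        rintro a ⟨μ₁, h₁⟩
        exact ⟨μ₁⁻¹, fun n => by rw [MonoidHom.inv_apply, h₁, zpow_neg]⟩ }
  have hoE : ((orderOf lam : ℕ) : ℤ) ∈ E := by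
    refine ⟨1, fun n => ?_⟩
    rw [MonoidHom.one_apply, zpow_natCast]
    apply Units.ext
    have := congrFun (pow_orderOf_eq_one lam) n
    simpa [L] using this.symm
  have hpE : ∀ p : ℕ, p.Prime → p ∣ orderOf lam → ∃ k : ℕ, Nat.Coprime k p ∧ (k : ℤ) ∈ E := by
    intro p hp hpo
    obtain ⟨H, hNH, ν, hcop, -, hν, hν1, hres⟩ := hsyl p hp hpo
    refine ⟨H.index, hcop, MonoidHom.transfer (linCharHom ν ⟨hν, hν1⟩), fun n => ?_⟩
    have hmem : ∀ g : G, g⁻¹ * (n : G) * g ∈ N := by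
      intro g
      simpa using hN.conj_mem (n : G) n.2 g⁻¹
    rw [transfer_eq_pow_of_invariant (linCharHom ν ⟨hν, hν1⟩) (n : G) (hNH n.2)
      (fun g => hNH (hmem g)), zpow_natCast]
    · congr 1
      apply Units.ext
      exact hres n
    · intro g
      apply Units.ext
      show ν ⟨g⁻¹ * (n : G) * g, _⟩ = ν ⟨(n : G), _⟩
      rw [hres n, ← hinv g⁻¹ n]
      have := hres ⟨g⁻¹ * (n : G) * g, hmem g⟩
      rw [this]
      congr 2
      simp
  obtain ⟨d, hd⟩ := Int.subgroup_cyclic E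
  have hdvd : ∀ j ∈ E, d ∣ j := by
    intro j hj
    rw [hd, AddSubgroup.mem_closure_singleton] at hj
    obtain ⟨c, rfl⟩ := hj
    exact ⟨c, by simp [mul_comm]⟩
  have hd1 : d.natAbs = 1 := by
    by_contra hne
    obtain ⟨q, hq, hqd⟩ := Nat.exists_prime_and_dvd hne
    have hqd' : (q : ℤ) ∣ d := Int.natCast_dvd.mpr hqd
    have hqo : q ∣ orderOf lam := Int.natCast_dvd_natCast.mp (hqd'.trans (hdvd _ hoE))
    obtain ⟨k, hk, hkE⟩ := hpE q hq hqo
    have hqk : q ∣ k := Int.natCast_dvd_natCast.mp (hqd'.trans (hdvd _ hkE))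
    have := Nat.dvd_gcd hqk (dvd_refl q)
    rw [hk] at this
    exact hq.one_lt.ne' (Nat.dvd_one.mp this)
  have h1E : (1 : ℤ) ∈ E := by
    have hdE : d ∈ E := by rw [hd]; exact AddSubgroup.mem_closure_singleton_self d
    rcases Int.natAbs_eq d with h | h
    · rw [hd1] at h; rw [h] at hdE; simpa using hdE
    · rw [hd1] at h; rw [h] at hdE
      have := E.neg_mem hdE
      simpa using this
  obtain ⟨μ, hμ⟩ := h1E
  refine ⟨fun g => (μ g : ℂ), isCharacter_of_irr (isIrrCharacter_of_hom μ), by simp, fun n => ?_⟩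
  show ((μ (n : G) : ℂˣ) : ℂ) = lam n
  rw [hμ n, zpow_one]
  rfl

end Cfsg.Agent.S0864
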