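import Mathlib
import Cfsg.Statements.S0869

set_option autoImplicit false
open Cfsg

namespace Cfsg.Agent.S0869

/-- In a (non-unital) ring `R` of functions, `1 - ∏ (1 - f x)` lies in `R` when all `f x` do. -/
theorem one_sub_prod_mem {S ι : Type*} (R : AddSubgroup (S → ℤ))
    (hmul : ∀ f ∈ R, ∀ g ∈ R, f * g ∈ R) (f : ι → (S → ℤ)) (hf : ∀ i, f i ∈ R) (T : Finset ι) :
    1 - ∏ i ∈ T, (1 - f i) ∈ R := by
  classical
  induction T using Finset.induction_on with
  | empty => simp
  | insert a T ha ih =>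
    rw [Finset.prod_insert ha]
    have : 1 - (1 - f a) * ∏ i ∈ T, (1 - f i)
        = (1 - ∏ i ∈ T, (1 - f i)) + f a - f a * (1 - ∏ i ∈ T, (1 - f i)) := by ring
    rw [this]
    exact R.sub_mem (R.add_mem ih (hf a)) (hmul _ (hf a) _ ih)

/-- Let S be a nonempty finite type and R an additive subgroup of the integer-valued functions on S that is closed under pointwise multiplication. If the constant function 1 is not in R, then there exist a point x of S and a prime p such that p divides f x for every f in R. -/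
theorem result {S : Type*} [Finite S] [Nonempty S] (R : AddSubgroup (S → ℤ)) (hmul : ∀ f ∈ R, ∀ g ∈ R, f * g ∈ R) (h1 : (1 : S → ℤ) ∉ R) : ∃ (x : S) (p : ℕ), p.Prime ∧ ∀ f ∈ R, (p : ℤ) ∣ f x := by
  classical
  by_contra hcon
  push_neg at hcon
  have hex : ∀ x : S, ∃ f ∈ R, f x = 1 := by
    intro x
    obtain ⟨d, hd⟩ := Int.subgroup_cyclic (R.map (Pi.evalAddMonoidHom (fun _ : S => ℤ) x))
    have hmem : ∀ f ∈ R, d ∣ f x := by
      intro f hf
      have : f x ∈ R.map (Pi.evalAddMonoidHom (fun _ : S => ℤ) x) := ⟨f, hf, rfl⟩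
      rw [hd, AddSubgroup.mem_closure_singleton] at this
      obtain ⟨k, hk⟩ := this
      exact ⟨k, by rw [← hk]; simp [mul_comm]⟩
    by_cases hd1 : d.natAbs = 1
    · have hdm : d ∈ R.map (Pi.evalAddMonoidHom (fun _ : S => ℤ) x) := by
        rw [hd]; exact AddSubgroup.subset_closure rfl
      obtain ⟨f, hf, hfx⟩ := hdm
      rcases Int.natAbs_eq d with h | h
      · exact ⟨f, hf, by
          have : f x = d := hfx
          rw [this, h, hd1]; rfl⟩
      · exact ⟨-f, R.neg_mem hf, by
          have : f x = d := hfx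
          rw [Pi.neg_apply, this, h, hd1]; rfl⟩
    · obtain ⟨p, hp, hpd⟩ := Nat.exists_prime_and_dvd hd1
      obtain ⟨f, hf, hfx⟩ := hcon x p hp
      exact absurd ((Int.natCast_dvd.mpr hpd).trans (hmem f hf)) hfx
  choose f hfR hfx using hex
  haveI := Fintype.ofFinite S
  have key := one_sub_prod_mem R hmul f hfR Finset.univ
  have hz : ∏ i : S, (1 - f i) = 0 := by
    funext y
    rw [Finset.prod_apply]
    apply Finset.prod_eq_zero (Finset.mem_univ y)
    simp [hfx]
  rw [hz, sub_zero] at key
  exact h1 key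

end Cfsg.Agent.S0869
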