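import Cfsg.Statements.S0878
import Mathlib

set_option autoImplicit false
open Cfsg

namespace Cfsg.Agent.S0878

/-- Let G be a Zassenhaus group on the finite set Ω, a a point, and let H be the subgroup of the stabilizer of a consisting of the identity and the elements fixing no point other than a (given here as a subgroup of the stabilizer of order one less than the number of points whose non-identity elements fix only a; it is the Frobenius kernel of the stabilizer). Then an element outside the stabilizer of a conjugates no non-identity element of H into H, and the normalizer of H is exactly the stabilizer of a. -/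
theorem result {G Ω : Type*} [Group G] [Finite G] [MulAction G Ω] [Fintype Ω] (hZ : Cfsg.IsZassenhausGroup G Ω) (a : Ω) (H : Subgroup G) (hHa : H ≤ MulAction.stabilizer G a) (hHcard : Nat.card H + 1 = Fintype.card Ω) (hHfix : ∀ u ∈ H, u ≠ 1 → ∀ c : Ω, u • c = c → c = a) : (∀ g : G, g ∉ MulAction.stabilizer G a → ∀ u ∈ H, g * u * g⁻¹ ∈ H → u = 1) ∧ Subgroup.normalizer (H : Set G) = MulAction.stabilizer G a := by
  classical
  obtain ⟨hF, h2, h3, ⟨g0, hg0, a0, b0, hab0, hga0, hgb0⟩, -⟩ := hZ
  have hconj : ∀ (g x : G) (c : Ω), (g * x * g⁻¹) • c = c ↔ x • (g⁻¹ • c) = g⁻¹ • c := by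
    intro g x c
    rw [mul_smul, mul_smul, smul_eq_iff_eq_inv_smul]
  have hHa' : ∀ u ∈ H, u • a = a := fun u hu => MulAction.mem_stabilizer_iff.mp (hHa hu)
  -- part 1
  have part1 : ∀ g : G, g ∉ MulAction.stabilizer G a → ∀ u ∈ H, g * u * g⁻¹ ∈ H → u = 1 := by
    intro g hg u hu hgu
    by_contra hu1
    apply hg
    rw [MulAction.mem_stabilizer_iff]
    have hne : g * u * g⁻¹ ≠ 1 := by
      intro hh
      apply hu1
      have : u = g⁻¹ * (g * u * g⁻¹) * g := by group
      rw [this, hh]; group
    apply hHfix _ hgu hne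
    rw [hconj, inv_smul_smul, hHa' u hu]
  refine ⟨part1, ?_⟩
  -- three points
  have hcard3 : 2 < Fintype.card Ω := by
    rw [Fintype.two_lt_card_iff]
    have : ∃ c : Ω, g0 • c ≠ c := by
      by_contra hcon
      push Not at hcon
      apply hg0
      apply hF.eq_of_smul_eq_smul
      intro c
      rw [hcon c, one_smul]
    obtain ⟨c, hc⟩ := this
    refine ⟨a0, b0, c, hab0, ?_, ?_⟩
    · rintro rfl; exact hc hga0
    · rintro rfl; exact hc hgb0
  have hH1 : 1 < Nat.card H := by omega
  haveI := Finite.one_lt_card_iff_nontrivial.mp hH1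
  obtain ⟨⟨u0, hu0⟩, hu01⟩ := exists_ne (1 : H)
  have hu01' : u0 ≠ 1 := fun h => hu01 (Subtype.ext h)
  obtain ⟨b, hba⟩ : ∃ b : Ω, b ≠ a := by
    by_cases h : a0 = a
    · exact ⟨b0, fun h' => hab0 (h.trans h'.symm)⟩
    · exact ⟨a0, h⟩
  have hcardX : Nat.card {c : Ω // c ≠ a} = Nat.card H := by
    have : Fintype.card {c : Ω // c ≠ a} = Fintype.card Ω - 1 := by
      rw [Fintype.card_subtype_compl, Fintype.card_subtype_eq]
    rw [Nat.card_eq_fintype_card, this]
    omega
  -- H is transitive on the other points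
  have hβ : Function.Bijective (fun u : H => (⟨(u : G) • b, by
      intro h
      apply hba
      have := hHa' u u.2
      exact smul_left_cancel _ (h.trans this.symm)⟩ : {c : Ω // c ≠ a})) := by
    rw [Nat.bijective_iff_injective_and_card]
    refine ⟨?_, hcardX.symm⟩
    intro u u' huu
    have h1 : (u : G) • b = (u' : G) • b := congrArg Subtype.val huu
    by_contra hne
    have h4 : ((u' : G)⁻¹ * u) ≠ 1 := by
      intro hh
      apply hne
      apply Subtype.ext
      exact (inv_mul_eq_one.mp hh).symm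
    apply hba
    apply hHfix _ (H.mul_mem (H.inv_mem u'.2) u.2) h4
    rw [mul_smul, h1, inv_smul_smul]
  have htrans : ∀ c d : Ω, c ≠ a → d ≠ a → ∃ u ∈ H, u • c = d := by
    intro c d hc hd
    obtain ⟨u1, hu1⟩ := hβ.2 ⟨c, hc⟩
    obtain ⟨u2, hu2⟩ := hβ.2 ⟨d, hd⟩
    have e1 : (u1 : G) • b = c := congrArg Subtype.val hu1
    have e2 : (u2 : G) • b = d := congrArg Subtype.val hu2
    refine ⟨(u2 : G) * (u1 : G)⁻¹, H.mul_mem u2.2 (H.inv_mem u1.2), ?_⟩
    rw [mul_smul, ← e1, inv_smul_smul, e2]
  -- key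
  have key : ∀ v : G, v • a = a → v ∉ H → ∃ c : Ω, c ≠ a ∧ v • c = c := by
    intro v hva hvH
    have hvc : ∀ c : {c : Ω // c ≠ a}, v • (c : Ω) ≠ a := by
      intro c h
      exact c.2 (smul_left_cancel _ (h.trans hva.symm))
    choose U hUH hU using fun c : {c : Ω // c ≠ a} => htrans c (v • (c : Ω)) c.2 (hvc c)
    have hUbij : Function.Bijective (fun c => (⟨U c, hUH c⟩ : H)) := by
      rw [Nat.bijective_iff_injective_and_card]
      refine ⟨?_, hcardX⟩
      intro c d hcd
      have hcd' : U c = U d := congrArg Subtype.val hcd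
      by_contra hne
      apply hvH
      have h5 : (U c)⁻¹ * v = 1 := by
        apply h3 _ a c d (Ne.symm c.2) (fun h => hne (Subtype.ext h)) (Ne.symm d.2)
        · rw [mul_smul, hva, inv_smul_eq_iff, hHa' _ (hUH c)]
        · rw [mul_smul, inv_smul_eq_iff, hU c]
        · rw [mul_smul, inv_smul_eq_iff, hcd', hU d]
      rw [← inv_mul_eq_one.mp h5]
      exact hUH c
    obtain ⟨c, hc⟩ := hUbij.2 1
    have hc' : U c = 1 := congrArg Subtype.val hc
    refine ⟨c, c.2, ?_⟩
    rw [← hU c, hc', one_smul]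
  have hnorm : ∀ g : G, g • a = a → ∀ u ∈ H, g * u * g⁻¹ ∈ H := by
    intro g hg u hu
    by_contra hcon
    have hga : g⁻¹ • a = a := by rw [inv_smul_eq_iff, hg]
    have hu1 : u ≠ 1 := by
      rintro rfl
      apply hcon
      simp
    obtain ⟨c, hca, hc⟩ := key (g * u * g⁻¹) (by rw [hconj, hga, hHa' u hu]) hcon
    rw [hconj] at hc
    have := hHfix u hu hu1 _ hc
    rw [inv_smul_eq_iff, hg] at this
    exact hca this
  apply le_antisymm
  · intro n hn
    by_contra hcon
    exact hu01' (part1 n hcon u0 hu0 ((Subgroup.mem_normalizer_iff.mp hn _).mp hu0))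
  · intro g hg
    rw [MulAction.mem_stabilizer_iff] at hg
    rw [Subgroup.mem_normalizer_iff]
    intro u
    refine ⟨hnorm g hg u, fun h => ?_⟩
    have hga : g⁻¹ • a = a := by rw [inv_smul_eq_iff, hg]
    have := hnorm g⁻¹ hga _ h
    have e : g⁻¹ * (g * u * g⁻¹) * g⁻¹⁻¹ = u := by group
    rwa [e] at this

end Cfsg.Agent.S0878
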