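import Cfsg.Statements.S0879
import Mathlib

set_option autoImplicit false
open Cfsg

namespace Cfsg.Agent.S0879

/-- Let G be a Zassenhaus group on the finite set Ω and E the stabilizer of two distinct points a, b. Then an element outside the normalizer of E conjugates no non-identity element of E into E, and E has index 2 in its normalizer. -/
theorem result {G Ω : Type*} [Group G] [Finite G] [MulAction G Ω] [Fintype Ω] (hZ : Cfsg.IsZassenhausGroup G Ω) {a b : Ω} (hab : a ≠ b) : (∀ g : G, g ∉ Subgroup.normalizer ((MulAction.stabilizer G a ⊓ MulAction.stabilizer G b : Subgroup G) : Set G) → ∀ x ∈ (MulAction.stabilizer G a ⊓ MulAction.stabilizer G b : Subgroup G), g * x * g⁻¹ ∈ (MulAction.stabilizer G a ⊓ MulAction.stabilizer G b : Subgroup G) → x = 1) ∧ ((MulAction.stabilizer G a ⊓ MulAction.stabilizer G b : Subgroup G).subgroupOf (Subgroup.normalizer ((MulAction.stabilizer G a ⊓ MulAction.stabilizer G b : Subgroup G) : Set G))).index = 2 := by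
  classical
  obtain ⟨hF, h2, h3, ⟨g0, hg0, a0, b0, hab0, hga0, hgb0⟩, -⟩ := hZ
  set E : Subgroup G := MulAction.stabilizer G a ⊓ MulAction.stabilizer G b with hE
  have memE : ∀ x : G, x ∈ E ↔ x • a = a ∧ x • b = b := by
    intro x
    rw [hE, Subgroup.mem_inf, MulAction.mem_stabilizer_iff, MulAction.mem_stabilizer_iff]
  have h2' : ∀ {a b c d : Ω}, a ≠ b → c ≠ d → ∃ g : G, g • a = c ∧ g • b = d :=
    (MulAction.is_two_pretransitive_iff).mp h2
  have hconj : ∀ (g x : G) (c : Ω), (g * x * g⁻¹) • c = c ↔ x • (g⁻¹ • c) = g⁻¹ • c := by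
    intro g x c
    rw [mul_smul, mul_smul, smul_eq_iff_eq_inv_smul]
  have hA : ∀ g : G, ((g • a = a ∧ g • b = b) ∨ (g • a = b ∧ g • b = a)) →
      g ∈ Subgroup.normalizer (E : Set G) := by
    intro g hg
    rw [Subgroup.mem_normalizer_iff]
    intro x
    rw [memE, memE, hconj, hconj]
    rcases hg with ⟨h1, h2⟩ | ⟨h1, h2⟩
    · have e1 : g⁻¹ • a = a := by rw [inv_smul_eq_iff, h1]
      have e2 : g⁻¹ • b = b := by rw [inv_smul_eq_iff, h2]
      rw [e1, e2]
    · have e1 : g⁻¹ • a = b := by rw [inv_smul_eq_iff, h2]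
      have e2 : g⁻¹ • b = a := by rw [inv_smul_eq_iff, h1]
      rw [e1, e2]
      exact and_comm
  have hB : ∀ g x : G, x ∈ E → x ≠ 1 → g * x * g⁻¹ ∈ E →
      ((g • a = a ∧ g • b = b) ∨ (g • a = b ∧ g • b = a)) := by
    intro g x hx hx1 hgx
    rw [memE] at hx
    rw [memE, hconj, hconj] at hgx
    have key : ∀ c : Ω, x • c = c → c = a ∨ c = b := by
      intro c hc
      by_contra hcon
      push Not at hcon
      exact hx1 (h3 x a b c hab (Ne.symm hcon.2) (Ne.symm hcon.1) hx.1 hx.2 hc)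
    have hne : g⁻¹ • a ≠ g⁻¹ • b := fun h => hab (smul_left_cancel _ h)
    rcases key _ hgx.1 with e1 | e1 <;> rcases key _ hgx.2 with e2 | e2
    · exact absurd (e1.trans e2.symm) hne
    · left
      rw [inv_smul_eq_iff] at e1 e2
      exact ⟨e1.symm, e2.symm⟩
    · right
      rw [inv_smul_eq_iff] at e1 e2
      exact ⟨e2.symm, e1.symm⟩
    · exact absurd (e1.trans e2.symm) hne
  refine ⟨?_, ?_⟩
  · intro g hg x hx hgx
    by_contra hx1
    exact hg (hA g (hB g x hx hx1 hgx))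
  · obtain ⟨h, ha, hb⟩ := h2' hab0 hab
    obtain ⟨s, hsa, hsb⟩ := h2' hab (Ne.symm hab)
    have hx0 : h * g0 * h⁻¹ ∈ E := by
      rw [memE, hconj, hconj]
      have e1 : h⁻¹ • a = a0 := by rw [inv_smul_eq_iff, ha]
      have e2 : h⁻¹ • b = b0 := by rw [inv_smul_eq_iff, hb]
      rw [e1, e2]
      exact ⟨hga0, hgb0⟩
    have hx1 : h * g0 * h⁻¹ ≠ 1 := by
      intro hh
      apply hg0
      have : g0 = h⁻¹ * (h * g0 * h⁻¹) * h := by group
      rw [this, hh]; group
    rw [Subgroup.index_eq_two_iff]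
    refine ⟨⟨s, hA s (Or.inr ⟨hsa, hsb⟩)⟩, ?_⟩
    rintro ⟨n, hn⟩
    have hn' := hB n _ hx0 hx1 ((Subgroup.mem_normalizer_iff.mp hn _).mp hx0)
    simp only [Subgroup.mem_subgroupOf, Subgroup.coe_mul]
    rw [memE, memE, mul_smul, mul_smul, hsa, hsb]
    rcases hn' with ⟨h1, h2⟩ | ⟨h1, h2⟩
    · right
      refine ⟨⟨h1, h2⟩, ?_⟩
      rintro ⟨h3, -⟩
      exact hab (h3.symm.trans h2)
    · left
      refine ⟨⟨h2, h1⟩, ?_⟩
      rintro ⟨h3, -⟩
      exact hab (h3.symm.trans h1)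

end Cfsg.Agent.S0879
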