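import Mathlib
import Cfsg.Prelude.Def_Characters
import Cfsg.Prelude.Def_Transfer
import Cfsg.Agent.H6.Extraspecial
import Cfsg.Agent.H6.LinChar
import Cfsg.Agent.CharLib.Sub

set_option autoImplicit false

namespace Cfsg.Agent.S0893

open Cfsg Module Cfsg.Agent.CharLib Cfsg.Agent.CharLib.H2 Cfsg.Agent.H6

theorem result {P : Type*} [Group P] [Fintype P] (p n : ℕ) [Fact p.Prime] (hP : Cfsg.IsExtraspecial p P) (hcard : Nat.card P = p ^ (2 * n + 1)) (A : Subgroup P) (hab : ∀ a ∈ A, ∀ b ∈ A, a * b = b * a) (hA : Nat.card A = p ^ (n + 1)) (lam : A → ℂ) (hlam : Cfsg.IsCharacter A lam ∧ lam 1 = 1) (hZ : ∃ a : A, (a : P) ∈ Subgroup.center P ∧ lam a ≠ 1) : Cfsg.IsIrrCharacter P (Cfsg.indFun A lam) ∧ ∀ x : P, x ∉ Subgroup.center P → Cfsg.indFun A lam x = 0 := by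
  classical
  have hp : p.Prime := Fact.out
  letI : Fintype A := Fintype.ofFinite A
  have hcomm : commutator P = Subgroup.center P := hP.1.2.2
  have hψ : IsCharacter P (indFun A lam) := isCharacter_indFun A hlam.1
  have hidx : A.index = p ^ n := by
    have h1 := A.card_mul_index
    rw [hA, hcard] at h1
    have h2 : p ^ (2 * n + 1) = p ^ (n + 1) * p ^ n := by rw [← pow_add]; congr 1; omega
    rw [h2] at h1
    exact Nat.eq_of_mul_eq_mul_left (pow_pos hp.pos _) h1
  have hψ1 : indFun A lam 1 = ((p ^ n : ℕ) : ℂ) := by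
    rw [indFun_apply_one, hlam.2, mul_one, hidx]
  obtain ⟨m, hm, hm2⟩ := exists_mult hψ
  obtain ⟨χ, hχ⟩ : ∃ χ : IrrCharacter P, m χ ≠ 0 := by
    by_contra hcon
    push Not at hcon
    have h0 : indFun A lam = 0 := by
      rw [hm]; apply Finset.sum_eq_zero; intro χ _; rw [hcon χ]; simp
    rw [h0, Pi.zero_apply] at hψ1
    have : (p ^ n : ℕ) = 0 := by exact_mod_cast hψ1.symm
    exact (pow_pos hp.pos n).ne' this
  have hinner : classInner (indFun A lam) (χ : P → ℂ) ≠ 0 := by rw [hm2]; exact_mod_cast hχ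
  obtain ⟨χf, d, ρ, hirr, hρ⟩ := χ
  haveI := hirr
  simp only at hinner
  have hχirr : IsIrrCharacter P χf := ⟨d, ρ, hirr, hρ⟩
  have hχ1 : χf 1 = (d : ℂ) := by rw [← hρ, Representation.char_one, Module.finrank_fin_fun]
  have hd : d ≠ 1 := by
    intro hd1
    have hlinχ : IsCharacter P χf ∧ χf 1 = 1 := ⟨isCharacter_of_irr hχirr, by rw [hχ1, hd1]; simp⟩
    let f : P →* ℂˣ := linCharHom χf hlinχ
    have hker : ∀ z ∈ Subgroup.center P, χf z = 1 := by
      intro z hz
      rw [← hcomm] at hz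
      have := Abelianization.commutator_subset_ker f hz
      have h2 : f z = 1 := this
      have h3 := congrArg (fun u : ℂˣ => (u : ℂ)) h2
      simpa [f] using h3
    rw [frobenius_reciprocity A lam (isClassFunction_of_irr hχirr)] at hinner
    have hlamirr : IsIrrCharacter A lam := isIrrCharacter_of_hom (linCharHom lam hlam)
    have hresirr : IsIrrCharacter A (fun a : A => χf a) := isIrrCharacter_of_hom (f.comp A.subtype)
    have heq : lam = fun a : A => χf a := by
      by_contra hne
      exact hinner (classInner_irr_ne hlamirr hresirr hne)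
    obtain ⟨a, haZ, ha⟩ := hZ
    apply ha
    rw [heq]
    exact hker a haZ
  have hdeg : d = p ^ n := by
    have h2 := extraspecial_degree p hP ρ hd
    rw [hcard, pow_succ, mul_comm] at h2
    have h3 : d ^ 2 = (p ^ n) ^ 2 := by
      rw [← pow_mul, mul_comm n 2]
      exact Nat.eq_of_mul_eq_mul_right hp.pos h2
    exact Nat.pow_left_injective (n := 2) (by norm_num) h3
  have hsub : IsCharacter P (indFun A lam - χf) := isCharacter_sub_irr hψ hχirr hinner
  have hzero : indFun A lam - χf = 0 := by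
    apply isCharacter_eq_zero_of_apply_one hsub
    rw [Pi.sub_apply, hψ1, hχ1, hdeg, sub_self]
  have heq : indFun A lam = χf := sub_eq_zero.mp hzero
  rw [heq]
  refine ⟨hχirr, fun x hx => ?_⟩
  rw [← hρ]
  exact extraspecial_vanish p hP ρ hd x hx

end Cfsg.Agent.S0893
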