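import Mathlib
import Cfsg.Statements.S0898
import Cfsg.Agent.H6.FT4

set_option autoImplicit false
set_option maxHeartbeats 1000000
open Cfsg

namespace Cfsg.Agent.S0898

open Cfsg.Agent.CharLib Cfsg.Agent.H6.FT

/-- Let H be an abelian subgroup of the finite group G meeting the centre of G trivially, such that for every non-central g the centralizer of g has nontrivial intersection with at most one conjugate of H. Let χ be an irreducible character of G with χ h ≠ χ 1 for some h in H, and let c be the inner product of the restriction of χ to H with the principal character. Then χ(1)² > (order of H)·c²; and if in addition χ 1 ≠ 1 and no proper normal subgroup of G contains H, then (1 + χ 1)² > order of H (both sides read as real numbers). -/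
theorem result {G : Type*} [Group G] [Fintype G] (H : Subgroup G) [Fintype H] (hab : ∀ a ∈ H, ∀ b ∈ H, a * b = b * a) (hZ : H ⊓ Subgroup.center G = ⊥) (hone : ∀ g : G, g ∉ Subgroup.center G → ∀ a b : G, Subgroup.centralizer ({g} : Set G) ⊓ H.map (MulAut.conj a).toMonoidHom ≠ ⊥ → Subgroup.centralizer ({g} : Set G) ⊓ H.map (MulAut.conj b).toMonoidHom ≠ ⊥ → H.map (MulAut.conj a).toMonoidHom = H.map (MulAut.conj b).toMonoidHom) (χ : G → ℂ) (hχ : Cfsg.IsIrrCharacter G χ) (hker : ∃ h ∈ H, χ h ≠ χ 1) : (χ 1).re ^ 2 > (Nat.card H : ℝ) * (Cfsg.classInner (fun h : H => χ h) (fun _ => 1)).re ^ 2 ∧ (χ 1 ≠ 1 → (∀ M : Subgroup G, M.Normal → H ≤ M → M = ⊤) → (1 + (χ 1).re) ^ 2 > (Nat.card H : ℝ)) := by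
  classical
  have hone' : ∀ g : G, g ∉ Subgroup.center G → ∀ y : G, (∃ k ∈ H, k ≠ 1 ∧ k * g = g * k) →
      (∃ k ∈ H, k ≠ 1 ∧ (y * k * y⁻¹) * g = g * (y * k * y⁻¹)) →
      y ∈ Subgroup.normalizer (H : Set G) := by
    intro g hg y ⟨k, hk, hk1, hkc⟩ ⟨k', hk', hk'1, hk'c⟩
    have h1 : Subgroup.centralizer ({g} : Set G) ⊓ H.map (MulAut.conj (1 : G)).toMonoidHom ≠ ⊥ := by
      intro hbot
      have : k ∈ Subgroup.centralizer ({g} : Set G) ⊓ H.map (MulAut.conj (1 : G)).toMonoidHom := by
        refine Subgroup.mem_inf.mpr ⟨?_, k, hk, by simp⟩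
        rw [Subgroup.mem_centralizer_iff]
        intro h hh
        rw [Set.mem_singleton_iff.mp hh]
        exact hkc.symm
      rw [hbot, Subgroup.mem_bot] at this
      exact hk1 this
    have h2 : Subgroup.centralizer ({g} : Set G) ⊓ H.map (MulAut.conj y).toMonoidHom ≠ ⊥ := by
      intro hbot
      have : y * k' * y⁻¹ ∈
          Subgroup.centralizer ({g} : Set G) ⊓ H.map (MulAut.conj y).toMonoidHom := by
        refine Subgroup.mem_inf.mpr ⟨?_, k', hk', by simp⟩
        rw [Subgroup.mem_centralizer_iff]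
        intro h hh
        rw [Set.mem_singleton_iff.mp hh]
        exact hk'c.symm
      rw [hbot, Subgroup.mem_bot] at this
      apply hk'1
      have h3 : k' = y⁻¹ * (y * k' * y⁻¹) * y := by group
      rw [h3, this]
      group
    have h3 := hone g hg 1 y h1 h2
    have h4 : H.map (MulAut.conj (1 : G)).toMonoidHom = H := by
      ext x
      simp
    rw [h4] at h3
    rw [Subgroup.mem_normalizer_iff]
    intro h
    constructor
    · intro hh
      rw [h3]
      exact ⟨h, hh, by simp⟩
    · intro hh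
      rw [h3] at hh
      obtain ⟨h', hh', he⟩ := hh
      have : y * h' * y⁻¹ = y * h * y⁻¹ := by simpa using he
      have h5 : h' = h := by
        have := congrArg (fun t => y⁻¹ * t * y) this
        simpa [mul_assoc] using this
      rw [← h5]
      exact hh'
  have hp1 : ∀ ψ : G → ℂ, IsIrrCharacter G ψ → (∃ h ∈ H, ψ h ≠ ψ 1) →
      (Nat.card H : ℝ) * Complex.normSq (cH H ψ) < Complex.normSq (ψ 1) := by
    intro ψ hψ hk
    exact part1 H hZ hone' hab ψ hψ hk
  refine ⟨?_, fun h1 hM => part2 H hab hp1 χ hχ h1 hM⟩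
  have h := hp1 χ hχ hker
  rw [cH_eq]
  obtain ⟨n, _, hn⟩ := irr_apply_one_nat ⟨χ, hχ⟩
  simp only at hn
  have h2 : Complex.normSq (χ 1) = (χ 1).re ^ 2 := by
    rw [hn, Complex.normSq_natCast]
    simp [sq]
  rw [h2] at h
  have h3 : (cH H χ).re ^ 2 ≤ Complex.normSq (cH H χ) := by
    rw [Complex.normSq_apply]
    nlinarith [mul_self_nonneg (cH H χ).im]
  have hHpos : (0 : ℝ) ≤ Nat.card H := Nat.cast_nonneg _
  have h4 := mul_le_mul_of_nonneg_left h3 hHpos
  exact lt_of_le_of_lt h4 h

end Cfsg.Agent.S0898
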