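import Mathlib
import Cfsg.Prelude.Def_Characters
import Cfsg.Agent.H6.CliffInv

set_option autoImplicit false

namespace Cfsg.Agent.S0900

open Cfsg Cfsg.Agent.CharLib Cfsg.Agent.CharLib.H2 Cfsg.Agent.H6
open scoped ComplexConjugate

theorem result {G : Type*} [Group G] [Fintype G] (N : Subgroup G) [hN : N.Normal] [Fintype N] (χ : G → ℂ) (hχ : Cfsg.IsIrrCharacter G χ) (ϑ : N → ℂ) (hϑ : Cfsg.IsIrrCharacter N ϑ) (hcon : Cfsg.classInner (fun n : N => χ n) ϑ ≠ 0) : ((∃ e : ℕ, (fun n : N => χ n) = (e : ℂ) • ϑ ∧ e ^ 2 = N.index) ↔ ((∀ g : G, g ∉ N → χ g = 0) ∧ ∀ (g : G) (n : N), ϑ ⟨g * n * g⁻¹, hN.conj_mem (n : G) n.2 g⟩ = ϑ n)) ∧ ((∃ e : ℕ, (fun n : N => χ n) = (e : ℂ) • ϑ ∧ e ^ 2 = N.index) ↔ (∀ (g : G) (n : N), ϑ ⟨g * n * g⁻¹, hN.conj_mem (n : G) n.2 g⟩ = ϑ n ∧ ∀ ψ : G → ℂ, Cfsg.IsIrrCharacter G ψ → Cfsg.classInner (Cfsg.indFun N ϑ) ψ ≠ 0 → ψ = χ)) := by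
  classical
  have hχc : IsClassFunction G χ := isClassFunction_of_irr hχ
  have hGN : (Nat.card G : ℂ) = (Nat.card N : ℂ) * (N.index : ℂ) := by
    rw [← N.card_mul_index]; push_cast; ring
  have hN0 : (Nat.card N : ℂ) ≠ 0 := card_subgroup_ne_zero N
  have hsplit := card_mul_classInner_split N χ χ
  rw [classInner_irr_self hχ, mul_one] at hsplit
  have hϑ1 : ϑ 1 ≠ 0 := irr_apply_one_ne_zero ⟨ϑ, hϑ⟩
  -- (a) implies invariance
  have a_inv : ∀ e : ℕ, (fun n : N => χ n) = (e : ℂ) • ϑ → e ^ 2 = N.index →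
      ∀ (g : G) (n : N), ϑ ⟨g * n * g⁻¹, hN.conj_mem (n : G) n.2 g⟩ = ϑ n := by
    intro e he he2 g n
    have he0 : (e : ℂ) ≠ 0 := by
      intro h
      have : e = 0 := by exact_mod_cast h
      subst this
      have : N.index ≠ 0 := Subgroup.index_ne_zero_of_finite
      exact this (by simpa using he2.symm)
    have h1 := congrFun he ⟨g * n * g⁻¹, hN.conj_mem (n : G) n.2 g⟩
    have h2 := congrFun he n
    simp only [Pi.smul_apply, smul_eq_mul] at h1 h2
    rw [hχc] at h1
    rw [h1] at h2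
    exact mul_left_cancel₀ he0 h2
  -- (a) implies vanishing
  have a_van : ∀ e : ℕ, (fun n : N => χ n) = (e : ℂ) • ϑ → e ^ 2 = N.index →
      ∀ g : G, g ∉ N → χ g = 0 := by
    intro e he he2 g hg
    rw [he, classInner_smul_left, classInner_smul_right, classInner_irr_self hϑ, hGN, ← he2] at hsplit
    have hz : ∑ g ∈ Finset.univ.filter (fun g => g ∉ N), χ g * conj (χ g) = 0 := by
      have : conj (e : ℂ) = e := Complex.conj_natCast e
      rw [this] at hsplit
      push_cast at hsplit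
      linear_combination -hsplit
    have hz' : ∑ g ∈ Finset.univ.filter (fun g => g ∉ N), Complex.normSq (χ g) = 0 := by
      have : ((∑ g ∈ Finset.univ.filter (fun g => g ∉ N), Complex.normSq (χ g) : ℝ) : ℂ) = 0 := by
        rw [← hz]; push_cast
        exact Finset.sum_congr rfl fun g _ => (Complex.mul_conj _).symm
      exact_mod_cast this
    have := (Finset.sum_eq_zero_iff_of_nonneg (fun g _ => Complex.normSq_nonneg _)).mp hz' g
      (by simp [hg])
    exact Complex.normSq_eq_zero.mp this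
  -- invariance gives a multiple
  have inv_mul : (∀ (g : G) (n : N), ϑ ⟨g * n * g⁻¹, hN.conj_mem (n : G) n.2 g⟩ = ϑ n) →
      ∃ e : ℕ, (fun n : N => χ n) = (e : ℂ) • ϑ := by
    intro hinv
    obtain ⟨e, he⟩ := classInner_char_nat (isCharacter_restrict (isCharacter_of_irr hχ) N)
      (isCharacter_of_irr hϑ)
    refine ⟨e, ?_⟩
    have := restrict_eq_smul_of_invariant N hN hχ hϑ hcon hinv
    rw [this]
    congr 1
  refine ⟨⟨?_, ?_⟩, ⟨?_, ?_⟩⟩
  · rintro ⟨e, he, he2⟩
    exact ⟨a_van e he he2, a_inv e he he2⟩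
  · rintro ⟨hvan, hinv⟩
    obtain ⟨e, he⟩ := inv_mul hinv
    refine ⟨e, he, ?_⟩
    rw [he, classInner_smul_left, classInner_smul_right, classInner_irr_self hϑ, hGN,
      Finset.sum_eq_zero (fun g hg => by rw [hvan g (by simpa using hg), zero_mul]),
      Complex.conj_natCast] at hsplit
    have : (N.index : ℂ) = (e : ℂ) ^ 2 := by
      apply mul_left_cancel₀ hN0
      linear_combination hsplit
    exact_mod_cast this.symm
  · rintro ⟨e, he, he2⟩ g n
    have hinv := a_inv e he he2
    have hvan := a_van e he he2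
    refine ⟨hinv g n, ?_⟩
    intro ψ hψ hne
    have hind : indFun N ϑ = (e : ℂ) • χ := by
      funext x
      by_cases hx : x ∈ N
      · have := indFun_coe_of_invariant N hN hinv ⟨x, hx⟩
        simp only at this
        rw [this, ← he2]
        have h2 := congrFun he ⟨x, hx⟩
        simp only [Pi.smul_apply, smul_eq_mul] at h2 ⊢
        rw [h2]; push_cast; ring
      · rw [indFun_of_not_mem hN ϑ hx]
        simp [hvan x hx]
    rw [hind, classInner_smul_left] at hne
    by_contra hcontra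
    apply hne
    rw [classInner_irr_ne hχ hψ (fun h => hcontra h.symm), mul_zero]
  · intro h
    have hinv : ∀ (g : G) (n : N), ϑ ⟨g * n * g⁻¹, hN.conj_mem (n : G) n.2 g⟩ = ϑ n :=
      fun g n => (h g n).1
    have huniq := (h 1 1).2
    obtain ⟨e, he⟩ := inv_mul hinv
    refine ⟨e, he, ?_⟩
    have hexp := classFunction_eq_sum (isClassFunction_indFun N ϑ)
    rw [Finset.sum_eq_single (⟨χ, hχ⟩ : IrrCharacter G)] at hexp
    · simp only at hexp
      rw [frobenius_reciprocity N ϑ hχc, he, classInner_smul_right, classInner_irr_self hϑ,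
        Complex.conj_natCast, mul_one] at hexp
      have h1 := congrFun hexp 1
      rw [indFun_apply_one] at h1
      have h2 := congrFun he 1
      simp only [Pi.smul_apply, smul_eq_mul, OneMemClass.coe_one] at h1 h2
      rw [h2] at h1
      have : (N.index : ℂ) = (e : ℂ) ^ 2 := by
        apply mul_right_cancel₀ hϑ1
        linear_combination h1
      exact_mod_cast this.symm
    · intro ψ _ hne
      have : classInner (indFun N ϑ) (ψ : G → ℂ) = 0 := by
        by_contra hcontra
        exact hne (Subtype.ext (huniq ψ.1 ψ.2 hcontra))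
      rw [this, zero_smul]
    · intro h; exact absurd (Finset.mem_univ _) h

end Cfsg.Agent.S0900
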