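import Mathlib
import Cfsg.Statements.S0903

set_option autoImplicit false
open Cfsg

namespace Cfsg.Agent.S0903

/-- The set of pairs. -/
abbrev Pairs {G : Type*} [Group G] (c g h : G) : Type _ :=
  {xy : G × G // IsConj g xy.1 ∧ IsConj h xy.2 ∧ xy.1 * xy.2 = c}

theorem isConj_conj {G : Type*} [Group G] {g x : G} (u : G) (hx : IsConj g x) :
    IsConj g (u * x * u⁻¹) :=
  hx.trans (isConj_iff.mpr ⟨u, rfl⟩)

/-- conjugation action of `P` on the set of pairs -/
noncomputable def pairsAction {G : Type*} [Group G] (P : Subgroup G) (c : G)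
    (hc : c ∈ Subgroup.centralizer (P : Set G)) (g h : G) : MulAction P (Pairs c g h) where
  smul u xy := ⟨((u : G) * xy.1.1 * (u : G)⁻¹, (u : G) * xy.1.2 * (u : G)⁻¹),
    isConj_conj _ xy.2.1, isConj_conj _ xy.2.2.1, by
      have h1 : (u : G) * xy.1.1 * (u : G)⁻¹ * ((u : G) * xy.1.2 * (u : G)⁻¹)
          = (u : G) * (xy.1.1 * xy.1.2) * (u : G)⁻¹ := by group
      have h2 := Subgroup.mem_centralizer_iff.mp hc (u : G) u.2
      show (u : G) * xy.1.1 * (u : G)⁻¹ * ((u : G) * xy.1.2 * (u : G)⁻¹) = c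
      rw [h1, xy.2.2.2, h2]; group⟩
  one_smul xy := by
    apply Subtype.ext
    show (((1 : P) : G) * xy.1.1 * ((1 : P) : G)⁻¹, ((1 : P) : G) * xy.1.2 * ((1 : P) : G)⁻¹) = xy.1
    simp
  mul_smul u v xy := by
    apply Subtype.ext
    show (((u * v : P) : G) * xy.1.1 * ((u * v : P) : G)⁻¹, ((u * v : P) : G) * xy.1.2 * ((u * v : P) : G)⁻¹)
      = ((u : G) * ((v : G) * xy.1.1 * (v : G)⁻¹) * (u : G)⁻¹, (u : G) * ((v : G) * xy.1.2 * (v : G)⁻¹) * (u : G)⁻¹)
    simp [mul_assoc]

theorem result {G : Type*} [Group G] [Finite G] (p : ℕ) [Fact p.Prime] (P : Subgroup G) (hP : IsPGroup p P) (c : G) (hc : c ∈ Subgroup.centralizer (P : Set G)) (g h : G) : Nat.card {xy : G × G // IsConj g xy.1 ∧ IsConj h xy.2 ∧ xy.1 * xy.2 = c} ≡ Nat.card {xy : G × G // IsConj g xy.1 ∧ IsConj h xy.2 ∧ xy.1 * xy.2 = c ∧ xy.1 ∈ Subgroup.centralizer (P : Set G) ∧ xy.2 ∈ Subgroup.centralizer (P : Set G)} [MOD p] := by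
  letI := pairsAction P c hc g h
  have key := hP.card_modEq_card_fixedPoints (Pairs c g h)
  refine key.trans ?_
  have hsm : ∀ (u : P) (xy : Pairs c g h), (u • xy).1 = ((u : G) * xy.1.1 * (u : G)⁻¹, (u : G) * xy.1.2 * (u : G)⁻¹) := fun _ _ => rfl
  have e : (MulAction.fixedPoints P (Pairs c g h)) ≃ {xy : G × G // IsConj g xy.1 ∧ IsConj h xy.2 ∧ xy.1 * xy.2 = c ∧ xy.1 ∈ Subgroup.centralizer (P : Set G) ∧ xy.2 ∈ Subgroup.centralizer (P : Set G)} :=
    { toFun := fun z => ⟨z.1.1, z.1.2.1, z.1.2.2.1, z.1.2.2.2, by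
          rw [Subgroup.mem_centralizer_iff]
          intro u hu
          have := congrArg Subtype.val (z.2 ⟨u, hu⟩)
          rw [hsm] at this
          have h1 := congrArg Prod.fst this
          simp only at h1
          rw [mul_inv_eq_iff_eq_mul] at h1
          exact h1, by
          rw [Subgroup.mem_centralizer_iff]
          intro u hu
          have := congrArg Subtype.val (z.2 ⟨u, hu⟩)
          rw [hsm] at this
          have h1 := congrArg Prod.snd this
          simp only at h1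
          rw [mul_inv_eq_iff_eq_mul] at h1
          exact h1⟩
      invFun := fun z => ⟨⟨z.1, z.2.1, z.2.2.1, z.2.2.2.1⟩, by
          intro u
          apply Subtype.ext
          rw [hsm]
          have h1 := Subgroup.mem_centralizer_iff.mp z.2.2.2.2.1 (u : G) u.2
          have h2 := Subgroup.mem_centralizer_iff.mp z.2.2.2.2.2 (u : G) u.2
          apply Prod.ext
          · simp only; rw [h1]; group
          · simp only; rw [h2]; group⟩
      left_inv := fun z => rfl
      right_inv := fun z => rfl }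
  rw [Nat.card_congr e]

end Cfsg.Agent.S0903
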