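import Mathlib
import Cfsg.Prelude.Def_Blocks
import Cfsg.Prelude.Def_Solvable
import Cfsg.Agent.H6.ClassSumNil
import Cfsg.Agent.H6.PCore

set_option autoImplicit false

namespace Cfsg.Agent.S0905

open Cfsg Cfsg.Agent.H6

theorem result {G : Type*} [Group G] [Finite G] (p : ℕ) [Fact p.Prime] (F : Type*) [Field F] [CharP F p] (g : G) (hg : ∀ x : G, IsConj g x → x ∉ Subgroup.centralizer (Cfsg.pCore p G : Set G)) : IsNilpotent (∑ᶠ x ∈ ConjClasses.carrier (ConjClasses.mk g), MonoidAlgebra.single x (1 : F) : MonoidAlgebra F G) := by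
  classical
  have hfin : (ConjClasses.carrier (ConjClasses.mk g)).Finite := Set.toFinite _
  rw [finsum_mem_eq_finite_toFinset_sum _ hfin]
  have hmem : ∀ x, x ∈ hfin.toFinset ↔ IsConj g x := by
    intro x
    rw [Set.Finite.mem_toFinset, ConjClasses.mem_carrier_iff_mk_eq, ConjClasses.mk_eq_mk_iff_isConj]
    exact ⟨IsConj.symm, IsConj.symm⟩
  apply classSum_nilpotent p F (Cfsg.pCore p G) (pCore_normal p G) pCore_isPGroup
  · intro y x hx
    rw [hmem] at hx ⊢
    exact hx.trans (isConj_iff.mpr ⟨y, rfl⟩)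
  · intro x hx
    exact hg x ((hmem x).mp hx)

end Cfsg.Agent.S0905
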