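import Mathlib
import Cfsg.Prelude.Def_Blocks
import Cfsg.Agent.CharLib.BurnsideSimple
import Cfsg.Agent.BlockLib.LocalRing

set_option autoImplicit false

namespace Cfsg.Agent.S0910

open Cfsg Module Cfsg.Agent.CharLib Cfsg.Agent.BlockLib

theorem result {G : Type*} [Group G] [Finite G] (p : ℕ) [Fact p.Prime] (M : Ideal Cfsg.AlgInt) (hM : Cfsg.IsPModular p M) [IsSimpleGroup G] (hna : ∃ a b : G, a * b ≠ b * a) (χ : Cfsg.IrrCharacter G) (hχ : χ ∈ Cfsg.principalBlock M G) (k : ℕ) (hdeg : (χ : G → ℂ) 1 = (p : ℂ) ^ k) : (χ : G → ℂ) = fun _ => 1 := by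
  classical
  have hp : p.Prime := Fact.out
  obtain ⟨n, ρ, hirr, hch⟩ := χ.2
  haveI := hirr
  have hfr : finrank ℂ (Fin n → ℂ) = n := by simp
  have h1 : (χ : G → ℂ) 1 = (n : ℂ) := by rw [← hch, Representation.char_one]; simp
  have hn : n = p ^ k := by
    rw [h1] at hdeg
    exact_mod_cast hdeg
  -- the kernel dichotomy
  have hcenter : ∀ z : G, z ≠ 1 → z ∉ Subgroup.center G := by
    intro z hz hcen
    have hctop : Subgroup.center G = ⊤ := by
      rcases (inferInstance : (Subgroup.center G).Normal).eq_bot_or_eq_top with h | h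
      · rw [h, Subgroup.mem_bot] at hcen; exact absurd hcen hz
      · exact h
    obtain ⟨a, b, hab⟩ := hna
    apply hab
    have : a ∈ Subgroup.center G := by rw [hctop]; trivial
    exact ((Subgroup.mem_center_iff.mp this) b).symm
  have hscalar : ∀ z : G, z ≠ 1 → (∃ ω : ℂ, ρ z = ω • (LinearMap.id : (Fin n → ℂ) →ₗ[ℂ] (Fin n → ℂ))) →
      (χ : G → ℂ) = fun _ => 1 := by
    intro z hz ⟨ω, hω⟩
    rcases (MonoidHom.normal_ker (ρ : G →* End ℂ (Fin n → ℂ))).eq_bot_or_eq_top with hbot | htop
    · exfalso
      have hinj : Function.Injective ρ := (MonoidHom.ker_eq_bot_iff _).mp hbot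
      apply hcenter z hz
      rw [Subgroup.mem_center_iff]
      intro y
      apply hinj
      rw [map_mul, map_mul, hω]
      ext v
      simp
    · have htriv : ∀ x, ρ x = 1 := by
        intro x
        have : x ∈ MonoidHom.ker (ρ : G →* End ℂ (Fin n → ℂ)) := by rw [htop]; trivial
        exact this
      have h1 := finrank_eq_one_of_trivial ρ htriv
      rw [← hch]
      funext x
      change LinearMap.trace ℂ _ (ρ x) = 1
      rw [htriv x, LinearMap.trace_one, h1]; simp
  have hnt : ∃ z : G, z ≠ 1 := by
    obtain ⟨a, b, hab⟩ := hna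
    by_contra hcon
    push Not at hcon
    apply hab
    rw [hcon a, hcon b]
  rcases Nat.eq_zero_or_pos k with hk | hk
  · -- degree one
    subst hk
    obtain ⟨z, hz⟩ := hnt
    apply hscalar z hz
    apply (norm_character_eq_iff ρ z).mp
    have hcop : Nat.Coprime (finrank ℂ (Fin n → ℂ)) (Subgroup.centralizer ({z} : Set G)).index := by
      rw [hfr, hn]; simp
    rcases character_eq_zero_or_norm_eq ρ z hcop with h0 | h0
    · exfalso
      -- a degree one character never vanishes
      have hz1 : ρ z * ρ z⁻¹ = 1 := by rw [← map_mul]; simp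
      have hn1 : n = 1 := by simpa using hn
      subst hn1
      have htr : ∀ A B : End ℂ (Fin 1 → ℂ), LinearMap.trace ℂ _ (A * B) =
          LinearMap.trace ℂ _ A * LinearMap.trace ℂ _ B := by
        intro A B
        rw [LinearMap.trace_eq_matrix_trace ℂ (Pi.basisFun ℂ (Fin 1)),
          LinearMap.trace_eq_matrix_trace ℂ (Pi.basisFun ℂ (Fin 1)),
          LinearMap.trace_eq_matrix_trace ℂ (Pi.basisFun ℂ (Fin 1)), LinearMap.toMatrix_mul]
        simp [Matrix.trace, Matrix.mul_apply]
      have := htr (ρ z) (ρ z⁻¹)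
      rw [hz1] at this
      have h0' : LinearMap.trace ℂ _ (ρ z) = 0 := h0
      rw [h0', LinearMap.trace_one] at this
      simp at this
    · exact h0
  · -- p divides the order
    have hpn : p ∣ n := by rw [hn]; exact dvd_pow_self p hk.ne'
    have hpG : p ∣ Nat.card G := by
      have := finrank_dvd_card ρ
      rw [hfr] at this
      exact hpn.trans this
    obtain ⟨P⟩ : Nonempty (Sylow p G) := inferInstance
    have hPnt : Nontrivial (P : Subgroup G) := by
      have : p ∣ Nat.card (P : Subgroup G) := P.dvd_card_of_dvd_card hpG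
      rw [← Finite.one_lt_card_iff_nontrivial]
      exact lt_of_lt_of_le hp.one_lt (Nat.le_of_dvd Nat.card_pos this)
    haveI := hPnt
    haveI := (P.isPGroup').center_nontrivial
    obtain ⟨⟨z, hzc⟩, hz⟩ := exists_ne (1 : Subgroup.center (P : Subgroup G))
    have hz1 : (z : G) ≠ 1 := by
      intro h
      apply hz
      ext
      simpa using h
    have hle : (P : Subgroup G) ≤ Subgroup.centralizer ({(z : G)} : Set G) := by
      intro y hy
      rw [Subgroup.mem_centralizer_singleton_iff]
      have := (Subgroup.mem_center_iff.mp hzc) ⟨y, hy⟩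
      have := congrArg Subtype.val this
      simpa using this
    have hidx : ¬ p ∣ (Subgroup.centralizer ({(z : G)} : Set G)).index := by
      intro h
      exact P.not_dvd_index (h.trans (Subgroup.index_dvd_of_le hle))
    have hcop : Nat.Coprime (finrank ℂ (Fin n → ℂ)) (Subgroup.centralizer ({(z : G)} : Set G)).index := by
      rw [hfr, hn]
      exact Nat.Coprime.pow_left k ((Nat.Prime.coprime_iff_not_dvd hp).mpr hidx)
    rcases character_eq_zero_or_norm_eq ρ (z : G) hcop with h0 | h0
    · exfalso
      have hb := hχ (z : G)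
      rw [hch] at h0
      simp only [centralChar, h0] at hb
      apply hidx
      rw [← memLocalIdeal_natCast_iff hM]
      simpa using hb
    · exact hscalar (z : G) hz1 ((norm_character_eq_iff ρ (z : G)).mp h0)

end Cfsg.Agent.S0910
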