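import Mathlib
import Cfsg.Statements.S0911
import Cfsg.Agent.BlockLib.KG.DefectTr

set_option autoImplicit false
open Cfsg Cfsg.Agent.BlockLib Cfsg.Agent.CharLib

namespace Cfsg.Agent.S0911

/-- The min–max Theorem for defect classes. Let B be a block of the finite group G relative to a maximal ideal M of the algebraic integers containing the prime p, let g represent a defect class of B and let D be a Sylow p-subgroup of the centralizer of g (viewed in G). For any h: (a) if the idempotent coefficient of B at h is a local integer outside the local ideal, then some conjugate of D contains a Sylow p-subgroup of the centralizer of h; (b) if the central character of some member of B at h is outside the local ideal, then some conjugate of D is contained in a Sylow p-subgroup of the centralizer of h. -/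
theorem result {G : Type*} [Group G] [Finite G] (p : ℕ) [Fact p.Prime] (M : Ideal Cfsg.AlgInt) (hM : Cfsg.IsPModular p M) (B : Set (Cfsg.IrrCharacter G)) (hB : Cfsg.IsPBlock M B) (g : G) (hg : Cfsg.IsDefectClass M B g) (D : Sylow p (Subgroup.centralizer ({g} : Set G))) (h : G) : (Cfsg.MemLocalRing M (Cfsg.blockCoeff B h) → ¬ Cfsg.MemLocalIdeal M (Cfsg.blockCoeff B h) → ∃ (x : G) (Q : Sylow p (Subgroup.centralizer ({h} : Set G))), (Q : Subgroup (Subgroup.centralizer ({h} : Set G))).map (Subgroup.centralizer ({h} : Set G)).subtype ≤ ((D : Subgroup (Subgroup.centralizer ({g} : Set G))).map (Subgroup.centralizer ({g} : Set G)).subtype).map (MulAut.conj x).toMonoidHom) ∧ ((∃ χ ∈ B, ¬ Cfsg.MemLocalIdeal M (Cfsg.centralChar (χ : G → ℂ) h)) → ∃ (x : G) (Q : Sylow p (Subgroup.centralizer ({h} : Set G))), ((D : Subgroup (Subgroup.centralizer ({g} : Set G))).map (Subgroup.centralizer ({g} : Set G)).subtype).map (MulAut.conj x).toMonoidHom ≤ (Q : Subgroup (Subgroup.centralizer ({h} : Set G))).map (Subgroup.centralizer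 ({h} : Set G)).subtype) := by
  classical
  cases nonempty_fintype G
  haveI := isPrime_of_isPModular hM
  haveI := charP_resField hM
  have hne := Ideal.IsPrime.ne_top ‹M.IsPrime›
  have hε := isBlk_eps hB
  set D' : Subgroup G := (D : Subgroup (Subgroup.centralizer ({g} : Set G))).map
    (Subgroup.centralizer ({g} : Set G)).subtype with hD'
  have hDG : CA.IsDefGrp p ⊤ (eps M B) D' :=
    ⟨g, (isDefectClass_iff hB g).mp hg, by rw [top_inf_eq]; exact CA.isSylIn_of_sylow D⟩
  constructor
  · intro hR hnI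
    have h1 : eps M B h ≠ 0 := by
      rw [eps, red_apply, Ne, redS_eq_zero_iff hR]
      exact hnI
    obtain ⟨Q⟩ : Nonempty (Sylow p (Subgroup.centralizer ({h} : Set G))) := inferInstance
    have hQ := CA.isSylIn_of_sylow Q
    have hbr : CA.br ((Q : Subgroup (Subgroup.centralizer ({h} : Set G))).map
        (Subgroup.centralizer ({h} : Set G)).subtype) (eps M B) ≠ 0 :=
      CA.br_ne_zero_iff.mpr ⟨h, CA.le_centralizer_singleton_iff.mp hQ.2.1, h1⟩
    obtain ⟨x, -, hx⟩ := (hDG.br_ne_zero_iff hε hQ.1 le_top).mp hbr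
    exact ⟨x, Q, hx⟩
  · rintro ⟨χ, hχ, hnI⟩
    have hlam : CA.lam ⊤ (eps M B) (CA.clsSum ⊤ h) ≠ 0 := by
      rw [clsSum_top_eq_red, lam_eps hB hχ (isClassFunction_classInd h) (InAlg.classInd hne h).2.1,
        omega_classInd (isClassFunction_of_irr χ.2), Ne,
        redS_eq_zero_iff (memLocalRing_of_isIntegral hne (isIntegral_centralChar_irr χ.2 h))]
      exact hnI
    have hbr := CA.br_ne_zero_of_lam_ne_zero hε (CA.clsSum_mem_cen (Subgroup.mem_top h)) hlam
      hDG.isPGroup le_top (hDG.br_ne_zero hε)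
    obtain ⟨y, hy, hy0⟩ := CA.br_ne_zero_iff.mp hbr
    obtain ⟨c, -, hc⟩ := CA.clsSum_ne_zero_iff.mp hy0
    -- `D' ≤ C(c h c⁻¹)`, so `c⁻¹ D' c ≤ C(h)`
    have h1 : D' ≤ Subgroup.centralizer ({c * h * c⁻¹} : Set G) := by
      rw [hc]; exact CA.le_centralizer_singleton_iff.mpr hy
    rw [← CA.cjs_centralizer_singleton, CA.le_cjs_iff] at h1
    obtain ⟨E, hE, hle⟩ := CA.exists_isSylIn_ge (CA.isPGroup_cjs hDG.isPGroup c⁻¹) h1
    obtain ⟨Q, rfl⟩ := hE.exists_sylow
    exact ⟨c⁻¹, Q, hle⟩

end Cfsg.Agent.S0911
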