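import Mathlib
import Cfsg.Statements.S0916
import Cfsg.Agent.BlockLib.KG.Defect
import Cfsg.Agent.BlockLib.KG.Pairs

set_option autoImplicit false
open Cfsg

namespace Cfsg.Agent.S0916

open Cfsg.Agent.BlockLib Cfsg.Agent.BlockLib.CA

local notation "C(" P ")" => Subgroup.centralizer (SetLike.coe P)
local notation "N(" P ")" => Subgroup.normalizer (SetLike.coe P)
local notation "Ce(" g ")" => Subgroup.centralizer (Singleton.singleton g : Set _)

theorem aux {G : Type*} [Group G] [Finite G] {p : ℕ} [Fact p.Prime] {P : Subgroup G} {g : G}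
    (hS : IsSylIn p P Ce(g)) {c : G} (hc : IsConj g c) (hcP : c ∈ C(P)) :
    ∃ n ∈ N(P), n * g * n⁻¹ = c := by
  obtain ⟨a, rfl⟩ := isConj_iff.mp hc
  have h1 := hS.cjs a
  rw [cjs_centralizer_singleton] at h1
  obtain ⟨z, hz, hle⟩ := h1.exists_conj_le hS.1 (le_centralizer_singleton_iff.mpr hcP)
  rw [cjs_cjs] at hle
  have h2 : P = cjs (z * a) P := by
    apply Subgroup.eq_of_le_of_card_ge hle
    rw [card_cjs]
  refine ⟨z * a, mem_normalizer_of_cjs_eq h2.symm, ?_⟩
  have h3 := Subgroup.mem_centralizer_singleton_iff.mp hz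
  calc z * a * g * (z * a)⁻¹ = z * (a * g * a⁻¹) * z⁻¹ := by group
    _ = a * g * a⁻¹ * z * z⁻¹ := by rw [h3]
    _ = a * g * a⁻¹ := by group

/-- Let P be a p-subgroup of the finite group G, C its centralizer and N its normalizer. Say that a conjugacy class (of G, or of N) has defect group P when P is a Sylow p-subgroup of the centralizer (in G, respectively in N) of some element of the class. Then: (i) if the class of g in G has defect group P, the elements of that class lying in C form a single N-class, again with defect group P; (ii) every N-class with defect group P arises this way from exactly one G-class with defect group P. -/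
theorem result {G : Type*} [Group G] [Finite G] (p : ℕ) [Fact p.Prime] (P : Subgroup G) (hP : IsPGroup p P) : (∀ g : G, (∃ S : Sylow p (Subgroup.centralizer ({g} : Set G)), (S : Subgroup (Subgroup.centralizer ({g} : Set G))).map (Subgroup.centralizer ({g} : Set G)).subtype = P) → (∃ c : G, IsConj g c ∧ c ∈ Subgroup.centralizer (P : Set G)) ∧ (∀ c₁ c₂ : G, IsConj g c₁ → IsConj g c₂ → c₁ ∈ Subgroup.centralizer (P : Set G) → c₂ ∈ Subgroup.centralizer (P : Set G) → ∃ n ∈ Subgroup.normalizer (P : Set G), n * c₁ * n⁻¹ = c₂)) ∧ (∀ c : G, c ∈ Subgroup.centralizer (P : Set G) → (∃ S : Sylow p (Subgroup.centralizer ({c} : Set G) ⊓ Subgroup.normalizer (P : Set G) : Subgroup G), (S : Subgroup ↥(Subgroup.centralizer ({c} : Set G) ⊓ Subgroup.normalizer (P : Set G))).map (Subgroup.centralizer ({c} : Set G) ⊓ Subgroup.normalizer (P : Set G)).subtype = P) → ∃ S : Sylow p (Subgroup.centralizer ({c} : Set G)), (S : Subgroup (Subgroup.centralizer ({c} : Set G))).map (Subgroup.centralizer ({c} : Set G)).subtype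 = P) := by
  haveI : Fintype G := Fintype.ofFinite G
  refine ⟨fun g hg => ?_, fun c hc hS => ?_⟩
  · obtain ⟨S, hS⟩ := hg
    have hSyl : IsSylIn p P Ce(g) := by
      rw [← hS]; exact isSylIn_of_sylow S
    refine ⟨⟨g, IsConj.refl g, le_centralizer_singleton_iff.mp hSyl.2.1⟩, ?_⟩
    intro c₁ c₂ h1 h2 hc1 hc2
    obtain ⟨n₁, hn₁, e1⟩ := aux hSyl h1 hc1
    obtain ⟨n₂, hn₂, e2⟩ := aux hSyl h2 hc2
    refine ⟨n₂ * n₁⁻¹, Subgroup.mul_mem _ hn₂ (Subgroup.inv_mem _ hn₁), ?_⟩
    rw [← e1, ← e2]
    group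
  · obtain ⟨S, hS⟩ := hS
    have hSyl : IsSylIn p P (Ce(c) ⊓ N(P)) := by
      have := isSylIn_of_sylow S
      rwa [hS] at this
    obtain ⟨Q, hQ, hPQ⟩ := exists_isSylIn_ge hP (le_centralizer_singleton_iff.mpr hc)
    have hPQ' : P = Q := by
      by_contra hne
      have hlt := lt_inf_normalizer hQ.1 (lt_of_le_of_ne hPQ hne)
      have := hSyl.2.2 (Q ⊓ N(P)) (hQ.1.to_le inf_le_left)
        (inf_le_inf_right _ hQ.2.1) hlt.le
      exact hlt.ne this.symm
    rw [← hPQ'] at hQ
    obtain ⟨S', hS'⟩ := hQ.exists_sylow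
    exact ⟨S', hS'.symm⟩

end Cfsg.Agent.S0916
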