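import Mathlib
import Cfsg.Statements.S0920
import Cfsg.Agent.H6.FirstMainTr

set_option autoImplicit false
open Cfsg Cfsg.Agent.BlockLib Cfsg.Agent.CharLib Cfsg.Agent.H6.IndBlk

namespace Cfsg.Agent.S0920

open Cfsg.Agent.BlockLib.CA Cfsg.Agent.H6.FirstMain

universe u v

section

variable {k : Type u} {G : Type v} [Field k] [Group G] [Fintype G]

local notation "C(" P ")" => Subgroup.centralizer (SetLike.coe P)
local notation "N(" P ")" => Subgroup.normalizer (SetLike.coe P)

variable {p : ℕ} [Fact p.Prime] [CharP k p] [Split k G]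

theorem le_of_br_ne_zero {Q : Subgroup G} {ft : CA k G} (hft : IsBlk N(Q) ft)
    (hD : IsDefGrp p N(Q) ft Q) (R : Subgroup G) (hR : IsPGroup p R) (hRN : R ≤ N(Q))
    (hbr : br R ft ≠ 0) : R ≤ Q := by
  obtain ⟨x, hx, hle⟩ := (hD.br_ne_zero_iff hft hR hRN).mp hbr
  rwa [cjs_eq_of_mem_normalizer hx] at hle

theorem up_aux {Q : Subgroup G} (hQ : IsPGroup p Q) {ft : CA k G} (hft : IsBlk N(Q) ft)
    (hD : IsDefGrp p N(Q) ft Q) {b : CA k G} (hb : IsBlk ⊤ b) (hbf : br Q b * ft = ft) :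
    IsDefGrp p ⊤ b Q ∧ br Q b = ft := by
  obtain ⟨h1, h2⟩ := first_main_aux hQ hft (le_of_br_ne_zero hft hD) hb hbf
  refine ⟨isDefGrp_of_forall hb hQ le_top (by rw [h2]; exact hft.ne_zero) ?_, h2⟩
  intro S hS _ hbr
  obtain ⟨x, hx⟩ := h1 S hS hbr
  exact ⟨x, trivial, hx⟩

theorem down_aux {Q : Subgroup G} (hQ : IsPGroup p Q) {b : CA k G} (hb : IsBlk ⊤ b)
    (hD : IsDefGrp p ⊤ b Q) :
    ∃ ft : CA k G, IsBlk N(Q) ft ∧ IsDefGrp p N(Q) ft Q ∧ br Q b * ft = ft := by
  have hc := br_mem_cen_of (centralizer_le_normalizer' Q) le_rfl hb.mem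
  obtain ⟨ft, hft, hmul⟩ := exists_blk_of_idem hc (br_blk_idem hQ hb) (hD.br_ne_zero hb)
  have hbf : br Q b * ft = ft := by rw [cen_comm hc hft.mem]; exact hmul
  refine ⟨ft, hft, ?_, hbf⟩
  obtain ⟨D', hD'⟩ := exists_isDefGrp (p := p) hft
  -- `Q ≤ D'`
  have hQD' : Q ≤ D' := by
    have h1 : br Q ft ≠ 0 := by
      rw [br_blk_eq_self hQ Subgroup.le_normalizer le_rfl hft]; exact hft.ne_zero
    obtain ⟨x, hx, hle⟩ := (hD'.br_ne_zero_iff hft hQ Subgroup.le_normalizer).mp h1
    rw [le_cjs_iff, cjs_eq_of_mem_normalizer (Subgroup.inv_mem _ hx)] at hle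
    exact hle
  -- `br D' b ≠ 0`
  have h2 : br D' b ≠ 0 := by
    intro h0
    apply hD'.br_ne_zero hft
    have hfixb : br Q b ∈ fix D' := fix_anti hD'.le hc.2
    have hfixf : ft ∈ fix D' := fix_anti hD'.le hft.mem.2
    rw [← hbf, br_mul hD'.isPGroup hfixb hfixf, br_br hQD', h0, zero_mul]
  obtain ⟨x, -, hle⟩ := (hD.br_ne_zero_iff hb hD'.isPGroup le_top).mp h2
  have hcard : Nat.card D' ≤ Nat.card Q := by
    have := Subgroup.card_le_of_le hle
    rwa [card_cjs] at this
  have : Q = D' := Subgroup.eq_of_le_of_card_ge hQD' hcard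
  rw [← this] at hD'
  exact hD'

end

/-- Brauer's First Main Theorem. Let D be a p-subgroup of the finite group G with normalizer N, and fix a maximal ideal M of the algebraic integers containing p. Then (i) every block b of N having D as a defect group induces some block B of G having D as a defect group; (ii) every block of G with defect group D is induced by exactly one block of N with defect group D. -/
theorem result {G : Type*} [Group G] [Finite G] (p : ℕ) [Fact p.Prime] (M : Ideal Cfsg.AlgInt) (hM : Cfsg.IsPModular p M) (D : Subgroup G) (hD : IsPGroup p D) : (∀ b : Set (Cfsg.IrrCharacter (Subgroup.normalizer (D : Set G))), Cfsg.IsPBlock M b → Cfsg.IsDefectGroup p M b (D.subgroupOf (Subgroup.normalizer (D : Set G))) → ∃ B : Set (Cfsg.IrrCharacter G), Cfsg.IsPBlock M B ∧ Cfsg.IsDefectGroup p M B D ∧ Cfsg.IsInducedBlock M (Subgroup.normalizer (D : Set G)) b B) ∧ (∀ B : Set (Cfsg.IrrCharacter G), Cfsg.IsPBlock M B → Cfsg.IsDefectGroup p M B D → ∃!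 b : Set (Cfsg.IrrCharacter (Subgroup.normalizer (D : Set G))), Cfsg.IsPBlock M b ∧ Cfsg.IsDefectGroup p M b (D.subgroupOf (Subgroup.normalizer (D : Set G))) ∧ Cfsg.IsInducedBlock M (Subgroup.normalizer (D : Set G)) b B) := by
  classical
  cases nonempty_fintype G
  haveI := isPrime_of_isPModular hM
  haveI := charP_resField hM
  have hDN : D ≤ Subgroup.normalizer (D : Set G) := Subgroup.le_normalizer
  have hCN := CA.centralizer_le_normalizer' D
  have hdef : ∀ b : Set (Cfsg.IrrCharacter (Subgroup.normalizer (D : Set G))), IsPBlock M b →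
      (IsDefectGroup p M b (D.subgroupOf (Subgroup.normalizer (D : Set G))) ↔
        CA.IsDefGrp p (Subgroup.normalizer (D : Set G))
          (epsS M (Subgroup.normalizer (D : Set G)) b) D) := by
    intro b hb
    rw [isDefectGroup_sub_iff hb, Subgroup.subgroupOf_map_subtype, inf_eq_left.mpr hDN]
  constructor
  · intro b hb hbD
    have hft := isBlk_epsS hb
    obtain ⟨β, hβ, hβf⟩ := exists_blk_br_mul hD hCN le_rfl hft
    obtain ⟨B, hB, rfl⟩ := exists_eps_eq hβ
    refine ⟨B, hB, (isDefectGroup_iff hB D).mpr (up_aux hD hft ((hdef b hb).mp hbD) hβ hβf).1, ?_⟩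
    exact (isInducedBlock_iff_br hD hDN hCN le_rfl hb hB).mpr hβf
  · intro B hB hBD
    have hβ := isBlk_eps hB
    obtain ⟨ft, hft, hftD, hbf⟩ := down_aux hD hβ ((isDefectGroup_iff hB D).mp hBD)
    obtain ⟨b, hb, rfl⟩ := exists_epsS_eq hft
    refine ⟨b, ⟨hb, (hdef b hb).mpr hftD, (isInducedBlock_iff_br hD hDN hCN le_rfl hb hB).mpr hbf⟩, ?_⟩
    rintro b' ⟨hb', hb'D, hind'⟩
    have hbf' := (isInducedBlock_iff_br hD hDN hCN le_rfl hb' hB).mp hind'
    have h1 := (up_aux hD hft hftD hβ hbf).2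
    have h2 := (up_aux hD (isBlk_epsS hb') ((hdef b' hb').mp hb'D) hβ hbf').2
    exact epsS_injective hb' hb (h2.symm.trans h1)

end Cfsg.Agent.S0920
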