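import Mathlib
import Cfsg.Prelude.Def_Blocks
import Cfsg.Prelude.Def_Solvable
import Cfsg.Agent.BlockLib.Idempotent
import Cfsg.Agent.CharLib.Clifford
import Cfsg.Agent.S0174
import Cfsg.Agent.Lib.Helper23.PPrimeCore

set_option autoImplicit false

namespace Cfsg.Agent.S0921

open Cfsg Cfsg.Agent.BlockLib Cfsg.Agent.CharLib Cfsg.Agent.CharLib.H2
open scoped ComplexConjugate

theorem aux {G : Type*} [Group G] [Fintype G] {p : ℕ} {M : Ideal Cfsg.AlgInt}
    (hM : Cfsg.IsPModular p M) (N : Subgroup G) (hN : N.Normal) [Fintype N]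
    (hcop : ¬ p ∣ Nat.card N) (χ ψ : IrrCharacter G) (h : SameBlock M (χ : G → ℂ) (ψ : G → ℂ))
    (θ : IrrCharacter N) (hχ : classInner (fun n : N => (χ : G → ℂ) n) (θ : N → ℂ) ≠ 0) :
    classInner (fun n : N => (ψ : G → ℂ) n) (θ : N → ℂ) ≠ 0 := by
  classical
  have hprime := isPrime_of_isPModular hM
  have hne := ne_top_of_isPModular hM
  let orbit : Finset (N → ℂ) := Finset.univ.image (fun x : G => conjFun hN (θ : N → ℂ) x)
  have horb : ∀ θ' ∈ orbit, ∃ x : G, θ' = conjFun hN (θ : N → ℂ) x := by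
    intro θ' hθ'
    obtain ⟨x, -, rfl⟩ := Finset.mem_image.mp hθ'
    exact ⟨x, rfl⟩
  let t : (N → ℂ) → G → ℂ := fun θ' =>
    extendByZero N (fun n => (Nat.card N : ℂ)⁻¹ * (θ' 1 * conj (θ' n)))
  let F : G → ℂ := ∑ θ' ∈ orbit, t θ'
  have hFR : ∀ g, MemLocalRing M (F g) := by
    intro g
    show MemLocalRing M ((∑ θ' ∈ orbit, t θ') g)
    rw [Finset.sum_apply]
    refine memLocalRing_sum _ _ fun θ' hθ' => ?_
    obtain ⟨x, rfl⟩ := horb θ' hθ'
    have hirr := isIrrCharacter_conjFun hN θ.2 x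
    have hch := isCharacter_of_irr hirr
    by_cases hg : g ∈ N
    · show MemLocalRing M (extendByZero N _ g)
      rw [extendByZero_of_mem N _ hg]
      apply memLocalRing_mul (memLocalRing_natCast_inv hM hcop)
      apply memLocalRing_mul
      · exact memLocalRing_of_isIntegral hne (isCharacter_isIntegral hch 1)
      · exact memLocalRing_of_isIntegral hne (isCharacter_isIntegral (isCharacter_conj hch) _)
    · show MemLocalRing M (extendByZero N _ g)
      rw [extendByZero_of_not_mem N _ hg]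
      exact memLocalRing_zero hne
  have ht : ∀ (θ' : N → ℂ) (g y : G), t θ' (y * g * y⁻¹) = t (conjFun hN θ' y) g := by
    intro θ' g y
    by_cases hg : g ∈ N
    · show extendByZero N _ _ = extendByZero N _ _
      rw [extendByZero_of_mem N _ hg, extendByZero_of_mem N _ (hN.conj_mem g hg y)]
      simp only [conjFun_apply]
      congr 3
      congr 1
      apply Subtype.ext
      simp
    · have hg' : y * g * y⁻¹ ∉ N := by
        intro h'
        apply hg
        have := hN.conj_mem _ h' y⁻¹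
        simpa [mul_assoc] using this
      show extendByZero N _ _ = extendByZero N _ _
      rw [extendByZero_of_not_mem N _ hg, extendByZero_of_not_mem N _ hg']
  have hFcf : IsClassFunction G F := by
    intro g y
    show (∑ θ' ∈ orbit, t θ') (y * g * y⁻¹) = (∑ θ' ∈ orbit, t θ') g
    rw [Finset.sum_apply, Finset.sum_apply]
    simp only [ht]
    refine Finset.sum_bij (fun θ' _ => conjFun hN θ' y) ?_ ?_ ?_ (fun _ _ => rfl)
    · intro θ' hθ'
      obtain ⟨x, rfl⟩ := horb θ' hθ'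
      rw [conjFun_conjFun]
      exact Finset.mem_image_of_mem _ (Finset.mem_univ _)
    · intro a _ b _ hab
      have h1 := congrArg (fun f => conjFun hN f y⁻¹) hab
      simpa [conjFun_conjFun, conjFun_one] using h1
    · intro θ' hθ'
      obtain ⟨x, rfl⟩ := horb θ' hθ'
      refine ⟨conjFun hN (θ : N → ℂ) (x * y⁻¹), Finset.mem_image_of_mem _ (Finset.mem_univ _), ?_⟩
      rw [conjFun_conjFun]
      congr 1
      group
  -- computing omega
  have homega : ∀ φ : IrrCharacter G, omega (φ : G → ℂ) F =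
      classInner (fun n : N => (φ : G → ℂ) n) (θ : N → ℂ) * (∑ θ' ∈ orbit, θ' 1) / (φ : G → ℂ) 1 := by
    intro φ
    rw [omega]
    congr 1
    have h1 : ∑ g, F g * (φ : G → ℂ) g = ∑ θ' ∈ orbit, ∑ g, t θ' g * (φ : G → ℂ) g := by
      rw [Finset.sum_comm]
      refine Finset.sum_congr rfl fun g _ => ?_
      show (∑ θ' ∈ orbit, t θ') g * _ = _
      rw [Finset.sum_apply, Finset.sum_mul]
    rw [h1, Finset.mul_sum]
    refine Finset.sum_congr rfl fun θ' hθ' => ?_
    obtain ⟨x, rfl⟩ := horb θ' hθ'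
    rw [← classInner_restrict_conjFun hN (isClassFunction_of_irr φ.2) (θ : N → ℂ) x]
    show ∑ g, extendByZero N _ g * (φ : G → ℂ) g = _
    rw [sum_extendByZero_mul, classInner, Finset.mul_sum, Finset.sum_mul]
    refine Finset.sum_congr rfl fun n _ => ?_
    ring
  have hone : ∀ φ : IrrCharacter G, classInner (fun n : N => (φ : G → ℂ) n) (θ : N → ℂ) ≠ 0 →
      omega (φ : G → ℂ) F = 1 := by
    intro φ hφ
    rw [homega]
    have hcl := Cfsg.Agent.S0174.result N hN (φ : G → ℂ) φ.2 (θ : N → ℂ) θ.2 hφ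
    have hset : {ψ : N → ℂ | ∃ g : G, ψ = fun n : N => (θ : N → ℂ) ⟨g * n * g⁻¹, hN.conj_mem n n.2 g⟩}
        = (orbit : Set (N → ℂ)) := by
      ext θ'
      simp only [Set.mem_setOf_eq, Finset.mem_coe]
      constructor
      · rintro ⟨g, rfl⟩
        exact Finset.mem_image_of_mem (fun x : G => conjFun hN (θ : N → ℂ) x) (Finset.mem_univ g)
      · intro h'
        exact horb θ' h'
    rw [hset, finsum_mem_coe_finset] at hcl
    have h1 := congrFun hcl 1
    simp only [Pi.smul_apply, Finset.sum_apply, smul_eq_mul, OneMemClass.coe_one] at h1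
    rw [← h1]
    exact div_self (irr_apply_one_ne_zero φ)
  intro hψ
  have h1 := memLocalIdeal_omega_sub (isClassFunction_of_irr χ.2) (isClassFunction_of_irr ψ.2) h
    hFcf hFR
  rw [hone χ hχ, homega ψ, hψ, zero_mul, zero_div, sub_zero] at h1
  exact not_memLocalIdeal_one h1

theorem result {G : Type*} [Group G] [Finite G] (p : ℕ) [Fact p.Prime] (M : Ideal Cfsg.AlgInt) (hM : Cfsg.IsPModular p M) [Fintype G] (χ ψ : Cfsg.IrrCharacter G) (h : Cfsg.SameBlock M (χ : G → ℂ) (ψ : G → ℂ)) (θ : Cfsg.IrrCharacter (Cfsg.pPrimeCore p G)) [Fintype (Cfsg.pPrimeCore p G)] : Cfsg.classInner (fun n : Cfsg.pPrimeCore p G => (χ : G → ℂ) n) (θ : Cfsg.pPrimeCore p G → ℂ) ≠ 0 ↔ Cfsg.classInner (fun n : Cfsg.pPrimeCore p G => (ψ : G → ℂ) n) (θ : Cfsg.pPrimeCore p G → ℂ) ≠ 0 := by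
  have hp : p.Prime := Fact.out
  have hN := Cfsg.Agent.Lib.Helper23.h23_pPrimeCore_normal (G := G) p
  have hcop : ¬ p ∣ Nat.card (Cfsg.pPrimeCore p G) := by
    have := Cfsg.Agent.Lib.Helper23.h23_pPrimeCore_coprime (G := G) p
    exact (Nat.Prime.coprime_iff_not_dvd hp).mp this.symm
  exact ⟨aux hM _ hN hcop χ ψ h θ, aux hM _ hN hcop ψ χ (SameBlock.symm' h) θ⟩

end Cfsg.Agent.S0921
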