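import Mathlib
import Cfsg.Statements.S0926
import Cfsg.Agent.S0924
import Cfsg.Agent.S0908
import Cfsg.Agent.CharLib.PSection
import Cfsg.Agent.Lib.Helper23.CharDeg2
import Cfsg.Agent.Lib.Helper23.WeakOrth

set_option autoImplicit false
open Cfsg Cfsg.Agent.BlockLib Cfsg.Agent.CharLib Cfsg.Agent.H6

namespace Cfsg.Agent.S0926

theorem blockCoeff_eq_zero_of_singular {G : Type*} [Group G] [Finite G] {p : ℕ} {M : Ideal AlgInt}
    (hM : IsPModular p M) {B : Set (IrrCharacter G)} (hB : IsPBlock M B) {g : G}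
    (hg : p ∣ orderOf g) : blockCoeff B g = 0 := by
  classical
  cases nonempty_fintype G
  rw [blockCoeff, Cfsg.Agent.Lib.Helper23.finsum_mem_eq_sum_filter',
    Cfsg.Agent.Lib.Helper23.weak_orth hM B hB 1 g (by
      rw [orderOf_one]; exact hM.1.one_lt.ne' ∘ Nat.dvd_one.mp) hg, mul_zero]

/-- the value of a height zero character at a defect class is a unit -/
theorem not_memLocalIdeal_of_height_zero {G : Type*} [Group G] [Finite G] (p : ℕ) [Fact p.Prime]
    (M : Ideal AlgInt) (hM : IsPModular p M) (B : Set (IrrCharacter G)) (hB : IsPBlock M B)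
    (χ : IrrCharacter G) (hχ : χ ∈ B) (h0 : blockHeight p B (χ : G → ℂ) = 0) (g₀ : G)
    (hg₀ : IsDefectClass M B g₀) : ¬ MemLocalIdeal M ((χ : G → ℂ) g₀) := by
  classical
  haveI := isPrime_of_isPModular hM
  have hne := ne_top_of_isPModular hM
  have hp : p.Prime := Fact.out
  intro hmem
  apply hg₀.2.2 χ hχ
  obtain ⟨S⟩ : Nonempty (Sylow p (Subgroup.centralizer ({g₀} : Set G))) := inferInstance
  have hD : IsDefectGroup p M B ((S : Subgroup (Subgroup.centralizer ({g₀} : Set G))).map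
      (Subgroup.centralizer ({g₀} : Set G)).subtype) := ⟨g₀, hg₀, S, rfl⟩
  have hcard := Cfsg.Agent.S0908.result p M hM B hB _ hD
  rw [Nat.card_congr (Subgroup.equivMapOfInjective _ _
    (Subgroup.subtype_injective _)).symm.toEquiv, S.card_eq_multiplicity] at hcard
  have hd : (Nat.card (Subgroup.centralizer ({g₀} : Set G))).factorization p = blockDefect p B :=
    Nat.pow_right_injective hp.two_le hcard
  obtain ⟨m, hm⟩ : ∃ m, m = sInf ((fun χ : IrrCharacter G =>
    (charDegree (χ : G → ℂ)).factorization p) '' B) := ⟨_, rfl⟩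
  have hm1 : m ≤ (charDegree (χ : G → ℂ)).factorization p := by
    rw [hm]; exact Nat.sInf_le ⟨χ, hχ, rfl⟩
  have hm2 : (charDegree (χ : G → ℂ)).factorization p ≤ m := by
    rw [blockHeight, ← hm] at h0
    omega
  have hdeg0 : charDegree (χ : G → ℂ) ≠ 0 := (Cfsg.Agent.Lib.Helper23.charDegree_pos_irr χ).ne'
  have hG0 : Nat.card G ≠ 0 := Nat.card_pos.ne'
  have hm3 : (charDegree (χ : G → ℂ)).factorization p ≤ (Nat.card G).factorization p :=
    (Nat.factorization_le_iff_dvd hdeg0 hG0).mpr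
      (Cfsg.Agent.Lib.Helper23.charDegree_dvd_card χ) p
  have hidx0 : (Subgroup.centralizer ({g₀} : Set G)).index ≠ 0 := Subgroup.index_ne_zero_of_finite
  have hC0 : Nat.card (Subgroup.centralizer ({g₀} : Set G)) ≠ 0 := Nat.card_pos.ne'
  have hmul : (Nat.card G).factorization p =
      (Nat.card (Subgroup.centralizer ({g₀} : Set G))).factorization p +
      (Subgroup.centralizer ({g₀} : Set G)).index.factorization p := by
    rw [← Subgroup.card_mul_index (Subgroup.centralizer ({g₀} : Set G)),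
      Nat.factorization_mul hC0 hidx0]
    rfl
  have hidx : (Subgroup.centralizer ({g₀} : Set G)).index.factorization p =
      (charDegree (χ : G → ℂ)).factorization p := by
    rw [blockDefect, ← hm] at hd
    omega
  -- write both numbers as `p ^ m` times a unit
  have e1 := Nat.ordProj_mul_ordCompl_eq_self (Subgroup.centralizer ({g₀} : Set G)).index p
  have e2 := Nat.ordProj_mul_ordCompl_eq_self (charDegree (χ : G → ℂ)) p
  have hu2 : ¬ p ∣ charDegree (χ : G → ℂ) / p ^ (charDegree (χ : G → ℂ)).factorization p :=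
    Nat.not_dvd_ordCompl hp hdeg0
  rw [hidx] at e1
  obtain ⟨u₁, hu₁⟩ : ∃ u₁, u₁ = (Subgroup.centralizer ({g₀} : Set G)).index /
    p ^ (charDegree (χ : G → ℂ)).factorization p := ⟨_, rfl⟩
  obtain ⟨u₂, hu₂⟩ : ∃ u₂, u₂ = charDegree (χ : G → ℂ) /
    p ^ (charDegree (χ : G → ℂ)).factorization p := ⟨_, rfl⟩
  rw [← hu₁] at e1
  rw [← hu₂] at e2 hu2
  have hpp : ((p ^ (charDegree (χ : G → ℂ)).factorization p : ℕ) : ℂ) ≠ 0 := by
    exact_mod_cast (pow_pos hp.pos _).ne'
  have hu20 : (u₂ : ℂ) ≠ 0 := by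
    intro h
    have : u₂ = 0 := by exact_mod_cast h
    exact hu2 (this ▸ dvd_zero p)
  obtain ⟨s, hs⟩ : ∃ s, s = (charDegree (χ : G → ℂ)).factorization p := ⟨_, rfl⟩
  rw [← hs] at e1 e2 hpp
  have key : centralChar (χ : G → ℂ) g₀ = ((u₁ : ℂ) * (u₂ : ℂ)⁻¹) * (χ : G → ℂ) g₀ := by
    rw [centralChar, ← Cfsg.Agent.Lib.Helper23.charDegree_cast_irr χ, ← e1, ← e2]
    push_cast
    push_cast at hpp
    field_simp
  rw [key]
  exact memLocalIdeal_mul_left (memLocalRing_mul (memLocalRing_natCast hne _)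
    (memLocalRing_natCast_inv hM hu2)) hmem

/-- Let B be a block of the finite group G with defect group D (relative to a maximal ideal M of the algebraic integers containing p), let χ ∈ B have height zero, and let x be a p-element. Then some conjugate of x lies in D if and only if χ does not vanish on the whole p-section of x (the elements whose p-part is conjugate to x). -/
theorem result {G : Type*} [Group G] [Finite G] (p : ℕ) [Fact p.Prime] (M : Ideal Cfsg.AlgInt) (hM : Cfsg.IsPModular p M) (B : Set (Cfsg.IrrCharacter G)) (hB : Cfsg.IsPBlock M B) (D : Subgroup G) (hD : Cfsg.IsDefectGroup p M B D) (χ : Cfsg.IrrCharacter G) (hχ : χ ∈ B) (h0 : Cfsg.blockHeight p B (χ : G → ℂ) = 0) (x : G) (hx : ∃ k : ℕ, orderOf x = p ^ k) : (∃ g : G, g * x * g⁻¹ ∈ D) ↔ ∃ u : G, (∃ z : G, Cfsg.IsPPart p u z ∧ IsConj x z) ∧ (χ : G → ℂ) u ≠ 0 := by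
  classical
  cases nonempty_fintype G
  haveI := isPrime_of_isPModular hM
  haveI := charP_resField hM
  have hne := ne_top_of_isPModular hM
  obtain ⟨k, hk⟩ := hx
  constructor
  · rintro ⟨g, hgD⟩
    obtain ⟨g₀, hg₀, S, hS⟩ := hD
    have hreg : ¬ p ∣ orderOf g₀ := by
      intro h
      apply hg₀.2.1
      rw [blockCoeff_eq_zero_of_singular hM hB h]
      exact memLocalIdeal_zero hne
    have hcomm : Commute (g * x * g⁻¹) g₀ := by
      rw [hS] at hgD
      obtain ⟨s, -, hs⟩ := hgD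
      have := Subgroup.mem_centralizer_singleton_iff.mp s.2
      rw [← hs]
      exact this
    have hord : orderOf (g * x * g⁻¹) = p ^ k := by
      rw [← hk]; exact (MulAut.conj g).orderOf_eq x
    refine ⟨g * x * g⁻¹ * g₀, ⟨g * x * g⁻¹, ⟨g₀, rfl, hcomm, ⟨k, hord⟩, hreg⟩,
      isConj_iff.mpr ⟨g, rfl⟩⟩, ?_⟩
    intro h0'
    have h1 := Cfsg.Agent.CharLib.H2.memLocalIdeal_char_mul_sub hM (isCharacter_of_irr χ.2) hcomm
      (k := k) (by rw [← hord, pow_orderOf_eq_one])
    rw [h0', zero_sub] at h1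
    have h2 := memLocalIdeal_neg h1
    rw [neg_neg] at h2
    exact not_memLocalIdeal_of_height_zero p M hM B hB χ hχ h0 g₀ hg₀ h2
  · rintro ⟨u, ⟨z, hz, hxz⟩, hu⟩
    by_contra hcon
    apply hu
    apply Cfsg.Agent.S0924.result p M hM χ u z hz
    intro D' hD' hzD'
    rw [← pb_eq_blockOf hB hχ] at hD'
    obtain ⟨c, -, hc⟩ := CA.IsDefGrp.conj (isBlk_eps hB) ((isDefectGroup_iff hB D).mp hD)
      ((isDefectGroup_iff hB D').mp hD')
    rw [hc, CA.mem_cjs] at hzD'
    obtain ⟨t, ht⟩ := isConj_iff.mp hxz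
    apply hcon
    refine ⟨c⁻¹ * t, ?_⟩
    have : c⁻¹ * t * x * (c⁻¹ * t)⁻¹ = c⁻¹ * (t * x * t⁻¹) * c := by group
    rw [this, ht]
    exact hzD'

end Cfsg.Agent.S0926
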