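import Mathlib
import Cfsg.Statements.S0928
import Cfsg.Agent.Lib.Helper23.OmegaP
import Cfsg.Agent.Lib.Helper23.DefectZero

set_option autoImplicit false
open Cfsg Cfsg.Agent.CharLib Cfsg.Agent.BlockLib Cfsg.Agent.Lib.Helper23

namespace Cfsg.Agent.S0928

/-- Let χ be an irreducible character of the finite group G and p a prime. If χ g = 0 for every element g of order p, then the exponent of p in the degree χ(1) equals the exponent of p in the order of G (χ has p-defect zero). -/
theorem result {G : Type*} [Group G] [Finite G] (p : ℕ) [Fact p.Prime] (χ : Cfsg.IrrCharacter G) (hvan : ∀ g : G, orderOf g = p → (χ : G → ℂ) g = 0) : (Cfsg.charDegree (χ : G → ℂ)).factorization p = (Nat.card G).factorization p := by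
  classical
  have hp : p.Prime := Fact.out
  have := Fintype.ofFinite G
  obtain ⟨M, hM⟩ := exists_isPModular p hp
  have htop := ne_top_of_isPModular hM
  have hMp := isPrime_of_isPModular hM
  by_contra hne
  have hdvd : Cfsg.charDegree (χ : G → ℂ) ∣ Nat.card G := charDegree_dvd_card χ
  have hle : (Cfsg.charDegree (χ : G → ℂ)).factorization p ≤ (Nat.card G).factorization p :=
    (Nat.factorization_le_iff_dvd (charDegree_pos_irr χ).ne' Nat.card_pos.ne').2 hdvd p
  have hlt := lt_of_le_of_ne hle hne
  have h1 := OmegaP.memLocalIdeal_omega_powInd hM χ hlt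
  have h2 : omega (χ : G → ℂ) (OmegaP.powInd p) = 1 := by
    unfold omega
    have : ∑ g, OmegaP.powInd p g * (χ : G → ℂ) g = (χ : G → ℂ) 1 := by
      rw [Finset.sum_eq_single (1 : G)]
      · rw [OmegaP.powInd_apply]; simp
      · intro g _ hg
        rw [OmegaP.powInd_apply]
        split_ifs with h
        · rw [hvan g (orderOf_eq_prime h hg), mul_zero]
        · rw [zero_mul]
      · intro h; exact absurd (Finset.mem_univ _) h
    rw [this]
    exact div_self (irr_apply_one_ne_zero χ)
  rw [h2] at h1
  exact not_memLocalIdeal_one h1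

end Cfsg.Agent.S0928
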