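import Cfsg.Statements.S0929
import Cfsg.Agent.S0920
import Cfsg.Agent.S0918
import Cfsg.Agent.S0924
import Cfsg.Agent.S0912
import Cfsg.Agent.H6.PPart
import Cfsg.Agent.Lib.Helper23.MinMax2

set_option autoImplicit false
open Cfsg

namespace Cfsg.Agent.S0929

/-- Let B be a block of the finite group G with defect group P (relative to a maximal ideal M of the algebraic integers containing p), and let g be an element at which the central character of some member of B is not in the local ideal at M. Then some conjugate x of g centralizes P and has its p-part in the centre of P. -/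
theorem result {G : Type*} [Group G] [Finite G] (p : ℕ) [Fact p.Prime] (M : Ideal Cfsg.AlgInt) (hM : Cfsg.IsPModular p M) (B : Set (Cfsg.IrrCharacter G)) (hB : Cfsg.IsPBlock M B) (P : Subgroup G) (hP : Cfsg.IsDefectGroup p M B P) (g : G) (hg : ∃ χ ∈ B, ¬ Cfsg.MemLocalIdeal M (Cfsg.centralChar (χ : G → ℂ) g)) : ∃ x : G, IsConj g x ∧ x ∈ Subgroup.centralizer (P : Set G) ∧ ∀ z : G, Cfsg.IsPPart p x z → z ∈ P ∧ ∀ w ∈ P, z * w = w * z := by
  classical
  cases nonempty_fintype G
  have hp := hM.1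
  have hPr := Cfsg.Agent.BlockLib.isPrime_of_isPModular hM
  have htop := Cfsg.Agent.BlockLib.ne_top_of_isPModular hM
  have hPp : IsPGroup p P :=
    IsPGroup.of_card (Cfsg.Agent.Lib.Helper23.MinMax.card_of_isDefectGroup hM hB hP)
  obtain ⟨b, ⟨hb, hbD, hind⟩, -⟩ := (Cfsg.Agent.S0920.result p M hM P hPp).2 B hB hP
  have h18 := (Cfsg.Agent.S0918.result p M hM P (Subgroup.normalizer (P : Set G)) hPp
    Subgroup.le_normalizer (Subgroup.centralizer_le_normalizer _) le_rfl b hb B hB).1 hind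
  obtain ⟨χ, hχ, hχg⟩ := hg
  obtain ⟨ξ, hξ⟩ := Cfsg.Agent.BlockLib.pb_nonempty hb
  have h1 := h18 ξ hξ χ hχ g
  have hne : Cfsg.brauerCentralChar P (Subgroup.normalizer (P : Set G))
      (ξ : Subgroup.normalizer (P : Set G) → ℂ) g ≠ 0 := by
    intro h0
    rw [h0, zero_sub] at h1
    apply hχg
    have := Cfsg.Agent.BlockLib.memLocalIdeal_neg h1
    rwa [neg_neg] at this
  unfold Cfsg.brauerCentralChar at hne
  obtain ⟨h, ⟨hconj, hcent⟩, hh⟩ := exists_ne_zero_of_finsum_mem_ne_zero hne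
  have hξh : (ξ : Subgroup.normalizer (P : Set G) → ℂ) h ≠ 0 := by
    intro h0
    apply hh
    rw [h0, zero_div]
  refine ⟨(h : G), hconj, hcent, ?_⟩
  intro z hz
  obtain ⟨z', hz', hz'pow⟩ := Cfsg.Agent.H6.exists_isPPart hp h
  have hzz' : z = (z' : G) := by
    apply Cfsg.Agent.H6.isPPart_unique hp hz
    obtain ⟨y, e1, e2, ⟨k, e3⟩, e4⟩ := hz'
    refine ⟨(y : G), ?_, ?_, ⟨k, ?_⟩, ?_⟩
    · rw [← e1]; rfl
    · exact congrArg Subtype.val e2.eq
    · rw [Subgroup.orderOf_coe, e3]
    · rwa [Subgroup.orderOf_coe]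
  have hmem : z' ∈ P.subgroupOf (Subgroup.normalizer (P : Set G)) := by
    by_contra hnot
    apply hξh
    apply Cfsg.Agent.S0924.result p M hM ξ h z' hz'
    intro D' hD'
    rw [← Cfsg.Agent.BlockLib.pb_eq_blockOf hb hξ] at hD'
    have hQn : (P.subgroupOf (Subgroup.normalizer (P : Set G))).Normal :=
      Subgroup.normal_in_normalizer
    have hQp : IsPGroup p (P.subgroupOf (Subgroup.normalizer (P : Set G))) :=
      IsPGroup.of_card (Cfsg.Agent.Lib.Helper23.MinMax.card_of_isDefectGroup hM hb hbD)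
    have h2 : P.subgroupOf (Subgroup.normalizer (P : Set G)) ≤
        Cfsg.pCore p (Subgroup.normalizer (P : Set G)) := le_sSup ⟨hQn, hQp⟩
    have h3 := Cfsg.Agent.S0912.result p M hM b hb D' hD'
    have c1 := Cfsg.Agent.Lib.Helper23.MinMax.card_of_isDefectGroup hM hb hbD
    have c2 := Cfsg.Agent.Lib.Helper23.MinMax.card_of_isDefectGroup hM hb hD'
    have : P.subgroupOf (Subgroup.normalizer (P : Set G)) = D' :=
      Subgroup.eq_of_le_of_card_ge (h2.trans h3) (by rw [c1, c2])
    rw [← this]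
    exact hnot
  rw [hzz']
  refine ⟨Subgroup.mem_subgroupOf.1 hmem, fun w hw => ?_⟩
  obtain ⟨k, hk⟩ := Subgroup.mem_zpowers_iff.1 hz'pow
  have hc : Commute w (h : G) := Subgroup.mem_centralizer_iff.1 hcent w hw
  have : (z' : G) = (h : G) ^ k := by rw [← hk]; simp
  rw [this]
  exact (hc.zpow_right k).eq.symm

end Cfsg.Agent.S0929
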