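import Cfsg.Statements.S0930
import Cfsg.Agent.S0929
import Cfsg.Agent.S0927
import Cfsg.Agent.H25.IndExists

set_option autoImplicit false
open Cfsg

namespace Cfsg.Agent.S0930

/-- Let H be a subgroup of the finite group G and fix a maximal ideal M of the algebraic integers containing the prime p. If the block b of H with defect group D induces the block B of G with defect group P, then every element of the centre of P is conjugate in G to an element of the centre of D. -/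
theorem result {G : Type*} [Group G] [Finite G] (p : ℕ) [Fact p.Prime] (M : Ideal Cfsg.AlgInt) (hM : Cfsg.IsPModular p M) (H : Subgroup G) (b : Set (Cfsg.IrrCharacter H)) (B : Set (Cfsg.IrrCharacter G)) (hind : Cfsg.IsInducedBlock M H b B) (D : Subgroup H) (hD : Cfsg.IsDefectGroup p M b D) (P : Subgroup G) (hP : Cfsg.IsDefectGroup p M B P) (x : G) (hx : x ∈ P) (hxc : ∀ w ∈ P, x * w = w * x) : ∃ g : G, g * x * g⁻¹ ∈ D.map H.subtype ∧ ∀ w ∈ D.map H.subtype, (g * x * g⁻¹) * w = w * (g * x * g⁻¹) := by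
  classical
  cases nonempty_fintype G
  have hp := hM.1
  have hPr := Cfsg.Agent.BlockLib.isPrime_of_isPModular hM
  have htop := Cfsg.Agent.BlockLib.ne_top_of_isPModular hM
  obtain ⟨hb, hB, hcong⟩ := hind
  have hPp : IsPGroup p P :=
    IsPGroup.of_card (Cfsg.Agent.Lib.Helper23.MinMax.card_of_isDefectGroup hM hB hP)
  obtain ⟨y, hy, P', rfl⟩ := hP
  obtain ⟨x', hx', rfl⟩ := Subgroup.mem_map.1 hx
  have hcen : ∀ w ∈ (P' : Subgroup (Subgroup.centralizer ({y} : Set G))), x' * w = w * x' := by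
    intro w hw
    apply Subtype.ext
    exact hxc (w : G) (Subgroup.mem_map.2 ⟨w, hw, rfl⟩)
  have h27 := (Cfsg.Agent.S0927.result p M hM B hB y hy P' x' hx').2 hcen
  obtain ⟨χ, hχ⟩ := Cfsg.Agent.BlockLib.pb_nonempty hB
  obtain ⟨ξ, hξ⟩ := Cfsg.Agent.BlockLib.pb_nonempty hb
  have h1 := hcong ξ hξ χ hχ ((x' : G) * y)
  have h2 : ¬ Cfsg.MemLocalIdeal M (Cfsg.inducedCentralChar H (ξ : H → ℂ) ((x' : G) * y)) := by
    intro h0
    apply h27 χ hχ
    have := Cfsg.Agent.BlockLib.memLocalIdeal_sub h0 h1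
    rwa [sub_sub_cancel] at this
  obtain ⟨h, hconj, hh⟩ := Cfsg.Agent.H25.exists_of_inducedCentralChar H ξ _ h2
  obtain ⟨h', hconj', -, hpart⟩ := Cfsg.Agent.S0929.result p M hM b hb D hD h ⟨ξ, hξ, hh⟩
  obtain ⟨z, hz, -⟩ := Cfsg.Agent.H6.exists_isPPart hp h'
  obtain ⟨hzD, hzc⟩ := hpart z hz
  have hconjG : IsConj ((x' : G) * y) (h' : G) := by
    refine hconj.trans ?_
    obtain ⟨c, hc⟩ := isConj_iff.1 hconj'
    exact isConj_iff.2 ⟨(c : G), by rw [← hc]; simp⟩
  obtain ⟨c, hc⟩ := isConj_iff.1 hconjG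
  have hyreg : ¬ p ∣ orderOf y := by
    intro hdvd
    apply hy.2.1
    rw [Cfsg.Agent.Lib.Helper23.MinMax.blockCoeff_eq_zero_of_singular hM hB hdvd]
    exact Cfsg.Agent.BlockLib.memLocalIdeal_zero htop
  have hxy : Cfsg.IsPPart p ((x' : G) * y) (x' : G) := by
    refine ⟨y, rfl, ?_, ?_, hyreg⟩
    · exact (Subgroup.mem_centralizer_iff.1 x'.2 y (Set.mem_singleton y)).symm
    · obtain ⟨k, hk⟩ := (IsPGroup.iff_orderOf.mp P'.isPGroup') ⟨x', hx'⟩
      rw [Subgroup.orderOf_mk] at hk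
      exact ⟨k, by rw [Subgroup.orderOf_coe, hk]⟩
  have e : c * (x' : G) * c⁻¹ = (z : G) := by
    have h3 := Cfsg.Agent.H25.isPPart_conj hxy c
    rw [hc] at h3
    exact Cfsg.Agent.H6.isPPart_unique hp h3 (Cfsg.Agent.H25.isPPart_coe hz)
  refine ⟨c, ?_, ?_⟩
  · show c * (x' : G) * c⁻¹ ∈ _
    rw [e]
    exact Subgroup.mem_map.2 ⟨z, hzD, rfl⟩
  · intro w hw
    show c * (x' : G) * c⁻¹ * w = w * (c * (x' : G) * c⁻¹)
    rw [e]
    obtain ⟨w', hw', rfl⟩ := Subgroup.mem_map.1 hw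
    exact congrArg Subtype.val (hzc w' hw')

end Cfsg.Agent.S0930
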