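import Cfsg.Statements.S0931
import Cfsg.Agent.S0930
import Cfsg.Agent.S0917

set_option autoImplicit false
open Cfsg

namespace Cfsg.Agent.S0931

/-- Let H be a subgroup of the finite group G and fix a maximal ideal M of the algebraic integers containing the prime p. If the block b of H induces the block B of G, then b has defect 0 if and only if B has defect 0. -/
theorem result {G : Type*} [Group G] [Finite G] (p : ℕ) [Fact p.Prime] (M : Ideal Cfsg.AlgInt) (hM : Cfsg.IsPModular p M) (H : Subgroup G) (b : Set (Cfsg.IrrCharacter H)) (B : Set (Cfsg.IrrCharacter G)) (hind : Cfsg.IsInducedBlock M H b B) : Cfsg.blockDefect p b = 0 ↔ Cfsg.blockDefect p B = 0 := by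
  classical
  cases nonempty_fintype G
  have hp := hM.1
  have hPr := Cfsg.Agent.BlockLib.isPrime_of_isPModular hM
  have hb := hind.1
  have hB := hind.2.1
  obtain ⟨P, hP⟩ : ∃ P, Cfsg.IsDefectGroup p M B P := by
    obtain ⟨P, hP⟩ := Cfsg.Agent.BlockLib.CA.exists_isDefGrp (p := p)
      (Cfsg.Agent.BlockLib.isBlk_eps hB)
    exact ⟨P, (Cfsg.Agent.BlockLib.isDefectGroup_iff hB P).2 hP⟩
  obtain ⟨D, hD⟩ : ∃ D, Cfsg.IsDefectGroup p M b D := by
    obtain ⟨D, hD⟩ := Cfsg.Agent.BlockLib.CA.exists_isDefGrp (p := p)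
      (Cfsg.Agent.BlockLib.isBlk_eps hb)
    exact ⟨D, (Cfsg.Agent.BlockLib.isDefectGroup_iff hb D).2 hD⟩
  have cP := Cfsg.Agent.Lib.Helper23.MinMax.card_of_isDefectGroup hM hB hP
  have cD := Cfsg.Agent.Lib.Helper23.MinMax.card_of_isDefectGroup hM hb hD
  constructor
  · intro h0
    rw [h0, pow_zero] at cD
    have hD1 : D = ⊥ := Subgroup.card_eq_one.1 cD
    by_contra hne
    have hPp : IsPGroup p P := IsPGroup.of_card cP
    have hnt : Nontrivial P := by
      rw [← Finite.one_lt_card_iff_nontrivial, cP]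
      exact Nat.one_lt_pow hne hp.one_lt
    have hcnt := hPp.center_nontrivial
    obtain ⟨⟨x, hx⟩, hx1⟩ := exists_ne (1 : Subgroup.center P)
    have hxc : ∀ w ∈ P, (x : G) * w = w * (x : G) := by
      intro w hw
      have := Subgroup.mem_center_iff.1 hx ⟨w, hw⟩
      exact (congrArg Subtype.val this).symm
    obtain ⟨g, hg, -⟩ := Cfsg.Agent.S0930.result p M hM H b B hind D hD P hP (x : G) x.2 hxc
    rw [hD1, Subgroup.map_bot, Subgroup.mem_bot] at hg
    apply hx1
    apply Subtype.ext
    apply Subtype.ext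
    show (x : G) = 1
    have : (x : G) = g⁻¹ * (g * (x : G) * g⁻¹) * g := by group
    rw [this, hg]
    group
  · intro h0
    obtain ⟨E, hE, hDE⟩ := Cfsg.Agent.S0917.result p M hM H b hb B hB hind D hD
    have cE := Cfsg.Agent.Lib.Helper23.MinMax.card_of_isDefectGroup hM hB hE
    rw [h0, pow_zero] at cE
    have hE1 : E = ⊥ := Subgroup.card_eq_one.1 cE
    rw [hE1, le_bot_iff] at hDE
    have hD1 : Nat.card D = 1 := by
      have h3 : Nat.card (D.map H.subtype) = Nat.card D :=
        Subgroup.card_map_of_injective (Subgroup.subtype_injective H)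
      rw [← h3, hDE]
      exact Subgroup.card_bot
    rw [hD1] at cD
    by_contra hne
    have := Nat.one_lt_pow hne hp.one_lt
    omega

end Cfsg.Agent.S0931
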