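import Cfsg.Statements.S0934
import Cfsg.Agent.H25.IndCentral
import Cfsg.Agent.BlockLib.Idempotent
import Cfsg.Agent.CharLib.Sub

set_option autoImplicit false
open Cfsg

namespace Cfsg.Agent.S0934

/-- Let H be a subgroup of the finite group G and fix a maximal ideal M of the algebraic integers containing the prime p. If the block b of H induces the block B of G and ξ ∈ b, then there is χ ∈ B whose restriction to H has nonzero inner product with ξ. -/
theorem result {G : Type*} [Group G] [Fintype G] (p : ℕ) [Fact p.Prime] (M : Ideal Cfsg.AlgInt) (hM : Cfsg.IsPModular p M) (H : Subgroup G) [Fintype H] (b : Set (Cfsg.IrrCharacter H)) (B : Set (Cfsg.IrrCharacter G)) (hind : Cfsg.IsInducedBlock M H b B) (ξ : Cfsg.IrrCharacter H) (hξ : ξ ∈ b) : ∃ χ ∈ B, Cfsg.classInner (fun h : H => (χ : G → ℂ) h) (ξ : H → ℂ) ≠ 0 := by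
  classical
  open Cfsg.Agent.CharLib Cfsg.Agent.CharLib.H2 Cfsg.Agent.BlockLib Cfsg.Agent.H25 in
  have hP : M.IsPrime := isPrime_of_isPModular hM
  obtain ⟨hb, hB, hcong⟩ := hind
  have hθ : IsCharacter G (indFun H (ξ : H → ℂ)) := isCharacter_indFun H (isCharacter_of_irr ξ.2)
  obtain ⟨m, hm, hm2⟩ := exists_mult hθ
  obtain ⟨χ₀, hχ₀⟩ : ∃ χ₀ : IrrCharacter G, χ₀ ∈ B := by
    obtain ⟨χ, rfl⟩ := hB
    exact ⟨χ, SameBlock.refl' (Ideal.IsPrime.ne_top hP) _⟩
  have hsb : SameBlock M (indFun H (ξ : H → ℂ)) (χ₀ : G → ℂ) := by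
    intro g
    rw [← inducedCentralChar_eq_centralChar]
    exact hcong ξ hξ χ₀ hχ₀ g
  have hfR : ∀ g, MemLocalRing M (idemSet B g) := by
    intro g
    rw [← blockCoeff_eq_idemSet]
    exact memLocalRing_blockCoeff hB g
  have h1 := memLocalIdeal_omega_sub (isClassFunction_indFun H (ξ : H → ℂ))
    (isClassFunction_of_irr χ₀.2) hsb (isClassFunction_idemSet B) hfR
  rw [omega_idemSet, if_pos hχ₀] at h1
  by_contra hcon
  push Not at hcon
  have hz : ∀ χ ∈ B, m χ = 0 := by
    intro χ hχ
    have h2 := hcon χ hχ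
    have h3 := frobenius_reciprocity (H := H) (ξ : H → ℂ) (isClassFunction_of_irr χ.2)
    rw [hm2, ← classInner_conj_symm, h2, map_zero] at h3
    exact_mod_cast h3
  have h4 : omega (indFun H (ξ : H → ℂ)) (idemSet B) = 0 := by
    have h5 : ∑ g, idemSet B g * indFun H (ξ : H → ℂ) g = 0 := by
      have h6 : ∀ g, idemSet B g * indFun H (ξ : H → ℂ) g =
          ∑ χ : IrrCharacter G, (m χ : ℂ) * (idemSet B g * (χ : G → ℂ) g) := by
        intro g
        rw [hm, Finset.sum_apply, Finset.mul_sum]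
        refine Finset.sum_congr rfl fun χ _ => ?_
        simp only [Pi.smul_apply, smul_eq_mul]
        ring
      rw [Finset.sum_congr rfl fun g _ => h6 g, Finset.sum_comm]
      refine Finset.sum_eq_zero fun χ _ => ?_
      rw [← Finset.mul_sum]
      by_cases hχ : χ ∈ B
      · rw [hz χ hχ]; simp
      · have h7 := omega_idemSet B χ
        rw [if_neg hχ, omega, div_eq_zero_iff] at h7
        rcases h7 with h7 | h7
        · rw [h7, mul_zero]
        · exact absurd h7 (irr_apply_one_ne_zero χ)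
    rw [omega, h5, zero_div]
  rw [h4, zero_sub] at h1
  exact not_memLocalIdeal_one (by simpa using memLocalIdeal_neg h1)

end Cfsg.Agent.S0934
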