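import Cfsg.Statements.S0935
import Cfsg.Agent.H25.IndBlock2

set_option autoImplicit false
open Cfsg

namespace Cfsg.Agent.S0935

/-- Let H be a subgroup of the finite group G and χ an irreducible character of G whose restriction to H is irreducible; fix a maximal ideal M of the algebraic integers containing the prime p and suppose χ and its restriction have height zero in their blocks B and b. If e is a block of H whose induced block is defined, then e induces B if and only if e = b. -/
theorem result {G : Type*} [Group G] [Finite G] (p : ℕ) [Fact p.Prime] (M : Ideal Cfsg.AlgInt) (hM : Cfsg.IsPModular p M) (H : Subgroup G) (χ : Cfsg.IrrCharacter G) (hres : Cfsg.IsIrrCharacter H (fun h : H => (χ : G → ℂ) h)) (hχ0 : Cfsg.blockHeight p (Cfsg.blockOf M (χ : G → ℂ)) (χ : G → ℂ) = 0) (hψ0 : Cfsg.blockHeight p (Cfsg.blockOf M (fun h : H => (χ : G → ℂ) h)) (fun h : H => (χ : G → ℂ) h) = 0) (e : Set (Cfsg.IrrCharacter H)) (he : Cfsg.InducedBlockDefined M H e) : Cfsg.IsInducedBlock M H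 e (Cfsg.blockOf M (χ : G → ℂ)) ↔ e = Cfsg.blockOf M (fun h : H => (χ : G → ℂ) h) := by
  classical
  cases nonempty_fintype G
  open Cfsg.Agent.BlockLib Cfsg.Agent.CharLib Cfsg.Agent.H25 in
  have hP := isPrime_of_isPModular hM
  have hne := ne_top_of_isPModular hM
  set ξ₀ : IrrCharacter H := ⟨fun h : H => (χ : G → ℂ) h, hres⟩ with hξ₀
  have hb : IsPBlock M (blockOf M (ξ₀ : H → ℂ)) := ⟨ξ₀, rfl⟩
  have hB : IsPBlock M (blockOf M (χ : G → ℂ)) := ⟨χ, rfl⟩
  have hh := minExp_eq_of_height_zero (mem_blockOf_self (M := M) χ) hχ0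
  have hh' := minExp_eq_of_height_zero (p := p) (mem_blockOf_self (M := M) ξ₀) hψ0
  constructor
  · intro hI
    obtain ⟨ψ, hψ⟩ := pb_nonempty hI.1
    have h1 := not_memLocalIdeal_omega_cf_res hM hI hψ (mem_blockOf_self χ) hh
    by_contra hcon
    have h2 : ψ ∉ blockOf M (ξ₀ : H → ℂ) := fun hmem =>
      Set.disjoint_left.mp (pb_disjoint_of_ne hI.1 hb hcon) hψ hmem
    apply h1
    have h3 := omega_cf_eq_zero (p := p) hM hb (mem_blockOf_self ξ₀) h2
    rw [show (fun x : H => (χ : G → ℂ) x) = (ξ₀ : H → ℂ) from rfl, h3]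
    exact memLocalIdeal_zero hne
  · intro heq
    obtain ⟨B', hB'⟩ := he
    by_cases hχ : χ ∈ B'
    · rw [← pb_eq_blockOf hB'.2.1 hχ]
      exact hB'
    · exfalso
      have hmem : ξ₀ ∈ e := by rw [heq]; exact mem_blockOf_self ξ₀
      have h1 := memLocalIdeal_omega_cf_res hM hB' hmem hχ
      exact Cfsg.Agent.Lib.Helper23.Trunc.not_memLocalIdeal_omega_cf hM hb (mem_blockOf_self ξ₀) hh'
        (mem_blockOf_self ξ₀) h1

end Cfsg.Agent.S0935
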