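import Cfsg.Statements.S0937
import Cfsg.Agent.H25.IndBlock3

set_option autoImplicit false
open Cfsg

namespace Cfsg.Agent.S0937

/-- Let H be a subgroup of the finite group G and fix a maximal ideal M of the algebraic integers containing the prime p. If the block b of H induces the block B of G and χ ∈ B has height zero, then there is ξ ∈ b of height zero whose multiplicity in the restriction of χ to H is a natural number not divisible by p. -/
theorem result {G : Type*} [Group G] [Fintype G] (p : ℕ) [Fact p.Prime] (M : Ideal Cfsg.AlgInt) (hM : Cfsg.IsPModular p M) (H : Subgroup G) [Fintype H] (b : Set (Cfsg.IrrCharacter H)) (B : Set (Cfsg.IrrCharacter G)) (hind : Cfsg.IsInducedBlock M H b B) (χ : Cfsg.IrrCharacter G) (hχ : χ ∈ B) (h0 : Cfsg.blockHeight p B (χ : G → ℂ) = 0) : ∃ ξ ∈ b, Cfsg.blockHeight p b (ξ : H → ℂ) = 0 ∧ ∃ n : ℕ, Cfsg.classInner (fun h : H => (χ : G → ℂ) h) (ξ : H → ℂ) = (n : ℂ) ∧ ¬ p ∣ n := by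
  classical
  open Cfsg.Agent.BlockLib Cfsg.Agent.CharLib Cfsg.Agent.H25 Cfsg.Agent.Lib.Helper23.Trunc
    Cfsg.Agent.Lib.Helper23.MinMax in
  have hP := isPrime_of_isPModular hM
  have hne := ne_top_of_isPModular hM
  have hb := hind.1
  obtain ⟨ψ, hψ, hψ0⟩ := exists_minExp (p := p) (pb_nonempty hb)
  have h1 := not_memLocalIdeal_omega_cf_res hM hind hψ hχ (minExp_eq_of_height_zero hχ h0)
  obtain ⟨m, hm, hm2⟩ := H2.exists_mult (isCharacter_restrict (isCharacter_of_irr χ.2) H)
  by_contra hcon
  push Not at hcon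
  apply h1
  rw [hm, cf_sum_smul, omega_sum]
  apply memLocalIdeal_sum
  intro ξ _
  rw [omega_smul]
  by_cases hξ : ξ ∈ b
  · by_cases hht : (charDegree (ξ : H → ℂ)).factorization p = minExp p b
    · have h2 := hcon ξ hξ (height_zero_of_minExp_eq hht) (m ξ) (hm2 ξ)
      exact memLocalIdeal_mul_right ((memLocalIdeal_natCast_iff hM _).mpr h2)
        (memLocalRing_omega_cf hM ψ ξ)
    · apply memLocalIdeal_mul_left (memLocalRing_natCast hne _)
      apply memLocalIdeal_omega_cf_of_height_pos hM
      have := minExp_le (p := p) hξ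
      omega
  · have hbξ : IsPBlock M (blockOf M (ξ : H → ℂ)) := ⟨ξ, rfl⟩
    have h3 : ψ ∉ blockOf M (ξ : H → ℂ) := by
      intro hmem
      apply hξ
      have h4 : b = blockOf M (ξ : H → ℂ) := by
        by_contra hne'
        exact Set.disjoint_left.mp (pb_disjoint_of_ne hb hbξ hne') hψ hmem
      rw [h4]
      exact mem_blockOf_self ξ
    rw [omega_cf_eq_zero hM hbξ (mem_blockOf_self ξ) h3, mul_zero]
    exact memLocalIdeal_zero hne

end Cfsg.Agent.S0937
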