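import Cfsg.Statements.S0938
import Cfsg.Agent.H25.BlockSum
import Cfsg.Agent.H25.NormalSum
import Cfsg.Agent.H25.Codeg
import Cfsg.Agent.Lib.Helper23.MinMax

set_option autoImplicit false
open Cfsg

namespace Cfsg.Agent.S0938

/-- Let B be a block of the finite group G relative to a maximal ideal M of the algebraic integers containing the prime p, and let χ ∈ B. Then the kernel of B (the set of g with ψ g = ψ 1 for all ψ ∈ B) is a normal subgroup of order prime to p contained in the kernel of χ, and it contains every normal subgroup of order prime to p on which χ takes the value χ(1); that is, it is O_p' of the kernel of χ. -/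
theorem result {G : Type*} [Group G] [Finite G] (p : ℕ) [Fact p.Prime] (M : Ideal Cfsg.AlgInt) (hM : Cfsg.IsPModular p M) (B : Set (Cfsg.IrrCharacter G)) (hB : Cfsg.IsPBlock M B) (χ : Cfsg.IrrCharacter G) (hχ : χ ∈ B) : ∃ K : Subgroup G, K.Normal ∧ (K : Set G) = Cfsg.blockKer B ∧ ¬ p ∣ Nat.card K ∧ (∀ g ∈ K, (χ : G → ℂ) g = (χ : G → ℂ) 1) ∧ ∀ N : Subgroup G, N.Normal → ¬ p ∣ Nat.card N → (∀ g ∈ N, (χ : G → ℂ) g = (χ : G → ℂ) 1) → N ≤ K := by
  classical
  cases nonempty_fintype G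
  have hp := hM.1
  have hPr := Cfsg.Agent.BlockLib.isPrime_of_isPModular hM
  have htop := Cfsg.Agent.BlockLib.ne_top_of_isPModular hM
  let K : Subgroup G := ⨅ ψ : B, H25.kerSub (ψ : Cfsg.IrrCharacter G)
  have hKmem : ∀ g, g ∈ K ↔ ∀ ψ ∈ B, (ψ : G → ℂ) g = (ψ : G → ℂ) 1 := by
    intro g
    simp only [K, Subgroup.mem_iInf, H25.mem_kerSub]
    exact ⟨fun h ψ hψ => h ⟨ψ, hψ⟩, fun h ψ => h ψ.1 ψ.2⟩
  have hKn : K.Normal := Subgroup.normal_iInf_normal (fun ψ => inferInstance)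
  refine ⟨K, hKn, ?_, ?_, fun g hg => (hKmem g).1 hg χ hχ, ?_⟩
  · ext g
    exact hKmem g
  · intro hdvd
    obtain ⟨g, hg⟩ := exists_prime_orderOf_dvd_card' (G := K) p hdvd
    have hg' : p ∣ orderOf (g : G) := by rw [Subgroup.orderOf_coe, hg]
    have h0 := Cfsg.Agent.Lib.Helper23.MinMax.blockCoeff_eq_zero_of_singular hM hB hg'
    rw [Cfsg.blockCoeff, Cfsg.Agent.Lib.Helper23.finsum_mem_eq_sum_filter'] at h0
    have hG0 : ((Nat.card G : ℂ))⁻¹ ≠ 0 := inv_ne_zero (by exact_mod_cast Nat.card_pos.ne')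
    have h1 := (mul_eq_zero.mp h0).resolve_left hG0
    have h2 : ∑ ψ ∈ Finset.univ.filter (· ∈ B), (ψ : G → ℂ) 1 * (starRingEnd ℂ) ((ψ : G → ℂ) (g : G)) =
        ((∑ ψ ∈ Finset.univ.filter (· ∈ B), (Cfsg.charDegree (ψ : G → ℂ) : ℝ) ^ 2 : ℝ) : ℂ) := by
      rw [Complex.ofReal_sum]
      refine Finset.sum_congr rfl (fun ψ hψ => ?_)
      rw [(hKmem g).1 g.2 ψ (Finset.mem_filter.1 hψ).2, H25.charDegree_irr]
      simp [sq]
    rw [h2] at h1
    have h3 : (∑ ψ ∈ Finset.univ.filter (· ∈ B), (Cfsg.charDegree (ψ : G → ℂ) : ℝ) ^ 2 : ℝ) = 0 := by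
      exact_mod_cast h1
    have h4 : 0 < (∑ ψ ∈ Finset.univ.filter (· ∈ B), (Cfsg.charDegree (ψ : G → ℂ) : ℝ) ^ 2 : ℝ) := by
      refine Finset.sum_pos' (fun ψ _ => by positivity) ⟨χ, Finset.mem_filter.2 ⟨Finset.mem_univ _, hχ⟩, ?_⟩
      have := H25.charDegree_pos χ
      positivity
    exact h4.ne' h3
  · intro N hN hpN hχN g hg
    rw [hKmem]
    intro ψ hψ
    by_contra hne
    have hsame : Cfsg.SameBlock M (χ : G → ℂ) (ψ : G → ℂ) :=
      Cfsg.Agent.Lib.Helper23.MinMax.sameBlock_of_mem hB hχ hψ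
    have hcf : Cfsg.IsClassFunction G (fun x => if x ∈ N then (1 : ℂ) else 0) := by
      intro x c
      have : c * x * c⁻¹ ∈ N ↔ x ∈ N := by
        constructor
        · intro h
          have := hN.conj_mem _ h c⁻¹
          simpa [mul_assoc] using this
        · intro h
          exact hN.conj_mem _ h c
      simp only [this]
    have key := H25.memLocalIdeal_sum_of_sameBlock (M := M)
      (Cfsg.Agent.CharLib.isClassFunction_of_irr χ.2) (Cfsg.Agent.CharLib.isClassFunction_of_irr ψ.2) hsame hcf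
      (fun x => by
        show Cfsg.MemLocalRing M (if x ∈ N then (1 : ℂ) else 0)
        split_ifs
        · exact Cfsg.Agent.BlockLib.memLocalRing_one htop
        · exact Cfsg.Agent.BlockLib.memLocalRing_zero htop)
    have hz := H25.sum_coset_eq_zero N ψ ⟨g, hg, hne⟩ 1
    simp only [one_mul] at hz
    have hχ1 := Cfsg.Agent.CharLib.irr_apply_one_ne_zero χ
    have e : ∑ x : G, (if x ∈ N then (1 : ℂ) else 0) *
        ((χ : G → ℂ) x / (χ : G → ℂ) 1 - (ψ : G → ℂ) x / (ψ : G → ℂ) 1) = (Nat.card N : ℂ) := by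
      have e1 : ∀ x : G, (if x ∈ N then (1 : ℂ) else 0) *
          ((χ : G → ℂ) x / (χ : G → ℂ) 1 - (ψ : G → ℂ) x / (ψ : G → ℂ) 1) =
          (if x ∈ N then (1 : ℂ) else 0) - (if x ∈ N then (ψ : G → ℂ) x else 0) / (ψ : G → ℂ) 1 := by
        intro x
        split_ifs with hx
        · rw [hχN x hx, div_self hχ1, one_mul]
        · simp
      rw [Finset.sum_congr rfl (fun x _ => e1 x), Finset.sum_sub_distrib, ← Finset.sum_div, hz,
        zero_div, sub_zero, Finset.sum_boole]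
      have hc' : (Finset.univ.filter (fun x => x ∈ N)).card = Nat.card N := by
        rw [Nat.card_eq_fintype_card, Fintype.card_subtype]
      rw [hc']
    rw [e] at key
    exact hpN ((Cfsg.Agent.BlockLib.memLocalIdeal_natCast_iff hM _).1 key)

end Cfsg.Agent.S0938
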