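import Cfsg.Statements.S0943
import Mathlib
import Cfsg.Agent.H25.CommCount

set_option autoImplicit false
open Cfsg

namespace Cfsg.Agent.S0943

/-- Let χ be an irreducible character of the finite group G and u, v ∈ G. If χ (x * y) = χ (u * v) whenever x is conjugate to u and y is conjugate to v, then χ u * χ v = χ 1 * χ (u * v). (Multiply the class sums of u and v and apply the central character of χ.) -/
theorem result {G : Type*} [Group G] [Finite G] (χ : Cfsg.IrrCharacter G) (u v : G) (hc : ∀ x y : G, IsConj u x → IsConj v y → (χ : G → ℂ) (x * y) = (χ : G → ℂ) (u * v)) : (χ : G → ℂ) u * (χ : G → ℂ) v = (χ : G → ℂ) 1 * (χ : G → ℂ) (u * v) := by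
  classical
  cases nonempty_fintype G
  obtain ⟨n, ρ, hρ, hχ⟩ := χ.2
  have := hρ
  have h1 := H25.sum_conj_rep ρ v
  have h2 := congrArg (fun T : Module.End ℂ (Fin n → ℂ) => LinearMap.trace ℂ (Fin n → ℂ) (ρ u * T)) h1
  simp only [Finset.mul_sum, map_sum] at h2
  have h3 : ∀ a : G, LinearMap.trace ℂ (Fin n → ℂ) (ρ u * ρ (a * v * a⁻¹)) = (χ : G → ℂ) (u * v) := by
    intro a
    rw [← map_mul, ← hc u (a * v * a⁻¹) (IsConj.refl u) (isConj_iff.2 ⟨a, rfl⟩), ← hχ]
    rfl
  simp only [h3, Finset.sum_const, Finset.card_univ, nsmul_eq_mul] at h2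
  rw [mul_smul_comm, map_smul, smul_eq_mul] at h2
  have h4 : LinearMap.trace ℂ (Fin n → ℂ) (ρ u * LinearMap.id) = (χ : G → ℂ) u := by
    rw [← hχ]; rfl
  rw [h4, ← Nat.card_eq_fintype_card] at h2
  have h5 : (χ : G → ℂ) 1 = (Module.finrank ℂ (Fin n → ℂ) : ℂ) := by
    rw [← hχ, Representation.char_one]
  have h6 : ρ.character v = (χ : G → ℂ) v := by rw [hχ]
  rw [← h5, h6] at h2
  have h7 : (χ : G → ℂ) 1 ≠ 0 := CharLib.irr_apply_one_ne_zero χ
  have h8 : (Nat.card G : ℂ) ≠ 0 := CharLib.card_ne_zero_complex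
  field_simp at h2
  linear_combination -h2

end Cfsg.Agent.S0943
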