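import Cfsg.Statements.S0945
import Mathlib
-- import your own Cfsg.Agent.* helpers here
import Cfsg.Agent.H5.Homocyc

set_option autoImplicit false
open Cfsg

namespace Cfsg.Agent.S0945



/-- Let P be a Sylow 2-subgroup of the finite group G isomorphic to Z/2^m × Z/2^m with m ≥ 1. Then (i) the index of C_G(P) in N_G(P) is 1 or 3, and (ii) if it is not 1, then for every z ≠ 1 in P, C_G(z) ∩ N_G(P) = C_G(P). -/
theorem result {G : Type*} [Group G] [Finite G] (P : Sylow 2 G) (m : ℕ) (hm : 1 ≤ m) (e : (P : Subgroup G) ≃* Multiplicative (ZMod (2 ^ m) × ZMod (2 ^ m))) : ((Subgroup.centralizer (P : Set G)).relIndex (Subgroup.normalizer (P : Set G)) = 1 ∨ (Subgroup.centralizer (P : Set G)).relIndex (Subgroup.normalizer (P : Set G)) = 3) ∧ ((Subgroup.centralizer (P : Set G)).relIndex (Subgroup.normalizer (P : Set G)) ≠ 1 → ∀ z ∈ (P : Subgroup G), z ≠ 1 → Subgroup.centralizer ({z} : Set G) ⊓ Subgroup.normalizer (P : Set G) = Subgroup.centralizer (P : Set G))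 := by
  haveI : Fact (Nat.Prime 2) := ⟨Nat.prime_two⟩
  set N := Subgroup.normalizer ((P : Subgroup G) : Set G) with hN
  set C := Subgroup.centralizer ((P : Subgroup G) : Set G) with hC
  by_cases hNC : N ≤ C
  · have h1 : C.relIndex N = 1 := Subgroup.relIndex_eq_one.2 hNC
    exact ⟨Or.inl h1, fun h => absurd h1 h⟩
  obtain ⟨x, hx, hxc⟩ := SetLike.not_le_iff_exists.1 hNC
  have hCN : C ≤ N := Subgroup.centralizer_le_normalizer _
  -- (ii)
  have hii : ∀ z ∈ (P : Subgroup G), z ≠ 1 → Subgroup.centralizer ({z} : Set G) ⊓ N = C := by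
    intro z hz hz1
    apply le_antisymm
    · rintro y ⟨hyz, hyN⟩
      by_contra hyC
      obtain ⟨-, h2, -⟩ := Cfsg.Agent.H5Homocyc.core P m hm e y hyN hyC
      have hz1' : (⟨z, hz⟩ : (P : Subgroup G)) ≠ 1 := fun h => hz1 (congrArg Subtype.val h)
      obtain ⟨c, hc⟩ := P.2.dvd_orderOf hz1'
      rw [Subgroup.orderOf_mk] at hc
      have hpos : 0 < orderOf z := orderOf_pos z
      have hs : orderOf (z ^ c) = 2 := by
        rw [orderOf_pow_of_dvd (by omega) ⟨2, by rw [hc, mul_comm]⟩, hc]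
        exact Nat.mul_div_cancel _ (by omega)
      apply h2 (z ^ c) (Subgroup.pow_mem _ hz c) hs
      have h3 : y * z = z * y := ((Subgroup.mem_centralizer_iff.1 hyz) z rfl).symm
      have h4 : y * z ^ c = z ^ c * y := (Commute.pow_right (show Commute y z from h3) c)
      rw [h4, mul_inv_cancel_right]
    · apply le_inf _ hCN
      apply Subgroup.centralizer_le
      intro w hw
      rw [Set.mem_singleton_iff] at hw
      rw [hw]
      exact hz
  refine ⟨Or.inr ?_, fun _ => hii⟩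
  obtain ⟨h1, h2, h3⟩ := Cfsg.Agent.H5Homocyc.core P m hm e x hx hxc
  -- an involution in P
  obtain ⟨s0, hs0P, hs0⟩ : ∃ s0 ∈ (P : Subgroup G), orderOf s0 = 2 := by
    obtain ⟨z, hz, hz1⟩ : ∃ z ∈ (P : Subgroup G), z ≠ 1 := by
      by_contra hcon
      push Not at hcon
      apply hxc
      rw [hC, Subgroup.mem_centralizer_iff]
      intro y hy
      rw [hcon y hy]
      simp
    have hz1' : (⟨z, hz⟩ : (P : Subgroup G)) ≠ 1 := fun h => hz1 (congrArg Subtype.val h)
    obtain ⟨c, hc⟩ := P.2.dvd_orderOf hz1'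
    rw [Subgroup.orderOf_mk] at hc
    have hpos : 0 < orderOf z := orderOf_pos z
    refine ⟨z ^ c, Subgroup.pow_mem _ hz c, ?_⟩
    rw [orderOf_pow_of_dvd (by omega) ⟨2, by rw [hc, mul_comm]⟩, hc]
    exact Nat.mul_div_cancel _ (by omega)
  have hs01 : s0 ≠ 1 := by
    rintro rfl
    rw [orderOf_one] at hs0
    omega
  have hCs := hii s0 hs0P hs01
  have hmemC : ∀ y ∈ N, y * s0 * y⁻¹ = s0 → y ∈ C := by
    intro y hy h
    rw [← hCs]
    refine ⟨?_, hy⟩
    show y ∈ Subgroup.centralizer ({s0} : Set G)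
    rw [Subgroup.mem_centralizer_iff]
    intro w hw
    rw [Set.mem_singleton_iff] at hw
    rw [hw]
    rw [mul_inv_eq_iff_eq_mul] at h
    exact h.symm
  haveI hnorm : (C.subgroupOf N).Normal := by
    rw [hC, hN, ← Subgroup.normalizerMonoidHom_ker]
    infer_instance
  set x' : N := ⟨x, hx⟩ with hx'
  set X : N ⧸ C.subgroupOf N := QuotientGroup.mk x' with hX
  have hX3 : X ^ 3 = 1 := by
    rw [hX, ← QuotientGroup.mk_pow, QuotientGroup.eq_one_iff, Subgroup.mem_subgroupOf]
    exact hmemC _ (Subgroup.pow_mem _ hx 3) (h3 s0 hs0P hs0)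
  have hX1 : X ≠ 1 := by
    rw [hX, Ne, QuotientGroup.eq_one_iff, Subgroup.mem_subgroupOf]
    exact hxc
  have hXo : orderOf X = 3 := orderOf_eq_prime hX3 hX1
  have hgen : ∀ q : N ⧸ C.subgroupOf N, q ∈ Subgroup.zpowers X := by
    intro q
    induction q using QuotientGroup.induction_on with
    | H y =>
      have hyP : (y : G) * s0 * (y : G)⁻¹ ∈ (P : Subgroup G) := (y.2 s0).1 hs0P
      have hyo : orderOf ((y : G) * s0 * (y : G)⁻¹) = 2 := by
        have := MulEquiv.orderOf_eq (MulAut.conj (y : G)) s0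
        rw [MulAut.conj_apply] at this
        rw [this, hs0]
      obtain ⟨i, hi⟩ := h1 s0 _ hs0P hyP hs0 hyo
      refine ⟨i, ?_⟩
      show X ^ (i : ℤ) = _
      rw [zpow_natCast, hX, ← QuotientGroup.mk_pow, QuotientGroup.eq, Subgroup.mem_subgroupOf]
      apply hmemC _ (Subgroup.mul_mem _ (Subgroup.inv_mem _ (Subgroup.pow_mem _ hx i)) y.2)
      show (x ^ i)⁻¹ * (y : G) * s0 * ((x ^ i)⁻¹ * (y : G))⁻¹ = s0
      have : (x ^ i)⁻¹ * (y : G) * s0 * ((x ^ i)⁻¹ * (y : G))⁻¹
          = (x ^ i)⁻¹ * ((y : G) * s0 * (y : G)⁻¹) * x ^ i := by group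
      rw [this, ← hi]
      group
  have hcard := orderOf_eq_card_of_forall_mem_zpowers hgen
  rw [Subgroup.relIndex, Subgroup.index_eq_card]
  exact hcard.symm.trans hXo

end Cfsg.Agent.S0945
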