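import Cfsg.Statements.S0946
import Mathlib
-- import your own Cfsg.Agent.* helpers here
import Cfsg.Agent.H5.Homocyc

set_option autoImplicit false
open Cfsg

namespace Cfsg.Agent.S0946



/-- Let P be a Sylow 2-subgroup of the finite group G isomorphic to Z/2^m × Z/2^m with m ≥ 1. Then either P has a normal complement in G, or all involutions of G are conjugate. -/
theorem result {G : Type*} [Group G] [Finite G] (P : Sylow 2 G) (m : ℕ) (hm : 1 ≤ m) (e : (P : Subgroup G) ≃* Multiplicative (ZMod (2 ^ m) × ZMod (2 ^ m))) : (∃ N : Subgroup G, N.Normal ∧ Subgroup.IsComplement' N (P : Subgroup G)) ∨ ∀ s t : G, orderOf s = 2 → orderOf t = 2 → IsConj s t := by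
  haveI : Fact (Nat.Prime 2) := ⟨Nat.prime_two⟩
  by_cases hNC : Subgroup.normalizer ((P : Subgroup G) : Set G) ≤ Subgroup.centralizer ((P : Subgroup G) : Set G)
  · left
    exact ⟨_, inferInstance, MonoidHom.ker_transferSylow_isComplement' P hNC⟩
  right
  obtain ⟨x, hx, hxc⟩ := SetLike.not_le_iff_exists.1 hNC
  obtain ⟨h1, -⟩ := Cfsg.Agent.H5Homocyc.core P m hm e x hx hxc
  have hconj : ∀ s : G, orderOf s = 2 → ∃ c : G, c⁻¹ * s * c ∈ (P : Subgroup G) := by
    intro s hs
    have hp : IsPGroup 2 (Subgroup.zpowers s) := by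
      apply IsPGroup.of_card (n := 1)
      rw [Nat.card_zpowers, hs, pow_one]
    obtain ⟨c, -, hc⟩ := Cfsg.Agent.H5SylConj.conj_into ⊤ P le_top (Subgroup.zpowers s) le_top hp
    exact ⟨c, hc s (Subgroup.mem_zpowers s)⟩
  have hord : ∀ s c : G, orderOf (c⁻¹ * s * c) = orderOf s := by
    intro s c
    have := MulEquiv.orderOf_eq (MulAut.conj c⁻¹) s
    simpa using this
  intro s t hs ht
  obtain ⟨c, hc⟩ := hconj s hs
  obtain ⟨d, hd⟩ := hconj t ht
  obtain ⟨i, hi⟩ := h1 _ _ hc hd ((hord s c).trans hs) ((hord t d).trans ht)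
  rw [isConj_iff]
  refine ⟨d * x ^ i * c⁻¹, ?_⟩
  have : t = d * (d⁻¹ * t * d) * d⁻¹ := by group
  rw [this, ← hi]
  group

end Cfsg.Agent.S0946
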