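import Mathlib
import Cfsg.Statements.S0948
import Cfsg.Agent.H6.KleinBlock

set_option autoImplicit false
open Cfsg Cfsg.Agent.BlockLib Cfsg.Agent.CharLib Cfsg.Agent.H6 Cfsg.Agent.H6.KleinFour

namespace Cfsg.Agent.S0948

/-- Let the finite group G have a Sylow 2-subgroup P that is a Klein four-group, suppose all involutions of G are conjugate, and fix a maximal ideal M of the algebraic integers containing 2. Then the principal block consists of exactly four irreducible characters, the principal character and ζ₂, ζ₃, ζ₄, and there is a sign ε such that for every involution z: ζ₂ z = 1, ζ₃ z = ε, ζ₄ z = -1; moreover ζ₂ 1 ≡ 1, ζ₃ 1 ≡ ε, ζ₄ 1 ≡ -1 (mod 4), and 1 + ζ₂ y + ε ζ₃ y - ζ₄ y = 0 for every y of odd order. -/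
theorem result {G : Type*} [Group G] [Finite G] (M : Ideal Cfsg.AlgInt) (hM : Cfsg.IsPModular 2 M) (P : Sylow 2 G) (hP : IsKleinFour (P : Subgroup G)) (hone : ∀ s t : G, orderOf s = 2 → orderOf t = 2 → IsConj s t) : ∃ ζ₂ ζ₃ ζ₄ : Cfsg.IrrCharacter G, ∃ ε : ℤ, (ε = 1 ∨ ε = -1) ∧ (ζ₂ : G → ℂ) ≠ (fun _ => 1) ∧ (ζ₃ : G → ℂ) ≠ (fun _ => 1) ∧ ζ₂ ≠ ζ₃ ∧ ζ₂ ≠ ζ₄ ∧ ζ₃ ≠ ζ₄ ∧ Cfsg.principalBlock M G = {χ : Cfsg.IrrCharacter G | (χ : G → ℂ) = (fun _ => 1) ∨ χ = ζ₂ ∨ χ = ζ₃ ∨ χ = ζ₄} ∧ (∀ z : G, orderOf z = 2 → (ζ₂ : G → ℂ) z = 1 ∧ (ζ₃ : G → ℂ) z = (ε : ℂ) ∧ (ζ₄ : G → ℂ) z = -1) ∧ (4 : ℤ) ∣ (Cfsg.charDegree (ζ₂ : G → ℂ) : ℤ) - 1 ∧ (4 : ℤ) ∣ (Cfsg.charDegree (ζ₃ : G → ℂ) : ℤ) - ε ∧ (4 : ℤ) ∣ (Cfsg.charDegree (ζ₄ : G → ℂ) : ℤ) + 1 ∧ ∀ y : G, Odd (orderOf y) → 1 + (ζ₂ : G → ℂ) y + (ε : ℂ) * (ζ₃ : G → ℂ) y - (ζ₄ : G → ℂ) y = 0 := by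
  classical
  cases nonempty_fintype G
  haveI : Fact (Nat.Prime 2) := ⟨Nat.prime_two⟩
  haveI := isPrime_of_isPModular hM
  have hcard : Nat.card P = 4 := hP.card_four
  have hexp : ∀ x : P, x * x = 1 := fun x => IsKleinFour.mul_self x
  obtain ⟨z, hzP, hz⟩ := exists_involution P hcard hexp
  obtain ⟨n, hn, hpm, hcard4, horth⟩ := klein_structure hM P hcard hexp hone hzP hz
  obtain ⟨S, hS⟩ : ∃ S : Finset (IrrCharacter G), S = Finset.univ.filter (· ∈ principalBlock M G) :=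
    ⟨_, rfl⟩
  rw [← hS] at hcard4 horth
  have hmem : ∀ ζ, ζ ∈ S ↔ ζ ∈ principalBlock M G := fun ζ => by rw [hS]; simp
  have htS : triv G ∈ S := (hmem _).mpr triv_mem
  have hnt : n (triv G) = 1 := by
    have : ((n (triv G) : ℤ) : ℂ) = 1 := by rw [← hn]; rfl
    exact_mod_cast this
  have hpm' : ∀ ζ ∈ S, n ζ = 1 ∨ n ζ = -1 := fun ζ hζ => hpm ζ ((hmem ζ).mp hζ)
  have hcardT : (S.erase (triv G)).card = 3 := by
    rw [Finset.card_erase_of_mem htS, hcard4]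
  have hdpos : ∀ ζ : IrrCharacter G, (1 : ℤ) ≤ (charDegree (ζ : G → ℂ) : ℤ) := fun ζ => by
    exact_mod_cast Cfsg.Agent.Lib.Helper23.charDegree_pos_irr ζ
  have hsum1 : ∑ ζ ∈ S.erase (triv G), n ζ * (charDegree (ζ : G → ℂ) : ℤ) = -1 := by
    have h1 := horth 1 (by rw [orderOf_one]; norm_num)
    rw [← Finset.add_sum_erase _ _ htS, hnt] at h1
    have h2 : ((∑ ζ ∈ S.erase (triv G), n ζ * (charDegree (ζ : G → ℂ) : ℤ) : ℤ) : ℂ) = -1 := by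
      push_cast
      have h3 : ∀ ζ : IrrCharacter G, ((charDegree (ζ : G → ℂ) : ℕ) : ℂ) = (ζ : G → ℂ) 1 :=
        Cfsg.Agent.Lib.Helper23.charDegree_cast_irr
      simp only [h3]
      have h4 : ((1 : ℤ) : ℂ) * (triv G : G → ℂ) 1 = 1 := by
        show ((1 : ℤ) : ℂ) * 1 = 1
        simp
      rw [h4] at h1
      linear_combination h1
    exact_mod_cast h2
  obtain ⟨ζ₄, hζ₄T, hζ₄⟩ : ∃ ζ ∈ S.erase (triv G), n ζ = -1 := by
    by_contra hcon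
    push Not at hcon
    have h1 : ∑ ζ ∈ S.erase (triv G), n ζ * (charDegree (ζ : G → ℂ) : ℤ) ≥ 0 := by
      apply Finset.sum_nonneg
      intro ζ hζ
      rcases hpm' ζ (Finset.mem_of_mem_erase hζ) with h | h
      · rw [h]; linarith [hdpos ζ]
      · exact absurd h (hcon ζ hζ)
    linarith
  obtain ⟨ζ₂, hζ₂T, hζ₂⟩ : ∃ ζ ∈ S.erase (triv G), n ζ = 1 := by
    by_contra hcon
    push Not at hcon
    have h1 : ∑ ζ ∈ S.erase (triv G), n ζ * (charDegree (ζ : G → ℂ) : ℤ) ≤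
        ∑ ζ ∈ S.erase (triv G), (-1 : ℤ) := by
      apply Finset.sum_le_sum
      intro ζ hζ
      rcases hpm' ζ (Finset.mem_of_mem_erase hζ) with h | h
      · exact absurd h (hcon ζ hζ)
      · rw [h]; linarith [hdpos ζ]
    rw [Finset.sum_const, hcardT] at h1
    norm_num at h1
    linarith
  have h24 : ζ₂ ≠ ζ₄ := by
    rintro rfl
    rw [hζ₂] at hζ₄
    norm_num at hζ₄
  have hζ₄T' : ζ₄ ∈ (S.erase (triv G)).erase ζ₂ := Finset.mem_erase.mpr ⟨h24.symm, hζ₄T⟩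
  have hcardU : (((S.erase (triv G)).erase ζ₂).erase ζ₄).card = 1 := by
    rw [Finset.card_erase_of_mem hζ₄T', Finset.card_erase_of_mem hζ₂T, hcardT]
  obtain ⟨ζ₃, hU⟩ := Finset.card_eq_one.mp hcardU
  have hζ₃U : ζ₃ ∈ ((S.erase (triv G)).erase ζ₂).erase ζ₄ := by rw [hU]; exact Finset.mem_singleton_self _
  have h34 : ζ₃ ≠ ζ₄ := (Finset.mem_erase.mp hζ₃U).1
  have h32 : ζ₃ ≠ ζ₂ := (Finset.mem_erase.mp (Finset.mem_erase.mp hζ₃U).2).1
  have hζ₃T : ζ₃ ∈ S.erase (triv G) := (Finset.mem_erase.mp (Finset.mem_erase.mp hζ₃U).2).2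
  have hne_triv : ∀ ζ ∈ S.erase (triv G), (ζ : G → ℂ) ≠ (fun _ => 1) := by
    intro ζ hζ h
    exact (Finset.mem_erase.mp hζ).1 (Subtype.ext h)
  have hsumS : ∀ f : IrrCharacter G → ℂ, ∑ ζ ∈ S, f ζ = f (triv G) + (f ζ₂ + (f ζ₄ + f ζ₃)) := by
    intro f
    rw [← Finset.add_sum_erase _ _ htS, ← Finset.add_sum_erase _ _ hζ₂T,
      ← Finset.add_sum_erase _ _ hζ₄T', hU, Finset.sum_singleton]
  have hvalz : ∀ (ζ : IrrCharacter G) (z' : G), orderOf z' = 2 → (ζ : G → ℂ) z' = n ζ := by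
    intro ζ z' hz'
    rw [← hn ζ]
    exact isClassFunction_apply_of_isConj (isClassFunction_of_irr ζ.2) (hone _ _ hz' hz)
  refine ⟨ζ₂, ζ₃, ζ₄, n ζ₃, hpm' ζ₃ (Finset.mem_of_mem_erase hζ₃T), hne_triv ζ₂ hζ₂T,
    hne_triv ζ₃ hζ₃T, h32.symm, h24, h34, ?_, ?_, ?_, ?_, ?_, ?_⟩
  · ext χ
    rw [← hmem]
    constructor
    · intro hχ
      by_cases h1 : χ = triv G
      · left; rw [h1]; rfl
      by_cases h2 : χ = ζ₂
      · right; left; exact h2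
      by_cases h4 : χ = ζ₄
      · right; right; right; exact h4
      have : χ ∈ ((S.erase (triv G)).erase ζ₂).erase ζ₄ :=
        Finset.mem_erase.mpr ⟨h4, Finset.mem_erase.mpr ⟨h2, Finset.mem_erase.mpr ⟨h1, hχ⟩⟩⟩
      rw [hU, Finset.mem_singleton] at this
      right; right; left; exact this
    · rintro (h | h | h | h)
      · have : χ = triv G := Subtype.ext h
        rw [this]; exact htS
      · rw [h]; exact Finset.mem_of_mem_erase hζ₂T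
      · rw [h]; exact Finset.mem_of_mem_erase hζ₃T
      · rw [h]; exact Finset.mem_of_mem_erase hζ₄T
  · intro z' hz'
    refine ⟨?_, hvalz ζ₃ z' hz', ?_⟩
    · rw [hvalz ζ₂ z' hz', hζ₂]; simp
    · rw [hvalz ζ₄ z' hz', hζ₄]; simp
  · have := deg_congr P hcard hexp hone hz ζ₂ (hn ζ₂)
    rwa [hζ₂] at this
  · exact deg_congr P hcard hexp hone hz ζ₃ (hn ζ₃)
  · have := deg_congr P hcard hexp hone hz ζ₄ (hn ζ₄)
    rw [hζ₄] at this
    simpa using this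
  · intro y hy
    have h1 := horth y (fun h => by
      have := Nat.odd_iff.mp hy
      omega)
    rw [hsumS, hnt, hζ₂, hζ₄] at h1
    have h4 : ((1 : ℤ) : ℂ) * (triv G : G → ℂ) y = 1 := by
      show ((1 : ℤ) : ℂ) * 1 = 1
      simp
    rw [h4] at h1
    push_cast at h1
    linear_combination h1

end Cfsg.Agent.S0948
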