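import Cfsg.Statements.S0951
import Cfsg.Agent.Lib.Helper8.BQ4
import Cfsg.Agent.S0941

set_option autoImplicit false
open Cfsg

namespace Cfsg.Agent.S0951

/-- Let S be a Sylow 2-subgroup of the finite group G isomorphic to the quaternion group of order 8. Suppose G has no nontrivial normal subgroup of odd order and G ≠ S. Then, relative to any maximal ideal M of the algebraic integers containing 2, the principal block of G consists of exactly 7 irreducible characters. -/
theorem result {G : Type*} [Group G] [Finite G] (M : Ideal Cfsg.AlgInt) (hM : Cfsg.IsPModular 2 M) (S : Sylow 2 G) (e : (S : Subgroup G) ≃* QuaternionGroup 2) (hO : ∀ N : Subgroup G, N.Normal → Odd (Nat.card N) → N = ⊥) (hG : (S : Subgroup G) ≠ ⊤) : Nat.card (Cfsg.principalBlock M G) = 7 := by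
  have : Fact (Nat.Prime 2) := ⟨Nat.prime_two⟩
  have D := Cfsg.Agent.Lib.Helper8.ZS.q8Syl_of_equiv S e
  have hcore : pPrimeCore 2 G = ⊥ := hO _ (Cfsg.Agent.Lib.Helper8.ZS.pPrimeCore_two_normal G)
    (Cfsg.Agent.Lib.Helper8.ZS.odd_card_pPrimeCore_two G)
  have hc := Cfsg.Agent.Lib.Helper8.BQ.t_central D hcore
  have hn := Cfsg.Agent.Lib.Helper8.BQ.normal_zpowers hc
  have hQ : IsPGroup 2 (Subgroup.zpowers ((e.symm (QuaternionGroup.a 2) : (S : Subgroup G)) : G)) :=
    IsPGroup.of_card (n := 1) (by rw [Nat.card_zpowers, D.orderOf_t]; norm_num)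
  have hC : ∃ k : ℕ, (Subgroup.centralizer ((Subgroup.zpowers
      ((e.symm (QuaternionGroup.a 2) : (S : Subgroup G)) : G) : Subgroup G) : Set G)).index = 2 ^ k := by
    refine ⟨0, ?_⟩
    rw [pow_zero, Subgroup.index_eq_one, eq_top_iff]
    intro g _
    rw [Subgroup.zpowers_eq_closure, Subgroup.centralizer_closure]
    rw [Subgroup.mem_centralizer_singleton_iff]
    first
      | exact hc g
      | exact (hc g).symm
  apply Cfsg.Agent.Lib.Helper8.BQ.card_q8 D hcore hG hM
  intro χ
  exact (Cfsg.Agent.S0941.result 2 M hM _ hQ hC).1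
    ⟨fun _ => 1, Cfsg.Agent.CharLib.isIrrCharacter_one⟩ χ

end Cfsg.Agent.S0951
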