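import Cfsg.Statements.S0953
import Cfsg.Agent.H25.SylowBlocks
import Cfsg.Agent.S0920
import Cfsg.Agent.S0912

set_option autoImplicit false
open Cfsg

namespace Cfsg.Agent.S0953

/-- Let P be a Sylow p-subgroup of the finite group G with normalizer N, and fix a maximal ideal M of the algebraic integers containing p. The number of blocks of G having P as a defect group equals the number of conjugacy classes of N consisting of elements of order prime to p that centralize P. -/
theorem result {G : Type*} [Group G] [Finite G] (p : ℕ) [Fact p.Prime] (M : Ideal Cfsg.AlgInt) (hM : Cfsg.IsPModular p M) (P : Sylow p G) : Nat.card {B : Set (Cfsg.IrrCharacter G) // Cfsg.IsPBlock M B ∧ Cfsg.IsDefectGroup p M B (P : Subgroup G)} = Nat.card {C : ConjClasses (Subgroup.normalizer ((P : Subgroup G) : Set G)) // ∀ n : Subgroup.normalizer ((P : Subgroup G) : Set G), ConjClasses.mk n = C → ¬ p ∣ orderOf n ∧ (n : G) ∈ Subgroup.centralizer ((P : Subgroup G) : Set G)} := by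
  classical
  cases nonempty_fintype G
  have hp := hM.1
  have hPr := Cfsg.Agent.BlockLib.isPrime_of_isPModular hM
  have hPNn : ((P : Subgroup G).subgroupOf (Subgroup.normalizer ((P : Subgroup G) : Set G))).Normal :=
    Subgroup.normal_in_normalizer
  have hPNp : IsPGroup p ((P : Subgroup G).subgroupOf
      (Subgroup.normalizer ((P : Subgroup G) : Set G))) := P.isPGroup'.comap_subtype
  have hidx : ¬ p ∣ ((P : Subgroup G).subgroupOf
      (Subgroup.normalizer ((P : Subgroup G) : Set G))).index := by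
    intro hd
    apply P.not_dvd_index
    rw [← Subgroup.relIndex_mul_index (Subgroup.le_normalizer (H := (P : Subgroup G)))]
    exact Dvd.dvd.mul_right hd _
  have key := Cfsg.Agent.H25.SylowBlocks.card_blocks_eq hM _ hPNp hidx
  have hR : Nat.card {C : ConjClasses (Subgroup.normalizer ((P : Subgroup G) : Set G)) //
      Cfsg.Agent.H25.SylowBlocks.PK p ((P : Subgroup G).subgroupOf
        (Subgroup.normalizer ((P : Subgroup G) : Set G))) C} =
      Nat.card {C : ConjClasses (Subgroup.normalizer ((P : Subgroup G) : Set G)) //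
        ∀ n : Subgroup.normalizer ((P : Subgroup G) : Set G), ConjClasses.mk n = C →
          ¬ p ∣ orderOf n ∧ (n : G) ∈ Subgroup.centralizer ((P : Subgroup G) : Set G)} := by
    apply Nat.card_congr
    apply Equiv.subtypeEquivRight
    intro C
    unfold Cfsg.Agent.H25.SylowBlocks.PK
    refine forall_congr' fun n => imp_congr_right fun _ => and_congr_right fun _ => ?_
    rw [Subgroup.mem_centralizer_iff, Subgroup.mem_centralizer_iff]
    constructor
    · intro h u hu
      have := h ⟨u, Subgroup.le_normalizer hu⟩ (Subgroup.mem_subgroupOf.2 hu)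
      exact congrArg Subtype.val this
    · intro h v hv
      exact Subtype.ext (h (v : G) (Subgroup.mem_subgroupOf.1 hv))
  rw [← hR, ← key]
  -- every block of the normalizer has defect group `P`
  have hall : ∀ b : Set (Cfsg.IrrCharacter (Subgroup.normalizer ((P : Subgroup G) : Set G))),
      Cfsg.IsPBlock M b → Cfsg.IsDefectGroup p M b ((P : Subgroup G).subgroupOf
        (Subgroup.normalizer ((P : Subgroup G) : Set G))) := by
    intro b hb
    obtain ⟨D, hD⟩ := Cfsg.Agent.H25.QuotDefect.exists_isDefectGroup (p := p) hM hb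
    have h1 : (P : Subgroup G).subgroupOf (Subgroup.normalizer ((P : Subgroup G) : Set G)) ≤ D :=
      (le_sSup ⟨hPNn, hPNp⟩ : _ ≤ Cfsg.pCore p _).trans (Cfsg.Agent.S0912.result p M hM b hb D hD)
    have hDp : IsPGroup p D :=
      IsPGroup.of_card (Cfsg.Agent.Lib.Helper23.MinMax.card_of_isDefectGroup hM hb hD)
    have hsyl := Cfsg.Agent.H25.isSylIn_of_not_dvd_relIndex hPNp le_top
      (by rw [Subgroup.relIndex_top_right]; exact hidx)
    rw [← hsyl.2.2 D hDp le_top h1]
    exact hD
  have h20 := Cfsg.Agent.S0920.result p M hM (P : Subgroup G) P.isPGroup'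
  have huniq : ∀ (b : Set (Cfsg.IrrCharacter (Subgroup.normalizer ((P : Subgroup G) : Set G))))
      (B B' : Set (Cfsg.IrrCharacter G)),
      Cfsg.IsInducedBlock M (Subgroup.normalizer ((P : Subgroup G) : Set G)) b B →
      Cfsg.IsInducedBlock M (Subgroup.normalizer ((P : Subgroup G) : Set G)) b B' → B = B' := by
    rintro b B B' ⟨hb, hB, h1⟩ ⟨-, hB', h2⟩
    obtain ⟨ξ, hξ⟩ := Cfsg.Agent.BlockLib.pb_nonempty hb
    obtain ⟨χ, hχ⟩ := Cfsg.Agent.BlockLib.pb_nonempty hB
    obtain ⟨χ', hχ'⟩ := Cfsg.Agent.BlockLib.pb_nonempty hB'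
    have hsame : Cfsg.SameBlock M (χ : G → ℂ) (χ' : G → ℂ) := by
      intro g
      have := Cfsg.Agent.BlockLib.memLocalIdeal_sub (h2 ξ hξ χ' hχ' g) (h1 ξ hξ χ hχ g)
      rwa [sub_sub_sub_cancel_left] at this
    have hmem : χ' ∈ B := by
      rw [Cfsg.Agent.BlockLib.pb_eq_blockOf hB hχ]
      exact hsame
    exact Cfsg.Agent.Lib.Helper23.MinMax.block_eq_of_mem hB hB' hmem hχ'
  choose φ hφ hφu using fun B : {B : Set (Cfsg.IrrCharacter G) // Cfsg.IsPBlock M B ∧
      Cfsg.IsDefectGroup p M B (P : Subgroup G)} => h20.2 B.1 B.2.1 B.2.2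
  apply Nat.card_congr
  refine Equiv.ofBijective (fun B => ⟨φ B, (hφ B).1⟩) ⟨?_, ?_⟩
  · intro B B' h
    have h1 : φ B = φ B' := congrArg Subtype.val h
    apply Subtype.ext
    apply huniq (φ B) B.1 B'.1 (hφ B).2.2
    rw [h1]
    exact (hφ B').2.2
  · rintro ⟨b, hb⟩
    obtain ⟨B, hB, hBD, hind⟩ := h20.1 b hb (hall b hb)
    refine ⟨⟨B, hB, hBD⟩, Subtype.ext ?_⟩
    exact (hφu ⟨B, hB, hBD⟩ b ⟨hb, hall b hb, hind⟩).symm

end Cfsg.Agent.S0953
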