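import Cfsg.Statements.S0954
import Cfsg.Agent.H25.Cover2

set_option autoImplicit false
open Cfsg

namespace Cfsg.Agent.S0954

/-- Let N be a normal subgroup of the finite group G of order prime to p and of p-power index (a normal p-complement), and fix a maximal ideal M of the algebraic integers containing p. Then two irreducible characters χ, ψ of G lie in the same block if and only if some irreducible character of N has nonzero inner product with both the restriction of χ and the restriction of ψ. -/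
theorem result {G : Type*} [Group G] [Fintype G] (p : ℕ) [Fact p.Prime] (M : Ideal Cfsg.AlgInt) (hM : Cfsg.IsPModular p M) (N : Subgroup G) [N.Normal] [Fintype N] (hN : ¬ p ∣ Nat.card N) (hidx : ∃ k : ℕ, N.index = p ^ k) (χ ψ : Cfsg.IrrCharacter G) : Cfsg.SameBlock M (χ : G → ℂ) (ψ : G → ℂ) ↔ ∃ θ : Cfsg.IrrCharacter N, Cfsg.classInner (fun n : N => (χ : G → ℂ) n) (θ : N → ℂ) ≠ 0 ∧ Cfsg.classInner (fun n : N => (ψ : G → ℂ) n) (θ : N → ℂ) ≠ 0 := by
  open Cfsg.Agent.BlockLib Cfsg.Agent.H25 Cfsg.Agent.CharLib in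
  have hP' : M.IsPrime := isPrime_of_isPModular hM
  have hNn : N.Normal := inferInstance
  have hq : IsPGroup p (G ⧸ N) := by
    obtain ⟨k, hk⟩ := hidx
    exact IsPGroup.of_card (n := k) (by rw [← Subgroup.index_eq_card, hk])
  have hBχ : IsPBlock M (blockOf M (χ : G → ℂ)) := ⟨χ, rfl⟩
  have hBψ : IsPBlock M (blockOf M (ψ : G → ℂ)) := ⟨ψ, rfl⟩
  constructor
  · intro h
    obtain ⟨θ, hθ⟩ := exists_constituent (N := N) χ
    obtain ⟨η, hη⟩ := exists_constituent (N := N) ψ
    have hb : IsPBlock M (blockOf M (θ : N → ℂ)) := ⟨θ, rfl⟩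
    have hb₁ : IsPBlock M (blockOf M (η : N → ℂ)) := ⟨η, rfl⟩
    have a1 := agree_of_constituent hBχ hb (mem_blockOf_self χ) (mem_blockOf_self θ) hθ
    have a2 := agree_of_constituent hBχ hb₁ (show ψ ∈ blockOf M (χ : G → ℂ) from h)
      (mem_blockOf_self η) hη
    obtain ⟨x, hx⟩ := exists_conjSet_eq_of_agree hBχ hb hb₁ a1 a2
    have h2 : η ∈ conjSet N N x (blockOf M (θ : N → ℂ)) := by rw [← hx]; exact mem_blockOf_self η
    obtain ⟨θ', hθ', hc⟩ := h2
    have h3 : θ = θ' := eq_of_sameBlock_of_not_dvd hM hN hθ'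
    subst h3
    refine ⟨θ, hθ, ?_⟩
    have h4 : (θ : N → ℂ) = H2.conjFun hNn (η : N → ℂ) x := by
      funext c
      rw [H2.conjFun_apply]
      exact (hc c ⟨x * c * x⁻¹, hNn.conj_mem c c.2 x⟩ rfl).symm
    rw [h4, H2.classInner_restrict_conjFun hNn (isClassFunction_of_irr ψ.2)]
    exact hη
  · rintro ⟨θ, h1, h2⟩
    have hb : IsPBlock M (blockOf M (θ : N → ℂ)) := ⟨θ, rfl⟩
    have h3 : blockOf M (χ : G → ℂ) = blockOf M (ψ : G → ℂ) :=
      covers_unique_of_supp hBχ hBψ hb ⟨χ, mem_blockOf_self χ, θ, mem_blockOf_self θ, h1⟩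
        ⟨ψ, mem_blockOf_self ψ, θ, mem_blockOf_self θ, h2⟩
        (eps_mem_supp_of_pQuotient hM hq hBχ) (eps_mem_supp_of_pQuotient hM hq hBψ)
    have h4 : ψ ∈ blockOf M (χ : G → ℂ) := by rw [h3]; exact mem_blockOf_self ψ
    exact h4

end Cfsg.Agent.S0954
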