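import Cfsg.Statements.S0955
import Cfsg.Agent.BlockLib.KG.DefectTr
import Cfsg.Agent.BlockLib.KG.NormalP
import Cfsg.Agent.H12.Cores

set_option autoImplicit false
open Cfsg

namespace Cfsg.Agent.S0955

/-- Let D be a defect group of a block of the finite group G relative to a maximal ideal M of the algebraic integers containing the prime p. Then D is the largest normal p-subgroup of its own normalizer: O_p(N_G(D)) = D. -/
theorem result {G : Type*} [Group G] [Finite G] (p : ℕ) [Fact p.Prime] (M : Ideal Cfsg.AlgInt) (hM : Cfsg.IsPModular p M) (B : Set (Cfsg.IrrCharacter G)) (hB : Cfsg.IsPBlock M B) (D : Subgroup G) (hD : Cfsg.IsDefectGroup p M B D) : (Cfsg.pCore p (Subgroup.normalizer (D : Set G))).map (Subgroup.normalizer (D : Set G)).subtype = D := by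
  classical
  cases nonempty_fintype G
  open Cfsg.Agent.BlockLib Cfsg.Agent.CharLib in
  have hP' : M.IsPrime := isPrime_of_isPModular hM
  have hch : CharP (ResField M) p := charP_resField hM
  have hD' := (isDefectGroup_iff hB D).mp hD
  have hε := isBlk_eps hB
  set N := Subgroup.normalizer (D : Set G) with hN
  set Q := (Cfsg.pCore p N).map N.subtype with hQ
  have hQp : IsPGroup p Q := (Cfsg.Agent.H12.pCore_isPGroup p N).map _
  have hQN : Q ≤ N := Subgroup.map_subtype_le _
  have hDp : IsPGroup p D := hD'.isPGroup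
  have hDN : D ≤ N := Subgroup.le_normalizer
  have hDQ : D ≤ Q := by
    have h1 : (D.subgroupOf N).Normal := Subgroup.normal_in_normalizer
    have h2 : IsPGroup p (D.subgroupOf N) :=
      hDp.comap_of_injective N.subtype N.subtype_injective
    have h3 := Cfsg.Agent.H12.le_pCore h1 h2
    have h4 := Subgroup.map_mono (f := N.subtype) h3
    rwa [Subgroup.subgroupOf_map_subtype, inf_eq_left.mpr hDN] at h4
  have hNQ : N ≤ Subgroup.normalizer (Q : Set G) := by
    have h0 := Cfsg.Agent.H12.pCore_characteristic p N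
    have h1 : (Cfsg.pCore p N).Normal := Subgroup.normal_of_characteristic _
    intro n hn
    rw [Subgroup.mem_normalizer_iff]
    intro h
    constructor
    · rintro ⟨y, hy, rfl⟩
      exact ⟨⟨n, hn⟩ * y * ⟨n, hn⟩⁻¹, h1.conj_mem y hy _, rfl⟩
    · rintro ⟨y, hy, hy2⟩
      refine ⟨⟨n, hn⟩⁻¹ * y * ⟨n, hn⟩, ?_, ?_⟩
      · have := h1.conj_mem y hy ⟨n, hn⟩⁻¹
        simpa using this
      · simp only [Subgroup.coe_subtype, Subgroup.coe_mul, Subgroup.coe_inv] at hy2 ⊢
        rw [hy2]; group
  have hfixD : eps M B ∈ CA.fix D := CA.fix_anti le_top hε.mem.2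
  have hc1 : CA.br D (eps M B) ∈ CA.cen N :=
    ⟨CA.supp_mono (CA.centralizer_le_normalizer' D) (CA.br_mem_supp D _),
      CA.br_mem_fix le_rfl (CA.fix_anti le_top hε.mem.2)⟩
  have hc2 : CA.br D (eps M B) * CA.br D (eps M B) = CA.br D (eps M B) := by
    rw [← CA.br_mul hDp hfixD hfixD, hε.idem]
  have hc3 := CA.idem_mem_supp_centralizer hQp hQN hNQ hc1 hc2
  have hc4 : CA.br Q (eps M B) ≠ 0 := by
    rw [← CA.br_br hDQ, CA.br_eq_self hc3]
    exact hD'.br_ne_zero hε
  obtain ⟨x, -, hx⟩ := (hD'.br_ne_zero_iff hε hQp le_top).mp hc4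
  have h5 : Nat.card Q ≤ Nat.card D := by
    have := Subgroup.card_le_of_le hx
    rwa [CA.card_cjs] at this
  exact (Subgroup.eq_of_le_of_card_ge hDQ h5).symm

end Cfsg.Agent.S0955
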