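import Mathlib
import Cfsg.Statements.S0956
import Cfsg.Agent.H6.GreenLemma
import Cfsg.Agent.BlockLib.KG.FirstMain
import Cfsg.Agent.BlockLib.KG.PRegTr
import Cfsg.Agent.BlockLib.KG.DefectTr
import Cfsg.Agent.BlockLib.KG.Transport

set_option autoImplicit false
open Cfsg

namespace Cfsg.Agent.S0956

open Cfsg.Agent.BlockLib Cfsg.Agent.BlockLib.CA Cfsg.Agent.H6.GreenLemma

local notation "C(" P ")" => Subgroup.centralizer (SetLike.coe P)
local notation "N(" P ")" => Subgroup.normalizer (SetLike.coe P)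
local notation "Ce(" g ")" => Subgroup.centralizer (Singleton.singleton g : Set _)

/-- Let D be a defect group of a block of the finite group G (relative to a maximal ideal M of the algebraic integers containing the prime p) and P a Sylow p-subgroup containing D. Then there is an element x of order prime to p such that D is a Sylow p-subgroup of the centralizer of x and D = P ∩ x P x⁻¹. -/
theorem result {G : Type*} [Group G] [Finite G] (p : ℕ) [Fact p.Prime] (M : Ideal Cfsg.AlgInt) (hM : Cfsg.IsPModular p M) (B : Set (Cfsg.IrrCharacter G)) (hB : Cfsg.IsPBlock M B) (D : Subgroup G) (hD : Cfsg.IsDefectGroup p M B D) (P : Sylow p G) (hDP : D ≤ P) : ∃ x : G, ¬ p ∣ orderOf x ∧ (∃ S : Sylow p (Subgroup.centralizer ({x} : Set G)), (S : Subgroup (Subgroup.centralizer ({x} : Set G))).map (Subgroup.centralizer ({x} : Set G)).subtype = D) ∧ (P : Subgroup G) ⊓ (P : Subgroup G).map (MulAut.conj x).toMonoidHom = D := by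
  classical
  haveI : Fintype G := Fintype.ofFinite G
  haveI := isPrime_of_isPModular hM
  haveI := charP_resField hM
  haveI := pReg_resField (G := G) hM
  set ε := eps M B with hεdef
  have hε : IsBlk (⊤ : Subgroup G) ε := isBlk_eps hB
  have hDef : IsDefGrp p ⊤ ε D := (isDefectGroup_iff hB D).mp hD
  have hDp : IsPGroup p D := hDef.isPGroup
  set e0 := br D ε with he0
  have he0cen : e0 ∈ cen N(D) := br_mem_cen_normalizer (fix_anti le_top hε.mem.2)
  have he0idem : e0 * e0 = e0 := br_idem hDp (fix_anti le_top hε.mem.2) hε.idem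
  have he0ne : e0 ≠ 0 := hDef.br_ne_zero hε
  set e := res N(D) e0 with he
  have hext : ext0 N(D) e = e0 := ext0_res _ he0cen.1
  have hecen : e ∈ cen (⊤ : Subgroup N(D)) := res_mem_cen _ he0cen
  have heidem : e * e = e := by
    apply ext0_injective N(D)
    rw [map_mul, hext, he0idem]
  have hene : e ≠ 0 := by
    intro h
    apply he0ne
    rw [← hext, h, map_zero]
  have hsing : ∀ g : G, p ∣ orderOf g → ε g = 0 := fun g hg => PReg.reg ⊤ ε hε g hg
  have hereg : ∀ g : N(D), p ∣ orderOf g → e g = 0 := by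
    intro g hg
    rw [he, res_apply, he0]
    by_cases hgC : (g : G) ∈ C(D)
    · rw [br_apply_of_mem _ hgC]
      exact hsing _ (by rwa [Subgroup.orderOf_coe])
    · rw [br_apply_of_not_mem _ hgC]
  have hNP : IsPGroup p (((P : Subgroup G) ⊓ N(D)).subgroupOf N(D)) :=
    (P.2.to_le inf_le_left).comap_subtype
  obtain ⟨S, hS⟩ := hNP.exists_le_sylow
  obtain ⟨z, hz, hzS⟩ := exists_sylow_inter S hecen heidem hene hereg
  set x : G := (z : G) with hx
  have hxN : x ∈ N(D) := z.2
  rw [he, res_apply, he0] at hz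
  have hxC : x ∈ C(D) := by
    by_contra h
    exact hz (br_apply_of_not_mem _ h)
  rw [br_apply_of_mem _ hxC] at hz
  have hSyl : IsSylIn p D Ce(x) := by
    refine ⟨hDp, le_centralizer_singleton_iff.mpr hxC, fun Q hQ hQx hDQ => ?_⟩
    have h1 : br Q ε ≠ 0 :=
      Cfsg.Agent.BlockLib.CA.br_ne_zero_iff.mpr ⟨x, le_centralizer_singleton_iff.mp hQx, hz⟩
    obtain ⟨g, -, hg⟩ := (hDef.br_ne_zero_iff hε hQ le_top).mp h1
    have h2 : Nat.card Q ≤ Nat.card D := by
      rw [← card_cjs g D]
      exact Nat.card_le_card_of_injective _ (Subgroup.inclusion_injective hg)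
    exact (Subgroup.eq_of_le_of_card_ge hDQ h2).symm
  refine ⟨x, fun h => hz (hsing x h), ?_, ?_⟩
  · obtain ⟨S', hS'⟩ := hSyl.exists_sylow
    exact ⟨S', hS'.symm⟩
  · show (P : Subgroup G) ⊓ cjs x (P : Subgroup G) = D
    have hDle : D ≤ (P : Subgroup G) ⊓ cjs x (P : Subgroup G) := by
      refine le_inf hDP fun d hd => ?_
      rw [mem_cjs]
      have : x⁻¹ * d * x = d := by
        have := (Subgroup.mem_centralizer_iff.mp hxC) d hd
        rw [mul_assoc, this]; simp
      rw [this]
      exact hDP hd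
    by_contra hne
    have hlt : D < (P : Subgroup G) ⊓ cjs x (P : Subgroup G) := lt_of_le_of_ne hDle (Ne.symm hne)
    have hRp : IsPGroup p ((P : Subgroup G) ⊓ cjs x (P : Subgroup G) : Subgroup G) :=
      P.2.to_le inf_le_left
    have hlt2 := lt_inf_normalizer hRp hlt
    have hcent : (P : Subgroup G) ⊓ cjs x (P : Subgroup G) ⊓ N(D) ≤ Ce(x) := by
      intro u hu
      have hu1 : u ∈ (P : Subgroup G) := hu.1.1
      have hu2 : x⁻¹ * u * x ∈ (P : Subgroup G) := mem_cjs.mp hu.1.2
      have hu3 : u ∈ N(D) := hu.2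
      have a1 : (⟨u, hu3⟩ : N(D)) ∈ (S : Subgroup N(D)) := hS ⟨hu1, hu3⟩
      have a2 : z⁻¹ * (⟨u, hu3⟩ : N(D)) * z ∈ (S : Subgroup N(D)) :=
        hS ⟨hu2, Subgroup.mul_mem _ (Subgroup.mul_mem _ (Subgroup.inv_mem _ hxN) hu3) hxN⟩
      have a3 := hzS _ a1 a2
      have a4 : u * x = x * u := congrArg Subtype.val a3
      rw [Subgroup.mem_centralizer_singleton_iff]
      exact a4
    have := hSyl.2.2 _ (hRp.to_le inf_le_left) hcent hlt2.le
    exact hlt2.ne this.symm

end Cfsg.Agent.S0956
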