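import Mathlib
import Cfsg.Statements.S0957
import Cfsg.Agent.H6.SylowPairs

set_option autoImplicit false
open Cfsg

namespace Cfsg.Agent.S0957

/-- Let P be a Sylow p-subgroup of the finite group G, let g, h ∈ G and let p ^ d be the order of a Sylow p-subgroup of the centralizer of g. Then the number of pairs (y, z) with y conjugate to g, z conjugate to h and z * y⁻¹ ∈ P is divisible by the order of P divided by p ^ d. -/
theorem result {G : Type*} [Group G] [Finite G] (p : ℕ) [Fact p.Prime] (P : Sylow p G) (g h : G) (S : Sylow p (Subgroup.centralizer ({g} : Set G))) : Nat.card P / Nat.card S ∣ Nat.card {yz : G × G // IsConj g yz.1 ∧ IsConj h yz.2 ∧ yz.2 * yz.1⁻¹ ∈ (P : Subgroup G)} := by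
  classical
  haveI : Fintype G := Fintype.ofFinite G
  have h1 := Cfsg.Agent.H6.SylowPairs.pow_dvd_pairs P g {z | IsConj h z} (by
    intro x z hz
    exact hz.trans (isConj_iff.mpr ⟨x, rfl⟩))
  have hle : (Nat.card (Subgroup.centralizer ({g} : Set G))).factorization p
      ≤ (Nat.card G).factorization p :=
    (Nat.factorization_le_iff_dvd Nat.card_pos.ne' Nat.card_pos.ne').mpr
      (Subgroup.card_subgroup_dvd_card _) p
  rw [P.card_eq_multiplicity, S.card_eq_multiplicity, Nat.pow_div hle (Fact.out : p.Prime).pos]
  exact h1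

end Cfsg.Agent.S0957
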