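import Cfsg.Statements.S0959
import Cfsg.Agent.BlockLib.KG.DefectTr

set_option autoImplicit false
open Cfsg

namespace Cfsg.Agent.S0959

/-- Let B be a block of the finite group G with defect group D (relative to a maximal ideal M of the algebraic integers containing the prime p), and let P be a p-subgroup. Then there is an element g whose idempotent coefficient for B is a local integer outside the local ideal at M and which has a conjugate centralizing P, if and only if some conjugate of P is contained in D. -/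
theorem result {G : Type*} [Group G] [Finite G] (p : ℕ) [Fact p.Prime] (M : Ideal Cfsg.AlgInt) (hM : Cfsg.IsPModular p M) (B : Set (Cfsg.IrrCharacter G)) (hB : Cfsg.IsPBlock M B) (D : Subgroup G) (hD : Cfsg.IsDefectGroup p M B D) (P : Subgroup G) (hP : IsPGroup p P) : (∃ g : G, Cfsg.MemLocalRing M (Cfsg.blockCoeff B g) ∧ ¬ Cfsg.MemLocalIdeal M (Cfsg.blockCoeff B g) ∧ ∃ c : G, IsConj g c ∧ c ∈ Subgroup.centralizer (P : Set G)) ↔ ∃ x : G, P.map (MulAut.conj x).toMonoidHom ≤ D := by
  classical
  cases nonempty_fintype G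
  open Cfsg.Agent.BlockLib Cfsg.Agent.CharLib in
  have hP' : M.IsPrime := isPrime_of_isPModular hM
  have hch : CharP (ResField M) p := charP_resField hM
  have hD' := (isDefectGroup_iff hB D).mp hD
  have key := hD'.br_ne_zero_iff (isBlk_eps hB) hP le_top
  rw [CA.br_ne_zero_iff] at key
  have hne : ∀ g, eps M B g ≠ 0 ↔ ¬ MemLocalIdeal M (blockCoeff B g) := by
    intro g
    rw [eps, red_apply, Ne, redS_eq_zero_iff (memLocalRing_blockCoeff hB g)]
  have hcl : IsClassFunction G (blockCoeff B) := by
    rw [blockCoeff_eq_idemSet']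
    exact isClassFunction_idemSet B
  constructor
  · rintro ⟨g, -, hg, c, hgc, hc⟩
    obtain ⟨x, -, hx⟩ := key.mp ⟨c, hc, by
      rw [hne, ← isClassFunction_apply_of_isConj hcl hgc]; exact hg⟩
    exact ⟨x⁻¹, CA.le_cjs_iff.mp hx⟩
  · rintro ⟨x, hx⟩
    obtain ⟨c, hc, hc2⟩ := key.mpr ⟨x⁻¹, trivial, by
      rw [CA.le_cjs_iff, inv_inv]; exact hx⟩
    exact ⟨c, memLocalRing_blockCoeff hB c, (hne c).mp hc2, c, IsConj.refl c, hc⟩

end Cfsg.Agent.S0959
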