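import Cfsg.Statements.S0962
import Cfsg.Agent.Lib.Helper23.MinMax2

set_option autoImplicit false
open Cfsg

namespace Cfsg.Agent.S0962

open Cfsg Cfsg.Agent.CharLib Cfsg.Agent.BlockLib Cfsg.Agent.Lib.Helper23.MinMax

/-- Fix a maximal ideal M of the algebraic integers containing the prime p and a natural number d. The number of blocks of the finite group G of defect at least d is at most the number of conjugacy classes of p-regular elements of G of defect at least d, where the defect of a class is the exponent of p in the order of the centralizer of any of its elements. -/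
theorem result {G : Type*} [Group G] [Finite G] (p : ℕ) [Fact p.Prime] (M : Ideal Cfsg.AlgInt) (hM : Cfsg.IsPModular p M) (d : ℕ) : Nat.card {B : Set (Cfsg.IrrCharacter G) // Cfsg.IsPBlock M B ∧ d ≤ Cfsg.blockDefect p B} ≤ Nat.card {C : ConjClasses G // ∃ g : G, ConjClasses.mk g = C ∧ Cfsg.IsPRegular p g ∧ d ≤ (Nat.card (Subgroup.centralizer ({g} : Set G))).factorization p} := by
  have hMp := isPrime_of_isPModular hM
  have htop := ne_top_of_isPModular hM
  cases nonempty_fintype G
  apply card_blocks_le hM _ _ (fun B hB => hB.1)
  intro B B' hB hB' χ hχ C hC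
  have hC' : ¬ (Cfsg.IsPRegular p (Quotient.out C) ∧
      d ≤ (Nat.card (Subgroup.centralizer ({Quotient.out C} : Set G))).factorization p) := by
    intro h
    exact hC ⟨Quotient.out C, Quotient.out_eq C, h⟩
  by_cases hreg : Cfsg.IsPRegular p (Quotient.out C)
  · have hlt : (Nat.card (Subgroup.centralizer ({Quotient.out C} : Set G))).factorization p <
        Cfsg.blockDefect p B' := by
      have : ¬ d ≤ (Nat.card (Subgroup.centralizer ({Quotient.out C} : Set G))).factorization p :=
        fun h => hC' ⟨hreg, h⟩
      have := hB'.2
      omega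
    exact memLocalIdeal_mul_left (memLocalRing_blockCoeff hB.1 _)
      (memLocalIdeal_centralChar hM hB'.1 _ hlt hχ)
  · have hs : p ∣ orderOf (Quotient.out C) := by
      unfold Cfsg.IsPRegular at hreg
      exact not_not.1 hreg
    rw [blockCoeff_eq_zero_of_singular hM hB.1 hs, zero_mul]
    exact memLocalIdeal_zero htop

end Cfsg.Agent.S0962
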