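import Cfsg.Statements.S0968
import Cfsg.Agent.H25.CentralProd4

set_option autoImplicit false
open Cfsg

namespace Cfsg.Agent.S0968

/-- Let P be a p-subgroup of the finite group G with P ⊔ C_G(P) = G, and let B be a block with defect group P relative to a maximal ideal M of the algebraic integers containing p. Then there is exactly one θ ∈ B with θ x = θ 1 for all x ∈ P; for this θ the exponent of p in θ(1) equals the exponent of p in the index of P; and the number of members of B equals the number of conjugacy classes of P. -/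
theorem result {G : Type*} [Group G] [Finite G] (p : ℕ) [Fact p.Prime] (M : Ideal Cfsg.AlgInt) (hM : Cfsg.IsPModular p M) (P : Subgroup G) (hP : IsPGroup p P) (hG : P ⊔ Subgroup.centralizer (P : Set G) = ⊤) (B : Set (Cfsg.IrrCharacter G)) (hB : Cfsg.IsPBlock M B) (hD : Cfsg.IsDefectGroup p M B P) : (∃! θ : Cfsg.IrrCharacter G, θ ∈ B ∧ ∀ x ∈ P, (θ : G → ℂ) x = (θ : G → ℂ) 1) ∧ (∀ θ ∈ B, (∀ x ∈ P, (θ : G → ℂ) x = (θ : G → ℂ) 1) → (Cfsg.charDegree (θ : G → ℂ)).factorization p = P.index.factorization p) ∧ Nat.card B = Nat.card (ConjClasses P) := by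
  classical
  have : Fintype G := Fintype.ofFinite _
  obtain ⟨b, hdata⟩ := H25.exists_cpdata hM hP hG hB hD
  obtain ⟨θ₁, hθ₁, ψ₁, hψ₁, h₁⟩ := hdata.exists_theta hM hG (Lib.Helper23.trivIrr P)
  have key : ∀ θ ∈ B, (∀ x ∈ P, (θ : G → ℂ) x = (θ : G → ℂ) 1) → θ = θ₁ := by
    intro θ hθ hx
    obtain ⟨ζ, ψ, h⟩ := H25.exists_factor hG θ
    have h' : H25.IsProd θ ζ ψ := h
    have e := h'.zeta_eq_triv hx
    subst e
    exact hdata.theta_unique hM hG hθ hθ₁ h' h₁
  refine ⟨⟨θ₁, ⟨hθ₁, fun x hx => ?_⟩, fun θ hθ => key θ hθ.1 hθ.2⟩, fun θ hθ hx => ?_, ?_⟩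
  · have e1 := h₁ ⟨x, hx⟩ 1
    have e2 := h₁ 1 1
    simp only [OneMemClass.coe_one, mul_one] at e1 e2
    rw [e1, e2]
    rfl
  · rw [key θ hθ hx, h₁.charDegree, Lib.Helper23.charDegree_trivIrr, one_mul]
    exact hdata.factorization_deg hM hψ₁ hG
  · rw [hdata.card hM hG]
    exact CharLib.card_irrCharacter

end Cfsg.Agent.S0968
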