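import Cfsg.Statements.S0973
import Cfsg.Agent.BlockLib.KG.ExtFirstMain
import Cfsg.Agent.BlockLib.KG.DefSubTr
import Cfsg.Agent.H6.FirstMainTr

set_option autoImplicit false
open Cfsg Cfsg.Agent.BlockLib

namespace Cfsg.Agent.S0973

/-- Let B be a block of the finite group G with defect group P (relative to a maximal ideal M of the algebraic integers containing p), and let L = P ⊔ C_G(P). Then (i) some block b of L with defect group P (viewed in L) induces B, and (ii) if b and b' are blocks of L both inducing B, there is n ∈ N_G(P) carrying b to b': for every θ ∈ b there is θ' ∈ b' with θ' x = θ (n x n⁻¹) for all x ∈ L. -/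
theorem result {G : Type*} [Group G] [Finite G] (p : ℕ) [Fact p.Prime] (M : Ideal Cfsg.AlgInt) (hM : Cfsg.IsPModular p M) (B : Set (Cfsg.IrrCharacter G)) (hB : Cfsg.IsPBlock M B) (P : Subgroup G) (hP : Cfsg.IsDefectGroup p M B P) : (∃ b : Set (Cfsg.IrrCharacter ↥(P ⊔ Subgroup.centralizer (P : Set G))), Cfsg.IsDefectGroup p M b (P.subgroupOf (P ⊔ Subgroup.centralizer (P : Set G))) ∧ Cfsg.IsInducedBlock M (P ⊔ Subgroup.centralizer (P : Set G)) b B) ∧ ∀ b b' : Set (Cfsg.IrrCharacter ↥(P ⊔ Subgroup.centralizer (P : Set G))), Cfsg.IsInducedBlock M (P ⊔ Subgroup.centralizer (P : Set G)) b B → Cfsg.IsInducedBlock M (P ⊔ Subgroup.centralizer (P : Set G)) b' B → ∃ n ∈ Subgroup.normalizer (P : Set G), ∀ θ ∈ b, ∃ θ' ∈ b', ∀ x : ↥(P ⊔ Subgroup.centralizer (P : Set G)), ∀ hx : n * (x : G) * n⁻¹ ∈ P ⊔ Subgroup.centralizer (P : Set G), (θ' : ↥(P ⊔ Subgroup.centralizer (P : Set G)) → ℂ) x = (θ : ↥(P ⊔ Subgroup.centralizer (P : Set G)) → ℂ) ⟨n * (x : G) * n⁻¹,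 hx⟩ := by
  classical
  cases nonempty_fintype G
  haveI := isPrime_of_isPModular hM
  haveI := charP_resField hM
  have hD := (isDefectGroup_iff hB P).mp hP
  have hPp := hD.isPGroup
  have hLN := CA.sup_centralizer_le_normalizer P
  have hind : ∀ b : Set (IrrCharacter ↥(P ⊔ Subgroup.centralizer (P : Set G))), IsPBlock M b →
      (IsInducedBlock M _ b B ↔ CA.IsBPOf p (eps M B) P (epsS M _ b)) := by
    intro b hb
    rw [Cfsg.Agent.H6.IndBlk.isInducedBlock_iff_br hPp le_sup_left le_sup_right hLN hb hB]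
    constructor
    · intro h
      exact ⟨⟨hPp, (CA.isBlk_sup_iff hPp).mp (isBlk_epsS hb)⟩, isBlk_eps hB, h⟩
    · intro h
      exact h.2.2
  constructor
  · obtain ⟨e, he⟩ := CA.exists_isBPOf (isBlk_eps hB) hPp (hD.br_ne_zero (isBlk_eps hB))
    have hmax := CA.isMaxBP_of_isDefGrp he hD
    obtain ⟨b, hb, hbe⟩ := exists_epsS_eq ((CA.isBlk_sup_iff hPp).mpr he.1.2)
    refine ⟨b, ?_, (hind b hb).mpr (hbe ▸ he)⟩
    rw [isDefectGroup_subgroupOf_iff hb le_sup_left, hbe]
    exact hmax.isDefGrp_sup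
  · intro b b' hbB hb'B
    have hb := hbB.1
    have hb' := hb'B.1
    have h1 := (hind b hb).mp hbB
    have h2 := (hind b' hb').mp hb'B
    obtain ⟨x, hx, hxe⟩ := (CA.isMaxBP_of_isDefGrp h2 hD).conj h1
    refine ⟨x⁻¹, Subgroup.inv_mem _ hx, fun θ hθ => ?_⟩
    have hK : P ⊔ Subgroup.centralizer (P : Set G) =
        CA.cjs x (P ⊔ Subgroup.centralizer (P : Set G)) :=
      (CA.cjs_eq_of_mem_normalizer (CA.normalizer_le_normalizer_sup P hx)).symm
    have h3 : conjSet _ _ x b = b' :=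
      epsS_injective (isPBlock_conjSet hK hb) hb' (by rw [epsS_conjSet hK, hxe])
    refine ⟨mapIrr (conjEquiv hK) θ, ?_, ?_⟩
    · rw [← h3, conjSet_eq_image hK]
      exact ⟨θ, hθ, rfl⟩
    · intro y hy
      rw [mapIrr_apply]
      have : (conjEquiv hK).symm y = ⟨x⁻¹ * (y : G) * x⁻¹⁻¹, hy⟩ := by
        apply Subtype.ext
        rw [coe_conjEquiv_symm]
        simp
      rw [this]

end Cfsg.Agent.S0973
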