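import Cfsg.Statements.S0985
import Mathlib
import Cfsg.Agent.Lib.Helper21.TwistOrbits

set_option autoImplicit false
open Cfsg

namespace Cfsg.Agent.S0985

/-- If the number of Sylow p-subgroups of a finite group is not congruent to 1 modulo p^k, then there are two distinct Sylow p-subgroups P and R such that the index of P ∩ R in P is at most p^(k-1). -/
theorem result {G : Type*} [Group G] [Finite G] (p k : ℕ) [Fact p.Prime] (h : ¬ Nat.card (Sylow p G) ≡ 1 [MOD p ^ k]) : ∃ P R : Sylow p G, P ≠ R ∧ ((R : Subgroup G).subgroupOf (P : Subgroup G)).index ≤ p ^ (k - 1) := by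
  classical
  have hp : p.Prime := Fact.out
  by_contra hcon
  push Not at hcon
  apply h
  obtain ⟨P⟩ : Nonempty (Sylow p G) := inferInstance
  haveI : Fintype (Sylow p G) := Fintype.ofFinite _
  let F : Sylow p G → ℤ := fun R => if R = P then 0 else 1
  have hfixP : ∀ u : (P : Subgroup G), u • P = P := by
    intro u
    have : (u : G) • P = P := Sylow.smul_eq_iff_mem_normalizer.2 (Subgroup.le_normalizer u.2)
    exact this
  have hF : ∀ (u : (P : Subgroup G)) (R : Sylow p G), F (u • R) = F R := by
    intro u R
    have : u • R = P ↔ R = P := by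
      constructor
      · intro h1
        have h2 : u⁻¹ • (u • R) = u⁻¹ • P := by rw [h1]
        rw [inv_smul_smul, hfixP] at h2
        exact h2
      · intro h1
        rw [h1, hfixP]
    simp only [F, this]
  have hdvd := Cfsg.Agent.Lib.Helper21.dvd_sum_of_orbits (A := (P : Subgroup G)) F hF ((p : ℤ) ^ k) (by
    intro R
    by_cases hR : R = P
    · simp [F, hR]
    · have hFR : F R = 1 := by simp [F, hR]
      rw [hFR, mul_one]
      have hstab : MulAction.stabilizer (P : Subgroup G) R = (R : Subgroup G).subgroupOf (P : Subgroup G) := by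
        ext u
        rw [MulAction.mem_stabilizer_iff, Subgroup.mem_subgroupOf]
        have h1 : u • R = R ↔ (u : G) • R = R := Iff.rfl
        rw [h1, Sylow.smul_eq_iff_mem_normalizer]
        constructor
        · intro h2
          have h4 := P.2.inf_normalizer_sylow R
          have h3 : (u : G) ∈ (P : Subgroup G) ⊓ (R : Subgroup G) := by
            rw [← h4]; exact Subgroup.mem_inf.mpr ⟨u.2, h2⟩
          exact (Subgroup.mem_inf.mp h3).2
        · intro h2
          exact Subgroup.le_normalizer h2
      have hidx : Nat.card (MulAction.orbit (P : Subgroup G) R) =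
          ((R : Subgroup G).subgroupOf (P : Subgroup G)).index := by
        rw [← hstab, MulAction.index_stabilizer, Nat.card_coe_set_eq]
      rw [hidx]
      have hlt := hcon P R (Ne.symm hR)
      obtain ⟨n, hn⟩ := IsPGroup.iff_card.mp P.2
      have hd : ((R : Subgroup G).subgroupOf (P : Subgroup G)).index ∣ p ^ n := by
        rw [← hn]; exact Subgroup.index_dvd_card _
      obtain ⟨j, -, hj⟩ := (Nat.dvd_prime_pow hp).1 hd
      rw [hj] at hlt ⊢
      have h3 : k - 1 < j := (Nat.pow_lt_pow_iff_right hp.one_lt).1 hlt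
      have h4 : k ≤ j := by omega
      exact_mod_cast pow_dvd_pow p h4)
  have hsum : ∑ R : Sylow p G, F R = (Nat.card (Sylow p G) : ℤ) - 1 := by
    have h1 : ∑ R : Sylow p G, F R = ∑ R : Sylow p G, ((1 : ℤ) - if R = P then 1 else 0) := by
      apply Finset.sum_congr rfl
      intro R _
      by_cases hR : R = P <;> simp [F, hR]
    rw [h1, Finset.sum_sub_distrib, Finset.sum_ite_eq' Finset.univ P]
    simp [Nat.card_eq_fintype_card]
  rw [hsum] at hdvd
  have h5 : (1 : ℤ) ≡ (Nat.card (Sylow p G) : ℤ) [ZMOD ((p ^ k : ℕ) : ℤ)] := by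
    rw [Int.modEq_iff_dvd]
    exact_mod_cast hdvd
  exact ((Int.natCast_modEq_iff).1 (by exact_mod_cast h5)).symm

end Cfsg.Agent.S0985
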