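import Cfsg.Statements.S0986
import Mathlib

set_option autoImplicit false
open Cfsg

namespace Cfsg.Agent.S0986

/-- Let P and Q be distinct Sylow p-subgroups of a finite group G chosen so that the order of P ∩ Q is as large as possible among intersections of two distinct Sylow p-subgroups, and let N be the normalizer of P ∩ Q. Then N has more than one Sylow p-subgroup, any two distinct Sylow p-subgroups of N intersect exactly in P ∩ Q, and each Sylow p-subgroup of N lies in exactly one Sylow p-subgroup of G. -/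
theorem result {G : Type*} [Group G] [Finite G] (p : ℕ) [Fact p.Prime] (P Q : Sylow p G) (hPQ : P ≠ Q) (hmax : ∀ P' Q' : Sylow p G, P' ≠ Q' → Nat.card ↥((P' : Subgroup G) ⊓ (Q' : Subgroup G)) ≤ Nat.card ↥((P : Subgroup G) ⊓ (Q : Subgroup G))) : 1 < Nat.card (Sylow p ↥(Subgroup.normalizer (((P : Subgroup G) ⊓ (Q : Subgroup G) : Subgroup G) : Set G))) ∧ (∀ S T : Sylow p ↥(Subgroup.normalizer (((P : Subgroup G) ⊓ (Q : Subgroup G) : Subgroup G) : Set G)), S ≠ T → (S : Subgroup _) ⊓ (T : Subgroup _) = ((P : Subgroup G) ⊓ (Q : Subgroup G)).subgroupOf (Subgroup.normalizer (((P : Subgroup G) ⊓ (Q : Subgroup G) : Subgroup G) : Set G))) ∧ ∀ S : Sylow p ↥(Subgroup.normalizer (((P : Subgroup G) ⊓ (Q : Subgroup G) : Subgroup G) : Set G)), ∃! T : Sylow p G, (S : Subgroup _).map (Subgroup.normalizer (((P : Subgroup G) ⊓ (Q : Subgroup G) : Subgroup G) : Set G)).subtype ≤ (T : Subgroup G) := by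
  classical
  set D : Subgroup G := (P : Subgroup G) ⊓ (Q : Subgroup G) with hD
  set N : Subgroup G := Subgroup.normalizer (D : Set G) with hN
  have hDN : D ≤ N := Subgroup.le_normalizer
  have hDp : IsPGroup p D := P.isPGroup'.to_le inf_le_left
  have hmeet : ∀ R R' : Sylow p G, R ≠ R' → D ≤ R → D ≤ R' →
      (R : Subgroup G) ⊓ (R' : Subgroup G) = D := by
    intro R R' hne h1 h2
    exact (Subgroup.eq_of_le_of_card_ge (le_inf h1 h2) (hmax R R' hne)).symm
  -- normalizers grow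
  have hgrow : ∀ R : Sylow p G, D ≤ R → D ≠ R → ∃ x ∈ (R : Subgroup G), x ∈ N ∧ x ∉ D := by
    intro R hDR hne
    haveI : Group.IsNilpotent ↥(R : Subgroup G) := R.isPGroup'.isNilpotent
    have hlt : D.subgroupOf (R : Subgroup G) < ⊤ := by
      rw [lt_top_iff_ne_top, Ne, Subgroup.subgroupOf_eq_top]
      intro h
      exact hne (le_antisymm hDR h)
    have h1 := normalizerCondition_of_isNilpotent (G := ↥(R : Subgroup G)) _ hlt
    obtain ⟨x, hx1, hx2⟩ := SetLike.exists_of_lt h1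
    refine ⟨x, x.2, ?_, hx2⟩
    rw [hN, Subgroup.mem_normalizer_iff]
    intro d
    rw [Subgroup.mem_normalizer_iff] at hx1
    constructor
    · intro hd
      exact (hx1 ⟨d, hDR hd⟩).mp hd
    · intro hd
      have hdR : d ∈ (R : Subgroup G) := by
        have h2 : (x : G) * d * (x : G)⁻¹ ∈ (R : Subgroup G) := hDR hd
        have : d = (x : G)⁻¹ * ((x : G) * d * (x : G)⁻¹) * x := by group
        rw [this]
        exact Subgroup.mul_mem _ (Subgroup.mul_mem _ (Subgroup.inv_mem _ x.2) h2) x.2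
      exact (hx1 ⟨d, hdR⟩).mpr hd
  have hDP : D ≠ P := by
    intro h
    apply hPQ
    have h1 : (P : Subgroup G) ≤ Q := by rw [← h]; exact inf_le_right
    exact Sylow.ext (P.is_maximal' Q.isPGroup' h1).symm
  have hDQ : D ≠ Q := by
    intro h
    apply hPQ
    have h1 : (Q : Subgroup G) ≤ P := by rw [← h]; exact inf_le_left
    exact Sylow.ext (Q.is_maximal' P.isPGroup' h1)
  obtain ⟨xP, hxP, hxPN, hxPD⟩ := hgrow P inf_le_left hDP
  obtain ⟨xQ, hxQ, hxQN, hxQD⟩ := hgrow Q inf_le_right hDQ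
  haveI hDn : (D.subgroupOf N).Normal := Subgroup.normal_in_normalizer
  have hDNp : IsPGroup p (D.subgroupOf N) := hDp.comap_subtype
  have hF0 : ∀ S : Sylow p ↥N, D.subgroupOf N ≤ S := fun S => hDNp.le_sylow_of_normal S
  have hF0' : ∀ S : Sylow p ↥N, D ≤ (S : Subgroup ↥N).map N.subtype := by
    intro S d hd
    exact ⟨⟨d, hDN hd⟩, hF0 S hd, rfl⟩
  -- every p-subgroup of G inside N lies in a Sylow of N
  have hex : ∀ x : G, ∀ R : Sylow p G, x ∈ (R : Subgroup G) → ∀ hxN : x ∈ N,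
      ∃ S : Sylow p ↥N, (⟨x, hxN⟩ : ↥N) ∈ S ∧ ((R : Subgroup G).subgroupOf N) ≤ S := by
    intro x R hxR hxN
    have hp : IsPGroup p ((R : Subgroup G).subgroupOf N) := R.isPGroup'.comap_subtype
    obtain ⟨S, hS⟩ := hp.exists_le_sylow
    exact ⟨S, hS hxR, hS⟩
  have hSbig : ∀ S : Sylow p ↥N, ∃ x : ↥N, x ∈ S ∧ (x : G) ∉ D := by
    intro S
    obtain ⟨S0, hS0, -⟩ := hex xP P hxP hxPN
    by_contra hcon
    push Not at hcon
    have h1 : (S : Subgroup ↥N) = D.subgroupOf N := le_antisymm (fun x hx => hcon x hx) (hF0 S)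
    have h2 : Nat.card (S0 : Subgroup ↥N) = Nat.card (S : Subgroup ↥N) :=
      S0.card_eq_multiplicity.trans S.card_eq_multiplicity.symm
    have h3 : D.subgroupOf N = S0 := by
      apply Subgroup.eq_of_le_of_card_ge (hF0 S0)
      rw [h2, h1]
    have h4 : (⟨xP, hxPN⟩ : ↥N) ∈ D.subgroupOf N := by rw [h3]; exact hS0
    exact hxPD h4
  have hup : ∀ S : Sylow p ↥N, ∃ T : Sylow p G, (S : Subgroup ↥N).map N.subtype ≤ (T : Subgroup G) :=
    fun S => (S.isPGroup'.map N.subtype).exists_le_sylow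
  have huniq : ∀ S : Sylow p ↥N, ∀ T T' : Sylow p G,
      (S : Subgroup ↥N).map N.subtype ≤ (T : Subgroup G) →
      (S : Subgroup ↥N).map N.subtype ≤ (T' : Subgroup G) → T = T' := by
    intro S T T' hT hT'
    by_contra hne
    obtain ⟨x, hxS, hxD⟩ := hSbig S
    have h1 := hmeet T T' hne ((hF0' S).trans hT) ((hF0' S).trans hT')
    apply hxD
    rw [← h1]
    exact Subgroup.mem_inf.mpr ⟨hT ⟨x, hxS, rfl⟩, hT' ⟨x, hxS, rfl⟩⟩
  refine ⟨?_, ?_, ?_⟩
  · by_contra hcon
    have hle : Nat.card (Sylow p ↥N) ≤ 1 := by omega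
    haveI : Subsingleton (Sylow p ↥N) := (Finite.card_le_one_iff_subsingleton).mp hle
    obtain ⟨S1, hS1, -⟩ := hex xP P hxP hxPN
    obtain ⟨S2, hS2, -⟩ := hex xQ Q hxQ hxQN
    have h12 : S2 = S1 := Subsingleton.elim _ _
    rw [h12] at hS2
    obtain ⟨R, hR⟩ := hup S1
    have hDR : D ≤ R := (hF0' S1).trans hR
    have hPR : P = R := by
      by_contra hne
      have h1 := hmeet P R hne inf_le_left hDR
      apply hxPD
      rw [← h1]
      exact Subgroup.mem_inf.mpr ⟨hxP, hR ⟨_, hS1, rfl⟩⟩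
    have hQR : Q = R := by
      by_contra hne
      have h1 := hmeet Q R hne inf_le_right hDR
      apply hxQD
      rw [← h1]
      exact Subgroup.mem_inf.mpr ⟨hxQ, hR ⟨_, hS2, rfl⟩⟩
    exact hPQ (hPR.trans hQR.symm)
  · intro S T hST
    apply le_antisymm _ (le_inf (hF0 S) (hF0 T))
    obtain ⟨RS, hRS⟩ := hup S
    obtain ⟨RT, hRT⟩ := hup T
    have hne : RS ≠ RT := by
      intro h
      apply hST
      rw [← h] at hRT
      have hp : IsPGroup p ((RS : Subgroup G).subgroupOf N) := RS.isPGroup'.comap_subtype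
      have h1 : (S : Subgroup ↥N) ≤ (RS : Subgroup G).subgroupOf N := fun x hx => hRS ⟨x, hx, rfl⟩
      have h2 : (T : Subgroup ↥N) ≤ (RS : Subgroup G).subgroupOf N := fun x hx => hRT ⟨x, hx, rfl⟩
      exact Sylow.ext ((S.is_maximal' hp h1).symm.trans (T.is_maximal' hp h2))
    have h1 := hmeet RS RT hne ((hF0' S).trans hRS) ((hF0' T).trans hRT)
    intro z hz
    obtain ⟨hz1, hz2⟩ := Subgroup.mem_inf.mp hz
    rw [Subgroup.mem_subgroupOf, ← h1]
    exact Subgroup.mem_inf.mpr ⟨hRS ⟨z, hz1, rfl⟩, hRT ⟨z, hz2, rfl⟩⟩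
  · intro S
    obtain ⟨T, hT⟩ := hup S
    exact ⟨T, hT, fun T' hT' => huniq S T' T hT' hT⟩

end Cfsg.Agent.S0986
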