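import Cfsg.Statements.S0988
import Mathlib
import Cfsg.Agent.S0144
import Cfsg.Agent.Lib.Helper21.SimpleOrd
import Cfsg.Agent.Lib.Helper21.MetaNPC

set_option autoImplicit false
open Cfsg

namespace Cfsg.Agent.S0988

open Cfsg.Agent.Lib.Helper21 in
theorem core {G : Type*} [Group G] [Finite G] [IsSimpleGroup G] (p q r : ℕ) (hp : p.Prime)
    (hq : q.Prime) (hr : r.Prime) (hG : Nat.card G = p ^ 2 * q * r) (hpq : p ≠ q) (hpr : p ≠ r)
    (hqr : q < r) : Nat.card G = 60 := by
  classical
  haveI : Fact p.Prime := ⟨hp⟩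
  haveI : Fact q.Prime := ⟨hq⟩
  haveI : Fact r.Prime := ⟨hr⟩
  have hp2 := hp.two_le
  have hq2 := hq.two_le
  have hr2 := hr.two_le
  have hdiv : ∀ u : ℕ, u.Prime → u ∣ Nat.card G → u = p ∨ u = q ∨ u = r := by
    intro u hu hd
    rw [hG] at hd
    rcases (Nat.Prime.dvd_mul hu).mp hd with h | h
    · rcases (Nat.Prime.dvd_mul hu).mp h with h | h
      · exact Or.inl ((Nat.prime_dvd_prime_iff_eq hu hp).mp (hu.dvd_of_dvd_pow h))
      · exact Or.inr (Or.inl ((Nat.prime_dvd_prime_iff_eq hu hq).mp h))
    · exact Or.inr (Or.inr ((Nat.prime_dvd_prime_iff_eq hu hr).mp h))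
  have hGbig : ∀ m : ℕ, m ≤ p ^ 2 ∨ m ≤ q ∨ m ≤ r → m < Nat.card G := by
    intro m hm
    rw [hG]
    have h1 : 4 ≤ p ^ 2 := by nlinarith
    rcases hm with h | h | h
    · have : p ^ 2 * 2 ≤ p ^ 2 * q := Nat.mul_le_mul_left _ hq2
      have : p ^ 2 * q * 1 ≤ p ^ 2 * q * r := Nat.mul_le_mul_left _ (by omega)
      omega
    · have : 4 * q ≤ p ^ 2 * q := Nat.mul_le_mul_right _ h1
      have : p ^ 2 * q * 1 ≤ p ^ 2 * q * r := Nat.mul_le_mul_left _ (by omega)
      omega
    · have : 4 * 1 ≤ p ^ 2 * q := Nat.mul_le_mul h1 (by omega)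
      have : 4 * r ≤ p ^ 2 * q * r := Nat.mul_le_mul_right _ (by omega)
      omega
  -- p < q
  have hpq' : p < q := by
    by_contra hcon
    let Q : Sylow q G := default
    have hQ : Nat.card (Q : Subgroup G) = q := by
      have := card_sylow_of_card_eq Q 1 (p ^ 2 * r) (by rw [hG]; ring) (by
        intro h
        rcases (Nat.Prime.dvd_mul hq).mp h with h | h
        · exact hpq ((Nat.prime_dvd_prime_iff_eq hq hp).mp (hq.dvd_of_dvd_pow h)).symm
        · exact hqr.ne ((Nat.prime_dvd_prime_iff_eq hq hr).mp h))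
      simpa using this
    have hcop : (Nat.card (Subgroup.normalizer ((Q : Subgroup G) : Set G))).Coprime (q - 1) := by
      by_contra hnc
      obtain ⟨u, hu, hu1, hu2⟩ := Nat.Prime.not_coprime_iff_dvd.mp hnc
      have hu3 : u ∣ Nat.card G := hu1.trans (Subgroup.card_subgroup_dvd_card _)
      have hule : u ≤ q - 1 := Nat.le_of_dvd (by omega) hu2
      rcases hdiv u hu hu3 with rfl | rfl | rfl <;> omega
    exact false_of_simple_of_normalizer_le_centralizer Q
      (normalizer_le_centralizer_of_coprime (Q : Subgroup G) hQ hcop) (by rw [hQ]; omega)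
      (by rw [hQ]; exact hGbig q (Or.inr (Or.inl le_rfl)))
  -- q = p + 1
  have hq1 : q = p + 1 := by
    by_contra hcon
    let P : Sylow p G := default
    have hP : Nat.card (P : Subgroup G) = p ^ 2 :=
      card_sylow_of_card_eq P 2 (q * r) (by rw [hG]; ring) (by
        intro h
        rcases (Nat.Prime.dvd_mul hp).mp h with h | h
        · exact hpq ((Nat.prime_dvd_prime_iff_eq hp hq).mp h)
        · exact hpr ((Nat.prime_dvd_prime_iff_eq hp hr).mp h))
    have hcomm : ∀ a b : (P : Subgroup G), a * b = b * a :=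
      IsPGroup.commutative_of_card_eq_prime_sq hP
    have hnd : ∀ s : ℕ, s.Prime → p + 1 < s → ¬ s ∣ p ^ 2 - 1 := by
      intro s hs hlt hd
      have h1 : p ^ 2 - 1 = (p - 1) * (p + 1) := by
        obtain ⟨k, rfl⟩ : ∃ k, p = k + 1 := ⟨p - 1, by omega⟩
        simp only [Nat.add_sub_cancel]
        have : (k + 1) ^ 2 = k * (k + 1 + 1) + 1 := by ring
        omega
      rw [h1] at hd
      rcases (Nat.Prime.dvd_mul hs).mp hd with h | h
      · have := Nat.le_of_dvd (by omega) h
        omega
      · have := Nat.le_of_dvd (by omega) h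
        omega
    have hNC : Subgroup.normalizer ((P : Subgroup G) : Set G) ≤
        Subgroup.centralizer ((P : Subgroup G) : Set G) := by
      intro y hy
      refine mem_of_prime_power_parts (Subgroup.centralizer ((P : Subgroup G) : Set G))
        (Subgroup.normalizer ((P : Subgroup G) : Set G)) 1 ?_ y hy (Nat.coprime_one_right _)
      intro k hk s a hs _ hord
      haveI : Fact s.Prime := ⟨hs⟩
      have hkp : IsPGroup s (Subgroup.zpowers k) :=
        IsPGroup.of_card (n := a) (by rw [Nat.card_zpowers, hord])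
      by_cases ha : a = 0
      · rw [ha, pow_zero, orderOf_eq_one_iff] at hord
        rw [hord]; exact Subgroup.one_mem _
      have hsG : s ∣ Nat.card G :=
        ((dvd_pow_self s ha).trans (hord ▸ dvd_rfl)).trans (orderOf_dvd_natCard k)
      by_cases hsp : s = p
      · subst hsp
        have h1 : IsPGroup s (Subgroup.zpowers k ⊔ (P : Subgroup G) : Subgroup G) :=
          IsPGroup.to_sup_of_normal_right' hkp P.2 (Subgroup.zpowers_le.mpr hk)
        have h2 := P.3 h1 le_sup_right
        have hkP : k ∈ (P : Subgroup G) := by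
          rw [← h2]
          exact (le_sup_left : Subgroup.zpowers k ≤ _) (Subgroup.mem_zpowers k)
        rw [Subgroup.mem_centralizer_iff]
        intro x hx
        exact congrArg Subtype.val (hcomm ⟨x, hx⟩ ⟨k, hkP⟩)
      · have hlt : p + 1 < s := by
          rcases hdiv s hs hsG with h | h | h
          · exact absurd h hsp
          · omega
          · omega
        refine mem_centralizer_of_frattini_index_le p s hsp (hnd s hs hlt) (P : Subgroup G) P.2 ?_ k hk hkp
        rw [← hP]
        exact Nat.le_of_dvd Nat.card_pos (Subgroup.index_dvd_card _)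
    exact false_of_simple_of_normalizer_le_centralizer P hNC (by rw [hP]; nlinarith)
      (by rw [hP]; exact hGbig _ (Or.inl le_rfl))
  have hp2' : p = 2 := by
    rcases hp.eq_two_or_odd' with h | h
    · exact h
    · exfalso
      rcases hq.eq_two_or_odd' with h' | h'
      · omega
      · rw [hq1] at h'
        obtain ⟨a, ha⟩ := h
        obtain ⟨b, hb⟩ := h'
        omega
  subst hp2'
  subst hq1
  have hG' : Nat.card G = 12 * r := by rw [hG]; norm_num
  let R : Sylow r G := default
  have hR : Nat.card (R : Subgroup G) = r := by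
    have := card_sylow_of_card_eq R 1 12 (by rw [hG']; ring) (by
      intro h
      have := Nat.le_of_dvd (by norm_num) h
      interval_cases r <;> revert hr <;> revert h <;> decide)
    simpa using this
  have h1 := card_normalizer_mul_card_sylow R
  have h2 : Nat.card (Sylow r G) ≡ 1 [MOD r] := card_sylow_modEq_one r G
  have h3 : Nat.card (Sylow r G) ≠ 1 := card_sylow_ne_one_of_simple R (by rw [hR]; omega)
    (by rw [hR]; exact hGbig r (Or.inr (Or.inr le_rfl)))
  have h4 : r ∣ Nat.card (Subgroup.normalizer ((R : Subgroup G) : Set G)) := by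
    have := Subgroup.card_dvd_of_le (Subgroup.le_normalizer (H := (R : Subgroup G)))
    rwa [hR] at this
  obtain ⟨m, hm⟩ := h4
  have h5 : m * Nat.card (Sylow r G) = 12 := by
    rw [hm, hG'] at h1
    have : r * (m * Nat.card (Sylow r G)) = r * 12 := by rw [← mul_assoc, h1]; ring
    exact Nat.eq_of_mul_eq_mul_left (by omega) this
  have hcopN : ¬ (Nat.card (Subgroup.normalizer ((R : Subgroup G) : Set G))).Coprime (r - 1) := by
    intro hcop
    exact false_of_simple_of_normalizer_le_centralizer R
      (normalizer_le_centralizer_of_coprime (R : Subgroup G) hR hcop) (by rw [hR]; omega)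
      (by rw [hR]; exact hGbig r (Or.inr (Or.inr le_rfl)))
  rw [hm] at hcopN
  generalize Nat.card (Sylow r G) = n at *
  have hn12 : n ∣ 12 := Dvd.intro_left _ h5
  have hnle : n ≤ 12 := Nat.le_of_dvd (by norm_num) hn12
  have hn0 : 0 < n := Nat.pos_of_dvd_of_pos hn12 (by norm_num)
  have h6 : r ∣ n - 1 := (Nat.modEq_iff_dvd' (by omega)).mp h2.symm
  have hrle : r ≤ n - 1 := Nat.le_of_dvd (by omega) h6
  have hr3 : 3 < r := hqr
  interval_cases n <;> first | omega | skip
  all_goals (interval_cases r <;> first | omega | (exfalso; revert h6; decide) | skip)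
  exfalso
  have hm1 : m = 1 := by omega
  subst hm1
  exact hcopN (by decide)


/-- If a finite simple group has order p^2 * q * r with p, q and r prime, then its order is 60. -/
theorem result {G : Type*} [Group G] [Finite G] [IsSimpleGroup G] (p q r : ℕ) (hp : p.Prime) (hq : q.Prime) (hr : r.Prime) (hG : Nat.card G = p ^ 2 * q * r) : Nat.card G = 60 := by
  have hns : ¬ Group.IsSolvable G := by
    intro hs
    have hc := IsSimpleGroup.comm_iff_isSolvable.mpr hs
    letI : CommGroup G := { ‹Group G› with mul_comm := hc }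
    have hpr : (Nat.card G).Prime := IsSimpleGroup.prime_card
    rw [hG] at hpr
    have h1 : p ^ 2 * q * r = p * (p * q * r) := by ring
    rw [h1] at hpr
    refine Nat.not_prime_mul hp.one_lt.ne' ?_ hpr
    intro h
    exact hp.one_lt.ne' (Nat.dvd_one.mp (h ▸ Dvd.intro (q * r) (by ring)))
  have hpq : p ≠ q := by
    rintro rfl
    exact hns (Cfsg.Agent.S0144.result p r 3 1 hp hr (by rw [hG]; ring))
  have hpr : p ≠ r := by
    rintro rfl
    exact hns (Cfsg.Agent.S0144.result p q 3 1 hp hq (by rw [hG]; ring))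
  have hqr : q ≠ r := by
    rintro rfl
    exact hns (Cfsg.Agent.S0144.result p q 2 2 hp hq (by rw [hG]; ring))
  rcases lt_or_gt_of_ne hqr with h | h
  · exact core p q r hp hq hr hG hpq hpr h
  · exact core p r q hp hr hq (by rw [hG]; ring) hpr hpq h

end Cfsg.Agent.S0988
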