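import Cfsg.Statements.S0990
import Mathlib

set_option autoImplicit false
open Cfsg

namespace Cfsg.Agent.S0990

/-- Let p be an odd prime and P a Sylow p-subgroup of the symmetric group on a finite set with at least two elements. Then P is contained in the alternating group, and twice the order of the normalizer of P inside the alternating group equals the order of the normalizer of P in the symmetric group. -/
theorem result {α : Type*} [Fintype α] [DecidableEq α] (hα : 2 ≤ Fintype.card α) (p : ℕ) [Fact p.Prime] (hp : p ≠ 2) (P : Sylow p (Equiv.Perm α)) : (P : Subgroup (Equiv.Perm α)) ≤ alternatingGroup α ∧ 2 * Nat.card ↥(Subgroup.normalizer ((((P : Subgroup (Equiv.Perm α)).subgroupOf (alternatingGroup α) : Subgroup ↥(alternatingGroup α)) : Set ↥(alternatingGroup α)))) = Nat.card ↥(Subgroup.normalizer ((P : Subgroup (Equiv.Perm α)) : Set (Equiv.Perm α))) := by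
  classical
  haveI : Nontrivial α := Fintype.one_lt_card_iff_nontrivial.mp (by omega)
  have hPA : (P : Subgroup (Equiv.Perm α)) ≤ alternatingGroup α := by
    intro σ hσ
    rw [Equiv.Perm.mem_alternatingGroup]
    obtain ⟨k, hk⟩ := P.isPGroup' ⟨σ, hσ⟩
    have hk' : σ ^ (p ^ k) = 1 := by
      have := congrArg Subtype.val hk
      simpa using this
    have h1 : (Equiv.Perm.sign σ) ^ (p ^ k) = 1 := by
      rw [← map_pow, hk', map_one]
    rcases Int.units_eq_one_or (Equiv.Perm.sign σ) with h | h
    · exact h
    · exfalso
      rw [h] at h1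
      have hodd : Odd (p ^ k) := ((Fact.out : p.Prime).odd_of_ne_two hp).pow
      rw [hodd.neg_one_pow] at h1
      exact absurd h1 (by decide)
  refine ⟨hPA, ?_⟩
  set A := alternatingGroup α with hA
  set N := Subgroup.normalizer ((P : Subgroup (Equiv.Perm α)) : Set (Equiv.Perm α)) with hN
  have h1 : Subgroup.normalizer ((((P : Subgroup (Equiv.Perm α)).subgroupOf A : Subgroup ↥A) : Set ↥A))
      = N.subgroupOf A := by
    ext x
    rw [Subgroup.mem_subgroupOf, Subgroup.mem_normalizer_iff, hN, Subgroup.mem_normalizer_iff]
    constructor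
    · intro h y
      constructor
      · intro hy
        exact (h ⟨y, hPA hy⟩).mp hy
      · intro hy
        have hyA : y ∈ A := by
          have h2 : (x : Equiv.Perm α) * y * (x : Equiv.Perm α)⁻¹ ∈ A := hPA hy
          have : y = (x : Equiv.Perm α)⁻¹ * ((x : Equiv.Perm α) * y * (x : Equiv.Perm α)⁻¹) * x := by group
          rw [this]
          exact A.mul_mem (A.mul_mem (A.inv_mem x.2) h2) x.2
        exact (h ⟨y, hyA⟩).mpr hy
    · intro h y
      exact h y
  rw [h1]
  have h2 : N ⊔ A = ⊤ := Sylow.normalizer_sup_eq_top' P hPA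
  have h3 : A.relIndex N = 2 := by
    rw [← Subgroup.relIndex_sup_right, h2, Subgroup.relIndex_top_right, hA,
      alternatingGroup.index_eq_two]
  have h4 : Nat.card (N.subgroupOf A) = Nat.card (A.subgroupOf N) := by
    have e1 : Nat.card (N.subgroupOf A) = Nat.card (N ⊓ A : Subgroup _) := by
      rw [← Subgroup.inf_subgroupOf_right]
      exact Nat.card_congr (Subgroup.subgroupOfEquivOfLe inf_le_right).toEquiv
    have e2 : Nat.card (A.subgroupOf N) = Nat.card (A ⊓ N : Subgroup _) := by
      rw [← Subgroup.inf_subgroupOf_right]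
      exact Nat.card_congr (Subgroup.subgroupOfEquivOfLe inf_le_right).toEquiv
    rw [e1, e2, inf_comm]
  rw [h4, ← h3, Subgroup.relIndex, Subgroup.index_mul_card]

end Cfsg.Agent.S0990
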