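import Cfsg.Statements.S0991

set_option autoImplicit false
open Cfsg

namespace Cfsg.Agent.S0991

/-- Embedding Theorem: if a non-abelian finite simple group has a proper subgroup of index n, then it is isomorphic to a subgroup of the alternating group of degree n. -/
theorem result {G : Type*} [Group G] [Finite G] [IsSimpleGroup G] (hG : ¬ IsMulCommutative G) (H : Subgroup G) (hH : H ≠ ⊤) : ∃ f : G →* ↥(alternatingGroup (Fin H.index)), Function.Injective f := by
  classical
  have e : (G ⧸ H) ≃ Fin H.index := Finite.equivFinOfCardEq rfl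
  let f₀ : G →* Equiv.Perm (Fin H.index) := (e.permCongrHom.toMonoidHom).comp (MulAction.toPermHom G (G ⧸ H))
  have hker : f₀.ker = ⊥ := by
    rcases (f₀.normal_ker).eq_bot_or_eq_top with h | h
    · exact h
    · exfalso
      apply hH
      rw [eq_top_iff]
      intro g _
      have hg : g ∈ f₀.ker := by rw [h]; exact Subgroup.mem_top g
      rw [MonoidHom.mem_ker] at hg
      have h1 : MulAction.toPermHom G (G ⧸ H) g = 1 := by
        apply e.permCongrHom.injective
        rw [map_one]
        exact hg
      have h2 := congrArg (fun σ : Equiv.Perm (G ⧸ H) => σ (QuotientGroup.mk 1)) h1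
      simp only [MulAction.toPermHom_apply, MulAction.toPerm_apply, Equiv.Perm.coe_one, id_eq] at h2
      have h3 : (QuotientGroup.mk (g * 1) : G ⧸ H) = QuotientGroup.mk 1 := h2
      rw [QuotientGroup.eq] at h3
      simpa using h3
  have hinj : Function.Injective f₀ := (MonoidHom.ker_eq_bot_iff f₀).mp hker
  have hsign : ∀ g, f₀ g ∈ alternatingGroup (Fin H.index) := by
    intro g
    rw [Equiv.Perm.mem_alternatingGroup]
    let s : G →* ℤˣ := Equiv.Perm.sign.comp f₀
    rcases (s.normal_ker).eq_bot_or_eq_top with h | h
    · exfalso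
      apply hG
      have hs : Function.Injective s := (MonoidHom.ker_eq_bot_iff s).mp h
      exact ⟨⟨fun a b => hs (by rw [map_mul, map_mul, mul_comm])⟩⟩
    · have hg : g ∈ s.ker := by rw [h]; exact Subgroup.mem_top g
      exact hg
  refine ⟨f₀.codRestrict _ hsign, ?_⟩
  intro a b hab
  apply hinj
  exact congrArg Subtype.val hab

end Cfsg.Agent.S0991
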