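import Cfsg.Statements.S0992
import Mathlib
-- import your own Cfsg.Agent.* helpers here

set_option autoImplicit false
open Cfsg

namespace Cfsg.Agent.S0992

theorem card_mulAut_dvd_six {T : Type*} [Group T] [Finite T] (h4 : Nat.card T = 4) :
    Nat.card (MulAut T) ∣ 6 := by
  classical
  let S : SubMulAction (MulAut T) T :=
    { carrier := {x | x ≠ 1}
      smul_mem' := by
        intro f x hx h
        apply hx
        have h1 : f x = 1 := h
        rw [← map_one f] at h1
        exact f.injective h1 }
  have hinj : Function.Injective (MulAction.toPermHom (MulAut T) S) := by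
    intro f g hfg
    apply MulEquiv.ext
    intro x
    by_cases hx : x = 1
    · rw [hx, map_one, map_one]
    · have := congrArg (fun σ : Equiv.Perm S => ((σ ⟨x, hx⟩ : S) : T)) hfg
      exact this
  have h1 := Subgroup.card_dvd_of_injective _ hinj
  have h2 : Nat.card S = 3 := by
    have : Nat.card S = Set.ncard ({1}ᶜ : Set T) := by
      rw [← Nat.card_coe_set_eq]
      rfl
    rw [this, Set.ncard_compl, h4, Set.ncard_singleton]
  rw [Nat.card_perm, h2] at h1
  exact h1


/-- Let G be a non-abelian finite simple group of even order not divisible by 8, and T a Sylow 2-subgroup. Then T is a Klein four-group and the centralizer of T has index 3 in the normalizer of T. -/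
theorem result {G : Type*} [Group G] [Finite G] [IsSimpleGroup G] (hG : ¬ IsMulCommutative G) (h2 : Even (Nat.card G)) (h8 : ¬ 8 ∣ Nat.card G) (T : Sylow 2 G) : IsKleinFour ↥(T : Subgroup G) ∧ (Subgroup.centralizer ((T : Subgroup G) : Set G)).relIndex (Subgroup.normalizer ((T : Subgroup G) : Set G)) = 3 := by
  classical
  haveI : Fact (Nat.Prime 2) := ⟨Nat.prime_two⟩
  have hX : ¬ (Subgroup.normalizer ((T : Subgroup G) : Set G) ≤
      Subgroup.centralizer ((T : Subgroup G) : Set G)) := by
    intro hP
    have hc := MonoidHom.ker_transferSylow_isComplement' T hP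
    rcases (MonoidHom.normal_ker (MonoidHom.transferSylow T hP)).eq_bot_or_eq_top with h | h
    · rw [h, Subgroup.isComplement'_bot_left] at hc
      apply hG
      constructor
      constructor
      intro a b
      have ha : a ∈ Subgroup.centralizer ((T : Subgroup G) : Set G) :=
        hP (Subgroup.le_normalizer (by rw [hc]; exact Subgroup.mem_top a))
      exact (Subgroup.mem_centralizer_iff.1 ha b (by rw [hc]; exact Subgroup.mem_top b)).symm
    · rw [h, Subgroup.isComplement'_top_left] at hc
      exact T.ne_bot_of_dvd_card h2.two_dvd hc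
  have hcard : Nat.card T = 2 ^ (Nat.card G).factorization 2 := T.card_eq_multiplicity
  have hk2 : (Nat.card G).factorization 2 < 3 := by
    by_contra h
    push_neg at h
    apply h8
    have : 2 ^ 3 ∣ Nat.card G := (pow_dvd_pow 2 h).trans (Nat.ordProj_dvd _ _)
    simpa using this
  have hnc : ¬ IsCyclic T := fun hcyc =>
    hX (IsCyclic.normalizer_le_centralizer ((Nat.minFac_eq_two_iff _).2 h2.two_dvd) hcyc)
  have h4 : Nat.card T = 4 := by
    generalize (Nat.card G).factorization 2 = k at hcard hk2
    interval_cases k
    · exfalso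
      apply hnc
      haveI : Subsingleton T := (Nat.card_eq_one_iff_unique.1 (by simpa using hcard)).1
      infer_instance
    · exfalso
      apply hnc
      exact isCyclic_of_prime_card (p := 2) (by simpa using hcard)
    · simpa using hcard
  have hexp : Monoid.exponent T = 2 :=
    (not_isCyclic_iff_exponent_eq_prime Nat.prime_two (by rw [h4]; norm_num)).1 hnc
  refine ⟨⟨h4, hexp⟩, ?_⟩
  have hri : (Subgroup.centralizer ((T : Subgroup G) : Set G)).relIndex
      (Subgroup.normalizer ((T : Subgroup G) : Set G)) =
      Nat.card (T : Subgroup G).normalizerMonoidHom.range := by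
    rw [Subgroup.relIndex, ← Subgroup.normalizerMonoidHom_ker, Subgroup.index_ker]
  have h1 : (Subgroup.centralizer ((T : Subgroup G) : Set G)).relIndex
      (Subgroup.normalizer ((T : Subgroup G) : Set G)) ∣ 6 := by
    rw [hri]
    exact (Subgroup.card_subgroup_dvd_card _).trans (card_mulAut_dvd_six h4)
  have hodd : ¬ 2 ∣ (Subgroup.centralizer ((T : Subgroup G) : Set G)).relIndex
      (Subgroup.normalizer ((T : Subgroup G) : Set G)) := by
    intro h
    apply T.not_dvd_index
    have hTC : (T : Subgroup G) ≤ Subgroup.centralizer ((T : Subgroup G) : Set G) := by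
      intro a ha
      rw [Subgroup.mem_centralizer_iff]
      intro b hb
      have := IsPGroup.commutative_of_card_eq_prime_sq (p := 2) (G := T) (by rw [h4]; norm_num) ⟨b, hb⟩ ⟨a, ha⟩
      exact congrArg Subtype.val this
    have hTN : (T : Subgroup G) ≤ Subgroup.normalizer ((T : Subgroup G) : Set G) :=
      Subgroup.le_normalizer
    have h5 := Subgroup.relIndex_dvd_of_le_left (Subgroup.normalizer ((T : Subgroup G) : Set G)) hTC
    have h3 : (T : Subgroup G).relIndex (Subgroup.normalizer ((T : Subgroup G) : Set G)) ∣
        (T : Subgroup G).index := ⟨_, (Subgroup.relIndex_mul_index hTN).symm⟩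
    exact h.trans (h5.trans h3)
  have hne1 : (Subgroup.centralizer ((T : Subgroup G) : Set G)).relIndex
      (Subgroup.normalizer ((T : Subgroup G) : Set G)) ≠ 1 := by
    rw [Ne, Subgroup.relIndex_eq_one]; exact hX
  generalize (Subgroup.centralizer ((T : Subgroup G) : Set G)).relIndex
      (Subgroup.normalizer ((T : Subgroup G) : Set G)) = j at h1 hodd hne1
  have hle : j ≤ 6 := Nat.le_of_dvd (by norm_num) h1
  interval_cases j <;> omega

end Cfsg.Agent.S0992
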