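import Cfsg.Statements.S0995
import Mathlib
import Cfsg.Agent.Lib.Helper21.InvPairs

set_option autoImplicit false
open Cfsg

namespace Cfsg.Agent.S0995

/-- Let G be a finite perfect group containing an element z of prime order p whose centralizer is the cyclic group it generates. Let t be the number of conjugacy classes of elements of order p. Then t divides p - 1, the number of Sylow p-subgroups has the form 1 + n * p, and |G| * t = (p - 1) * p * (1 + n * p). -/
theorem result {G : Type*} [Group G] [Finite G] (hperf : commutator G = ⊤) (p : ℕ) [Fact p.Prime] (z : G) (hz : orderOf z = p) (hC : Subgroup.centralizer ({z} : Set G) = Subgroup.zpowers z) : ∃ n t : ℕ, t = Nat.card {c : ConjClasses G // ∃ g : G, ConjClasses.mk g = c ∧ orderOf g = p} ∧ t ∣ p - 1 ∧ Nat.card (Sylow p G) = 1 + n * p ∧ Nat.card G * t = (p - 1) * p * (1 + n * p) := by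
  classical
  have hp : p.Prime := Fact.out
  have hz1 : z ≠ 1 := by
    intro h; rw [h, orderOf_one] at hz; exact hp.one_lt.ne hz
  have hZcard : Nat.card (Subgroup.zpowers z) = p := by rw [Nat.card_zpowers, hz]
  -- commuting with a generator
  have hgen : ∀ a b : G, orderOf b = p → a ∈ Subgroup.zpowers b → a ≠ 1 → b ∈ Subgroup.zpowers a := by
    intro a b hb ha ha1
    have hc : Nat.card (Subgroup.zpowers b) = p := by rw [Nat.card_zpowers, hb]
    have h1 : (⟨b, Subgroup.mem_zpowers b⟩ : Subgroup.zpowers b) ∈
        Subgroup.zpowers (⟨a, ha⟩ : Subgroup.zpowers b) :=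
      mem_zpowers_of_prime_card hc (fun h => ha1 (congrArg Subtype.val h))
    obtain ⟨k, hk⟩ := Subgroup.mem_zpowers_iff.mp h1
    refine Subgroup.mem_zpowers_iff.mpr ⟨k, ?_⟩
    have := congrArg Subtype.val hk
    simpa using this
  -- the Sylow subgroup
  obtain ⟨P, hP⟩ : ∃ P : Sylow p G, (P : Subgroup G) = Subgroup.zpowers z := by
    have hpg : IsPGroup p (Subgroup.zpowers z) := IsPGroup.of_card (n := 1) (by rw [hZcard, pow_one])
    obtain ⟨P, hP⟩ := hpg.exists_le_sylow
    refine ⟨P, le_antisymm ?_ hP⟩
    have hzP : z ∈ (P : Subgroup G) := hP (Subgroup.mem_zpowers z)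
    haveI : Nontrivial ↥(P : Subgroup G) := ⟨⟨⟨z, hzP⟩, 1, fun h => hz1 (congrArg Subtype.val h)⟩⟩
    haveI := P.isPGroup'.center_nontrivial
    obtain ⟨⟨c, hc⟩, hc1⟩ := exists_ne (1 : Subgroup.center ↥(P : Subgroup G))
    have hc1' : (c : G) ≠ 1 := fun h => hc1 (Subtype.ext (Subtype.ext h))
    rw [Subgroup.mem_center_iff] at hc
    have hcz : (c : G) ∈ Subgroup.zpowers z := by
      rw [← hC, Subgroup.mem_centralizer_singleton_iff]
      exact (congrArg Subtype.val (hc ⟨z, hzP⟩)).symm
    obtain ⟨k, hk⟩ := Subgroup.mem_zpowers_iff.mp (hgen c z hz hcz hc1')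
    intro y hy
    rw [← hC, Subgroup.mem_centralizer_singleton_iff, ← hk]
    have h1 : y * (c : G) = (c : G) * y := congrArg Subtype.val (hc ⟨y, hy⟩)
    exact ((show Commute y (c : G) from h1).zpow_right k).eq
  have hPcard : Nat.card (P : Subgroup G) = p := by rw [hP, hZcard]
  have hcard : ∀ R : Sylow p G, Nat.card (R : Subgroup G) = p := fun R =>
    (R.card_eq_multiplicity.trans P.card_eq_multiplicity.symm).trans hPcard
  have hfac : p ^ (Nat.card G).factorization p = p := by
    rw [← P.card_eq_multiplicity]; exact hPcard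
  have hzpR : ∀ (a : G) (R : Sylow p G), orderOf a = p → a ∈ (R : Subgroup G) →
      Subgroup.zpowers a = (R : Subgroup G) := by
    intro a R ha haR
    apply Subgroup.eq_of_le_of_card_ge
    · rw [Subgroup.zpowers_le]; exact haR
    · rw [hcard, Nat.card_zpowers, ha]
  -- centralizers of elements of order p
  have hcent : ∀ a : G, orderOf a = p → Nat.card (Subgroup.centralizer ({a} : Set G)) = p := by
    intro a ha
    have hpg : IsPGroup p (Subgroup.zpowers a) :=
      IsPGroup.of_card (n := 1) (by rw [Nat.card_zpowers, ha, pow_one])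
    obtain ⟨R, hR⟩ := hpg.exists_le_sylow
    obtain ⟨g, rfl⟩ := MulAction.exists_smul_eq G P R
    have haR := hR (Subgroup.mem_zpowers a)
    rw [Sylow.coe_subgroup_smul, Subgroup.mem_pointwise_smul_iff_inv_smul_mem] at haR
    have e2 : (MulAut.conj g)⁻¹ • a = g⁻¹ * a * g := by
      simp [MulAut.smul_def]
    rw [e2, hP] at haR
    have ha'ord : orderOf (g⁻¹ * a * g) = p := by
      have : g⁻¹ * a * g = MulAut.conj g⁻¹ a := by simp
      rw [this, (MulAut.conj g⁻¹).orderOf_eq, ha]
    have ha'1 : g⁻¹ * a * g ≠ 1 := by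
      intro h; rw [h, orderOf_one] at ha'ord; exact hp.one_lt.ne ha'ord
    obtain ⟨k, hk⟩ := Subgroup.mem_zpowers_iff.mp (hgen _ z hz haR ha'1)
    have hzz : Subgroup.zpowers (g⁻¹ * a * g) = Subgroup.zpowers z := by
      rw [← hP]
      apply hzpR _ P ha'ord
      rw [hP]; exact haR
    have heq : Subgroup.centralizer ({a} : Set G) = Subgroup.zpowers a := by
      apply le_antisymm
      · intro y hy
        rw [Subgroup.mem_centralizer_singleton_iff] at hy
        have h1 : Commute (g⁻¹ * y * g) (g⁻¹ * a * g) := by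
          show g⁻¹ * y * g * (g⁻¹ * a * g) = g⁻¹ * a * g * (g⁻¹ * y * g)
          calc g⁻¹ * y * g * (g⁻¹ * a * g) = g⁻¹ * (y * a) * g := by group
            _ = g⁻¹ * (a * y) * g := by rw [hy]
            _ = g⁻¹ * a * g * (g⁻¹ * y * g) := by group
        have h2 : g⁻¹ * y * g ∈ Subgroup.centralizer ({z} : Set G) := by
          rw [Subgroup.mem_centralizer_singleton_iff, ← hk]
          exact (h1.zpow_right k).eq
        rw [hC, ← hzz] at h2
        obtain ⟨j, hj⟩ := Subgroup.mem_zpowers_iff.mp h2
        refine Subgroup.mem_zpowers_iff.mpr ⟨j, ?_⟩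
        have h3 : (g⁻¹ * a * g) ^ j = g⁻¹ * a ^ j * g := by
          have : g⁻¹ * a * g = MulAut.conj g⁻¹ a := by simp
          rw [this, ← map_zpow]; simp
        rw [h3] at hj
        have : a ^ j = g * (g⁻¹ * a ^ j * g) * g⁻¹ := by group
        rw [this, hj]; group
      · rw [Subgroup.zpowers_le, Subgroup.mem_centralizer_singleton_iff]
    rw [heq, Nat.card_zpowers, ha]
  -- the number of elements of order p
  have hcount : Nat.card {a : G // orderOf a = p} = Nat.card (Sylow p G) * (p - 1) := by
    let f : {a : G // orderOf a = p} → Sylow p G := fun a =>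
      Sylow.ofCard (Subgroup.zpowers a.1) (by rw [Nat.card_zpowers, a.2, hfac])
    haveI : Fintype (Sylow p G) := Fintype.ofFinite _
    rw [← Nat.card_congr (Equiv.sigmaFiberEquiv f), Nat.card_sigma]
    have hfib : ∀ R : Sylow p G, Nat.card {t : {a : G // orderOf a = p} // f t = R} = p - 1 := by
      intro R
      have h1 : Nat.card {a : ↥(R : Subgroup G) // a ≠ 1} = p - 1 := by
        haveI : Fintype ↥(R : Subgroup G) := Fintype.ofFinite _
        rw [Nat.card_eq_fintype_card, Fintype.card_subtype_compl, Fintype.card_subtype_eq,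
          ← Nat.card_eq_fintype_card, hcard]
      rw [← h1]
      apply Nat.card_congr
      refine
        { toFun := fun t => ⟨⟨t.1.1, by
            have h2 : ((f t.1 : Sylow p G) : Subgroup G) = R := by rw [t.2]
            rw [← h2]
            exact Subgroup.mem_zpowers _⟩, by
            intro h
            have h3 : t.1.1 = 1 := congrArg Subtype.val h
            have h4 := t.1.2
            rw [h3, orderOf_one] at h4
            exact hp.one_lt.ne h4⟩
          invFun := fun a => ⟨⟨a.1.1, by
            have h2 : orderOf a.1.1 ∣ p := by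
              have := orderOf_dvd_natCard a.1
              rwa [← Subgroup.orderOf_coe, hcard R] at this
            rcases (Nat.dvd_prime hp).mp h2 with h | h
            · exact absurd (Subtype.ext (orderOf_eq_one_iff.mp h)) a.2
            · exact h⟩, by
            apply Sylow.ext
            apply hzpR _ R _ a.1.2
            have h2 : orderOf a.1.1 ∣ p := by
              have := orderOf_dvd_natCard a.1
              rwa [← Subgroup.orderOf_coe, hcard R] at this
            rcases (Nat.dvd_prime hp).mp h2 with h | h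
            · exact absurd (Subtype.ext (orderOf_eq_one_iff.mp h)) a.2
            · exact h⟩
          left_inv := fun t => rfl
          right_inv := fun a => rfl }
    rw [Finset.sum_congr rfl (fun s _ => hfib s), Finset.sum_const, Finset.card_univ, smul_eq_mul,
      Nat.card_eq_fintype_card (α := Sylow p G)]
  have hmain := Cfsg.Agent.Lib.Helper21.card_invPairs G (fun a => orderOf a = p) (by
    intro c a ha
    have : c * a * c⁻¹ = MulAut.conj c a := by simp
    rw [this, (MulAut.conj c).orderOf_eq, ha])
  rw [Cfsg.Agent.Lib.Helper21.card_invPairs_of_const G (fun a => orderOf a = p) p hcent, hcount] at hmain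
  have hmod := card_sylow_modEq_one p G
  have hpos : 0 < Nat.card (Sylow p G) := Nat.card_pos
  obtain ⟨n, hn⟩ : ∃ n, Nat.card (Sylow p G) = 1 + n * p := by
    have h1 : p ∣ Nat.card (Sylow p G) - 1 := (Nat.modEq_iff_dvd' hpos).mp hmod.symm
    obtain ⟨n, hn⟩ := h1
    exact ⟨n, by rw [mul_comm n p, ← hn]; omega⟩
  refine ⟨n, _, rfl, ?_, hn, ?_⟩
  · set t := Nat.card {c : ConjClasses G // ∃ g : G, ConjClasses.mk g = c ∧ orderOf g = p} with ht
    have h1 := P.card_eq_index_normalizer
    have h2 := (Subgroup.normalizer ((P : Subgroup G) : Set G)).card_mul_index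
    obtain ⟨m, hm⟩ : p ∣ Nat.card (Subgroup.normalizer ((P : Subgroup G) : Set G)) := by
      have := Subgroup.card_dvd_of_le (Subgroup.le_normalizer (H := (P : Subgroup G)))
      rwa [hPcard] at this
    refine ⟨m, ?_⟩
    have h3 : Nat.card G = p * m * Nat.card (Sylow p G) := by
      rw [← h2, hm, h1]
      rfl
    rw [h3] at hmain
    have h4 : (Nat.card (Sylow p G) * p) * (p - 1) = (Nat.card (Sylow p G) * p) * (t * m) := by
      calc (Nat.card (Sylow p G) * p) * (p - 1) = Nat.card (Sylow p G) * (p - 1) * p := by ring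
        _ = t * (p * m * Nat.card (Sylow p G)) := hmain
        _ = (Nat.card (Sylow p G) * p) * (t * m) := by ring
    exact Nat.eq_of_mul_eq_mul_left (Nat.mul_pos hpos hp.pos) h4
  · rw [← hn, mul_comm (Nat.card G), ← hmain]
    ring

end Cfsg.Agent.S0995
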