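import Cfsg.Statements.S1002
import Mathlib
import Cfsg.Agent.S0071
import Cfsg.Agent.Lib.Helper21.SimpleOrd
import Cfsg.Agent.Lib.Helper21.MetaNPC

set_option autoImplicit false
open Cfsg

namespace Cfsg.Agent.S1002

open Cfsg.Agent.Lib.Helper21

theorem mem_sylow_of_normalizer {G : Type*} [Group G] {p : ℕ} (P : Sylow p G) (k : G)
    (hk : k ∈ Subgroup.normalizer ((P : Subgroup G) : Set G))
    (hkp : IsPGroup p (Subgroup.zpowers k)) : k ∈ (P : Subgroup G) := by
  have h1 : IsPGroup p (Subgroup.zpowers k ⊔ (P : Subgroup G) : Subgroup G) :=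
    IsPGroup.to_sup_of_normal_right' hkp P.2 (Subgroup.zpowers_le.mpr hk)
  have h2 := P.3 h1 le_sup_right
  rw [← h2]
  exact (le_sup_left : Subgroup.zpowers k ≤ _) (Subgroup.mem_zpowers k)

theorem prime_dvd_cases (u : ℕ) (hu : u.Prime) (hd : u ∣ 1004913) :
    u = 3 ∨ u = 7 ∨ u = 13 ∨ u = 409 := by
  have h : (1004913 : ℕ) = 3 ^ 3 * 7 * 13 * 409 := by norm_num
  rw [h] at hd
  rcases (Nat.Prime.dvd_mul hu).mp hd with h | h
  · rcases (Nat.Prime.dvd_mul hu).mp h with h | h
    · rcases (Nat.Prime.dvd_mul hu).mp h with h | h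
      · exact Or.inl ((Nat.prime_dvd_prime_iff_eq hu Nat.prime_three).mp (hu.dvd_of_dvd_pow h))
      · exact Or.inr (Or.inl ((Nat.prime_dvd_prime_iff_eq hu (by norm_num)).mp h))
    · exact Or.inr (Or.inr (Or.inl ((Nat.prime_dvd_prime_iff_eq hu (by norm_num)).mp h)))
  · exact Or.inr (Or.inr (Or.inr ((Nat.prime_dvd_prime_iff_eq hu (by norm_num)).mp h)))

theorem sylow3_comm {G : Type*} [Group G] [Finite G] [IsSimpleGroup G]
    (hG : Nat.card G = 1004913) (S : Sylow 3 G) :
    (S : Subgroup G) ≤ Subgroup.centralizer ((S : Subgroup G) : Set G) := by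
  classical
  have hS : Nat.card (S : Subgroup G) = 3 ^ 3 :=
    card_sylow_of_card_eq S 3 37219 (by rw [hG]; norm_num) (by decide)
  have hno : ¬ ∃ N : Subgroup G, N.Normal ∧ N.IsComplement' (S : Subgroup G) := by
    rintro ⟨N, hN, hc⟩
    have h1 := hc.card_mul_card
    rw [hS, hG] at h1
    rcases hN.eq_bot_or_eq_top with rfl | rfl
    · rw [Subgroup.card_bot] at h1; omega
    · rw [Subgroup.card_top, hG] at h1; omega
  rw [Cfsg.Agent.S0071.result S] at hno
  push Not at hno
  obtain ⟨Q, hQS, g, hgN, hgcop, hgC⟩ := hno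
  have hex : ∃ k ∈ Subgroup.normalizer (Q : Set G), ∃ s a : ℕ, s.Prime ∧ s ≠ 3 ∧
      orderOf k = s ^ a ∧ k ∉ Subgroup.centralizer (Q : Set G) := by
    by_contra hcon
    push Not at hcon
    exact hgC (mem_of_prime_power_parts (Subgroup.centralizer (Q : Set G))
      (Subgroup.normalizer (Q : Set G)) 3
      (fun k hk s a hs hs3 ho => hcon k hk s a hs hs3 ho) g hgN hgcop)
  obtain ⟨k, hkN, s, a, hs, hs3, hord, hkC⟩ := hex
  haveI : Fact s.Prime := ⟨hs⟩
  have hkp : IsPGroup s (Subgroup.zpowers k) :=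
    IsPGroup.of_card (n := a) (by rw [Nat.card_zpowers, hord])
  have ha : a ≠ 0 := by
    rintro rfl
    rw [pow_zero, orderOf_eq_one_iff] at hord
    rw [hord] at hkC
    exact hkC (Subgroup.one_mem _)
  have hsG : s ∣ 1004913 := by
    rw [← hG]
    exact ((dvd_pow_self s ha).trans (hord ▸ dvd_rfl)).trans (orderOf_dvd_natCard k)
  have h1 := card_modEq_inf_centralizer s k hkp Q hkN
  have h2 : Nat.card Q ∣ 3 ^ 3 := hS ▸ Subgroup.card_dvd_of_le hQS
  have h3 : Nat.card (Q ⊓ Subgroup.centralizer {k} : Subgroup G) ∣ 3 ^ 3 :=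
    (Subgroup.card_dvd_of_le inf_le_left).trans h2
  have h3' : Nat.card (Q ⊓ Subgroup.centralizer {k} : Subgroup G) ≤ Nat.card Q :=
    Nat.le_of_dvd Nat.card_pos (Subgroup.card_dvd_of_le inf_le_left)
  have h4 : Nat.card (Q ⊓ Subgroup.centralizer {k} : Subgroup G) ≠ Nat.card Q := by
    intro h
    have h5 : (Q ⊓ Subgroup.centralizer {k} : Subgroup G) = Q :=
      Subgroup.eq_of_le_of_card_ge inf_le_left h.ge
    apply hkC
    rw [Subgroup.mem_centralizer_iff]
    intro x hx
    have h6 : x ∈ Subgroup.centralizer ({k} : Set G) := by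
      rw [← h5] at hx; exact hx.2
    exact (Subgroup.mem_centralizer_singleton_iff.mp h6)
  obtain ⟨i, hi, hi'⟩ := (Nat.dvd_prime_pow Nat.prime_three).mp h2
  obtain ⟨j, hj, hj'⟩ := (Nat.dvd_prime_pow Nat.prime_three).mp h3
  have hfin : s = 13 ∧ Nat.card Q = 27 ∧
      Nat.card (Q ⊓ Subgroup.centralizer {k} : Subgroup G) = 1 := by
    rw [hi', hj'] at h1 h4 h3'
    rw [hi', hj']
    rcases prime_dvd_cases s hs hsG with rfl | rfl | rfl | rfl
    · exact absurd rfl hs3
    all_goals
      interval_cases i <;> interval_cases j <;> simp_all [Nat.ModEq]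
  obtain ⟨rfl, hQ27, hQk⟩ := hfin
  have hQeq : Q = (S : Subgroup G) :=
    Subgroup.eq_of_le_of_card_ge hQS (by rw [hS, hQ27]; norm_num)
  subst hQeq
  set Z : Subgroup G := (S : Subgroup G) ⊓ Subgroup.centralizer ((S : Subgroup G) : Set G) with hZ
  have hkZ : k ∈ Subgroup.normalizer (Z : Set G) := by
    have key : ∀ y ∈ Subgroup.normalizer ((S : Subgroup G) : Set G), ∀ x ∈ Z,
        y * x * y⁻¹ ∈ Z := by
      intro y hy x hx
      refine Subgroup.mem_inf.mpr ⟨(Subgroup.mem_normalizer_iff.mp hy x).mp hx.1, ?_⟩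
      rw [Subgroup.mem_centralizer_iff]
      intro w hw
      have hw' : y⁻¹ * w * y ∈ (S : Subgroup G) := by
        have := (Subgroup.mem_normalizer_iff.mp (inv_mem hy) w).mp hw
        simpa using this
      have hc := Subgroup.mem_centralizer_iff.mp hx.2 _ hw'
      calc w * (y * x * y⁻¹) = y * ((y⁻¹ * w * y) * x) * y⁻¹ := by group
        _ = y * (x * (y⁻¹ * w * y)) * y⁻¹ := by rw [hc]
        _ = y * x * y⁻¹ * w := by group
    rw [Subgroup.mem_normalizer_iff]
    intro x
    constructor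
    · exact key k hkN x
    · intro hx
      have := key k⁻¹ (inv_mem hkN) _ hx
      simpa [mul_assoc] using this
  have h7 := card_modEq_inf_centralizer 13 k hkp Z hkZ
  have h8 : (Z ⊓ Subgroup.centralizer {k} : Subgroup G) = ⊥ := by
    have h : ((S : Subgroup G) ⊓ Subgroup.centralizer {k} : Subgroup G) = ⊥ :=
      Subgroup.card_eq_one.mp hQk
    rw [eq_bot_iff, ← h]
    exact inf_le_inf_right _ inf_le_left
  rw [h8, Subgroup.card_bot] at h7
  have h9 : Nat.card Z ∣ 3 ^ 3 := hS ▸ Subgroup.card_dvd_of_le inf_le_left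
  have h10 : Nat.card Z ≠ 1 := by
    intro h
    have hZbot : Z = ⊥ := Subgroup.card_eq_one.mp h
    haveI : Nontrivial (S : Subgroup G) :=
      Finite.one_lt_card_iff_nontrivial.mp (by rw [hS]; norm_num)
    haveI := IsPGroup.center_nontrivial S.2
    obtain ⟨⟨z, hzc⟩, hz1⟩ := exists_ne (1 : Subgroup.center (S : Subgroup G))
    have hzZ : (z : G) ∈ Z := by
      refine Subgroup.mem_inf.mpr ⟨z.2, ?_⟩
      rw [Subgroup.mem_centralizer_iff]
      intro w hw
      exact congrArg Subtype.val (Subgroup.mem_center_iff.mp hzc ⟨w, hw⟩)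
    rw [hZbot, Subgroup.mem_bot] at hzZ
    exact hz1 (Subtype.ext (Subtype.ext hzZ))
  obtain ⟨i', hi2, hi3⟩ := (Nat.dvd_prime_pow Nat.prime_three).mp h9
  have h11 : Nat.card Z = 27 := by
    rw [hi3] at h7 h10 ⊢
    interval_cases i'
    · exact absurd (by norm_num) h10
    · exact absurd h7 (by decide)
    · exact absurd h7 (by decide)
    · norm_num
  have h12 : Z = (S : Subgroup G) :=
    Subgroup.eq_of_le_of_card_ge inf_le_left (by rw [hS, h11]; norm_num)
  calc (S : Subgroup G) = Z := h12.symm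
    _ ≤ _ := inf_le_right


/-- No finite simple group has order 1004913 = 3^3 * 7 * 13 * 409. -/
theorem result {G : Type*} [Group G] [Finite G] [IsSimpleGroup G] : Nat.card G ≠ 1004913 := by
  intro hG
  classical
  haveI : Fact (Nat.Prime 409) := ⟨by norm_num⟩
  have hcard409 : ∀ R : Sylow 409 G, Nat.card (R : Subgroup G) = 409 := by
    intro R
    have := card_sylow_of_card_eq R 1 2457 (by rw [hG]; norm_num) (by decide)
    simpa using this
  let R : Sylow 409 G := default
  have hR := hcard409 R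
  have h1 := card_normalizer_mul_card_sylow R
  have h2 : Nat.card (Sylow 409 G) ≡ 1 [MOD 409] := card_sylow_modEq_one 409 G
  have h3 : Nat.card (Sylow 409 G) ≠ 1 :=
    card_sylow_ne_one_of_simple R (by rw [hR]; norm_num) (by rw [hR, hG]; norm_num)
  have h4 : 409 ∣ Nat.card (Subgroup.normalizer ((R : Subgroup G) : Set G)) := by
    have := Subgroup.card_dvd_of_le (Subgroup.le_normalizer (H := (R : Subgroup G)))
    rwa [hR] at this
  obtain ⟨m, hm⟩ := h4
  have h5 : m * Nat.card (Sylow 409 G) = 2457 := by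
    rw [hm, hG] at h1
    have : 409 * (m * Nat.card (Sylow 409 G)) = 409 * 2457 := by rw [← mul_assoc, h1]
    exact Nat.eq_of_mul_eq_mul_left (by norm_num) this
  have h6 : Nat.card (Sylow 409 G) = 819 ∧ m = 3 := by
    generalize Nat.card (Sylow 409 G) = n at *
    have hn : n ≤ 2457 := Nat.le_of_dvd (by norm_num) (Dvd.intro_left _ h5)
    obtain ⟨j, hj⟩ : ∃ j, n = 409 * j + 1 := ⟨n / 409, by
      have := Nat.div_add_mod n 409
      unfold Nat.ModEq at h2
      omega⟩
    have hj6 : j ≤ 6 := by omega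
    subst hj
    interval_cases j <;> omega
  obtain ⟨hn819, rfl⟩ := h6
  have hNR : Nat.card (Subgroup.normalizer ((R : Subgroup G) : Set G)) = 1227 := by
    rw [hm]
  have hnotNC : ¬ Subgroup.normalizer ((R : Subgroup G) : Set G) ≤
      Subgroup.centralizer ((R : Subgroup G) : Set G) := fun h =>
    false_of_simple_of_normalizer_le_centralizer R h (by rw [hR]; norm_num)
      (by rw [hR, hG]; norm_num)
  obtain ⟨x, hx⟩ := exists_prime_orderOf_dvd_card'
    (G := ↥(Subgroup.normalizer ((R : Subgroup G) : Set G))) 3 (by rw [hNR]; decide)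
  obtain ⟨g, hgN⟩ := x
  have hg3 : orderOf g = 3 := by rwa [Subgroup.orderOf_mk] at hx
  have hgp : IsPGroup 3 (Subgroup.zpowers g) :=
    IsPGroup.of_card (n := 1) (by rw [Nat.card_zpowers, hg3]; norm_num)
  obtain ⟨S', hS'⟩ := hgp.exists_le_sylow
  have hgS' : g ∈ (S' : Subgroup G) := hS' (Subgroup.mem_zpowers g)
  have hcomm := sylow3_comm hG S'
  have hS'card : Nat.card (S' : Subgroup G) = 3 ^ 3 :=
    card_sylow_of_card_eq S' 3 37219 (by rw [hG]; norm_num) (by decide)
  have hprime409 : Nat.Prime 409 := by norm_num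
  -- key claim
  have key : ∀ R1 : Sylow 409 G, R1 ≠ R → g • R1 = R1 → ∀ w ∈ (R : Subgroup G),
      g • (w • R1) = w • R1 → w = 1 := by
    intro R1 hne hg1 w hw hgw
    by_contra hw1
    set M : Subgroup G := Subgroup.normalizer ((R : Subgroup G) : Set G) ⊓
      Subgroup.normalizer ((R1 : Subgroup G) : Set G) with hM
    have hwN : w ∈ Subgroup.normalizer ((R : Subgroup G) : Set G) := Subgroup.le_normalizer hw
    have hgM : g ∈ M := Subgroup.mem_inf.mpr ⟨hgN, Sylow.smul_eq_iff_mem_normalizer.mp hg1⟩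
    have hg'M : w⁻¹ * g * w ∈ M := by
      refine Subgroup.mem_inf.mpr ⟨mul_mem (mul_mem (inv_mem hwN) hgN) hwN, ?_⟩
      apply Sylow.smul_eq_iff_mem_normalizer.mp
      rw [mul_smul, mul_smul, hgw, inv_smul_smul]
    have hMcard : Nat.card M ∣ 3 * 409 := by
      have := Subgroup.card_dvd_of_le (inf_le_left : M ≤ Subgroup.normalizer ((R : Subgroup G) : Set G))
      rwa [hNR] at this
    have h409 : ¬ 409 ∣ Nat.card M := by
      intro hd
      obtain ⟨⟨u, huM⟩, hu⟩ := exists_prime_orderOf_dvd_card' (G := ↥M) 409 hd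
      rw [Subgroup.orderOf_mk] at hu
      have hup : IsPGroup 409 (Subgroup.zpowers u) :=
        IsPGroup.of_card (n := 1) (by rw [Nat.card_zpowers, hu]; norm_num)
      have huR : u ∈ (R : Subgroup G) := mem_sylow_of_normalizer R u (Subgroup.mem_inf.mp huM).1 hup
      have huR1 : u ∈ (R1 : Subgroup G) := mem_sylow_of_normalizer R1 u (Subgroup.mem_inf.mp huM).2 hup
      have e1 : Subgroup.zpowers u = (R : Subgroup G) :=
        Subgroup.eq_of_le_of_card_ge (Subgroup.zpowers_le.mpr huR)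
          (by rw [hR, Nat.card_zpowers, hu])
      have e2 : Subgroup.zpowers u = (R1 : Subgroup G) :=
        Subgroup.eq_of_le_of_card_ge (Subgroup.zpowers_le.mpr huR1)
          (by rw [hcard409 R1, Nat.card_zpowers, hu])
      exact hne (Sylow.ext (e2.symm.trans e1))
    have hM3 : Nat.card M ∣ 3 :=
      (((Nat.Prime.coprime_iff_not_dvd hprime409).mpr h409).symm).dvd_of_dvd_mul_right hMcard
    have hMeq : Subgroup.zpowers g = M :=
      Subgroup.eq_of_le_of_card_ge (Subgroup.zpowers_le.mpr hgM)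
        (by rw [Nat.card_zpowers, hg3]; exact Nat.le_of_dvd (by norm_num) hM3)
    have hc1 : w⁻¹ * g * w * g⁻¹ ∈ Subgroup.zpowers g := by
      rw [hMeq]; exact mul_mem hg'M (inv_mem hgM)
    have hc2 : w⁻¹ * g * w * g⁻¹ ∈ (R : Subgroup G) := by
      have h7 : g * w * g⁻¹ ∈ (R : Subgroup G) := (Subgroup.mem_normalizer_iff.mp hgN w).mp hw
      have h8 : w⁻¹ * g * w * g⁻¹ = w⁻¹ * (g * w * g⁻¹) := by group
      rw [h8]; exact mul_mem (inv_mem hw) h7
    have hc : w⁻¹ * g * w * g⁻¹ = 1 := by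
      have o1 : orderOf (w⁻¹ * g * w * g⁻¹) ∣ 3 := by
        have := orderOf_dvd_natCard (⟨_, hc1⟩ : Subgroup.zpowers g)
        rwa [Subgroup.orderOf_mk, Nat.card_zpowers, hg3] at this
      have o2 : orderOf (w⁻¹ * g * w * g⁻¹) ∣ 409 := by
        have := orderOf_dvd_natCard (⟨_, hc2⟩ : (R : Subgroup G))
        rwa [Subgroup.orderOf_mk, hR] at this
      have o3 : orderOf (w⁻¹ * g * w * g⁻¹) ∣ Nat.gcd 3 409 := Nat.dvd_gcd o1 o2
      have o4 : Nat.gcd 3 409 = 1 := by norm_num
      rw [o4, Nat.dvd_one, orderOf_eq_one_iff] at o3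
      exact o3
    have hgw' : g * w = w * g := by
      calc g * w = w * (w⁻¹ * g * w * g⁻¹) * g := by group
        _ = w * g := by rw [hc, mul_one]
    have hwgen : Subgroup.zpowers w = (R : Subgroup G) := by
      apply Subgroup.eq_of_le_of_card_ge (Subgroup.zpowers_le.mpr hw)
      rw [hR, Nat.card_zpowers]
      have o2 : orderOf w ∣ 409 := by
        have := orderOf_dvd_natCard (⟨w, hw⟩ : (R : Subgroup G))
        rwa [Subgroup.orderOf_mk, hR] at this
      rcases (Nat.dvd_prime hprime409).mp o2 with h | h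
      · exact absurd (orderOf_eq_one_iff.mp h) hw1
      · rw [h]
    set D : Subgroup G := Subgroup.normalizer ((R : Subgroup G) : Set G) ⊓
      Subgroup.centralizer ((R : Subgroup G) : Set G) with hD
    have hgD : g ∈ D := by
      refine Subgroup.mem_inf.mpr ⟨hgN, ?_⟩
      rw [Subgroup.mem_centralizer_iff]
      intro y hy
      rw [← hwgen] at hy
      obtain ⟨e, rfl⟩ := Subgroup.mem_zpowers_iff.mp hy
      exact ((show Commute g w from hgw').zpow_right e).eq.symm
    have hRD : (R : Subgroup G) ≤ D := by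
      intro y hy
      refine Subgroup.mem_inf.mpr ⟨Subgroup.le_normalizer hy, ?_⟩
      rw [Subgroup.mem_centralizer_iff]
      intro y' hy'
      rw [← hwgen] at hy hy'
      obtain ⟨e, rfl⟩ := Subgroup.mem_zpowers_iff.mp hy
      obtain ⟨e', rfl⟩ := Subgroup.mem_zpowers_iff.mp hy'
      rw [← zpow_add, ← zpow_add, add_comm]
    have d1 : 409 ∣ Nat.card D := hR ▸ Subgroup.card_dvd_of_le hRD
    have d2 : 3 ∣ Nat.card D := by
      have := Subgroup.card_dvd_of_le (Subgroup.zpowers_le.mpr hgD)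
      rwa [Nat.card_zpowers, hg3] at this
    have d3 : 3 * 409 ∣ Nat.card D := Nat.Coprime.mul_dvd_of_dvd_of_dvd (by norm_num) d2 d1
    have hDeq : D = Subgroup.normalizer ((R : Subgroup G) : Set G) :=
      Subgroup.eq_of_le_of_card_ge inf_le_left
        (by rw [hNR]; exact Nat.le_of_dvd Nat.card_pos d3)
    exact hnotNC (hDeq ▸ inf_le_right)
  -- the orbit
  set O : Set (Sylow 409 G) := MulAction.orbit (S' : Subgroup G) R with hO
  have hOfix : ∀ R1 ∈ O, g • R1 = R1 := by
    rintro _ ⟨s, rfl⟩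
    have hsg : g * (s : G) = (s : G) * g :=
      (Subgroup.mem_centralizer_iff.mp (hcomm hgS') (s : G) s.2).symm
    show g • ((s : G) • R) = (s : G) • R
    rw [← mul_smul, hsg, mul_smul, Sylow.smul_eq_iff_mem_normalizer.mpr hgN]
  have hOcard : 9 ≤ O.ncard := by
    have e1 := MulAction.index_stabilizer (S' : Subgroup G) R
    have e2 := (MulAction.stabilizer (S' : Subgroup G) R).card_mul_index
    rw [e1, hS'card] at e2
    have e3 : Nat.card (MulAction.stabilizer (S' : Subgroup G) R) ∣ 27 := ⟨_, by rw [e2]; norm_num⟩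
    have e4 : Nat.card (MulAction.stabilizer (S' : Subgroup G) R) ∣ 1227 := by
      rw [← hNR, ← Subgroup.card_map_of_injective (S' : Subgroup G).subtype_injective]
      apply Subgroup.card_dvd_of_le
      rintro _ ⟨y, hy, rfl⟩
      exact Sylow.smul_eq_iff_mem_normalizer.mp hy
    have e5 : Nat.card (MulAction.stabilizer (S' : Subgroup G) R) ∣ Nat.gcd 27 1227 :=
      Nat.dvd_gcd e3 e4
    have e6 : Nat.gcd 27 1227 = 3 := by norm_num
    rw [e6] at e5
    have e7 := Nat.le_of_dvd (by norm_num) e5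
    rw [← hO] at e2
    generalize Nat.card (MulAction.stabilizer (S' : Subgroup G) R) = a at *
    generalize O.ncard = b at *
    by_contra hb
    push Not at hb
    have : a * b ≤ 3 * 8 := Nat.mul_le_mul e7 (by omega)
    omega
  have hRO : R ∈ O := MulAction.mem_orbit_self R
  set O' : Set (Sylow 409 G) := O \ {R} with hO'
  have hO'card : 8 ≤ O'.ncard := by
    have h9 : O'.ncard = O.ncard - 1 := Set.ncard_sdiff_singleton_of_mem hRO
    omega
  let f : ↥(R : Subgroup G) × ↥O' → Sylow 409 G := fun z => (z.1 : G) • (z.2 : Sylow 409 G)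
  have hf : Function.Injective f := by
    rintro ⟨x, ⟨R1, hR1O, hR1⟩⟩ ⟨y, ⟨R2, hR2O, hR2⟩⟩ hxy
    have hxy' : (x : G) • R1 = (y : G) • R2 := hxy
    have e1 : ((y : G)⁻¹ * (x : G)) • R1 = R2 := by
      rw [mul_smul, hxy', inv_smul_smul]
    have e2 : (y : G)⁻¹ * (x : G) = 1 := by
      apply key R1 hR1 (hOfix R1 hR1O) _ (mul_mem (inv_mem y.2) x.2)
      rw [e1]; exact hOfix R2 hR2O
    have e3 : (x : G) = y := by
      calc (x : G) = y * ((y : G)⁻¹ * x) := by group
        _ = y := by rw [e2, mul_one]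
    rw [e2, one_smul] at e1
    have e4 : x = y := Subtype.ext e3
    subst e4
    subst e1
    rfl
  have hle := Nat.card_le_card_of_injective f hf
  rw [Nat.card_prod, hR, hn819, Nat.card_coe_set_eq] at hle
  omega

end Cfsg.Agent.S1002
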