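import Cfsg.Statements.S1008
import Cfsg.Agent.Lib.Helper2.O168maxA
import Cfsg.Agent.Lib.Helper8.O168d
import Cfsg.Agent.Lib.Helper8.O168e
import Cfsg.Agent.H17.O168maxC

set_option autoImplicit false
open Cfsg

namespace Cfsg.Agent.S1008

/-- In a simple group of order 168 every maximal subgroup is either isomorphic to the symmetric group of degree 4 or non-abelian of order 21; the maximal subgroups of order 21 form one conjugacy class and those isomorphic to the symmetric group of degree 4 form exactly two conjugacy classes. -/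
theorem result {G : Type*} [Group G] [Finite G] [IsSimpleGroup G] (h : Nat.card G = 168) : (∀ M : Subgroup G, IsCoatom M → Nonempty (↥M ≃* Equiv.Perm (Fin 4)) ∨ (Nat.card ↥M = 21 ∧ ¬ IsMulCommutative ↥M)) ∧ (∀ M M' : Subgroup G, IsCoatom M → IsCoatom M' → Nat.card ↥M = 21 → Nat.card ↥M' = 21 → ∃ g : G, M' = M.map (MulAut.conj g).toMonoidHom) ∧ ∃ M₁ M₂ : Subgroup G, IsCoatom M₁ ∧ IsCoatom M₂ ∧ Nonempty (↥M₁ ≃* Equiv.Perm (Fin 4)) ∧ Nonempty (↥M₂ ≃* Equiv.Perm (Fin 4)) ∧ (∀ g : G, M₂ ≠ M₁.map (MulAut.conj g).toMonoidHom) ∧ ∀ M : Subgroup G, IsCoatom M → Nonempty (↥M ≃* Equiv.Perm (Fin 4)) → ∃ g : G, M = M₁.map (MulAut.conj g).toMonoidHom ∨ M = M₂.map (MulAut.conj g).toMonoidHom := by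
  refine ⟨?_, ?_, Cfsg.Agent.Lib.Helper8.O168.partC h⟩
  · intro M hM
    by_cases h7 : 7 ∣ Nat.card M
    · exact Or.inr (Cfsg.Agent.Helper2.O168A.partA1 h M hM h7)
    · left
      by_cases h3 : 3 ∣ Nat.card M
      · by_cases hn : Nat.card (Sylow 3 M) = 1
        · exact (Cfsg.Agent.Lib.Helper8.O168.partB1 h M hM h7 (Or.inr hn)).elim
        · exact Cfsg.Agent.H17.O168C.partC h M hM h7 h3 hn
      · exact (Cfsg.Agent.Lib.Helper8.O168.partB1 h M hM h7 (Or.inl h3)).elim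
  · intro M M' _ _ h21 h21'
    exact Cfsg.Agent.Helper2.O168A.partA2 h M M' h21 h21'

end Cfsg.Agent.S1008
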