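import Cfsg.Statements.S1009
import Cfsg.Agent.H1.Brodkey

set_option autoImplicit false
open Cfsg

namespace Cfsg.Agent.S1009

open Subgroup Cfsg.H1
open scoped Pointwise

/-- Brodkey's Theorem: if a finite group has abelian Sylow p-subgroups, then there are two Sylow p-subgroups whose intersection equals the intersection of all Sylow p-subgroups. -/
theorem result {G : Type*} [Group G] [Finite G] (p : ℕ) [Fact p.Prime] (hab : ∀ P : Sylow p G, IsMulCommutative ↥(P : Subgroup G)) : ∃ P Q : Sylow p G, (P : Subgroup G) ⊓ (Q : Subgroup G) = ⨅ R : Sylow p G, (R : Subgroup G) := by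
  obtain ⟨⟨P₁, P₂⟩, hmin⟩ := Finite.exists_min
    (fun x : Sylow p G × Sylow p G => Nat.card ((x.1 : Subgroup G) ⊓ (x.2 : Subgroup G) : Subgroup G))
  refine ⟨P₁, P₂, le_antisymm ?_ (le_inf (iInf_le _ P₁) (iInf_le _ P₂))⟩
  apply le_iInf
  intro R
  set D := (P₁ : Subgroup G) ⊓ (P₂ : Subgroup G) with hDdef
  have hc : ∀ P : Sylow p G, D ≤ P → (P : Subgroup G) ≤ normalizer (D : Set G) := by
    intro P hDP
    have : IsMulCommutative P := hab P
    exact ((P : Subgroup G).le_centralizer.trans (centralizer_le hDP)).trans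
      (centralizer_le_normalizer _)
  have h1 := hc P₁ inf_le_left
  have h2 := hc P₂ inf_le_right
  obtain ⟨n, hn, hnle⟩ := exists_conj_le_sylow_of_le P₁ h1
    (inf_le_right : (R : Subgroup G) ⊓ normalizer (D : Set G) ≤ _) (R.2.to_inf_left)
  have h3 : ((n • R : Sylow p G) : Subgroup G) ⊓ (P₂ : Subgroup G) ≤ D := by
    intro x hx
    refine ⟨hnle ?_, hx.2⟩
    rw [smul_inf, conj_smul_eq_self_of_mem hn]
    exact ⟨hx.1, h2 hx.2⟩
  have h4 := hmin (n • R, P₂)
  have h5 : ((n • R : Sylow p G) : Subgroup G) ⊓ (P₂ : Subgroup G) = D :=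
    eq_of_le_of_card_ge h3 h4
  have h6 : D ≤ MulAut.conj n • (R : Subgroup G) := h5 ▸ inf_le_left
  rw [← conj_smul_eq_of_mem_normalizer hn] at h6
  exact pointwise_smul_le_pointwise_smul_iff.1 h6

end Cfsg.Agent.S1009
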