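import Cfsg.Statements.S1018
import Mathlib

set_option autoImplicit false
open Cfsg

namespace Cfsg.Agent.S1018

/-- Let P be a Sylow p-subgroup of order p of a finite group G, and consider the action of G on the left cosets of the normalizer N of P. Then every element of order p fixes exactly one coset, and an element of N that does not centralize P fixes at most as many cosets as there are orbits of P. -/
theorem result {G : Type*} [Group G] [Finite G] (p : ℕ) [Fact p.Prime] (P : Sylow p G) (hP : Nat.card ↥(P : Subgroup G) = p) : (∀ y : G, orderOf y = p → Nat.card (MulAction.fixedBy (G ⧸ Subgroup.normalizer ((P : Subgroup G) : Set G)) y) = 1) ∧ ∀ x : G, x ∈ Subgroup.normalizer ((P : Subgroup G) : Set G) → x ∉ Subgroup.centralizer ((P : Subgroup G) : Set G) → Nat.card (MulAction.fixedBy (G ⧸ Subgroup.normalizer ((P : Subgroup G) : Set G)) x) ≤ Nat.card (MulAction.orbitRel.Quotient ↥(P : Subgroup G) (G ⧸ Subgroup.normalizer ((P : Subgroup G) : Set G))) := by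
  classical
  set N : Subgroup G := Subgroup.normalizer ((P : Subgroup G) : Set G) with hNdef
  have hPN : (P : Subgroup G) ≤ N := Subgroup.le_normalizer
  -- fixed cosets
  have hfix : ∀ (y g : G), orderOf y = p →
      (y • (QuotientGroup.mk g : G ⧸ N) = QuotientGroup.mk g ↔
        y ∈ ((g • P : Sylow p G) : Subgroup G)) := by
    intro y g hy
    have e1 : y • (QuotientGroup.mk g : G ⧸ N) = QuotientGroup.mk (y * g) := rfl
    rw [e1, QuotientGroup.eq, Sylow.coe_subgroup_smul, Subgroup.mem_pointwise_smul_iff_inv_smul_mem]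
    have e2 : (MulAut.conj g)⁻¹ • y = g⁻¹ * y * g := by
      simp [MulAut.smul_def, MulAut.conj_inv_apply]
    have e3 : (y * g)⁻¹ * g = (g⁻¹ * y * g)⁻¹ := by group
    rw [e2, e3, Subgroup.inv_mem_iff]
    constructor
    · intro hc
      have hpg : IsPGroup p (Subgroup.zpowers (g⁻¹ * y * g)) := by
        apply IsPGroup.of_card (n := 1)
        rw [Nat.card_zpowers, pow_one]
        have : g⁻¹ * y * g = MulAut.conj g⁻¹ y := by simp
        rw [this, (MulAut.conj g⁻¹).orderOf_eq, hy]
      have h4 := hpg.inf_normalizer_sylow P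
      have h5 : g⁻¹ * y * g ∈ Subgroup.zpowers (g⁻¹ * y * g) ⊓ N :=
        Subgroup.mem_inf.mpr ⟨Subgroup.mem_zpowers _, hc⟩
      have h6 : g⁻¹ * y * g ∈ Subgroup.zpowers (g⁻¹ * y * g) ⊓ (P : Subgroup G) := by
        rw [← h4]; exact h5
      exact (Subgroup.mem_inf.mp h6).2
    · intro hc
      exact hPN hc
  have hcardg : ∀ g : G, Nat.card ((g • P : Sylow p G) : Subgroup G) = p := by
    intro g
    have h1 := (g • P).card_eq_multiplicity
    have h2 := P.card_eq_multiplicity
    exact (h1.trans h2.symm).trans hP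
  have hzp : ∀ (y g : G), orderOf y = p → y ∈ ((g • P : Sylow p G) : Subgroup G) →
      ((g • P : Sylow p G) : Subgroup G) = Subgroup.zpowers y := by
    intro y g hy hyg
    symm
    apply Subgroup.eq_of_le_of_card_ge
    · rw [Subgroup.zpowers_le]; exact hyg
    · rw [hcardg, Nat.card_zpowers, hy]
  have part1 : ∀ y : G, orderOf y = p → Nat.card (MulAction.fixedBy (G ⧸ N) y) = 1 := by
    intro y hy
    rw [Nat.card_eq_one_iff_unique]
    constructor
    · constructor
      rintro ⟨c, hc⟩ ⟨d, hd⟩
      apply Subtype.ext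
      change c = d
      induction c using QuotientGroup.induction_on with
      | H g =>
      induction d using QuotientGroup.induction_on with
      | H h =>
      rw [MulAction.mem_fixedBy, hfix y _ hy] at hc hd
      have h1 : g • P = h • P := by
        apply Sylow.ext
        rw [hzp y g hy hc, hzp y h hy hd]
      rw [QuotientGroup.eq, hNdef]
      apply Sylow.smul_eq_iff_mem_normalizer.mp
      rw [mul_smul, ← h1, inv_smul_smul]
    · have hpg : IsPGroup p (Subgroup.zpowers y) := by
        apply IsPGroup.of_card (n := 1)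
        rw [Nat.card_zpowers, pow_one, hy]
      obtain ⟨P', hP'⟩ := hpg.exists_le_sylow
      obtain ⟨g, rfl⟩ := MulAction.exists_smul_eq G P P'
      exact ⟨⟨QuotientGroup.mk g, by
        rw [MulAction.mem_fixedBy, hfix y _ hy]
        exact hP' (Subgroup.mem_zpowers y)⟩⟩
  refine ⟨part1, ?_⟩
  intro x hxN hxC
  have hord : ∀ u ∈ (P : Subgroup G), u ≠ 1 → orderOf u = p := by
    intro u hu hu1
    have h1 : orderOf u ∣ p := by
      rw [← hP]
      have := orderOf_dvd_natCard (⟨u, hu⟩ : ↥(P : Subgroup G))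
      rwa [Subgroup.orderOf_mk] at this
    rcases (Nat.dvd_prime (Fact.out : p.Prime)).mp h1 with h | h
    · exact absurd (orderOf_eq_one_iff.mp h) hu1
    · exact h
  apply Nat.card_le_card_of_injective
    (fun c : MulAction.fixedBy (G ⧸ N) x =>
      (Quotient.mk'' (c : G ⧸ N) : MulAction.orbitRel.Quotient ↥(P : Subgroup G) (G ⧸ N)))
  rintro ⟨c, hc⟩ ⟨d, hd⟩ hcd
  apply Subtype.ext
  change c = d
  have hcd' : c ∈ MulAction.orbit ↥(P : Subgroup G) d := by
    have := Quotient.eq''.mp hcd
    exact (MulAction.orbitRel_apply).mp this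
  obtain ⟨⟨u, hu⟩, huc⟩ := hcd'
  have huc' : u • d = c := huc
  rw [MulAction.mem_fixedBy] at hc hd
  by_contra hne
  have hu1 : u ≠ 1 := by
    rintro rfl
    rw [one_smul] at huc'
    exact hne huc'.symm
  have hu' : x * u * x⁻¹ ∈ (P : Subgroup G) := (Subgroup.mem_normalizer_iff.mp hxN u).mp hu
  have h1 : (x * u * x⁻¹) • d = u • d := by
    have hd' : x⁻¹ • d = d := by rw [inv_smul_eq_iff, hd]
    rw [mul_smul, mul_smul, hd', huc', hc]
  have h2 : (u⁻¹ * (x * u * x⁻¹)) • d = d := by
    rw [mul_smul, h1, inv_smul_smul]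
  by_cases h3 : u⁻¹ * (x * u * x⁻¹) = 1
  · -- x commutes with u
    apply hxC
    have hcomm : x * u = u * x := by
      have : x * u * x⁻¹ = u := (inv_mul_eq_one.mp h3).symm
      calc x * u = (x * u * x⁻¹) * x := by group
        _ = u * x := by rw [this]
    rw [Subgroup.mem_centralizer_iff]
    intro z hz
    have hz' : (⟨z, hz⟩ : ↥(P : Subgroup G)) ∈ Subgroup.zpowers (⟨u, hu⟩ : ↥(P : Subgroup G)) :=
      mem_zpowers_of_prime_card hP (fun h => hu1 (congrArg Subtype.val h))
    obtain ⟨k, hk⟩ := Subgroup.mem_zpowers_iff.mp hz'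
    have hk' : u ^ k = z := by
      have := congrArg Subtype.val hk
      simpa using this
    rw [← hk']
    exact ((Commute.zpow_right (show Commute x u from hcomm) k).eq).symm
  · have hw : u⁻¹ * (x * u * x⁻¹) ∈ (P : Subgroup G) := Subgroup.mul_mem _ (Subgroup.inv_mem _ hu) hu'
    have hcard := part1 _ (hord _ hw h3)
    rw [Nat.card_eq_one_iff_unique] at hcard
    have hsub := hcard.1
    have hone : (u⁻¹ * (x * u * x⁻¹)) • (QuotientGroup.mk 1 : G ⧸ N) = QuotientGroup.mk 1 := by
      have e1 : (u⁻¹ * (x * u * x⁻¹)) • (QuotientGroup.mk 1 : G ⧸ N) =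
        QuotientGroup.mk ((u⁻¹ * (x * u * x⁻¹)) * 1) := rfl
      rw [e1, QuotientGroup.eq, mul_one, mul_one]
      exact N.inv_mem (hPN hw)
    have hd1 : d = QuotientGroup.mk 1 := by
      have := hsub.elim (⟨d, h2⟩ : MulAction.fixedBy (G ⧸ N) (u⁻¹ * (x * u * x⁻¹))) ⟨_, hone⟩
      exact congrArg Subtype.val this
    apply hne
    rw [← huc', hd1]
    have e1 : u • (QuotientGroup.mk 1 : G ⧸ N) = QuotientGroup.mk (u * 1) := rfl
    rw [e1, QuotientGroup.eq]
    simpa using hPN hu

end Cfsg.Agent.S1018
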