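import Cfsg.Statements.S1014
import Mathlib
import Cfsg.Agent.Lib.Helper21.SimpleOrd
import Cfsg.Agent.S1018

set_option autoImplicit false
open Cfsg

namespace Cfsg.Agent.S1014

/-- No finite simple group has order 1104 = 2^4 * 3 * 23. -/
theorem result {G : Type*} [Group G] [Finite G] [IsSimpleGroup G] : Nat.card G ≠ 1104 := by
  classical
  intro h
  haveI : Fact (Nat.Prime 23) := ⟨by norm_num⟩
  obtain ⟨P⟩ : Nonempty (Sylow 23 G) := inferInstance
  have hP : Nat.card (P : Subgroup G) = 23 := by
    have := Cfsg.Agent.Lib.Helper21.card_sylow_of_card_eq P 1 48 (by rw [h]; norm_num) (by norm_num)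
    simpa using this
  have hne := Cfsg.Agent.Lib.Helper21.card_sylow_ne_one_of_simple P (by rw [hP]; norm_num)
    (by rw [hP, h]; norm_num)
  have hmod := card_sylow_modEq_one 23 G
  have hmul := Cfsg.Agent.Lib.Helper21.card_normalizer_mul_card_sylow P
  have hdvd : Nat.card (Sylow 23 G) ∣ 48 := by
    have h1 := P.card_dvd_index
    have h2 := (P : Subgroup G).card_mul_index
    rw [hP, h] at h2
    have h3 : (P : Subgroup G).index = 48 := by omega
    rwa [h3] at h1
  have hidx : (Subgroup.normalizer ((P : Subgroup G) : Set G)).index = Nat.card (Sylow 23 G) :=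
    P.card_eq_index_normalizer.symm
  set n := Nat.card (Sylow 23 G) with hn
  have hle : n ≤ 48 := Nat.le_of_dvd (by norm_num) hdvd
  have hmod' : n % 23 = 1 := hmod
  have hn24 : n = 24 := by
    interval_cases n <;> omega
  rw [hn24, h] at hmul
  rw [hn24] at hidx
  set N := Subgroup.normalizer ((P : Subgroup G) : Set G) with hNdef
  have hN : Nat.card N = 46 := by omega
  by_cases hNC : N ≤ Subgroup.centralizer ((P : Subgroup G) : Set G)
  · exact Cfsg.Agent.Lib.Helper21.false_of_simple_of_normalizer_le_centralizer P hNC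
      (by rw [hP]; norm_num) (by rw [hP, h]; norm_num)
  · obtain ⟨x, hxN, hxC⟩ := SetLike.not_le_iff_exists.mp hNC
    have htN : x ^ 23 ∈ N := N.pow_mem hxN 23
    have htC : x ^ 23 ∉ Subgroup.centralizer ((P : Subgroup G) : Set G) := by
      intro ht
      have h22 := Cfsg.Agent.Lib.Helper21.pow_mem_centralizer_of_prime_card (p := 23) (P : Subgroup G) hP x hxN
      apply hxC
      have : x = x ^ 23 * (x ^ (23 - 1))⁻¹ := by
        norm_num
        group
      rw [this]
      exact Subgroup.mul_mem _ ht (Subgroup.inv_mem _ h22)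
    have ht2 : (x ^ 23) ^ 2 = 1 := by
      rw [← pow_mul]
      have h3 : orderOf x ∣ 46 := by
        have := orderOf_dvd_natCard (⟨x, hxN⟩ : N)
        rwa [Subgroup.orderOf_mk, hN] at this
      exact orderOf_dvd_iff_pow_eq_one.mp h3
    obtain ⟨ha, hb⟩ := Cfsg.Agent.S1018.result 23 P hP
    have hfix_le : Nat.card (MulAction.fixedBy (G ⧸ N) (x ^ 23)) ≤
        Nat.card (MulAction.orbitRel.Quotient ↥(P : Subgroup G) (G ⧸ N)) := hb (x ^ 23) htN htC
    have hX : Nat.card (G ⧸ N) = 24 := hidx
    have horb : Nat.card (MulAction.orbitRel.Quotient ↥(P : Subgroup G) (G ⧸ N)) = 2 := by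
      haveI : Fintype ↥(P : Subgroup G) := Fintype.ofFinite _
      haveI : ∀ u : ↥(P : Subgroup G), Fintype (MulAction.fixedBy (G ⧸ N) u) :=
        fun _ => Fintype.ofFinite _
      haveI : Fintype (MulAction.orbitRel.Quotient ↥(P : Subgroup G) (G ⧸ N)) := Fintype.ofFinite _
      have hB := MulAction.sum_card_fixedBy_eq_card_orbits_mul_card_group ↥(P : Subgroup G) (G ⧸ N)
      have hf1 : Fintype.card (MulAction.fixedBy (G ⧸ N) (1 : ↥(P : Subgroup G))) = 24 := by
        rw [← Nat.card_eq_fintype_card, ← hX]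
        have h5 : MulAction.fixedBy (G ⧸ N) (1 : ↥(P : Subgroup G)) = Set.univ := by
          ext a
          simp
        rw [h5, Nat.card_univ]
      have hfu : ∀ u : ↥(P : Subgroup G), u ≠ 1 →
          Fintype.card (MulAction.fixedBy (G ⧸ N) u) = 1 := by
        intro u hu
        rw [← Nat.card_eq_fintype_card]
        have hou : orderOf (u : G) = 23 := by
          have h1 : orderOf (u : G) ∣ 23 := by
            have := orderOf_dvd_natCard u
            rwa [← Subgroup.orderOf_coe, hP] at this
          rcases (Nat.dvd_prime (by norm_num : Nat.Prime 23)).mp h1 with h | h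
          · exact absurd (Subtype.ext (orderOf_eq_one_iff.mp h)) hu
          · exact h
        exact ha (u : G) hou
      rw [← Finset.add_sum_erase Finset.univ _ (Finset.mem_univ (1 : ↥(P : Subgroup G))), hf1,
        Finset.sum_congr rfl (fun u hu => hfu u (Finset.ne_of_mem_erase hu)), Finset.sum_const,
        Finset.card_erase_of_mem (Finset.mem_univ _), Finset.card_univ,
        ← Nat.card_eq_fintype_card (α := ↥(P : Subgroup G)), hP,
        ← Nat.card_eq_fintype_card] at hB
      simp only [smul_eq_mul] at hB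
      have hB' : 24 + (23 - 1) * 1 =
          Nat.card (MulAction.orbitRel.Quotient ↥(P : Subgroup G) (G ⧸ N)) * 23 := hB
      omega
    rw [horb] at hfix_le
    haveI : Fintype (G ⧸ N) := Fintype.ofFinite _
    set σ : Equiv.Perm (G ⧸ N) := MulAction.toPermHom G (G ⧸ N) (x ^ 23) with hσ
    have hσ2 : σ ^ 2 = 1 := by rw [hσ, ← map_pow, ht2, map_one]
    have hsign := Equiv.Perm.sign_of_pow_two_eq_one hσ2
    have hfp : Fintype.card (Function.fixedPoints σ) = Nat.card (MulAction.fixedBy (G ⧸ N) (x ^ 23)) := by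
      rw [← Nat.card_eq_fintype_card]
      rfl
    have hfp1 : 1 ≤ Nat.card (MulAction.fixedBy (G ⧸ N) (x ^ 23)) := by
      haveI : Nonempty (MulAction.fixedBy (G ⧸ N) (x ^ 23)) := ⟨⟨QuotientGroup.mk 1, by
        rw [MulAction.mem_fixedBy]
        have e1 : (x ^ 23) • (QuotientGroup.mk 1 : G ⧸ N) = QuotientGroup.mk (x ^ 23 * 1) := rfl
        rw [e1, QuotientGroup.eq, mul_one, mul_one]
        exact N.inv_mem htN⟩⟩
      exact Nat.card_pos
    have hXf : Fintype.card (G ⧸ N) = 24 := by rw [← Nat.card_eq_fintype_card]; exact hX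
    have hexp : (Fintype.card (G ⧸ N) - Fintype.card (Function.fixedPoints σ)) / 2 = 11 := by
      rw [hXf, hfp]; omega
    rw [hexp] at hsign
    have hsign' : Equiv.Perm.sign σ = -1 := by rw [hsign]; rfl
    set ψ : G →* ℤˣ := (Equiv.Perm.sign).comp (MulAction.toPermHom G (G ⧸ N)) with hψ
    rcases ψ.normal_ker.eq_bot_or_eq_top with hk | hk
    · have hinj : Function.Injective ψ := (MonoidHom.ker_eq_bot_iff _).mp hk
      have := Nat.card_le_card_of_injective _ hinj
      rw [Nat.card_eq_fintype_card (α := ℤˣ), Fintype.card_units_int, h] at this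
      omega
    · have : x ^ 23 ∈ ψ.ker := by rw [hk]; trivial
      rw [MonoidHom.mem_ker] at this
      have h7 : ψ (x ^ 23) = Equiv.Perm.sign σ := rfl
      rw [h7, hsign'] at this
      exact absurd this (by decide)

end Cfsg.Agent.S1014
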