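import Cfsg.Statements.S1015
import Mathlib
import Cfsg.Agent.Lib.Helper21.SimpleOrd
import Cfsg.Agent.Lib.Helper2.SimpleSmallIndex
import Cfsg.Agent.H17.SylNum1

set_option autoImplicit false
open Cfsg

namespace Cfsg.Agent.S1015

/-- No finite simple group has order 1200 = 2^4 * 3 * 5^2. -/
theorem result {G : Type*} [Group G] [Finite G] [IsSimpleGroup G] : Nat.card G ≠ 1200 := by
  classical
  intro h
  haveI : Fact (Nat.Prime 5) := ⟨by norm_num⟩
  obtain ⟨P⟩ : Nonempty (Sylow 5 G) := inferInstance
  have hcard : ∀ R : Sylow 5 G, Nat.card (R : Subgroup G) = 25 := by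
    intro R
    have := Cfsg.Agent.Lib.Helper21.card_sylow_of_card_eq R 2 48 (by rw [h]; norm_num) (by norm_num)
    simpa using this
  have hP := hcard P
  have hbig : ∀ M : Subgroup G, M ≠ ⊤ → 150 ≤ Nat.card M → False := by
    intro M hM hc
    have h1 := Cfsg.Agent.Lib.Helper2.two_mul_card_dvd_factorial_index (by rw [h]; norm_num) M hM
    have h2 := M.card_mul_index
    rw [h] at h2
    have h3 : M.index ≤ 8 := by
      by_contra hcon
      push Not at hcon
      have : 150 * 9 ≤ Nat.card M * M.index := Nat.mul_le_mul hc hcon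
      omega
    have h5 := h1.trans (Nat.factorial_dvd_factorial h3)
    rw [h] at h5
    norm_num [Nat.factorial] at h5
  have hne := Cfsg.Agent.Lib.Helper21.card_sylow_ne_one_of_simple P (by rw [hP]; norm_num)
    (by rw [hP, h]; norm_num)
  have hmod := card_sylow_modEq_one 5 G
  have hmul := Cfsg.Agent.Lib.Helper21.card_normalizer_mul_card_sylow P
  have hdvd : Nat.card (Sylow 5 G) ∣ 48 := by
    have h1 := P.card_dvd_index
    have h2 := (P : Subgroup G).card_mul_index
    rw [hP, h] at h2
    have h3 : (P : Subgroup G).index = 48 := by omega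
    rwa [h3] at h1
  have hidx : (Subgroup.normalizer ((P : Subgroup G) : Set G)).index = Nat.card (Sylow 5 G) :=
    P.card_eq_index_normalizer.symm
  have hn : Nat.card (Sylow 5 G) = 6 ∨ Nat.card (Sylow 5 G) = 16 := by
    set n := Nat.card (Sylow 5 G) with hn
    have hle : n ≤ 48 := Nat.le_of_dvd (by norm_num) hdvd
    have hmod' : n % 5 = 1 := hmod
    interval_cases n <;> omega
  rcases hn with hn | hn
  · rw [hn, h] at hmul
    apply hbig (Subgroup.normalizer ((P : Subgroup G) : Set G))
    · intro htop
      rw [htop, Subgroup.index_top, hn] at hidx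
      omega
    · omega
  · -- two Sylow subgroups meeting nontrivially
    obtain ⟨Q, hQP, hD⟩ : ∃ Q : Sylow 5 G, Q ≠ P ∧ (P : Subgroup G) ⊓ (Q : Subgroup G) ≠ ⊥ := by
      by_contra hcon
      push Not at hcon
      have h1 := Cfsg.Agent.H17.SylNum.card_dvd_of_free (H := ↥(P : Subgroup G)) (X := Sylow 5 G)
        ({P}ᶜ : Set (Sylow 5 G)) (by
          intro u Q hQ hu
          apply hQ
          have hu' : (u : G) • Q = P := hu
          have h2 : (u : G)⁻¹ • P = P :=
            Sylow.smul_eq_iff_mem_normalizer.mpr (Subgroup.le_normalizer (Subgroup.inv_mem _ u.2))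
          show Q = P
          calc Q = (u : G)⁻¹ • ((u : G) • Q) := (inv_smul_smul _ _).symm
            _ = (u : G)⁻¹ • P := by rw [hu']
            _ = P := h2) (by
          intro u Q hQ hu
          have hu' : (u : G) • Q = Q := hu
          have h2 : (u : G) ∈ Subgroup.normalizer ((Q : Subgroup G) : Set G) :=
            Sylow.smul_eq_iff_mem_normalizer.mp hu'
          have h4 := P.isPGroup'.inf_normalizer_sylow Q
          have h5 : (u : G) ∈ (P : Subgroup G) ⊓ (Q : Subgroup G) := by
            rw [← h4]
            exact Subgroup.mem_inf.mpr ⟨u.2, h2⟩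
          rw [hcon Q hQ] at h5
          exact Subtype.ext (Subgroup.mem_bot.mp h5))
      rw [Set.ncard_compl, Set.ncard_singleton, hn, hP] at h1
      omega
    set D := (P : Subgroup G) ⊓ (Q : Subgroup G) with hDdef
    have hab : ∀ R : Sylow 5 G, D ≤ R → (R : Subgroup G) ≤ Subgroup.normalizer (D : Set G) := by
      intro R hDR x hx
      have hcomm : ∀ a ∈ (R : Subgroup G), x * a * x⁻¹ = a := by
        intro a ha
        have hc := (IsPGroup.isMulCommutative_of_card_eq_prime_sq (p := 5)
          (G := ↥(R : Subgroup G)) (by rw [hcard R]; norm_num)).is_comm.comm ⟨x, hx⟩ ⟨a, ha⟩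
        have hc' : x * a = a * x := congrArg Subtype.val hc
        rw [hc']; group
      rw [Subgroup.mem_normalizer_iff]
      intro d
      constructor
      · intro hd
        rw [hcomm d (hDR hd)]; exact hd
      · intro hd
        have h1 := hcomm _ (hDR hd)
        have h2 : x * d * x⁻¹ = d := by
          have h3 : x * (x * d * x⁻¹) * x⁻¹ = x * d * x⁻¹ := h1
          exact mul_left_cancel (mul_right_cancel h3)
        rw [← h2]; exact hd
    set M := Subgroup.normalizer (D : Set G) with hM
    have hPM : (P : Subgroup G) ≤ M := hab P inf_le_left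
    have hQM : (Q : Subgroup G) ≤ M := hab Q inf_le_right
    apply hbig M
    · intro htop
      have hDn : D.Normal := Subgroup.normalizer_eq_top_iff.mp htop
      rcases hDn.eq_bot_or_eq_top with h1 | h1
      · exact hD h1
      · have h2 : Nat.card D ≤ Nat.card (P : Subgroup G) := Subgroup.card_le_of_le inf_le_left
        rw [h1, Subgroup.card_top, h, hP] at h2
        omega
    · have hne' : Nat.card (Sylow 5 ↥M) ≠ 1 := by
        intro h1
        haveI : Subsingleton (Sylow 5 ↥M) := (Nat.card_eq_one_iff_unique.mp h1).1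
        exact hQP (Sylow.subtype_injective (Subsingleton.elim (Q.subtype hQM) (P.subtype hPM)))
      have hmod2 : Nat.card (Sylow 5 ↥M) % 5 = 1 := card_sylow_modEq_one 5 ↥M
      have h6 : 6 ≤ Nat.card (Sylow 5 ↥M) := by
        have : 0 < Nat.card (Sylow 5 ↥M) := Nat.card_pos
        omega
      have hmul2 := Cfsg.Agent.Lib.Helper21.card_normalizer_mul_card_sylow (P.subtype hPM)
      have h25 : 25 ≤ Nat.card (Subgroup.normalizer (((P.subtype hPM : Sylow 5 ↥M) : Subgroup ↥M) : Set ↥M)) := by
        have h7 : Nat.card ((P.subtype hPM : Sylow 5 ↥M) : Subgroup ↥M) = 25 := by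
          rw [Sylow.coe_subtype, ← hP]
          exact Nat.card_congr (Subgroup.subgroupOfEquivOfLe hPM).toEquiv
        rw [← h7]
        exact Subgroup.card_le_of_le Subgroup.le_normalizer
      rw [← hmul2]
      calc 150 = 25 * 6 := rfl
        _ ≤ _ := Nat.mul_le_mul h25 h6

end Cfsg.Agent.S1015
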