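import Cfsg.Statements.S1019
import Mathlib

set_option autoImplicit false
open Cfsg

namespace Cfsg.Agent.S1019

variable {G : Type*} [Group G]

/-- conjugates of `x` fixing the coset `gH` correspond to conjugates of `x` in `H`. -/
def equivB (H : Subgroup G) (x g : G) :
    {y : {y : G // IsConj x y} // y.1 • (QuotientGroup.mk g : G ⧸ H) = QuotientGroup.mk g} ≃
      {y : G // IsConj x y ∧ y ∈ H} where
  toFun y := ⟨g⁻¹ * y.1.1 * g, y.1.2.trans (isConj_iff.mpr ⟨g⁻¹, by simp⟩), by
    have h : (QuotientGroup.mk (y.1.1 * g) : G ⧸ H) = QuotientGroup.mk g := y.2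
    rw [QuotientGroup.eq] at h
    have := H.inv_mem h
    simpa [mul_assoc] using this⟩
  invFun z := ⟨⟨g * z.1 * g⁻¹, z.2.1.trans (isConj_iff.mpr ⟨g, rfl⟩)⟩, by
    change (QuotientGroup.mk (g * z.1 * g⁻¹ * g) : G ⧸ H) = QuotientGroup.mk g
    rw [QuotientGroup.eq]
    have := H.inv_mem z.2.2
    simpa [mul_assoc] using this⟩
  left_inv y := by
    apply Subtype.ext; apply Subtype.ext
    simp [mul_assoc]
  right_inv z := by
    apply Subtype.ext
    simp [mul_assoc]

/-- cosets fixed by `c x c⁻¹` correspond to cosets fixed by `x`. -/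
def equivA (H : Subgroup G) (x c : G) :
    {q : G ⧸ H // (c * x * c⁻¹) • q = q} ≃ MulAction.fixedBy (G ⧸ H) x where
  toFun q := ⟨c⁻¹ • q.1, by
    rw [MulAction.mem_fixedBy, smul_smul]
    have h := q.2
    calc (x * c⁻¹) • q.1 = c⁻¹ • ((c * x * c⁻¹) • q.1) := by rw [smul_smul]; congr 1; group
      _ = c⁻¹ • q.1 := by rw [h]⟩
  invFun q := ⟨c • q.1, by
    have h : x • q.1 = q.1 := q.2
    calc (c * x * c⁻¹) • c • q.1 = c • (x • q.1) := by rw [smul_smul, smul_smul]; congr 1; group
      _ = c • q.1 := by rw [h]⟩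
  left_inv q := by
    apply Subtype.ext
    simp
  right_inv q := by
    apply Subtype.ext
    simp

/-- Let H be a subgroup of a finite group G and x an element of H. In the action of G on the left cosets of H, the number of cosets fixed by x, multiplied by the size of the conjugacy class of x, equals the index of H multiplied by the number of conjugates of x that lie in H. -/
theorem result {G : Type*} [Group G] [Finite G] (H : Subgroup G) (x : G) (hx : x ∈ H) : Nat.card (MulAction.fixedBy (G ⧸ H) x) * Nat.card {g : G // IsConj x g} = H.index * Nat.card {g : G // IsConj x g ∧ g ∈ H} := by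
  classical
  have : Fintype (G ⧸ H) := Fintype.ofFinite _
  have : Fintype {g : G // IsConj x g} := Fintype.ofFinite _
  have h1 : Nat.card {z : (G ⧸ H) × {g : G // IsConj x g} // z.2.1 • z.1 = z.1} =
      H.index * Nat.card {g : G // IsConj x g ∧ g ∈ H} := by
    rw [Nat.card_congr (Equiv.subtypeProdEquivSigmaSubtype
      (fun (q : G ⧸ H) (y : {g : G // IsConj x g}) => y.1 • q = q)), Nat.card_sigma]
    have : ∀ q : G ⧸ H, Nat.card {y : {g : G // IsConj x g} // y.1 • q = q} =
        Nat.card {g : G // IsConj x g ∧ g ∈ H} := by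
      intro q
      obtain ⟨g, rfl⟩ := QuotientGroup.mk_surjective q
      exact Nat.card_congr (equivB H x g)
    simp only [this, Finset.sum_const, Finset.card_univ, smul_eq_mul]
    rw [Subgroup.index, Nat.card_eq_fintype_card (α := G ⧸ H)]
  have h2 : Nat.card {z : (G ⧸ H) × {g : G // IsConj x g} // z.2.1 • z.1 = z.1} =
      Nat.card (MulAction.fixedBy (G ⧸ H) x) * Nat.card {g : G // IsConj x g} := by
    have e : {z : (G ⧸ H) × {g : G // IsConj x g} // z.2.1 • z.1 = z.1} ≃
        {z : {g : G // IsConj x g} × (G ⧸ H) // z.1.1 • z.2 = z.2} :=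
      (Equiv.prodComm _ _).subtypeEquiv (fun z => Iff.rfl)
    rw [Nat.card_congr e, Nat.card_congr (Equiv.subtypeProdEquivSigmaSubtype
      (fun (y : {g : G // IsConj x g}) (q : G ⧸ H) => y.1 • q = q)), Nat.card_sigma]
    have : ∀ y : {g : G // IsConj x g}, Nat.card {q : G ⧸ H // y.1 • q = q} =
        Nat.card (MulAction.fixedBy (G ⧸ H) x) := by
      rintro ⟨y, hy⟩
      obtain ⟨c, rfl⟩ := isConj_iff.mp hy
      exact Nat.card_congr (equivA H x c)
    simp only [this, Finset.sum_const, Finset.card_univ, smul_eq_mul]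
    rw [Nat.card_eq_fintype_card (α := {g : G // IsConj x g}), mul_comm]
  rw [← h2, h1]

end Cfsg.Agent.S1019
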