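import Cfsg.Statements.S1024
import Cfsg.Agent.Chev.All

set_option autoImplicit false
open Cfsg

namespace Cfsg.Agent.S1024

/-- `x_r(0) = 1`, and `x_r(t) = 1` forces `t = 0`: the map `t ↦ x_r(t)` is injective. -/
theorem result {F : Type*} [Field F] (D : Cfsg.Lie.ChevalleyDatum) (hD : D ∈ [Cfsg.Lie.chevG2, Cfsg.Lie.chevB2, Cfsg.Lie.chevD4, Cfsg.Lie.chevF4, Cfsg.Lie.chevE6, Cfsg.Lie.chevE7, Cfsg.Lie.chevE8]) (r : ℕ) (hr : r < D.nroots) (t : F) :
    D.x F r t = 1 ↔ t = 0 := by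
  obtain ⟨G, _⟩ := Cfsg.Agent.Chev.exists_good.{0} hD
  constructor
  · intro h
    have hnr := G.neg_lt hr
    have hne := G.neg_ne hr
    have h1 := congrFun (congrFun h (Sum.inr ⟨r, hr⟩)) (Sum.inr ⟨D.neg r, hnr⟩)
    have h2 : (⟨D.neg r, hnr⟩ : Fin D.nroots) ≠ ⟨r, hr⟩ := fun e => hne (Fin.mk.inj e)
    rw [Matrix.one_apply_ne (fun e => h2 (Sum.inr.inj e).symm)] at h1
    unfold Cfsg.Lie.ChevalleyDatum.x at h1
    rw [dif_pos hr] at h1
    unfold Cfsg.Lie.ChevalleyDatum.xMat at h1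
    simp only [Matrix.of_apply] at h1
    rw [if_neg h2, if_pos (show D.neg r = D.negIdx.getD r 0 from rfl), if_neg h2.symm] at h1
    simpa using h1
  · rintro rfl
    exact Cfsg.Agent.Chev.x_zero D G.wf r

end Cfsg.Agent.S1024
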