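import Cfsg.Statements.S1035
import Cfsg.Agent.Chev.Tab.G2Tor
import Cfsg.Agent.Chev.Tab.B2Tor
import Cfsg.Agent.Chev.Tab.D4Tor
import Cfsg.Agent.Chev.Tab.F4Tor
import Cfsg.Agent.Chev.Tab.E6Tor
import Cfsg.Agent.Chev.Tab.E7Tor
import Cfsg.Agent.Chev.Tab.E8Tor

set_option autoImplicit false
open Cfsg

namespace Cfsg.Agent.S1035

/-- `d · |H| = (q - 1)^rank` over a field with `q` elements, with `d = 1` (G₂, F₄, E₈), `gcd(3, q-1)` (E₆), `gcd(2, q-1)` (E₇, B₂), `gcd(2, q-1)²` (D₄). -/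
theorem result {F : Type*} [Field F] [Fintype F] {q : ℕ} (hq : Fintype.card F = q)
    (p : Cfsg.Lie.ChevalleyDatum × ℕ)
    (hp : p ∈ [(Cfsg.Lie.chevG2, 1), (Cfsg.Lie.chevF4, 1), (Cfsg.Lie.chevE8, 1), (Cfsg.Lie.chevE6, Nat.gcd 3 (q - 1)),
      (Cfsg.Lie.chevE7, Nat.gcd 2 (q - 1)), (Cfsg.Lie.chevB2, Nat.gcd 2 (q - 1)), (Cfsg.Lie.chevD4, Nat.gcd 2 (q - 1) ^ 2)]) :
    p.2 * Nat.card (p.1.diagonalSubgroup F) = (q - 1) ^ p.1.rank := by
  have hm : Nat.card Fˣ = q - 1 := by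
    classical
    rw [Nat.card_eq_fintype_card, Fintype.card_units, hq]
  have hg : ∀ d : ℕ, Nat.gcd d (q - 1) * ((q - 1) / (q - 1).gcd d) = q - 1 := by
    intro d
    rw [Nat.gcd_comm]
    exact Nat.mul_div_cancel' (Nat.gcd_dvd_left _ _)
  have h1 : (q - 1) / (q - 1).gcd 1 = q - 1 := by simp
  simp only [List.mem_cons, List.not_mem_nil, or_false] at hp
  rcases hp with rfl | rfl | rfl | rfl | rfl | rfl | rfl
  · show 1 * Nat.card (Cfsg.Lie.chevG2.diagonalSubgroup F) = (q - 1) ^ 2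
    rw [Cfsg.Agent.Chev.cardHG2, hm]
    simp [Fin.prod_univ_succ, Cfsg.Agent.Chev.smDG2]
    ring
  · show 1 * Nat.card (Cfsg.Lie.chevF4.diagonalSubgroup F) = (q - 1) ^ 4
    rw [Cfsg.Agent.Chev.cardHF4, hm]
    simp [Fin.prod_univ_succ, Cfsg.Agent.Chev.smDF4]
    ring
  · show 1 * Nat.card (Cfsg.Lie.chevE8.diagonalSubgroup F) = (q - 1) ^ 8
    rw [Cfsg.Agent.Chev.cardHE8, hm]
    simp [Fin.prod_univ_succ, Cfsg.Agent.Chev.smDE8]
    ring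
  · show Nat.gcd 3 (q - 1) * Nat.card (Cfsg.Lie.chevE6.diagonalSubgroup F) = (q - 1) ^ 6
    rw [Cfsg.Agent.Chev.cardHE6, hm]
    simp only [Fin.prod_univ_succ, Cfsg.Agent.Chev.smDE6, Finset.univ_eq_empty, Finset.prod_empty]
    simp only [Matrix.cons_val_zero, Matrix.cons_val_succ, h1, mul_one]
    calc _ = (q - 1) ^ 5 * (Nat.gcd 3 (q - 1) * ((q - 1) / (q - 1).gcd 3)) := by ring
      _ = _ := by rw [hg]; ring
  · show Nat.gcd 2 (q - 1) * Nat.card (Cfsg.Lie.chevE7.diagonalSubgroup F) = (q - 1) ^ 7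
    rw [Cfsg.Agent.Chev.cardHE7, hm]
    simp only [Fin.prod_univ_succ, Cfsg.Agent.Chev.smDE7, Finset.univ_eq_empty, Finset.prod_empty]
    simp only [Matrix.cons_val_zero, Matrix.cons_val_succ, h1, mul_one]
    calc _ = (q - 1) ^ 6 * (Nat.gcd 2 (q - 1) * ((q - 1) / (q - 1).gcd 2)) := by ring
      _ = _ := by rw [hg]; ring
  · show Nat.gcd 2 (q - 1) * Nat.card (Cfsg.Lie.chevB2.diagonalSubgroup F) = (q - 1) ^ 2
    rw [Cfsg.Agent.Chev.cardHB2, hm]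
    simp only [Fin.prod_univ_succ, Cfsg.Agent.Chev.smDB2, Finset.univ_eq_empty, Finset.prod_empty]
    simp only [Matrix.cons_val_zero, Matrix.cons_val_succ, h1, mul_one]
    calc _ = (q - 1) ^ 1 * (Nat.gcd 2 (q - 1) * ((q - 1) / (q - 1).gcd 2)) := by ring
      _ = _ := by rw [hg]; ring
  · show Nat.gcd 2 (q - 1) ^ 2 * Nat.card (Cfsg.Lie.chevD4.diagonalSubgroup F) = (q - 1) ^ 4
    rw [Cfsg.Agent.Chev.cardHD4, hm]
    simp only [Fin.prod_univ_succ, Cfsg.Agent.Chev.smDD4, Finset.univ_eq_empty, Finset.prod_empty]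
    simp only [Matrix.cons_val_zero, Matrix.cons_val_succ, h1, mul_one]
    calc _ = (q - 1) ^ 2 * (Nat.gcd 2 (q - 1) * ((q - 1) / (q - 1).gcd 2)) * (Nat.gcd 2 (q - 1) * ((q - 1) / (q - 1).gcd 2)) := by ring
      _ = _ := by rw [hg]; ring

end Cfsg.Agent.S1035
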