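import Cfsg.Statements.S1044
import Cfsg.Agent.Chev.All2
import Cfsg.Agent.Chev.Thy7

set_option autoImplicit false
open Cfsg

namespace Cfsg.Agent.S1044

/-- For a fundamental root `p` the set `B ∪ B n_p B` is (the carrier of) a subgroup of the general linear group. -/
theorem result {F : Type*} [Field F] (D : Cfsg.Lie.ChevalleyDatum) (hD : D ∈ [Cfsg.Lie.chevG2, Cfsg.Lie.chevB2, Cfsg.Lie.chevD4, Cfsg.Lie.chevF4, Cfsg.Lie.chevE6, Cfsg.Lie.chevE7, Cfsg.Lie.chevE8]) (i : ℕ) (hi : i < D.rank) (n : GL D.Idx F)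
    (hn : (n : Matrix D.Idx D.Idx F) = D.nMat F (D.simple i) 1) :
    ∃ P : Subgroup (GL D.Idx F), (P : Set (GL D.Idx F)) =
      (D.borelSubgroup F : Set (GL D.Idx F)) ∪ DoubleCoset.doubleCoset n (D.borelSubgroup F : Set (GL D.Idx F)) (D.borelSubgroup F) := by
  obtain ⟨G, G2, hG⟩ := Cfsg.Agent.Chev.exists_good2 hD
  have R := hG F
  have hn' : n = R.ng (D.simple i) 1 := (R.eq_wg_iff _ _).mp hn
  have hsl := G.simple_lt i hi
  have hnN : n ∈ D.monomialSubgroup F := hn' ▸ R.ng_mem_N hsl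
  have hsq : n * n ∈ D.borelSubgroup F := hn' ▸ R.H_le_B (R.ng_sq_mem_H hsl)
  have hinv : ∃ h ∈ D.borelSubgroup F, n⁻¹ = h * n :=
    ⟨R.hg (D.simple i) (-1), R.H_le_B (R.hg_mem_H hsl (neg_ne_zero.mpr one_ne_zero)), hn' ▸ R.ni_inv_eq⟩
  have hax : ∀ b ∈ D.borelSubgroup F, ∃ b1 ∈ D.borelSubgroup F, ∃ b2 ∈ D.borelSubgroup F,
      n * b * n = b1 * (n * n) * b2 ∨ n * b * n = b1 * n * b2 := by
    intro b hb
    have := R.bn_axiom G2 hi hnN hb
    rw [← hn'] at this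
    exact this
  refine ⟨{ carrier := (D.borelSubgroup F : Set (GL D.Idx F)) ∪ DoubleCoset.doubleCoset n (D.borelSubgroup F : Set (GL D.Idx F)) (D.borelSubgroup F)
            one_mem' := Or.inl (Subgroup.one_mem _)
            mul_mem' := ?_
            inv_mem' := ?_ }, rfl⟩
  · rintro a b (ha | ha) (hb | hb)
    · exact Or.inl (Subgroup.mul_mem _ ha hb)
    · obtain ⟨b1, h1, b2, h2, rfl⟩ := DoubleCoset.mem_doubleCoset.mp hb
      exact Or.inr (DoubleCoset.mem_doubleCoset.mpr ⟨a * b1, Subgroup.mul_mem _ ha h1, b2, h2, by group⟩)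
    · obtain ⟨b1, h1, b2, h2, rfl⟩ := DoubleCoset.mem_doubleCoset.mp ha
      exact Or.inr (DoubleCoset.mem_doubleCoset.mpr ⟨b1, h1, b2 * b, Subgroup.mul_mem _ h2 hb, by group⟩)
    · obtain ⟨b1, h1, b2, h2, rfl⟩ := DoubleCoset.mem_doubleCoset.mp ha
      obtain ⟨b3, h3, b4, h4, rfl⟩ := DoubleCoset.mem_doubleCoset.mp hb
      obtain ⟨c1, hc1, c2, hc2, h | h⟩ := hax (b2 * b3) (Subgroup.mul_mem _ h2 h3)
      · left
        have : b1 * n * b2 * (b3 * n * b4) = b1 * (n * (b2 * b3) * n) * b4 := by group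
        rw [this, h]
        exact Subgroup.mul_mem _ (Subgroup.mul_mem _ h1 (Subgroup.mul_mem _ (Subgroup.mul_mem _ hc1 hsq) hc2)) h4
      · right
        have : b1 * n * b2 * (b3 * n * b4) = b1 * (n * (b2 * b3) * n) * b4 := by group
        rw [this, h]
        exact DoubleCoset.mem_doubleCoset.mpr ⟨b1 * c1, Subgroup.mul_mem _ h1 hc1, c2 * b4, Subgroup.mul_mem _ hc2 h4, by group⟩
  · rintro a (ha | ha)
    · exact Or.inl (Subgroup.inv_mem _ ha)
    · obtain ⟨b1, h1, b2, h2, rfl⟩ := DoubleCoset.mem_doubleCoset.mp ha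
      obtain ⟨h, hh, e⟩ := hinv
      refine Or.inr (DoubleCoset.mem_doubleCoset.mpr ⟨b2⁻¹ * h, Subgroup.mul_mem _ (Subgroup.inv_mem _ h2) hh, b1⁻¹, Subgroup.inv_mem _ h1, ?_⟩)
      rw [mul_inv_rev, mul_inv_rev, e]; group

end Cfsg.Agent.S1044
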