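import Cfsg.Statements.S1047
import Cfsg.Agent.Chev.Tab.Descent
import Cfsg.Agent.Chev.All2

set_option autoImplicit false
open Cfsg

namespace Cfsg.Agent.S1047

/-- `P_J = ⟨H, X_r : r ∈ Φ⁺ ∪ Φ_J⟩`. -/
theorem result {F : Type*} [Field F] (D : Cfsg.Lie.ChevalleyDatum) (hD : D ∈ [Cfsg.Lie.chevG2, Cfsg.Lie.chevB2, Cfsg.Lie.chevD4, Cfsg.Lie.chevF4, Cfsg.Lie.chevE6, Cfsg.Lie.chevE7, Cfsg.Lie.chevE8]) (J : Set ℕ) :
    D.parabolicSubgroup F J = D.diagonalSubgroup F ⊔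
      Subgroup.closure {g : GL D.Idx F | ∃ (r : ℕ) (t : F), (D.IsPosRoot r ∨ D.InRootSub J r) ∧ (g : Matrix D.Idx D.Idx F) = D.x F r t} := by
  obtain ⟨G, G2, R⟩ := Cfsg.Agent.Chev.exists_good2 hD
  rw [(R F).P_eq (Cfsg.Agent.Chev.exists_descent hD) J,
    show Cfsg.Agent.Chev.UU D F (G.pP J) = Cfsg.Agent.Chev.UU D F (fun r => D.IsPosRoot r ∨ D.InRootSub J r) from
      (Cfsg.Agent.Chev.UU_congr (Cfsg.Agent.Chev.pP_iff G J)).symm]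
  rfl

end Cfsg.Agent.S1047
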