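import Cfsg.Statements.S1062
import Cfsg.Agent.S1035
import Cfsg.Agent.Chev.Order
import Cfsg.Agent.Chev.Tab.F4Orb

set_option autoImplicit false
open Cfsg

namespace Cfsg.Agent.S1062

/-- `|F₄(q)| = q²⁴ (q² - 1)(q⁶ - 1)(q⁸ - 1)(q¹² - 1)`. -/
theorem result {F : Type*} [Field F] [Fintype F] {q : ℕ} (hq : Fintype.card F = q) : Nat.card ↥(Cfsg.Lie.chevF4.group F) = q ^ 24 * (q ^ 2 - 1) * (q ^ 6 - 1) * (q ^ 8 - 1) * (q ^ 12 - 1) := by
  have hq1 : 1 ≤ q := by rw [← hq]; exact Fintype.card_pos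
  have h := (Cfsg.Agent.Chev.relsF4 F).order_formula Cfsg.Agent.Chev.good2F4 (N := 24) (l := 4) (dd := 1) hq (by decide)
    (Cfsg.Agent.S1035.result hq (Cfsg.Lie.chevF4, 1) (by simp)) (Cfsg.Agent.Chev.poinF4 q)
  apply Nat.cast_injective (R := ℤ)
  rw [one_mul] at h
  rw [h]
  push_cast [Cfsg.Agent.Chev.cast_pow_sub_one hq1]
  ring

end Cfsg.Agent.S1062
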