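import Cfsg.Statements.S1065
import Cfsg.Agent.S1035
import Cfsg.Agent.Chev.Order
import Cfsg.Agent.Chev.Tab.E8Orb

set_option autoImplicit false
open Cfsg

namespace Cfsg.Agent.S1065

/-- `|E₈(q)| = q¹²⁰ ∏_{d ∈ {2,8,12,14,18,20,24,30}} (q^d - 1)`. -/
theorem result {F : Type*} [Field F] [Fintype F] {q : ℕ} (hq : Fintype.card F = q) : Nat.card ↥(Cfsg.Lie.chevE8.group F) = q ^ 120 * (q ^ 2 - 1) * (q ^ 8 - 1) * (q ^ 12 - 1) * (q ^ 14 - 1) * (q ^ 18 - 1) * (q ^ 20 - 1) * (q ^ 24 - 1) * (q ^ 30 - 1) := by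
  have hq1 : 1 ≤ q := by rw [← hq]; exact Fintype.card_pos
  have h := (Cfsg.Agent.Chev.relsE8 F).order_formula Cfsg.Agent.Chev.good2E8 (N := 120) (l := 8) (dd := 1) hq (by decide)
    (Cfsg.Agent.S1035.result hq (Cfsg.Lie.chevE8, 1) (by simp)) (Cfsg.Agent.Chev.poinE8 q)
  apply Nat.cast_injective (R := ℤ)
  rw [one_mul] at h
  rw [h]
  push_cast [Cfsg.Agent.Chev.cast_pow_sub_one hq1]
  ring

end Cfsg.Agent.S1065
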