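import Cfsg.Statements.S1070
import Cfsg.Agent.Chev.Tw16

set_option autoImplicit false
open Cfsg

namespace Cfsg.Agent.S1070

/-- ²E₆(q) is simple for every `q`. -/
theorem result {K : Type*} [Field K] [Fintype K] {q : ℕ} (hq : IsPrimePow q) (hK : Fintype.card K = q ^ 2) :
    IsSimpleGroup ↥(Cfsg.Lie.twistedE6 K q) ∧ ¬ IsMulCommutative ↥(Cfsg.Lie.twistedE6 K q) := by
  rw [Cfsg.Agent.Chev.twistedE6_eq hq hK]
  exact (Cfsg.Agent.Chev.twsE6 hq hK).simple1 Cfsg.Agent.Chev.good2E6 Cfsg.Agent.Chev.conn1E6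
    (Cfsg.Agent.Chev.perfectE6 hq hK)
    ((Cfsg.Agent.Chev.twsE6 hq hK).core_trivial Cfsg.Agent.Chev.good2E6 Cfsg.Agent.Chev.twxE6)

end Cfsg.Agent.S1070
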