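import Cfsg.Statements.S1073
import Cfsg.Agent.Chev.TwG16

set_option autoImplicit false
open Cfsg

namespace Cfsg.Agent.S1073

/-- ²G₂(3^(2m+1)) is simple for `m ≥ 1`. -/
theorem result {K : Type*} [Field K] [Fintype K] {m : ℕ} (hm : 1 ≤ m) (hK : Fintype.card K = 3 ^ (2 * m + 1)) :
    IsSimpleGroup ↥(Cfsg.Lie.twistedG2 K (3 ^ m)) ∧ ¬ IsMulCommutative ↥(Cfsg.Lie.twistedG2 K (3 ^ m)) := by
  have := Cfsg.Agent.Chev.charP3_of_card hK
  rw [show Cfsg.Lie.twistedG2 K (3 ^ m) = (Cfsg.Agent.Chev.mkRee hK).G1 from (Cfsg.Agent.Chev.mkRee hK).twistedG2_eq]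
  exact (Cfsg.Agent.Chev.mkRee hK).simple (by rw [hK]; exact Cfsg.Agent.Chev.card_mod4 m)
    (by rw [hK]; exact Cfsg.Agent.Chev.three_lt_card hm)

end Cfsg.Agent.S1073
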