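import Cfsg.Statements.S1080


set_option autoImplicit false
open Cfsg

namespace Cfsg.Agent.S1080

/-- Field automorphisms: for every field automorphism `f` there is a group automorphism sending each `x_r(t)` to `x_r(f t)`. -/
theorem result {F : Type*} [Field F] (D : Cfsg.Lie.ChevalleyDatum) (hD : D ∈ [Cfsg.Lie.chevG2, Cfsg.Lie.chevB2, Cfsg.Lie.chevD4, Cfsg.Lie.chevF4, Cfsg.Lie.chevE6, Cfsg.Lie.chevE7, Cfsg.Lie.chevE8]) (f : F ≃+* F) :
    ∃ α : ↥(D.group F) ≃* ↥(D.group F), ∀ (g : ↥(D.group F)) (r : ℕ) (t : F), r < D.nroots →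
      ((g : GL D.Idx F) : Matrix D.Idx D.Idx F) = D.x F r t → ((α g : GL D.Idx F) : Matrix D.Idx D.Idx F) = D.x F r (f t) := by
  have hx : ∀ (f : F ≃+* F) (r : Fin D.nroots) (t : F), (D.xMat F r t).map f = D.xMat F r (f t) := by
    intro f r t
    ext row col
    simp only [Matrix.map_apply, Cfsg.Lie.ChevalleyDatum.xMat, Matrix.of_apply]
    rcases col with i | s <;> rcases row with i' | u <;> simp only []
    all_goals (split_ifs <;> simp [map_list_sum, List.map_map, Function.comp_def])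
  let e : ∀ f : F ≃+* F, GL D.Idx F ≃* GL D.Idx F := fun f => Units.mapEquiv (RingEquiv.mapMatrix f).toMulEquiv
  have he : ∀ (f : F ≃+* F) (g : GL D.Idx F), ((e f g : GL D.Idx F) : Matrix D.Idx D.Idx F) = (g : Matrix D.Idx D.Idx F).map f :=
    fun f g => rfl
  have hle : ∀ f : F ≃+* F, (D.group F).map (e f).toMonoidHom ≤ D.group F := by
    intro f
    rw [Cfsg.Lie.ChevalleyDatum.group, MonoidHom.map_closure, Subgroup.closure_le]
    rintro _ ⟨g, ⟨r, t, hg⟩, rfl⟩
    apply Subgroup.subset_closure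
    refine ⟨r, f t, ?_⟩
    show ((e f g : GL D.Idx F) : Matrix D.Idx D.Idx F) = _
    rw [he, hg, hx]
  have hmap : (D.group F).map (e f).toMonoidHom = D.group F := by
    apply le_antisymm (hle f)
    intro g hg
    refine ⟨e f.symm g, hle f.symm ⟨g, hg, rfl⟩, ?_⟩
    apply Units.ext
    show ((e f (e f.symm g) : GL D.Idx F) : Matrix D.Idx D.Idx F) = _
    rw [he, he]
    ext i j
    simp
  refine ⟨((e f).subgroupMap (D.group F)).trans (MulEquiv.subgroupCongr hmap), ?_⟩
  intro g r t hr hg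
  show ((e f (g : GL D.Idx F) : GL D.Idx F) : Matrix D.Idx D.Idx F) = _
  rw [he, hg, Cfsg.Lie.ChevalleyDatum.x, Cfsg.Lie.ChevalleyDatum.x, dif_pos hr, dif_pos hr, hx]

end Cfsg.Agent.S1080
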