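import Cfsg.Statements.S1081
import Cfsg.Agent.Chev.Graph2
import Cfsg.Agent.Chev.Tab.E6Graph
import Cfsg.Agent.Chev.Tab.D4Graph

set_option autoImplicit false
open Cfsg

namespace Cfsg.Agent.S1081

/-- Graph automorphisms: for E₆ with ρ = (p₁ p₆)(p₃ p₅) and for D₄ with ρ the 3-cycle on the outer nodes there is a group automorphism sending `x_p(t) ↦ x_{ρ(p)}(t)` and `x_{-p}(t) ↦ x_{-ρ(p)}(t)` for every fundamental root `p`. -/
theorem result {F : Type*} [Field F] (p : Cfsg.Lie.ChevalleyDatum × List ℕ)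
    (hp : p ∈ [(Cfsg.Lie.chevE6, [5, 1, 4, 3, 2, 0]), (Cfsg.Lie.chevD4, [2, 1, 3, 0]), (Cfsg.Lie.chevD4, [3, 1, 0, 2])]) :
    ∃ α : ↥(p.1.group F) ≃* ↥(p.1.group F), ∀ (g : ↥(p.1.group F)) (i : ℕ) (t : F), i < p.1.rank →
      (((g : GL p.1.Idx F) : Matrix p.1.Idx p.1.Idx F) = p.1.x F (p.1.simple i) t →
        ((α g : GL p.1.Idx F) : Matrix p.1.Idx p.1.Idx F) = p.1.x F (p.1.simple (p.2.getD i 0)) t) ∧
      (((g : GL p.1.Idx F) : Matrix p.1.Idx p.1.Idx F) = p.1.x F (p.1.neg (p.1.simple i)) t →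
        ((α g : GL p.1.Idx F) : Matrix p.1.Idx p.1.Idx F) = p.1.x F (p.1.neg (p.1.simple (p.2.getD i 0))) t) := by
  have key : ∀ (D : Cfsg.Lie.ChevalleyDatum) (X : Cfsg.Agent.Chev.GAux) (l : List ℕ),
      (∃ α : ↥(D.group F) ≃* ↥(D.group F), ∀ (g : ↥(D.group F)) (s : ℕ) (t : F), s < D.nroots →
      ((g : GL D.Idx F) : Matrix D.Idx D.Idx F) = D.x F s t →
        ((α g : GL D.Idx F) : Matrix D.Idx D.Idx F) = D.x F (X.ρ s) ((X.ε s : F) * t)) →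
      (∀ i < D.rank, D.simple i < D.nroots ∧ D.neg (D.simple i) < D.nroots ∧
        X.ρ (D.simple i) = D.simple (l.getD i 0) ∧ X.ε (D.simple i) = 1 ∧
        X.ρ (D.neg (D.simple i)) = D.neg (D.simple (l.getD i 0)) ∧ X.ε (D.neg (D.simple i)) = 1) →
      ∃ α : ↥(D.group F) ≃* ↥(D.group F), ∀ (g : ↥(D.group F)) (i : ℕ) (t : F), i < D.rank →
      (((g : GL D.Idx F) : Matrix D.Idx D.Idx F) = D.x F (D.simple i) t →
        ((α g : GL D.Idx F) : Matrix D.Idx D.Idx F) = D.x F (D.simple (l.getD i 0)) t) ∧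
      (((g : GL D.Idx F) : Matrix D.Idx D.Idx F) = D.x F (D.neg (D.simple i)) t →
        ((α g : GL D.Idx F) : Matrix D.Idx D.Idx F) = D.x F (D.neg (D.simple (l.getD i 0))) t) := by
    rintro D X l ⟨α, hα⟩ h
    refine ⟨α, fun g i t hi => ?_⟩
    obtain ⟨h1, h2, h3, h4, h5, h6⟩ := h i hi
    constructor
    · intro hg
      rw [hα g _ t h1 hg, h3, h4, Int.cast_one, one_mul]
    · intro hg
      rw [hα g _ t h2 hg, h5, h6, Int.cast_one, one_mul]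
  simp only [List.mem_cons, List.not_mem_nil, or_false] at hp
  rcases hp with rfl | rfl | rfl
  · exact key _ Cfsg.Agent.Chev.gauxE6 _ (Cfsg.Agent.Chev.graph_aut (F := F) Cfsg.Agent.Chev.fastE6
      Cfsg.Agent.Chev.chkGE6 Cfsg.Agent.Chev.chkGE6 Cfsg.Agent.Chev.chkGInvE6 Cfsg.Agent.Chev.chkGInvE6)
      (by decide +kernel)
  · exact key _ Cfsg.Agent.Chev.gauxD4a _ (Cfsg.Agent.Chev.graph_aut (F := F) Cfsg.Agent.Chev.fastD4
      Cfsg.Agent.Chev.chkGD4a Cfsg.Agent.Chev.chkGD4b Cfsg.Agent.Chev.chkGInvD4ab Cfsg.Agent.Chev.chkGInvD4ba)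
      (by decide +kernel)
  · exact key _ Cfsg.Agent.Chev.gauxD4b _ (Cfsg.Agent.Chev.graph_aut (F := F) Cfsg.Agent.Chev.fastD4
      Cfsg.Agent.Chev.chkGD4b Cfsg.Agent.Chev.chkGD4a Cfsg.Agent.Chev.chkGInvD4ba Cfsg.Agent.Chev.chkGInvD4ab)
      (by decide +kernel)

end Cfsg.Agent.S1081
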