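import Cfsg.Statements.S1091
import Cfsg.Agent.Chev.TwG9

set_option autoImplicit false
open Cfsg

namespace Cfsg.Agent.S1091

/-- ²G₂(3^(2m+1)) has a (B,N)-pair: B¹ = G¹ ∩ B and N¹ = G¹ ∩ N, intersections with the ambient Chevalley group's B = UH and N. -/
theorem result {K : Type*} [Field K] [Fintype K] {m : ℕ} (hK : Fintype.card K = 3 ^ (2 * m + 1)) :
    ∃ P : Cfsg.BNPair ↥(Cfsg.Lie.twistedG2 K (3 ^ m)),
      P.B = (Cfsg.Lie.chevG2.borelSubgroup K ⊓ Cfsg.Lie.twistedG2 K (3 ^ m)).subgroupOf (Cfsg.Lie.twistedG2 K (3 ^ m)) ∧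
      P.N = (Cfsg.Lie.chevG2.monomialSubgroup K ⊓ Cfsg.Lie.twistedG2 K (3 ^ m)).subgroupOf (Cfsg.Lie.twistedG2 K (3 ^ m)) := by
  have := Cfsg.Agent.Chev.charP3_of_card hK
  rw [show Cfsg.Lie.twistedG2 K (3 ^ m) = (Cfsg.Agent.Chev.mkRee hK).G1 from (Cfsg.Agent.Chev.mkRee hK).twistedG2_eq]
  obtain ⟨n0, hn0, hm0⟩ := (Cfsg.Agent.Chev.mkRee hK).exists_n0
  exact ⟨(Cfsg.Agent.Chev.mkRee hK).bnPair hn0 hm0, rfl, rfl⟩

end Cfsg.Agent.S1091
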