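import Cfsg.Statements.S1095
import Cfsg.Agent.Chev.Tab.Eta
import Cfsg.Agent.Chev.All

set_option autoImplicit false
open Cfsg

namespace Cfsg.Agent.S1095

/-- `n_p` (p = p_{i+1} fundamental) is the signed monomial matrix `h_{p_j} ↦ h_{p_j} - A_{p_j,p} h_p`, `e_s ↦ η_s e_{w_p(s)}`, with `η_s = ±1`, `η_p = η_{-p} = -1`, `η_s η_{w_p(s)} = (-1)^{A_{p,s}}`, `η_s η_{-s} = 1`. -/
theorem result {F : Type*} [Field F] (D : Cfsg.Lie.ChevalleyDatum) (hD : D ∈ [Cfsg.Lie.chevG2, Cfsg.Lie.chevB2, Cfsg.Lie.chevD4, Cfsg.Lie.chevF4, Cfsg.Lie.chevE6, Cfsg.Lie.chevE7, Cfsg.Lie.chevE8]) (i : ℕ) (hi : i < D.rank) :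
    ∃ η : ℕ → ℤ, (∀ s < D.nroots, η s = 1 ∨ η s = -1) ∧ η (D.simple i) = -1 ∧ η (D.neg (D.simple i)) = -1 ∧
      (∀ s < D.nroots, η s * η (D.reflectRoot i s) = (-1) ^ (D.cartan i s).natAbs ∧ η s * η (D.neg s) = 1) ∧
      D.nMat F (D.simple i) 1 = Matrix.of (fun (row col : D.Idx) =>
        Sum.elim
          (fun j' : Fin D.rank => Sum.elim
            (fun j : Fin D.rank => (if j' = j then (1 : F) else 0) - (if (j' : ℕ) = i then ((D.cartan j (D.simple i) : ℤ) : F) else 0))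
            (fun _ => (0 : F)) col)
          (fun s' : Fin D.nroots => Sum.elim
            (fun _ => (0 : F))
            (fun s : Fin D.nroots => if (s' : ℕ) = D.reflectRoot i s then ((η s : ℤ) : F) else 0) col)
          row) := by
  have key : ∀ (G : Cfsg.Agent.Chev.Good D) (R : Cfsg.Agent.Chev.Rels D G F) (E : Cfsg.Agent.Chev.EtaFacts D G),
    ∃ η : ℕ → ℤ, (∀ s < D.nroots, η s = 1 ∨ η s = -1) ∧ η (D.simple i) = -1 ∧ η (D.neg (D.simple i)) = -1 ∧
      (∀ s < D.nroots, η s * η (D.reflectRoot i s) = (-1) ^ (D.cartan i s).natAbs ∧ η s * η (D.neg s) = 1) ∧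
      D.nMat F (D.simple i) 1 = Matrix.of (fun (row col : D.Idx) =>
        Sum.elim
          (fun j' : Fin D.rank => Sum.elim
            (fun j : Fin D.rank => (if j' = j then (1 : F) else 0) - (if (j' : ℕ) = i then ((D.cartan j (D.simple i) : ℤ) : F) else 0))
            (fun _ => (0 : F)) col)
          (fun s' : Fin D.nroots => Sum.elim
            (fun _ => (0 : F))
            (fun s : Fin D.nroots => if (s' : ℕ) = D.reflectRoot i s then ((η s : ℤ) : F) else 0) col)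
          row) := by
    intro G R E
    obtain ⟨e1, e2, e3⟩ := E i hi
    refine ⟨G.eta i, fun s hs => G.eta_sq i hi s hs, e1, e2, fun s hs => ⟨e3 s hs, G.eta_neg i hi s hs⟩, ?_⟩
    rw [R.nmat i hi]
    unfold Cfsg.Agent.Chev.monoMat
    ext row col
    rcases row with a | a <;> rcases col with b | b <;> simp only [Matrix.of_apply, Sum.elim_inl, Sum.elim_inr]
  simp only [List.mem_cons, List.not_mem_nil, or_false] at hD
  rcases hD with rfl | rfl | rfl | rfl | rfl | rfl | rfl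
  · exact key Cfsg.Agent.Chev.goodG2 (Cfsg.Agent.Chev.relsG2 F) Cfsg.Agent.Chev.etaFactsG2
  · exact key Cfsg.Agent.Chev.goodB2 (Cfsg.Agent.Chev.relsB2 F) Cfsg.Agent.Chev.etaFactsB2
  · exact key Cfsg.Agent.Chev.goodD4 (Cfsg.Agent.Chev.relsD4 F) Cfsg.Agent.Chev.etaFactsD4
  · exact key Cfsg.Agent.Chev.goodF4 (Cfsg.Agent.Chev.relsF4 F) Cfsg.Agent.Chev.etaFactsF4
  · exact key Cfsg.Agent.Chev.goodE6 (Cfsg.Agent.Chev.relsE6 F) Cfsg.Agent.Chev.etaFactsE6
  · exact key Cfsg.Agent.Chev.goodE7 (Cfsg.Agent.Chev.relsE7 F) Cfsg.Agent.Chev.etaFactsE7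
  · exact key Cfsg.Agent.Chev.goodE8 (Cfsg.Agent.Chev.relsE8 F) Cfsg.Agent.Chev.etaFactsE8

end Cfsg.Agent.S1095
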