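import Cfsg.Statements.S1099
import Cfsg.Agent.Chev.TwG3

set_option autoImplicit false
open Cfsg

namespace Cfsg.Agent.S1099

/-- Graph automorphism of G₂ in characteristic 3 (K perfect): `x_a(t) ↦ x_b(t³)`, `x_b(t) ↦ x_a(t)`, `x_{-a}(t) ↦ x_{-b}(t³)`, `x_{-b}(t) ↦ x_{-a}(t)` extend to an automorphism of the group. -/
theorem result {K : Type*} [Field K] [CharP K 3] (hperf : ∀ x : K, ∃ y : K, y ^ 3 = x) :
    ∃ α : ↥(Cfsg.Lie.chevG2.group K) ≃* ↥(Cfsg.Lie.chevG2.group K), ∀ (g : ↥(Cfsg.Lie.chevG2.group K)) (t : K),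
      (((g : GL Cfsg.Lie.chevG2.Idx K) : Matrix _ _ K) = Cfsg.Lie.chevG2.x K Cfsg.Lie.g2a t →
        ((α g : GL Cfsg.Lie.chevG2.Idx K) : Matrix _ _ K) = Cfsg.Lie.chevG2.x K Cfsg.Lie.g2b (t ^ 3)) ∧
      (((g : GL Cfsg.Lie.chevG2.Idx K) : Matrix _ _ K) = Cfsg.Lie.chevG2.x K Cfsg.Lie.g2b t →
        ((α g : GL Cfsg.Lie.chevG2.Idx K) : Matrix _ _ K) = Cfsg.Lie.chevG2.x K Cfsg.Lie.g2a t) ∧
      (((g : GL Cfsg.Lie.chevG2.Idx K) : Matrix _ _ K) = Cfsg.Lie.chevG2.x K Cfsg.Lie.g2ma t →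
        ((α g : GL Cfsg.Lie.chevG2.Idx K) : Matrix _ _ K) = Cfsg.Lie.chevG2.x K Cfsg.Lie.g2mb (t ^ 3)) ∧
      (((g : GL Cfsg.Lie.chevG2.Idx K) : Matrix _ _ K) = Cfsg.Lie.chevG2.x K Cfsg.Lie.g2mb t →
        ((α g : GL Cfsg.Lie.chevG2.Idx K) : Matrix _ _ K) = Cfsg.Lie.chevG2.x K Cfsg.Lie.g2ma t) := by
  obtain ⟨α, hα⟩ := Cfsg.Agent.Chev.graph_autG2 hperf
  refine ⟨α, fun g t => ?_⟩
  have key : ∀ r : ℕ, r < 12 → ((g : GL Cfsg.Lie.chevG2.Idx K) : Matrix _ _ K) = Cfsg.Lie.chevG2.x K r t →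
      ((α g : GL Cfsg.Lie.chevG2.Idx K) : Matrix _ _ K) =
        Cfsg.Lie.chevG2.x K (Cfsg.Agent.Chev.rhoG2 r) (t ^ Cfsg.Agent.Chev.lamG2 r) := by
    intro r hr h
    have e : g = ⟨(Cfsg.Agent.Chev.relsG2 K).xg r t, (Cfsg.Agent.Chev.relsG2 K).xg_mem_group r t⟩ :=
      Subtype.ext (Units.ext h)
    rw [e, hα r t hr]
    rfl
  refine ⟨fun h => key 7 (by decide) h, fun h => ?_, fun h => key 4 (by decide) h, fun h => ?_⟩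
  · have := key 6 (by decide) h
    rw [this]
    show Cfsg.Lie.chevG2.x K 7 (t ^ 1) = _
    rw [pow_one]
    rfl
  · have := key 5 (by decide) h
    rw [this]
    show Cfsg.Lie.chevG2.x K 4 (t ^ 1) = _
    rw [pow_one]
    rfl

end Cfsg.Agent.S1099
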