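import Cfsg.Statements.S1109
import Cfsg.Agent.Chev.Tw12

set_option autoImplicit false
open Cfsg

namespace Cfsg.Agent.S1109

/-- The normal core of `B¹ = G¹ ∩ B` in ³D₄(q) is trivial. -/
theorem result {K : Type*} [Field K] [Fintype K] {q : ℕ} (hq : IsPrimePow q) (hK : Fintype.card K = q ^ 3) :
    ((Cfsg.Lie.chevD4.borelSubgroup K ⊓ Cfsg.Lie.twistedD4 K q).subgroupOf (Cfsg.Lie.twistedD4 K q)).normalCore = ⊥ := by
  rw [Cfsg.Agent.Chev.twistedD4_eq hq hK]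
  exact (Cfsg.Agent.Chev.twsD4 hq hK).core_trivial Cfsg.Agent.Chev.good2D4 Cfsg.Agent.Chev.twxD4

end Cfsg.Agent.S1109
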