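import Cfsg.Statements.S1118
import Cfsg.Agent.Lib.Helper8.RankOne

set_option autoImplicit false
open Cfsg

namespace Cfsg.Agent.S1118

open Cfsg.Agent.Lib.Helper8 MulAction

/-- In the rank-one set-up (`G` finite and doubly transitive on `Ω`, `t` an involution moving `a`, `Q` normal in `G_a` with `G_a = Q D`, `Q ⊓ D = 1` for the two-point stabiliser `D = G_a ⊓ G_{t • a}`, `|Q|` even, `|D|` odd), the normaliser of a subset of `Q` containing a non-identity element lies in `G_a`; consequently `N_G(Q) = N_G(G_a) = G_a`. -/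
theorem result {G Ω : Type*} [Group G] [Finite G] [MulAction G Ω] {a : Ω} {t : G} {Q : Subgroup G}
    (hS : Cfsg.IsRankOneSetup G Ω a t Q) :
    (∀ X : Set G, X ⊆ (Q : Set G) → (∃ x ∈ X, x ≠ 1) → Subgroup.normalizer X ≤ MulAction.stabilizer G a) ∧
      Subgroup.normalizer (Q : Set G) = MulAction.stabilizer G a ∧
      Subgroup.normalizer (MulAction.stabilizer G a : Set G) = MulAction.stabilizer G a := by
  have key : ∀ X : Set G, X ⊆ (Q : Set G) → (∃ x ∈ X, x ≠ 1) →
      Subgroup.normalizer X ≤ MulAction.stabilizer G a := by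
    intro X hX ⟨x, hx, hx1⟩ g hg
    have h1 : g * x * g⁻¹ ∈ X := (hg x).mp hx
    have h2 : g * x * g⁻¹ ≠ 1 := by
      intro h
      apply hx1
      have : x = g⁻¹ * (g * x * g⁻¹) * g := by group
      rw [this, h]; group
    show g • a = a
    apply RO.fix_eq hS (hX h1) h2
    rw [mul_smul, mul_smul, inv_smul_smul, RO.Q_fix hS (hX hx)]
  obtain ⟨s, hsQ, hs1, hss⟩ := RO.exists_invol_Q hS
  refine ⟨key, ?_, ?_⟩
  · apply le_antisymm
    · exact key Q subset_rfl ⟨s, hsQ, hs1⟩
    · intro g hg
      rw [Subgroup.mem_normalizer_iff]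
      intro x
      constructor
      · exact hS.conj_mem g hg x
      · intro hx
        have := hS.conj_mem g⁻¹ (Subgroup.inv_mem _ hg) _ hx
        have e : g⁻¹ * (g * x * g⁻¹) * g⁻¹⁻¹ = x := by group
        rwa [e] at this
  · apply le_antisymm
    · intro g hg
      have h1 : g * s * g⁻¹ ∈ stabilizer G a :=
        (Subgroup.mem_normalizer_iff.mp hg s).mp (hS.le hsQ)
      have h2 : s • (g⁻¹ • a) = g⁻¹ • a := by
        have h3 : (g * s * g⁻¹) • a = a := h1
        rw [mul_smul, mul_smul] at h3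
        calc s • g⁻¹ • a = g⁻¹ • (g • s • g⁻¹ • a) := by rw [inv_smul_smul]
          _ = g⁻¹ • a := by rw [h3]
      have h4 := RO.fix_eq hS hsQ hs1 h2
      show g • a = a
      calc g • a = g • (g⁻¹ • a) := by rw [h4]
        _ = a := smul_inv_smul g a
    · exact Subgroup.le_normalizer

end Cfsg.Agent.S1118
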