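import Cfsg.Statements.S1119
import Cfsg.Agent.Lib.Helper8.RankOne6

set_option autoImplicit false
open Cfsg

namespace Cfsg.Agent.S1119

open Cfsg.Agent.Lib.Helper8 MulAction

/-- In the rank-one set-up (`G` finite and doubly transitive on `Ω`, `t` an involution moving `a`, `Q` normal in `G_a` with `G_a = Q D`, `Q ⊓ D = 1` for the two-point stabiliser `D = G_a ⊓ G_{t • a}`, `|Q|` even, `|D|` odd): `Q` acts regularly on `Ω` minus `a`; hence `|Ω| = |Q| + 1`, `|G| = |Q| |D| (|Q| + 1)`, some Sylow 2-subgroup of `G` lies in `Q`, and each `g ∉ G_a` is uniquely `x t y` with `x ∈ G_a`, `y ∈ Q` (canonical form). -/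
theorem result {G Ω : Type*} [Group G] [Finite G] [MulAction G Ω] {a : Ω} {t : G} {Q : Subgroup G}
    (hS : Cfsg.IsRankOneSetup G Ω a t Q) :
    (∀ b c : Ω, b ≠ a → c ≠ a → ∃! x : Q, (x : G) • b = c) ∧
      Nat.card Ω = Nat.card Q + 1 ∧
      Nat.card G = Nat.card Q * Nat.card ↥(MulAction.stabilizer G a ⊓ MulAction.stabilizer G (t • a)) * (Nat.card Q + 1) ∧
      (∃ P : Sylow 2 G, (P : Subgroup G) ≤ Q) ∧
      ∀ g : G, g ∉ MulAction.stabilizer G a → ∃! p : G × G, p.1 ∈ MulAction.stabilizer G a ∧ p.2 ∈ Q ∧ g = p.1 * t * p.2 := by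
  have htt := hS.mul_self
  have hti := RO.t_inv hS
  have hcardΩ : Nat.card Ω = Nat.card Q + 1 := by
    let φ : Option Q → Ω := fun o => o.elim a (fun x => (x : G) • t • a)
    have hφ : Function.Bijective φ := by
      constructor
      · intro o o' h
        cases o with
        | none =>
          cases o' with
          | none => rfl
          | some y =>
            exfalso
            change a = (y : G) • t • a at h
            have h1 : (y : G)⁻¹ • a = t • a := by rw [inv_smul_eq_iff]; exact h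
            rw [RO.Q_fix hS (Q.inv_mem y.2)] at h1
            exact RO.ta_ne hS h1.symm
        | some x =>
          cases o' with
          | none =>
            exfalso
            change (x : G) • t • a = a at h
            have h1 : (x : G)⁻¹ • a = t • a := by rw [inv_smul_eq_iff]; exact h.symm
            rw [RO.Q_fix hS (Q.inv_mem x.2)] at h1
            exact RO.ta_ne hS h1.symm
          | some y =>
            change (x : G) • t • a = (y : G) • t • a at h
            exact congrArg some (Subtype.ext (RO.Q_unique hS (RO.ta_ne hS) x.2 y.2 h))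
      · intro c
        by_cases hc : c = a
        · exact ⟨none, hc.symm⟩
        · obtain ⟨x, hx, hxc⟩ := RO.Q_trans hS (RO.ta_ne hS) hc
          exact ⟨some ⟨x, hx⟩, hxc⟩
    rw [← Nat.card_congr (Equiv.ofBijective φ hφ), Finite.card_option]
  have hcardGa : Nat.card (stabilizer G a) =
      Nat.card Q * Nat.card ↥(stabilizer G a ⊓ stabilizer G (t • a)) := by
    let ψ : Q × ↥(stabilizer G a ⊓ stabilizer G (t • a)) → stabilizer G a :=
      fun p => ⟨(p.1 : G) * (p.2 : G), Subgroup.mul_mem _ (hS.le p.1.2) p.2.2.1⟩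
    have hψ : Function.Bijective ψ := by
      constructor
      · intro p q h
        have h1 : (p.1 : G) * (p.2 : G) = (q.1 : G) * (q.2 : G) := congrArg Subtype.val h
        obtain ⟨h2, h3⟩ := RO.decomp_unique hS p.1.2 q.1.2 p.2.2 q.2.2 h1
        exact Prod.ext (Subtype.ext h2) (Subtype.ext h3)
      · intro g
        obtain ⟨x, hx, d, hd, hg⟩ := RO.decomp hS g.2
        exact ⟨(⟨x, hx⟩, ⟨d, hd⟩), Subtype.ext hg.symm⟩
    rw [← Nat.card_prod, Nat.card_congr (Equiv.ofBijective ψ hψ)]
  have hcardG : Nat.card G = Nat.card Q * Nat.card ↥(stabilizer G a ⊓ stabilizer G (t • a)) *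
      (Nat.card Q + 1) := by
    haveI := hS.two_transitive
    haveI : IsPretransitive G Ω := isPretransitive_of_is_two_pretransitive
    rw [← (stabilizer G a).card_mul_index, index_stabilizer_of_transitive, hcardΩ, hcardGa]
  refine ⟨?_, hcardΩ, hcardG, ?_, ?_⟩
  · intro b c hb hc
    obtain ⟨x, hx, hxc⟩ := RO.Q_trans hS hb hc
    refine ⟨⟨x, hx⟩, hxc, ?_⟩
    intro y hy
    exact Subtype.ext (RO.Q_unique hS hb y.2 hx (hy.trans hxc.symm))
  · haveI : Fact (Nat.Prime 2) := ⟨Nat.prime_two⟩
    obtain ⟨P₀⟩ : Nonempty (Sylow 2 Q) := inferInstance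
    have h1 : IsPGroup 2 ((P₀ : Subgroup Q).map Q.subtype) := P₀.2.map _
    have hQi : Q.index = Nat.card ↥(stabilizer G a ⊓ stabilizer G (t • a)) * (Nat.card Q + 1) := by
      have h3 := Q.card_mul_index
      rw [hcardG, mul_assoc] at h3
      exact Nat.eq_of_mul_eq_mul_left Nat.card_pos h3
    have h2 : ¬ 2 ∣ ((P₀ : Subgroup Q).map Q.subtype).index := by
      rw [Subgroup.index_map_subtype, hQi]
      intro h
      rcases (Nat.Prime.dvd_mul Nat.prime_two).mp h with h | h
      · exact P₀.not_dvd_index h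
      · rcases (Nat.Prime.dvd_mul Nat.prime_two).mp h with h | h
        · exact (Nat.not_even_iff_odd.mpr hS.odd_card) (even_iff_two_dvd.mpr h)
        · exact (Nat.not_even_iff_odd.mpr hS.even_card.add_one) (even_iff_two_dvd.mpr h)
    refine ⟨h1.toSylow h2, ?_⟩
    rw [IsPGroup.toSylow_coe]
    exact Subgroup.map_subtype_le _
  · intro g hg
    have hg' : g⁻¹ • a ≠ a := by
      intro h
      apply hg
      rw [inv_smul_eq_iff] at h
      exact h.symm
    obtain ⟨y, hy, hyc⟩ := RO.Q_trans hS hg' (RO.ta_ne hS)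
    have key : ∀ x y : G, x ∈ stabilizer G a → g = x * t * y → g⁻¹ • a = y⁻¹ • t • a := by
      intro x y hx h
      have h1 : x⁻¹ • a = a := Subgroup.inv_mem _ hx
      rw [h, mul_inv_rev, mul_inv_rev, hti, mul_smul, mul_smul, h1]
    refine ⟨(g * y⁻¹ * t, y), ⟨?_, hy, ?_⟩, ?_⟩
    · show (g * y⁻¹ * t) • a = a
      rw [mul_smul, mul_smul, ← hyc, inv_smul_smul, smul_inv_smul]
    · show g = g * y⁻¹ * t * t * y
      calc g = g * y⁻¹ * (t * t) * y := by rw [htt]; group
        _ = g * y⁻¹ * t * t * y := by group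
    · rintro ⟨x', y'⟩ ⟨hx', hy', h'⟩
      change x' ∈ stabilizer G a at hx'
      change y' ∈ Q at hy'
      change g = x' * t * y' at h'
      have h1 := key x' y' hx' h'
      have h2 : y⁻¹ • t • a = y'⁻¹ • t • a := by
        rw [← h1, ← hyc, inv_smul_smul]
      have h3 : y = y' := inv_injective (RO.Q_unique hS (RO.ta_ne hS) (Q.inv_mem hy) (Q.inv_mem hy') h2)
      subst h3
      have h4 : x' = g * y⁻¹ * t := by
        rw [h']
        calc x' = x' * (t * t) := by rw [htt, mul_one]
          _ = x' * t * y * y⁻¹ * t := by group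
      rw [h4]

end Cfsg.Agent.S1119
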