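import Cfsg.Statements.S1120
import Cfsg.Agent.Lib.Helper8.RankOne6
import Cfsg.Agent.Lib.Helper8.OddInv2

set_option autoImplicit false
open Cfsg

namespace Cfsg.Agent.S1120

open Cfsg.Agent.Lib.Helper8 MulAction

/-- In the rank-one set-up (`G` finite and doubly transitive on `Ω`, `t` an involution moving `a`, `Q` normal in `G_a` with `G_a = Q D`, `Q ⊓ D = 1` for the two-point stabiliser `D = G_a ⊓ G_{t • a}`, `|Q|` even, `|D|` odd), if `G` has 2-rank at least 2 then `O_{2'}(G)` equals the normal core of `G_a`. -/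
theorem result {G Ω : Type*} [Group G] [Finite G] [MulAction G Ω] {a : Ω} {t : G} {Q : Subgroup G}
    (hS : Cfsg.IsRankOneSetup G Ω a t Q)
    (h2 : ∃ x y : G, x ≠ 1 ∧ y ≠ 1 ∧ x ≠ y ∧ x * x = 1 ∧ y * y = 1 ∧ x * y = y * x) :
    Cfsg.pPrimeCore 2 G = (MulAction.stabilizer G a).normalCore := by
  obtain ⟨x, y, hx1, hy1, hxyne, hxx, hyy, hxy⟩ := h2
  apply le_antisymm
  · apply sSup_le
    rintro N ⟨hN, hcop⟩
    rw [Subgroup.normal_le_normalCore]
    have hodd : Odd (Nat.card N) := Nat.Coprime.odd_of_right hcop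
    obtain ⟨c, hxc, hcu⟩ := RO.exists_fix hS hx1 hxx
    -- anything commuting with an involution fixing `c` fixes `c`
    have hxy1 : x * y ≠ 1 := by
      intro h
      apply hxyne
      calc x = x * (y * y) := by rw [hyy, mul_one]
        _ = (x * y) * y := by group
        _ = y := by rw [h, one_mul]
    have hxyxy : (x * y) * (x * y) = 1 := by
      calc (x * y) * (x * y) = x * (y * x) * y := by group
        _ = x * (x * y) * y := by rw [hxy]
        _ = (x * x) * (y * y) := by group
        _ = 1 := by rw [hxx, hyy, one_mul]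
    have hyc : y • c = c := by
      apply hcu
      rw [← mul_smul, hxy, mul_smul, hxc]
    have hcent : ∀ v : G, v ≠ 1 → v * v = 1 → v • c = c → ∀ n : G, v * n = n * v → n • c = c := by
      intro v hv1 hvv hvc n hn
      obtain ⟨c', hc', hcu'⟩ := RO.exists_fix hS hv1 hvv
      have h1 : c = c' := hcu' c hvc
      subst h1
      apply hcu'
      rw [← mul_smul, hn, mul_smul, hvc]
    have hNc : ∀ n ∈ N, n • c = c := by
      intro n hn
      obtain ⟨n₁, -, n₂, -, n₃, -, h1, h2, h3, rfl⟩ := fourgroup_gen hxx hyy hxy hodd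
        (fun n hn => hN.conj_mem n hn x) (fun n hn => hN.conj_mem n hn y) hn
      have e1 := hcent x hx1 hxx hxc n₁ h1
      have e2 := hcent y hy1 hyy hyc n₂ h2
      have e3 := hcent (x * y) hxy1 hxyxy (by rw [mul_smul, hyc, hxc]) n₃ h3
      rw [mul_smul, mul_smul, mul_smul, e2, e3, e2, e1]
    intro n hn
    have := hS.two_transitive
    have : IsPretransitive G Ω := isPretransitive_of_is_two_pretransitive
    obtain ⟨g, hg⟩ := exists_smul_eq G a c
    have h1 := hNc _ (hN.conj_mem n hn g)
    show n • a = a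
    rw [← hg, mul_smul, mul_smul, inv_smul_smul] at h1
    exact smul_left_cancel g h1
  · apply le_sSup
    refine ⟨inferInstance, ?_⟩
    have hle : (stabilizer G a).normalCore ≤ stabilizer G a ⊓ stabilizer G (t • a) := by
      intro g hg
      refine Subgroup.mem_inf.mpr ⟨Subgroup.normalCore_le _ hg, ?_⟩
      have h1 : t⁻¹ * g * t⁻¹⁻¹ ∈ (stabilizer G a).normalCore :=
        (Subgroup.normalCore_normal _).conj_mem g hg t⁻¹
      have h2 : (t⁻¹ * g * t⁻¹⁻¹) • a = a := Subgroup.normalCore_le _ h1
      show g • t • a = t • a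
      rw [inv_inv, mul_smul, mul_smul, inv_smul_eq_iff] at h2
      exact h2
    have hodd : Odd (Nat.card (stabilizer G a).normalCore) :=
      Odd.of_dvd_nat hS.odd_card (Subgroup.card_dvd_of_le hle)
    exact Nat.Coprime.symm (Nat.coprime_two_left.mpr hodd)

end Cfsg.Agent.S1120
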