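import Cfsg.Statements.S1121
import Cfsg.Agent.Lib.Helper8.RankOne

set_option autoImplicit false
open Cfsg

namespace Cfsg.Agent.S1121

open Cfsg.Agent.Lib.Helper8 MulAction

/-- In the rank-one set-up (`G` finite and doubly transitive on `Ω`, `t` an involution moving `a`, `Q` normal in `G_a` with `G_a = Q D`, `Q ⊓ D = 1` for the two-point stabiliser `D = G_a ⊓ G_{t • a}`, `|Q|` even, `|D|` odd): if `s` is an involution of `G_a` and `u` an involution outside `G_a`, then `s u` has odd order; and any two involutions of `G` are conjugate. -/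
theorem result {G Ω : Type*} [Group G] [Finite G] [MulAction G Ω] {a : Ω} {t : G} {Q : Subgroup G}
    (hS : Cfsg.IsRankOneSetup G Ω a t Q) :
    (∀ s u : G, s ∈ MulAction.stabilizer G a → s ≠ 1 → s * s = 1 → u ∉ MulAction.stabilizer G a → u ≠ 1 → u * u = 1 → Odd (orderOf (s * u))) ∧
      ∀ u v : G, u ≠ 1 → u * u = 1 → v ≠ 1 → v * v = 1 → ∃ g : G, g * u * g⁻¹ = v := by
  refine ⟨fun s u hs hs1 hss hu _ huu => RO.odd_mul hS hs hs1 hss hu huu, ?_⟩
  obtain ⟨s, hsQ, hs1, hss⟩ := RO.exists_invol_Q hS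
  -- every involution is conjugate to `t`
  have key : ∀ u : G, u ≠ 1 → u * u = 1 → ∃ g : G, g * u * g⁻¹ = t := by
    intro u hu1 huu
    by_cases hu : u ∈ stabilizer G a
    · obtain ⟨v, hvv, hv⟩ := RO.conj_of_invol hS hu hu1 huu hS.not_mem hS.mul_self
      exact ⟨v, by rw [inv_eq_self_of_mul_self hvv]; exact hv⟩
    · obtain ⟨v, hvv, hv⟩ := RO.conj_of_invol hS (hS.le hsQ) hs1 hss hu huu
      obtain ⟨w, hww, hw⟩ := RO.conj_of_invol hS (hS.le hsQ) hs1 hss hS.not_mem hS.mul_self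
      refine ⟨w * v, ?_⟩
      rw [← hv, ← hw, mul_inv_rev, inv_eq_self_of_mul_self hvv, inv_eq_self_of_mul_self hww]
      calc w * v * (v * s * v) * (v * w) = w * (v * v) * s * (v * v) * w := by group
        _ = w * s * w := by rw [hvv]; group
  intro u v hu1 huu hv1 hvv
  obtain ⟨g, hg⟩ := key u hu1 huu
  obtain ⟨h, hh⟩ := key v hv1 hvv
  refine ⟨h⁻¹ * g, ?_⟩
  calc h⁻¹ * g * u * (h⁻¹ * g)⁻¹ = h⁻¹ * (g * u * g⁻¹) * h := by group
    _ = h⁻¹ * (h * v * h⁻¹) * h := by rw [hg, hh]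
    _ = v := by group

end Cfsg.Agent.S1121
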