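import Cfsg.Statements.S1124
import Cfsg.Agent.Lib.Helper8.OddInv

set_option autoImplicit false
open scoped Pointwise
open Cfsg

namespace Cfsg.Agent.S1124

open Cfsg.Agent.Lib.Helper8

/-- Let `t` be an element of order 2 of a finite group normalising a subgroup `X` of odd order, `Y = C_X(t)` and `Z` the set of elements of `X` inverted by `t`. Then `(y, z) ↦ y z` is a bijection `Y × Z → X`, so `|X| = |Y| |Z|`, and the subgroup generated by `Z` is normal in `X`. -/
theorem result {M : Type*} [Group M] [Finite M]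
    (t : M) (ht : orderOf t = 2) (X : Subgroup M) (hodd : Odd (Nat.card X))
    (hnorm : ∀ x ∈ X, t * x * t⁻¹ ∈ X) :
    (∀ x ∈ X, ∃! p : M × M, p.1 ∈ X ⊓ Subgroup.centralizer {t} ∧ p.2 ∈ Cfsg.invertedBy X t ∧ x = p.1 * p.2) ∧
      Nat.card X = Nat.card ↥(X ⊓ Subgroup.centralizer {t}) * Nat.card (Cfsg.invertedBy X t) ∧
      ∀ x ∈ X, MulAut.conj x • Subgroup.closure (Cfsg.invertedBy X t) = Subgroup.closure (Cfsg.invertedBy X t) := by
  have htt := mul_self_of_orderOf_two ht
  refine ⟨?_, oddinv_card htt hodd hnorm, ?_⟩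
  · intro x hx
    obtain ⟨y, z, hy, hz, hxyz⟩ := oddinv_exists htt hodd hnorm hx
    refine ⟨(y, z), ⟨hy, hz, hxyz⟩, ?_⟩
    rintro ⟨y', z'⟩ ⟨hy', hz', h'⟩
    obtain ⟨h1, h2⟩ := oddinv_unique hodd hy' hz' hy hz (h'.symm.trans hxyz)
    exact Prod.ext h1 h2
  · have key : ∀ x ∈ X, ∀ n ∈ Subgroup.closure (Cfsg.invertedBy X t),
        x * n * x⁻¹ ∈ Subgroup.closure (Cfsg.invertedBy X t) := by
      intro x hx n hn
      obtain ⟨y, z, hy, hz, hxyz⟩ := oddinv_exists htt hodd hnorm hx
      have hzN : z ∈ Subgroup.closure (Cfsg.invertedBy X t) := Subgroup.subset_closure hz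
      have h1 : z * n * z⁻¹ ∈ Subgroup.closure (Cfsg.invertedBy X t) :=
        mul_mem (mul_mem hzN hn) (inv_mem hzN)
      have hyt := Subgroup.mem_centralizer_singleton_iff.mp (Subgroup.mem_inf.mp hy).2
      have hyX := (Subgroup.mem_inf.mp hy).1
      have h2 : ∀ m ∈ Subgroup.closure (Cfsg.invertedBy X t),
          y * m * y⁻¹ ∈ Subgroup.closure (Cfsg.invertedBy X t) := by
        intro m hm
        induction hm using Subgroup.closure_induction with
        | mem w hw =>
          apply Subgroup.subset_closure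
          refine ⟨X.mul_mem (X.mul_mem hyX hw.1) (X.inv_mem hyX), ?_⟩
          have hyt' : y⁻¹ * t⁻¹ = t⁻¹ * y⁻¹ := by
            rw [← mul_inv_rev, ← mul_inv_rev, hyt]
          calc t * (y * w * y⁻¹) * t⁻¹ = (t * y) * w * (y⁻¹ * t⁻¹) := by group
            _ = (y * t) * w * (t⁻¹ * y⁻¹) := by rw [hyt, hyt']
            _ = y * (t * w * t⁻¹) * y⁻¹ := by group
            _ = y * w⁻¹ * y⁻¹ := by rw [hw.2]
            _ = (y * w * y⁻¹)⁻¹ := by group
        | one => simp
        | mul a b _ _ ha hb =>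
          have : y * (a * b) * y⁻¹ = (y * a * y⁻¹) * (y * b * y⁻¹) := by group
          rw [this]; exact mul_mem ha hb
        | inv a _ ha =>
          have : y * a⁻¹ * y⁻¹ = (y * a * y⁻¹)⁻¹ := by group
          rw [this]; exact inv_mem ha
      have := h2 _ h1
      rw [hxyz]
      convert this using 1
      group
    intro x hx
    ext n
    rw [Subgroup.mem_pointwise_smul_iff_inv_smul_mem]
    constructor
    · intro h
      have := key x hx _ h
      simpa [MulAut.smul_def, mul_assoc] using this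
    · intro h
      have := key x⁻¹ (X.inv_mem hx) _ h
      simpa [MulAut.smul_def, mul_assoc] using this

end Cfsg.Agent.S1124
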