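import Cfsg.Statements.S1125
import Cfsg.Agent.Lib.Helper8.RankOne2

set_option autoImplicit false
open Cfsg

namespace Cfsg.Agent.S1125

open Cfsg.Agent.Lib.Helper8 MulAction

/-- In the rank-one set-up (`G` finite and doubly transitive on `Ω`, `t` an involution moving `a`, `Q` normal in `G_a` with `G_a = Q D`, `Q ⊓ D = 1` for the two-point stabiliser `D = G_a ⊓ G_{t • a}`, `|Q|` even, `|D|` odd), let `X ⊆ D` fix at least three points of `Ω`. Then `C_G(X)` is doubly transitive on the fixed-point set of `X`, `|C_Q(X)|` is even, and `C_{G_a}(X) = C_Q(X) C_D(X)`. -/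
theorem result {G Ω : Type*} [Group G] [Finite G] [MulAction G Ω] {a : Ω} {t : G} {Q : Subgroup G}
    (hS : Cfsg.IsRankOneSetup G Ω a t Q)
    (X : Set G) (hX : X ⊆ ((MulAction.stabilizer G a ⊓ MulAction.stabilizer G (t • a)) : Set G))
    (h3 : ∃ b c d : Ω, b ≠ c ∧ b ≠ d ∧ c ≠ d ∧ ∀ x ∈ X, x • b = b ∧ x • c = c ∧ x • d = d) :
    (∀ b₁ b₂ c₁ c₂ : Ω, (∀ x ∈ X, x • b₁ = b₁ ∧ x • b₂ = b₂ ∧ x • c₁ = c₁ ∧ x • c₂ = c₂) →
        b₁ ≠ b₂ → c₁ ≠ c₂ → ∃ g ∈ Subgroup.centralizer X, g • b₁ = c₁ ∧ g • b₂ = c₂) ∧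
      Even (Nat.card ↥(Subgroup.centralizer X ⊓ Q)) ∧
      (Subgroup.centralizer X ⊓ Q) ⊔ (Subgroup.centralizer X ⊓ (MulAction.stabilizer G a ⊓ MulAction.stabilizer G (t • a))) = Subgroup.centralizer X ⊓ MulAction.stabilizer G a := by
  have ha : ∀ x ∈ X, x • a = a := fun x hx => (hX hx).1
  have hb : ∀ x ∈ X, x • (t • a) = t • a := fun x hx => (hX hx).2
  refine ⟨?_, ?_, ?_⟩
  · intro b₁ b₂ c₁ c₂ hfix hb12 hc12
    obtain ⟨g, hg, hg1, hg2⟩ := RO.cent_to_base hS hX h3 (fun x hx => (hfix x hx).1)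
      (fun x hx => (hfix x hx).2.1) hb12
    obtain ⟨h, hh, hh1, hh2⟩ := RO.cent_to_base hS hX h3 (fun x hx => (hfix x hx).2.2.1)
      (fun x hx => (hfix x hx).2.2.2) hc12
    refine ⟨h⁻¹ * g, Subgroup.mul_mem _ (Subgroup.inv_mem _ hh) hg, ?_, ?_⟩
    · rw [mul_smul, hg1, ← hh1, inv_smul_smul]
    · rw [mul_smul, hg2, ← hh2, inv_smul_smul]
  · obtain ⟨w, hw, hww, hwa, hwb⟩ := RO.exists_invol_swap_cent hS hX h3
    have hw1 : w ≠ 1 := by
      rintro rfl
      rw [one_smul] at hwa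
      exact RO.ta_ne hS hwa.symm
    obtain ⟨c, hc, hcu⟩ := RO.exists_fix hS hw1 hww
    have hcfix : ∀ x ∈ X, x • c = c := by
      intro x hx
      apply hcu
      rw [← mul_smul, ← Subgroup.mem_centralizer_iff.mp hw x hx, mul_smul, hc]
    have hca : c ≠ a := by
      rintro rfl
      rw [hc] at hwa
      exact RO.ta_ne hS hwa.symm
    obtain ⟨h, hh, hh1, -⟩ := RO.cent_to_base hS hX h3 hcfix ha hca
    have hmem : h * w * h⁻¹ ∈ Subgroup.centralizer X ⊓ Q := by
      refine Subgroup.mem_inf.mpr ⟨Subgroup.mul_mem _ (Subgroup.mul_mem _ hh hw) (Subgroup.inv_mem _ hh), ?_⟩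
      apply RO.invol_mem_Q hS
      · show (h * w * h⁻¹) • a = a
        rw [mul_smul, mul_smul, ← hh1, inv_smul_smul, hc]
      · exact conj_mul_self hww h
    have hne : h * w * h⁻¹ ≠ 1 := by
      intro h'
      apply hw1
      have : w = h⁻¹ * (h * w * h⁻¹) * h := by group
      rw [this, h']; group
    have hord : orderOf (⟨h * w * h⁻¹, hmem⟩ : ↥(Subgroup.centralizer X ⊓ Q)) = 2 := by
      rw [Subgroup.orderOf_mk]
      exact orderOf_two_of hne (conj_mul_self hww h)
    rw [even_iff_two_dvd, ← hord]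
    exact orderOf_dvd_natCard _
  · apply le_antisymm
    · apply sup_le
      · exact inf_le_inf_left _ hS.le
      · exact inf_le_inf_left _ inf_le_left
    · intro g hg
      obtain ⟨hgC, hga⟩ := Subgroup.mem_inf.mp hg
      obtain ⟨q, hq, d, hd, rfl⟩ := RO.decomp hS hga
      have key : ∀ x ∈ X, x * q * x⁻¹ = q ∧ x * d * x⁻¹ = d := by
        intro x hx
        have hxD := hX hx
        apply RO.decomp_unique hS (RO.D_norm hS x hxD q hq) hq
          (Subgroup.mul_mem _ (Subgroup.mul_mem _ hxD hd) (Subgroup.inv_mem _ hxD)) hd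
        have := Subgroup.mem_centralizer_iff.mp hgC x hx
        calc x * q * x⁻¹ * (x * d * x⁻¹) = (x * (q * d)) * x⁻¹ := by group
          _ = (q * d * x) * x⁻¹ := by rw [this]
          _ = q * d := by group
      apply Subgroup.mul_mem
      · apply (le_sup_left : _ ≤ (Subgroup.centralizer X ⊓ Q) ⊔ _)
        refine Subgroup.mem_inf.mpr ⟨?_, hq⟩
        rw [Subgroup.mem_centralizer_iff]
        intro x hx
        calc x * q = (x * q * x⁻¹) * x := by group
          _ = q * x := by rw [(key x hx).1]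
      · apply (le_sup_right : _ ≤ _ ⊔ (Subgroup.centralizer X ⊓ (stabilizer G a ⊓ stabilizer G (t • a))))
        refine Subgroup.mem_inf.mpr ⟨?_, hd⟩
        rw [Subgroup.mem_centralizer_iff]
        intro x hx
        calc x * d = (x * d * x⁻¹) * x := by group
          _ = d * x := by rw [(key x hx).2]

end Cfsg.Agent.S1125
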