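import Cfsg.Statements.S1127
import Cfsg.Agent.Lib.Helper8.RankOne5

set_option autoImplicit false
open Cfsg

namespace Cfsg.Agent.S1127

open Cfsg.Agent.Lib.Helper8

/-- In the rank-one set-up (`G` finite and doubly transitive on `Ω`, `t` an involution moving `a`, `Q` normal in `G_a` with `G_a = Q D`, `Q ⊓ D = 1` for the two-point stabiliser `D = G_a ⊓ G_{t • a}`, `|Q|` even, `|D|` odd): if `s` is an involution of `G_a` and `r ∈ Q` satisfy `t s t = r⁻¹ t r`, then `C_D(t) = C_D(s)`; moreover `C_D(t) ⊓ C_D(K) = C_D(I ∩ G_a)`, where `K` is the set of elements of `D` inverted by `t` and `I ∩ G_a` the set of involutions of `G_a`. -/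
theorem result {G Ω : Type*} [Group G] [Finite G] [MulAction G Ω] {a : Ω} {t : G} {Q : Subgroup G}
    (hS : Cfsg.IsRankOneSetup G Ω a t Q) :
    (∀ s r : G, s ∈ Cfsg.involutionsIn (MulAction.stabilizer G a : Set G) → r ∈ Q → t * s * t = r⁻¹ * t * r →
        (MulAction.stabilizer G a ⊓ MulAction.stabilizer G (t • a)) ⊓ Subgroup.centralizer {t} = (MulAction.stabilizer G a ⊓ MulAction.stabilizer G (t • a)) ⊓ Subgroup.centralizer {s}) ∧
      (MulAction.stabilizer G a ⊓ MulAction.stabilizer G (t • a)) ⊓ Subgroup.centralizer {t} ⊓ Subgroup.centralizer (Cfsg.invertedBy (MulAction.stabilizer G a ⊓ MulAction.stabilizer G (t • a)) t) =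
        (MulAction.stabilizer G a ⊓ MulAction.stabilizer G (t • a)) ⊓ Subgroup.centralizer (Cfsg.involutionsIn (MulAction.stabilizer G a : Set G)) := by
  constructor
  · intro s r hs hr h
    ext d
    simp only [Subgroup.mem_inf, Subgroup.mem_centralizer_singleton_iff]
    constructor
    · rintro ⟨hd, hdt⟩
      exact ⟨hd, RO.V_le_cent hS hs hr h (Subgroup.mem_inf.mpr hd) hdt⟩
    · rintro ⟨hd, hds⟩
      exact ⟨hd, RO.cent_le_V hS hs hr h (Subgroup.mem_inf.mpr hd) hds⟩
  · obtain ⟨⟨s, r⟩, ⟨hs, hr, h⟩, -⟩ := Cfsg.Agent.S1123.result hS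
    change s ∈ Cfsg.involutionsIn (MulAction.stabilizer G a : Set G) at hs
    change r ∈ Q at hr
    change t * s * t = r⁻¹ * t * r at h
    ext d
    constructor
    · intro hd
      obtain ⟨hd1, hdK⟩ := Subgroup.mem_inf.mp hd
      obtain ⟨hdD, hdt⟩ := Subgroup.mem_inf.mp hd1
      rw [Subgroup.mem_centralizer_singleton_iff] at hdt
      rw [Subgroup.mem_centralizer_iff] at hdK
      refine Subgroup.mem_inf.mpr ⟨hdD, ?_⟩
      rw [Subgroup.mem_centralizer_iff]
      intro s' hs'
      obtain ⟨k, hk, rfl⟩ := RO.K_trans_base hS hs hr h hs'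
      have h1 := RO.V_le_cent hS hs hr h hdD hdt
      have h2 := hdK k hk
      have h3 : k⁻¹ * d = d * k⁻¹ := by
        calc k⁻¹ * d = k⁻¹ * (d * k) * k⁻¹ := by group
          _ = k⁻¹ * (k * d) * k⁻¹ := by rw [h2]
          _ = d * k⁻¹ := by group
      calc k⁻¹ * s * k * d = k⁻¹ * s * (k * d) := by group
        _ = k⁻¹ * s * (d * k) := by rw [h2]
        _ = k⁻¹ * (s * d) * k := by group
        _ = k⁻¹ * (d * s) * k := by rw [h1]
        _ = (k⁻¹ * d) * s * k := by group
        _ = d * (k⁻¹ * s * k) := by rw [h3]; group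
    · intro hd
      obtain ⟨hdD, hdI⟩ := Subgroup.mem_inf.mp hd
      rw [Subgroup.mem_centralizer_iff] at hdI
      have hdt := RO.cent_le_V hS hs hr h hdD (hdI s hs).symm
      refine Subgroup.mem_inf.mpr ⟨Subgroup.mem_inf.mpr ⟨hdD, ?_⟩, ?_⟩
      · rw [Subgroup.mem_centralizer_singleton_iff]; exact hdt
      · rw [Subgroup.mem_centralizer_iff]
        intro k hk
        have hs' : k⁻¹ * s * k ∈ Cfsg.involutionsIn (MulAction.stabilizer G a : Set G) := by
          have := RO.conj_mem_invol hs (Subgroup.inv_mem _ hk.1.1)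
          rwa [inv_inv] at this
        have h1 := hdI _ hs'
        have h2 : (k * d * k⁻¹) * s = s * (k * d * k⁻¹) := by
          calc (k * d * k⁻¹) * s = k * (d * (k⁻¹ * s * k)) * k⁻¹ := by group
            _ = k * ((k⁻¹ * s * k) * d) * k⁻¹ := by rw [h1]
            _ = s * (k * d * k⁻¹) := by group
        have h3 := RO.cent_le_V hS hs hr h
          (Subgroup.mul_mem _ (Subgroup.mul_mem _ hk.1 hdD) (Subgroup.inv_mem _ hk.1)) h2
        -- conjugating by `t`
        have h4 : t * d * t⁻¹ = d := by rw [← hdt]; group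
        have h5 : t * (k * d * k⁻¹) * t⁻¹ = k * d * k⁻¹ := by rw [← h3]; group
        have h6 : t * (k * d * k⁻¹) * t⁻¹ = k⁻¹ * d * k := by
          calc t * (k * d * k⁻¹) * t⁻¹ = (t * k * t⁻¹) * (t * d * t⁻¹) * (t * k * t⁻¹)⁻¹ := by group
            _ = k⁻¹ * d * k := by rw [hk.2, h4, inv_inv]
        rw [h5] at h6
        have h7 : Commute (k * k) d := by
          show (k * k) * d = d * (k * k)
          calc (k * k) * d = k * (k * d * k⁻¹) * k := by group
            _ = k * (k⁻¹ * d * k) * k := by rw [h6]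
            _ = d * (k * k) := by group
        obtain ⟨m, hm⟩ := RO.D_odd hS hk.1
        have h8 : k = (k * k) ^ (m + 1) := by
          rw [← pow_two, ← pow_mul]
          have : 2 * (m + 1) = (2 * m + 1) + 1 := by ring
          rw [this, pow_succ, ← hm, pow_orderOf_eq_one, one_mul]
        have h9 : Commute k d := by
          rw [h8]; exact h7.pow_left _
        exact h9

end Cfsg.Agent.S1127
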