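import Cfsg.Statements.S1128
import Cfsg.Agent.Lib.Helper8.RankOne3
import Cfsg.Agent.S1126

set_option autoImplicit false
open Cfsg

namespace Cfsg.Agent.S1128

open Cfsg.Agent.Lib.Helper8 MulAction

/-- In the rank-one set-up (`G` finite and doubly transitive on `Ω`, `t` an involution moving `a`, `Q` normal in `G_a` with `G_a = Q D`, `Q ⊓ D = 1` for the two-point stabiliser `D = G_a ⊓ G_{t • a}`, `|Q|` even, `|D|` odd), with the action faithful and `G` containing two distinct commuting involutions: every non-identity element of `D` inverted by `t` acts fixed-point-freely on `Q`. -/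
theorem result {G Ω : Type*} [Group G] [Finite G] [MulAction G Ω] [FaithfulSMul G Ω] {a : Ω} {t : G} {Q : Subgroup G}
    (hS : Cfsg.IsRankOneSetup G Ω a t Q)
    (h2 : ∃ x y : G, x ≠ 1 ∧ y ≠ 1 ∧ x ≠ y ∧ x * x = 1 ∧ y * y = 1 ∧ x * y = y * x)
    (x : G) (hx : x ∈ Cfsg.invertedBy (MulAction.stabilizer G a ⊓ MulAction.stabilizer G (t • a)) t) (hx1 : x ≠ 1) :
    Q ⊓ Subgroup.centralizer {x} = ⊥ := by
  rw [eq_bot_iff]
  intro q hq
  obtain ⟨hqQ, hqx⟩ := Subgroup.mem_inf.mp hq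
  rw [Subgroup.mem_centralizer_singleton_iff] at hqx
  rw [Subgroup.mem_bot]
  by_contra hq1
  have hti := RO.t_inv hS
  have hxD := hx.1
  have hxa : x • a = a := hxD.1
  have hxb : x • t • a = t • a := hxD.2
  have hqb : q • t • a ≠ t • a := fun h => hq1 (RO.semireg hS hqQ (RO.ta_ne hS) h)
  have hqba : q • t • a ≠ a := by
    intro h
    have h2 : q • t • a = q • a := by rw [h, RO.Q_fix hS hqQ]
    exact RO.ta_ne hS (smul_left_cancel q h2)
  have hX : ({x} : Set G) ⊆ ((stabilizer G a ⊓ stabilizer G (t • a) : Subgroup G) : Set G) := by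
    intro y hy; rw [Set.mem_singleton_iff.mp hy]; exact hxD
  have h3 : ∃ b c d : Ω, b ≠ c ∧ b ≠ d ∧ c ≠ d ∧ ∀ y ∈ ({x} : Set G), y • b = b ∧ y • c = c ∧ y • d = d := by
    refine ⟨a, t • a, q • t • a, (RO.ta_ne hS).symm, hqba.symm, hqb.symm, ?_⟩
    intro y hy
    rw [Set.mem_singleton_iff.mp hy]
    refine ⟨hxa, hxb, ?_⟩
    rw [← mul_smul, ← hqx, mul_smul, hxb]
  obtain ⟨k, hk, hkx⟩ := Cfsg.Agent.S1126.result hS {x} hX h3
  have hkx' := hkx x rfl
  -- `v = k x k⁻¹` is centralised by `t` and inverted by `k t k⁻¹`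
  set v := k * x * k⁻¹ with hv
  have hinv : (k * t * k⁻¹) * v * (k * t * k⁻¹)⁻¹ = v⁻¹ := by
    rw [hv]
    calc k * t * k⁻¹ * (k * x * k⁻¹) * (k * t * k⁻¹)⁻¹ = k * (t * x * t⁻¹) * k⁻¹ := by group
      _ = k * x⁻¹ * k⁻¹ := by rw [hx.2]
      _ = (k * x * k⁻¹)⁻¹ := by group
  have hinv2 : (t * (k * t * k⁻¹)) * v * (t * (k * t * k⁻¹))⁻¹ = v⁻¹ := by
    have h4 : t * v⁻¹ * t⁻¹ = v⁻¹ := by
      have : t * v⁻¹ = v⁻¹ * t := by
        calc t * v⁻¹ = v⁻¹ * (v * t) * v⁻¹ := by group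
          _ = v⁻¹ * (t * v) * v⁻¹ := by rw [hkx']
          _ = v⁻¹ * t := by group
      rw [this]; group
    calc t * (k * t * k⁻¹) * v * (t * (k * t * k⁻¹))⁻¹
        = t * ((k * t * k⁻¹) * v * (k * t * k⁻¹)⁻¹) * t⁻¹ := by group
      _ = v⁻¹ := by rw [hinv, h4]
  have hyD : t * (k * t * k⁻¹) ∈ stabilizer G a ⊓ stabilizer G (t • a) := by
    have h5 := RO.conj_t_mem_D hS hk
    have : t * (k * t * k⁻¹) = (t * k * t) * k⁻¹ := by group
    rw [this]
    exact Subgroup.mul_mem _ h5 (Subgroup.inv_mem _ hk)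
  have hvD : v ∈ stabilizer G a ⊓ stabilizer G (t • a) :=
    Subgroup.mul_mem _ (Subgroup.mul_mem _ hk hxD) (Subgroup.inv_mem _ hk)
  have hv1 := eq_one_of_inverted_by_odd hinv2 (RO.D_odd hS hyD) (RO.D_odd hS hvD)
  apply hx1
  have : x = k⁻¹ * v * k := by rw [hv]; group
  rw [this, hv1]; group

end Cfsg.Agent.S1128
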