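import Cfsg.Statements.S1129
import Cfsg.Agent.Lib.Helper8.RankOne
import Cfsg.Agent.S1128
import Cfsg.Agent.S1122
import Cfsg.Agent.S0033

set_option autoImplicit false
open Cfsg

namespace Cfsg.Agent.S1129

open Cfsg.Agent.Lib.Helper8 MulAction

/-- two distinct involutions of the point stabiliser. -/
theorem exists_two_invol {G Ω : Type*} [Group G] [Finite G] [MulAction G Ω] {a : Ω} {t : G}
    {Q : Subgroup G} (hS : Cfsg.IsRankOneSetup G Ω a t Q)
    (h2 : ∃ x y : G, x ≠ 1 ∧ y ≠ 1 ∧ x ≠ y ∧ x * x = 1 ∧ y * y = 1 ∧ x * y = y * x) :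
    ∃ x y : G, x ∈ Cfsg.involutionsIn (MulAction.stabilizer G a : Set G) ∧
      y ∈ Cfsg.involutionsIn (MulAction.stabilizer G a : Set G) ∧ x ≠ y := by
  obtain ⟨x, y, hx1, hy1, hxy, hxx, hyy, hc⟩ := h2
  obtain ⟨c, hxc, huniq⟩ := RO.exists_fix hS hx1 hxx
  have hyc : y • c = c := by
    apply huniq
    rw [← mul_smul, hc, mul_smul, hxc]
  obtain ⟨g, hg⟩ : ∃ g : G, g • c = a := by
    by_cases hca : c = a
    · exact ⟨1, by rw [one_smul, hca]⟩
    · obtain ⟨g, hg, -⟩ := RO.two_trans hS hca (Ne.symm hca)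
      exact ⟨g, hg⟩
  have hfix : ∀ z : G, z • c = c → (g * z * g⁻¹) • a = a := by
    intro z hz
    rw [← hg, mul_smul, mul_smul, inv_smul_smul, hz]
  refine ⟨g * x * g⁻¹, g * y * g⁻¹, ⟨hfix x hxc, ?_, ?_⟩, ⟨hfix y hyc, ?_, ?_⟩, ?_⟩
  · intro h
    apply hx1
    have : x = g⁻¹ * (g * x * g⁻¹) * g := by group
    rw [this, h]; group
  · calc g * x * g⁻¹ * (g * x * g⁻¹) = g * (x * x) * g⁻¹ := by group
      _ = 1 := by rw [hxx]; group
  · intro h
    apply hy1
    have : y = g⁻¹ * (g * y * g⁻¹) * g := by group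
    rw [this, h]; group
  · calc g * y * g⁻¹ * (g * y * g⁻¹) = g * (y * y) * g⁻¹ := by group
      _ = 1 := by rw [hyy]; group
  · intro h
    apply hxy
    have h1 : x = g⁻¹ * (g * x * g⁻¹) * g := by group
    have h2 : y = g⁻¹ * (g * y * g⁻¹) * g := by group
    rw [h1, h2, h]

/-- an element of prime order of `D` inverted by `t`. -/
theorem exists_prime_inverted {G Ω : Type*} [Group G] [Finite G] [MulAction G Ω] {a : Ω} {t : G}
    {Q : Subgroup G} (hS : Cfsg.IsRankOneSetup G Ω a t Q)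
    (h2 : ∃ x y : G, x ≠ 1 ∧ y ≠ 1 ∧ x ≠ y ∧ x * x = 1 ∧ y * y = 1 ∧ x * y = y * x) :
    ∃ k ∈ Cfsg.invertedBy (MulAction.stabilizer G a ⊓ MulAction.stabilizer G (t • a)) t,
      (orderOf k).Prime := by
  obtain ⟨x, y, hx, hy, hxy⟩ := exists_two_invol hS h2
  obtain ⟨k, hk, hkxy⟩ := (Cfsg.Agent.S1122.result hS).2 x hx y hy
  have hk1 : k ≠ 1 := by
    rintro rfl
    apply hxy
    simpa using hkxy
  have hn1 : orderOf k ≠ 1 := fun h => hk1 (orderOf_eq_one_iff.1 h)
  obtain ⟨r, hr, m, hm⟩ := Nat.exists_prime_and_dvd hn1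
  refine ⟨k ^ m, ⟨Subgroup.pow_mem _ hk.1 m, ?_⟩, ?_⟩
  · have h1 : t * k ^ m * t⁻¹ = (t * k * t⁻¹) ^ m := (conj_pow).symm
    rw [h1, hk.2, inv_pow]
  · have hm0 : m ≠ 0 := by
      rintro rfl
      rw [mul_zero] at hm
      exact (orderOf_pos k).ne' hm
    have : orderOf (k ^ m) = r := by
      rw [orderOf_pow_of_dvd hm0 ⟨r, by rw [hm, mul_comm]⟩, hm, Nat.mul_div_cancel _ (Nat.pos_of_ne_zero hm0)]
    rw [this]; exact hr

/-- In the rank-one set-up (`G` finite and doubly transitive on `Ω`, `t` an involution moving `a`, `Q` normal in `G_a` with `G_a = Q D`, `Q ⊓ D = 1` for the two-point stabiliser `D = G_a ⊓ G_{t • a}`, `|Q|` even, `|D|` odd), with the action faithful and `G` containing two distinct commuting involutions: `Q` is nilpotent. -/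
theorem result {G Ω : Type*} [Group G] [Finite G] [MulAction G Ω] [FaithfulSMul G Ω] {a : Ω} {t : G} {Q : Subgroup G}
    (hS : Cfsg.IsRankOneSetup G Ω a t Q)
    (h2 : ∃ x y : G, x ≠ 1 ∧ y ≠ 1 ∧ x ≠ y ∧ x * x = 1 ∧ y * y = 1 ∧ x * y = y * x) :
    Group.IsNilpotent Q := by
  obtain ⟨k, hk, hkp⟩ := exists_prime_inverted hS h2
  have hk1 : k ≠ 1 := by
    rintro rfl
    rw [orderOf_one] at hkp
    exact Nat.not_prime_one hkp
  have hfpf := Cfsg.Agent.S1128.result hS h2 k hk hk1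
  let N : Subgroup (MulAction.stabilizer G a) := Q.subgroupOf (MulAction.stabilizer G a)
  haveI hN : N.Normal := ⟨fun n hn g => by
    have := hS.conj_mem g g.2 n (Subgroup.mem_subgroupOf.1 hn)
    exact Subgroup.mem_subgroupOf.2 this⟩
  let κ : MulAction.stabilizer G a := ⟨k, hk.1.1⟩
  let φ : MulAut N := MulAut.conjNormal κ
  have hφ : MonoidHom.FixedPointFree ((φ : N ≃* N) : N →* N) := by
    intro n hn
    have h1 : ((φ n : N) : MulAction.stabilizer G a) = κ * n * κ⁻¹ := MulAut.conjNormal_apply κ n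
    have h2' : (φ n : N) = n := hn
    rw [h2'] at h1
    have h3 : ((n : MulAction.stabilizer G a) : G) = k * ((n : MulAction.stabilizer G a) : G) * k⁻¹ :=
      congrArg Subtype.val h1
    have h4 : ((n : MulAction.stabilizer G a) : G) ∈ Q ⊓ Subgroup.centralizer {k} := by
      refine Subgroup.mem_inf.2 ⟨Subgroup.mem_subgroupOf.1 n.2, ?_⟩
      rw [Subgroup.mem_centralizer_singleton_iff]
      symm
      calc k * ((n : MulAction.stabilizer G a) : G)
          = k * ((n : MulAction.stabilizer G a) : G) * k⁻¹ * k := by group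
        _ = ((n : MulAction.stabilizer G a) : G) * k := by rw [← h3]
    rw [hfpf, Subgroup.mem_bot] at h4
    exact Subtype.ext (Subtype.ext h4)
  have hord : orderOf φ = orderOf k := by
    have h1 : orderOf φ ∣ orderOf κ := orderOf_map_dvd MulAut.conjNormal κ
    have h2' : orderOf κ = orderOf k := Subgroup.orderOf_mk k hk.1.1
    rw [h2'] at h1
    rcases (Nat.dvd_prime hkp).1 h1 with h | h
    · exfalso
      rw [orderOf_eq_one_iff] at h
      obtain ⟨s, hsQ, hs1, -⟩ := RO.exists_invol_Q hS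
      let n : N := ⟨⟨s, hS.le hsQ⟩, Subgroup.mem_subgroupOf.2 hsQ⟩
      have h3 : n = 1 := hφ n (by rw [h]; rfl)
      exact hs1 (congrArg (fun z : N => ((z : MulAction.stabilizer G a) : G)) h3)
    · exact h
  haveI : Group.IsNilpotent N := Cfsg.Agent.S0033.result φ hφ _ hkp hord
  exact Group.nilpotent_of_mulEquiv (Subgroup.subgroupOfEquivOfLe hS.le)

end Cfsg.Agent.S1129
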