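import Cfsg.Statements.S1130
import Cfsg.Agent.Lib.Helper8.RankOne
import Cfsg.Agent.S1129
import Cfsg.Agent.S1122
import Cfsg.Agent.S0065

set_option autoImplicit false
open Cfsg

namespace Cfsg.Agent.S1130

open Cfsg.Agent.Lib.Helper8 MulAction

/-- a finite nilpotent group of even order has a central involution. -/
theorem exists_central_invol {X : Type*} [Group X] [Finite X] [hX : Group.IsNilpotent X]
    (h2 : 2 ∣ Nat.card X) : ∃ z ∈ Subgroup.center X, orderOf z = 2 := by
  haveI : Fact (Nat.Prime 2) := ⟨Nat.prime_two⟩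
  have hnorm := ((Group.isNilpotent_of_finite_tfae (G := X)).out 0 3).1 hX
  let T : Sylow 2 X := default
  haveI : (T : Subgroup X).Normal := hnorm 2 inferInstance T
  have hT : (T : Subgroup X) ≠ ⊥ := by
    intro h
    have h1 := T.card_eq_multiplicity
    rw [h, Subgroup.card_bot] at h1
    have h3 : (Nat.card X).factorization 2 = 0 := by
      by_contra h0
      have : 2 ≤ 2 ^ (Nat.card X).factorization 2 := by
        calc 2 = 2 ^ 1 := rfl
          _ ≤ _ := Nat.pow_le_pow_right (by norm_num) (Nat.one_le_iff_ne_zero.2 h0)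
      omega
    have h4 := (Nat.Prime.dvd_iff_one_le_factorization Nat.prime_two (Nat.card_pos (α := X)).ne').1 h2
    omega
  have hne := Cfsg.Agent.S0065.result (T : Subgroup X) hT
  have hp : IsPGroup 2 ↥((T : Subgroup X) ⊓ Subgroup.center X) := T.2.to_le inf_le_left
  obtain ⟨n, hn⟩ := IsPGroup.iff_card.1 hp
  have hn0 : n ≠ 0 := by
    rintro rfl
    rw [pow_zero] at hn
    exact hne (Subgroup.card_eq_one.1 hn)
  have hd : 2 ∣ Nat.card ↥((T : Subgroup X) ⊓ Subgroup.center X) := by
    rw [hn]; exact dvd_pow_self 2 hn0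
  obtain ⟨z, hz⟩ := exists_prime_orderOf_dvd_card' (G := ↥((T : Subgroup X) ⊓ Subgroup.center X)) 2 hd
  exact ⟨z, z.2.2, by rw [Subgroup.orderOf_coe]; exact hz⟩

/-- In the rank-one set-up (`G` finite and doubly transitive on `Ω`, `t` an involution moving `a`, `Q` normal in `G_a` with `G_a = Q D`, `Q ⊓ D = 1` for the two-point stabiliser `D = G_a ⊓ G_{t • a}`, `|Q|` even, `|D|` odd), with the action faithful and `G` containing two distinct commuting involutions: the involutions of `G_a` lie in `Z(Q)`, and together with `1` they are closed under multiplication (so form an elementary abelian 2-subgroup). -/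
theorem result {G Ω : Type*} [Group G] [Finite G] [MulAction G Ω] [FaithfulSMul G Ω] {a : Ω} {t : G} {Q : Subgroup G}
    (hS : Cfsg.IsRankOneSetup G Ω a t Q)
    (h2 : ∃ x y : G, x ≠ 1 ∧ y ≠ 1 ∧ x ≠ y ∧ x * x = 1 ∧ y * y = 1 ∧ x * y = y * x) :
    (∀ s ∈ Cfsg.involutionsIn (MulAction.stabilizer G a : Set G), s ∈ Q ∧ ∀ x ∈ Q, s * x = x * s) ∧
      ∀ s ∈ Cfsg.involutionsIn (MulAction.stabilizer G a : Set G), ∀ s' ∈ Cfsg.involutionsIn (MulAction.stabilizer G a : Set G),
        s * s' = 1 ∨ s * s' ∈ Cfsg.involutionsIn (MulAction.stabilizer G a : Set G) := by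
  haveI : Group.IsNilpotent Q := Cfsg.Agent.S1129.result hS h2
  obtain ⟨z, hzc, hz2⟩ := exists_central_invol (X := Q) hS.even_card.two_dvd
  have hzQ : (z : G) ∈ Q := z.2
  have hz1 : (z : G) ≠ 1 := by
    intro h
    have : z = 1 := Subtype.ext h
    rw [this, orderOf_one] at hz2
    omega
  have hzz : (z : G) * z = 1 := by
    have h1 : z ^ 2 = 1 := by rw [← hz2]; exact pow_orderOf_eq_one z
    have h3 := congrArg Subtype.val h1
    simpa [pow_two] using h3
  have hzcomm : ∀ x ∈ Q, (z : G) * x = x * z := by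
    intro x hx
    have := Subgroup.mem_center_iff.1 hzc ⟨x, hx⟩
    exact (congrArg Subtype.val this).symm
  have hzI : (z : G) ∈ Cfsg.involutionsIn (MulAction.stabilizer G a : Set G) := ⟨hS.le hzQ, hz1, hzz⟩
  have hmain : ∀ s ∈ Cfsg.involutionsIn (MulAction.stabilizer G a : Set G), s ∈ Q ∧ ∀ x ∈ Q, s * x = x * s := by
    intro s hs
    obtain ⟨k, hk, hks⟩ := (Cfsg.Agent.S1122.result hS).2 z hzI s hs
    refine ⟨RO.invol_mem_Q hS hs.1 hs.2.2, ?_⟩
    intro x hx
    have hkx : k * x * k⁻¹ ∈ Q := hS.conj_mem k hk.1.1 x hx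
    have h1 := hzcomm _ hkx
    rw [← hks]
    calc k⁻¹ * z * k * x = k⁻¹ * (z * (k * x * k⁻¹)) * k := by group
      _ = k⁻¹ * ((k * x * k⁻¹) * z) * k := by rw [h1]
      _ = x * (k⁻¹ * z * k) := by group
  refine ⟨hmain, ?_⟩
  intro s hs s' hs'
  by_cases h1 : s * s' = 1
  · exact Or.inl h1
  · right
    refine ⟨Subgroup.mul_mem _ hs.1 hs'.1, h1, ?_⟩
    have hc := (hmain s hs).2 s' (hmain s' hs').1
    calc s * s' * (s * s') = s * (s' * s) * s' := by group
      _ = s * (s * s') * s' := by rw [hc]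
      _ = (s * s) * (s' * s') := by group
      _ = 1 := by rw [hs.2.2, hs'.2.2, one_mul]

end Cfsg.Agent.S1130
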