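import Cfsg.Statements.S1134
import Cfsg.Agent.Lib.Helper8.RankOne3
import Cfsg.Agent.S1125

set_option autoImplicit false
open Cfsg

namespace Cfsg.Agent.S1134

open Cfsg.Agent.Lib.Helper8 MulAction

/-- In the rank-one set-up (`G` finite and doubly transitive on `Ω`, `t` an involution moving `a`, `Q` normal in `G_a` with `G_a = Q D`, `Q ⊓ D = 1` for the two-point stabiliser `D = G_a ⊓ G_{t • a}`, `|Q|` even, `|D|` odd), with the action faithful and `G` containing two distinct commuting involutions, with `V = C_D(t)`: subsets of `V` conjugate in `G` are conjugate in `V`. -/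
theorem result {G Ω : Type*} [Group G] [Finite G] [MulAction G Ω] [FaithfulSMul G Ω] {a : Ω} {t : G} {Q : Subgroup G}
    (hS : Cfsg.IsRankOneSetup G Ω a t Q)
    (h2 : ∃ x y : G, x ≠ 1 ∧ y ≠ 1 ∧ x ≠ y ∧ x * x = 1 ∧ y * y = 1 ∧ x * y = y * x)
    (X : Set G) (hX : X ⊆ (((MulAction.stabilizer G a ⊓ MulAction.stabilizer G (t • a)) ⊓ Subgroup.centralizer {t} : Subgroup G) : Set G)) (g : G)
    (hY : (fun x => g * x * g⁻¹) '' X ⊆ (((MulAction.stabilizer G a ⊓ MulAction.stabilizer G (t • a)) ⊓ Subgroup.centralizer {t} : Subgroup G) : Set G)) :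
    ∃ v ∈ (MulAction.stabilizer G a ⊓ MulAction.stabilizer G (t • a)) ⊓ Subgroup.centralizer {t}, (fun x => v * x * v⁻¹) '' X = (fun x => g * x * g⁻¹) '' X := by
  have htt := hS.mul_self
  have hti := RO.t_inv hS
  -- membership facts
  have hXD : X ⊆ ((MulAction.stabilizer G a ⊓ MulAction.stabilizer G (t • a) : Subgroup G) : Set G) :=
    fun x hx => (hX hx).1
  have hXt : ∀ x ∈ X, x * t = t * x := by
    intro x hx
    have : x ∈ Subgroup.centralizer {t} := (hX hx).2
    rw [Subgroup.mem_centralizer_singleton_iff] at this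
    exact this
  have hYD : ∀ x ∈ X, g * x * g⁻¹ ∈ MulAction.stabilizer G a ⊓ MulAction.stabilizer G (t • a) :=
    fun x hx => (hY ⟨x, hx, rfl⟩).1
  have hYt : ∀ x ∈ X, (g * x * g⁻¹) * t = t * (g * x * g⁻¹) := by
    intro x hx
    have : g * x * g⁻¹ ∈ Subgroup.centralizer {t} := (hY ⟨x, hx, rfl⟩).2
    rw [Subgroup.mem_centralizer_singleton_iff] at this
    exact this
  -- the fixed point of `t`
  obtain ⟨c, htc, hcu⟩ := RO.exists_fix hS hS.ne_one htt
  have hca : c ≠ a := by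
    rintro rfl
    exact hS.not_mem htc
  have hcta : c ≠ t • a := by
    intro h
    have h1 : t • (t • a) = t • a := by rw [← h]; exact htc
    rw [RO.tta hS] at h1
    exact RO.ta_ne hS h1.symm
  have hXc : ∀ x ∈ X, x • c = c := by
    intro x hx
    apply hcu
    rw [← mul_smul, ← hXt x hx, mul_smul, htc]
  have h3 : ∃ b c d : Ω, b ≠ c ∧ b ≠ d ∧ c ≠ d ∧ ∀ x ∈ X, x • b = b ∧ x • c = c ∧ x • d = d :=
    ⟨a, t • a, c, (RO.ta_ne hS).symm, hca.symm, hcta.symm,
      fun x hx => ⟨(hXD hx).1, (hXD hx).2, hXc x hx⟩⟩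
  have h25 := (Cfsg.Agent.S1125.result hS X hXD h3).1
  have hfix : ∀ x ∈ X, ∀ e : Ω, (g * x * g⁻¹) • e = e → x • (g⁻¹ • e) = g⁻¹ • e := by
    intro x hx e he
    calc x • (g⁻¹ • e) = g⁻¹ • ((g * x * g⁻¹) • e) := by
          rw [← mul_smul, ← mul_smul]; congr 1; group
      _ = g⁻¹ • e := by rw [he]
  obtain ⟨c₀, hc₀, hc₀a, hc₀b⟩ := h25 a (t • a) (g⁻¹ • a) (g⁻¹ • (t • a))
    (fun x hx => ⟨(hXD hx).1, (hXD hx).2, hfix x hx a (hYD x hx).1, hfix x hx (t • a) (hYD x hx).2⟩)
    (RO.ta_ne hS).symm (fun h => (RO.ta_ne hS).symm (smul_left_cancel g⁻¹ h))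
  have hc₀X : ∀ x ∈ X, c₀ * x * c₀⁻¹ = x := by
    intro x hx
    have := Subgroup.mem_centralizer_iff.1 hc₀ x hx
    rw [← this]; group
  set d := g * c₀ with hd
  have hdD : d ∈ MulAction.stabilizer G a ⊓ MulAction.stabilizer G (t • a) := by
    refine Subgroup.mem_inf.2 ⟨?_, ?_⟩
    · show d • a = a
      rw [hd, mul_smul, hc₀a, smul_inv_smul]
    · show d • (t • a) = t • a
      rw [hd, mul_smul, hc₀b, smul_inv_smul]
  have hdX : ∀ x ∈ X, d * x * d⁻¹ = g * x * g⁻¹ := by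
    intro x hx
    calc d * x * d⁻¹ = g * (c₀ * x * c₀⁻¹) * g⁻¹ := by rw [hd]; group
      _ = g * x * g⁻¹ := by rw [hc₀X x hx]
  -- the involution `w = d⁻¹ t d`
  set w := d⁻¹ * t * d with hw
  have hww : w * w = 1 := by
    calc w * w = d⁻¹ * (t * t) * d := by rw [hw]; group
      _ = 1 := by rw [htt]; group
  have hwi : w⁻¹ = w := inv_eq_self_of_mul_self hww
  have hda : d • a = a := hdD.1
  have hdb : d • (t • a) = t • a := hdD.2
  have hdia : d⁻¹ • a = a := by rw [inv_smul_eq_iff, hda]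
  have hdib : d⁻¹ • (t • a) = t • a := by rw [inv_smul_eq_iff, hdb]
  have hwa : w • a = t • a := by
    rw [hw, mul_smul, mul_smul, hda, hdib]
  have hwb : w • (t • a) = a := by
    rw [hw, mul_smul, mul_smul, hdb, RO.tta hS, hdia]
  have hwX : ∀ x ∈ X, x * w = w * x := by
    intro x hx
    have h1 := hYt x hx
    rw [← hdX x hx] at h1
    calc x * w = d⁻¹ * ((d * x * d⁻¹) * t) * d := by rw [hw]; group
      _ = d⁻¹ * (t * (d * x * d⁻¹)) * d := by rw [h1]
      _ = w * x := by rw [hw]; group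
  have hk : t * w ∈ MulAction.stabilizer G a ⊓ MulAction.stabilizer G (t • a) := by
    refine Subgroup.mem_inf.mpr ⟨?_, ?_⟩
    · show (t * w) • a = a
      rw [mul_smul, hwa, RO.tta hS]
    · show (t * w) • t • a = t • a
      rw [mul_smul, hwb]
  have hinv : t * (t * w) * t⁻¹ = (t * w)⁻¹ := by
    rw [mul_inv_rev, hti, hwi]
    calc t * (t * w) * t = (t * t) * w * t := by group
      _ = w * t := by rw [htt, one_mul]
  obtain ⟨n, hn⟩ := exists_sqrt_of_odd' (RO.D_odd hS hk)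
  have hl := pow_inverted hinv n
  set l := (t * w) ^ n with hldef
  have hlD : l ∈ MulAction.stabilizer G a ⊓ MulAction.stabilizer G (t • a) := Subgroup.pow_mem _ hk n
  have h1 : t * l = l⁻¹ * t := by
    calc t * l = (t * l * t⁻¹) * t := by group
      _ = l⁻¹ * t := by rw [hl]
  have h2w : w = t * (l * l) := by
    rw [hn, ← mul_assoc, htt, one_mul]
  have hlw : l * w * l⁻¹ = t := by
    rw [h2w]
    calc l * (t * (l * l)) * l⁻¹ = l * (t * l) := by group
      _ = l * (l⁻¹ * t) := by rw [h1]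
      _ = t := by group
  have hlX : ∀ x ∈ X, l⁻¹ * x * l = x := by
    intro x hx
    have hc1 : Commute x (t * w) := by
      show x * (t * w) = (t * w) * x
      calc x * (t * w) = (x * t) * w := by group
        _ = t * (x * w) := by rw [hXt x hx]; group
        _ = (t * w) * x := by rw [hwX x hx]; group
    have hc2 : Commute x l := hc1.pow_right n
    calc l⁻¹ * x * l = l⁻¹ * (x * l) := by group
      _ = l⁻¹ * (l * x) := by rw [hc2.eq]
      _ = x := by group
  refine ⟨d * l⁻¹, Subgroup.mem_inf.2 ⟨Subgroup.mul_mem _ hdD (Subgroup.inv_mem _ hlD), ?_⟩, ?_⟩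
  · rw [Subgroup.mem_centralizer_singleton_iff]
    -- (d l⁻¹) t = t (d l⁻¹)
    have h5 : l⁻¹ * t * l = w := by rw [← hlw]; group
    have h6 : d * w * d⁻¹ = t := by rw [hw]; group
    calc d * l⁻¹ * t = d * (l⁻¹ * t * l) * l⁻¹ := by group
      _ = (d * w * d⁻¹) * (d * l⁻¹) := by rw [h5]; group
      _ = t * (d * l⁻¹) := by rw [h6]
  · apply Set.image_congr
    intro x hx
    calc d * l⁻¹ * x * (d * l⁻¹)⁻¹ = d * (l⁻¹ * x * l) * d⁻¹ := by group
      _ = g * x * g⁻¹ := by rw [hlX x hx, hdX x hx]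

end Cfsg.Agent.S1134
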