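import Cfsg.Statements.S1135
import Cfsg.Agent.Lib.Helper8.RankOne3
import Cfsg.Agent.S1130
import Cfsg.Agent.S1128
import Cfsg.Agent.S1121

set_option autoImplicit false
open Cfsg

namespace Cfsg.Agent.S1135

open Cfsg.Agent.Lib.Helper8 MulAction

section
variable {G Ω : Type*} [Group G] [Finite G] [MulAction G Ω] {a : Ω} {t : G} {Q : Subgroup G}

theorem exists_to_a (hS : Cfsg.IsRankOneSetup G Ω a t Q) (c : Ω) : ∃ g : G, g • c = a := by
  by_cases hca : c = a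
  · exact ⟨1, by rw [one_smul, hca]⟩
  · obtain ⟨g, hg, -⟩ := RO.two_trans hS hca (Ne.symm hca)
    exact ⟨g, hg⟩

theorem conj_invol {u : G} (g : G) (hu1 : u ≠ 1) (hu2 : u * u = 1) :
    g * u * g⁻¹ ≠ 1 ∧ (g * u * g⁻¹) * (g * u * g⁻¹) = 1 := by
  constructor
  · intro h
    apply hu1
    have : u = g⁻¹ * (g * u * g⁻¹) * g := by group
    rw [this, h]; group
  · calc g * u * g⁻¹ * (g * u * g⁻¹) = g * (u * u) * g⁻¹ := by group
      _ = 1 := by rw [hu2]; group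

/-- involutions with a common fixed point commute. -/
theorem commute_of_common_fix [FaithfulSMul G Ω] (hS : Cfsg.IsRankOneSetup G Ω a t Q)
    (h2 : ∃ x y : G, x ≠ 1 ∧ y ≠ 1 ∧ x ≠ y ∧ x * x = 1 ∧ y * y = 1 ∧ x * y = y * x)
    {u v : G} (hu1 : u ≠ 1) (hu2 : u * u = 1) (hv1 : v ≠ 1) (hv2 : v * v = 1) {e : Ω}
    (hue : u • e = e) (hve : v • e = e) : u * v = v * u := by
  obtain ⟨h, hh⟩ := exists_to_a hS e
  have hfix : ∀ z : G, z • e = e → (h * z * h⁻¹) • a = a := by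
    intro z hz
    rw [← hh, mul_smul, mul_smul, inv_smul_smul, hz]
  have hu' : h * u * h⁻¹ ∈ Cfsg.involutionsIn (MulAction.stabilizer G a : Set G) :=
    ⟨hfix u hue, (conj_invol h hu1 hu2).1, (conj_invol h hu1 hu2).2⟩
  have hv' : h * v * h⁻¹ ∈ Cfsg.involutionsIn (MulAction.stabilizer G a : Set G) :=
    ⟨hfix v hve, (conj_invol h hv1 hv2).1, (conj_invol h hv1 hv2).2⟩
  have h30 := (Cfsg.Agent.S1130.result hS h2).1
  have hc := (h30 _ hu').2 _ (h30 _ hv').1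
  calc u * v = h⁻¹ * ((h * u * h⁻¹) * (h * v * h⁻¹)) * h := by group
    _ = h⁻¹ * ((h * v * h⁻¹) * (h * u * h⁻¹)) * h := by rw [hc]
    _ = v * u := by group

theorem sq_of_commute {u v : G} (hu2 : u * u = 1) (hv2 : v * v = 1) (h : u * v = v * u) :
    (u * v) * (u * v) = 1 := by
  calc u * v * (u * v) = u * (v * u) * v := by group
    _ = u * (u * v) * v := by rw [h]
    _ = (u * u) * (v * v) := by group
    _ = 1 := by rw [hu2, hv2, one_mul]

/-- the product `s t` with square `≠ 1` commutes with no involution. -/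
theorem no_invol [FaithfulSMul G Ω] (hS : Cfsg.IsRankOneSetup G Ω a t Q)
    (h2 : ∃ x y : G, x ≠ 1 ∧ y ≠ 1 ∧ x ≠ y ∧ x * x = 1 ∧ y * y = 1 ∧ x * y = y * x)
    {s : G} (hs1 : s ≠ 1) (hs2 : s * s = 1) (hx : (s * t) * (s * t) ≠ 1)
    {w : G} (hw1 : w ≠ 1) (hw2 : w * w = 1) (hwx : w * (s * t) = (s * t) * w) : False := by
  have htt := hS.mul_self
  have hti := RO.t_inv hS
  obtain ⟨b, hwb, hbu⟩ := RO.exists_fix hS hw1 hw2
  have hxb : (s * t) • b = b := by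
    apply hbu
    rw [← mul_smul, hwx, mul_smul, hwb]
  have htb : t • b ≠ b := by
    intro h
    have hsb : s • b = b := by
      have := hxb
      rwa [mul_smul, h] at this
    exact hx (sq_of_commute hs2 htt (commute_of_common_fix hS h2 hs1 hs2 hS.ne_one htt hsb h))
  have hxinv : t * (s * t) * t⁻¹ = (s * t)⁻¹ := by
    have hsi : s⁻¹ = s := inv_eq_self_of_mul_self hs2
    rw [mul_inv_rev, hti, hsi]
    calc t * (s * t) * t = t * s * (t * t) := by group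
      _ = t * s := by rw [htt, mul_one]
  have hxib : (s * t)⁻¹ • b = b := by rw [inv_smul_eq_iff, hxb]
  have hxtb : (s * t) • (t • b) = t • b := by
    have h1 : (s * t) * t = t * (s * t)⁻¹ := by
      rw [← hxinv, hti]
      calc s * t * t = s * (t * t) := by group
        _ = (t * t) * s * (t * t) := by rw [htt]; group
        _ = t * (t * (s * t) * t) := by group
    rw [← mul_smul, h1, mul_smul, hxib]
  obtain ⟨g₁, hg₁b, hg₁tb⟩ := RO.two_trans hS (Ne.symm htb) (RO.ta_ne hS).symm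
  have hg₁ia : g₁⁻¹ • a = b := by rw [inv_smul_eq_iff, hg₁b]
  have hg₁ita : g₁⁻¹ • (t • a) = t • b := by rw [inv_smul_eq_iff, hg₁tb]
  obtain ⟨l, hl, hlt⟩ := RO.swap_invol_conj hS (w := g₁ * t * g₁⁻¹) (conj_invol g₁ hS.ne_one htt).2
    (by rw [mul_smul, mul_smul, hg₁ia, hg₁tb])
    (by rw [mul_smul, mul_smul, hg₁ita, ← mul_smul t t, htt, one_smul, hg₁b])
  set g₂ := l * g₁ with hg₂
  have hg₂t : g₂ * t * g₂⁻¹ = t := by
    calc g₂ * t * g₂⁻¹ = l * (g₁ * t * g₁⁻¹) * l⁻¹ := by rw [hg₂]; group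
      _ = t := hlt
  have hg₂b : g₂ • b = a := by rw [hg₂, mul_smul, hg₁b]; exact hl.1.1
  have hg₂tb : g₂ • (t • b) = t • a := by rw [hg₂, mul_smul, hg₁tb]; exact hl.1.2
  have hg₂ia : g₂⁻¹ • a = b := by rw [inv_smul_eq_iff, hg₂b]
  have hg₂ita : g₂⁻¹ • (t • a) = t • b := by rw [inv_smul_eq_iff, hg₂tb]
  set x₂ := g₂ * (s * t) * g₂⁻¹ with hx₂
  have hx₂K : x₂ ∈ Cfsg.invertedBy (MulAction.stabilizer G a ⊓ MulAction.stabilizer G (t • a)) t := by
    refine ⟨Subgroup.mem_inf.2 ⟨?_, ?_⟩, ?_⟩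
    · show x₂ • a = a
      rw [hx₂, mul_smul, mul_smul, hg₂ia, hxb, hg₂b]
    · show x₂ • (t • a) = t • a
      rw [hx₂, mul_smul, mul_smul, hg₂ita, hxtb, hg₂tb]
    · calc t * x₂ * t⁻¹ = (g₂ * t * g₂⁻¹) * x₂ * (g₂ * t * g₂⁻¹)⁻¹ := by rw [hg₂t]
        _ = g₂ * (t * (s * t) * t⁻¹) * g₂⁻¹ := by rw [hx₂]; group
        _ = x₂⁻¹ := by rw [hxinv, hx₂]; group
  have hx₂1 : x₂ ≠ 1 := by
    intro h
    apply hx
    have : s * t = g₂⁻¹ * x₂ * g₂ := by rw [hx₂]; group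
    rw [this, h]; group
  have h28 := Cfsg.Agent.S1128.result hS h2 x₂ hx₂K hx₂1
  have hw₂ : g₂ * w * g₂⁻¹ ∈ Q ⊓ Subgroup.centralizer {x₂} := by
    refine Subgroup.mem_inf.2 ⟨?_, ?_⟩
    · apply RO.invol_mem_Q hS _ (conj_invol g₂ hw1 hw2).2
      show (g₂ * w * g₂⁻¹) • a = a
      rw [mul_smul, mul_smul, hg₂ia, hwb, hg₂b]
    · rw [Subgroup.mem_centralizer_singleton_iff]
      calc g₂ * w * g₂⁻¹ * x₂ = g₂ * (w * (s * t)) * g₂⁻¹ := by rw [hx₂]; group
        _ = g₂ * ((s * t) * w) * g₂⁻¹ := by rw [hwx]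
        _ = x₂ * (g₂ * w * g₂⁻¹) := by rw [hx₂]; group
  rw [h28, Subgroup.mem_bot] at hw₂
  exact (conj_invol g₂ hw1 hw2).1 hw₂

end

/-- In the rank-one set-up (`G` finite and doubly transitive on `Ω`, `t` an involution moving `a`, `Q` normal in `G_a` with `G_a = Q D`, `Q ⊓ D = 1` for the two-point stabiliser `D = G_a ⊓ G_{t • a}`, `|Q|` even, `|D|` odd), with the action faithful and `G` containing two distinct commuting involutions: if `x = u v` with `u, v` involutions and `x² ≠ 1`, then `x` is conjugate to `u' t` for some involution `u'` of `G_a`, and `|C_G(x)|` is odd. -/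
theorem result {G Ω : Type*} [Group G] [Finite G] [MulAction G Ω] [FaithfulSMul G Ω] {a : Ω} {t : G} {Q : Subgroup G}
    (hS : Cfsg.IsRankOneSetup G Ω a t Q)
    (h2 : ∃ x y : G, x ≠ 1 ∧ y ≠ 1 ∧ x ≠ y ∧ x * x = 1 ∧ y * y = 1 ∧ x * y = y * x)
    (u v : G) (hu1 : u ≠ 1) (hu2 : u * u = 1) (hv1 : v ≠ 1) (hv2 : v * v = 1) (hx : (u * v) * (u * v) ≠ 1) :
    (∃ g : G, ∃ u' ∈ Cfsg.involutionsIn (MulAction.stabilizer G a : Set G), g * (u * v) * g⁻¹ = u' * t) ∧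
      Odd (Nat.card ↥(Subgroup.centralizer {u * v})) := by
  have htt := hS.mul_self
  have hti := RO.t_inv hS
  -- part 1
  have part1 : ∃ g : G, ∃ u' ∈ Cfsg.involutionsIn (MulAction.stabilizer G a : Set G),
      g * (u * v) * g⁻¹ = u' * t := by
    obtain ⟨g₀, hg₀⟩ := (Cfsg.Agent.S1121.result hS).2 v t hv1 hv2 hS.ne_one htt
    set u₀ := g₀ * u * g₀⁻¹ with hu₀
    have hu₀1 := (conj_invol g₀ hu1 hu2).1
    have hu₀2 := (conj_invol g₀ hu1 hu2).2
    have hprod : g₀ * (u * v) * g₀⁻¹ = u₀ * t := by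
      rw [← hg₀, hu₀]; group
    have hsq : (u₀ * t) * (u₀ * t) ≠ 1 := by
      intro h
      apply hx
      rw [← hprod] at h
      have : (u * v) * (u * v) = g₀⁻¹ * (g₀ * (u * v) * g₀⁻¹ * (g₀ * (u * v) * g₀⁻¹)) * g₀ := by group
      rw [this, h]; group
    obtain ⟨c, hu₀c, -⟩ := RO.exists_fix hS hu₀1 hu₀2
    obtain ⟨ct, htct, -⟩ := RO.exists_fix hS hS.ne_one htt
    have hcct : c ≠ ct := by
      rintro rfl
      exact hsq (sq_of_commute hu₀2 htt (commute_of_common_fix hS h2 hu₀1 hu₀2 hS.ne_one htt hu₀c htct))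
    have hact : a ≠ ct := by
      rintro rfl
      exact hS.not_mem htct
    obtain ⟨h₁, hh₁⟩ := exists_to_a hS ct
    have ht₁ : h₁ * t * h₁⁻¹ ∈ Cfsg.involutionsIn (MulAction.stabilizer G a : Set G) := by
      refine ⟨?_, (conj_invol h₁ hS.ne_one htt).1, (conj_invol h₁ hS.ne_one htt).2⟩
      show (h₁ * t * h₁⁻¹) • a = a
      rw [← hh₁, mul_smul, mul_smul, inv_smul_smul, htct]
    have hcen := ((Cfsg.Agent.S1130.result hS h2).1 _ ht₁).2
    have hne1 : h₁ • c ≠ a := by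
      rw [← hh₁]; exact fun h => hcct (smul_left_cancel h₁ h)
    have hne2 : h₁ • a ≠ a := by
      rw [← hh₁]
      intro h
      exact hact (smul_left_cancel h₁ (by rw [hh₁] at h ⊢; exact h))
    obtain ⟨x, hxQ, hxc⟩ := RO.Q_trans hS hne1 hne2
    set h := h₁⁻¹ * x * h₁ with hh
    have hhc : h • c = a := by
      rw [hh, mul_smul, mul_smul, hxc, inv_smul_smul]
    have hht : h * t * h⁻¹ = t := by
      have h5 := hcen x hxQ
      calc h * t * h⁻¹ = h₁⁻¹ * (x * (h₁ * t * h₁⁻¹)) * x⁻¹ * h₁ := by rw [hh]; group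
        _ = h₁⁻¹ * ((h₁ * t * h₁⁻¹) * x) * x⁻¹ * h₁ := by rw [h5]
        _ = t := by group
    refine ⟨h * g₀, h * u₀ * h⁻¹, ⟨?_, (conj_invol h hu₀1 hu₀2).1, (conj_invol h hu₀1 hu₀2).2⟩, ?_⟩
    · show (h * u₀ * h⁻¹) • a = a
      rw [← hhc, mul_smul, mul_smul, inv_smul_smul, hu₀c]
    · calc h * g₀ * (u * v) * (h * g₀)⁻¹ = h * (g₀ * (u * v) * g₀⁻¹) * h⁻¹ := by group
        _ = (h * u₀ * h⁻¹) * (h * t * h⁻¹) := by rw [hprod]; group
        _ = (h * u₀ * h⁻¹) * t := by rw [hht]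
  refine ⟨part1, ?_⟩
  obtain ⟨g, s, hs, hgs⟩ := part1
  rw [← Nat.not_even_iff_odd]
  intro heven
  obtain ⟨w, hw⟩ := exists_prime_orderOf_dvd_card' (G := ↥(Subgroup.centralizer {u * v})) 2 heven.two_dvd
  have hw2 : orderOf (w : G) = 2 := by rw [Subgroup.orderOf_coe]; exact hw
  have hw1 : (w : G) ≠ 1 := by
    intro h
    rw [h, orderOf_one] at hw2
    omega
  have hww : (w : G) * w = 1 := by
    have h1 : (w : G) ^ 2 = 1 := by rw [← hw2]; exact pow_orderOf_eq_one _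
    rwa [pow_two] at h1
  have hwc : (w : G) * (u * v) = (u * v) * w := by
    have := w.2
    rw [Subgroup.mem_centralizer_singleton_iff] at this
    exact this
  have hsq : (s * t) * (s * t) ≠ 1 := by
    intro h
    apply hx
    rw [← hgs] at h
    have : (u * v) * (u * v) = g⁻¹ * (g * (u * v) * g⁻¹ * (g * (u * v) * g⁻¹)) * g := by group
    rw [this, h]; group
  apply no_invol hS h2 hs.2.1 hs.2.2 hsq (conj_invol g hw1 hww).1 (conj_invol g hw1 hww).2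
  rw [← hgs]
  calc g * w * g⁻¹ * (g * (u * v) * g⁻¹) = g * (w * (u * v)) * g⁻¹ := by group
    _ = g * ((u * v) * w) * g⁻¹ := by rw [hwc]
    _ = g * (u * v) * g⁻¹ * (g * w * g⁻¹) := by group

end Cfsg.Agent.S1135
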