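import Cfsg.Statements.S1137
import Cfsg.Agent.H17.Suz4

set_option autoImplicit false
open Cfsg

namespace Cfsg.Agent.S1137

/-- In a Suzuki 2-group `P` (a finite non-abelian 2-group with more than one involution admitting a cyclic group of automorphisms regular on its involutions) the involutions are exactly the non-identity central elements, and `Z(P)` is elementary abelian. -/
theorem result {P : Type*} [Group P] (hP : Cfsg.IsSuzukiTwoGroup P) :
    (∀ x : P, (x ≠ 1 ∧ x * x = 1) ↔ (x ∈ Subgroup.center P ∧ x ≠ 1)) ∧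
      ∀ z ∈ Subgroup.center P, z * z = 1 := by
  obtain ⟨hfin, hG, ⟨x, y, hxy⟩, ⟨z0, _, _, hz0, hz2, _, _⟩, K, hcyc, hreg⟩ := hP
  haveI := hfin
  have hz2' : z0 ^ 2 = 1 := by rw [sq]; exact hz2
  have hact : Cfsg.Agent.H17.Suz.Act K.subtype := by
    constructor
    · intro a b ha ha2 hb hb2
      obtain ⟨k, hk, _⟩ := hreg a b ha (by rw [← sq]; exact ha2) hb (by rw [← sq]; exact hb2)
      exact ⟨k, hk⟩
    · intro k a ha ha2 hfix
      obtain ⟨k0, _, huniq⟩ := hreg a a ha (by rw [← sq]; exact ha2) ha (by rw [← sq]; exact ha2)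
      rw [huniq k hfix, huniq 1 (by simp)]
  have hK : ∀ a b : K, a * b = b * a := by
    intro a b
    obtain ⟨g, hg⟩ := hcyc.exists_generator
    obtain ⟨i, rfl⟩ := hg a
    obtain ⟨j, rfl⟩ := hg b
    show g ^ i * g ^ j = g ^ j * g ^ i
    rw [← zpow_add, ← zpow_add, add_comm]
  have hmain := Cfsg.Agent.H17.Suz.main hact hG hK hz0 hz2' hxy
  refine ⟨fun a => ⟨fun ⟨ha, ha2⟩ => ⟨hact.central hG (by rw [sq]; exact ha2), ha⟩,
    fun ⟨ha, ha1⟩ => ⟨ha1, by rw [← sq]; exact hmain a ha⟩⟩, fun z hz => by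
      rw [← sq]; exact hmain z hz⟩

end Cfsg.Agent.S1137
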