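import Cfsg.Statements.S1140
-- import your own Cfsg.Agent.* helpers here

set_option autoImplicit false
open Cfsg

namespace Cfsg.Agent.S1140

/-- For a finite field `F` of characteristic 2, the automorphisms of `F`, viewed as additive maps `F → F`, are linearly independent over `F` (acting on values) every additive endomorphism of `F` is an `F`-linear combination of them, and every biadditive map `F → F → F` is an `F`-combination of the maps `(x, y) ↦ σ(x) τ(y)`. -/
theorem result {F : Type*} [Field F] [Fintype F] [CharP F 2] :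
    LinearIndependent F (fun σ : F ≃+* F => ((σ : F →+* F) : F → F)) ∧
      (∀ f : F →+ F, ∃ (s : Finset (F ≃+* F)) (c : (F ≃+* F) → F), ∀ x : F, f x = ∑ σ ∈ s, c σ * σ x) ∧
      ∀ B : F →+ F →+ F, ∃ (s : Finset ((F ≃+* F) × (F ≃+* F))) (c : (F ≃+* F) × (F ≃+* F) → F),
        ∀ x y : F, B x y = ∑ p ∈ s, c p * (p.1 x * p.2 y) := by
  classical
  letI : Algebra (ZMod 2) F := ZMod.algebra F 2
  haveI : Fact (Nat.Prime 2) := ⟨Nat.prime_two⟩
  haveI : FiniteDimensional (ZMod 2) F := Module.Finite.of_finite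
  -- ring automorphisms are algebra automorphisms
  have hcomm : ∀ (σ : F ≃+* F) (r : ZMod 2), σ (algebraMap (ZMod 2) F r) = algebraMap (ZMod 2) F r := by
    intro σ r
    have h : (σ : F →+* F).comp (algebraMap (ZMod 2) F) = algebraMap (ZMod 2) F :=
      Subsingleton.elim _ _
    exact DFunLike.congr_fun h r
  let e : (F ≃ₐ[ZMod 2] F) ≃ (F ≃+* F) :=
    { toFun := fun τ => τ.toRingEquiv
      invFun := fun σ => AlgEquiv.ofRingEquiv (f := σ) (hcomm σ)
      left_inv := fun τ => by ext x; rfl
      right_inv := fun σ => by ext x; rfl }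
  have he : ∀ (τ : F ≃ₐ[ZMod 2] F) (x : F), e τ x = τ x := fun _ _ => rfl
  have hli : LinearIndependent F (fun σ : F ≃+* F => ((σ : F →+* F) : F → F)) := by
    have h := linearIndependent_monoidHom F F
    exact h.comp (fun σ : F ≃+* F => ((σ : F →+* F) : F →* F))
      (by intro a b h; ext x; exact DFunLike.congr_fun h x)
  have hli' : LinearIndependent F
      (fun τ : F ≃ₐ[ZMod 2] F => ((τ : F →ₐ[ZMod 2] F).toLinearMap : F →ₗ[ZMod 2] F)) := by
    have h := linearIndependent_toLinearMap (ZMod 2) F F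
    exact h.comp (fun τ : F ≃ₐ[ZMod 2] F => (τ : F →ₐ[ZMod 2] F))
      (by intro a b h; ext x; exact DFunLike.congr_fun h x)
  have hcard : Fintype.card (F ≃ₐ[ZMod 2] F) = Module.finrank F (F →ₗ[ZMod 2] F) := by
    rw [Module.finrank_linearMap_self, ← IsGalois.card_aut_eq_finrank, Nat.card_eq_fintype_card]
  let b : Module.Basis (F ≃ₐ[ZMod 2] F) F (F →ₗ[ZMod 2] F) :=
    basisOfLinearIndependentOfCardEqFinrank hli' hcard
  have hb : ∀ τ x, b τ x = τ x := by
    intro τ x
    simp [b]
  let T : (F →+ F) ≃+ (F →ₗ[ZMod 2] F) := AddMonoidHom.toZModLinearMapEquiv 2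
  have hT : ∀ (f : F →+ F) (x : F), T f x = f x := fun _ _ => rfl
  have key : ∀ (f : F →+ F) (x : F), f x = ∑ τ : F ≃ₐ[ZMod 2] F, b.repr (T f) τ * τ x := by
    intro f x
    have h := b.sum_repr (T f)
    have h2 := DFunLike.congr_fun h x
    rw [hT] at h2
    rw [← h2, LinearMap.sum_apply]
    refine Finset.sum_congr rfl fun τ _ => ?_
    rw [LinearMap.smul_apply, hb, smul_eq_mul]
  let S : Finset (F ≃+* F) := Finset.univ.map e.toEmbedding
  refine ⟨hli, ?_, ?_⟩
  · intro f
    refine ⟨S, fun σ => b.repr (T f) (e.symm σ), fun x => ?_⟩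
    rw [key f x, Finset.sum_map]
    refine Finset.sum_congr rfl fun τ _ => ?_
    simp [he]
  · intro B
    let g : (F ≃ₐ[ZMod 2] F) → (F →+ F) := fun τ =>
      { toFun := fun x => b.repr (T (B x)) τ
        map_zero' := by simp
        map_add' := fun x y => by simp }
    have hg : ∀ τ x, g τ x = b.repr (T (B x)) τ := fun _ _ => rfl
    refine ⟨S ×ˢ S, fun p => b.repr (T (g (e.symm p.2))) (e.symm p.1), fun x y => ?_⟩
    rw [key (B x) y, Finset.sum_product_right, Finset.sum_map]
    refine Finset.sum_congr rfl fun τ _ => ?_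
    rw [← hg, key (g τ) x, Finset.sum_map, Finset.sum_mul]
    refine Finset.sum_congr rfl fun σ _ => ?_
    simp [he, mul_assoc]

end Cfsg.Agent.S1140
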