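import Mathlib
import Cfsg.Statements.S1141
import Cfsg.Agent.H14.SU3Suz

set_option autoImplicit false
open Cfsg

namespace Cfsg.Agent.S1141

open Cfsg.Agent.H14 in
/-- Let `q = 2^n ≥ 4` and `|F| = q²`. A Sylow 2-subgroup `S` of `PSU₃(q)` has order `q³`, its centre has order `q`, and `S` is a Suzuki 2-group. -/
theorem result {F : Type*} [Field F] [Fintype F] {n : ℕ} (hn : 2 ≤ n)
    (hF : Fintype.card F = (2 ^ n) ^ 2) (S : Sylow 2 (Cfsg.PSU 3 F (2 ^ n))) :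
    Nat.card S = (2 ^ n) ^ 3 ∧ Nat.card (Subgroup.center ↥(S : Subgroup (Cfsg.PSU 3 F (2 ^ n)))) = 2 ^ n ∧
      Cfsg.IsSuzukiTwoGroup ↥(S : Subgroup (Cfsg.PSU 3 F (2 ^ n))) := by
  haveI : Fact (Fintype.card F = (2 ^ n) ^ 2) := ⟨hF⟩
  haveI : Fact ((2 : F) = 0) := ⟨by
    have h : ((Fintype.card F : ℕ) : F) = 0 := Nat.cast_card_eq_zero F
    rw [hF] at h
    have h4 : (2 : F) ^ (n * 2) = 0 := by
      rw [pow_mul]
      exact_mod_cast h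
    exact pow_eq_zero_iff (by omega) |>.mp h4⟩
  have heven : Even (2 ^ n) := Nat.even_pow.mpr ⟨even_two, by omega⟩
  have h3 : 3 ≤ 2 ^ n := by
    calc 3 ≤ 2 ^ 2 := by norm_num
      _ ≤ 2 ^ n := Nat.pow_le_pow_right (by norm_num) hn
  obtain ⟨e⟩ := sylow_equiv_HU (F := F) (q := 2 ^ n) heven ⟨n, rfl⟩ S
  exact ⟨card_of_equiv e, card_center_of_equiv e,
    isSuzukiTwoGroup_of_equiv e.symm (HU.isSuzuki heven h3 ⟨n, rfl⟩)⟩

end Cfsg.Agent.S1141
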