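import Cfsg.Statements.S1160
import Mathlib
-- import your own Cfsg.Agent.* helpers here
import Cfsg.Agent.S0126
import Cfsg.Agent.H4.Nilp

set_option autoImplicit false
open Cfsg

namespace Cfsg.Agent.S1160


section
variable {P E : Type*} [Group P] [AddCommGroup E] [DistribMulAction P E]

/-- the trace operator -/
def T (n : ℕ) (w : P) (e : E) : E := ∑ i ∈ Finset.range n, w ^ i • e

theorem T_fix (n : ℕ) (w : P) (e : E) (hw : w ^ n = 1) : w • T n w e = T n w e := by
  unfold T
  rw [Finset.smul_sum]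
  have h1 : ∑ i ∈ Finset.range n, w • w ^ i • e = ∑ i ∈ Finset.range n, w ^ (i + 1) • e := by
    apply Finset.sum_congr rfl
    intro i _
    rw [smul_smul, pow_succ']
  rw [h1]
  have h2 := Finset.sum_range_succ (fun i => w ^ i • e) n
  have h3 := Finset.sum_range_succ' (fun i => w ^ i • e) n
  rw [h2] at h3
  simp only [hw, pow_zero, one_smul] at h3
  exact (add_right_cancel h3).symm

theorem pow_smul_fixed (w : P) (a : E) (h : w • a = a) (i : ℕ) : w ^ i • a = a := by
  induction i with
  | zero => simp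
  | succ i ih => rw [pow_succ, mul_smul, h, ih]

theorem T_of_fixed (n : ℕ) (w : P) (a : E) (h : w • a = a) : T n w a = n • a := by
  unfold T
  rw [Finset.sum_congr rfl (fun i _ => pow_smul_fixed w a h i)]
  simp

theorem T_conj (n : ℕ) (g w : P) (e : E) : g • T n w e = T n (g * w * g⁻¹) (g • e) := by
  unfold T
  rw [Finset.smul_sum]
  apply Finset.sum_congr rfl
  intro i _
  rw [conj_pow, smul_smul, smul_smul]
  congr 1
  group

theorem T_add (n : ℕ) (w : P) (a b : E) : T n w (a + b) = T n w a + T n w b := by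
  unfold T
  rw [← Finset.sum_add_distrib]
  apply Finset.sum_congr rfl
  intro i _
  rw [smul_add]

theorem T_zero (n : ℕ) (w : P) : T n w (0 : E) = 0 := by
  unfold T
  simp

theorem T_congr (n : ℕ) (x c : P) (a : E) (h : x • a = c • a) (hc : Commute x c) :
    T n x a = T n c a := by
  unfold T
  apply Finset.sum_congr rfl
  intro i hi
  clear hi
  induction i with
  | zero => simp
  | succ i ih =>
    rw [pow_succ, mul_smul, h, ← mul_smul, (hc.pow_left i).eq, mul_smul, ih, ← mul_smul, ← pow_succ']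

end

section
variable {P E : Type*} [Group P] [Finite P] [AddCommGroup E] [DistribMulAction P E]

theorem stab_eq
    (hconst : ∀ a b : E, a ≠ 0 → b ≠ 0 →
      Nat.card (MulAction.stabilizer P a) = Nat.card (MulAction.stabilizer P b))
    (a v : E) (ha : a ≠ 0) (hv : v ≠ 0) (h : ∀ g : P, g • v = v → g • a = a) (g : P)
    (hg : g • a = a) : g • v = v := by
  have h1 : MulAction.stabilizer P v ≤ MulAction.stabilizer P a := fun x hx => h x hx
  have h2 := Subgroup.eq_of_le_of_card_ge h1 (hconst a v ha hv).le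
  have : g ∈ MulAction.stabilizer P v := by rw [h2]; exact hg
  exact this

variable [FaithfulSMul P E]

theorem claim1 {p : ℕ}
    (hconst : ∀ a b : E, a ≠ 0 → b ≠ 0 →
      Nat.card (MulAction.stabilizer P a) = Nat.card (MulAction.stabilizer P b))
    (hpq : ∀ e : E, p • e = 0 → e = 0)
    (c : P) (hc : c ∈ Subgroup.center P) (hcp : c ^ p = 1) (hc1 : c ≠ 1) (a : E) (hca : c • a = a) :
    a = 0 := by
  by_contra ha
  have hex : ∃ e : E, c • e ≠ e := by
    by_contra hne
    push Not at hne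
    exact hc1 (FaithfulSMul.eq_of_smul_eq_smul (α := E) (fun e => by rw [hne e, one_smul]))
  obtain ⟨e, he⟩ := hex
  have hcc : ∀ h : P, h * c * h⁻¹ = c := by
    intro h
    rw [Subgroup.mem_center_iff] at hc
    rw [hc h]; group
  set b := e - c • e with hb
  have hb0 : b ≠ 0 := by
    intro h0
    exact he (sub_eq_zero.mp h0).symm
  have hTb : T p c b = 0 := by
    have h1 : T p c e = T p c b + T p c (c • e) := by
      rw [← T_add, hb]; congr 1; abel
    have h2 : T p c (c • e) = T p c e := by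
      have := T_conj p c c e
      rw [hcc c, T_fix p c e hcp] at this
      exact this.symm
    rw [h2] at h1
    simpa using h1
  have hTv : T p c (a + b) = p • a := by
    rw [T_add, hTb, add_zero, T_of_fixed p c a hca]
  have hv0 : a + b ≠ 0 := by
    intro h0
    rw [h0, T_zero] at hTv
    exact ha (hpq a hTv.symm)
  have hst : ∀ g : P, g • (a + b) = a + b → g • a = a := by
    intro g hg
    have h1 := T_conj p g c (a + b)
    rw [hcc g, hg, hTv, smul_comm] at h1
    have h2 : p • (g • a - a) = 0 := by rw [smul_sub, h1, sub_self]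
    exact sub_eq_zero.mp (hpq _ h2)
  have h3 := stab_eq hconst a (a + b) ha hv0 hst c hca
  rw [smul_add, hca] at h3
  have h4 : c • b = b := add_left_cancel h3
  rw [T_of_fixed p c b h4] at hTb
  exact hb0 (hpq b hTb)

theorem T_central {p : ℕ}
    (hconst : ∀ a b : E, a ≠ 0 → b ≠ 0 →
      Nat.card (MulAction.stabilizer P a) = Nat.card (MulAction.stabilizer P b))
    (hpq : ∀ e : E, p • e = 0 → e = 0)
    (c : P) (hc : c ∈ Subgroup.center P) (hcp : c ^ p = 1) (hc1 : c ≠ 1) (e : E) :
    T p c e = 0 :=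
  claim1 hconst hpq c hc hcp hc1 _ (T_fix p c e hcp)

end

section
variable {P E : Type*} [Group P] [Finite P] [AddCommGroup E] [DistribMulAction P E]
  [FaithfulSMul P E]

theorem noncyclic_false {p : ℕ} [Fact p.Prime] (hp2 : p ≠ 2) (hP : IsPGroup p P)
    (hconst : ∀ a b : E, a ≠ 0 → b ≠ 0 →
      Nat.card (MulAction.stabilizer P a) = Nat.card (MulAction.stabilizer P b))
    (hpq : ∀ e : E, p • e = 0 → e = 0) (hnc : ¬ IsCyclic P) : False := by
  have hpp : p.Prime := Fact.out
  obtain ⟨B, hBn, hBe, hBc⟩ := Cfsg.Agent.S0126.result hp2 hP hnc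
  haveI := hBn
  haveI : Group.IsNilpotent P := hP.isNilpotent
  have hBne : B ≠ ⊥ := by
    intro h
    rw [h, Subgroup.card_bot] at hBc
    have := hpp.two_le
    nlinarith
  have h1 := Cfsg.Agent.H4.normal_inf_center_ne_bot B hBne
  obtain ⟨⟨z, hz⟩, hz1'⟩ := Subgroup.ne_bot_iff_exists_ne_one.mp h1
  have hz1 : z ≠ 1 := fun h => hz1' (Subtype.ext h)
  have hzB : z ∈ B := hz.1
  have hzc : z ∈ Subgroup.center P := hz.2
  have hzp : z ^ p = 1 := hBe.2 z hzB
  -- central elements of exponent p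
  have hZc : ∀ u ∈ Subgroup.zpowers z, u ∈ Subgroup.center P := by
    intro u hu
    exact (Subgroup.zpowers_le.mpr hzc) hu
  have hZp : ∀ u ∈ Subgroup.zpowers z, u ^ p = 1 := by
    intro u hu
    obtain ⟨k, rfl⟩ := hu
    show (z ^ k) ^ p = 1
    rw [← zpow_natCast, ← zpow_mul, mul_comm, zpow_mul, zpow_natCast, hzp, one_zpow]
  have hK : ∀ u ∈ Subgroup.zpowers z, u ≠ 1 → ∀ e : E, T p u e = 0 := fun u hu hu1 e =>
    T_central hconst hpq u (hZc u hu) (hZp u hu) hu1 e
  haveI hNn : (Subgroup.zpowers z).Normal := by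
    constructor
    intro n hn g
    have := hZc n hn
    rw [Subgroup.mem_center_iff] at this
    rw [this g]
    simpa using hn
  have hoz : orderOf z = p := orderOf_eq_prime hzp hz1
  -- the second central element
  have hB' : B.map (QuotientGroup.mk' (Subgroup.zpowers z)) ≠ ⊥ := by
    intro h
    rw [Subgroup.map_eq_bot_iff, QuotientGroup.ker_mk'] at h
    have h2 := Subgroup.card_le_of_le h
    rw [hBc, Nat.card_zpowers, hoz] at h2
    have := hpp.two_le
    nlinarith
  haveI : (B.map (QuotientGroup.mk' (Subgroup.zpowers z))).Normal :=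
    hBn.map _ (QuotientGroup.mk'_surjective _)
  haveI : Group.IsNilpotent (P ⧸ Subgroup.zpowers z) := (hP.to_quotient _).isNilpotent
  have h2 := Cfsg.Agent.H4.normal_inf_center_ne_bot _ hB'
  obtain ⟨⟨y', hy'⟩, hy1'⟩ := Subgroup.ne_bot_iff_exists_ne_one.mp h2
  have hy'1 : y' ≠ 1 := fun h => hy1' (Subtype.ext h)
  obtain ⟨y, hyB, rfl⟩ := hy'.1
  have hyc : (QuotientGroup.mk' (Subgroup.zpowers z)) y ∈ Subgroup.center (P ⧸ Subgroup.zpowers z) := hy'.2
  have hyz : y ∉ Subgroup.zpowers z := by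
    intro h
    exact hy'1 ((QuotientGroup.eq_one_iff y).mpr h)
  have hyp : y ^ p = 1 := hBe.2 y hyB
  have hycomm : ∀ h : P, h * y * h⁻¹ * y⁻¹ ∈ Subgroup.zpowers z := by
    intro h
    rw [← QuotientGroup.eq_one_iff]
    rw [Subgroup.mem_center_iff] at hyc
    have := hyc (QuotientGroup.mk' _ h)
    show QuotientGroup.mk' (Subgroup.zpowers z) (h * y * h⁻¹ * y⁻¹) = 1
    rw [map_mul, map_mul, map_mul, this, map_inv, map_inv]
    group
  have hcz : ∀ x : P, Commute x z := fun x => (Subgroup.mem_center_iff.mp hzc x)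
  -- the trace identity
  have hid : ∀ e : E, ∑ k ∈ Finset.range p, T p (y * z ^ k) e = p • e := by
    intro e
    unfold T
    rw [Finset.sum_comm]
    have h3 : ∀ i ∈ Finset.range p, ∑ k ∈ Finset.range p, (y * z ^ k) ^ i • e
        = y ^ i • T p (z ^ i) e := by
      intro i _
      unfold T
      rw [Finset.smul_sum]
      apply Finset.sum_congr rfl
      intro k _
      rw [((hcz y).pow_right k).mul_pow, mul_smul, ← pow_mul, ← pow_mul, mul_comm]
    rw [Finset.sum_congr rfl h3]
    rw [Finset.sum_eq_single_of_mem 0 (Finset.mem_range.mpr hpp.pos)]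
    · rw [pow_zero, pow_zero, one_smul, T_of_fixed p 1 e (one_smul _ _)]
    · intro i hi hi0
      rw [hK (z ^ i) (Subgroup.npow_mem_zpowers z i), smul_zero]
      apply pow_ne_one_of_lt_orderOf hi0
      rw [hoz]; exact Finset.mem_range.mp hi
  -- E is nontrivial
  have hEx : ∃ e : E, e ≠ 0 := by
    by_contra hne
    push Not at hne
    exact hz1 (FaithfulSMul.eq_of_smul_eq_smul (α := E) (fun e => by rw [hne e, smul_zero, smul_zero]))
  obtain ⟨e, he⟩ := hEx
  have hk : ∃ k ∈ Finset.range p, T p (y * z ^ k) e ≠ 0 := by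
    by_contra hne
    push Not at hne
    have := hid e
    rw [Finset.sum_eq_zero hne] at this
    exact he (hpq e this.symm)
  obtain ⟨k, -, hk⟩ := hk
  set y₁ := y * z ^ k with hy₁
  set a₁ := T p y₁ e with ha₁
  have hy₁p : y₁ ^ p = 1 := by
    rw [hy₁, ((hcz y).pow_right k).mul_pow, hyp, one_mul, ← pow_mul, mul_comm, pow_mul, hzp, one_pow]
  have hfix₁ : y₁ • a₁ = a₁ := T_fix p y₁ e hy₁p
  have hy₁1 : y₁ ≠ 1 := by
    intro h
    apply hyz
    have : y = (z ^ k)⁻¹ := eq_inv_of_mul_eq_one_left h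
    rw [this]
    exact Subgroup.inv_mem _ (Subgroup.npow_mem_zpowers z k)
  have hconj : ∀ h : P, ∃ u ∈ Subgroup.zpowers z, h * y₁ * h⁻¹ = u * y₁ := by
    intro h
    refine ⟨h * y * h⁻¹ * y⁻¹, hycomm h, ?_⟩
    rw [hy₁]
    have : h * (y * z ^ k) * h⁻¹ = h * y * h⁻¹ * z ^ k := by
      have := ((hcz h⁻¹).pow_right k).eq
      rw [mul_assoc, mul_assoc, mul_assoc, this]
      group
    rw [this]; group
  have hnotc : y₁ ∉ Subgroup.center P := fun h => hk (claim1 hconst hpq y₁ h hy₁p hy₁1 a₁ hfix₁)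
  rw [Subgroup.mem_center_iff] at hnotc
  push Not at hnotc
  obtain ⟨g, hg⟩ := hnotc
  obtain ⟨w, hw, hgw⟩ := hconj g
  have hw1 : w ≠ 1 := by
    intro h
    rw [h, one_mul] at hgw
    exact hg (mul_inv_eq_iff_eq_mul.mp hgw)
  set a₂ := g • a₁ with ha₂
  have ha₂0 : a₂ ≠ 0 := by
    intro h
    exact hk ((smul_eq_zero_iff_eq g).mp h)
  have hfix₂ : (w * y₁) • a₂ = a₂ := by
    rw [← hgw, ha₂, smul_smul, inv_mul_cancel_right, mul_smul, hfix₁]
  have hy₁a₂ : y₁ • a₂ = w⁻¹ • a₂ := by
    rw [mul_smul] at hfix₂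
    rw [eq_inv_smul_iff]; exact hfix₂
  have hF : ∀ c ∈ Subgroup.zpowers z,
      T p (c * y₁) (a₁ + a₂) = T p c a₁ + T p (c * w⁻¹) a₂ := by
    intro c hc
    rw [T_add]
    congr 1
    · apply T_congr
      · rw [mul_smul, hfix₁]
      · exact Subgroup.mem_center_iff.mp (hZc c hc) _
    · apply T_congr
      · rw [mul_smul, hy₁a₂, mul_smul]
      · exact Subgroup.mem_center_iff.mp (hZc _ (mul_mem hc (inv_mem hw))) _
  have hstep : ∀ h : P, h • (a₁ + a₂) = a₁ + a₂ → ∃ u ∈ Subgroup.zpowers z,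
      ∀ c ∈ Subgroup.zpowers z, T p c a₁ + T p (c * w⁻¹) a₂
        = h • (T p (c * u) a₁ + T p (c * u * w⁻¹) a₂) := by
    intro h hh
    obtain ⟨u, hu, hhu⟩ := hconj h⁻¹
    refine ⟨u, hu, fun c hc => ?_⟩
    rw [← hF c hc, ← hF (c * u) (mul_mem hc hu), T_conj, hh]
    congr 1
    rw [mul_assoc c u y₁, ← hhu]
    have := Subgroup.mem_center_iff.mp (hZc c hc) h
    rw [← mul_assoc h c, this]; group
  have hF1 : T p (1 : P) a₁ + T p (1 * w⁻¹) a₂ = p • a₁ := by
    rw [T_of_fixed p (1 : P) a₁ (one_smul _ _), one_mul, hK w⁻¹ (inv_mem hw) (inv_ne_one.mpr hw1),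
      add_zero]
  have hv0 : a₁ + a₂ ≠ 0 := by
    intro h0
    have := hF 1 (one_mem _)
    rw [h0, T_zero, hF1] at this
    exact hk (hpq _ this.symm)
  have hww : w * w ≠ 1 := by
    intro h
    have h1 : orderOf w ∣ 2 := orderOf_dvd_of_pow_eq_one (by rw [pow_two]; exact h)
    have h2 : orderOf w ∣ p := orderOf_dvd_of_pow_eq_one (hZp w hw)
    have h3 : orderOf w ∣ Nat.gcd 2 p := Nat.dvd_gcd h1 h2
    have h4 : Nat.gcd 2 p = 1 := (Nat.coprime_primes Nat.prime_two hpp).mpr (Ne.symm hp2)
    rw [h4] at h3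
    exact hw1 (orderOf_eq_one_iff.mp (Nat.dvd_one.mp h3))
  have hst : ∀ h : P, h • (a₁ + a₂) = a₁ + a₂ → h • a₁ = a₁ := by
    intro h hh
    obtain ⟨u, hu, hc⟩ := hstep h hh
    by_cases hu1 : u = 1
    · have := hc 1 (one_mem _)
      rw [hu1, mul_one, hF1, smul_comm] at this
      have h2 : p • (h • a₁ - a₁) = 0 := by rw [smul_sub, ← this, sub_self]
      exact sub_eq_zero.mp (hpq _ h2)
    · exfalso
      by_cases huw : u = w
      · have := hc w hw
        rw [huw, hK w hw hw1, mul_inv_cancel, T_of_fixed p (1 : P) a₂ (one_smul _ _),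
          hK (w * w) (mul_mem hw hw) hww, mul_inv_cancel_right, hK w hw hw1, add_zero, smul_zero,
          zero_add] at this
        exact ha₂0 (hpq _ this)
      · have := hc 1 (one_mem _)
        rw [hF1, one_mul, hK u hu hu1, hK (u * w⁻¹) (mul_mem hu (inv_mem hw))
          (by intro h; exact huw (mul_inv_eq_one.mp h)), add_zero, smul_zero] at this
        exact hk (hpq _ this)
  have h5 := stab_eq hconst a₁ (a₁ + a₂) hk hv0 hst y₁ hfix₁
  rw [smul_add, hfix₁] at h5
  have h4 : y₁ • a₂ = a₂ := add_left_cancel h5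
  rw [hy₁a₂] at h4
  exact ha₂0 (claim1 hconst hpq w⁻¹ (hZc _ (inv_mem hw)) (hZp _ (inv_mem hw))
    (inv_ne_one.mpr hw1) a₂ h4)

end


/-- Let `p ≠ 2` be prime and `P` a finite `p`-group acting faithfully by additive automorphisms on a finite elementary abelian `q`-group `E` (`q` prime), such that `|P_a|` is the same for all `a ≠ 0`. Then `P` is cyclic and every non-identity element of `P` fixes only `0`. -/
theorem result {P E : Type*} [Group P] [Finite P]
    [AddCommGroup E] [Finite E] [DistribMulAction P E] [FaithfulSMul P E]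
    {p q : ℕ} [Fact p.Prime] (hp2 : p ≠ 2) (hP : IsPGroup p P) (hq : q.Prime) (hE : ∀ e : E, q • e = 0)
    (hconst : ∀ a b : E, a ≠ 0 → b ≠ 0 →
      Nat.card (MulAction.stabilizer P a) = Nat.card (MulAction.stabilizer P b)) :
    IsCyclic P ∧ ∀ g : P, g ≠ 1 → ∀ a : E, g • a = a → a = 0 := by
  have hpp : p.Prime := Fact.out
  by_cases hqp : q = p
  · -- P is trivial
    subst hqp
    have htriv : ∀ g : P, g = 1 := by
      by_cases hE0 : ∀ e : E, e = 0
      · intro g
        exact FaithfulSMul.eq_of_smul_eq_smul (α := E)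
          (fun e => by rw [hE0 e, smul_zero, smul_zero])
      · push Not at hE0
        obtain ⟨e, he⟩ := hE0
        have hdvd : q ∣ Nat.card E := by
          have h1 : addOrderOf e = q := addOrderOf_eq_prime (hE e) he
          rw [← h1]
          exact addOrderOf_dvd_natCard e
        have h0 : (0 : E) ∈ MulAction.fixedPoints P E := fun g => smul_zero g
        obtain ⟨a, ha, ha0⟩ := hP.exists_fixed_point_of_prime_dvd_card_of_fixed_point E hdvd h0
        have hsa : MulAction.stabilizer P a = ⊤ := by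
          rw [eq_top_iff]; intro g _; exact ha g
        intro g
        apply FaithfulSMul.eq_of_smul_eq_smul (α := E)
        intro b
        rw [one_smul]
        by_cases hb : b = 0
        · rw [hb, smul_zero]
        · have h2 := hconst b a hb (Ne.symm ha0)
          rw [hsa, Subgroup.card_top] at h2
          have h3 := (Subgroup.card_eq_iff_eq_top _).mp h2
          have : g ∈ MulAction.stabilizer P b := by rw [h3]; trivial
          exact this
    haveI : Subsingleton P := ⟨fun a b => by rw [htriv a, htriv b]⟩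
    exact ⟨isCyclic_of_subsingleton, fun g hg => absurd (htriv g) hg⟩
  · have hpq : ∀ e : E, p • e = 0 → e = 0 := by
      intro e he
      have h1 : addOrderOf e ∣ p := addOrderOf_dvd_of_nsmul_eq_zero he
      have h2 : addOrderOf e ∣ q := addOrderOf_dvd_of_nsmul_eq_zero (hE e)
      have h3 : addOrderOf e ∣ Nat.gcd p q := Nat.dvd_gcd h1 h2
      have h4 : Nat.gcd p q = 1 := (Nat.coprime_primes hpp hq).mpr (Ne.symm hqp)
      rw [h4] at h3
      exact AddMonoid.addOrderOf_eq_one_iff.mp (Nat.dvd_one.mp h3)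
    have hcyc : IsCyclic P := by
      by_contra hnc
      exact noncyclic_false hp2 hP hconst hpq hnc
    refine ⟨hcyc, ?_⟩
    intro g hg a hga
    obtain ⟨n, hn⟩ := IsPGroup.iff_orderOf.mp hP g
    have hn0 : n ≠ 0 := by
      intro h
      rw [h, pow_zero] at hn
      exact hg (orderOf_eq_one_iff.mp hn)
    obtain ⟨m, rfl⟩ := Nat.exists_eq_succ_of_ne_zero hn0
    have hc1 : g ^ (p ^ m) ≠ 1 := by
      intro h
      have := orderOf_dvd_of_pow_eq_one h
      rw [hn] at this
      have := Nat.pow_dvd_pow_iff_le_right hpp.one_lt |>.mp this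
      omega
    have hcp : (g ^ (p ^ m)) ^ p = 1 := by
      rw [← pow_mul, ← pow_succ, ← hn, pow_orderOf_eq_one]
    have hcen : g ^ (p ^ m) ∈ Subgroup.center P := by
      rw [Subgroup.mem_center_iff]
      intro x
      obtain ⟨t, ht⟩ := hcyc
      obtain ⟨i, hi⟩ := ht x
      obtain ⟨j, hj⟩ := ht (g ^ (p ^ m))
      rw [← hi, ← hj]
      show t ^ i * t ^ j = t ^ j * t ^ i
      rw [← zpow_add, ← zpow_add, add_comm]
    exact claim1 hconst hpq _ hcen hcp hc1 a (pow_smul_fixed g a hga _)

end Cfsg.Agent.S1160
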