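import Cfsg.Statements.S1168
import Cfsg.Agent.S1140

set_option autoImplicit false
open Cfsg

namespace Cfsg.Agent.S1168

theorem coords (F : Type*) [Field F] [Fintype F] [CharP F 2] :
    ∃ (n : ℕ) (X : Fin n → F → F) (e : Fin n → F),
      (∀ i x y, X i (x + y) = X i x + X i y) ∧ (∀ i x, X i x = 0 ∨ X i x = 1) ∧
      ∀ x, x = ∑ i, X i x * e i := by
  letI := ZMod.algebra F 2
  let b := Module.finBasis (ZMod 2) F
  refine ⟨_, fun i x => algebraMap (ZMod 2) F (b.repr x i), fun i => b i, ?_, ?_, ?_⟩
  · intro i x y
    simp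
  · intro i x
    have : ∀ c : ZMod 2, c = 0 ∨ c = 1 := by decide
    rcases this (b.repr x i) with h | h
    · left; simp [h]
    · right; simp [h]
  · intro x
    conv_lhs => rw [← b.sum_repr x]
    simp [Algebra.smul_def]

/-- For a finite field `F` of characteristic 2: if `q : F → F` is quadratic over the prime field, i.e. `(x, y) ↦ q (x + y) + q x + q y` is additive in each variable, then `q x = Σ c_{σ,τ} σ(x) τ(x)` for some coefficients indexed by pairs of field automorphisms. -/
theorem result {F : Type*} [Field F] [Fintype F] [CharP F 2]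
    (q : F → F)
    (hq : ∀ x y z : F, q (x + y + z) + q (x + y) + q (x + z) + q (y + z) + q x + q y + q z = 0) :
    ∃ (s : Finset ((F ≃+* F) × (F ≃+* F))) (c : (F ≃+* F) × (F ≃+* F) → F),
      ∀ x : F, q x = ∑ p ∈ s, c p * (p.1 x * p.2 x) := by
  have h2 : (2 : F) = 0 := by
    have := CharP.cast_eq_zero F 2
    exact_mod_cast this
  have hq0 : q 0 = 0 := by
    have := hq 0 0 0
    simp only [add_zero] at this
    linear_combination this - 3 * q 0 * h2
  obtain ⟨n, X, e, hXadd, hX01, hXsum⟩ := coords F
  have hP1 : ∀ x y z : F, q (x + y + z) + q (x + y) + q z =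
      (q (x + z) + q x + q z) + (q (y + z) + q y + q z) := by
    intro x y z
    linear_combination hq x y z - (q (x + z) + q (y + z) + q x + q y + q z) * h2
  have hP2 : ∀ z x y : F, q (z + (x + y)) + q z + q (x + y) =
      (q (z + x) + q z + q x) + (q (z + y) + q z + q y) := by
    intro z x y
    have := hP1 x y z
    rw [add_comm z (x + y), add_comm z x, add_comm z y]
    linear_combination this
  have key : ∀ s : Finset (Fin n), ∃ B : F → F → F,
      (∀ x x' y, B (x + x') y = B x y + B x' y) ∧ (∀ x y y', B x (y + y') = B x y + B x y') ∧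
      ∀ x, q (∑ i ∈ s, X i x * e i) = B x x := by
    intro s
    induction s using Finset.induction_on with
    | empty => exact ⟨fun _ _ => 0, by simp, by simp, by simp [hq0]⟩
    | insert a s ha ih =>
      obtain ⟨B, hB1, hB2, hB3⟩ := ih
      have hr : ∀ y y', ∑ i ∈ s, X i (y + y') * e i =
          ∑ i ∈ s, X i y * e i + ∑ i ∈ s, X i y' * e i := by
        intro y y'
        rw [← Finset.sum_add_distrib]
        apply Finset.sum_congr rfl
        intro i _
        rw [hXadd, add_mul]
      refine ⟨fun x y => X a x * X a y * q (e a) + B x y +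
        (q (X a x * e a + ∑ i ∈ s, X i y * e i) + q (X a x * e a) + q (∑ i ∈ s, X i y * e i)),
        ?_, ?_, ?_⟩
      · intro x x' y
        simp only
        rw [hXadd, hB1, add_mul (X a x) (X a x') (e a), hP1]
        ring
      · intro x y y'
        simp only
        rw [hXadd, hB2, hr, hP2]
        ring
      · intro x
        simp only
        rw [Finset.sum_insert ha, ← hB3]
        have h1 : q (X a x * e a) = X a x * X a x * q (e a) := by
          rcases hX01 a x with h | h <;> rw [h] <;> simp [hq0]
        rw [← h1]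
        linear_combination (-(q (X a x * e a)) - q (∑ i ∈ s, X i x * e i)) * h2
  obtain ⟨B, hB1, hB2, hB3⟩ := key Finset.univ
  let B' : F →+ F →+ F := AddMonoidHom.mk' (fun x => AddMonoidHom.mk' (B x) (hB2 x))
    (fun x x' => by ext y; exact hB1 x x' y)
  obtain ⟨s, c, hsc⟩ := (Cfsg.Agent.S1140.result (F := F)).2.2 B'
  refine ⟨s, c, fun x => ?_⟩
  rw [← hsc x x]
  show q x = B x x
  rw [← hB3, ← hXsum]

end Cfsg.Agent.S1168
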