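import Cfsg.Statements.S1176
import Cfsg.Agent.Lib.Helper8.Isolated

set_option autoImplicit false
open Cfsg

namespace Cfsg.Agent.S1176

open Cfsg.Agent.Lib.Helper8
open scoped commutatorElement

/-- Let x₀ be an involution of the finite group G and D its conjugacy class. Assume (a) for each x ∈ D the subgroup W(x) generated by the members of D commuting with x is a 2-group of nilpotency class at most 2, and (b) the product of two distinct commuting members of D again lies in D. Then for all x, y ∈ D, if xy has even order greater than 2, its order is 4. -/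
theorem result {G : Type*} [Group G] [Finite G] (x₀ : G) (hx₀ : orderOf x₀ = 2) (ha : ∀ x : G, IsConj x₀ x → IsPGroup 2 ↥(Subgroup.closure {y : G | IsConj x₀ y ∧ Commute y x}) ∧ ⁅⁅Subgroup.closure {y : G | IsConj x₀ y ∧ Commute y x}, Subgroup.closure {y : G | IsConj x₀ y ∧ Commute y x}⁆, Subgroup.closure {y : G | IsConj x₀ y ∧ Commute y x}⁆ = ⊥) (hb : ∀ x y : G, IsConj x₀ x → IsConj x₀ y → x ≠ y → Commute x y → IsConj x₀ (x * y)) (x y : G) (hx : IsConj x₀ x) (hy : IsConj x₀ y) (heven : Even (orderOf (x * y))) (hgt : 2 < orderOf (x * y)) : orderOf (x * y) = 4 := by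
  have hx₀ : x₀ * x₀ = 1 := mul_self_of_orderOf_two hx₀
  have hinv : ∀ w : G, IsConj x₀ w → w * w = 1 := by
    intro w hw
    obtain ⟨c, hc⟩ := isConj_iff.mp hw
    rw [← hc]; exact conj_mul_self hx₀ c
  have hxx := hinv x hx
  have hyy := hinv y hy
  rcases odd_or_central_invol hxx hyy with ho | ⟨c, hc1, hcc, hxc, hyc, -, hconj⟩
  · exact absurd heven (Nat.not_even_iff_odd.mpr ho)
  · -- `x c` is a conjugate of `x₀`
    have hxcD : IsConj x₀ (x * c) := by
      rcases hconj with ⟨a, -, ha⟩ | ⟨a, -, ha⟩
      · rw [ha]; exact hx.trans (isConj_iff.mpr ⟨a, rfl⟩)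
      · rw [ha]; exact hy.trans (isConj_iff.mpr ⟨a, rfl⟩)
    have hcD : IsConj x₀ c := by
      have h1 : x ≠ x * c := by
        intro h
        apply hc1
        have : x * 1 = x * c := by rw [mul_one]; exact h
        exact (mul_left_cancel this).symm
      have h2 := hb x (x * c) hx hxcD h1 ((Commute.refl x).mul_right hxc)
      have e : x * (x * c) = c := by rw [← mul_assoc, hxx, one_mul]
      rwa [e] at h2
    obtain ⟨-, hclass⟩ := ha c hcD
    set W := Subgroup.closure {y : G | IsConj x₀ y ∧ Commute y c} with hW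
    have hxW : x ∈ W := Subgroup.subset_closure ⟨hx, hxc⟩
    have hyW : y ∈ W := Subgroup.subset_closure ⟨hy, hyc⟩
    have h1 : ⁅⁅x, y⁆, x⁆ ∈ ⁅⁅W, W⁆, W⁆ :=
      Subgroup.commutator_mem_commutator (Subgroup.commutator_mem_commutator hxW hyW) hxW
    rw [hclass, Subgroup.mem_bot] at h1
    have hxi := inv_eq_self_of_mul_self hxx
    have hyi := inv_eq_self_of_mul_self hyy
    have h2 : (x * y) ^ 4 = 1 := by
      rw [commutatorElement_def, commutatorElement_def] at h1
      simp only [mul_inv_rev, inv_inv, hxi, hyi] at h1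
      have e : (x * y) ^ 4 = x * y * x * y * x * (y * (x * (y * x))) * x := by
        have : x * y * x * y * x * (y * (x * (y * x))) * x = x * y * x * y * x * y * x * y * (x * x) := by
          simp only [mul_assoc]
        rw [this, hxx, mul_one]
        simp only [pow_succ, pow_zero, one_mul, mul_assoc]
      rw [e]; exact h1
    have h3 : orderOf (x * y) ∣ 4 := orderOf_dvd_of_pow_eq_one h2
    have h4 : orderOf (x * y) ≤ 4 := Nat.le_of_dvd (by norm_num) h3
    interval_cases h : orderOf (x * y)
    · norm_num at h3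
    · rfl

end Cfsg.Agent.S1176
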