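import Cfsg.Statements.S1177
import Cfsg.Agent.Lib.Helper8.Closed
import Cfsg.Agent.Lib.Helper8.Isolated

set_option autoImplicit false
open Cfsg

namespace Cfsg.Agent.S1177

open Cfsg.Agent.Lib.Helper8

/-- Let A be a nontrivial elementary abelian 2-subgroup of a finite group G which is a T.I. set (each conjugate of A meets A trivially or equals A) and which does not commute elementwise with any conjugate of A other than A itself. Then for every a ∈ A, a ≠ 1, every conjugate of A contained in C_G(a) is equal to A (A is weakly closed in C_G(a)). -/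
theorem result {G : Type*} [Group G] [Finite G] (A : Subgroup G) (hA : Cfsg.IsElementaryAbelian 2 A) (hA1 : A ≠ ⊥) (hTI : ∀ g : G, A.map (MulAut.conj g).toMonoidHom ⊓ A = ⊥ ∨ A.map (MulAut.conj g).toMonoidHom = A) (hb : ∀ g : G, (∀ a ∈ A, ∀ b ∈ A.map (MulAut.conj g).toMonoidHom, a * b = b * a) → A.map (MulAut.conj g).toMonoidHom = A) (a : G) (ha : a ∈ A) (ha1 : a ≠ 1) (g : G) (hg : A.map (MulAut.conj g).toMonoidHom ≤ Subgroup.centralizer ({a} : Set G)) : A.map (MulAut.conj g).toMonoidHom = A := by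
  classical
  rcases hTI g with hdisj | h
  swap
  · exact h
  set B := A.map (MulAut.conj g).toMonoidHom with hB
  have hAcomm : ∀ x ∈ A, ∀ y ∈ A, x * y = y * x := by
    intro x hx y hy
    exact congrArg Subtype.val (hA.1.is_comm.comm ⟨x, hx⟩ ⟨y, hy⟩)
  have hA2 : ∀ x ∈ A, x * x = 1 := by
    intro x hx; rw [← pow_two]; exact hA.2 x hx
  have hB2 : ∀ b ∈ B, b * b = 1 := by
    rintro _ ⟨x, hx, rfl⟩
    exact conj_mul_self (hA2 x hx) g
  have hAB : ∀ x, x ∈ A → x ∈ B → x = 1 := by
    intro x hxA hxB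
    have : x ∈ B ⊓ A := ⟨hxB, hxA⟩
    rw [hdisj] at this
    exact this
  -- Step 1: `B` normalises `A`
  have hBA : ∀ b ∈ B, ∀ x ∈ A, b * x * b⁻¹ ∈ A := by
    intro b hb x hx
    have hba : b * a = a * b := Subgroup.mem_centralizer_singleton_iff.mp (hg hb)
    have h1 : cj b A = A := by
      rcases hTI b with h | h
      · exfalso
        have : a ∈ cj b A ⊓ A := by
          refine Subgroup.mem_inf.mpr ⟨?_, ha⟩
          rw [mem_cj]
          have : b⁻¹ * a * b = a := by
            calc b⁻¹ * a * b = b⁻¹ * (a * b) := by group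
              _ = b⁻¹ * (b * a) := by rw [hba]
              _ = a := by group
          rw [this]; exact ha
        rw [h] at this
        exact ha1 this
      · exact h
    rw [← h1]; exact conj_mem_cj hx
  -- Step 2/3: an element of `A` commuting with a nontrivial element of `B` centralises `B`
  have hcent : ∀ b ∈ B, b ≠ 1 → ∀ x ∈ A, x * b = b * x → ∀ b' ∈ B, x * b' = b' * x := by
    intro b hb hb1 x hx hxb b' hb'
    obtain ⟨a₀, ha₀, rfl⟩ := hb
    have hb0 : (MulAut.conj g).toMonoidHom a₀ = g * a₀ * g⁻¹ := rfl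
    rw [hb0] at hb1 hxb
    have ha₀1 : a₀ ≠ 1 := by
      rintro rfl; apply hb1; group
    have h1 : cj (g⁻¹ * x * g) A = A := by
      rcases hTI (g⁻¹ * x * g) with h | h
      · exfalso
        have : a₀ ∈ cj (g⁻¹ * x * g) A ⊓ A := by
          refine Subgroup.mem_inf.mpr ⟨?_, ha₀⟩
          rw [mem_cj]
          have : (g⁻¹ * x * g)⁻¹ * a₀ * (g⁻¹ * x * g) = a₀ := by
            calc (g⁻¹ * x * g)⁻¹ * a₀ * (g⁻¹ * x * g) = g⁻¹ * x⁻¹ * ((g * a₀ * g⁻¹) * x) * g := by group
              _ = g⁻¹ * x⁻¹ * (x * (g * a₀ * g⁻¹)) * g := by rw [hxb]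
              _ = a₀ := by group
          rw [this]; exact ha₀
        rw [h] at this
        exact ha₀1 this
      · exact h
    -- so `x` normalises `B`
    have h2 : x * b' * x⁻¹ ∈ B := by
      have h3 : cj x B = B := by
        rw [hB]
        show cj x (cj g A) = cj g A
        rw [cj_cj]
        have : x * g = g * (g⁻¹ * x * g) := by group
        rw [this, ← cj_cj, h1]
      rw [← h3]; exact conj_mem_cj hb'
    have h4 : x * b' * x⁻¹ * b'⁻¹ ∈ B := B.mul_mem h2 (B.inv_mem hb')
    have h5 : x * b' * x⁻¹ * b'⁻¹ ∈ A := by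
      have : x * b' * x⁻¹ * b'⁻¹ = x * (b' * x⁻¹ * b'⁻¹) := by group
      rw [this]; exact A.mul_mem hx (hBA b' hb' _ (A.inv_mem hx))
    have h6 := hAB _ h5 h4
    calc x * b' = (x * b' * x⁻¹ * b'⁻¹) * b' * x := by group
      _ = b' * x := by rw [h6, one_mul]
  -- Step 4
  let A₁ : Subgroup G := A ⊓ Subgroup.centralizer (B : Set G)
  have hA₁ : A₁ = A := by
    by_contra hne
    have hex : ∃ a' ∈ A, a' ∉ A₁ := by
      by_contra hcon
      push Not at hcon
      exact hne (le_antisymm inf_le_left hcon)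
    obtain ⟨a', ha', ha'1⟩ := hex
    have hfmem : ∀ b : B, (b : G) * a' * (b : G)⁻¹ * a'⁻¹ ∈ A₁ := by
      intro b
      have hfA : (b : G) * a' * (b : G)⁻¹ * a'⁻¹ ∈ A := A.mul_mem (hBA b b.2 a' ha') (A.inv_mem ha')
      refine Subgroup.mem_inf.mpr ⟨hfA, ?_⟩
      by_cases hb1 : (b : G) = 1
      · rw [hb1]; simp
      · rw [Subgroup.mem_centralizer_iff]
        intro b' hb'
        refine (hcent b b.2 hb1 _ hfA ?_ b' hb').symm
        -- `f b` commutes with `b`
        have hbi : (b : G)⁻¹ = b := inv_eq_self_of_mul_self (hB2 b b.2)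
        have hai : a'⁻¹ = a' := inv_eq_self_of_mul_self (hA2 a' ha')
        have hc := hAcomm _ (hBA b b.2 a' ha') a' ha'
        rw [hbi] at hc ⊢
        rw [hai]
        have hbb := hB2 b b.2
        calc (b : G) * a' * b * a' * b = a' * ((b : G) * a' * b) * b := by rw [← hc]
          _ = a' * (b : G) * a' * ((b : G) * b) := by group
          _ = ((b : G) * b) * a' * b * a' := by rw [hbb]; group
          _ = b * ((b : G) * a' * b * a') := by group
    let f : B → A₁ := fun b => ⟨(b : G) * a' * (b : G)⁻¹ * a'⁻¹, hfmem b⟩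
    have hfinj : Function.Injective f := by
      intro b b' hbb'
      have h1 : (b : G) * a' * (b : G)⁻¹ * a'⁻¹ = (b' : G) * a' * (b' : G)⁻¹ * a'⁻¹ :=
        congrArg Subtype.val hbb'
      have h2 : (b : G) * a' * (b : G)⁻¹ = (b' : G) * a' * (b' : G)⁻¹ := mul_right_cancel h1
      by_contra hne'
      have h3 : (b' : G)⁻¹ * b ≠ 1 := by
        intro h
        apply hne'
        apply Subtype.ext
        have : (b : G) = b' * ((b' : G)⁻¹ * b) := by group
        rw [this, h, mul_one]
      have h4 : a' * ((b' : G)⁻¹ * b) = ((b' : G)⁻¹ * b) * a' := by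
        calc a' * ((b' : G)⁻¹ * b) = (b' : G)⁻¹ * ((b' : G) * a' * (b' : G)⁻¹) * b := by group
          _ = (b' : G)⁻¹ * ((b : G) * a' * (b : G)⁻¹) * b := by rw [h2]
          _ = ((b' : G)⁻¹ * b) * a' := by group
      apply ha'1
      refine Subgroup.mem_inf.mpr ⟨ha', ?_⟩
      rw [Subgroup.mem_centralizer_iff]
      intro b'' hb''
      exact (hcent _ (B.mul_mem (B.inv_mem b'.2) b.2) h3 a' ha' h4 b'' hb'').symm
    have hcard : Nat.card B ≤ Nat.card A₁ := Nat.card_le_card_of_injective f hfinj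
    have hcardB : Nat.card B = Nat.card A := by
      rw [hB]; exact Subgroup.card_map_of_injective (MulAut.conj g).injective
    rw [hcardB] at hcard
    exact hne (Subgroup.eq_of_le_of_card_ge inf_le_left hcard)
  apply hb g
  intro x hx b hb'
  have : x ∈ A₁ := by rw [hA₁]; exact hx
  exact (Subgroup.mem_centralizer_iff.mp (Subgroup.mem_inf.mp this).2 b hb').symm

end Cfsg.Agent.S1177
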