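import Cfsg.Statements.S1178
import Cfsg.Agent.Lib.Helper8.Closed

set_option autoImplicit false
open Cfsg

namespace Cfsg.Agent.S1178

/-- Let A be a subgroup of a Sylow 2-subgroup S of the finite group G which is weakly closed in S. If a conjugate g A g⁻¹ commutes elementwise with A, then g A g⁻¹ = A. -/
theorem result {G : Type*} [Group G] [Finite G] (S : Sylow 2 G) (A : Subgroup G) (hW : Cfsg.IsWeaklyClosed A (S : Subgroup G)) (g : G) (hc : ∀ a ∈ A, ∀ b ∈ A.map (MulAut.conj g).toMonoidHom, a * b = b * a) : A.map (MulAut.conj g).toMonoidHom = A := by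
  have hA2 : IsPGroup 2 A := S.2.to_le hW.1
  have hB2 : IsPGroup 2 (A.map (MulAut.conj g).toMonoidHom) := hA2.map _
  have hnorm : A ≤ Subgroup.normalizer ((A.map (MulAut.conj g).toMonoidHom : Subgroup G) : Set G) := by
    intro a ha
    rw [Subgroup.mem_normalizer_iff]
    intro b
    constructor
    · intro hb
      have : a * b * a⁻¹ = b := by rw [hc a ha b hb]; group
      rw [this]; exact hb
    · intro hb
      have h1 := hc a ha _ hb
      have : b = a * b * a⁻¹ := by
        have h2 : a * (a * b * a⁻¹) = a * b := by rw [h1]; group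
        exact (mul_left_cancel h2).symm
      rw [this]; exact hb
  have hT : IsPGroup 2 (A ⊔ A.map (MulAut.conj g).toMonoidHom : Subgroup G) :=
    IsPGroup.to_sup_of_normal_right' hA2 hB2 hnorm
  have h1 : Cfsg.Agent.Lib.Helper8.cj 1 A ≤ A ⊔ A.map (MulAut.conj g).toMonoidHom := by
    rw [Cfsg.Agent.Lib.Helper8.cj_one]; exact le_sup_left
  have := Cfsg.Agent.Lib.Helper8.weaklyClosed_unique S hW hT (g₁ := g) (g₂ := 1) le_sup_right h1
  rw [Cfsg.Agent.Lib.Helper8.cj_one] at this
  exact this

end Cfsg.Agent.S1178
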