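import Cfsg.Statements.S1181
import Cfsg.Agent.Lib.Helper8.Isolated

set_option autoImplicit false
open Cfsg

namespace Cfsg.Agent.S1181

/-- Let z be an isolated involution of the finite group G and N a normal subgroup with z ∉ N. Then the centralizer of zN in G/N is the image of C_G(z), and zN is an isolated involution of G/N. -/
theorem result {G : Type*} [Group G] [Finite G] (z : G) (hz : Cfsg.IsIsolatedInvolution z) (N : Subgroup G) [N.Normal] (hzN : z ∉ N) : Subgroup.centralizer ({(QuotientGroup.mk z : G ⧸ N)} : Set (G ⧸ N)) = (Subgroup.centralizer ({z} : Set G)).map (QuotientGroup.mk' N) ∧ Cfsg.IsIsolatedInvolution (QuotientGroup.mk z : G ⧸ N) := by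
  have hzz := Cfsg.Agent.Lib.Helper8.IsIso.mul_self hz
  have hzi := Cfsg.Agent.Lib.Helper8.IsIso.inv hz
  constructor
  · apply le_antisymm
    · intro q hq
      obtain ⟨g, rfl⟩ := QuotientGroup.mk_surjective q
      rw [Subgroup.mem_centralizer_singleton_iff] at hq
      obtain ⟨k, hk, -, -, hk2⟩ := Cfsg.Agent.Lib.Helper8.IsIso.exists_inverted hz g
      have hwz : g * z * g⁻¹ * z ∈ N := by
        rw [← QuotientGroup.eq_one_iff]
        have h1 : ((g * z * g⁻¹ * z : G) : G ⧸ N) = ((g : G ⧸ N) * (z : G ⧸ N)) * (g : G ⧸ N)⁻¹ * (z : G ⧸ N) := by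
          simp
        rw [h1, hq]
        have h2 : ((z : G ⧸ N)) * (z : G ⧸ N) = 1 := by
          rw [← QuotientGroup.mk_mul, hzz]; rfl
        calc (z : G ⧸ N) * (g : G ⧸ N) * (g : G ⧸ N)⁻¹ * (z : G ⧸ N) = (z : G ⧸ N) * (z : G ⧸ N) := by group
          _ = 1 := h2
      have hkN : k ∈ N := by
        have : Subgroup.zpowers (g * z * g⁻¹ * z) ≤ N := by
          rw [Subgroup.zpowers_le]; exact hwz
        exact this hk
      refine ⟨k⁻¹ * g, ?_, ?_⟩
      · show k⁻¹ * g ∈ Subgroup.centralizer {z}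
        rw [Subgroup.mem_centralizer_singleton_iff]
        calc k⁻¹ * g * z = k⁻¹ * (g * z * g⁻¹) * g := by group
          _ = k⁻¹ * (k * z * k⁻¹) * g := by rw [hk2]
          _ = z * (k⁻¹ * g) := by group
      · show ((k⁻¹ * g : G) : G ⧸ N) = (g : G ⧸ N)
        rw [QuotientGroup.mk_mul, QuotientGroup.mk_inv, (QuotientGroup.eq_one_iff k).mpr hkN]
        simp
    · rintro _ ⟨c, hc, rfl⟩
      have hc' : c ∈ Subgroup.centralizer {z} := hc
      rw [Subgroup.mem_centralizer_singleton_iff] at hc' ⊢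
      show ((c : G) : G ⧸ N) * (z : G ⧸ N) = (z : G ⧸ N) * (c : G ⧸ N)
      rw [← QuotientGroup.mk_mul, hc', QuotientGroup.mk_mul]
  · have h2 : ((z : G ⧸ N)) * (z : G ⧸ N) = 1 := by
      rw [← QuotientGroup.mk_mul, hzz]; rfl
    have h1 : (z : G ⧸ N) ≠ 1 := by
      intro h; exact hzN ((QuotientGroup.eq_one_iff z).mp h)
    refine ⟨Cfsg.Agent.Lib.Helper8.orderOf_two_of h1 h2, ?_⟩
    intro q hq
    obtain ⟨g, rfl⟩ := QuotientGroup.mk_surjective q
    obtain ⟨n, hn⟩ := Cfsg.Agent.Lib.Helper8.IsIso.odd_mul_conj hz g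
    set w : G ⧸ N := (g : G ⧸ N) * (z : G ⧸ N) * (g : G ⧸ N)⁻¹ with hw
    have hww : w * w = 1 := Cfsg.Agent.Lib.Helper8.conj_mul_self h2 _
    have hr : ((z : G ⧸ N) * w) ^ (2 * n + 1) = 1 := by
      have e : (z : G ⧸ N) * w = ((z * (g * z * g⁻¹) : G) : G ⧸ N) := by
        rw [hw]; simp
      rw [e, ← QuotientGroup.mk_pow, ← hn, pow_orderOf_eq_one]; rfl
    have hsq : ((z : G ⧸ N) * w) ^ 2 = 1 := by
      rw [hq.mul_pow, pow_two, pow_two, h2, hww, one_mul]
    have h3 : (z : G ⧸ N) * w = 1 := by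
      rw [pow_succ, pow_mul, hsq, one_pow, one_mul] at hr
      exact hr
    calc w = ((z : G ⧸ N) * (z : G ⧸ N)) * w := by rw [h2, one_mul]
      _ = (z : G ⧸ N) * ((z : G ⧸ N) * w) := by group
      _ = (z : G ⧸ N) := by rw [h3, mul_one]

end Cfsg.Agent.S1181
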