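import Cfsg.Statements.S1182
import Cfsg.Agent.Lib.Helper8.Isolated

set_option autoImplicit false
open Cfsg

namespace Cfsg.Agent.S1182

/-- Let z be an isolated involution of the finite group G and H a subgroup normalized by z. If x, y ∈ H both commute with z and y = h x h⁻¹ for some h ∈ H, then y = c x c⁻¹ for some c ∈ H commuting with z. -/
theorem result {G : Type*} [Group G] [Finite G] (z : G) (hz : Cfsg.IsIsolatedInvolution z) (H : Subgroup G) (hzH : z ∈ Subgroup.normalizer (H : Set G)) (x y : G) (hx : x ∈ H) (hy : y ∈ H) (hxz : Commute x z) (hyz : Commute y z) (h : G) (hh : h ∈ H) (hconj : h * x * h⁻¹ = y) : ∃ c ∈ H, Commute c z ∧ c * x * c⁻¹ = y := by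
  obtain ⟨k, hk, -, -, hk2⟩ := Cfsg.Agent.Lib.Helper8.IsIso.exists_inverted hz h
  have hzi := Cfsg.Agent.Lib.Helper8.IsIso.inv hz
  have hwzH : h * z * h⁻¹ * z ∈ H := by
    have h1 : z * h⁻¹ * z⁻¹ ∈ H := (Subgroup.mem_normalizer_iff.mp hzH h⁻¹).mp (H.inv_mem hh)
    have : h * z * h⁻¹ * z = h * (z * h⁻¹ * z⁻¹) := by rw [hzi]; group
    rw [this]; exact H.mul_mem hh h1
  have hkH : k ∈ H := by
    have : Subgroup.zpowers (h * z * h⁻¹ * z) ≤ H := by
      rw [Subgroup.zpowers_le]; exact hwzH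
    exact this hk
  have hwy : Commute (h * z * h⁻¹) y := by
    rw [← hconj]
    show h * z * h⁻¹ * (h * x * h⁻¹) = h * x * h⁻¹ * (h * z * h⁻¹)
    calc h * z * h⁻¹ * (h * x * h⁻¹) = h * (z * x) * h⁻¹ := by group
      _ = h * (x * z) * h⁻¹ := by rw [hxz.eq]
      _ = h * x * h⁻¹ * (h * z * h⁻¹) := by group
  have hky : Commute k y := by
    have h1 : Commute (h * z * h⁻¹ * z) y := hwy.mul_left hyz.symm
    obtain ⟨n, rfl⟩ := Subgroup.mem_zpowers_iff.mp hk
    exact h1.zpow_left n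
  refine ⟨k⁻¹ * h, H.mul_mem (H.inv_mem hkH) hh, ?_, ?_⟩
  · show k⁻¹ * h * z = z * (k⁻¹ * h)
    calc k⁻¹ * h * z = k⁻¹ * (h * z * h⁻¹) * h := by group
      _ = k⁻¹ * (k * z * k⁻¹) * h := by rw [hk2]
      _ = z * (k⁻¹ * h) := by group
  · calc k⁻¹ * h * x * (k⁻¹ * h)⁻¹ = k⁻¹ * (h * x * h⁻¹) * k := by group
      _ = k⁻¹ * (y * k) := by rw [hconj]; group
      _ = k⁻¹ * (k * y) := by rw [hky.eq]
      _ = y := by group

end Cfsg.Agent.S1182
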