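import Cfsg.Statements.S1185
import Cfsg.Agent.Lib.Helper8.Isolated

set_option autoImplicit false
open Cfsg

namespace Cfsg.Agent.S1185

/-- Let z be an isolated involution of the finite group G with centralizer C. Then for every g ∈ G there is exactly one element k in the coset gC that has odd order and is inverted by z. -/
theorem result {G : Type*} [Group G] [Finite G] (z : G) (hz : Cfsg.IsIsolatedInvolution z) (g : G) : ∃! k : G, (Odd (orderOf k) ∧ z * k * z⁻¹ = k⁻¹) ∧ g⁻¹ * k ∈ Subgroup.centralizer ({z} : Set G) := by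
  obtain ⟨k, -, hodd, hinv, hk2⟩ := Cfsg.Agent.Lib.Helper8.IsIso.exists_inverted hz g
  refine ⟨k, ⟨⟨hodd, hinv⟩, ?_⟩, ?_⟩
  · rw [Subgroup.mem_centralizer_singleton_iff]
    calc g⁻¹ * k * z = g⁻¹ * (k * z * k⁻¹) * k := by group
      _ = g⁻¹ * (g * z * g⁻¹) * k := by rw [hk2]
      _ = z * (g⁻¹ * k) := by group
  · rintro k' ⟨⟨hodd', hinv'⟩, hc⟩
    rw [Subgroup.mem_centralizer_singleton_iff] at hc
    have h1 : k' * z * k'⁻¹ = g * z * g⁻¹ := by
      calc k' * z * k'⁻¹ = g * ((g⁻¹ * k') * z) * k'⁻¹ := by group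
        _ = g * (z * (g⁻¹ * k')) * k'⁻¹ := by rw [hc]
        _ = g * z * g⁻¹ := by group
    rw [← hk2, Cfsg.Agent.Lib.Helper8.conj_of_inverted hinv', Cfsg.Agent.Lib.Helper8.conj_of_inverted hinv] at h1
    exact Cfsg.Agent.Lib.Helper8.eq_of_sq_eq_of_odd hodd' hodd (mul_right_cancel h1)

end Cfsg.Agent.S1185
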