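import Cfsg.Statements.S1242
import Cfsg.Agent.Lib.Helper8.Transfer2
import Cfsg.Agent.Lib.Helper8.PResidual

set_option autoImplicit false
open Cfsg

namespace Cfsg.Agent.S1242

/-- Let G be a finite group, p a prime and H a subgroup of index prime to p such that any two elements of H of p-power order that are conjugate in G are conjugate in H. Then (O^p(G)·G') ∩ H = O^p(H)·H', where O^p denotes the subgroup generated by the elements of order prime to p. -/
theorem result {G : Type*} [Group G] [Finite G] {p : ℕ} [Fact p.Prime] (H : Subgroup G) (hidx : Nat.Coprime p H.index) (hfus : ∀ g ∈ H, (∃ k : ℕ, orderOf g = p ^ k) → ∀ a : G, a * g * a⁻¹ ∈ H → ∃ h ∈ H, h * g * h⁻¹ = a * g * a⁻¹) : (Cfsg.pResidual p G ⊔ commutator G) ⊓ H = (Cfsg.pResidual p ↥H ⊔ commutator ↥H).map H.subtype := by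
  classical
  have hp : p.Prime := Fact.out
  let N : Subgroup H := Cfsg.pResidual p ↥H ⊔ commutator ↥H
  haveI h1n : (Cfsg.pResidual p ↥H).Normal := Cfsg.Agent.Lib.Helper8.pResidual_normal p H
  haveI hNn : N.Normal := Subgroup.sup_normal _ _
  obtain ⟨A, instA, π, τ, hker, hsurj, hτ⟩ :=
    Cfsg.Agent.Lib.Helper8.exists_hom_of_control H N le_sup_right
  have hA : IsPGroup p A := by
    intro a
    obtain ⟨x, rfl⟩ := hsurj a
    obtain ⟨e, he⟩ := Cfsg.Agent.Lib.Helper8.exists_pow_mem_pResidual hp x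
    refine ⟨e, ?_⟩
    rw [← map_pow]
    have : x ^ p ^ e ∈ π.ker := by rw [hker]; exact (le_sup_left : _ ≤ N) he
    exact this
  apply le_antisymm
  · rintro x ⟨hx1, hx2⟩
    have hxH : x ∈ H := hx2
    have hτx : τ x = 1 := by
      have h1 : Cfsg.pResidual p G ⊔ commutator G ≤ τ.ker :=
        sup_le (Cfsg.Agent.Lib.Helper8.pResidual_le_ker hA τ) (Abelianization.commutator_subset_ker _)
      exact h1 hx1
    obtain ⟨m, e, hm, hme⟩ := Cfsg.Agent.Lib.Helper8.exists_coprime_pow_pElement hp x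
    have hgH : x ^ m ∈ H := H.pow_mem hxH m
    have key : ∀ (k : ℕ) (g₀ : G) (hk : g₀⁻¹ * (x ^ m) ^ k * g₀ ∈ H),
        π ⟨g₀⁻¹ * (x ^ m) ^ k * g₀, hk⟩ = π ⟨x ^ m, hgH⟩ ^ k := by
      intro k g₀ hk
      have hord : ∃ j : ℕ, orderOf ((x ^ m) ^ k) = p ^ j := by
        have : orderOf ((x ^ m) ^ k) ∣ p ^ e := by
          apply orderOf_dvd_of_pow_eq_one
          rw [← pow_mul, mul_comm, pow_mul, hme, one_pow]
        obtain ⟨j, -, hj⟩ := (Nat.dvd_prime_pow hp).mp this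
        exact ⟨j, hj⟩
      obtain ⟨h, hh, hconj⟩ := hfus ((x ^ m) ^ k) (H.pow_mem hgH k) hord g₀⁻¹ (by simpa using hk)
      have e1 : (⟨g₀⁻¹ * (x ^ m) ^ k * g₀, hk⟩ : H) = ⟨h, hh⟩ * (⟨x ^ m, hgH⟩ ^ k) * ⟨h, hh⟩⁻¹ := by
        apply Subtype.ext
        simp only [Subgroup.coe_mul, Subgroup.coe_pow, Subgroup.coe_inv]
        rw [hconj]; simp
      rw [e1, map_mul, map_mul, map_inv, map_pow, mul_comm, inv_mul_cancel_left]
    have h2 := hτ (x ^ m) hgH key
    rw [map_pow, hτx, one_pow] at h2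
    have h3 : π ⟨x ^ m, hgH⟩ = 1 := by
      obtain ⟨j, hj⟩ := hA (π ⟨x ^ m, hgH⟩)
      exact Cfsg.Agent.Lib.Helper8.eq_one_of_pow_coprime (Nat.Coprime.pow_left j hidx) hj h2.symm
    have h4 : π ⟨x, hxH⟩ ^ m = 1 := by
      rw [← map_pow]
      have : (⟨x, hxH⟩ : H) ^ m = ⟨x ^ m, hgH⟩ := rfl
      rw [this, h3]
    have h5 : π ⟨x, hxH⟩ = 1 := by
      obtain ⟨j, hj⟩ := hA (π ⟨x, hxH⟩)
      exact Cfsg.Agent.Lib.Helper8.eq_one_of_pow_coprime (Nat.Coprime.pow_right j hm) h4 hj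
    have h6 : (⟨x, hxH⟩ : H) ∈ N := by rw [← hker]; exact h5
    exact ⟨⟨x, hxH⟩, h6, rfl⟩
  · apply le_inf
    · rw [Subgroup.map_sup]
      apply sup_le_sup
      · unfold Cfsg.pResidual
        rw [MonoidHom.map_closure, Subgroup.closure_le]
        rintro _ ⟨y, hy, rfl⟩
        apply Subgroup.subset_closure
        show Nat.Coprime (orderOf (y : G)) p
        rw [Subgroup.orderOf_coe]; exact hy
      · rw [commutator_def, commutator_def, Subgroup.map_commutator]
        exact Subgroup.commutator_mono le_top le_top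
    · exact Subgroup.map_subtype_le _

end Cfsg.Agent.S1242
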