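import Cfsg.Statements.S1183
import Cfsg.Agent.Lib.Helper8.Isolated
import Cfsg.Agent.Lib.Helper8.PResidual
import Cfsg.Agent.S1182
import Cfsg.Agent.S1185
import Cfsg.Agent.S1242

set_option autoImplicit false
open Cfsg

namespace Cfsg.Agent.S1183

open Cfsg.Agent.Lib.Helper8

theorem map_pResidual_le {p : ℕ} {G : Type*} [Group G] (H : Subgroup G) :
    (Cfsg.pResidual p ↥H).map H.subtype ≤ Cfsg.pResidual p G := by
  unfold Cfsg.pResidual
  rw [MonoidHom.map_closure, Subgroup.closure_le]
  rintro _ ⟨y, hy, rfl⟩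
  apply Subgroup.subset_closure
  show Nat.Coprime (orderOf (y : G)) p
  rw [Subgroup.orderOf_coe]; exact hy

/-- if `O^p(C) C' = C` then `O^p(C) = C`. -/
theorem pResidual_eq_top_of_sup {p : ℕ} [Fact p.Prime] {C : Type*} [Group C] [Finite C]
    (h : Cfsg.pResidual p C ⊔ commutator C = ⊤) : Cfsg.pResidual p C = ⊤ := by
  have hp : p.Prime := Fact.out
  haveI hn : (Cfsg.pResidual p C).Normal := pResidual_normal p C
  set M := Cfsg.pResidual p C with hM
  have hQ : IsPGroup p (C ⧸ M) := by
    intro a
    obtain ⟨x, rfl⟩ := QuotientGroup.mk_surjective a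
    obtain ⟨e, he⟩ := exists_pow_mem_pResidual hp x
    exact ⟨e, by rw [← QuotientGroup.mk_pow]; exact (QuotientGroup.eq_one_iff _).mpr he⟩
  haveI : Group.IsNilpotent (C ⧸ M) := hQ.isNilpotent
  have hcomm : commutator (C ⧸ M) = ⊤ := by
    have h1 := congrArg (Subgroup.map (QuotientGroup.mk' M)) h
    rw [Subgroup.map_sup, Subgroup.map_top_of_surjective _ (QuotientGroup.mk'_surjective M)] at h1
    have h2 : M.map (QuotientGroup.mk' M) = ⊥ := by
      rw [eq_bot_iff]
      rintro _ ⟨y, hy, rfl⟩
      exact (QuotientGroup.eq_one_iff y).mpr hy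
    rw [h2, bot_sup_eq, commutator_def, Subgroup.map_commutator,
      Subgroup.map_top_of_surjective _ (QuotientGroup.mk'_surjective M)] at h1
    rw [commutator_def]; exact h1
  by_contra hne
  haveI : Nontrivial (C ⧸ M) := by
    by_contra hnt
    rw [not_nontrivial_iff_subsingleton] at hnt
    exact hne (QuotientGroup.subgroup_eq_top_of_subsingleton M hnt)
  exact (Group.IsSolvable.commutator_lt_top_of_nontrivial (C ⧸ M)).ne hcomm

/-- Let z be an isolated involution of the finite group G and C = C_G(z). Then the subgroup of G generated by its elements of odd order is all of G if and only if the subgroup of C generated by its elements of odd order is all of C. -/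
theorem result {G : Type*} [Group G] [Finite G] (z : G) (hz : Cfsg.IsIsolatedInvolution z) : Cfsg.pResidual 2 G = ⊤ ↔ Cfsg.pResidual 2 ↥(Subgroup.centralizer ({z} : Set G)) = ⊤ := by
  classical
  have hzz := IsIso.mul_self hz
  have hzi := IsIso.inv hz
  set C := Subgroup.centralizer ({z} : Set G) with hC
  constructor
  · intro hG
    apply pResidual_eq_top_of_sup
    -- index of C is odd
    have hidx : Nat.Coprime 2 C.index := by
      have hzp : IsPGroup 2 (Subgroup.zpowers z) := by
        rw [IsPGroup.iff_card]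
        exact ⟨1, by rw [Nat.card_zpowers, hz.1, pow_one]⟩
      obtain ⟨S, hS⟩ := hzp.exists_le_sylow
      have hzS : z ∈ (S : Subgroup G) := hS (Subgroup.mem_zpowers z)
      have hSC : (S : Subgroup G) ≤ C := by
        intro x hx
        rw [hC, Subgroup.mem_centralizer_singleton_iff]
        have h1 : z * (x * z * x⁻¹) ∈ (S : Subgroup G) :=
          mul_mem hzS (mul_mem (mul_mem hx hzS) (inv_mem hx))
        have h2 : Odd (orderOf (z * (x * z * x⁻¹))) := IsIso.odd_mul_conj hz x
        have h3 : z * (x * z * x⁻¹) = 1 := by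
          obtain ⟨k, hk⟩ := (IsPGroup.iff_orderOf.mp S.2) ⟨_, h1⟩
          rw [Subgroup.orderOf_mk] at hk
          rw [hk] at h2
          rcases Nat.eq_zero_or_pos k with rfl | hk0
          · rw [pow_zero] at hk; exact orderOf_eq_one_iff.mp hk
          · exfalso
            have : Even (2 ^ k) := (Nat.even_pow.mpr ⟨even_two, hk0.ne'⟩)
            exact (Nat.not_even_iff_odd.mpr h2) this
        calc x * z = (z * z) * (x * z * x⁻¹) * x := by rw [hzz]; group
          _ = z * (z * (x * z * x⁻¹)) * x := by group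
          _ = z * x := by rw [h3, mul_one]
      have h4 : C.index ∣ (S : Subgroup G).index := Subgroup.index_dvd_of_le hSC
      have h5 : ¬ 2 ∣ (S : Subgroup G).index := S.not_dvd_index
      exact (Nat.Prime.coprime_iff_not_dvd Nat.prime_two).mpr (fun h => h5 (h.trans h4))
    have hfus : ∀ g ∈ C, (∃ k : ℕ, orderOf g = 2 ^ k) → ∀ a : G, a * g * a⁻¹ ∈ C →
        ∃ h ∈ C, h * g * h⁻¹ = a * g * a⁻¹ := by
      intro g hg _ a ha
      rw [hC, Subgroup.mem_centralizer_singleton_iff] at hg ha
      obtain ⟨c, -, hc1, hc2⟩ := Cfsg.Agent.S1182.result z hz ⊤ (by rw [Subgroup.mem_normalizer_iff]; intro h; simp)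
        g (a * g * a⁻¹) (Subgroup.mem_top _) (Subgroup.mem_top _) hg ha a (Subgroup.mem_top _) rfl
      exact ⟨c, by rw [hC, Subgroup.mem_centralizer_singleton_iff]; exact hc1, hc2⟩
    have key := Cfsg.Agent.S1242.result (p := 2) C hidx hfus
    rw [hG, top_sup_eq, top_inf_eq] at key
    apply Subgroup.map_injective C.subtype_injective
    rw [← key, ← MonoidHom.range_eq_map, Subgroup.range_subtype]
  · intro hCt
    rw [eq_top_iff]
    intro g _
    obtain ⟨k, ⟨⟨hodd, -⟩, hkc⟩, -⟩ := Cfsg.Agent.S1185.result z hz g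
    have h1 : k ∈ Cfsg.pResidual 2 G := by
      apply mem_pResidual_of_coprime
      exact Nat.Coprime.symm ((Nat.coprime_two_left).mpr hodd)
    have h2 : g⁻¹ * k ∈ Cfsg.pResidual 2 G := by
      apply map_pResidual_le C
      rw [hCt]
      exact ⟨⟨g⁻¹ * k, hkc⟩, Subgroup.mem_top _, rfl⟩
    have : g = k * (g⁻¹ * k)⁻¹ := by group
    rw [this]
    exact mul_mem h1 (inv_mem h2)

end Cfsg.Agent.S1183
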