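import Cfsg.Statements.S1186
import Cfsg.Agent.Lib.Helper8.Isolated2

set_option autoImplicit false
open Cfsg

namespace Cfsg.Agent.S1186

open Cfsg.Agent.Lib.Helper8

/-- if `k₁ ∈ K ∩ C(s)`, `k₂ ∈ K ∩ C(sz)` then `m = k₁ z k₁⁻¹` is the midpoint of `w` and `s w s⁻¹`
for `w = (k₁k₂) z (k₁k₂)⁻¹`. -/
theorem key_mid {G : Type*} [Group G] {z s k₁ k₂ : G} (hss : s * s = 1)
    (hsz : Commute s z) (h1 : Commute k₁ s) (h2 : Commute k₂ (s * z)) :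
    (k₁ * z * k₁⁻¹) * ((k₁ * k₂) * z * (k₁ * k₂)⁻¹) * (k₁ * z * k₁⁻¹)⁻¹
      = s * ((k₁ * k₂) * z * (k₁ * k₂)⁻¹) * s⁻¹ := by
  -- `s z` commutes with `w' = k₂ z k₂⁻¹`
  have hsi : s⁻¹ = s := inv_eq_self_of_mul_self hss
  have hszz : Commute (s * z) z := hsz.mul_left (Commute.refl z)
  have hw' : Commute (s * z) (k₂ * z * k₂⁻¹) :=
    (h2.symm.mul_right hszz).mul_right h2.symm.inv_right
  -- z w' z⁻¹ = s⁻¹ w' s
  have e1 : z * (k₂ * z * k₂⁻¹) * z⁻¹ = s * (k₂ * z * k₂⁻¹) * s⁻¹ := by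
    have : (s * z) * (k₂ * z * k₂⁻¹) = (k₂ * z * k₂⁻¹) * (s * z) := hw'.eq
    calc z * (k₂ * z * k₂⁻¹) * z⁻¹ = (s * s) * z * (k₂ * z * k₂⁻¹) * z⁻¹ := by rw [hss, one_mul]
      _ = s * ((s * z) * (k₂ * z * k₂⁻¹)) * z⁻¹ := by group
      _ = s * ((k₂ * z * k₂⁻¹) * (s * z)) * z⁻¹ := by rw [this]
      _ = s * (k₂ * z * k₂⁻¹) * s := by group
      _ = s * (k₂ * z * k₂⁻¹) * s⁻¹ := by rw [hsi]
  have h1' : k₁ * s = s * k₁ := h1.eq
  have h1'' : s⁻¹ * k₁⁻¹ = k₁⁻¹ * s⁻¹ := by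
    rw [← mul_inv_rev, ← mul_inv_rev, h1']
  calc (k₁ * z * k₁⁻¹) * ((k₁ * k₂) * z * (k₁ * k₂)⁻¹) * (k₁ * z * k₁⁻¹)⁻¹
      = k₁ * (z * (k₂ * z * k₂⁻¹) * z⁻¹) * k₁⁻¹ := by group
    _ = k₁ * (s * (k₂ * z * k₂⁻¹) * s⁻¹) * k₁⁻¹ := by rw [e1]
    _ = (k₁ * s) * (k₂ * z * k₂⁻¹) * (s⁻¹ * k₁⁻¹) := by group
    _ = (s * k₁) * (k₂ * z * k₂⁻¹) * (k₁⁻¹ * s⁻¹) := by rw [h1', h1'']
    _ = s * ((k₁ * k₂) * z * (k₁ * k₂)⁻¹) * s⁻¹ := by group

theorem inverted_unique {G : Type*} [Group G] {z k k' : G}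
    (ho : Odd (orderOf k)) (hi : z * k * z⁻¹ = k⁻¹) (ho' : Odd (orderOf k'))
    (hi' : z * k' * z⁻¹ = k'⁻¹) (h : k * z * k⁻¹ = k' * z * k'⁻¹) : k = k' := by
  rw [conj_of_inverted hi, conj_of_inverted hi'] at h
  exact eq_of_sq_eq_of_odd ho ho' (mul_right_cancel h)

/-- Let z be an isolated involution of the finite group G, C = C_G(z), K the set of elements of odd order inverted by z, and s an involution of C. Then |G| = |C| · |C_K(sz)| · |C_K(s)|. -/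
theorem result {G : Type*} [Group G] [Finite G] (z : G) (hz : Cfsg.IsIsolatedInvolution z) (s : G) (hs : orderOf s = 2) (hsz : Commute s z) : Nat.card G = Nat.card (Subgroup.centralizer ({z} : Set G)) * Nat.card {k : G // Odd (orderOf k) ∧ z * k * z⁻¹ = k⁻¹ ∧ Commute k (s * z)} * Nat.card {k : G // Odd (orderOf k) ∧ z * k * z⁻¹ = k⁻¹ ∧ Commute k s} := by
  classical
  have hss : s * s = 1 := mul_self_of_orderOf_two hs
  have hsi : s⁻¹ = s := inv_eq_self_of_mul_self hss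
  have hzz := IsIso.mul_self hz
  let A := {k : G // Odd (orderOf k) ∧ z * k * z⁻¹ = k⁻¹ ∧ Commute k (s * z)}
  let B := {k : G // Odd (orderOf k) ∧ z * k * z⁻¹ = k⁻¹ ∧ Commute k s}
  let C := Subgroup.centralizer ({z} : Set G)
  let Ψ : (C × A) × B → G := fun p => (p.2 : G) * (p.1.2 : G) * (p.1.1 : G)
  have hconj : ∀ p : (C × A) × B, Ψ p * z * (Ψ p)⁻¹
      = ((p.2 : G) * (p.1.2 : G)) * z * ((p.2 : G) * (p.1.2 : G))⁻¹ := by
    intro p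
    have hc : (p.1.1 : G) * z = z * (p.1.1 : G) :=
      Subgroup.mem_centralizer_singleton_iff.mp p.1.1.2
    show (p.2 : G) * (p.1.2 : G) * (p.1.1 : G) * z * ((p.2 : G) * (p.1.2 : G) * (p.1.1 : G))⁻¹ = _
    calc (p.2 : G) * (p.1.2 : G) * (p.1.1 : G) * z * ((p.2 : G) * (p.1.2 : G) * (p.1.1 : G))⁻¹
        = (p.2 : G) * (p.1.2 : G) * ((p.1.1 : G) * z) * (p.1.1 : G)⁻¹ * ((p.2 : G) * (p.1.2 : G))⁻¹ := by
          group
      _ = _ := by rw [hc]; group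
  have hbij : Function.Bijective Ψ := by
    constructor
    · intro p q hpq
      have hw : ((p.2 : G) * (p.1.2 : G)) * z * ((p.2 : G) * (p.1.2 : G))⁻¹
          = ((q.2 : G) * (q.1.2 : G)) * z * ((q.2 : G) * (q.1.2 : G))⁻¹ := by
        rw [← hconj p, ← hconj q, hpq]
      have hp := key_mid hss hsz p.2.2.2.2 p.1.2.2.2.2
      have hq := key_mid hss hsz q.2.2.2.2 q.1.2.2.2.2
      rw [← hw] at hq
      have hm : (p.2 : G) * z * (p.2 : G)⁻¹ = (q.2 : G) * z * (q.2 : G)⁻¹ :=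
        mid_unique hz ⟨_, rfl⟩ ⟨_, rfl⟩ ⟨_, rfl⟩ (hp.trans hq.symm)
      have h2 : (p.2 : G) = (q.2 : G) :=
        inverted_unique p.2.2.1 p.2.2.2.1 q.2.2.1 q.2.2.2.1 hm
      have hw2 : (p.1.2 : G) * z * (p.1.2 : G)⁻¹ = (q.1.2 : G) * z * (q.1.2 : G)⁻¹ := by
        rw [h2] at hw
        have := congrArg (fun x => (q.2 : G)⁻¹ * x * (q.2 : G)) hw
        calc (p.1.2 : G) * z * (p.1.2 : G)⁻¹
            = (q.2 : G)⁻¹ * ((q.2 : G) * (p.1.2 : G) * z * ((q.2 : G) * (p.1.2 : G))⁻¹) * (q.2 : G) := by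
              group
          _ = (q.2 : G)⁻¹ * ((q.2 : G) * (q.1.2 : G) * z * ((q.2 : G) * (q.1.2 : G))⁻¹) * (q.2 : G) := this
          _ = _ := by group
      have h12 : (p.1.2 : G) = (q.1.2 : G) :=
        inverted_unique p.1.2.2.1 p.1.2.2.2.1 q.1.2.2.1 q.1.2.2.2.1 hw2
      have h11 : (p.1.1 : G) = (q.1.1 : G) := by
        have : (p.2 : G) * (p.1.2 : G) * (p.1.1 : G) = (q.2 : G) * (q.1.2 : G) * (q.1.1 : G) := hpq
        rw [h2, h12] at this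
        exact mul_left_cancel this
      exact Prod.ext (Prod.ext (Subtype.ext h11) (Subtype.ext h12)) (Subtype.ext h2)
    · intro g
      have hwC : IsC z (g * z * g⁻¹) := ⟨g, rfl⟩
      set w := g * z * g⁻¹ with hwdef
      have hbC : IsC z (s * w * s⁻¹) := hwC.conj s
      obtain ⟨m, hmC, hm⟩ := mid_exists hz hwC hbC
      have hmm := IsIso.mul_self (hmC.iso hz)
      have hmi := IsIso.inv (hmC.iso hz)
      -- `m` commutes with `s`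
      have hms : s * m * s⁻¹ = m := by
        apply mid_unique hz hwC (hmC.conj s) hmC
        rw [hm]
        have e1 : m * (s * w * s⁻¹) * m⁻¹ = w := by
          rw [← hm]
          calc m * (m * w * m⁻¹) * m⁻¹ = (m * m) * w * (m * m)⁻¹ := by group
            _ = w := by rw [hmm]; group
        calc s * m * s⁻¹ * w * (s * m * s⁻¹)⁻¹ = s * (m * (s⁻¹ * w * s) * m⁻¹) * s⁻¹ := by group
          _ = s * (m * (s * w * s⁻¹) * m⁻¹) * s⁻¹ := by rw [hsi]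
          _ = s * w * s⁻¹ := by rw [e1]
      have hsm : Commute s m := by
        show s * m = m * s
        calc s * m = (s * m * s⁻¹) * s := by group
          _ = m * s := by rw [hms]
      obtain ⟨k₁, ho1, hi1, hk1, hc1⟩ := hmC.exists_inverted hz
      have hk1s : Commute k₁ s := hc1 s hsz hsm
      -- `w' = k₁⁻¹ w k₁`
      have hw'C : IsC z (k₁⁻¹ * w * k₁⁻¹⁻¹) := hwC.conj k₁⁻¹
      obtain ⟨k₂, ho2, hi2, hk2, hc2⟩ := hw'C.exists_inverted hz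
      have hsmw : Commute (s * m) w := by
        show s * m * w = w * (s * m)
        calc s * m * w = s * (m * w * m⁻¹) * m := by group
          _ = s * (s * w * s⁻¹) * m := by rw [hm]
          _ = (s * s) * w * (s⁻¹ * m) := by group
          _ = w * (s * m) := by rw [hss, hsi, one_mul]
      have hszw' : Commute (s * z) (k₁⁻¹ * w * k₁⁻¹⁻¹) := by
        have e : s * z = k₁⁻¹ * (s * m) * k₁⁻¹⁻¹ := by
          rw [← hk1]
          have : k₁⁻¹ * s = s * k₁⁻¹ := hk1s.inv_left.eq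
          calc s * z = (s * k₁⁻¹) * k₁ * z := by group
            _ = (k₁⁻¹ * s) * k₁ * z := by rw [this]
            _ = k₁⁻¹ * (s * (k₁ * z * k₁⁻¹)) * k₁⁻¹⁻¹ := by group
        rw [e]
        show k₁⁻¹ * (s * m) * k₁⁻¹⁻¹ * (k₁⁻¹ * w * k₁⁻¹⁻¹) = k₁⁻¹ * w * k₁⁻¹⁻¹ * (k₁⁻¹ * (s * m) * k₁⁻¹⁻¹)
        calc k₁⁻¹ * (s * m) * k₁⁻¹⁻¹ * (k₁⁻¹ * w * k₁⁻¹⁻¹) = k₁⁻¹ * ((s * m) * w) * k₁⁻¹⁻¹ := by group
          _ = k₁⁻¹ * (w * (s * m)) * k₁⁻¹⁻¹ := by rw [hsmw.eq]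
          _ = _ := by group
      have hk2sz : Commute k₂ (s * z) := hc2 (s * z) (hsz.mul_left (Commute.refl z)) hszw'
      have hcz : (k₁ * k₂)⁻¹ * g ∈ Subgroup.centralizer ({z} : Set G) := by
        rw [Subgroup.mem_centralizer_singleton_iff]
        have e : (k₁ * k₂) * z * (k₁ * k₂)⁻¹ = g * z * g⁻¹ := by
          calc (k₁ * k₂) * z * (k₁ * k₂)⁻¹ = k₁ * (k₂ * z * k₂⁻¹) * k₁⁻¹ := by group
            _ = k₁ * (k₁⁻¹ * w * k₁⁻¹⁻¹) * k₁⁻¹ := by rw [hk2]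
            _ = w := by group
        calc (k₁ * k₂)⁻¹ * g * z = (k₁ * k₂)⁻¹ * (g * z * g⁻¹) * g := by group
          _ = (k₁ * k₂)⁻¹ * ((k₁ * k₂) * z * (k₁ * k₂)⁻¹) * g := by rw [e]
          _ = z * ((k₁ * k₂)⁻¹ * g) := by group
      refine ⟨((⟨(k₁ * k₂)⁻¹ * g, hcz⟩, ⟨k₂, ho2, hi2, hk2sz⟩), ⟨k₁, ho1, hi1, hk1s⟩), ?_⟩
      show k₁ * k₂ * ((k₁ * k₂)⁻¹ * g) = g
      group
  have := Nat.card_congr (Equiv.ofBijective Ψ hbij)
  rw [← this, Nat.card_prod, Nat.card_prod]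

end Cfsg.Agent.S1186
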