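import Cfsg.Statements.S1224
import Cfsg.Agent.Lib.Helper8.UF3

set_option autoImplicit false
open Cfsg

namespace Cfsg.Agent.S1224

open Cfsg.Agent.Lib.Helper8 MulAction

/-- Let H be a strongly embedded subgroup of the finite group G and x ≠ y two cosets in G/H. Then the number of involutions i of G with i • x = y equals the number of involutions lying in H. -/
theorem result {G : Type*} [Group G] [Finite G] (H : Subgroup G) (hH : Cfsg.IsStronglyEmbedded H) (x y : G ⧸ H) (hxy : x ≠ y) : Nat.card {i : G // orderOf i = 2 ∧ i • x = y} = Nat.card {t : G // orderOf t = 2 ∧ t ∈ H} := by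
  have hU := SE.uf hH
  induction x using QuotientGroup.induction_on with
  | H a =>
    induction y using QuotientGroup.induction_on with
    | H b =>
      obtain ⟨s, hsH, hs1, hss⟩ := SE.exists_invol hH
      have hx : ∃ s : G, orderOf s = 2 ∧ s • (a : G ⧸ H) = (a : G ⧸ H) := by
        refine ⟨a * s * a⁻¹, orderOf_two_of (conj_ne_one hs1 a) (conj_mul_self hss a), ?_⟩
        rw [SE.smul_mk_eq_iff]
        have : a⁻¹ * (a * s * a⁻¹) * a = s := by group
        rw [this]; exact hsH
      rw [UF.card_swap hU hxy hx, SE.card_invol_fix]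

end Cfsg.Agent.S1224
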