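import Cfsg.Statements.S1225
import Cfsg.Agent.Lib.Helper8.UF2

set_option autoImplicit false
open Cfsg

namespace Cfsg.Agent.S1225

open Cfsg.Agent.Lib.Helper8 MulAction

/-- Let H be a strongly embedded subgroup of the finite group G, u an involution outside H and D = H ∩ uHu⁻¹. Then any two involutions of H are conjugate by an element of D, and any two involutions of G are conjugate in G. -/
theorem result {G : Type*} [Group G] [Finite G] (H : Subgroup G) (hH : Cfsg.IsStronglyEmbedded H) (u : G) (hu : orderOf u = 2) (huH : u ∉ H) (s t : G) (hs : orderOf s = 2) (hsH : s ∈ H) (ht : orderOf t = 2) (htH : t ∈ H) : (∃ d ∈ (H ⊓ H.map (MulAut.conj u).toMonoidHom), d * s * d⁻¹ = t) ∧ ∀ a b : G, orderOf a = 2 → orderOf b = 2 → IsConj a b := by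
  have hU := SE.uf hH
  have hs1 := ne_one_of_orderOf_two hs
  have hss := mul_self_of_orderOf_two hs
  have ht1 := ne_one_of_orderOf_two ht
  have htt := mul_self_of_orderOf_two ht
  have hsx := SE.mem_iff_smul.mp hsH
  have htx := SE.mem_iff_smul.mp htH
  have hxy : ((1 : G) : G ⧸ H) ≠ u • ((1 : G) : G ⧸ H) := fun h => huH (SE.mem_iff_smul.mpr h.symm)
  have hs1' := conj_ne_one hs1 u
  have hss' := conj_mul_self hss u
  have hsy := conj_smul_fix hsx u
  constructor
  · obtain ⟨d, h1, h2, h3⟩ := UF.exists_conj_two_point hU hs1 hss ht1 htt hs1' hss' hsx htx hsy hxy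
    refine ⟨d, ?_, h3⟩
    rw [SE.inf_cj_eq]
    exact Subgroup.mem_inf.mpr ⟨h1, h2⟩
  · have key : ∀ a : G, orderOf a = 2 → IsConj s a := by
      intro a ha
      have ha1 := ne_one_of_orderOf_two ha
      have haa := mul_self_of_orderOf_two ha
      by_cases hax : a • ((1 : G) : G ⧸ H) = ((1 : G) : G ⧸ H)
      · obtain ⟨w, hww, hw, -⟩ := UF.exists_swap hU ha1 haa hs1' hss' hax hsy hxy
        have h1 : IsConj a (u * s * u⁻¹) := by
          rw [isConj_iff]
          exact ⟨w, by rw [inv_eq_self_of_mul_self hww]; exact hw⟩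
        have h2 : IsConj s (u * s * u⁻¹) := by
          rw [isConj_iff]
          exact ⟨u, rfl⟩
        exact h2.trans h1.symm
      · obtain ⟨w, hww, hw⟩ := UF.exists_swap_of_not_fix hU hs1 hss haa hsx hax
        rw [isConj_iff]
        exact ⟨w, by rw [inv_eq_self_of_mul_self hww]; exact hw⟩
    intro a b ha hb
    exact (key a ha).symm.trans (key b hb)

end Cfsg.Agent.S1225
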