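import Cfsg.Statements.S1229
import Cfsg.Agent.Lib.Helper8.CIT4

set_option autoImplicit false
open Cfsg

namespace Cfsg.Agent.S1229

open Cfsg.Agent.Lib.Helper8

/-- Let G be a finite group with a Sylow 2-subgroup T that is neither cyclic nor normal, such that the centralizer of every involution is an elementary abelian 2-group; put H = N_G(T) and X = G/H. Then G is triply transitive on X, an element fixing three distinct points of X is the identity, and T acts regularly on X minus the point H. -/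
theorem result {G : Type*} [Group G] [Finite G] (T : Sylow 2 G) (hnc : ¬ IsCyclic (T : Subgroup G)) (hnn : ¬ (T : Subgroup G).Normal) (hC : ∀ t : G, orderOf t = 2 → IsMulCommutative (Subgroup.centralizer ({t} : Set G)) ∧ ∀ c ∈ Subgroup.centralizer ({t} : Set G), c ^ 2 = 1) : (∀ x₁ x₂ x₃ y₁ y₂ y₃ : G ⧸ Subgroup.normalizer ((T : Subgroup G) : Set G), x₁ ≠ x₂ → x₁ ≠ x₃ → x₂ ≠ x₃ → y₁ ≠ y₂ → y₁ ≠ y₃ → y₂ ≠ y₃ → ∃ g : G, g • x₁ = y₁ ∧ g • x₂ = y₂ ∧ g • x₃ = y₃) ∧ (∀ g : G, ∀ x₁ x₂ x₃ : G ⧸ Subgroup.normalizer ((T : Subgroup G) : Set G), x₁ ≠ x₂ → x₁ ≠ x₃ → x₂ ≠ x₃ → g • x₁ = x₁ → g • x₂ = x₂ → g • x₃ = x₃ → g = 1) ∧ (∀ x y : G ⧸ Subgroup.normalizer ((T : Subgroup G) : Set G), x ≠ QuotientGroup.mk 1 → y ≠ QuotientGroup.mk 1 → ∃! t : G, t ∈ T ∧ t • x = y) := by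
  have hS : CIT.Setup T := ⟨hC, hnc, hnn⟩
  refine ⟨?_, ?_, ?_⟩
  · intro x₁ x₂ x₃ y₁ y₂ y₃ h12 h13 h23 k12 k13 k23
    exact CIT.three_trans hS h12 h13 h23 k12 k13 k23
  · intro g x₁ x₂ x₃ h12 h13 h23 h1 h2 h3
    exact CIT.eq_one_of_fix_three hS h12 h13 h23 h1 h2 h3
  · intro x y hx hy
    obtain ⟨s, hs, hsx⟩ := CIT.T_trans hS hx hy
    refine ⟨s, ⟨hs, hsx⟩, ?_⟩
    rintro s' ⟨hs', hsx'⟩
    have h1 : (s⁻¹ * s') • x = x := by rw [mul_smul, hsx', ← hsx, inv_smul_smul]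
    have h2 := CIT.T_semireg hS (Subgroup.mul_mem _ (Subgroup.inv_mem _ hs) hs') hx h1
    calc s' = s * (s⁻¹ * s') := by group
      _ = s := by rw [h2, mul_one]

end Cfsg.Agent.S1229
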