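import Cfsg.Statements.S1231
import Cfsg.Agent.Lib.Helper8.PRank

set_option autoImplicit false
open Cfsg

namespace Cfsg.Agent.S1231

open Cfsg.Agent.Lib.Helper8

theorem exists_pgroup_of_not_rank {G : Type*} [Group G] {p r : ℕ} {K : Subgroup G}
    (h : ¬ Cfsg.PRankLE p r K) :
    ∃ A : Subgroup G, A ≤ K ∧ IsPGroup p A ∧ ¬ Cfsg.PRankLE p r A := by
  unfold Cfsg.PRankLE at h
  push Not at h
  obtain ⟨A, hA, hexp, hcard⟩ := h
  refine ⟨A.map K.subtype, Subgroup.map_subtype_le _, ?_, ?_⟩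
  · rintro ⟨_, a, ha, rfl⟩
    refine ⟨1, ?_⟩
    apply Subtype.ext
    have := hexp a ha
    simp only [pow_one, Subgroup.coe_pow, Subgroup.coe_one]
    rw [← map_pow, this, map_one]
  · intro hr
    have h1 : Cfsg.PRankLE p r A :=
      PRankLE.of_injective (Subgroup.equivMapOfInjective A K.subtype K.subtype_injective).toMonoidHom
        (MulEquiv.injective _) hr
    have h2 := h1 ⊤ ⟨⟨fun a b => by
      apply Subtype.ext
      exact hA.is_comm.comm a.1 b.1⟩⟩ (by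
      intro a _
      apply Subtype.ext
      exact hexp a.1 a.2)
    rw [Subgroup.card_top] at h2
    exact absurd hcard (not_lt.mpr h2)

/-- Let H be a subgroup of the finite group G, p a prime, k ≥ 1, and P a Sylow p-subgroup of H whose p-rank is at least k. Then N_G(X) ≤ H for every subgroup X of P of p-rank at least k if and only if H ∩ gHg⁻¹ has p-rank less than k for every g ∉ H. -/
theorem result {G : Type*} [Group G] [Finite G] {p : ℕ} [Fact p.Prime] (k : ℕ) (hk : 1 ≤ k) (H : Subgroup G) (P : Sylow p ↥H) (hP : ¬ Cfsg.PRankLE p (k - 1) ↥(P : Subgroup ↥H)) : (∀ X : Subgroup G, X ≤ (P : Subgroup ↥H).map H.subtype → ¬ Cfsg.PRankLE p (k - 1) ↥X → Subgroup.normalizer (X : Set G) ≤ H) ↔ (∀ g : G, g ∉ H → Cfsg.PRankLE p (k - 1) ↥(H ⊓ H.map (MulAut.conj g).toMonoidHom)) := by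
  set P' : Subgroup G := (P : Subgroup ↥H).map H.subtype with hP'
  have hP'H : P' ≤ H := Subgroup.map_subtype_le _
  have hP'p : IsPGroup p P' := P.2.map _
  have hSyl : ∀ Y : Subgroup G, Y ≤ H → IsPGroup p Y → ∃ h ∈ H, cj h Y ≤ P' := by
    intro Y hYH hY
    obtain ⟨l, hl⟩ := exists_cj_le_sylow P (hY.comap_subtype (K := H))
    refine ⟨l, l.2, ?_⟩
    intro x hx
    rw [mem_cj] at hx
    have hxH : x ∈ H := by
      have h1 := hYH hx
      have : x = l * ((l : G)⁻¹ * x * l) * (l : G)⁻¹ := by group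
      rw [this]; exact H.mul_mem (H.mul_mem l.2 h1) (H.inv_mem l.2)
    refine ⟨⟨x, hxH⟩, hl ?_, rfl⟩
    rw [mem_cj, Subgroup.mem_comap]
    exact hx
  constructor
  · intro hN g hg
    by_contra hr
    obtain ⟨A, hAK, hAp, hAr⟩ := exists_pgroup_of_not_rank hr
    have hAH : A ≤ H := hAK.trans inf_le_left
    have hAg : cj g⁻¹ A ≤ H := by
      rw [cj_le_iff, inv_inv]
      exact hAK.trans inf_le_right
    obtain ⟨h₁, hh₁, e₁⟩ := hSyl A hAH hAp
    obtain ⟨h₂, hh₂, e₂⟩ := hSyl _ hAg (isPGroup_cj hAp _)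
    have hXr : ¬ Cfsg.PRankLE p (k - 1) (cj h₁ A) := by
      intro h
      exact hAr (PRankLE.of_cj h₁ h)
    have e₃ : cj (h₂ * g⁻¹ * h₁⁻¹) (cj h₁ A) ≤ P' := by
      rw [cj_cj] at e₂ ⊢
      have : h₂ * g⁻¹ * h₁⁻¹ * h₁ = h₂ * g⁻¹ := by group
      rw [this]; exact e₂
    have h3 := control_of_normalizers hP'p hSyl hN _ (cj h₁ A) e₁ rfl hXr _ e₃
    apply hg
    have : g = h₁⁻¹ * (h₂ * g⁻¹ * h₁⁻¹)⁻¹ * h₂ := by group
    rw [this]
    exact H.mul_mem (H.mul_mem (H.inv_mem hh₁) (H.inv_mem h3)) hh₂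
  · intro hD X hXP hXr g hg
    by_contra hgH
    apply hXr
    refine PRankLE.mono ?_ (hD g hgH)
    refine le_inf (hXP.trans hP'H) ?_
    have h1 : cj g X = X := cj_eq_self_of_mem_normalizer hg
    have h2 : cj g X ≤ cj g H := cj_mono g (hXP.trans hP'H)
    rw [h1] at h2
    exact h2

end Cfsg.Agent.S1231
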