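import Cfsg.Statements.S1236
import Cfsg.Agent.Lib.Helper8.E8C

set_option autoImplicit false
open Cfsg

namespace Cfsg.Agent.S1236

/-- Let R be a finite group, t a central involution of R such that R ⧸ ⟨t⟩ is dihedral (of order ≥ 4) or quasi-dihedral, and A ≤ R an elementary abelian subgroup of order 8 containing t. Then C_R(A) = A. -/
theorem result {R : Type*} [Group R] [Finite R] (t : R) (ht : orderOf t = 2) (htz : t ∈ Subgroup.center R) [(Subgroup.zpowers t).Normal] (hq : (∃ m : ℕ, 2 ≤ m ∧ Nonempty (R ⧸ Subgroup.zpowers t ≃* DihedralGroup m)) ∨ Cfsg.IsQuasiDihedral (R ⧸ Subgroup.zpowers t)) (A : Subgroup R) (hA : Cfsg.IsElementaryAbelian 2 A) (hA8 : Nat.card A = 8) (htA : t ∈ A) : Subgroup.centralizer (A : Set R) = A := by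
  refine Cfsg.Agent.Lib.Helper8.E8C.main t ht ?_ A hA hA8 htA
  rcases hq with ⟨m, hm, ⟨e⟩⟩ | hq
  · haveI : NeZero m := ⟨by omega⟩
    exact Cfsg.Agent.Lib.Helper8.E8C.SC.congr e (Cfsg.Agent.Lib.Helper8.E8C.SC_dihedral m)
  · obtain ⟨n, ⟨Q⟩⟩ := Cfsg.Agent.Lib.Helper8.exists_QD hq
    exact Cfsg.Agent.Lib.Helper8.E8C.SC_qd Q

end Cfsg.Agent.S1236
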