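import Cfsg.Statements.S1239
import Cfsg.Agent.Lib.Helper8.Wr17
import Cfsg.Agent.Lib.Helper8.ZS12
import Cfsg.Agent.Lib.Helper8.QD5

set_option autoImplicit false
open Cfsg

namespace Cfsg.Agent.S1239

/-- Let X be a finite group whose Sylow 2-subgroup S is quasi-dihedral or wreathed, and suppose some involution of S is isolated in X. Then the product of the largest normal odd-order subgroup O(X) with the centre of S is normal in X. -/
theorem result {X : Type*} [Group X] [Finite X] (S : Sylow 2 X) (hS : Cfsg.IsQuasiDihedral (S : Subgroup X) ∨ Cfsg.IsWreathed (S : Subgroup X)) (z : X) (hzS : z ∈ S) (hz : Cfsg.IsIsolatedInvolution z) : (Cfsg.oddCore X ⊔ (Subgroup.center (S : Subgroup X)).map (S : Subgroup X).subtype).Normal := by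
  classical
  open Cfsg.Agent.Lib.Helper8 Cfsg.Agent.Lib.Helper8.QDR Cfsg.Agent.Lib.Helper8.ZS in
  haveI : Fact (Nat.Prime 2) := ⟨Nat.prime_two⟩
  haveI hOn := pPrimeCore_two_normal X
  suffices key : ∀ ζ ∈ (Subgroup.center (S : Subgroup X)).map (S : Subgroup X).subtype, ∀ g : X,
      ζ * g * ζ⁻¹ * g⁻¹ ∈ pPrimeCore 2 X by
    constructor
    intro y hy g
    have h1 : (Cfsg.oddCore X ⊔ (Subgroup.center (S : Subgroup X)).map (S : Subgroup X).subtype).map
        (MulAut.conj g).toMonoidHom ≤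
        Cfsg.oddCore X ⊔ (Subgroup.center (S : Subgroup X)).map (S : Subgroup X).subtype := by
      rw [Subgroup.map_sup]
      apply sup_le
      · rintro _ ⟨o, ho, rfl⟩
        exact Subgroup.mem_sup_left (hOn.conj_mem o ho g)
      · rintro _ ⟨ζ, hζ, rfl⟩
        show g * ζ * g⁻¹ ∈ _
        have : g * ζ * g⁻¹ = (ζ * g * ζ⁻¹ * g⁻¹)⁻¹ * ζ := by group
        rw [this]
        exact mul_mem (Subgroup.mem_sup_left (inv_mem (key ζ hζ g))) (Subgroup.mem_sup_right hζ)
    exact h1 ⟨y, hy, rfl⟩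
  have ho : orderOf (⟨z, hzS⟩ : (S : Subgroup X)) = 2 := by
    rw [← Subgroup.orderOf_coe]; exact hz.1
  rcases hS with hS | hS
  · obtain ⟨n, ⟨D⟩⟩ := exists_QD hS
    have h0 := hh_ne D.one_le
    rcases (D.orderOf_eq_two_iff _).mp ho with h | ⟨k, h⟩
    · rintro _ ⟨s, hs, rfl⟩ g
      rcases (D.mem_center_iff s).mp hs with rfl | rfl
      · have : ((S : Subgroup X).subtype 1) * g * ((S : Subgroup X).subtype 1)⁻¹ * g⁻¹ = 1 := by simp
        rw [this]; exact one_mem _
      · have : (S : Subgroup X).subtype D.z = z := by rw [← h]; rfl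
        rw [this]
        exact zstar hz g
    · exfalso
      obtain ⟨s, hs⟩ := D.exists_conj_b (2 * k) (qq n)
      rw [two_qq D.two_le, ← D.bz, ← h] at hs
      have hs' : (s : X) * z * (s : X)⁻¹ = z * (D.z : X) := congrArg Subtype.val hs
      have hzc : z * (D.z : X) = (D.z : X) * z := congrArg Subtype.val (D.z_comm ⟨z, hzS⟩)
      have h3 := hz.2 (s : X) (by
        rw [hs']
        show z * (z * (D.z : X)) = z * (D.z : X) * z
        rw [mul_assoc, ← hzc])
      rw [hs'] at h3
      have h4 : (D.z : X) = 1 := by simpa using h3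
      exact D.z_ne_one (OneMemClass.coe_eq_one.mp h4)
  · obtain ⟨n, ⟨W⟩⟩ := exists_Wr hS
    have h0 := hh_ne W.one_le
    have h2 := hh_add_hh W.one_le
    have hzz : z = (W.u (hh n) (hh n) : X) := by
      rcases (W.orderOf_eq_two_iff _).mp ho with h | h | h | ⟨j, h⟩
      · exact congrArg Subtype.val h
      · exfalso
        have h' : z = (W.u (hh n) 0 : X) := congrArg Subtype.val h
        have e1 : (W.v 0 0 : X) * z * (W.v 0 0 : X)⁻¹ = (W.u 0 (hh n) : X) := by
          rw [h', ← Subgroup.coe_inv, ← Subgroup.coe_mul, ← Subgroup.coe_mul, W.conj_vu]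
        have h3 := hz.2 (W.v 0 0 : X) (by
          rw [e1, h']
          exact W.UG_comm _ (W.u_mem_UG _ _) _ (W.u_mem_UG _ _))
        rw [e1, h', Subtype.coe_inj, W.u_eq_iff] at h3
        exact h0 h3.2
      · exfalso
        have h' : z = (W.u 0 (hh n) : X) := congrArg Subtype.val h
        have e1 : (W.v 0 0 : X) * z * (W.v 0 0 : X)⁻¹ = (W.u (hh n) 0 : X) := by
          rw [h', ← Subgroup.coe_inv, ← Subgroup.coe_mul, ← Subgroup.coe_mul, W.conj_vu]
        have h3 := hz.2 (W.v 0 0 : X) (by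
          rw [e1, h']
          exact W.UG_comm _ (W.u_mem_UG _ _) _ (W.u_mem_UG _ _))
        rw [e1, h', Subtype.coe_inj, W.u_eq_iff] at h3
        exact h0 h3.1
      · exfalso
        have h' : z = (W.v j (-j) : X) := congrArg Subtype.val h
        have e1 : (W.u (hh n) 0 : X) * z * (W.u (hh n) 0 : X)⁻¹ = (W.v (j + hh n) (-j - hh n) : X) := by
          rw [h', ← Subgroup.coe_inv, ← Subgroup.coe_mul, ← Subgroup.coe_mul, W.conj_uv, Subtype.coe_inj,
            W.v_eq_iff]
          exact ⟨by ring, by ring⟩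
        have h3 := hz.2 (W.u (hh n) 0 : X) (by
          rw [e1, h']
          show (W.v j (-j) : X) * (W.v (j + hh n) (-j - hh n) : X) =
            (W.v (j + hh n) (-j - hh n) : X) * (W.v j (-j) : X)
          rw [← Subgroup.coe_mul, ← Subgroup.coe_mul, Subtype.coe_inj, W.vv, W.vv, W.u_eq_iff]
          exact ⟨by linear_combination -h2, by linear_combination h2⟩)
        rw [e1, h', Subtype.coe_inj, W.v_eq_iff] at h3
        apply h0
        linear_combination h3.1
    have h₁ : (Subgroup.centralizer (W.UG : Set X)).relIndex (Subgroup.normalizer (W.UG : Set X)) = 2 := by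
      apply W.relIndex_U_eq_two_of_fix S
      intro m hm
      rw [← hzz]
      apply hz.2 m
      have h3 := conj_mem_of_mem_normalizer hm (W.u_mem_UG (hh n) (hh n))
      rw [← hzz] at h3
      exact W.UG_comm _ (hzz ▸ W.u_mem_UG _ _) _ h3
    have hz' : ∀ (j : ZMod (2 ^ n)) (g : X), g * (W.v j (-j) : X) * g⁻¹ ≠ (W.u (hh n) (hh n) : X) := by
      intro j g h
      have e1 : g⁻¹ * z * g⁻¹⁻¹ = (W.v j (-j) : X) := by rw [hzz, ← h]; group
      have h3 := hz.2 g⁻¹ (by
        rw [e1, hzz]
        exact (W.z_comm (W.v j (-j)).2).symm)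
      rw [e1, hzz] at h3
      exact W.v_ne_u _ _ _ _ (Subtype.ext h3)
    intro ζ hζ g
    obtain ⟨a, rfl⟩ := W.mem_ZG.mp hζ
    apply gen_zstar S _ (W.u a a).2
    intro j c hc
    rw [← Subgroup.coe_pow, W.u_pow] at hc ⊢
    exact W.ZG_fix S h₁ hz' _ c hc

end Cfsg.Agent.S1239
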