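import Cfsg.Statements.S1241
import Cfsg.Agent.Lib.Helper8.Transfer

set_option autoImplicit false
open Cfsg

namespace Cfsg.Agent.S1241

/-- Let G be a finite group, p a prime, H a subgroup of index prime to p, K a subgroup of H normal in H with H/K commutative, and g ∈ H ∖ K an element of p-power order such that for all integers m and all a ∈ G with a g^m a⁻¹ ∈ H one has a g^m a⁻¹ ∈ g^m K. Then g ∉ G'. -/
theorem result {G : Type*} [Group G] [Finite G] {p : ℕ} [Fact p.Prime] (H K : Subgroup G) (hHK : K ≤ H) (hKn : (K.subgroupOf H).Normal) (hab : ∀ x ∈ H, ∀ y ∈ H, x * y * x⁻¹ * y⁻¹ ∈ K) (hidx : Nat.Coprime p H.index) (g : G) (hgH : g ∈ H) (hgK : g ∉ K) (hgp : ∃ k : ℕ, orderOf g = p ^ k) (hctrl : ∀ (m : ℤ) (a : G), a * g ^ m * a⁻¹ ∈ H → (a * g ^ m * a⁻¹) * (g ^ m)⁻¹ ∈ K) : g ∉ commutator G := by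
  classical
  intro hgc
  let N : Subgroup H := K.subgroupOf H
  haveI : N.Normal := hKn
  letI instC : CommGroup (H ⧸ N) :=
    { (inferInstance : Group (H ⧸ N)) with
      mul_comm := by
        intro a b
        obtain ⟨x, rfl⟩ := QuotientGroup.mk_surjective a
        obtain ⟨y, rfl⟩ := QuotientGroup.mk_surjective b
        rw [← QuotientGroup.mk_mul, ← QuotientGroup.mk_mul, QuotientGroup.eq]
        show ((x * y)⁻¹ * (y * x) : H) ∈ K.subgroupOf H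
        rw [Subgroup.mem_subgroupOf]
        have := hab (y : G)⁻¹ (H.inv_mem y.2) (x : G)⁻¹ (H.inv_mem x.2)
        simpa [mul_assoc] using this }
  let ϕ : H →* H ⧸ N := QuotientGroup.mk' N
  have key : ∀ (k : ℕ) (g₀ : G) (hk : g₀⁻¹ * g ^ k * g₀ ∈ H),
      ϕ ⟨g₀⁻¹ * g ^ k * g₀, hk⟩ = ϕ ⟨g, hgH⟩ ^ k := by
    intro k g₀ hk
    have h1 := hctrl (k : ℤ) g₀⁻¹ (by simpa using hk)
    rw [← map_pow]
    show (QuotientGroup.mk _ : H ⧸ N) = QuotientGroup.mk _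
    rw [eq_comm, QuotientGroup.eq]
    show ((⟨g, hgH⟩ ^ k : H)⁻¹ * ⟨g₀⁻¹ * g ^ k * g₀, hk⟩ : H) ∈ K.subgroupOf H
    rw [Subgroup.mem_subgroupOf]
    -- conjugate of an element of K by an element of H
    have h2 : (g ^ k)⁻¹ * ((g₀⁻¹ * g ^ k * g₀) * (g ^ k)⁻¹) * ((g ^ k)⁻¹)⁻¹ ∈ K := by
      have hgk : (⟨(g ^ k)⁻¹, H.inv_mem (H.pow_mem hgH k)⟩ : H) = ⟨(g ^ k)⁻¹, H.inv_mem (H.pow_mem hgH k)⟩ := rfl
      have hmem : (⟨(g₀⁻¹ * g ^ k * g₀) * (g ^ k)⁻¹, H.mul_mem hk (H.inv_mem (H.pow_mem hgH k))⟩ : H) ∈ N := by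
        show _ ∈ K.subgroupOf H
        rw [Subgroup.mem_subgroupOf]
        simpa using h1
      have := hKn.conj_mem _ hmem ⟨(g ^ k)⁻¹, H.inv_mem (H.pow_mem hgH k)⟩
      rw [Subgroup.mem_subgroupOf] at this
      simpa using this
    have e : ((⟨g, hgH⟩ ^ k : H)⁻¹ * ⟨g₀⁻¹ * g ^ k * g₀, hk⟩ : H).1
        = (g ^ k)⁻¹ * ((g₀⁻¹ * g ^ k * g₀) * (g ^ k)⁻¹) * ((g ^ k)⁻¹)⁻¹ := by
      simp [mul_assoc]
    rw [e]; exact h2
  have htr := Cfsg.Agent.Lib.Helper8.transfer_eq_pow_of_map ϕ g hgH key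
  have hker : ϕ.transfer g = 1 := by
    have : commutator G ≤ (ϕ.transfer).ker := Abelianization.commutator_subset_ker _
    exact this hgc
  rw [hker] at htr
  obtain ⟨k, hk⟩ := hgp
  have h1 : orderOf (ϕ ⟨g, hgH⟩) ∣ H.index := orderOf_dvd_of_pow_eq_one htr.symm
  have h2 : orderOf (ϕ ⟨g, hgH⟩) ∣ p ^ k := by
    apply orderOf_dvd_of_pow_eq_one
    rw [← map_pow]
    have : (⟨g, hgH⟩ : H) ^ (p ^ k) = 1 := by
      apply Subtype.ext
      simp [← hk, pow_orderOf_eq_one]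
    rw [this, map_one]
  have h3 : orderOf (ϕ ⟨g, hgH⟩) = 1 := by
    have hcop : Nat.Coprime (p ^ k) H.index := Nat.Coprime.pow_left k hidx
    exact Nat.eq_one_of_dvd_coprimes hcop h2 h1
  rw [orderOf_eq_one_iff] at h3
  have h4 : (⟨g, hgH⟩ : H) ∈ N := (QuotientGroup.eq_one_iff _).mp h3
  exact hgK (Subgroup.mem_subgroupOf.mp h4)

end Cfsg.Agent.S1241
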