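import Cfsg.Statements.S1243
import Cfsg.Agent.Lib.Helper8.Closed

set_option autoImplicit false
open Cfsg

namespace Cfsg.Agent.S1243

open Cfsg.Agent.Lib.Helper8

/-- Let T be a Sylow p-subgroup of the finite group G and W ≤ T a subgroup weakly closed in T. If d and g d g⁻¹ both centralize W, then g d g⁻¹ = h d h⁻¹ for some h ∈ N_G(W). -/
theorem result {G : Type*} [Group G] [Finite G] {p : ℕ} [Fact p.Prime] (T : Sylow p G) (W : Subgroup G) (hW : Cfsg.IsWeaklyClosed W (T : Subgroup G)) (d g : G) (hd : d ∈ Subgroup.centralizer (W : Set G)) (hgd : g * d * g⁻¹ ∈ Subgroup.centralizer (W : Set G)) : ∃ h ∈ Subgroup.normalizer (W : Set G), h * d * h⁻¹ = g * d * g⁻¹ := by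
  have hWp : IsPGroup p W := T.2.to_le hW.1
  let L : Subgroup G := Subgroup.centralizer ({d} : Set G)
  have hWL : W ≤ L := by
    intro w hw
    show w ∈ Subgroup.centralizer ({d} : Set G)
    rw [Subgroup.mem_centralizer_singleton_iff]
    exact (Subgroup.mem_centralizer_iff.mp hd w hw)
  have hXL : cj g⁻¹ W ≤ L := by
    intro x hx
    rw [mem_cj] at hx
    show x ∈ Subgroup.centralizer ({d} : Set G)
    rw [Subgroup.mem_centralizer_singleton_iff]
    have h1 := Subgroup.mem_centralizer_iff.mp hgd _ hx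
    simp only [inv_inv] at h1
    calc x * d = g⁻¹ * ((g * x * g⁻¹) * (g * d * g⁻¹)) * g := by group
      _ = g⁻¹ * ((g * d * g⁻¹) * (g * x * g⁻¹)) * g := by rw [h1]
      _ = d * x := by group
  obtain ⟨T', hT', -, hWT', l, hl, hlX⟩ := exists_cj_le_of_le L (isPGroup_cj hWp g⁻¹) hXL hWp hWL
  rw [cj_cj] at hlX
  have h1 : cj 1 W ≤ T' := by rw [cj_one]; exact hWT'
  have h2 := weaklyClosed_unique T hW hT' hlX h1
  rw [cj_one] at h2
  have h3 := mem_normalizer_of_cj_eq h2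
  refine ⟨(l * g⁻¹)⁻¹, Subgroup.inv_mem _ h3, ?_⟩
  have hld : l * d = d * l := Subgroup.mem_centralizer_singleton_iff.mp hl
  calc (l * g⁻¹)⁻¹ * d * (l * g⁻¹)⁻¹⁻¹ = g * l⁻¹ * (d * l) * g⁻¹ := by group
    _ = g * l⁻¹ * (l * d) * g⁻¹ := by rw [hld]
    _ = g * d * g⁻¹ := by group

end Cfsg.Agent.S1243
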