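import Mathlib
import Cfsg.Statements.S1247
import Cfsg.Agent.H9.BenS3

set_option autoImplicit false
open Cfsg
open scoped commutatorElement

namespace Cfsg.Agent.S1247

/-- Let G be a non-abelian finite simple group, A a maximal subgroup, F = F*(A) its generalized Fitting subgroup (viewed in G), and S ≤ F a subgroup subnormal in F with C_F(S) ≤ S. Let B be any subgroup of G containing S. Then (a) for every prime q not dividing |F(A)|, O_q(B) ∩ A = 1; and (b) for every prime p dividing |F(A)|, O_p(B) commutes elementwise with the subgroup of F generated by its elements of order prime to p. -/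
theorem result {G : Type*} [Group G] [Finite G] [IsSimpleGroup G] (hna : ¬ IsMulCommutative G) (A : Subgroup G) (hA : IsCoatom A) (S : Subgroup G) (hSF : S ≤ (Cfsg.generalizedFittingSubgroup ↥A).map A.subtype) (hSsn : (S.subgroupOf ((Cfsg.generalizedFittingSubgroup ↥A).map A.subtype)).IsSubnormal) (hSC : (Cfsg.generalizedFittingSubgroup ↥A).map A.subtype ⊓ Subgroup.centralizer (S : Set G) ≤ S) (B : Subgroup G) (hSB : S ≤ B) : (∀ q : ℕ, q.Prime → ¬ q ∣ Nat.card (Cfsg.fittingSubgroup ↥A) → (Cfsg.pCore q ↥B).map B.subtype ⊓ A = ⊥) ∧ (∀ p : ℕ, p.Prime → p ∣ Nat.card (Cfsg.fittingSubgroup ↥A) → ∀ x ∈ (Cfsg.pCore p ↥B).map B.subtype, ∀ y ∈ (Cfsg.pResidual p ↥(Cfsg.generalizedFittingSubgroup ↥A)).map ((Cfsg.generalizedFittingSubgroup ↥A).subtype) , x * (A.subtype y) = (A.subtype y) * x) := by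
  have hSA : S ≤ A := hSF.trans (Subgroup.map_subtype_le _)
  have h := Cfsg.H9.BenS3.mkHyp A S hSF hSsn hSC
  constructor
  · intro q hq hqF
    haveI : Fact q.Prime := ⟨hq⟩
    haveI := Cfsg.H1.pCore_normal (G := ↥B) q
    have hX : IsPGroup q ((Cfsg.pCore q ↥B).map B.subtype ⊓ A : Subgroup G) :=
      ((Cfsg.H1.pCore_isPGroup q).map _).to_le inf_le_left
    have hSX : S ≤ Subgroup.normalizer
        (((Cfsg.pCore q ↥B).map B.subtype ⊓ A : Subgroup G) : Set G) :=
      Cfsg.H9.TTrans.le_normalizer_inf (hSB.trans (Cfsg.H9.BenU3.le_normalizer_map_of_normal _))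
        (hSA.trans Subgroup.le_normalizer)
    have h1 : ((Cfsg.pCore q ↥B).map B.subtype ⊓ A : Subgroup G).subgroupOf A = ⊥ :=
      Cfsg.H9.BenS2.partA h q hqF _ hX.comap_subtype (Cfsg.H9.TTrans3.norm_subgroupOf hSX)
    rw [← Subgroup.map_subgroupOf_eq_of_le
      (inf_le_right : (Cfsg.pCore q ↥B).map B.subtype ⊓ A ≤ A), h1, Subgroup.map_bot]
  · intro p hp hpF x hx y hy
    haveI : Fact p.Prime := ⟨hp⟩
    haveI := Cfsg.H1.pCore_normal (G := ↥B) p
    obtain ⟨h1, h2⟩ := Cfsg.H9.BenS3.partB hA hSA h p hpF ((Cfsg.pCore p ↥B).map B.subtype)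
      ((Cfsg.H1.pCore_isPGroup p).map _)
      (hSB.trans (Cfsg.H9.BenU3.le_normalizer_map_of_normal _))
    have hy' := Cfsg.H9.BenS2.resid_le p hp hy
    have hy2 : A.subtype y ∈ (Cfsg.layer ↥A).map A.subtype ⊔
        (Cfsg.H9.BenS1.fq p ↥A).map A.subtype := by
      rw [← Subgroup.map_sup]
      exact ⟨y, hy', rfl⟩
    have h3 := (sup_le (Subgroup.le_centralizer_iff.mp h1) (Subgroup.le_centralizer_iff.mp h2)) hy2
    exact Subgroup.mem_centralizer_iff.mp h3 x hx

end Cfsg.Agent.S1247
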