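import Mathlib
import Cfsg.Statements.S1248
import Cfsg.Agent.H14.SU3Syl2

set_option autoImplicit false
open Cfsg

namespace Cfsg.Agent.S1248

open Cfsg.Agent.H14 in
/-- Let F be a field with 16 elements and S a Sylow 2-subgroup of PSU(3) over F (the unitary group U₃(4)). Then |S| = 64; the centre Z(S) is a Klein four-group and coincides with the subgroup generated by the involutions of S and with the derived subgroup; and every element of S ⧸ Z(S) squares to the identity, S ⧸ Z(S) having order 16. -/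
theorem result {F : Type*} [Field F] [Fintype F] (hF : Fintype.card F = 16) (S : Sylow 2 (Cfsg.PSU 3 F 4)) : Nat.card S = 64 ∧ IsKleinFour (Subgroup.center (S : Subgroup (Cfsg.PSU 3 F 4))) ∧ Subgroup.center (S : Subgroup (Cfsg.PSU 3 F 4)) = Subgroup.closure {x : (S : Subgroup (Cfsg.PSU 3 F 4)) | orderOf x = 2} ∧ Subgroup.center (S : Subgroup (Cfsg.PSU 3 F 4)) = commutator (S : Subgroup (Cfsg.PSU 3 F 4)) ∧ Nat.card ((S : Subgroup (Cfsg.PSU 3 F 4)) ⧸ Subgroup.center (S : Subgroup (Cfsg.PSU 3 F 4))) = 16 ∧ ∀ x : (S : Subgroup (Cfsg.PSU 3 F 4)) ⧸ Subgroup.center (S : Subgroup (Cfsg.PSU 3 F 4)), x ^ 2 = 1 := by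
  haveI : Fact (Fintype.card F = 4 ^ 2) := ⟨by rw [hF]; norm_num⟩
  haveI : Fact ((2 : F) = 0) := ⟨by
    have h : ((Fintype.card F : ℕ) : F) = 0 := Nat.cast_card_eq_zero F
    rw [hF] at h
    have h4 : (2 : F) ^ 4 = 0 := by
      have : ((16 : ℕ) : F) = 2 ^ 4 := by norm_num
      rw [← this]; exact h
    exact pow_eq_zero_iff (by norm_num) |>.mp h4⟩
  obtain ⟨e⟩ := sylow_equiv_HU (F := F) (q := 4) (by decide) ⟨2, by norm_num⟩ S
  refine ⟨?_, ?_, center_eq_closure_of_equiv e, center_eq_commutator_of_equiv e, ?_,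
    sq_quot_center_of_equiv e⟩
  · rw [card_of_equiv e]; norm_num
  · have hc := card_center_of_equiv e
    refine ⟨hc, ?_⟩
    have h1 : Monoid.exponent (Subgroup.center (S : Subgroup (Cfsg.PSU 3 F 4))) ∣ 2 := by
      apply Monoid.exponent_dvd_of_forall_pow_eq_one
      intro z
      apply Subtype.ext
      have := (mul_self_eq_one_of_equiv e z.1).mpr z.2
      simpa [pow_two] using this
    rcases (Nat.dvd_prime Nat.prime_two).mp h1 with h | h
    · exfalso
      rw [Monoid.exp_eq_one_iff] at h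
      have := Nat.card_of_subsingleton (1 : Subgroup.center (S : Subgroup (Cfsg.PSU 3 F 4)))
      omega
    · exact h
  · rw [card_quot_center_of_equiv e]; norm_num

end Cfsg.Agent.S1248
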