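import Cfsg.Statements.S1253
import Cfsg.Agent.Lib.Helper8.ZS13

set_option autoImplicit false
open Cfsg

namespace Cfsg.Agent.S1253

/-- Let z be an isolated involution of the finite group G with centralizer C, p an odd prime and P a Sylow p-subgroup of G normalized by z. Then P ∩ C has p-power-free index in C (it is a Sylow p-subgroup of C), and |P : C_P(z)| equals the number of elements x ∈ P with z x z⁻¹ = x⁻¹. -/
theorem result {G : Type*} [Group G] [Finite G] (z : G) (hz : Cfsg.IsIsolatedInvolution z) {p : ℕ} [Fact p.Prime] (hp : p ≠ 2) (P : Sylow p G) (hzP : z ∈ Subgroup.normalizer ((P : Subgroup G) : Set G)) : ¬ p ∣ ((P : Subgroup G) ⊓ Subgroup.centralizer ({z} : Set G)).relIndex (Subgroup.centralizer ({z} : Set G)) ∧ ((P : Subgroup G) ⊓ Subgroup.centralizer ({z} : Set G)).relIndex (P : Subgroup G) = Nat.card {x : G // x ∈ P ∧ z * x * z⁻¹ = x⁻¹} := by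
  refine ⟨Cfsg.Agent.Lib.Helper8.ZS.iso_sylow_inf_centralizer hz hp P hzP,
    Cfsg.Agent.Lib.Helper8.ZS.relIndex_eq_card_inverted (Cfsg.Agent.Lib.Helper8.ZS.iso_sq hz) _ ?_ hzP⟩
  obtain ⟨k, hk⟩ := P.2.exists_card_eq
  have hk' : Nat.card (P : Subgroup G) = p ^ k := hk
  rw [hk']
  exact Odd.pow ((Fact.out : p.Prime).odd_of_ne_two hp)

end Cfsg.Agent.S1253
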