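import Mathlib
import Cfsg.Statements.S1279
import Cfsg.Agent.H9.Local4

set_option autoImplicit false
open Cfsg
open scoped commutatorElement

namespace Cfsg.Agent.S1279

/-- Let A be a noncyclic elementary abelian p-subgroup of the finite group G such that C_G(a) is solvable for every non-identity a ∈ A. Then a ↦ O_{p'}(C_G(a)) is a solvable A-signalizer functor on G. -/
theorem result {G : Type*} [Group G] [Finite G] (p : ℕ) [Fact p.Prime] (A : Subgroup G) (hA : Cfsg.IsElementaryAbelian p A) (hA2 : p ^ 2 ≤ Nat.card ↥A) (hsolv : ∀ a ∈ A, a ≠ 1 → Group.IsSolvable ↥(Subgroup.centralizer ({a} : Set G))) : Cfsg.IsSolvableSignalizerFunctor p A (fun a => Cfsg.centralizerPPrimeCore p a) := by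
  have hcomm : ∀ x ∈ A, ∀ y ∈ A, x * y = y * x := by
    intro x hx y hy
    have := hA.1.is_comm.comm ⟨x, hx⟩ ⟨y, hy⟩
    exact congrArg Subtype.val this
  refine ⟨⟨?_, ?_, ?_, ?_⟩, ?_⟩
  · intro a _ _
    exact H9.coreOf_le _
  · intro a _ _
    exact (Nat.Prime.coprime_iff_not_dvd Fact.out).mp (H9.coreOf_coprime (p := p) _).symm
  · intro a ha _ b hb x hx
    have hb' : b ∈ Subgroup.centralizer ({a} : Set G) := by
      rw [Subgroup.mem_centralizer_singleton_iff]
      exact hcomm b hb a ha
    have h1 := H9.le_normalizer_coreOf (p := p) (K := Subgroup.centralizer ({a} : Set G))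
      Subgroup.le_normalizer hb'
    exact (Subgroup.mem_normalizer_iff.mp h1 x).mp hx
  · intro a ha _ b hb hb1
    exact H9.coreOf_centralizer_balance (hA.2 a ha) (hcomm a ha b hb) (hsolv b hb hb1)
  · intro a ha ha1
    exact H9.isSolvable_of_le (H9.coreOf_le (p := p) _) (hsolv a ha ha1)

end Cfsg.Agent.S1279
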