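import Mathlib
import Cfsg.Statements.S1281
import Cfsg.Agent.H9.PAct

set_option autoImplicit false
open Cfsg
open scoped commutatorElement

namespace Cfsg.Agent.S1281

/-- Let θ be a solvable A-signalizer functor on the finite group G (A a noncyclic elementary abelian p-subgroup) and N a normal subgroup of order prime to p. Then for all non-identity a, b ∈ A, the image of θ a in G / N meets the centralizer of the image of b inside the image of θ b. -/
theorem result {G : Type*} [Group G] [Finite G] (p : ℕ) [Fact p.Prime] (A : Subgroup G) (hA : Cfsg.IsElementaryAbelian p A) (hA2 : p ^ 2 ≤ Nat.card ↥A) (θ : G → Subgroup G) (hθ : Cfsg.IsSolvableSignalizerFunctor p A θ) (N : Subgroup G) [N.Normal] (hN : ¬ p ∣ Nat.card ↥N) (a b : G) (ha : a ∈ A) (ha1 : a ≠ 1) (hb : b ∈ A) (hb1 : b ≠ 1) : (θ a).map (QuotientGroup.mk' N) ⊓ Subgroup.centralizer {QuotientGroup.mk' N b} ≤ (θ b).map (QuotientGroup.mk' N) := by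
  obtain ⟨⟨_, hθp, hθinv, hθbal⟩, _⟩ := hθ
  intro xbar hxbar
  obtain ⟨⟨x, hx, rfl⟩, hxc⟩ := Subgroup.mem_inf.mp hxbar
  rw [Subgroup.mem_centralizer_singleton_iff] at hxc
  rw [SetLike.mem_coe] at hx
  have hPp : IsPGroup p ↥(Subgroup.zpowers b) := by
    apply IsPGroup.of_card (n := 1)
    rw [Nat.card_zpowers, pow_one]; exact orderOf_eq_prime (hA.2 b hb) hb1
  have hN0 : ¬ p ∣ Nat.card ↥(N ⊓ θ a) := fun h => hN (h.trans (Subgroup.card_dvd_of_le inf_le_left))
  have hzA : Subgroup.zpowers b ≤ A := by rw [Subgroup.zpowers_le]; exact hb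
  have hzc : ∀ g ∈ Subgroup.zpowers b,
      QuotientGroup.mk' N g * QuotientGroup.mk' N x = QuotientGroup.mk' N x * QuotientGroup.mk' N g := by
    intro g hg
    obtain ⟨k, rfl⟩ := Subgroup.mem_zpowers_iff.mp hg
    rw [map_zpow]
    exact ((Commute.zpow_right (show Commute (QuotientGroup.mk' N x) (QuotientGroup.mk' N b) from hxc) k)).eq.symm
  have hcos : ∀ g ∈ Subgroup.zpowers b, ∀ n ∈ N ⊓ θ a, ∃ n' ∈ N ⊓ θ a,
      g * (x * n) * g⁻¹ = x * n' := by
    intro g hg n hn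
    obtain ⟨hn1', hn2'⟩ := Subgroup.mem_inf.mp hn
    refine ⟨x⁻¹ * (g * (x * n) * g⁻¹), Subgroup.mem_inf.mpr ⟨?_, ?_⟩, by group⟩
    · rw [← QuotientGroup.eq_one_iff]
      show QuotientGroup.mk' N (x⁻¹ * (g * (x * n) * g⁻¹)) = 1
      have hn1 : QuotientGroup.mk' N n = 1 := (QuotientGroup.eq_one_iff n).mpr hn1'
      simp only [map_mul, map_inv, hn1, mul_one]
      rw [hzc g hg]; group
    · exact mul_mem (inv_mem hx) (hθinv a ha ha1 g (hzA hg) _ (mul_mem hx hn2'))
  obtain ⟨n, hn, hfix⟩ := H9.exists_fixed_in_coset hPp hN0 x hcos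
  obtain ⟨hn1, hn2⟩ := Subgroup.mem_inf.mp hn
  have h1 : x * n ∈ θ a ⊓ Subgroup.centralizer {b} := by
    refine Subgroup.mem_inf.mpr ⟨mul_mem hx hn2, ?_⟩
    rw [Subgroup.mem_centralizer_singleton_iff]
    have := hfix b (Subgroup.mem_zpowers b)
    calc x * n * b = (b * (x * n) * b⁻¹) * b := by rw [this]
      _ = b * (x * n) := by group
  refine ⟨x * n, hθbal a ha ha1 b hb hb1 h1, ?_⟩
  rw [map_mul, show QuotientGroup.mk' N n = 1 from (QuotientGroup.eq_one_iff n).mpr hn1, mul_one]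

end Cfsg.Agent.S1281
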