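import Cfsg.Statements.S1286
import Mathlib
-- import your own Cfsg.Agent.* helpers here

set_option autoImplicit false
open Cfsg

namespace Cfsg.Agent.S1286

abbrev X := Equiv.Perm (Fin 5)
def a : X := Equiv.swap 0 1
def b : X := Equiv.swap 2 3
def c1 : X := Equiv.swap 2 3 * Equiv.swap 3 4
def c2 : X := Equiv.swap 0 1 * Equiv.swap 1 4

def A : Subgroup X where
  carrier := {g | g = 1 ∨ g = a ∨ g = b ∨ g = a * b}
  mul_mem' := by
    rintro _ _ (rfl | rfl | rfl | rfl) (rfl | rfl | rfl | rfl) <;>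
      (simp only [Set.mem_setOf_eq]; decide +kernel)
  one_mem' := Or.inl rfl
  inv_mem' := by
    rintro _ (rfl | rfl | rfl | rfl) <;> (simp only [Set.mem_setOf_eq]; decide +kernel)

def T1 : Subgroup X where
  carrier := {g | g = 1 ∨ g = c1 ∨ g = c1 * c1}
  mul_mem' := by
    rintro _ _ (rfl | rfl | rfl) (rfl | rfl | rfl) <;>
      (simp only [Set.mem_setOf_eq]; decide +kernel)
  one_mem' := Or.inl rfl
  inv_mem' := by
    rintro _ (rfl | rfl | rfl) <;> (simp only [Set.mem_setOf_eq]; decide +kernel)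

def T2 : Subgroup X where
  carrier := {g | g = 1 ∨ g = c2 ∨ g = c2 * c2}
  mul_mem' := by
    rintro _ _ (rfl | rfl | rfl) (rfl | rfl | rfl) <;>
      (simp only [Set.mem_setOf_eq]; decide +kernel)
  one_mem' := Or.inl rfl
  inv_mem' := by
    rintro _ (rfl | rfl | rfl) <;> (simp only [Set.mem_setOf_eq]; decide +kernel)

def θ (g : X) : Subgroup X := if g = a then T1 else if g = b then T2 else ⊥

theorem θa : θ a = T1 := if_pos rfl
theorem θb : θ b = T2 := by
  unfold θ; rw [if_neg (by decide +kernel), if_pos rfl]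
theorem θab : θ (a * b) = ⊥ := by
  unfold θ; rw [if_neg (by decide +kernel), if_neg (by decide +kernel)]

theorem cardA : Nat.card ↥A = 4 := by
  have h := Nat.subtype_card ({1, a, b, a * b} : Finset X) (p := fun z => z ∈ A) (by
    intro x
    simp only [Finset.mem_insert, Finset.mem_singleton]
    exact Iff.rfl)
  rw [show ({1, a, b, a * b} : Finset X).card = 4 by decide +kernel] at h
  exact h

theorem cardT1 : Nat.card ↥T1 = 3 := by
  have h := Nat.subtype_card ({1, c1, c1 * c1} : Finset X) (p := fun z => z ∈ T1) (by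
    intro x
    simp only [Finset.mem_insert, Finset.mem_singleton]
    exact Iff.rfl)
  rw [show ({1, c1, c1 * c1} : Finset X).card = 3 by decide +kernel] at h
  exact h

theorem cardT2 : Nat.card ↥T2 = 3 := by
  have h := Nat.subtype_card ({1, c2, c2 * c2} : Finset X) (p := fun z => z ∈ T2) (by
    intro x
    simp only [Finset.mem_insert, Finset.mem_singleton]
    exact Iff.rfl)
  rw [show ({1, c2, c2 * c2} : Finset X).card = 3 by decide +kernel] at h
  exact h

theorem key1 : ∀ x, x ∈ T1 → (x * b = b * x ∨ x * (a * b) = (a * b) * x) → x = 1 := by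
  rintro x (rfl | rfl | rfl) h
  · rfl
  · exact absurd h (by decide +kernel)
  · exact absurd h (by decide +kernel)

theorem key2 : ∀ x, x ∈ T2 → (x * a = a * x ∨ x * (a * b) = (a * b) * x) → x = 1 := by
  rintro x (rfl | rfl | rfl) h
  · rfl
  · exact absurd h (by decide +kernel)
  · exact absurd h (by decide +kernel)

theorem isSF : Cfsg.IsSignalizerFunctor 2 A θ := by
  refine ⟨?_, ?_, ?_, ?_⟩
  · rintro _ (rfl | rfl | rfl | rfl) h1
    · exact absurd rfl h1
    · rw [θa]
      rintro x (rfl | rfl | rfl) <;> (rw [Subgroup.mem_centralizer_singleton_iff]; decide +kernel)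
    · rw [θb]
      rintro x (rfl | rfl | rfl) <;> (rw [Subgroup.mem_centralizer_singleton_iff]; decide +kernel)
    · rw [θab]; exact bot_le
  · rintro _ (rfl | rfl | rfl | rfl) h1
    · exact absurd rfl h1
    · rw [θa, cardT1]; norm_num
    · rw [θb, cardT2]; norm_num
    · rw [θab, Subgroup.card_bot]; norm_num
  · rintro _ (rfl | rfl | rfl | rfl) h1
    · exact absurd rfl h1
    · rw [θa]
      rintro _ (rfl | rfl | rfl | rfl) _ (rfl | rfl | rfl) <;>
        (show _ = 1 ∨ _ = c1 ∨ _ = c1 * c1; decide +kernel)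
    · rw [θb]
      rintro _ (rfl | rfl | rfl | rfl) _ (rfl | rfl | rfl) <;>
        (show _ = 1 ∨ _ = c2 ∨ _ = c2 * c2; decide +kernel)
    · rw [θab]
      intro g _ x hx
      rw [Subgroup.mem_bot] at hx ⊢
      rw [hx]; group
  · rintro _ (rfl | rfl | rfl | rfl) h1
    · exact absurd rfl h1
    · rintro _ (rfl | rfl | rfl | rfl) h2
      · exact absurd rfl h2
      · exact inf_le_left
      · rintro x ⟨hx1, hx2⟩
        rw [θa] at hx1
        rw [key1 x hx1 (Or.inl (Subgroup.mem_centralizer_singleton_iff.mp hx2))]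
        exact Subgroup.one_mem _
      · rintro x ⟨hx1, hx2⟩
        rw [θa] at hx1
        rw [key1 x hx1 (Or.inr (Subgroup.mem_centralizer_singleton_iff.mp hx2))]
        exact Subgroup.one_mem _
    · rintro _ (rfl | rfl | rfl | rfl) h2
      · exact absurd rfl h2
      · rintro x ⟨hx1, hx2⟩
        rw [θb] at hx1
        rw [key2 x hx1 (Or.inl (Subgroup.mem_centralizer_singleton_iff.mp hx2))]
        exact Subgroup.one_mem _
      · exact inf_le_left
      · rintro x ⟨hx1, hx2⟩
        rw [θb] at hx1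
        rw [key2 x hx1 (Or.inr (Subgroup.mem_centralizer_singleton_iff.mp hx2))]
        exact Subgroup.one_mem _
    · intro g _ _
      rintro x ⟨hx1, _⟩
      rw [θab] at hx1
      rw [Subgroup.mem_bot.mp hx1]
      exact Subgroup.one_mem _


/-- There exist a finite group X, an elementary abelian subgroup A of order 4 and a solvable A-signalizer functor θ on X for the prime 2 which is not complete. -/
theorem result : ∃ (X : Type) (_ : Group X) (_ : Finite X) (A : Subgroup X) (θ : X → Subgroup X), Cfsg.IsElementaryAbelian 2 A ∧ Nat.card ↥A = 4 ∧ Cfsg.IsSolvableSignalizerFunctor 2 A θ ∧ ¬ Cfsg.IsCompleteSignalizerFunctor 2 A θ := by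
  refine ⟨X, inferInstance, inferInstance, A, θ, ⟨⟨⟨?_⟩⟩, ?_⟩, cardA, ⟨isSF, ?_⟩, ?_⟩
  · rintro ⟨_, (rfl | rfl | rfl | rfl)⟩ ⟨_, (rfl | rfl | rfl | rfl)⟩ <;>
      (apply Subtype.ext; show (_ : X) * _ = _ * _; decide +kernel)
  · rintro _ (rfl | rfl | rfl | rfl) <;> decide +kernel
  · rintro _ (rfl | rfl | rfl | rfl) h1
    · exact absurd rfl h1
    · rw [θa]
      apply isSolvable_of_comm
      rintro ⟨_, (rfl | rfl | rfl)⟩ ⟨_, (rfl | rfl | rfl)⟩ <;>
        (apply Subtype.ext; show (_ : X) * _ = _ * _; decide +kernel)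
    · rw [θb]
      apply isSolvable_of_comm
      rintro ⟨_, (rfl | rfl | rfl)⟩ ⟨_, (rfl | rfl | rfl)⟩ <;>
        (apply Subtype.ext; show (_ : X) * _ = _ * _; decide +kernel)
    · rw [θab]
      apply isSolvable_of_comm
      intro x y
      exact Subsingleton.elim _ _
  · rintro ⟨_, W, _, hW2, hWθ⟩
    have h1 : c1 ∈ W := by
      have h : c1 ∈ θ a := θa ▸ (Or.inr (Or.inl rfl) : c1 ∈ T1)
      rw [← hWθ a (Or.inr (Or.inl rfl)) (by decide +kernel)] at h
      exact h.1
    have h2 : c2 ∈ W := by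
      have h : c2 ∈ θ b := θb ▸ (Or.inr (Or.inl rfl) : c2 ∈ T2)
      rw [← hWθ b (Or.inr (Or.inr (Or.inl rfl))) (by decide +kernel)] at h
      exact h.1
    have ht : c1 * c1 * c2 * c1 * c2 ∈ W :=
      W.mul_mem (W.mul_mem (W.mul_mem (W.mul_mem h1 h1) h2) h1) h2
    have ho : orderOf (c1 * c1 * c2 * c1 * c2) = 2 :=
      orderOf_eq_prime (by decide +kernel) (by decide +kernel)
    apply hW2
    rw [← ho, ← Subgroup.orderOf_mk _ ht]
    exact orderOf_dvd_natCard _

end Cfsg.Agent.S1286
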