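import Cfsg.Statements.S1287
import Cfsg.Agent.H20.WOrd
-- import your own Cfsg.Agent.* helpers here

set_option autoImplicit false
open scoped Pointwise
open Cfsg

namespace Cfsg.Agent.S1287

/-- Let A be a noncyclic elementary abelian p-subgroup of a finite group H normalizing a subgroup K of order prime to p, and X, Y ≤ K subgroups normalized by A with C_K(a) = C_X(a) C_Y(a) (as sets) for every non-identity a ∈ A, where X is also normalized by C_K(A). Then K = XY as sets. -/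
theorem result {H : Type*} [Group H] [Finite H] (p : ℕ) [Fact p.Prime] (A K X Y : Subgroup H) (hA : Cfsg.IsElementaryAbelian p A) (hA2 : p ^ 2 ≤ Nat.card ↥A) (hK : ¬ p ∣ Nat.card ↥K) (hAK : A ≤ Subgroup.normalizer (K : Set H)) (hX : X ≤ K) (hY : Y ≤ K) (hAX : A ≤ Subgroup.normalizer (X : Set H)) (hAY : A ≤ Subgroup.normalizer (Y : Set H)) (hCX : K ⊓ Subgroup.centralizer (A : Set H) ≤ Subgroup.normalizer (X : Set H)) (hfac : ∀ a ∈ A, a ≠ 1 → ((K ⊓ Subgroup.centralizer {a} : Subgroup H) : Set H) = ((X ⊓ Subgroup.centralizer {a} : Subgroup H) : Set H) * ((Y ⊓ Subgroup.centralizer {a} : Subgroup H) : Set H)) : (K : Set H) = (X : Set H) * (Y : Set H) := by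
  classical
  have hp : p.Prime := Fact.out
  have hAp : IsPGroup p A := by
    intro a
    refine ⟨1, ?_⟩
    rw [pow_one]
    exact Subtype.ext (hA.2 a a.2)
  obtain ⟨n, hn⟩ := IsPGroup.iff_card.mp hAp
  have h2n : 2 ≤ n := by
    rw [hn] at hA2
    exact (Nat.pow_le_pow_iff_right hp.one_lt).1 hA2
  obtain ⟨E0, hE0⟩ := Sylow.exists_subgroup_card_pow_prime (G := ↥A) p (n := 2)
    (hn ▸ pow_dvd_pow p h2n)
  have hEA : E0.map A.subtype ≤ A := Subgroup.map_subtype_le _
  have hE2 : Nat.card ↥(E0.map A.subtype) = p ^ 2 := by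
    rw [Subgroup.card_map_of_injective A.subtype_injective]
    exact hE0
  generalize E0.map A.subtype = E at hEA hE2
  have hEc : ∀ x ∈ E, ∀ y ∈ E, x * y = y * x := by
    intro x hx y hy
    have := hA.1.is_comm.comm ⟨x, hEA hx⟩ ⟨y, hEA hy⟩
    exact congrArg Subtype.val this
  have hEp : ∀ x ∈ E, x ^ p = 1 := fun x hx => hA.2 x (hEA hx)
  have hcop : (Nat.card ↥E).Coprime (Nat.card ↥K) := by
    rw [hE2]
    exact Nat.Coprime.pow_left 2 ((Nat.Prime.coprime_iff_not_dvd hp).mpr hK)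
  have hD : X ⊓ Y ≤ K := inf_le_left.trans hX
  have hED : E ≤ Subgroup.normalizer ((X ⊓ Y : Subgroup H) : Set H) := by
    have h1 := Subgroup.le_normalizer_iff.1 (hEA.trans hAX)
    have h2 := Subgroup.le_normalizer_iff.1 (hEA.trans hAY)
    rw [Subgroup.le_normalizer_iff]
    intro e he x hx
    exact Subgroup.mem_inf.2 ⟨h1 e he x hx.1, h2 e he x hx.2⟩
  have FK := Cfsg.Agent.H20.WOrd.formula p hEc hEp hE2 (hEA.trans hAK) hcop
  have FX := Cfsg.Agent.H20.WOrd.formula p hEc hEp hE2 (hEA.trans hAX)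
    (Cfsg.H1.coprime_of_le_right hX hcop)
  have FY := Cfsg.Agent.H20.WOrd.formula p hEc hEp hE2 (hEA.trans hAY)
    (Cfsg.H1.coprime_of_le_right hY hcop)
  have FD := Cfsg.Agent.H20.WOrd.formula p hEc hEp hE2 hED
    (Cfsg.H1.coprime_of_le_right hD hcop)
  unfold Cfsg.Agent.H20.WOrd.Formula at FK FX FY FD
  have hloc : ∀ a ∈ Cfsg.Agent.H20.WOrd.nz E,
      Nat.card ↥(X ⊓ Subgroup.centralizer ({a} : Set H))
        * Nat.card ↥(Y ⊓ Subgroup.centralizer ({a} : Set H))
      = Nat.card ↥(K ⊓ Subgroup.centralizer ({a} : Set H))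
        * Nat.card ↥((X ⊓ Y) ⊓ Subgroup.centralizer ({a} : Set H)) := by
    intro a ha
    obtain ⟨haE, ha1⟩ := Cfsg.Agent.H20.WOrd.mem_nz.1 ha
    have h := Cfsg.Agent.H17.card_mul_set (X ⊓ Subgroup.centralizer ({a} : Set H))
      (Y ⊓ Subgroup.centralizer ({a} : Set H))
    rw [← hfac a (hEA haE) ha1, ← inf_inf_distrib_right] at h
    exact h.symm
  have hglob : Nat.card ↥(X ⊓ Subgroup.centralizer (E : Set H))
        * Nat.card ↥(Y ⊓ Subgroup.centralizer (E : Set H))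
      ≤ Nat.card ↥(K ⊓ Subgroup.centralizer (E : Set H))
        * Nat.card ↥((X ⊓ Y) ⊓ Subgroup.centralizer (E : Set H)) := by
    have h := Cfsg.Agent.H17.card_mul_set (X ⊓ Subgroup.centralizer (E : Set H))
      (Y ⊓ Subgroup.centralizer (E : Set H))
    rw [← inf_inf_distrib_right] at h
    rw [← h]
    apply Nat.mul_le_mul_right
    apply Nat.card_mono (Set.toFinite _)
    rintro _ ⟨x, hx, y, hy, rfl⟩
    exact Subgroup.mem_inf.2 ⟨mul_mem (hX hx.1) (hY hy.1), mul_mem hx.2 hy.2⟩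
  have hmain : (Nat.card ↥X * Nat.card ↥Y) ^ (p - 1)
        * (Nat.card ↥(X ⊓ Subgroup.centralizer (E : Set H))
          * Nat.card ↥(Y ⊓ Subgroup.centralizer (E : Set H))) ^ (p * (p - 1))
      = (Nat.card ↥K * Nat.card ↥(X ⊓ Y : Subgroup H)) ^ (p - 1)
        * (Nat.card ↥(K ⊓ Subgroup.centralizer (E : Set H))
          * Nat.card ↥((X ⊓ Y) ⊓ Subgroup.centralizer (E : Set H))) ^ (p * (p - 1)) := by
    have h1 := congrArg₂ (· * ·) FX FY
    have h2 := congrArg₂ (· * ·) FK FD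
    beta_reduce at h1 h2
    rw [← Finset.prod_mul_distrib] at h1 h2
    rw [Finset.prod_congr rfl hloc, ← h2] at h1
    rw [mul_pow, mul_pow, mul_pow, mul_pow]
    calc _ = _ := by ring
      _ = _ := h1
      _ = _ := by ring
  have hge : Nat.card ↥K * Nat.card ↥(X ⊓ Y : Subgroup H) ≤ Nat.card ↥X * Nat.card ↥Y := by
    by_contra hlt
    rw [not_le] at hlt
    have hp1 : p - 1 ≠ 0 := by have := hp.two_le; omega
    have h1 := Nat.pow_lt_pow_left hlt hp1
    have h2 := Nat.pow_le_pow_left hglob (p * (p - 1))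
    have hpos : 0 < (Nat.card ↥(K ⊓ Subgroup.centralizer (E : Set H))
          * Nat.card ↥((X ⊓ Y) ⊓ Subgroup.centralizer (E : Set H))) ^ (p * (p - 1)) :=
      pow_pos (Nat.mul_pos Nat.card_pos Nat.card_pos) _
    have h3 := lt_of_le_of_lt (Nat.mul_le_mul_left _ h2) (mul_lt_mul_of_pos_right h1 hpos)
    rw [hmain] at h3
    exact lt_irrefl _ h3
  have hsub : (X : Set H) * (Y : Set H) ⊆ (K : Set H) := by
    rintro _ ⟨x, hx, y, hy, rfl⟩
    exact mul_mem (hX hx) (hY hy)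
  have hcard := Cfsg.Agent.H17.card_mul_set X Y
  rw [← hcard] at hge
  have hle : Nat.card ↥K ≤ Nat.card ((X : Set H) * (Y : Set H) : Set H) :=
    Nat.le_of_mul_le_mul_right hge Nat.card_pos
  symm
  apply Set.eq_of_subset_of_ncard_le hsub _ (Set.toFinite _)
  rw [← Nat.card_coe_set_eq, ← Nat.card_coe_set_eq]
  exact hle

end Cfsg.Agent.S1287
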