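import Mathlib
import Cfsg.Statements.S1300


set_option autoImplicit false
open Cfsg
open scoped commutatorElement

namespace Cfsg.Agent.S1300

/-- For a finite group G, balance in the sense of commuting involutions is the same as 1-balance for the prime 2. -/
theorem result {G : Type*} [Group G] [Finite G] : Cfsg.IsBalanced G ↔ Cfsg.IsKBalanced 2 1 G := by
  constructor
  · intro h A hA hcard b hb hab
    have hex : ∃ a ∈ A, a ≠ 1 := by
      by_contra hcon
      have hbot : A = ⊥ := by
        rw [eq_bot_iff]
        intro a ha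
        by_contra ha1
        exact hcon ⟨a, ha, ha1⟩
      rw [hbot] at hcard
      simp at hcard
    obtain ⟨a, ha, ha1⟩ := hex
    have hoa : orderOf a = 2 := orderOf_eq_prime (hA.2 a ha) ha1
    have h1 : signalizerDelta 2 A ≤ centralizerPPrimeCore 2 a :=
      iInf_le (fun a : {a : G // a ∈ A ∧ a ≠ 1} => centralizerPPrimeCore 2 (a : G)) ⟨a, ha, ha1⟩
    calc _ ≤ centralizerPPrimeCore 2 a ⊓ Subgroup.centralizer {b} := inf_le_inf_right _ h1
      _ = centralizerPPrimeCore 2 b ⊓ Subgroup.centralizer {a} := h a b hoa hb (hab a ha)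
      _ ≤ _ := inf_le_left
  · intro h
    have key : ∀ x y : G, orderOf x = 2 → orderOf y = 2 → x * y = y * x →
        centralizerPPrimeCore 2 x ⊓ Subgroup.centralizer {y} ≤
          centralizerPPrimeCore 2 y ⊓ Subgroup.centralizer {x} := by
      intro x y hx hy hxy
      refine le_inf ?_ (inf_le_left.trans (Subgroup.map_subtype_le _))
      have hmem : ∀ a ∈ Subgroup.zpowers x, a = 1 ∨ a = x := by
        intro a ha
        obtain ⟨k, rfl⟩ := Subgroup.mem_zpowers_iff.mp ha
        rw [← zpow_mod_orderOf, hx]
        rcases Int.emod_two_eq_zero_or_one k with h0 | h0 <;> simp [h0]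
      have hx2 : x ^ 2 = 1 := hx ▸ pow_orderOf_eq_one x
      have := h (Subgroup.zpowers x) ⟨inferInstance, ?_⟩ ?_ y hy ?_
      · refine le_trans (inf_le_inf_right _ ?_) this
        refine le_iInf fun ⟨a, ha, ha1⟩ => ?_
        rcases hmem a ha with h0 | h0
        · exact absurd h0 ha1
        · subst h0; exact le_rfl
      · intro a ha
        rcases hmem a ha with h0 | h0
        · simp [h0]
        · rw [h0, hx2]
      · rw [Nat.card_zpowers, hx, pow_one]
      · intro a ha
        rcases hmem a ha with h0 | h0
        · simp [h0]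
        · rw [h0, hxy]
    intro x y hx hy hxy
    exact le_antisymm (key x y hx hy hxy) (key y x hy hx hxy.symm)

end Cfsg.Agent.S1300
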