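import Mathlib
import Cfsg.Statements.S1304

set_option autoImplicit false
open Cfsg
open scoped commutatorElement

namespace Cfsg.Agent.S1304

/-- Let X be a perfect group and α an automorphism of X with α(x) x⁻¹ central for every x. Then α is the identity. -/
theorem result {X : Type*} [Group X] (hperf : commutator X = ⊤) (α : X ≃* X) (h : ∀ x : X, α x * x⁻¹ ∈ Subgroup.center X) : ∀ x : X, α x = x := by
  have key : commutator X ≤ MonoidHom.eqLocus α.toMonoidHom (MonoidHom.id X) := by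
    rw [commutator_def, Subgroup.commutator_le]
    intro x _ y _
    show α ⁅x, y⁆ = ⁅x, y⁆
    have hx := h x
    have hy := h y
    rw [Subgroup.mem_center_iff] at hx hy
    obtain ⟨z, hz⟩ : ∃ z, z = α x * x⁻¹ := ⟨_, rfl⟩
    obtain ⟨w, hw⟩ : ∃ w, w = α y * y⁻¹ := ⟨_, rfl⟩
    rw [← hz] at hx
    rw [← hw] at hy
    have hax : α x = z * x := by rw [hz]; group
    have hay : α y = w * y := by rw [hw]; group
    rw [commutatorElement_def, map_mul, map_mul, map_mul, map_inv, map_inv, hax, hay]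
    have h1 : ∀ g, g * z⁻¹ = z⁻¹ * g := by
      intro g
      have := hx (z⁻¹ * g * z⁻¹)
      calc g * z⁻¹ = z * (z⁻¹ * g * z⁻¹) := by group
        _ = (z⁻¹ * g * z⁻¹) * z := (this).symm
        _ = z⁻¹ * g := by group
    have h2 : ∀ g, g * w⁻¹ = w⁻¹ * g := by
      intro g
      have := hy (z⁻¹ * g * w⁻¹)
      have := hy (w⁻¹ * g * w⁻¹)
      calc g * w⁻¹ = w * (w⁻¹ * g * w⁻¹) := by group
        _ = (w⁻¹ * g * w⁻¹) * w := (this).symm
        _ = w⁻¹ * g := by group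
    calc z * x * (w * y) * (z * x)⁻¹ * (w * y)⁻¹
        = z * x * w * y * (x⁻¹ * z⁻¹) * (y⁻¹ * w⁻¹) := by group
      _ = z * x * w * y * (z⁻¹ * x⁻¹) * (w⁻¹ * y⁻¹) := by rw [h1, h2]
      _ = z * (x * w) * (y * z⁻¹) * (x⁻¹ * w⁻¹) * y⁻¹ := by group
      _ = z * (w * x) * (z⁻¹ * y) * (w⁻¹ * x⁻¹) * y⁻¹ := by rw [hy x, h1, h2]
      _ = z * w * (x * z⁻¹) * (y * w⁻¹) * x⁻¹ * y⁻¹ := by group
      _ = z * w * (z⁻¹ * x) * (w⁻¹ * y) * x⁻¹ * y⁻¹ := by rw [h1, h2]
      _ = z * (w * z⁻¹) * (x * w⁻¹) * y * x⁻¹ * y⁻¹ := by group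
      _ = z * (z⁻¹ * w) * (w⁻¹ * x) * y * x⁻¹ * y⁻¹ := by rw [h1, h2]
      _ = x * y * x⁻¹ * y⁻¹ := by group
  intro x
  have : x ∈ commutator X := by rw [hperf]; trivial
  exact key this

end Cfsg.Agent.S1304
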