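import Mathlib
import Cfsg.Statements.S1306
import Cfsg.Agent.H9.Comp

set_option autoImplicit false
open Cfsg
open scoped commutatorElement

namespace Cfsg.Agent.S1306

/-- Let G be finite, x an involution and L ≤ C_G(x) a component of C_G(x). Suppose L is a component of C_G(y) for every involution y ∈ C_G(L), and ⁅L, g L g⁻¹⁆ ≠ 1 whenever g L g⁻¹ ≠ L. Then L is a standard subgroup of G. -/
theorem result {G : Type*} [Group G] [Finite G] (x : G) (hx : orderOf x = 2) (L : Subgroup G) (hLx : L ≤ Subgroup.centralizer ({x} : Set G)) (hL : Cfsg.IsComponent (L.subgroupOf (Subgroup.centralizer ({x} : Set G)))) (hne : ∀ y : G, orderOf y = 2 → y ∈ Subgroup.centralizer (L : Set G) → L ≤ Subgroup.centralizer ({y} : Set G) ∧ Cfsg.IsComponent (L.subgroupOf (Subgroup.centralizer ({y} : Set G)))) (hnc : ∀ g : G, L.map (MulAut.conj g).toMonoidHom ≠ L → ⁅L, L.map (MulAut.conj g).toMonoidHom⁆ ≠ ⊥) : Cfsg.IsStandardSubgroup L := by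
  classical
  -- transport of components of centralizers under conjugation
  have transport : ∀ (g k : G), IsComponent (L.subgroupOf (Subgroup.centralizer ({k} : Set G))) →
      IsComponent ((L.map (MulAut.conj g).toMonoidHom).subgroupOf
        (Subgroup.centralizer ({g * k * g⁻¹} : Set G))) := by
    intro g k hk
    have hmap : (Subgroup.centralizer ({k} : Set G)).map (MulAut.conj g).toMonoidHom =
        Subgroup.centralizer ({g * k * g⁻¹} : Set G) := by
      ext z
      simp only [Subgroup.mem_map, Subgroup.mem_centralizer_singleton_iff, MulEquiv.coe_toMonoidHom,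
        MulAut.conj_apply]
      constructor
      · rintro ⟨c, hc, rfl⟩
        calc g * c * g⁻¹ * (g * k * g⁻¹) = g * (c * k) * g⁻¹ := by group
          _ = g * (k * c) * g⁻¹ := by rw [hc]
          _ = _ := by group
      · intro hz
        refine ⟨g⁻¹ * z * g, ?_, by group⟩
        calc g⁻¹ * z * g * k = g⁻¹ * (z * (g * k * g⁻¹)) * g := by group
          _ = g⁻¹ * ((g * k * g⁻¹) * z) * g := by rw [hz]
          _ = _ := by group
    have h1 := Cfsg.H9.isComponent_map_equiv
      ((MulAut.conj g).subgroupMap (Subgroup.centralizer ({k} : Set G))) hk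
    have h2 : ∀ (C' : Subgroup G) (hC' : (Subgroup.centralizer ({k} : Set G)).map
        (MulAut.conj g).toMonoidHom = C'),
        IsComponent ((L.map (MulAut.conj g).toMonoidHom).subgroupOf C') := by
      intro C' hC'
      subst hC'
      have heq : (L.map (MulAut.conj g).toMonoidHom).subgroupOf
          ((Subgroup.centralizer ({k} : Set G)).map (MulAut.conj g).toMonoidHom) =
          (L.subgroupOf (Subgroup.centralizer ({k} : Set G))).map
            ((MulAut.conj g).subgroupMap (Subgroup.centralizer ({k} : Set G))).toMonoidHom := ?_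
      · rw [heq]; exact h1
      ext ⟨z, hz⟩
      simp only [Subgroup.mem_subgroupOf, Subgroup.mem_map, MulEquiv.coe_toMonoidHom,
        MulAut.conj_apply]
      constructor
      · rintro ⟨l, hl, rfl⟩
        obtain ⟨c, hc, hcz⟩ := hz
        have : c = l := by
          simpa [MulAut.conj_apply] using hcz
        subst this
        exact ⟨⟨c, hc⟩, hl, Subtype.ext rfl⟩
      · rintro ⟨⟨c, hc⟩, hl, hcz⟩
        exact ⟨c, hl, congrArg Subtype.val hcz⟩
    exact h2 _ hmap
  have key : ∀ g : G, (∃ y : G, orderOf y = 2 ∧ y ∈ Subgroup.centralizer (L : Set G) ∧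
      y ∈ (Subgroup.centralizer (L : Set G)).map (MulAut.conj g).toMonoidHom) →
      L.map (MulAut.conj g).toMonoidHom = L := by
    rintro g ⟨y, hy2, hyK, k, hkK, hky⟩
    have hky' : g * k * g⁻¹ = y := by simpa [MulAut.conj_apply] using hky
    have hk2 : orderOf k = 2 := by
      rw [← hy2, ← hky]
      exact (MulEquiv.orderOf_eq (MulAut.conj g) k).symm
    have h1 := transport g k (hne k hk2 hkK).2
    rw [hky'] at h1
    have h2 := (hne y hy2 hyK).2
    by_contra hcon
    have h3 := (Cfsg.H9.component_eq_or_comm h2 h1)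
    have hLg : L.map (MulAut.conj g).toMonoidHom ≤ Subgroup.centralizer ({y} : Set G) := by
      rintro _ ⟨l, hl, rfl⟩
      rw [Subgroup.mem_centralizer_singleton_iff, ← hky']
      have := (hne k hk2 hkK).1 hl
      rw [Subgroup.mem_centralizer_singleton_iff] at this
      simp only [MulEquiv.coe_toMonoidHom, MulAut.conj_apply]
      calc g * l * g⁻¹ * (g * k * g⁻¹) = g * (l * k) * g⁻¹ := by group
        _ = g * (k * l) * g⁻¹ := by rw [this]
        _ = _ := by group
    rcases h3 with h3 | h3
    · apply hcon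
      have := congrArg (Subgroup.map (Subgroup.centralizer ({y} : Set G)).subtype) h3
      rw [Subgroup.subgroupOf_map_subtype, Subgroup.subgroupOf_map_subtype,
        inf_eq_left.mpr (hne y hy2 hyK).1, inf_eq_left.mpr hLg] at this
      exact this.symm
    · apply hnc g hcon
      rw [Cfsg.H9.comm_iff] at h3 ⊢
      intro a ha b hb
      have := h3 ⟨a, (hne y hy2 hyK).1 ha⟩ (Subgroup.mem_subgroupOf.mpr ha) ⟨b, hLg hb⟩
        (Subgroup.mem_subgroupOf.mpr hb)
      exact congrArg Subtype.val this
  have hxK : x ∈ Subgroup.centralizer (L : Set G) := by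
    rw [Subgroup.mem_centralizer_iff]
    intro l hl
    have := hLx hl
    rw [Subgroup.mem_centralizer_singleton_iff] at this
    exact this
  have hNL : Subgroup.normalizer (L : Set G) ≤
      Subgroup.normalizer (Subgroup.centralizer (L : Set G) : Set G) := by
    intro g hg
    rw [Subgroup.mem_normalizer_iff] at hg ⊢
    intro h
    constructor
    · intro hh
      rw [Subgroup.mem_centralizer_iff] at hh ⊢
      intro l hl
      have hl' : g⁻¹ * l * g ∈ L := by
        rw [hg]
        have e : g * (g⁻¹ * l * g) * g⁻¹ = l := by group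
        rw [e]; exact hl
      have := hh _ hl'
      calc l * (g * h * g⁻¹) = g * ((g⁻¹ * l * g) * h) * g⁻¹ := by group
        _ = g * (h * (g⁻¹ * l * g)) * g⁻¹ := by rw [this]
        _ = _ := by group
    · intro hh
      rw [Subgroup.mem_centralizer_iff] at hh ⊢
      intro l hl
      have hl' : g * l * g⁻¹ ∈ L := (hg l).mp hl
      have := hh _ hl'
      calc l * h = g⁻¹ * ((g * l * g⁻¹) * (g * h * g⁻¹)) * g := by group
        _ = g⁻¹ * ((g * h * g⁻¹) * (g * l * g⁻¹)) * g := by rw [this]
        _ = _ := by group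
  have hEven : ∀ M : Subgroup G, ¬ Odd (Nat.card M) → ∃ y ∈ M, orderOf y = 2 := by
    intro M hM
    rw [Nat.not_odd_iff_even] at hM
    obtain ⟨y, hy⟩ := exists_prime_orderOf_dvd_card' 2 hM.two_dvd
    exact ⟨y, y.2, by rw [← hy]; exact (Subgroup.orderOf_coe y)⟩
  refine ⟨?_, ⟨?_, ?_⟩, hnc, le_antisymm hNL ?_⟩
  · exact Cfsg.H9.isQuasisimple_of_mulEquiv (Subgroup.subgroupOfEquivOfLe hLx) hL.2
  · have : orderOf (⟨x, hxK⟩ : Subgroup.centralizer (L : Set G)) = 2 := by
      rw [← hx]; exact (Subgroup.orderOf_mk x hxK)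
    rw [even_iff_two_dvd, ← this]
    exact orderOf_dvd_natCard _
  · intro g hg
    by_contra hodd
    obtain ⟨y, hy, hy2⟩ := hEven _ hodd
    have := key g ⟨y, hy2, (Subgroup.mem_inf.mp hy).1, (Subgroup.mem_inf.mp hy).2⟩
    exact hg (hNL (Subgroup.mem_normalizer_iff_map_conj_eq.mpr this))
  · intro g hg
    have h1 := Subgroup.mem_normalizer_iff_map_conj_eq.mp hg
    apply Subgroup.mem_normalizer_iff_map_conj_eq.mpr
    apply key g ⟨x, hx, hxK, ?_⟩
    have h1' : Subgroup.map (MulEquiv.toMonoidHom (MulAut.conj g)) (Subgroup.centralizer (L : Set G)) =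
      Subgroup.centralizer (L : Set G) := h1
    rw [h1']; exact hxK

end Cfsg.Agent.S1306
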