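import Cfsg.Statements.S1314
import Mathlib

set_option autoImplicit false
open Cfsg

namespace Cfsg.Agent.S1314

/-- Let x be an involution of a group G and L a perfect subgroup with ⁅L, x L x⁻¹⁆ = 1. Then l ↦ l (x l x⁻¹) is a group homomorphism π from L to G whose kernel is central in L and whose image lies in C_G(x); and the commutator subgroup of C_{L ⊔ xLx⁻¹}(x) equals the image of π. -/
theorem result {G : Type*} [Group G] [Finite G] (x : G) (hx : orderOf x = 2) (L : Subgroup G) (hperf : ⁅L, L⁆ = L) (hcomm : ⁅L, L.map (MulAut.conj x).toMonoidHom⁆ = ⊥) : ∃ π : ↥L →* G, (∀ l : ↥L, π l = (l : G) * (x * (l : G) * x⁻¹)) ∧ π.ker ≤ Subgroup.center ↥L ∧ π.range ≤ Subgroup.centralizer ({x} : Set G) ∧ ⁅(L ⊔ L.map (MulAut.conj x).toMonoidHom) ⊓ Subgroup.centralizer ({x} : Set G), (L ⊔ L.map (MulAut.conj x).toMonoidHom) ⊓ Subgroup.centralizer ({x} : Set G)⁆ = π.range := by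
  classical
  have hxx : x * x = 1 := by
    have := pow_orderOf_eq_one x
    rwa [hx, pow_two] at this
  have hxinv : x⁻¹ = x := inv_eq_of_mul_eq_one_left hxx
  set L' : Subgroup G := L.map (MulAut.conj x).toMonoidHom with hL'
  have memL' : ∀ l ∈ L, x * l * x⁻¹ ∈ L' := fun l hl => ⟨l, hl, rfl⟩
  have hcc : ∀ g : G, x * (x * g * x⁻¹) * x⁻¹ = g := by
    intro g
    calc x * (x * g * x⁻¹) * x⁻¹ = (x * x) * g * (x * x)⁻¹ := by group
      _ = g := by rw [hxx]; group
  have hcen := Subgroup.commutator_eq_bot_iff_le_centralizer.mp hcomm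
  have hLL : ∀ a ∈ L, ∀ b ∈ L', a * b = b * a := by
    intro a ha b hb
    exact ((Subgroup.mem_centralizer_iff.mp (hcen ha)) b hb).symm
  let π : ↥L →* G :=
    { toFun := fun l => (l : G) * (x * (l : G) * x⁻¹)
      map_one' := by simp
      map_mul' := by
        intro a b
        have h1 := hLL b b.2 _ (memL' a a.2)
        calc ((a * b : ↥L) : G) * (x * ((a * b : ↥L) : G) * x⁻¹)
            = (a : G) * ((b : G) * (x * (a : G) * x⁻¹)) * (x * (b : G) * x⁻¹) := by
              rw [Subgroup.coe_mul]; group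
          _ = (a : G) * (x * (a : G) * x⁻¹) * ((b : G) * (x * (b : G) * x⁻¹)) := by
              rw [h1]; group }
  have hπ : ∀ l : ↥L, π l = (l : G) * (x * (l : G) * x⁻¹) := fun _ => rfl
  have hrange : π.range ≤ Subgroup.centralizer ({x} : Set G) := by
    rintro _ ⟨l, rfl⟩
    rw [Subgroup.mem_centralizer_singleton_iff, hπ]
    have h1 := hLL l l.2 _ (memL' l l.2)
    calc (l : G) * (x * (l : G) * x⁻¹) * x = (x * (l : G) * x⁻¹) * (l : G) * x := by rw [h1]
      _ = x * ((l : G) * (x⁻¹ * (l : G) * x)) := by group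
      _ = x * ((l : G) * (x * (l : G) * x⁻¹)) := by rw [hxinv]
  have hrangeLL : π.range ≤ L ⊔ L' := by
    rintro _ ⟨l, rfl⟩
    rw [hπ]
    exact Subgroup.mul_mem _ (Subgroup.mem_sup_left l.2) (Subgroup.mem_sup_right (memL' l l.2))
  refine ⟨π, hπ, ?_, hrange, ?_⟩
  · intro l hl
    rw [MonoidHom.mem_ker, hπ] at hl
    have h1 : (l : G) ∈ L' := by
      have : (l : G) = x * (l : G)⁻¹ * x⁻¹ := by
        have h2 : (l : G) = (x * (l : G) * x⁻¹)⁻¹ := eq_inv_of_mul_eq_one_left hl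
        calc (l : G) = (x * (l : G) * x⁻¹)⁻¹ := h2
          _ = x * (l : G)⁻¹ * x⁻¹ := by group
      rw [this]
      exact memL' _ (L.inv_mem l.2)
    rw [Subgroup.mem_center_iff]
    intro m
    apply Subtype.ext
    exact hLL m m.2 l h1
  · apply le_antisymm
    · rw [Subgroup.commutator_le]
      have hdec : ∀ g ∈ (L ⊔ L') ⊓ Subgroup.centralizer ({x} : Set G),
          ∃ (a : ↥L) (w : G), w ∈ L ∧ w ∈ L' ∧ g = π a * w := by
        intro g hg
        obtain ⟨hg1, hg2⟩ := Subgroup.mem_inf.mp hg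
        have hle : L' ≤ Subgroup.normalizer (L : Set G) := by
          intro b hb
          rw [Subgroup.mem_normalizer_iff]
          intro a
          constructor
          · intro ha
            have := hLL a ha b hb
            rw [← this]
            simpa using ha
          · intro ha
            have := hLL _ ha b hb
            have h3 : a = b * a * b⁻¹ := by
              have h4 : b * a * b⁻¹ * b = b * a := by group
              rw [h4] at this
              exact mul_left_cancel this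
            rw [h3]; exact ha
        have hg3 : g ∈ ((L ⊔ L' : Subgroup G) : Set G) := hg1
        rw [Subgroup.coe_mul_of_right_le_normalizer_left L L' hle] at hg3
        obtain ⟨a, ha, b', ⟨b, hb, rfl⟩, rfl⟩ := Set.mem_mul.mp hg3
        have hb' : (MulAut.conj x).toMonoidHom b = x * b * x⁻¹ := rfl
        rw [hb'] at hg2 ⊢
        rw [Subgroup.mem_centralizer_singleton_iff] at hg2
        -- z = a⁻¹ b
        have h5 : x * (a * (x * b * x⁻¹)) * x⁻¹ = a * (x * b * x⁻¹) := by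
          rw [← hg2]; group
        have h6 : (x * a * x⁻¹) * b = a * (x * b * x⁻¹) := by
          rw [← h5]
          calc (x * a * x⁻¹) * b = (x * a * x⁻¹) * (x * (x * b * x⁻¹) * x⁻¹) := by rw [hcc]
            _ = x * (a * (x * b * x⁻¹)) * x⁻¹ := by group
        have h7 : a⁻¹ * b = x * (b * a⁻¹) * x⁻¹ := by
          have h8 := hLL b hb _ (memL' a ha)
          rw [← h8] at h6
          calc a⁻¹ * b = a⁻¹ * (b * (x * a * x⁻¹)) * (x * a * x⁻¹)⁻¹ := by group
            _ = a⁻¹ * (a * (x * b * x⁻¹)) * (x * a * x⁻¹)⁻¹ := by rw [h6]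
            _ = x * (b * a⁻¹) * x⁻¹ := by group
        refine ⟨⟨a, ha⟩, x * (a⁻¹ * b) * x⁻¹, ?_, memL' _ (L.mul_mem (L.inv_mem ha) hb), ?_⟩
        · rw [h7, hcc]
          exact L.mul_mem hb (L.inv_mem ha)
        · rw [hπ]
          group
      intro g₁ hg₁ g₂ hg₂
      obtain ⟨a₁, w₁, hw₁L, hw₁L', rfl⟩ := hdec g₁ hg₁
      obtain ⟨a₂, w₂, hw₂L, hw₂L', rfl⟩ := hdec g₂ hg₂
      have hwπ : ∀ w, w ∈ L → w ∈ L' → ∀ a : ↥L, w * π a = π a * w := by
        intro w hwL hwL' a
        rw [hπ]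
        have h1 := hLL a a.2 w hwL'
        have h2 := hLL w hwL _ (memL' a a.2)
        calc w * ((a : G) * (x * (a : G) * x⁻¹)) = (w * (a : G)) * (x * (a : G) * x⁻¹) := by group
          _ = (a : G) * (w * (x * (a : G) * x⁻¹)) := by rw [← h1]; group
          _ = (a : G) * (x * (a : G) * x⁻¹) * w := by rw [h2]; group
      refine ⟨a₁ * a₂ * a₁⁻¹ * a₂⁻¹, ?_⟩
      rw [map_mul, map_mul, map_mul, map_inv, map_inv, commutatorElement_def]
      have e1 := hwπ w₁ hw₁L hw₁L' a₂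
      have e2 : w₁ * w₂ = w₂ * w₁ := hLL w₁ hw₁L w₂ hw₂L'
      have e3 : w₂ * (π a₁)⁻¹ = (π a₁)⁻¹ * w₂ := by
        have := hwπ w₂ hw₂L hw₂L' a₁
        calc w₂ * (π a₁)⁻¹ = (π a₁)⁻¹ * (π a₁ * w₂) * (π a₁)⁻¹ := by group
          _ = (π a₁)⁻¹ * (w₂ * π a₁) * (π a₁)⁻¹ := by rw [this]
          _ = (π a₁)⁻¹ * w₂ := by group
      symm
      calc π a₁ * w₁ * (π a₂ * w₂) * (π a₁ * w₁)⁻¹ * (π a₂ * w₂)⁻¹
          = π a₁ * (w₁ * π a₂) * w₂ * w₁⁻¹ * (π a₁)⁻¹ * w₂⁻¹ * (π a₂)⁻¹ := by group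
        _ = π a₁ * π a₂ * (w₁ * w₂) * w₁⁻¹ * (π a₁)⁻¹ * w₂⁻¹ * (π a₂)⁻¹ := by rw [e1]; group
        _ = π a₁ * π a₂ * (w₂ * (π a₁)⁻¹) * w₂⁻¹ * (π a₂)⁻¹ := by rw [e2]; group
        _ = π a₁ * π a₂ * (π a₁)⁻¹ * (π a₂)⁻¹ := by rw [e3]; group
    · have hperf' : ⁅(⊤ : Subgroup ↥L), (⊤ : Subgroup ↥L)⁆ = ⊤ := by
        apply Subgroup.map_injective L.subtype_injective
        rw [Subgroup.map_commutator, ← MonoidHom.range_eq_map, Subgroup.range_subtype, hperf]
      have h1 : π.range = ⁅π.range, π.range⁆ := by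
        conv_lhs => rw [MonoidHom.range_eq_map, ← hperf', Subgroup.map_commutator,
          ← MonoidHom.range_eq_map]
      rw [h1]
      exact Subgroup.commutator_mono (le_inf hrangeLL hrange) (le_inf hrangeLL hrange)

end Cfsg.Agent.S1314
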