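import Mathlib
import Cfsg.Statements.S1331
import Cfsg.Agent.H9.Sig
import Cfsg.Agent.S1324

set_option autoImplicit false
open Cfsg
open scoped commutatorElement

namespace Cfsg.Agent.S1331

/-- Let θ be a solvable A-signalizer functor on the finite group G for the prime p, A elementary abelian of rank at least 3, X a member of the family of θ, and B ≤ A with |B| ≥ p². Then X is generated by the subgroups X ∩ ⋂_{d ∈ D, d ≠ 1} θ d, D ranging over the subgroups of index p in B. -/
theorem result {G : Type*} [Group G] [Finite G] (p : ℕ) [Fact p.Prime] (A : Subgroup G) (hA : Cfsg.IsElementaryAbelian p A) (hA3 : p ^ 3 ≤ Nat.card ↥A) (θ : G → Subgroup G) (hθ : Cfsg.IsSolvableSignalizerFunctor p A θ) (X : Subgroup G) (hX : X ∈ Cfsg.signalizerFamily p A θ) (B : Subgroup G) (hB : B ≤ A) (hB2 : p ^ 2 ≤ Nat.card ↥B) : X = ⨆ D : {D : Subgroup G // D ≤ B ∧ D.relIndex B = p}, X ⊓ Cfsg.signalizerInf (D : Subgroup G) θ := by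
  have hB' : IsElementaryAbelian p B := H9.elemAb_of_le hA hB
  have hBp : IsPGroup p ↥B := H9.isPGroup_of_elemAb hB'
  have hB1 : B ≠ ⊥ := by
    intro h
    rw [h] at hB2
    simp at hB2
    have := (Fact.out : p.Prime).two_le
    nlinarith
  have hBX : B ≤ Subgroup.normalizer (X : Set G) :=
    H9.le_normalizer_of_conj_mem fun b hb => hX.2.2.1 b (hB hb)
  have h := Cfsg.Agent.S1324.result p B X hB' hB2 hX.2.1 hBX
  refine le_antisymm ?_ (iSup_le fun D => inf_le_left)
  conv_lhs => rw [h]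
  refine iSup_le fun D => ?_
  obtain ⟨D, hDB, hDidx⟩ := D
  have key : ∃ D' : Subgroup G, D' ≤ D ∧ D' ≤ B ∧ D'.relIndex B = p := by
    rcases H9.relIndex_eq_one_or_of_le hBp hDidx with h1 | h1
    · obtain ⟨D', hD', hD'idx⟩ := H9.exists_hyperplane hBp hB1
      exact ⟨D', hD'.trans (Subgroup.relIndex_eq_one.mp h1), hD', hD'idx⟩
    · exact ⟨D, le_rfl, hDB, h1⟩
  obtain ⟨D', hD'D, hD'B, hD'idx⟩ := key
  refine le_trans ?_ (le_iSup (fun D : {D : Subgroup G // D ≤ B ∧ D.relIndex B = p} =>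
    X ⊓ Cfsg.signalizerInf (D : Subgroup G) θ) ⟨D', hD'B, hD'idx⟩)
  refine le_trans (inf_le_inf_left _ (Subgroup.centralizer_le ?_))
    (H9.inf_centralizer_le_signalizerInf hX (hD'B.trans hB))
  exact_mod_cast hD'D

end Cfsg.Agent.S1331
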