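import Mathlib
import Cfsg.Statements.S1335


set_option autoImplicit false
open Cfsg
open scoped commutatorElement

namespace Cfsg.Agent.S1335

/-- Let H be a subgroup of the finite group G, p a prime, k ≥ 1, P a Sylow p-subgroup of H of p-rank at least k, and suppose N_G(X) ≤ H for every subgroup X ≤ P of p-rank at least k. Then P is a Sylow p-subgroup of G. -/
theorem result {G : Type*} [Group G] [Finite G] {p : ℕ} [Fact p.Prime] (k : ℕ) (hk : 1 ≤ k) (H : Subgroup G) (P : Sylow p ↥H) (hP : ¬ Cfsg.PRankLE p (k - 1) ↥(P : Subgroup ↥H)) (hΓ : (∀ X : Subgroup G, X ≤ (P : Subgroup ↥H).map H.subtype → ¬ Cfsg.PRankLE p (k - 1) ↥X → Subgroup.normalizer (X : Set G) ≤ H)) : ∃ Q : Sylow p G, (Q : Subgroup G) = (P : Subgroup ↥H).map H.subtype := by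
  classical
  set P' : Subgroup G := (P : Subgroup ↥H).map H.subtype with hP'
  have hrank : ¬ Cfsg.PRankLE p (k - 1) ↥P' := by
    intro hle
    apply hP
    intro A hA hexp
    let e : ↥(P : Subgroup ↥H) ≃* ↥P' :=
      Subgroup.equivMapOfInjective _ _ (Subgroup.subtype_injective _)
    have h1 := hle (A.map e.toMonoidHom) inferInstance (by
      rintro _ ⟨a, ha, rfl⟩
      rw [← map_pow, hexp a ha, map_one])
    rwa [Subgroup.card_map_of_injective e.injective] at h1
  have hN : Subgroup.normalizer (P' : Set G) ≤ H := hΓ P' le_rfl hrank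
  have hcardP' : Nat.card ↥P' = p ^ (Nat.card ↥H).factorization p := by
    rw [hP', Subgroup.card_map_of_injective (Subgroup.subtype_injective _)]
    exact P.card_eq_multiplicity
  have hp : p.Prime := Fact.out
  have hfac : (Nat.card ↥H).factorization p = (Nat.card G).factorization p := by
    by_contra hne
    have hle : (Nat.card ↥H).factorization p ≤ (Nat.card G).factorization p :=
      (Nat.factorization_le_iff_dvd Nat.card_pos.ne' Nat.card_pos.ne').mpr
        (Subgroup.card_subgroup_dvd_card H) p
    have hlt : (Nat.card ↥H).factorization p + 1 ≤ (Nat.card G).factorization p := by omega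
    have hdvd : p ^ ((Nat.card ↥H).factorization p + 1) ∣ Nat.card G :=
      (pow_dvd_pow p hlt).trans (Nat.ordProj_dvd _ p)
    have h1 := Sylow.prime_dvd_card_quotient_normalizer hdvd hcardP'
    have h2 : Nat.card ↥(Subgroup.normalizer (P' : Set G)) =
        Nat.card (↥(Subgroup.normalizer (P' : Set G)) ⧸
          P'.comap (Subgroup.normalizer (P' : Set G)).subtype) *
        Nat.card ↥(P'.comap (Subgroup.normalizer (P' : Set G)).subtype) :=
      Subgroup.card_eq_card_quotient_mul_card_subgroup _
    have h3 : Nat.card ↥(P'.comap (Subgroup.normalizer (P' : Set G)).subtype) = Nat.card ↥P' :=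
      Nat.card_congr (Subgroup.subgroupOfEquivOfLe Subgroup.le_normalizer).toEquiv
    have h4 : p ^ ((Nat.card ↥H).factorization p + 1) ∣
        Nat.card ↥(Subgroup.normalizer (P' : Set G)) := by
      rw [h2, h3, hcardP', pow_succ, mul_comm]
      exact Nat.mul_dvd_mul_right h1 _
    have h5 : p ^ ((Nat.card ↥H).factorization p + 1) ∣ Nat.card ↥H :=
      h4.trans (Subgroup.card_dvd_of_le hN)
    exact Nat.pow_succ_factorization_not_dvd Nat.card_pos.ne' hp h5
  exact ⟨Sylow.ofCard P' (hfac ▸ hcardP'), rfl⟩

end Cfsg.Agent.S1335
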