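import Cfsg.Statements.S1336
import Mathlib
-- import your own Cfsg.Agent.* helpers here
import Cfsg.Agent.H5.SylConj

set_option autoImplicit false
open Cfsg

namespace Cfsg.Agent.S1336


section
variable {G : Type*} [Group G]

def Rel (p : ℕ) (G : Type*) [Group G] : Subgroup G → Subgroup G → Prop := fun A B =>
  Cfsg.IsElementaryAbelian p A ∧ p ^ 1 ≤ Nat.card ↥A ∧ Cfsg.IsElementaryAbelian p B ∧
    p ^ 1 ≤ Nat.card ↥B ∧ ∀ a ∈ A, ∀ b ∈ B, a * b = b * a

def cj (g : G) (A : Subgroup G) : Subgroup G := A.map (MulAut.conj g).toMonoidHom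

theorem mem_cj (g x : G) (A : Subgroup G) : x ∈ cj g A ↔ g⁻¹ * x * g ∈ A := by
  constructor
  · rintro ⟨a, ha, rfl⟩
    have : g⁻¹ * ((MulAut.conj g).toMonoidHom a) * g = a := by simp [mul_assoc]
    rw [this]; exact ha
  · intro h
    exact ⟨g⁻¹ * x * g, h, by simp [mul_assoc]⟩

theorem cj_mul (g h : G) (A : Subgroup G) : cj g (cj h A) = cj (g * h) A := by
  ext x
  rw [mem_cj, mem_cj, mem_cj]
  have : h⁻¹ * (g⁻¹ * x * g) * h = (g * h)⁻¹ * x * (g * h) := by group
  rw [this]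

theorem cj_one (A : Subgroup G) : cj 1 A = A := by
  ext x
  rw [mem_cj]
  simp

theorem exists_order_p {p : ℕ} [Fact p.Prime] [Finite G] {A : Subgroup G} (hA : Cfsg.IsElementaryAbelian p A)
    (hc : p ^ 1 ≤ Nat.card ↥A) : ∃ b ∈ A, orderOf b = p := by
  have hp := (Fact.out : p.Prime)
  haveI : Nontrivial A := by
    rw [← Finite.one_lt_card_iff_nontrivial]
    have := hp.one_lt
    rw [pow_one] at hc
    omega
  obtain ⟨b, hb⟩ := exists_ne (1 : A)
  refine ⟨b.1, b.2, orderOf_eq_prime (hA.2 b.1 b.2) ?_⟩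
  intro h
  exact hb (Subtype.ext h)

theorem vertex_zpowers {p : ℕ} (x : G) (hx : orderOf x = p) :
    Cfsg.IsElementaryAbelian p (Subgroup.zpowers x) ∧ p ^ 1 ≤ Nat.card ↥(Subgroup.zpowers x) := by
  refine ⟨⟨⟨⟨?_⟩⟩, ?_⟩, ?_⟩
  · rintro ⟨a, ha⟩ ⟨b, hb⟩
    obtain ⟨i, rfl⟩ := Subgroup.mem_zpowers_iff.mp ha
    obtain ⟨j, rfl⟩ := Subgroup.mem_zpowers_iff.mp hb
    apply Subtype.ext
    exact ((Commute.refl x).zpow_zpow i j).eq
  · intro a ha
    obtain ⟨i, rfl⟩ := Subgroup.mem_zpowers_iff.mp ha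
    rw [← zpow_natCast, ← zpow_mul, mul_comm, zpow_mul, zpow_natCast, ← hx, pow_orderOf_eq_one, one_zpow]
  · rw [Nat.card_zpowers, hx, pow_one]

theorem vertex_cj {p : ℕ} (A : Subgroup G) (g : G)
    (h : Cfsg.IsElementaryAbelian p A ∧ p ^ 1 ≤ Nat.card ↥A) :
    Cfsg.IsElementaryAbelian p (cj g A) ∧ p ^ 1 ≤ Nat.card ↥(cj g A) := by
  obtain ⟨⟨hc, hpw⟩, hcard⟩ := h
  refine ⟨⟨⟨⟨?_⟩⟩, ?_⟩, ?_⟩
  · rintro ⟨_, a, ha, rfl⟩ ⟨_, b, hb, rfl⟩
    apply Subtype.ext
    show (MulAut.conj g).toMonoidHom a * (MulAut.conj g).toMonoidHom b =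
      (MulAut.conj g).toMonoidHom b * (MulAut.conj g).toMonoidHom a
    rw [← map_mul, ← map_mul]
    congr 1
    exact congrArg Subtype.val (hc.is_comm.comm ⟨a, ha⟩ ⟨b, hb⟩)
  · rintro _ ⟨a, ha, rfl⟩
    rw [← map_pow, hpw a ha, map_one]
  · have : Nat.card (cj g A) = Nat.card A := Subgroup.card_map_of_injective (MulAut.conj g).injective
    rw [this]; exact hcard

theorem dvd_of_mem {p : ℕ} [Finite G] (L : Subgroup G) (y : G) (hy : y ∈ L) (ho : orderOf y = p) :
    p ∣ Nat.card L := by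
  have := orderOf_dvd_natCard (⟨y, hy⟩ : L)
  rwa [Subgroup.orderOf_mk, ho] at this

theorem Rel_symm (p : ℕ) {A B : Subgroup G} (h : Rel p G A B) : Rel p G B A := by
  obtain ⟨h1, h2, h3, h4, h5⟩ := h
  exact ⟨h3, h4, h1, h2, fun b hb a ha => (h5 a ha b hb).symm⟩

theorem J_symm {p : ℕ} {A B : Subgroup G} (h : Relation.ReflTransGen (Rel p G) A B) :
    Relation.ReflTransGen (Rel p G) B A := by
  induction h with
  | refl => exact .refl
  | tail _ hbc ih => exact Relation.ReflTransGen.head (Rel_symm p hbc) ih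

theorem Rel_cj {p : ℕ} (g : G) (A B : Subgroup G) (h : Rel p G A B) : Rel p G (cj g A) (cj g B) := by
  obtain ⟨h1, h2, h3, h4, h5⟩ := h
  have v1 := vertex_cj A g ⟨h1, h2⟩
  have v2 := vertex_cj B g ⟨h3, h4⟩
  refine ⟨v1.1, v1.2, v2.1, v2.2, ?_⟩
  rintro _ ⟨a, ha, rfl⟩ _ ⟨b, hb, rfl⟩
  rw [← map_mul, ← map_mul, h5 a ha b hb]

theorem J_cj {p : ℕ} (g : G) {A B : Subgroup G} (h : Relation.ReflTransGen (Rel p G) A B) :
    Relation.ReflTransGen (Rel p G) (cj g A) (cj g B) := by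
  induction h with
  | refl => exact .refl
  | tail _ hbc ih => exact ih.tail (Rel_cj g _ _ hbc)

theorem pgroup_of_ea {p : ℕ} {A : Subgroup G} (hA : Cfsg.IsElementaryAbelian p A) : IsPGroup p A :=
  fun g => ⟨1, by rw [pow_one]; exact Subtype.ext (hA.2 g.1 g.2)⟩

theorem syl_join {p : ℕ} [Fact p.Prime] [Finite G] (S : Subgroup G) (hS : IsPGroup p S) (A B : Subgroup G)
    (hAS : A ≤ S) (hBS : B ≤ S) (hA : Cfsg.IsElementaryAbelian p A ∧ p ^ 1 ≤ Nat.card ↥A)
    (hB : Cfsg.IsElementaryAbelian p B ∧ p ^ 1 ≤ Nat.card ↥B) :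
    Relation.ReflTransGen (Rel p G) A B := by
  have hp := (Fact.out : p.Prime)
  obtain ⟨b, hb, hbo⟩ := exists_order_p hA.1 hA.2
  haveI : Nontrivial S := ⟨⟨⟨b, hAS hb⟩, 1, by
    intro h
    have : b = 1 := congrArg Subtype.val h
    rw [this, orderOf_one] at hbo
    exact hp.one_lt.ne hbo⟩⟩
  haveI hcn := hS.center_nontrivial
  have hcp : IsPGroup p (Subgroup.center S) := hS.to_subgroup _
  have hdv : p ∣ Nat.card (Subgroup.center S) := by
    rcases hcp.card_eq_or_dvd with h | h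
    · have := Finite.one_lt_card (α := Subgroup.center S)
      omega
    · exact h
  obtain ⟨z', hz'⟩ := exists_prime_orderOf_dvd_card' p hdv
  have hzo : orderOf (z'.1.1 : G) = p := by
    rw [Subgroup.orderOf_coe, Subgroup.orderOf_coe, hz']
  have hzc : ∀ s ∈ S, Commute s (z'.1.1 : G) := by
    intro s hs
    exact congrArg Subtype.val (Subgroup.mem_center_iff.mp z'.2 ⟨s, hs⟩)
  have vz := vertex_zpowers (z'.1.1 : G) hzo
  have r1 : ∀ C : Subgroup G, C ≤ S → (Cfsg.IsElementaryAbelian p C ∧ p ^ 1 ≤ Nat.card ↥C) →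
      Rel p G C (Subgroup.zpowers (z'.1.1 : G)) := by
    intro C hCS hC
    refine ⟨hC.1, hC.2, vz.1, vz.2, ?_⟩
    intro a ha w hw
    obtain ⟨i, rfl⟩ := Subgroup.mem_zpowers_iff.mp hw
    exact ((hzc a (hCS ha)).zpow_right i).eq
  exact (Relation.ReflTransGen.single (r1 A hAS hA)).trans
    (Relation.ReflTransGen.single (Rel_symm p (r1 B hBS hB)))

end


/-- Let G be finite and p prime. Then G has a proper subgroup H with p ∣ |H| and p ∤ |H ∩ gHg⁻¹| for every g ∉ H (a strongly p-embedded subgroup) if and only if G is not 1-connected for p. -/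
theorem result {G : Type*} [Group G] [Finite G] (p : ℕ) [Fact p.Prime] : (∃ H : Subgroup G, H ≠ ⊤ ∧ p ∣ Nat.card ↥H ∧ ∀ g : G, g ∉ H → ¬ p ∣ Nat.card ↥(H ⊓ H.map (MulAut.conj g).toMonoidHom)) ↔ ¬ Cfsg.IsKConnected p 1 G := by
  classical
  have hp := (Fact.out : p.Prime)
  have hdef : Cfsg.IsKConnected p 1 G ↔ ∀ E E' : Subgroup G, Cfsg.IsElementaryAbelian p E →
      p ^ 1 ≤ Nat.card ↥E → Cfsg.IsElementaryAbelian p E' → p ^ 1 ≤ Nat.card ↥E' →
      Relation.ReflTransGen (Rel p G) E E' := Iff.rfl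
  rw [hdef]
  constructor
  · rintro ⟨H, hHtop, hpH, hH⟩ hconn
    obtain ⟨x', hx'⟩ := exists_prime_orderOf_dvd_card' (G := H) p hpH
    have hxo : orderOf (x'.1 : G) = p := by rw [Subgroup.orderOf_coe]; exact hx'
    obtain ⟨g, hg⟩ : ∃ g, g ∉ H := by
      by_contra h
      push_neg at h
      exact hHtop (eq_top_iff.mpr fun y _ => h y)
    have v1 := vertex_zpowers (x'.1 : G) hxo
    have v2 := vertex_cj _ g v1
    have path := hconn _ _ v1.1 v1.2 v2.1 v2.2
    have key : ∀ B, Relation.ReflTransGen (Rel p G) (Subgroup.zpowers (x'.1 : G)) B → B ≤ H := by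
      intro B hB
      induction hB with
      | refl => exact Subgroup.zpowers_le.mpr x'.2
      | tail _ hbc ih =>
        obtain ⟨hb1, hb2, hc1, hc2, hcomm⟩ := hbc
        intro c hc
        by_contra hcH
        obtain ⟨b, hb, hbo⟩ := exists_order_p hb1 hb2
        apply hH c hcH
        refine dvd_of_mem _ b ⟨ih hb, ?_⟩ hbo
        show b ∈ cj c H
        rw [mem_cj]
        have : c⁻¹ * b * c = b := by rw [mul_assoc, hcomm b hb c hc, ← mul_assoc]; simp
        rw [this]; exact ih hb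
    have h1 := key _ path
    apply hH g hg
    refine dvd_of_mem _ (g * x'.1 * g⁻¹) ⟨h1 ⟨x'.1, Subgroup.mem_zpowers _, rfl⟩, ⟨x'.1, x'.2, rfl⟩⟩ ?_
    rw [← hxo]
    exact orderOf_injective (MulAut.conj g).toMonoidHom (MulAut.conj g).injective x'.1
  · intro hnc
    push_neg at hnc
    obtain ⟨E, E', hE1, hE2, hE1', hE2', hnj⟩ := hnc
    let H : Subgroup G :=
      { carrier := {g | Relation.ReflTransGen (Rel p G) E (cj g E)}
        mul_mem' := by
          intro g h hg hh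
          have h1 := J_cj g hh
          rw [cj_mul] at h1
          exact Relation.ReflTransGen.trans hg h1
        one_mem' := by
          show Relation.ReflTransGen (Rel p G) E (cj 1 E)
          rw [cj_one]
        inv_mem' := by
          intro g hg
          have h1 := J_cj g⁻¹ hg
          rw [cj_mul, inv_mul_cancel, cj_one] at h1
          exact J_symm h1 }
    have hmemH : ∀ g, g ∈ H ↔ Relation.ReflTransGen (Rel p G) E (cj g E) := fun g => Iff.rfl
    obtain ⟨S, hES⟩ := (pgroup_of_ea hE1).exists_le_sylow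
    have hSH : (S : Subgroup G) ≤ H := by
      intro s hs
      rw [hmemH]
      apply syl_join S S.2 E (cj s E) hES _ ⟨hE1, hE2⟩ (vertex_cj E s ⟨hE1, hE2⟩)
      intro x hx
      rw [mem_cj] at hx
      have h1 := hES hx
      have h2 := (S : Subgroup G).mul_mem ((S : Subgroup G).mul_mem hs h1) ((S : Subgroup G).inv_mem hs)
      have : s * (s⁻¹ * x * s) * s⁻¹ = x := by group
      rwa [this] at h2
    have star : ∀ y ∈ H, orderOf y = p → Relation.ReflTransGen (Rel p G) E (Subgroup.zpowers y) := by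
      intro y hy hyo
      have vy := vertex_zpowers y hyo
      obtain ⟨m, hm, hmr⟩ := Cfsg.Agent.H5SylConj.conj_into H S hSH (Subgroup.zpowers y)
        (Subgroup.zpowers_le.mpr hy) (pgroup_of_ea vy.1)
      have h1 : Relation.ReflTransGen (Rel p G) E (cj m⁻¹ (Subgroup.zpowers y)) := by
        apply syl_join S S.2 E _ hES _ ⟨hE1, hE2⟩ (vertex_cj _ m⁻¹ vy)
        intro x hx
        rw [mem_cj, inv_inv] at hx
        have h2 := hmr _ hx
        have : m⁻¹ * (m * x * m⁻¹) * m = x := by group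
        rwa [this] at h2
      have h2 := J_cj m h1
      rw [cj_mul, mul_inv_cancel, cj_one] at h2
      exact Relation.ReflTransGen.trans ((hmemH m).mp hm) h2
    refine ⟨H, ?_, ?_, ?_⟩
    · intro htop
      apply hnj
      obtain ⟨S', hES'⟩ := (pgroup_of_ea hE1').exists_le_sylow
      obtain ⟨g, hg⟩ := MulAction.exists_smul_eq G S S'
      have hgH : g ∈ H := htop ▸ Subgroup.mem_top g
      refine Relation.ReflTransGen.trans ((hmemH g).mp hgH) ?_
      apply syl_join S' S'.2 (cj g E) E' _ hES' (vertex_cj E g ⟨hE1, hE2⟩) ⟨hE1', hE2'⟩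
      intro x hx
      rw [mem_cj] at hx
      rw [← hg, Cfsg.Agent.H5SylConj.mem_smul_sylow]
      exact hES hx
    · obtain ⟨b, hb, hbo⟩ := exists_order_p hE1 hE2
      exact dvd_of_mem H b (hSH (hES hb)) hbo
    · intro g hg hdiv
      apply hg
      obtain ⟨x', hx'⟩ := exists_prime_orderOf_dvd_card' p hdiv
      have hxo : orderOf (x'.1 : G) = p := by rw [Subgroup.orderOf_coe]; exact hx'
      have hx1 : (x'.1 : G) ∈ H := x'.2.1
      have hx2 : (x'.1 : G) ∈ cj g H := x'.2.2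
      rw [mem_cj] at hx2
      have ho2 : orderOf (g⁻¹ * x'.1 * g) = p := by
        rw [← hxo]
        have := orderOf_injective (MulAut.conj g⁻¹).toMonoidHom (MulAut.conj g⁻¹).injective x'.1
        simpa using this
      have j1 := star _ hx1 hxo
      have j2 := J_cj g (star _ hx2 ho2)
      have e : cj g (Subgroup.zpowers (g⁻¹ * x'.1 * g)) = Subgroup.zpowers (x'.1 : G) := by
        unfold cj
        rw [MonoidHom.map_zpowers]
        congr 1
        simp [mul_assoc]
      rw [e] at j2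
      rw [hmemH]
      exact Relation.ReflTransGen.trans j1 (J_symm j2)

end Cfsg.Agent.S1336
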