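import Mathlib
import Cfsg.Statements.S1337
import Cfsg.Agent.H9.NFour

set_option autoImplicit false
open Cfsg
open scoped commutatorElement

namespace Cfsg.Agent.S1337

/-- Let P be a finite p-group of p-rank greater than 2. Then P has a normal elementary abelian subgroup U of order p², and for every elementary abelian X ≤ P with |X| ≥ p²: X is joined to U by a chain of pairwise commuting elementary abelian subgroups of order ≥ p² if and only if C_P(X) has p-rank greater than 2. -/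
theorem result {P : Type*} [Group P] [Finite P] (p : ℕ) [Fact p.Prime] (hP : IsPGroup p P) (hrk : ¬ Cfsg.PRankLE p 2 P) : ∃ U : Subgroup P, U.Normal ∧ Cfsg.IsElementaryAbelian p U ∧ Nat.card ↥U = p ^ 2 ∧ ∀ X : Subgroup P, Cfsg.IsElementaryAbelian p X → p ^ 2 ≤ Nat.card ↥X → (Relation.ReflTransGen (fun A B : Subgroup P => Cfsg.IsElementaryAbelian p A ∧ p ^ 2 ≤ Nat.card ↥A ∧ Cfsg.IsElementaryAbelian p B ∧ p ^ 2 ≤ Nat.card ↥B ∧ ∀ a ∈ A, ∀ b ∈ B, a * b = b * a) X U ↔ ¬ Cfsg.PRankLE p 2 ↥(Subgroup.centralizer (X : Set P))) := by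
  classical
  have hp : Fact p.Prime := inferInstance
  have hrk' := hrk
  unfold Cfsg.PRankLE at hrk'
  push Not at hrk'
  obtain ⟨E, hEc, hEe, hE⟩ := hrk'
  obtain ⟨U, hUn, hUea, hU⟩ : ∃ U : Subgroup P, U.Normal ∧
      (IsMulCommutative U ∧ ∀ a ∈ U, a ^ p = 1) ∧ Nat.card U = p ^ 2 := by
    by_cases h2 : p = 2
    · subst h2
      obtain ⟨U, hUn, hU, hUe⟩ := Cfsg.H9.NFour.exists_normal_four hP E (by simpa using hE) hEe
      exact ⟨U, hUn, ⟨Cfsg.H9.NFour.comm_of_sq U hUe, hUe⟩, by rw [hU]; norm_num⟩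
    · apply Cfsg.H1.exists_normal_rank_two h2 hP
      intro hcyc
      obtain ⟨g, hg⟩ := (inferInstance : IsCyclic E).exists_generator
      have h1 := orderOf_eq_card_of_forall_mem_zpowers hg
      have h3 : g ^ p = 1 := Subtype.ext (by simpa using hEe g g.2)
      have h4 := Nat.le_of_dvd hp.out.pos (orderOf_dvd_of_pow_eq_one h3)
      rw [h1] at h4
      have h5 : p ≤ p ^ 2 := by nlinarith [hp.out.pos]
      omega
  refine ⟨U, hUn, hUea, hU, fun X hX hXc => ?_⟩
  have h1 := Cfsg.H9.NFour.component hP U hUea hU E ⟨hEc, hEe⟩ hE X hX hXc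
  have h2 := Cfsg.H9.NFour.rank_iff (p := p) (Subgroup.centralizer (X : Set P))
  exact h1.trans h2.symm

end Cfsg.Agent.S1337
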