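import Cfsg.Statements.S1386
import Cfsg.Agent.Lib.Helper10.CycPair
-- import your own Cfsg.Agent.* helpers here

set_option autoImplicit false
open Cfsg Cfsg.Agent.Lib.Helper10 Subgroup
set_option linter.style.haveILetI false

namespace Cfsg.Agent.S1386

/-- Let G be a finite group, W₁, W₂ subgroups forming a self-normalizing cyclic pair, S a subgroup with W₂ ≤ S and W₁ a complement to S' in S, and (W₁, U, W₂') type-P data for S. Then W₂' = W₂ (that is, C_{S'}(W₁) = W₂). -/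
theorem result {G : Type*} [Group G] [Finite G] (W₁ W₂ S U W₂' : Subgroup G) (hW : Cfsg.IsSelfNormalizingCyclic W₁ W₂)
    (hSW : Cfsg.IsComplIn ⁅S, S⁆ W₁ S) (hW₂S : W₂ ≤ S) (hP : Cfsg.IsTypePWith S W₁ U W₂') :
    W₂' = W₂ := by
  obtain ⟨hW₁1, hW₂1, hd, hcomm, hcyc, hnorm⟩ := hW
  obtain ⟨-, hW₂'1, hd', hcomm', hcyc', -⟩ := hP.selfNormalizing
  obtain ⟨-, hW₁S, -, hdec⟩ := hSW
  have hcop := coprime_of_isCyclic_sup hcyc hd
  have hcop' := coprime_of_isCyclic_sup hcyc' hd'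
  obtain ⟨⟨x, hx⟩, hx1'⟩ := Subgroup.ne_bot_iff_exists_ne_one.mp hW₁1
  have hx1 : x ≠ 1 := fun h0 => hx1' (Subtype.ext h0)
  obtain ⟨⟨v, hv⟩, hv1'⟩ := Subgroup.ne_bot_iff_exists_ne_one.mp hW₂1
  have hv1 : v ≠ 1 := fun h0 => hv1' (Subtype.ext h0)
  have hW₁comm : ∀ a ∈ W₁, ∀ b ∈ W₁, a * b = b * a := by
    intro a ha b hb
    haveI := hP.W₁_cyclic
    letI := IsCyclic.commGroup (α := W₁)
    exact congrArg Subtype.val (mul_comm (⟨a, ha⟩ : W₁) ⟨b, hb⟩)
  have hpowcard : ∀ (B : Subgroup G) (b : G), b ∈ B → b ^ Nat.card B = 1 := by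
    intro B b hb
    have := pow_card_eq_one' (x := (⟨b, hb⟩ : B))
    exact congrArg Subtype.val this
  have hle : W₂ ≤ W₂' := by
    intro w hw
    obtain ⟨a, ha, b, hb, hwab⟩ := hdec w (hW₂S hw)
    have haW : a ∈ W₂' := by
      rw [← hP.W₂_centralizer x hx hx1]
      refine ⟨ha, mem_centralizer_singleton_iff.2 ?_⟩
      have ha' : a = w * b⁻¹ := by rw [hwab]; group
      rw [ha']
      have h1 := hcomm x hx w hw
      have h2 := hW₁comm x hx b⁻¹ (W₁.inv_mem hb)
      calc w * b⁻¹ * x = w * (b⁻¹ * x) := by group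
        _ = w * (x * b⁻¹) := by rw [h2]
        _ = (w * x) * b⁻¹ := by group
        _ = (x * w) * b⁻¹ := by rw [h1]
        _ = x * (w * b⁻¹) := by group
    have hb1 : b = 1 := right_eq_one_of_pow (A := W₂') (B := W₁) (by rw [inf_comm]; exact hd') haW hb
      (hcomm' b hb a haW).symm (m := Nat.card W₂) (by rw [← hwab]; exact hpowcard W₂ w hw) hcop.symm
    rw [hwab, hb1, mul_one]
    exact haW
  apply le_antisymm _ hle
  intro w' hw'
  have hW₂'comm : ∀ a ∈ W₂', ∀ b ∈ W₂', a * b = b * a := by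
    intro a ha b hb
    letI := IsCyclic.commGroup (α := ↥(W₁ ⊔ W₂'))
    exact congrArg Subtype.val (mul_comm (⟨a, le_sup_right (a := W₁) ha⟩ : ↥(W₁ ⊔ W₂'))
      ⟨b, le_sup_right (a := W₁) hb⟩)
  have hmem : w' ∈ W₁ ⊔ W₂ := by
    rw [← hnorm {x * v} (by
      intro y hy
      rw [Set.mem_singleton_iff] at hy
      subst hy
      refine ⟨(W₁ ⊔ W₂).mul_mem (le_sup_left (b := W₂) hx) (le_sup_right (a := W₁) hv), ?_⟩
      rintro (h | h)
      · have h2 : v ∈ W₁ := (Subgroup.mul_mem_cancel_left W₁ hx).1 h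
        have h3 : v ∈ W₁ ⊓ W₂ := ⟨h2, hv⟩
        rw [hd, mem_bot] at h3
        exact hv1 h3
      · have h2 : x ∈ W₂ := (Subgroup.mul_mem_cancel_right W₂ hv).1 h
        have h3 : x ∈ W₁ ⊓ W₂ := ⟨hx, h2⟩
        rw [hd, mem_bot] at h3
        exact hx1 h3) (Set.singleton_nonempty _)]
    have hc : w' * (x * v) = (x * v) * w' := by
      have h1 := hcomm' x hx w' hw'
      have h2 := hW₂'comm w' hw' v (hle hv)
      calc w' * (x * v) = (w' * x) * v := by group
        _ = (x * w') * v := by rw [h1]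
        _ = x * (w' * v) := by group
        _ = x * (v * w') := by rw [h2]
        _ = x * v * w' := by group
    rw [Subgroup.mem_set_normalizer_iff]
    intro y
    simp only [Set.mem_singleton_iff]
    constructor
    · rintro rfl
      rw [hc]; group
    · intro h
      have : y = w'⁻¹ * (x * v) * w' := by rw [← h]; group
      rw [this, mul_assoc, ← hc]; group
  obtain ⟨a, ha, b, hb, hab⟩ := exists_mul_of_mem_sup_of_commute hcomm hmem
  have ha1 : a = 1 := right_eq_one_of_pow (A := W₂) (B := W₁) (by rw [inf_comm]; exact hd) hb ha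
      (hcomm a ha b hb).symm (m := Nat.card W₂')
      (by rw [← hcomm a ha b hb, ← hab]; exact hpowcard W₂' w' hw') hcop'.symm
  rw [hab, ha1, one_mul]
  exact hb

end Cfsg.Agent.S1386
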