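import Mathlib
import Cfsg.Statements.S1441
import Cfsg.Agent.Lib.Helper10.Basic

set_option autoImplicit false
open Cfsg Cfsg.Agent.Lib.Helper10

namespace Cfsg.Agent.S1441

theorem result {G : Type*} [Group G] [Finite G] (H A : Subgroup G) (hH : Group.IsSolvable H) (hA : (A ≤ Subgroup.normalizer (H : Set G)))
    (n : ℕ) (c : Fin (n + 1) → Subgroup G) (hc0 : c 0 = H) (hcn : c (Fin.last n) = ⊥) (hanti : Antitone c)
    (hcN : ∀ i, H ≤ Subgroup.normalizer ((c i : Subgroup G) : Set G)) (hcA : ∀ i, A ≤ Subgroup.normalizer ((c i : Subgroup G) : Set G))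
    (htriv : ∀ i : Fin n, ⁅c i.castSucc, A⁆ ≤ c i.succ) :
    ∀ p : ℕ, p.Prime → p ∣ (A ⊓ Subgroup.centralizer (H : Set G)).relIndex A → p ∣ Nat.card H := by
  intro p hp hdvd
  by_contra hnd
  have hfact : Fact p.Prime := ⟨hp⟩
  -- every element of `A` of order coprime to `|H|` centralizes `H`
  have key : ∀ a ∈ A, (orderOf a).Coprime (Nat.card H) → ∀ i : Fin (n + 1), ∀ x ∈ c i, a * x = x * a := by
    intro a ha hcop i
    induction i using Fin.reverseInduction with
    | last =>
      intro x hx
      rw [hcn, Subgroup.mem_bot] at hx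
      rw [hx]; simp
    | cast i ih =>
      intro x hx
      set d : G := x⁻¹ * a * x * a⁻¹ with hd
      have hd1 : d ∈ c i.succ := by
        apply htriv i
        have := Subgroup.commutator_mem_commutator ((c i.castSucc).inv_mem hx) ha
        rw [commutatorElement_def] at this
        simpa [hd] using this
      have hdH : d ∈ H := by
        rw [← hc0]
        exact hanti (Fin.zero_le _) hd1
      have h1 : a * x * a⁻¹ = x * d := by rw [hd]; group
      have h2 : a * d = d * a := ih d hd1
      have h3 : d = 1 := eq_one_of_conj a x d h1 h2 _ _ (pow_orderOf_eq_one a)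
        (pow_card_subgroup_eq_one H hdH) hcop
      rw [h3, mul_one] at h1
      calc a * x = (a * x * a⁻¹) * a := by group
        _ = x * a := by rw [h1]
  obtain ⟨P⟩ : Nonempty (Sylow p A) := inferInstance
  have hP : (P : Subgroup A) ≤ (A ⊓ Subgroup.centralizer (H : Set G)).subgroupOf A := by
    intro a ha
    rw [Subgroup.mem_subgroupOf]
    refine Subgroup.mem_inf.2 ⟨a.2, ?_⟩
    rw [Subgroup.mem_centralizer_iff]
    intro x hx
    have hx' : x ∈ c 0 := by rw [hc0]; exact hx
    obtain ⟨k, hk⟩ := P.isPGroup' ⟨a, ha⟩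
    have hk' : (a : G) ^ p ^ k = 1 := by
      have := congrArg (fun z : (P : Subgroup A) => ((z : A) : G)) hk
      simpa using this
    have hord : orderOf (a : G) ∣ p ^ k := orderOf_dvd_of_pow_eq_one hk'
    have hcop : (orderOf (a : G)).Coprime (Nat.card H) := by
      apply Nat.Coprime.coprime_dvd_left hord
      apply Nat.Coprime.pow_left
      exact (Nat.Prime.coprime_iff_not_dvd hp).2 hnd
    exact (key a a.2 hcop 0 x hx').symm
  have h1 : ((A ⊓ Subgroup.centralizer (H : Set G)).subgroupOf A).index ∣ (P : Subgroup A).index :=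
    Subgroup.index_dvd_of_le hP
  have h2 : ¬ p ∣ (P : Subgroup A).index := P.not_dvd_index
  exact h2 (dvd_trans hdvd h1)

end Cfsg.Agent.S1441
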