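import Mathlib
import Cfsg.Statements.S1442
import Cfsg.Agent.Lib.Helper10.Basic

set_option autoImplicit false
open Cfsg Cfsg.Agent.Lib.Helper10

namespace Cfsg.Agent.S1442

theorem result {G : Type*} [Group G] [Finite G] (H A : Subgroup G) (hH : Group.IsNilpotent H) (hA : (A ≤ Subgroup.normalizer (H : Set G))) (hcop : (Nat.card A).Coprime (Nat.card H))
    (hC : H ⊓ Subgroup.centralizer (((H ⊓ Subgroup.centralizer (A : Set G)) : Subgroup G) : Set G) ≤ (H ⊓ Subgroup.centralizer (A : Set G))) :
    A ≤ Subgroup.centralizer (H : Set G) := by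
  set C : Subgroup G := H ⊓ Subgroup.centralizer (A : Set G) with hCdef
  -- it suffices to show `C.subgroupOf H = ⊤`
  have key : C.subgroupOf H = ⊤ := by
    have hnc : NormalizerCondition H := Group.normalizerCondition_of_isNilpotent
    rw [normalizerCondition_iff_only_full_group_self_normalizing] at hnc
    apply hnc
    apply le_antisymm _ Subgroup.le_normalizer
    intro n hn
    rw [Subgroup.mem_normalizer_iff] at hn
    rw [Subgroup.mem_subgroupOf]
    -- n normalizes C
    have hn1 : ∀ x ∈ C, (n : G) * x * (n : G)⁻¹ ∈ C := by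
      intro x hx
      have hxH : x ∈ H := (Subgroup.mem_inf.1 hx).1
      have := (hn ⟨x, hxH⟩).1 (by rw [Subgroup.mem_subgroupOf]; exact hx)
      rw [Subgroup.mem_subgroupOf] at this
      simpa using this
    refine Subgroup.mem_inf.2 ⟨n.2, ?_⟩
    rw [Subgroup.mem_centralizer_iff]
    intro a ha
    have ha' : a ∈ A := ha
    have haN := hA ha'
    rw [Subgroup.mem_normalizer_iff] at haN
    set c : G := (n : G)⁻¹ * (a * n * a⁻¹) with hc
    have hcH : c ∈ H := H.mul_mem (H.inv_mem n.2) ((haN n).1 n.2)
    have hcC : c ∈ Subgroup.centralizer (C : Set G) := by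
      rw [Subgroup.mem_centralizer_iff]
      intro x hx
      have hx' : x ∈ C := hx
      have hxa : a * x = x * a := by
        have := (Subgroup.mem_inf.1 hx').2
        rw [Subgroup.mem_centralizer_iff] at this
        exact this a ha
      have hxa' : a⁻¹ * x * a = x := by
        rw [mul_assoc, ← hxa]; group
      have hy := (Subgroup.mem_inf.1 (hn1 x hx')).2
      rw [Subgroup.mem_centralizer_iff] at hy
      have hya := hy a ha
      -- a * (n x n⁻¹) = (n x n⁻¹) * a
      have e1 : (a * n * a⁻¹) * x * (a * n * a⁻¹)⁻¹ = n * x * (n : G)⁻¹ := by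
        calc (a * n * a⁻¹) * x * (a * n * a⁻¹)⁻¹ = a * (n * (a⁻¹ * x * a) * (n : G)⁻¹) * a⁻¹ := by group
          _ = a * (n * x * (n : G)⁻¹) * a⁻¹ := by rw [hxa']
          _ = (n * x * (n : G)⁻¹) * a * a⁻¹ := by rw [hya]
          _ = n * x * (n : G)⁻¹ := by group
      have e2 : c * x * c⁻¹ = x := by
        calc c * x * c⁻¹ = (n : G)⁻¹ * ((a * n * a⁻¹) * x * (a * n * a⁻¹)⁻¹) * n := by
              rw [hc]; group
          _ = (n : G)⁻¹ * (n * x * (n : G)⁻¹) * n := by rw [e1]
          _ = x := by group
      calc x * c = (c * x * c⁻¹) * c := by rw [e2]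
        _ = c * x := by group
    have hcC' : c ∈ C := hC (Subgroup.mem_inf.2 ⟨hcH, hcC⟩)
    have hca : a * c = c * a := by
      have := (Subgroup.mem_inf.1 hcC').2
      rw [Subgroup.mem_centralizer_iff] at this
      exact this a ha
    have hanc : a * n * a⁻¹ = n * c := by rw [hc]; group
    have hak : a ^ (Nat.card A) = 1 := by
      have := pow_card_eq_one' (G := A) (x := ⟨a, ha'⟩)
      exact congrArg Subtype.val this
    have hcm : c ^ (Nat.card H) = 1 := by
      have := pow_card_eq_one' (G := H) (x := ⟨c, hcH⟩)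
      exact congrArg Subtype.val this
    have hc1 : c = 1 := eq_one_of_conj a n c hanc hca _ _ hak hcm hcop
    rw [hc1, mul_one] at hanc
    calc a * n = (a * n * a⁻¹) * a := by group
      _ = n * a := by rw [hanc]
  intro a ha
  rw [Subgroup.mem_centralizer_iff]
  intro h hh
  have hh' : h ∈ H := hh
  have : (⟨h, hh'⟩ : H) ∈ C.subgroupOf H := by rw [key]; trivial
  rw [Subgroup.mem_subgroupOf] at this
  have h2 := (Subgroup.mem_inf.1 this).2
  rw [Subgroup.mem_centralizer_iff] at h2
  exact (h2 a ha).symm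

end Cfsg.Agent.S1442
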