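import Cfsg.Statements.S1443
import Mathlib
import Cfsg.Agent.Lib.Helper27.CoprimeAut2
import Cfsg.Agent.H9.PAct
-- import your own Cfsg.Agent.* helpers here

set_option autoImplicit false
open Cfsg

namespace Cfsg.Agent.S1443

/-- Let G be a finite group, p an odd prime, H a p-subgroup, E an elementary abelian subgroup of H, and A a subgroup of order coprime to p normalizing H. If A centralizes every element of order p in H ∩ C_G(E), then A centralizes H. -/
theorem result {G : Type*} [Group G] [Finite G] (p : ℕ) [Fact p.Prime] (hp : p ≠ 2) (H E A : Subgroup G) (hH : IsPGroup p H) (hE : E ≤ H) (hEe : Cfsg.IsElementaryAbelian p E)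
    (hA : (A ≤ Subgroup.normalizer (H : Set G))) (hcop : (Nat.card A).Coprime p)
    (hfix : ∀ x ∈ (H ⊓ Subgroup.centralizer (E : Set G)), orderOf x = p → A ≤ Subgroup.centralizer ({x} : Set G)) :
    A ≤ Subgroup.centralizer (H : Set G) := by
  have hpp : p.Prime := Fact.out
  intro a ha
  have haN := hA ha
  have hord : (orderOf a).Coprime p := Nat.Coprime.coprime_dvd_left (Subgroup.orderOf_dvd_natCard A ha) hcop
  -- small elements of C are fixed
  have hsmall : ∀ x ∈ H ⊓ Subgroup.centralizer (E : Set G), x ^ p = 1 → a * x = x * a := by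
    intro x hx hxp
    by_cases h1 : x = 1
    · rw [h1]; simp
    · have := hfix x hx (orderOf_eq_prime hxp h1) ha
      rw [Subgroup.mem_centralizer_singleton_iff] at this
      exact this
  have hEC : ∀ e ∈ E, e ∈ H ⊓ Subgroup.centralizer (E : Set G) := by
    intro e he
    refine Subgroup.mem_inf.2 ⟨hE he, ?_⟩
    rw [Subgroup.mem_centralizer_iff]
    intro f hf
    have := hEe.1.is_comm.comm ⟨f, hf⟩ ⟨e, he⟩
    exact congrArg Subtype.val this
  have haE : ∀ e ∈ E, a * e = e * a := fun e he => hsmall e (hEC e he) (hEe.2 e he)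
  have hinvH : ∀ x ∈ H, a * x * a⁻¹ ∈ H := by
    intro x hx
    exact (Subgroup.mem_normalizer_iff.1 haN x).1 hx
  have hfixC : ∀ x ∈ H ⊓ Subgroup.centralizer (E : Set G), (MulAut.conj a) x = x := by
    apply Cfsg.Agent.Lib.Helper27.fixes_of_fixes_small (p := p) (k := orderOf a) (e := p) hord
      (Or.inl ⟨hp, rfl⟩) (MulAut.conj a) (H ⊓ Subgroup.centralizer (E : Set G)) (hH.to_le inf_le_left)
    · intro x hx
      rw [MulAut.conj_apply]
      refine Subgroup.mem_inf.2 ⟨hinvH x hx.1, ?_⟩
      rw [Subgroup.mem_centralizer_iff]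
      intro e he
      have h1 := (Subgroup.mem_centralizer_iff.1 hx.2) e he
      have h2 := haE e he
      have h3 : a⁻¹ * e = e * a⁻¹ := by
        calc a⁻¹ * e = a⁻¹ * (e * a) * a⁻¹ := by group
          _ = a⁻¹ * (a * e) * a⁻¹ := by rw [h2]
          _ = e * a⁻¹ := by group
      calc e * (a * x * a⁻¹) = (e * a) * x * a⁻¹ := by group
        _ = (a * e) * x * a⁻¹ := by rw [h2]
        _ = a * (e * x) * a⁻¹ := by group
        _ = a * (x * e) * a⁻¹ := by rw [h1]
        _ = a * x * (e * a⁻¹) := by group
        _ = a * x * (a⁻¹ * e) := by rw [h3]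
        _ = a * x * a⁻¹ * e := by group
    · intro x _
      rw [← map_pow, pow_orderOf_eq_one]; simp
    · intro x hx hxp
      rw [MulAut.conj_apply, hsmall x hx hxp]; group
  have key := Cfsg.H9.thompson_AxB (p := p) (R := H) (P := E) hH (hH.to_le hE)
    (hE.trans Subgroup.le_normalizer) (x := a) haN hord (fun g hg => (haE g hg).symm) (by
      intro r hr hcomm
      have hrC : r ∈ H ⊓ Subgroup.centralizer (E : Set G) := by
        refine Subgroup.mem_inf.2 ⟨hr, ?_⟩
        rw [Subgroup.mem_centralizer_iff]
        exact hcomm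
      have := hfixC r hrC
      rw [MulAut.conj_apply] at this
      calc a * r = a * r * a⁻¹ * a := by group
        _ = r * a := by rw [this])
  rw [Subgroup.mem_centralizer_iff]
  intro h hh
  exact (key h hh).symm

end Cfsg.Agent.S1443
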