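import Cfsg.Statements.S1457
import Cfsg.Agent.Lib.Helper13.OddQuad2

set_option autoImplicit false
open Cfsg

namespace Cfsg.Agent.S1457

/-- Let G be a solvable group of odd order, p a prime, S a Sylow p-subgroup of G and A an abelian subgroup of S normal in S. Then A ≤ O_{p',p}(G). -/
theorem result {G : Type*} [Group G] [Finite G] [Group.IsSolvable G] (hodd : Odd (Nat.card G)) (p : ℕ) [Fact p.Prime] (S : Sylow p G) (A : Subgroup G) (hA : A ≤ (S : Subgroup G)) (hAc : IsMulCommutative A)
    (hAn : (S : Subgroup G) ≤ Subgroup.normalizer (A : Set G)) :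
    A ≤ Cfsg.pPrimePCore p G := by
  by_cases hp : p = 2
  · subst hp
    have h1 : Nat.card (S : Subgroup G) = 1 := by
      obtain ⟨n, hn⟩ := IsPGroup.iff_card.mp S.2
      have h2 : Nat.card (S : Subgroup G) ∣ Nat.card G := Subgroup.card_subgroup_dvd_card _
      rcases Nat.eq_zero_or_pos n with rfl | hpos
      · simpa using hn
      · exfalso
        have h3 : 2 ∣ Nat.card G := (dvd_pow_self 2 hpos.ne').trans (hn ▸ h2)
        exact (Nat.not_even_iff_odd.mpr hodd) (even_iff_two_dvd.mpr h3)
    have h2 : (S : Subgroup G) = ⊥ := Subgroup.card_eq_one.mp h1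
    rw [h2] at hA
    exact hA.trans bot_le
  · have hoddX : Odd (Nat.card (G ⧸ Cfsg.pPrimeCore p G)) := by
      have h1 : Nat.card (G ⧸ Cfsg.pPrimeCore p G) ∣ Nat.card G :=
        Subgroup.card_quotient_dvd_card _
      exact Odd.of_dvd_nat hodd h1
    have hsolv : Group.IsSolvable (G ⧸ Cfsg.pPrimeCore p G) :=
      Group.isSolvable_of_surjective (QuotientGroup.mk'_surjective (Cfsg.pPrimeCore p G))
    refine Cfsg.Agent.Lib.Helper13.abelian_le_pPrimePCore
      (Cfsg.Agent.Lib.Helper13.constrained_of_solvable (Cfsg.H9.pPrimeCore_quotient p))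
      (Cfsg.Agent.H17.isPStableOn_of_normalizerPStable
        (Cfsg.Agent.Lib.Helper13.isNormalizerPStable_of_odd hoddX p hp) _ (Cfsg.H1.pCore_isPGroup p)) S ?_ hAn
    intro a ha b hb
    have := hAc.is_comm.comm ⟨a, ha⟩ ⟨b, hb⟩
    exact congrArg Subtype.val this

end Cfsg.Agent.S1457
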