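import Cfsg.Statements.S1459
import Mathlib
import Cfsg.Agent.Lib.Helper2.HallDer

set_option autoImplicit false
open Cfsg

namespace Cfsg.Agent.S1459

/-- Let G be a finite solvable group. (a) If H is a normal subgroup of order coprime to its index, K is a complement to H, and H ≤ G', then H = [H, K] and H ∩ C_G(K) ≤ [H, H]. (b) If G' is nilpotent and has prime index in G, then the order of G' is coprime to its index and G' = [G, K] (the subgroup generated by commutators of elements of G with elements of K) for every complement K of G'. -/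
theorem result {G : Type*} [Group G] [Finite G] [Group.IsSolvable G] :
    (∀ (H K : Subgroup G), H.Normal → (Nat.card H).Coprime H.index → Subgroup.IsComplement' H K → H ≤ commutator G →
        H = ⁅H, K⁆ ∧ H ⊓ Subgroup.centralizer (K : Set G) ≤ ⁅H, H⁆) ∧
      (Group.IsNilpotent ↥(commutator G) → (commutator G).index.Prime →
        (Nat.card ↥(commutator G)).Coprime (commutator G).index ∧
        ∀ K : Subgroup G, Subgroup.IsComplement' (commutator G) K → commutator G = ⁅(⊤ : Subgroup G), K⁆) := by
  have hA : ∀ (H K : Subgroup G), H.Normal → (Nat.card H).Coprime H.index →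
      Subgroup.IsComplement' H K → H ≤ commutator G →
        H = ⁅H, K⁆ ∧ H ⊓ Subgroup.centralizer (K : Set G) ≤ ⁅H, H⁆ := by
    intro H K hH hcop hc hle
    haveI := hH
    have hK : H.index = Nat.card K := hc.symm.index_eq_card
    rw [hK] at hcop
    have h1 : H = ⁅H, K⁆ := Cfsg.Agent.Lib.Helper2.HallDer.eq_comm H K hcop hc.sup_eq_top hle
    refine ⟨h1, ?_⟩
    intro c hcm
    haveI : (⁅H, H⁆ : Subgroup G).Normal := inferInstance
    refine Cfsg.Agent.H20.mem_of_fixed_mod_of_mem_commutator K H ⁅H, H⁆ ?_ ?_ ?_ le_rfl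
      hcop.symm c ?_ ?_
    · rw [Subgroup.normalizer_eq_top_iff.mpr inferInstance]; exact le_top
    · rw [Subgroup.normalizer_eq_top_iff.mpr inferInstance]; exact le_top
    · rw [Subgroup.normalizer_eq_top_iff.mpr hH]; exact le_top
    · intro a ha
      have h2 := Subgroup.mem_centralizer_iff.mp hcm.2 a ha
      have h3 : a * c * a⁻¹ * c⁻¹ = 1 := by rw [h2]; group
      rw [h3]
      exact Subgroup.one_mem _
    · exact Subgroup.mem_sup_left (h1 ▸ hcm.1)
  refine ⟨hA, fun hnil hq => ?_⟩
  have hcop := Cfsg.Agent.Lib.Helper2.HallDer.coprime_of_nilpotent_prime_index hnil hq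
  refine ⟨hcop, fun K hK => ?_⟩
  have h1 := (hA (commutator G) K inferInstance hcop hK le_rfl).1
  refine le_antisymm ?_ ?_
  · calc commutator G = ⁅commutator G, K⁆ := h1
      _ ≤ ⁅(⊤ : Subgroup G), K⁆ := Subgroup.commutator_mono le_top le_rfl
  · rw [commutator_def]
    exact Subgroup.commutator_mono le_rfl le_top

end Cfsg.Agent.S1459
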