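import Cfsg.Statements.S1464
import Cfsg.Agent.Lib.Helper13.OddQuad

set_option autoImplicit false
open Cfsg

namespace Cfsg.Agent.S1464

/-- Let p be an odd prime and G a solvable group of odd order, P a p-subgroup with O_{p'}(G)P normal in G, and A a p-subgroup of N_G(P) with [[P, A], A] = 1. Then the image of A in the quotient N_G(P)/C_G(P) is contained in the p-core of that quotient. -/
theorem result {G : Type*} [Group G] [Finite G] [Group.IsSolvable G] (hodd : Odd (Nat.card G)) (p : ℕ) [Fact p.Prime] (hp : p ≠ 2) (P A : Subgroup G) (hP : IsPGroup p P) (hPn : (Cfsg.pPrimeCore p G ⊔ P).Normal)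
    (hA : IsPGroup p A) (hAN : A ≤ Subgroup.normalizer (P : Set G)) (hquad : ⁅⁅P, A⁆, A⁆ = ⊥) :
    (A.subgroupOf (Subgroup.normalizer (P : Set G))).map
        (QuotientGroup.mk' ((Subgroup.centralizer (P : Set G)).subgroupOf (Subgroup.normalizer (P : Set G))))
      ≤ Cfsg.pCore p _ := by
  rintro _ ⟨a, ha, rfl⟩
  by_contra hnot
  have haA : (a : G) ∈ A := ha
  have hq : ⁅⁅P, Subgroup.zpowers (a : G)⁆, Subgroup.zpowers (a : G)⁆ = ⊥ := by
    have hz : Subgroup.zpowers (a : G) ≤ A := Subgroup.zpowers_le.mpr haA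
    rw [eq_bot_iff, ← hquad]
    exact Subgroup.commutator_mono (Subgroup.commutator_mono le_rfl hz) hz
  exact Cfsg.Agent.Lib.Helper13.not_cq_of_odd hodd p hp
    (Cfsg.Agent.H12.Dk.cq_of_quad hp P hP (a : G) a.2 (Cfsg.Agent.H12.Dk.quadOn_of_comm hq) hnot)

end Cfsg.Agent.S1464
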