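import Cfsg.Statements.S1466
import Cfsg.Agent.Lib.Helper13.Puig2

set_option autoImplicit false
open Cfsg

namespace Cfsg.Agent.S1466

/-- Let p be a prime and R a nontrivial finite p-group. Then for every i > 0, Z(R) ≤ C_R(L_i(R)) ≤ L_i(R); likewise Z(R) ≤ C_R(L_*(R)) ≤ L_*(R) and Z(R) ≤ C_R(L(R)) ≤ L(R); and L(R) ≠ 1, L_*(R) ≠ 1. -/
theorem result {R : Type*} [Group R] [Finite R] (p : ℕ) [Fact p.Prime] (hR : IsPGroup p R) [Nontrivial R] :
    (∀ i : ℕ, 0 < i → Subgroup.center R ≤ Subgroup.centralizer ((Cfsg.puigSeq R i : Subgroup R) : Set R) ∧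
        Subgroup.centralizer ((Cfsg.puigSeq R i : Subgroup R) : Set R) ≤ Cfsg.puigSeq R i) ∧
      (Subgroup.center R ≤ Subgroup.centralizer ((Cfsg.puigLower R : Subgroup R) : Set R) ∧ Subgroup.centralizer ((Cfsg.puigLower R : Subgroup R) : Set R) ≤ Cfsg.puigLower R) ∧
      (Subgroup.center R ≤ Subgroup.centralizer ((Cfsg.puigSubgroup R : Subgroup R) : Set R) ∧ Subgroup.centralizer ((Cfsg.puigSubgroup R : Subgroup R) : Set R) ≤ Cfsg.puigSubgroup R) ∧
      Cfsg.puigSubgroup R ≠ ⊥ ∧ Cfsg.puigLower R ≠ ⊥ := by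
  haveI : Group.IsNilpotent R := hR.isNilpotent
  obtain ⟨-, -, -, ⟨k, hk⟩, -, -, -⟩ := Cfsg.Agent.S1467.result (G := R)
  have hlow : Subgroup.centralizer ((Cfsg.puigLower R : Subgroup R) : Set R) ≤ Cfsg.puigLower R := by
    rw [← (hk (k + 1) (Nat.le_succ k)).1]
    exact Cfsg.Agent.Lib.Helper13.centralizer_puigSeq_le (2 * k + 1)
  have hup : Subgroup.centralizer ((Cfsg.puigSubgroup R : Subgroup R) : Set R) ≤ Cfsg.puigSubgroup R := by
    rw [← (hk k le_rfl).2]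
    exact Cfsg.Agent.Lib.Helper13.centralizer_puigSeq_le (2 * k)
  have hne : ∀ L : Subgroup R, Subgroup.centralizer (L : Set R) ≤ L → L ≠ ⊥ := by
    intro L hL h
    rw [h] at hL
    have h1 : (⊤ : Subgroup R) ≤ ⊥ := by
      refine le_trans ?_ hL
      intro x _
      rw [Subgroup.mem_centralizer_iff]
      intro y hy
      rw [SetLike.mem_coe, Subgroup.mem_bot] at hy
      rw [hy]; simp
    exact top_ne_bot (le_bot_iff.mp h1)
  refine ⟨?_, ⟨Subgroup.center_le_centralizer _, hlow⟩, ⟨Subgroup.center_le_centralizer _, hup⟩, hne _ hup, hne _ hlow⟩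
  intro i hi
  obtain ⟨j, rfl⟩ : ∃ j, i = j + 1 := ⟨i - 1, by omega⟩
  exact ⟨Subgroup.center_le_centralizer _, Cfsg.Agent.Lib.Helper13.centralizer_puigSeq_le j⟩

end Cfsg.Agent.S1466
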