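import Cfsg.Statements.S1468
import Cfsg.Agent.Lib.Helper13.Puig3

set_option autoImplicit false
open Cfsg

namespace Cfsg.Agent.S1468

/-- Let p be an odd prime, G a solvable group of odd order with O_{p'}(G) = 1, S a Sylow p-subgroup and T = O_p(G). Then, viewing the Puig subgroups of S and of T inside G, L_*(S) ≤ L_*(T) ≤ L(T) ≤ L(S). -/
theorem result {G : Type*} [Group G] [Finite G] [Group.IsSolvable G] (hodd : Odd (Nat.card G)) (p : ℕ) [Fact p.Prime] (hp : p ≠ 2) (hO : Cfsg.pPrimeCore p G = ⊥) (S : Sylow p G) :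
    (Cfsg.puigLower ↥(S : Subgroup G)).map (S : Subgroup G).subtype ≤ (Cfsg.puigLower ↥(Cfsg.pCore p G)).map (Cfsg.pCore p G).subtype ∧
      (Cfsg.puigLower ↥(Cfsg.pCore p G)).map (Cfsg.pCore p G).subtype ≤ (Cfsg.puigSubgroup ↥(Cfsg.pCore p G)).map (Cfsg.pCore p G).subtype ∧
      (Cfsg.puigSubgroup ↥(Cfsg.pCore p G)).map (Cfsg.pCore p G).subtype ≤ (Cfsg.puigSubgroup ↥(S : Subgroup G)).map (S : Subgroup G).subtype := by
  obtain ⟨-, -, -, ⟨k1, hk1⟩, -, -, -⟩ := Cfsg.Agent.S1467.result (G := ↥(S : Subgroup G))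
  obtain ⟨-, -, -, ⟨k2, hk2⟩, hle, -, -⟩ := Cfsg.Agent.S1467.result (G := ↥(Cfsg.pCore p G))
  have h := Cfsg.Agent.Lib.Helper13.pSeqIn_compare hodd p hp hO S (max k1 k2)
  refine ⟨?_, Subgroup.map_mono hle, ?_⟩
  · rw [← (hk1 _ (le_max_left k1 k2)).1, ← (hk2 _ (le_max_right k1 k2)).1,
      Cfsg.Agent.Lib.Helper13.puigSeq_map_subtype, Cfsg.Agent.Lib.Helper13.puigSeq_map_subtype]
    exact h.1
  · rw [← (hk1 _ (le_max_left k1 k2)).2, ← (hk2 _ (le_max_right k1 k2)).2,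
      Cfsg.Agent.Lib.Helper13.puigSeq_map_subtype, Cfsg.Agent.Lib.Helper13.puigSeq_map_subtype]
    exact h.2

end Cfsg.Agent.S1468
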