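import Mathlib
import Cfsg.Statements.S1470

set_option autoImplicit false
open Cfsg

namespace Cfsg.Agent.S1470

open Polynomial in
theorem norm_poly (K F : Type*) [Field K] [Field F] [Algebra K F] [FiniteDimensional K F] (b : F) :
    ∃ P : K[X], P.Monic ∧ P.natDegree = Module.finrank K F ∧ ∀ t : K, P.eval t = Algebra.norm K (algebraMap K F t - b) := by
  refine ⟨(Algebra.lmul K F b).charpoly, LinearMap.charpoly_monic _, LinearMap.charpoly_natDegree _, ?_⟩
  intro t
  rw [LinearMap.eval_charpoly, Algebra.norm_apply]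
  congr 1
  ext x
  simp [sub_mul, Algebra.smul_def]

theorem result (p q : ℕ) [Fact p.Prime] [Fact q.Prime] (hp : p ≠ 2) (hq : q ≠ 2) (hA : Nat.Coprime ((p ^ q - 1) / (p - 1)) (p - 1))
    (hinv : ∀ a ∈ {a : GaloisField p q | Algebra.norm (ZMod p) a = 1 ∧ Algebra.norm (ZMod p) (2 - a) = 1}, a⁻¹ ∈ {a : GaloisField p q | Algebra.norm (ZMod p) a = 1 ∧ Algebra.norm (ZMod p) (2 - a) = 1})
    (h2 : 2 ≤ Set.ncard {a : GaloisField p q | Algebra.norm (ZMod p) a = 1 ∧ Algebra.norm (ZMod p) (2 - a) = 1}) :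
    p ≤ q := by
  have hq0 : q ≠ 0 := (Fact.out : q.Prime).ne_zero
  set E : Set (GaloisField p q) := {a : GaloisField p q | Algebra.norm (ZMod p) a = 1 ∧ Algebra.norm (ZMod p) (2 - a) = 1} with hE
  obtain ⟨a, haE, ha1⟩ := Set.exists_ne_of_one_lt_ncard (show 1 < E.ncard from h2) 1
  have hN0 : ∀ x : GaloisField p q, Algebra.norm (ZMod p) x = 1 → x ≠ 0 := by
    intro x hx h0
    rw [h0, Algebra.norm_zero] at hx
    exact zero_ne_one hx
  set b : GaloisField p q := (a - 1)⁻¹ with hb
  -- the orbit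
  have horb : ∀ k : ℕ, ∃ c ∈ E, c ≠ 1 ∧ (c - 1)⁻¹ = b - k := by
    intro k
    induction k with
    | zero => exact ⟨a, haE, ha1, by simp [hb]⟩
    | succ k ih =>
      obtain ⟨c, hcE, hc1, hc⟩ := ih
      have h2c : (2 - c) ∈ E := ⟨hcE.2, by rw [sub_sub_cancel]; exact hcE.1⟩
      have h2c0 : 2 - c ≠ 0 := hN0 _ hcE.2
      have hc10 : c - 1 ≠ 0 := sub_ne_zero.2 hc1
      refine ⟨(2 - c)⁻¹, hinv _ h2c, ?_, ?_⟩
      · intro h
        rw [inv_eq_one] at h
        apply hc1
        linear_combination -h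
      · have e1 : (2 - c)⁻¹ - 1 = (c - 1) / (2 - c) := by
          field_simp
          ring
        rw [e1, inv_div]
        push_cast
        rw [← sub_sub, ← hc]
        field_simp
        ring
  have hnorm : ∀ k : ℕ, Algebra.norm (ZMod p) (b - k + 1) = Algebra.norm (ZMod p) (b - k) := by
    intro k
    obtain ⟨c, hcE, hc1, hc⟩ := horb k
    have hc10 : c - 1 ≠ 0 := sub_ne_zero.2 hc1
    have e : b - k + 1 = c * (b - k) := by
      rw [← hc]
      field_simp
      ring
    rw [e, map_mul, hcE.1, one_mul]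
  have hconst : ∀ k : ℕ, Algebra.norm (ZMod p) (b - k) = Algebra.norm (ZMod p) b := by
    intro k
    induction k with
    | zero => simp
    | succ k ih =>
      rw [← ih, ← hnorm (k + 1)]
      congr 1
      push_cast
      ring
  obtain ⟨P, hPm, hPd, hPe⟩ := norm_poly (ZMod p) (GaloisField p q) b
  rw [GaloisField.finrank p hq0] at hPd
  have hPconst : ∀ t : ZMod p, P.eval t = P.eval 0 := by
    intro t
    obtain ⟨k, rfl⟩ : ∃ k : ℕ, (k : ZMod p) = t := ⟨t.val, ZMod.natCast_zmod_val t⟩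
    rw [hPe, hPe]
    have e1 : (algebraMap (ZMod p) (GaloisField p q)) (k : ZMod p) - b = (-1) * (b - k) := by
      rw [map_natCast]; ring
    have e2 : (algebraMap (ZMod p) (GaloisField p q)) 0 - b = (-1) * b := by
      rw [map_zero]; ring
    rw [e1, e2, map_mul, map_mul, hconst]
  set R := P - Polynomial.C (P.eval 0) with hR
  have hqpos : 0 < q := Nat.pos_of_ne_zero hq0
  have hRd : R.natDegree = q := by
    rw [hR, Polynomial.natDegree_sub_C, hPd]
  have hR0 : R ≠ 0 := by
    intro h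
    rw [h, Polynomial.natDegree_zero] at hRd
    omega
  have hroots : (Finset.univ : Finset (ZMod p)).val ⊆ R.roots := by
    intro t _
    rw [Polynomial.mem_roots hR0, Polynomial.IsRoot.def, hR, Polynomial.eval_sub, Polynomial.eval_C, hPconst t, sub_self]
  have := Polynomial.card_le_degree_of_subset_roots hroots
  rw [hRd, Finset.card_univ, ZMod.card] at this
  exact this

end Cfsg.Agent.S1470
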