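import Cfsg.Statements.S1475
import Mathlib
import Cfsg.Agent.Lib.Helper10.FpfAction
import Cfsg.Agent.Lib.Helper10.Pow
import Cfsg.Agent.H1.HallPrep
import Cfsg.Agent.S0003
-- import your own Cfsg.Agent.* helpers here

set_option autoImplicit false
open Cfsg

namespace Cfsg.Agent.S1475

theorem eppo_commute {G : Type*} [Group G] [Finite G] (h : ∀ g : G, IsPrimePow (orderOf g) ∨ g = 1)
    (a b : G) (hab : Commute a b) (hco : (orderOf a).Coprime (orderOf b)) (ha : a ≠ 1) : b = 1 := by
  by_contra hb
  have ho := hab.orderOf_mul_eq_mul_orderOf_of_coprime hco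
  have ha' : orderOf a ≠ 1 := by rwa [Ne, orderOf_eq_one_iff]
  have hb' : orderOf b ≠ 1 := by rwa [Ne, orderOf_eq_one_iff]
  have hapos : 0 < orderOf a := orderOf_pos a
  have hbpos : 0 < orderOf b := orderOf_pos b
  rcases h (a * b) with h1 | h1
  · rw [ho] at h1
    rcases (hco.isPrimePow_dvd_mul h1).1 dvd_rfl with h2 | h2
    · have := Nat.le_of_dvd hapos h2
      have h3 : orderOf b ≤ 1 := by
        by_contra h4
        push Not at h4
        nlinarith
      omega
    · have := Nat.le_of_dvd hbpos h2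
      have h3 : orderOf a ≤ 1 := by
        by_contra h4
        push Not at h4
        nlinarith
      omega
  · rw [h1, orderOf_one] at ho
    have : orderOf a ∣ 1 := ⟨_, ho⟩
    exact ha' (Nat.dvd_one.1 this)

/-- Let G be a finite solvable group such that the order of every element is a prime power (1 included). Then at most two distinct primes divide the order of G. -/
theorem result {G : Type*} [Group G] [Finite G] [Group.IsSolvable G] (h : ∀ g : G, IsPrimePow (orderOf g) ∨ g = 1) :
    (Nat.card G).primeFactors.card ≤ 2 := by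
  classical
  by_contra hcard
  push Not at hcard
  have hnpos : Nat.card G ≠ 0 := Nat.card_pos.ne'
  have hnt : Nontrivial G := by
    by_contra hnt
    rw [not_nontrivial_iff_subsingleton] at hnt
    have : Nat.card G = 1 := Nat.card_eq_one_iff_unique.2 ⟨hnt, ⟨1⟩⟩
    rw [this] at hcard
    simp at hcard
  obtain ⟨p, N, hp, hNn, -, hNbot, hNab, hNp⟩ := Cfsg.H1.exists_normal_elemAb_le (⊤ : Subgroup G)
    inferInstance top_ne_bot
  -- Hall p'-subgroup
  obtain ⟨K, hK⟩ := Cfsg.Agent.S0003.result (G := G) (ordCompl[p] (Nat.card G)) (ordProj[p] (Nat.card G))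
    (by rw [mul_comm]; exact (Nat.ordProj_mul_ordCompl_eq_self _ _).symm)
    ((Nat.coprime_ordCompl hp hnpos).pow_left _).symm
  have hKp : (Nat.card K).Coprime p := by
    rw [hK]; exact (Nat.coprime_ordCompl hp hnpos).symm
  -- two primes different from p
  have h2 : 1 < ((Nat.card G).primeFactors.erase p).card := by
    have := Finset.pred_card_le_card_erase (s := (Nat.card G).primeFactors) (a := p)
    omega
  obtain ⟨r, hr, s, hs, hrs⟩ := Finset.one_lt_card.1 h2
  rw [Finset.mem_erase, Nat.mem_primeFactors] at hr hs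
  have hdvdK : ∀ q : ℕ, q.Prime → q ≠ p → q ∣ Nat.card G → q ∣ Nat.card K := by
    intro q hq hqp hqG
    rw [hK]
    have e := Nat.ordProj_mul_ordCompl_eq_self (Nat.card G) p
    rw [← e] at hqG
    rcases (Nat.Prime.dvd_mul hq).1 hqG with h3 | h3
    · exact absurd ((Nat.prime_dvd_prime_iff_eq hq hp).1 (hq.dvd_of_dvd_pow h3)) hqp
    · exact h3
  have hrK := hdvdK r hr.2.1 hr.1 hr.2.2.1
  have hsK := hdvdK s hs.2.1 hs.1 hs.2.2.1
  have hKnt : Nontrivial K := by
    by_contra hnt
    rw [not_nontrivial_iff_subsingleton] at hnt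
    have : Nat.card K = 1 := Nat.card_eq_one_iff_unique.2 ⟨hnt, ⟨1⟩⟩
    rw [this] at hrK
    exact hr.2.1.one_lt.ne' (Nat.dvd_one.1 hrK)
  obtain ⟨t, M, ht, hMn, hMbot, hMt⟩ := Cfsg.H1.exists_normal_pgroup (G := K)
  haveI : Fact t.Prime := ⟨ht⟩
  obtain ⟨k, hk⟩ := IsPGroup.iff_card.1 hMt
  -- a prime u ≠ t dividing |K|
  obtain ⟨u, hu, hut, huK⟩ : ∃ u : ℕ, u.Prime ∧ u ≠ t ∧ u ∣ Nat.card K := by
    by_cases hrt : r = t
    · exact ⟨s, hs.2.1, fun e => hrs (hrt.trans e.symm), hsK⟩
    · exact ⟨r, hr.2.1, hrt, hrK⟩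
  haveI : Fact u.Prime := ⟨hu⟩
  obtain ⟨y, hy⟩ := exists_prime_orderOf_dvd_card' (G := K) u huK
  have hup : u ≠ p := by
    rintro rfl
    exact hu.one_lt.ne' (Nat.dvd_one.1 (hKp ▸ Nat.dvd_gcd huK dvd_rfl))
  have htK : t ∣ Nat.card K := by
    have h1 : Nat.card M ∣ Nat.card K := Subgroup.card_subgroup_dvd_card M
    have hk0 : k ≠ 0 := by
      rintro rfl
      rw [pow_zero, Subgroup.card_eq_one] at hk
      exact hMbot hk
    exact (dvd_pow_self t hk0).trans (hk ▸ h1)
  have htp : t ≠ p := by
    rintro rfl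
    exact ht.one_lt.ne' (Nat.dvd_one.1 (hKp ▸ Nat.dvd_gcd htK dvd_rfl))
  obtain ⟨m₀, hm₀1⟩ := Subgroup.ne_bot_iff_exists_ne_one.1 hMbot
  have hcommN : ∀ a b : N, a * b = b * a := by
    rw [Subgroup.commutator_eq_bot_iff_le_centralizer] at hNab
    intro a b
    exact Subtype.ext (hNab b.2 a a.2)
  letI : CommGroup N := { (inferInstance : Group N) with mul_comm := hcommN }
  -- orders
  have hordN : ∀ v : N, orderOf (v : G) ∣ p := fun v => orderOf_dvd_of_pow_eq_one (hNp v v.2)
  have hordM : ∀ x : K, x ∈ M → orderOf ((x : K) : G) ∣ t ^ k := by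
    intro x hx
    rw [Subgroup.orderOf_coe, ← hk]
    have := orderOf_dvd_natCard (⟨x, hx⟩ : M)
    rwa [← Subgroup.orderOf_coe] at this
  have hordy : orderOf ((y : K) : G) = u := by rw [Subgroup.orderOf_coe, hy]
  have cop_tp : (t ^ k).Coprime p := ((Nat.coprime_primes ht hp).2 htp).pow_left k
  have cop_up : u.Coprime p := (Nat.coprime_primes hu hp).2 hup
  have cop_ut : u.Coprime (t ^ k) := ((Nat.coprime_primes hu ht).2 hut).pow_right k
  have key : ∀ v : N, v ^ Nat.card (M.map K.subtype) = 1 := by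
    intro v
    refine Cfsg.Agent.Lib.Helper10.pow_card_eq_one_of_fpf (X := G) (V := N) MulAut.conjNormal
      (M.map K.subtype) (y : G) u hu.pos ?_ ?_ ((m₀ : K) : G) ?_ ?_ ?_ ?_ v
    · rw [← hordy]; exact pow_orderOf_eq_one _
    · rintro x ⟨x', hx', rfl⟩
      exact ⟨y * x' * y⁻¹, hMn.conj_mem x' hx' y, by simp⟩
    · exact ⟨m₀, m₀.2, rfl⟩
    · intro w hw
      have hw' : ((m₀ : K) : G) * w * ((m₀ : K) : G)⁻¹ = w := by
        have := congrArg Subtype.val hw
        simpa using this
      have hc : Commute ((m₀ : K) : G) (w : G) := by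
        unfold Commute SemiconjBy
        calc ((m₀ : K) : G) * w = ((m₀ : K) : G) * w * ((m₀ : K) : G)⁻¹ * ((m₀ : K) : G) := by group
          _ = w * ((m₀ : K) : G) := by rw [hw']
      have := eppo_commute h _ _ hc
        (Nat.Coprime.coprime_dvd_left (hordM m₀ m₀.2) (Nat.Coprime.coprime_dvd_right (hordN w) cop_tp))
        (by
          intro e
          apply hm₀1
          exact Subtype.ext (Subtype.ext e))
      exact Subtype.ext this
    · intro w hw
      have hw' : ((y : K) : G) * w * ((y : K) : G)⁻¹ = w := by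
        have := congrArg Subtype.val hw
        simpa using this
      have hc : Commute ((y : K) : G) (w : G) := by
        unfold Commute SemiconjBy
        calc ((y : K) : G) * w = ((y : K) : G) * w * ((y : K) : G)⁻¹ * ((y : K) : G) := by group
          _ = w * ((y : K) : G) := by rw [hw']
      have := eppo_commute h _ _ hc
        (by rw [hordy]; exact Nat.Coprime.coprime_dvd_right (hordN w) cop_up)
        (by
          intro e
          rw [e, orderOf_one] at hordy
          exact hu.one_lt.ne hordy)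
      exact Subtype.ext this
    · rintro i hi hiu x ⟨x', hx', rfl⟩ hx
      have hc : Commute (((y : K) : G) ^ i) ((x' : K) : G) := by
        unfold Commute SemiconjBy
        calc ((y : K) : G) ^ i * x' = ((y : K) : G) ^ i * x' * (((y : K) : G) ^ i)⁻¹ * ((y : K) : G) ^ i := by group
          _ = x' * ((y : K) : G) ^ i := by
            have : ((y : K) : G) ^ i * (K.subtype x') * (((y : K) : G) ^ i)⁻¹ = K.subtype x' := hx
            simp only [Subgroup.subtype_apply] at this
            rw [this]
      refine eppo_commute h _ _ hc ?_ ?_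
      · have hd : orderOf (((y : K) : G) ^ i) ∣ u := by
          rw [← hordy]; exact orderOf_pow_dvd i
        exact Nat.Coprime.coprime_dvd_left hd (Nat.Coprime.coprime_dvd_right (hordM x' hx') cop_ut)
      · intro e
        have := orderOf_dvd_of_pow_eq_one e
        rw [hordy] at this
        exact absurd (Nat.le_of_dvd hi this) (by omega)
  apply hNbot
  rw [Subgroup.eq_bot_iff_forall]
  intro v hv
  have h1 := key ⟨v, hv⟩
  have h2 : (⟨v, hv⟩ : N) ^ p = 1 := Subtype.ext (hNp v hv)
  have hcardM : Nat.card (M.map K.subtype) = t ^ k := by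
    rw [Subgroup.card_map_of_injective K.subtype_injective, hk]
  rw [hcardM] at h1
  have h3 := Cfsg.Agent.Lib.Helper10.eq_one_of_pow_coprime cop_tp h1 h2
  exact congrArg Subtype.val h3

end Cfsg.Agent.S1475
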