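import Cfsg.Statements.S1476
import Cfsg.Agent.Lib.Helper10.ThreeStep3
import Cfsg.Agent.Lib.Helper10.NilCQ
import Cfsg.Agent.S1474
-- import your own Cfsg.Agent.* helpers here

set_option autoImplicit false
open Cfsg Cfsg.Agent.Lib.Helper10
set_option linter.style.haveILetI false

namespace Cfsg.Agent.S1476

/-- Let G be a finite solvable group in which every non-identity element has nilpotent centralizer. Then either G is nilpotent; or G has a normal subgroup K with a Frobenius complement E (K E = G, K ∩ E = 1, E meets its conjugates by outside elements trivially) such that E is cyclic or E is generated by two elementwise-commuting subgroups, one cyclic of odd order and one isomorphic to a generalized quaternion group; or G is a three-step group with respect to some prime p. -/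
theorem result {G : Type*} [Group G] [Finite G] [Group.IsSolvable G] (hCN : Cfsg.IsCNGroup G) :
    Group.IsNilpotent G ∨
      (∃ K E : Subgroup G, K.Normal ∧ Subgroup.IsComplement' K E ∧ Cfsg.IsFrobeniusComplement E ∧
        (IsCyclic E ∨ ∃ C Q : Subgroup G, C ⊔ Q = E ∧ (∀ a ∈ C, ∀ b ∈ Q, a * b = b * a) ∧ IsCyclic C ∧ Odd (Nat.card C) ∧
          ∃ n : ℕ, Nonempty (↥Q ≃* QuaternionGroup (2 ^ n)))) ∨
      ∃ p : ℕ, p.Prime ∧ Cfsg.IsThreeStepGroup p G := by
  by_cases hnil : Group.IsNilpotent G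
  · exact Or.inl hnil
  right
  by_cases hex : ∃ (q : ℕ) (_ : Fact q.Prime) (P : Sylow q G),
      (P : Subgroup G) ≠ ⊥ ∧ (P : Subgroup G).Normal
  · left
    obtain ⟨q, hq, P, hP1, hPn⟩ := hex
    obtain ⟨hH1, -, ⟨E, hE, hEF, hfpf⟩, -⟩ := Cfsg.Agent.S1474.result hCN hnil q P hP1 hPn
    obtain ⟨hHnil, -⟩ := fittingHall_spec (G := G)
    have hEnil := cn_compl_nilpotent hCN (fittingHall G) E hHnil hH1 hE hfpf
    exact ⟨fittingHall G, E, inferInstance, hE, hEF,
      nilpotent_cq_struct_subgroup E hEnil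
        (fun s _ S => Cfsg.Agent.S0040.result (fittingHall G) E hE hH1 hfpf s S)⟩
  · right
    have hns : ∀ (q : ℕ) [Fact q.Prime] (P : Sylow q G), (P : Subgroup G).Normal →
        (P : Subgroup G) = ⊥ := by
      intro q hq P hPn
      by_contra hne
      exact hex ⟨q, hq, P, hne, hPn⟩
    haveI : Nontrivial G := by
      by_contra hne
      rw [not_nontrivial_iff_subsingleton] at hne
      exact hnil inferInstance
    obtain ⟨p, hp, hH1, hCH⟩ := exists_pCore_selfcent hCN hns
    haveI : Fact p.Prime := ⟨hp⟩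
    refine ⟨p, hp, hH1, ?_⟩
    haveI hHn : (pCore p G).Normal := Cfsg.Agent.Fus.pCore_normal' p G
    have hHp : IsPGroup p (pCore p G) := Cfsg.Agent.Fus.pCore_isPGroup
    have hB1 : ∀ e : G, e ≠ 1 → ¬ p ∣ orderOf e →
        pCore p G ⊓ Subgroup.centralizer ({e} : Set G) = ⊥ :=
      fun e he1 hpe => pprime_fpf hCN (pCore p G) hHp hH1 hCH he1 hpe
    obtain ⟨P, hHP⟩ := hHp.exists_le_sylow
    have hne : pCore p G ≠ (P : Subgroup G) := by
      intro h0
      have h1 := hns p P (h0 ▸ hHn)
      exact hH1 (h0.trans h1)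
    obtain ⟨w₀, hw₀P, hw₀⟩ := SetLike.exists_of_lt (lt_of_le_of_ne hHP hne)
    obtain ⟨k₀, hk₀⟩ := orderOf_of_mem_pGroup P.2 hw₀P
    have hHtop : pCore p G ≠ ⊤ := fun h0 => hw₀ (by rw [h0]; trivial)
    obtain ⟨a, har, hpa, hHN⟩ := exists_prime_compl (pCore p G) hHp hH1 hHtop
      (fun K hK hKp => Cfsg.Agent.Fus.le_pCore hK hKp) hB1
    exact three_step_core hCN (pCore p G) hHp hH1 hB1 har hpa hHN hw₀ hk₀

end Cfsg.Agent.S1476
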