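import Cfsg.Statements.S1477
import Cfsg.Agent.Lib.Helper10.CNGroup
-- import your own Cfsg.Agent.* helpers here

set_option autoImplicit false
open Cfsg Cfsg.Agent.Lib.Helper10 Subgroup
open scoped Pointwise

namespace Cfsg.Agent.S1477

/-- Let G be a finite group in which every non-identity element has nilpotent centralizer, and H a nilpotent subgroup not properly contained in any nilpotent subgroup. Then the order of H is coprime to its index; if the order of H is not a prime power then H ∩ gHg⁻¹ = 1 whenever gHg⁻¹ ≠ H; and if H ∩ gHg⁻¹ = 1 whenever gHg⁻¹ ≠ H, then C_G(x) ≤ H for every non-identity x ∈ H. -/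
theorem result {G : Type*} [Group G] [Finite G] (hCN : Cfsg.IsCNGroup G) (H : Subgroup G) (hH : Group.IsNilpotent H)
    (hmax : ∀ L : Subgroup G, Group.IsNilpotent L → H ≤ L → L = H) :
    (Nat.card H).Coprime H.index ∧
      (¬ IsPrimePow (Nat.card H) → Nat.card H ≠ 1 → ∀ g : G, H.map (MulAut.conj g).toMonoidHom ≠ H → H ⊓ H.map (MulAut.conj g).toMonoidHom = ⊥) ∧
      ((∀ g : G, H.map (MulAut.conj g).toMonoidHom ≠ H → H ⊓ H.map (MulAut.conj g).toMonoidHom = ⊥) → ∀ x ∈ H, x ≠ 1 → Subgroup.centralizer ({x} : Set G) ≤ H) := by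
  classical
  have h1 := hall_of_max_nilpotent hCN hH hmax
  have h2' : ¬ IsPrimePow (Nat.card H) → Nat.card H ≠ 1 → ∀ x ∈ H, x ≠ 1 →
      centralizer ({x} : Set G) ≤ H := by
    intro hpp hc1 x hx hx1
    obtain ⟨p, r, hp, hr, hpr, hpH, hrH⟩ := exists_two_primes hc1 hpp
    exact centralizer_le_of_two_primes hCN hH hmax hp hr hpr hpH hrH hx hx1
  refine ⟨h1, ?_, ?_⟩
  · intro hpp hc1 g hne
    by_contra hcon
    apply hne
    obtain ⟨⟨x, hx⟩, hx1'⟩ := Subgroup.ne_bot_iff_exists_ne_one.mp hcon
    have hx1 : x ≠ 1 := fun h => hx1' (Subtype.ext h)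
    have hg' : ∀ x' ∈ H.map (MulAut.conj g).toMonoidHom, x' ≠ 1 →
        centralizer ({x'} : Set G) ≤ H.map (MulAut.conj g).toMonoidHom := by
      rintro _ ⟨h', hh', rfl⟩ hne1 c hc
      have h'1 : h' ≠ 1 := by
        rintro rfl
        simp at hne1
      have h3 : g⁻¹ * c * g ∈ centralizer ({h'} : Set G) := by
        rw [mem_centralizer_singleton_iff] at hc ⊢
        simp only [MulEquiv.coe_toMonoidHom, MulAut.conj_apply] at hc
        calc g⁻¹ * c * g * h' = g⁻¹ * (c * (g * h' * g⁻¹)) * g := by group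
          _ = g⁻¹ * ((g * h' * g⁻¹) * c) * g := by rw [hc]
          _ = h' * (g⁻¹ * c * g) := by group
      refine ⟨g⁻¹ * c * g, h2' hpp hc1 h' hh' h'1 h3, ?_⟩
      simp only [MulEquiv.coe_toMonoidHom, MulAut.conj_apply]
      group
    obtain ⟨p, hp, hpH⟩ := Nat.exists_prime_and_dvd hc1
    obtain ⟨z, hzH, hz1, -, hzc⟩ := exists_central_pElement hH hp hpH
    have hz_in : z ∈ H.map (MulAut.conj g).toMonoidHom :=
      hg' x hx.2 hx1 (mem_centralizer_singleton_iff.2 (hzc x hx.1))
    have hHle : H ≤ H.map (MulAut.conj g).toMonoidHom := fun h hh =>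
      hg' z hz_in hz1 (mem_centralizer_singleton_iff.2 (hzc h hh).symm)
    exact (Subgroup.eq_of_le_of_card_ge hHle
      (by rw [Subgroup.card_map_of_injective (MulAut.conj g).injective])).symm
  · intro hTI x hx hx1
    by_cases hpp : IsPrimePow (Nat.card H)
    · obtain ⟨p, k, hp, hk, hcard⟩ := hpp
      have hp' : p.Prime := Nat.prime_iff.2 hp
      haveI := Fact.mk hp'
      have hHp : IsPGroup p H := IsPGroup.of_card hcard.symm
      have hpH : p ∣ Nat.card H := by
        rw [← hcard]
        exact dvd_pow_self p hk.ne'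
      obtain ⟨z, hzH, hz1, ⟨l, hl⟩, hzc⟩ := exists_central_pElement hH hp' hpH
      have hCz := centralizer_eq_of_central hCN hmax hz1 hzc
      have hL := hCN x hx1
      have hzL : z ∈ centralizer ({x} : Set G) := mem_centralizer_singleton_iff.2 (hzc x hx)
      have hLp : IsPGroup p (centralizer ({x} : Set G)) := by
        rw [IsPGroup.iff_orderOf]
        rintro ⟨c, hc⟩
        obtain ⟨a, b, hab, ⟨j, hj⟩, hpb⟩ := exists_pdecomp hp' c
        have h2 : c ^ b ∈ H := by
          rw [← hCz, mem_centralizer_singleton_iff]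
          refine commute_of_mem_nilpotent hL (zpow_mem hc b) hzL ?_
          rw [hl]
          exact (coprime_of_pow_of_not_dvd hp' hpb).symm
        obtain ⟨m, hm⟩ := (IsPGroup.iff_orderOf.1 hHp) ⟨c ^ b, h2⟩
        rw [Subgroup.orderOf_mk] at hm
        have hm0 : m = 0 := by
          by_contra h0
          apply hpb
          rw [hm]
          exact dvd_pow_self p h0
        rw [hm0, pow_zero, orderOf_eq_one_iff] at hm
        rw [hm, mul_one] at hab
        refine ⟨j, ?_⟩
        rw [Subgroup.orderOf_mk, hab, hj]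
      obtain ⟨S', hS'⟩ := hLp.exists_le_sylow
      have hni : ¬ p ∣ H.index := by
        intro hd
        have := Nat.dvd_gcd hpH hd
        rw [h1] at this
        exact hp'.one_lt.ne' (Nat.dvd_one.1 this)
      obtain ⟨g, hg⟩ := MulAction.exists_smul_eq G (hHp.toSylow hni) S'
      have hS'eq : (S' : Subgroup G) = H.map (MulAut.conj g).toMonoidHom := by
        rw [← hg, Sylow.coe_subgroup_smul, IsPGroup.toSylow_coe]
        rfl
      have hxS' : x ∈ (S' : Subgroup G) := hS' (mem_centralizer_singleton_iff.2 rfl)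
      have hfix : H.map (MulAut.conj g).toMonoidHom = H := by
        by_contra hne
        have h5 := hTI g hne
        have hxm : x ∈ H ⊓ H.map (MulAut.conj g).toMonoidHom := ⟨hx, hS'eq ▸ hxS'⟩
        rw [h5, mem_bot] at hxm
        exact hx1 hxm
      rw [← hfix, ← hS'eq]
      exact hS'
    · have hc1 : Nat.card H ≠ 1 := by
        intro h
        have h5 : H = ⊥ := Subgroup.eq_bot_of_card_eq H h
        rw [h5, mem_bot] at hx
        exact hx1 hx
      exact h2' hpp hc1 x hx hx1

end Cfsg.Agent.S1477
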