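import Mathlib
import Cfsg.Statements.S1480
import Cfsg.Agent.H9.TTrans3

set_option autoImplicit false
open Cfsg
open scoped commutatorElement

namespace Cfsg.Agent.S1480

/-- Let G be a finite group and p a prime such that the normalizer of every nontrivial p-subgroup of G is p-constrained; if p = 2 assume also that the Sylow 2-subgroups of G have nilpotency class at most 2. Let E be an abelian p-subgroup containing an elementary abelian subgroup of order p ^ 3 and containing every element of p-power order of C_G(E). Then for every prime q ≠ p, any two maximal E-invariant q-subgroups of G are conjugate by an element of O_{p'}(C_G(E)). -/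
theorem result {G : Type*} [Group G] [Finite G] (p : ℕ) [Fact p.Prime]
    (hloc : ∀ T : Subgroup G, IsPGroup p T → T ≠ ⊥ → Cfsg.IsPConstrained p ↥(Subgroup.normalizer (T : Set G)))
    (h2 : p = 2 → ∀ S : Sylow p G, Group.IsNilpotent (S : Subgroup G) ∧ Group.nilpotencyClass (S : Subgroup G) ≤ 2)
    (E : Subgroup G) (hEp : IsPGroup p E) (hEc : IsMulCommutative E) (hE3 : ¬ Cfsg.PRankLE p 2 E)
    (hEfull : ∀ x ∈ Subgroup.centralizer (E : Set G), IsPGroup p (Subgroup.zpowers x) → x ∈ E)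
    (q : ℕ) [Fact q.Prime] (hqp : q ≠ p) :
    ∀ Q₁ ∈ Cfsg.maxInvSubgroups ⊤ E {q}, ∀ Q₂ ∈ Cfsg.maxInvSubgroups ⊤ E {q},
        ∃ k ∈ Cfsg.piCoreOf (Cfsg.primesNotDvd p) (Subgroup.centralizer (E : Set G)), Q₂ = Q₁.map (MulAut.conj k).toMonoidHom := by
  classical
  intro Q₁ hQ₁ Q₂ hQ₂
  have hpp : p.Prime := Fact.out
  obtain ⟨A, hAc, hAe, hAcard⟩ : ∃ A : Subgroup E, IsMulCommutative A ∧ (∀ a ∈ A, a ^ p = 1) ∧
      p ^ 2 < Nat.card A := by
    unfold Cfsg.PRankLE at hE3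
    push Not at hE3
    exact hE3
  have hA₀ : Cfsg.IsElementaryAbelian p (A.map E.subtype) := by
    refine ⟨⟨⟨?_⟩⟩, ?_⟩
    · rintro ⟨_, a, ha, rfl⟩ ⟨_, b, hb, rfl⟩
      apply Subtype.ext
      exact congrArg (fun x : A => ((x : E) : G)) (hAc.is_comm.comm ⟨a, ha⟩ ⟨b, hb⟩)
    · rintro _ ⟨a, ha, rfl⟩
      exact congrArg Subtype.val (hAe a ha)
  have hA₀3 : p ^ 3 ≤ Nat.card (A.map E.subtype) := by
    rw [Subgroup.card_map_of_injective E.subtype_injective]
    have hAp : IsPGroup p A := hEp.to_subgroup A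
    obtain ⟨k, hk⟩ := IsPGroup.iff_card.mp hAp
    rw [hk] at hAcard ⊢
    have h2k : 2 < k := (Nat.pow_lt_pow_iff_right hpp.one_lt).mp hAcard
    exact Nat.pow_le_pow_right hpp.pos h2k
  have hkey : ∀ S R Q : Subgroup G, IsPGroup p S → E ≤ S → R ≤ S → (Nat.card Q).Coprime p →
      E ≤ Subgroup.normalizer (Q : Set G) → E ≤ Subgroup.normalizer (R : Set G) →
      Q ≤ Subgroup.normalizer (R : Set G) → Q ≤ Subgroup.centralizer (R : Set G) := by
    intro S R Q hS hES hRS hQc hEQ hER hQR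
    have hRp : IsPGroup p R := hS.to_le hRS
    have hfix : ∀ x ∈ R, x ∈ Subgroup.centralizer (E : Set G) → x ∈ E := fun x hx hxE =>
      hEfull x hxE (hRp.to_le (Subgroup.zpowers_le.mpr hx))
    by_cases hp : p = 2
    · obtain ⟨S', hS'⟩ := hS.exists_le_sylow
      obtain ⟨hnil, hcl⟩ := h2 hp S'
      haveI := hnil
      have hl : ⁅⁅(S' : Subgroup G), (S' : Subgroup G)⁆, (S' : Subgroup G)⁆ = ⊥ :=
        Subgroup.lowerCentralSeries_eq_bot_of_nilpotencyClass_le hcl
      apply Cfsg.H9.TTrans2.quad E Q R hEp hQc hEQ hRp hER hQR hfix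
      intro x hx a ha
      rw [Subgroup.mem_centralizer_iff]
      intro e he
      have h3 : ⁅⁅x, a⁆, e⁆ ∈ ⁅⁅(S' : Subgroup G), (S' : Subgroup G)⁆, (S' : Subgroup G)⁆ :=
        Subgroup.commutator_mem_commutator (Subgroup.commutator_mem_commutator
          (hS' (hRS hx)) (hS' (hES ha))) (hS' (hES he))
      rw [hl, Subgroup.mem_bot] at h3
      exact (commutatorElement_eq_one_iff_mul_comm.mp h3).symm
    · exact Cfsg.H9.PQOdd.key hp E Q hEp hQc hEQ _ R rfl hRp hER hQR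
        (fun x hx _ hxE => Cfsg.H9.TTrans2.comm_of_mem hQc hEQ hRp hQR hx (hfix x hx hxE))
  have hL1 : ∀ b ∈ E, b ≠ 1 → ∃ K : Subgroup G, (Nat.card K).Coprime p ∧
      E ≤ Subgroup.normalizer (K : Set G) ∧
      ∀ Y : Subgroup G, Y ≤ Subgroup.centralizer {b} → (Nat.card Y).Coprime p →
        E ≤ Subgroup.normalizer (Y : Set G) → Y ≤ K := by
    intro b hb hb1
    have hECb : E ≤ Subgroup.centralizer ({b} : Set G) := by
      intro e he
      rw [Subgroup.mem_centralizer_singleton_iff]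
      exact congrArg Subtype.val (hEc.is_comm.comm ⟨e, he⟩ ⟨b, hb⟩)
    have hcn := Cfsg.H9.TTrans3.centralizer_singleton_le_normalizer b
    obtain ⟨K, h1, h2', h3⟩ := Cfsg.H9.TTrans3.exists_core p E
      (Subgroup.normalizer ((Subgroup.zpowers b : Subgroup G) : Set G)) hEp (hECb.trans hcn)
      (hloc (Subgroup.zpowers b) (hEp.to_le (Subgroup.zpowers_le.mpr hb))
        (by rwa [Ne, Subgroup.zpowers_eq_bot])) hkey
    exact ⟨K, h1, h2', fun Y hY => h3 Y (hY.trans hcn)⟩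
  have hK₀E : Cfsg.piCoreOf (Cfsg.primesNotDvd p) (Subgroup.centralizer (E : Set G)) ≤
      Subgroup.centralizer (E : Set G) := Subgroup.map_subtype_le _
  exact Cfsg.H9.TTrans.trans_aux hqp E _ (A.map E.subtype) hEp hEc (Subgroup.map_subtype_le A)
    hA₀ hA₀3 hK₀E (Cfsg.H9.TTrans3.mem_piCoreOf p E hEp hEc hEfull) hL1 _ Q₁ Q₂
    (Cfsg.H9.TTrans3.maxInv_of_mem hQ₁) (Cfsg.H9.TTrans3.maxInv_of_mem hQ₂) rfl

end Cfsg.Agent.S1480
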