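import Mathlib
import Cfsg.Statements.S1481
import Cfsg.Agent.H9.BenU4

set_option autoImplicit false
open Cfsg
open scoped commutatorElement

namespace Cfsg.Agent.S1481

/-- Let G be a finite group and H a local subgroup (the normalizer of a nontrivial subgroup of prime-power order) not properly contained in any local subgroup; let F = F(H), suppose at least two primes divide #F, put X = H ∩ C_G(F), let M ≤ F with F ∩ C_G(M) ≤ M, and let R be a solvable subgroup normalized by M and by X. Then for every prime q not dividing #F there is exactly one maximal M-invariant q-subgroup of R, and it is a Sylow q-subgroup of the largest normal subgroup of R of order coprime to #F. -/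
theorem result {G : Type*} [Group G] [Finite G] (H : Subgroup G) (hH : Cfsg.IsLocalSubgroup H) (hHmax : ∀ L : Subgroup G, Cfsg.IsLocalSubgroup L → H ≤ L → L = H)
    (hF2 : 2 ≤ (Nat.card (Cfsg.fittingOf H)).primeFactors.card)
    (M : Subgroup G) (hM : M ≤ Cfsg.fittingOf H) (hCM : Cfsg.fittingOf H ⊓ Subgroup.centralizer (M : Set G) ≤ M)
    (R : Subgroup G) (hR : Group.IsSolvable R) (hMR : M ≤ Subgroup.normalizer (R : Set G))
    (hXR : H ⊓ Subgroup.centralizer (Cfsg.fittingOf H : Set G) ≤ Subgroup.normalizer (R : Set G))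
    (q : ℕ) [Fact q.Prime] (hq : ¬ q ∣ Nat.card (Cfsg.fittingOf H)) :
    ∃! Q : Subgroup G, Q ∈ Cfsg.maxInvSubgroups R M {q} ∧
      (∀ Q' : Subgroup G, Q' ∈ Cfsg.maxInvSubgroups R M {q} →
        Q' ≤ Cfsg.piCoreOf (Cfsg.primesNotDvd (Nat.card (Cfsg.fittingOf H))) R ∧
        ¬ q ∣ Q'.relIndex (Cfsg.piCoreOf (Cfsg.primesNotDvd (Nat.card (Cfsg.fittingOf H))) R)) := by
  classical
  have c := Cfsg.H9.BenU4.mkCtx H hHmax M hM hCM
  have h2 : ∀ p : ℕ, p.Prime → p ∣ Nat.card (Cfsg.fittingOf H) →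
      ∃ r : ℕ, r.Prime ∧ r ∣ Nat.card (Cfsg.fittingOf H) ∧ p ≠ r := by
    intro p _ _
    obtain ⟨r, hr, hrp⟩ := Finset.exists_mem_ne (s := (Nat.card (Cfsg.fittingOf H)).primeFactors)
      (by omega) p
    exact ⟨r, Nat.prime_of_mem_primeFactors hr, Nat.dvd_of_mem_primeFactors hr, hrp.symm⟩
  have hne : ∃ p : ℕ, p.Prime ∧ p ∣ Nat.card (Cfsg.fittingOf H) := by
    obtain ⟨r, hr⟩ := Finset.card_pos.mp (by omega : 0 < (Nat.card (Cfsg.fittingOf H)).primeFactors.card)
    exact ⟨r, Nat.prime_of_mem_primeFactors hr, Nat.dvd_of_mem_primeFactors hr⟩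
  exact Cfsg.H9.BenU4.main c h2 hne hR hMR hXR q hq

end Cfsg.Agent.S1481
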