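import Cfsg.Statements.S1483
import Cfsg.Agent.Lib.Helper10.MaxNil
-- import your own Cfsg.Agent.* helpers here

set_option autoImplicit false
open Cfsg Cfsg.Agent.Lib.Helper10 Subgroup
set_option linter.style.haveILetI false

namespace Cfsg.Agent.S1483

/-- Let G be a minimal simple group of odd order in which every non-identity element has nilpotent centralizer. Then any two nilpotent subgroups each contained in no larger nilpotent subgroup are either conjugate or of coprime orders; and for primes p, q, r: if some elements x, y ≠ 1 of p-power and q-power order commute, and some elements y', z ≠ 1 of q-power and r-power order commute, then some elements of p-power and r-power order, both ≠ 1, commute. -/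
theorem result {G : Type*} [Group G] [Finite G] (hG : Cfsg.IsMinSimpleOddOrder G) (hCN : Cfsg.IsCNGroup G) :
    (∀ H₁ H₂ : Subgroup G, (Group.IsNilpotent ↥H₁ ∧ ∀ L : Subgroup G, Group.IsNilpotent L → H₁ ≤ L → L = H₁) → (Group.IsNilpotent ↥H₂ ∧ ∀ L : Subgroup G, Group.IsNilpotent L → H₂ ≤ L → L = H₂) → (∃ g : G, H₂ = H₁.map (MulAut.conj g).toMonoidHom) ∨ (Nat.card H₁).Coprime (Nat.card H₂)) ∧
      ∀ (p q r : ℕ), p.Prime → q.Prime → r.Prime → ∀ (x y y' z : G), x ≠ 1 → y ≠ 1 → y' ≠ 1 → z ≠ 1 →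
        IsPGroup p (Subgroup.zpowers x) → IsPGroup q (Subgroup.zpowers y) → IsPGroup q (Subgroup.zpowers y') → IsPGroup r (Subgroup.zpowers z) →
        x * y = y * x → y' * z = z * y' →
        ∃ x' z' : G, x' ≠ 1 ∧ z' ≠ 1 ∧ IsPGroup p (Subgroup.zpowers x') ∧ IsPGroup r (Subgroup.zpowers z') ∧ x' * z' = z' * x' := by
  refine ⟨fun H₁ H₂ h₁ h₂ => max_nilpotent_conj_or_coprime hCN h₁.1 h₁.2 h₂.1 h₂.2, ?_⟩
  intro p q r hp hq hr x y y' z hx1 hy1 hy'1 hz1 hxp hyq hy'q hzr hxy hy'z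
  haveI := Fact.mk hp
  haveI := Fact.mk hq
  haveI := Fact.mk hr
  by_cases hpr : p = r
  · subst hpr
    exact ⟨x, x, hx1, hx1, hxp, hxp, rfl⟩
  have hord : ∀ (s : ℕ) [Fact s.Prime] (w : G), IsPGroup s (zpowers w) → ∃ k, orderOf w = s ^ k := by
    intro s _ w hw
    obtain ⟨k, hk⟩ := IsPGroup.iff_card.1 hw
    exact ⟨k, by rw [← hk, Nat.card_zpowers]⟩
  obtain ⟨H₁, hle₁, hn₁, hm₁⟩ := exists_max_nilpotent_ge (hCN y hy1)
  obtain ⟨H₂, hle₂, hn₂, hm₂⟩ := exists_max_nilpotent_ge (hCN y' hy'1)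
  have hxH : x ∈ H₁ := hle₁ (mem_centralizer_singleton_iff.2 hxy)
  have hyH : y ∈ H₁ := hle₁ (mem_centralizer_singleton_iff.2 rfl)
  have hy'H : y' ∈ H₂ := hle₂ (mem_centralizer_singleton_iff.2 rfl)
  have hzH : z ∈ H₂ := hle₂ (mem_centralizer_singleton_iff.2 hy'z.symm)
  have hdvd : ∀ (w : G) (H : Subgroup G), w ∈ H → w ≠ 1 → IsPGroup q (zpowers w) →
      q ∣ Nat.card H := by
    intro w H hw hw1 hwq
    obtain ⟨k, hk⟩ := hord q w hwq
    have h1 : orderOf w ∣ Nat.card H := by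
      have := orderOf_dvd_natCard (⟨w, hw⟩ : H)
      rwa [Subgroup.orderOf_mk] at this
    refine Dvd.dvd.trans ?_ h1
    rw [hk]
    rcases Nat.eq_zero_or_pos k with rfl | hkpos
    · rw [pow_zero, orderOf_eq_one_iff] at hk
      exact absurd hk hw1
    · exact dvd_pow_self q hkpos.ne'
  rcases max_nilpotent_conj_or_coprime hCN hn₁ hm₁ hn₂ hm₂ with ⟨g, hg⟩ | hcop
  · rw [hg] at hzH
    obtain ⟨w, hw, hwz⟩ := Subgroup.mem_map.1 hzH
    have hwz' : g * w * g⁻¹ = z := hwz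
    have how : orderOf w = orderOf z := by rw [← hwz']; exact ((MulAut.conj g).orderOf_eq w).symm
    obtain ⟨k, hk⟩ := hord r z hzr
    obtain ⟨j, hj⟩ := hord p x hxp
    refine ⟨x, w, hx1, ?_, hxp, ?_, ?_⟩
    · rintro rfl
      apply hz1
      rw [← hwz']; simp
    · exact IsPGroup.of_card (n := k) (by rw [Nat.card_zpowers, how, hk])
    · apply commute_of_mem_nilpotent hn₁ hxH hw
      rw [how, hk, hj]
      exact Nat.Coprime.pow _ _ ((Nat.coprime_primes hp hr).2 hpr)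
  · exfalso
    have := Nat.dvd_gcd (hdvd y H₁ hyH hy1 hyq) (hdvd y' H₂ hy'H hy'1 hy'q)
    rw [hcop] at this
    exact hq.one_lt.ne' (Nat.dvd_one.1 this)

end Cfsg.Agent.S1483
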