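import Cfsg.Statements.S1485
import Mathlib
import Cfsg.Agent.Lib.Helper10.Cliff
-- import your own Cfsg.Agent.* helpers here

set_option autoImplicit false
open Cfsg

namespace Cfsg.Agent.S1485

/-- Let H be a normal subgroup of the finite group G and θ an irreducible character of H. On H, the function induced from θ equals r times the sum of the distinct G-conjugates of θ, where r is the number of elements of G fixing θ under conjugation divided by the order of H (the index of H in the inertia group). -/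
theorem result {G : Type*} [Group G] [Fintype G] (H : Subgroup G) [hN : H.Normal] (θ : H → ℂ) (hθ : Cfsg.IsIrrCharacter H θ) : (fun h : H => Cfsg.indFun H θ h) = ((Nat.card {g : G // ∀ h : H, θ ⟨g * h * g⁻¹, hN.conj_mem h h.2 g⟩ = θ h} : ℂ) / (Nat.card H : ℂ)) • ∑ᶠ ψ ∈ {ψ : H → ℂ | ∃ g : G, ψ = fun h : H => θ ⟨g * h * g⁻¹, hN.conj_mem h h.2 g⟩}, ψ := by
  classical
  rw [Cfsg.Agent.CharLib.H2.indFun_restrict hN, Cfsg.Agent.Lib.Helper10.sum_conjFun_eq hN, smul_smul]
  have e1 : {ψ : H → ℂ | ∃ g : G, ψ = fun h : H => θ ⟨g * h * g⁻¹, hN.conj_mem h h.2 g⟩} =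
      ↑(Finset.univ.image (fun x : G => Cfsg.Agent.CharLib.H2.conjFun hN θ x)) := by
    ext ψ
    simp only [Set.mem_setOf_eq, Finset.coe_image, Finset.coe_univ, Set.image_univ, Set.mem_range]
    constructor
    · rintro ⟨g, rfl⟩
      exact ⟨g, rfl⟩
    · rintro ⟨g, rfl⟩
      exact ⟨g, rfl⟩
  rw [e1, finsum_mem_coe_finset]
  have e2 : Nat.card {g : G // ∀ h : H, θ ⟨g * h * g⁻¹, hN.conj_mem h h.2 g⟩ = θ h} =
      Nat.card {t : G // Cfsg.Agent.CharLib.H2.conjFun hN θ t = θ} := by
    apply Nat.card_congr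
    apply Equiv.subtypeEquivRight
    intro g
    constructor
    · intro h
      funext x
      exact h x
    · intro h x
      exact congrFun h x
  rw [e2]
  congr 1
  rw [div_eq_mul_inv, mul_comm]

end Cfsg.Agent.S1485
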