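import Cfsg.Statements.S1488
import Mathlib
import Cfsg.Agent.Lib.Helper10.QuotSum
import Cfsg.Agent.CharLib.Ind
import Cfsg.Agent.H1.HallPrep
-- import your own Cfsg.Agent.* helpers here

set_option autoImplicit false
open Cfsg

namespace Cfsg.Agent.S1488

/-- Let A be a normal subgroup of the finite group G contained in the subgroup H, let θ be a function on H and θ₁ a function on the image of H in G ⧸ A whose composite with the projection is θ. Then the function induced from θ₁ to G ⧸ A, composed with the projection G → G ⧸ A, equals the function induced from θ to G. -/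
theorem result {G : Type*} [Group G] [Fintype G] (A H : Subgroup G) [A.Normal] (hAH : A ≤ H) [Fintype (G ⧸ A)] [Fintype ↥(H.map (QuotientGroup.mk' A))] (θ : H → ℂ) (θ₁ : ↥(H.map (QuotientGroup.mk' A)) → ℂ) (hθ : ∀ x : H, θ₁ ⟨QuotientGroup.mk' A x, Subgroup.mem_map_of_mem _ x.2⟩ = θ x) (g : G) : Cfsg.indFun (H.map (QuotientGroup.mk' A)) θ₁ (QuotientGroup.mk' A g) = Cfsg.indFun H θ g := by
  classical
  have key : ∀ z : G, Cfsg.extendByZero H θ z =
      Cfsg.extendByZero (H.map (QuotientGroup.mk' A)) θ₁ (QuotientGroup.mk' A z) := by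
    intro z
    by_cases hz : z ∈ H
    · rw [Cfsg.Agent.CharLib.H2.extendByZero_of_mem H θ hz,
        Cfsg.Agent.CharLib.H2.extendByZero_of_mem _ θ₁ (Subgroup.mem_map_of_mem _ hz)]
      exact (hθ ⟨z, hz⟩).symm
    · rw [Cfsg.Agent.CharLib.H2.extendByZero_of_not_mem H θ hz,
        Cfsg.Agent.CharLib.H2.extendByZero_of_not_mem]
      rintro ⟨h, hh, he⟩
      apply hz
      have h1 : h⁻¹ * z ∈ A := by
        rw [← QuotientGroup.eq]
        exact he
      have := H.mul_mem hh (hAH h1)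
      simpa using this
  rw [Cfsg.Agent.CharLib.H2.indFun_apply, Cfsg.Agent.CharLib.H2.indFun_apply]
  simp only [key]
  have h2 := Cfsg.Agent.Lib.Helper10.sum_comp_quotient_mk A
    (fun q : G ⧸ A => Cfsg.extendByZero (H.map (QuotientGroup.mk' A)) θ₁ (q⁻¹ * (QuotientGroup.mk' A g) * q))
  have h3 : ∑ x : G, Cfsg.extendByZero (H.map (QuotientGroup.mk' A)) θ₁ (QuotientGroup.mk' A (x⁻¹ * g * x)) =
      ∑ x : G, (fun q : G ⧸ A => Cfsg.extendByZero (H.map (QuotientGroup.mk' A)) θ₁ (q⁻¹ * (QuotientGroup.mk' A g) * q)) (x : G ⧸ A) := by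
    refine Finset.sum_congr rfl fun x _ => ?_
    simp
  rw [h3, h2, ← Cfsg.H1.card_map_mk'_of_le hAH]
  have hA0 : (Nat.card A : ℂ) ≠ 0 := Cfsg.Agent.CharLib.H2.card_subgroup_ne_zero A
  have hH0 : (Nat.card (H.map (QuotientGroup.mk' A)) : ℂ) ≠ 0 := Cfsg.Agent.CharLib.H2.card_subgroup_ne_zero _
  rw [nsmul_eq_mul]
  push_cast
  field_simp

end Cfsg.Agent.S1488
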