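import Cfsg.Statements.S1489
import Mathlib
import Cfsg.Agent.Lib.Helper10.CliffCorr
-- import your own Cfsg.Agent.* helpers here

set_option autoImplicit false
open Cfsg

namespace Cfsg.Agent.S1489

/-- Let H be a normal subgroup of the finite group G, θ an irreducible character of H, and T the inertia group of θ (the elements g with θ(g h g⁻¹) = θ(h) for all h ∈ H). If ψ and ψ' are irreducible characters of T having nonzero inner product with the function induced from θ to T, then the function induced from ψ to G is an irreducible character of G, and it equals the one induced from ψ' only if ψ = ψ'. -/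
theorem result {G : Type*} [Group G] [Fintype G] (H T : Subgroup G) [hN : H.Normal] [Fintype T] (θ : H → ℂ) (hθ : Cfsg.IsIrrCharacter H θ) (hT : ∀ g : G, g ∈ T ↔ ∀ h : H, θ ⟨g * h * g⁻¹, hN.conj_mem h h.2 g⟩ = θ h) (hHT : H ≤ T) (ψ ψ' : T → ℂ) (hψ : Cfsg.IsIrrCharacter T ψ) (hψ' : Cfsg.IsIrrCharacter T ψ') (hc : Cfsg.classInner (Cfsg.indFun (H.subgroupOf T) (fun x => θ ⟨(x : T), Subgroup.mem_subgroupOf.mp x.2⟩)) ψ ≠ 0) (hc' : Cfsg.classInner (Cfsg.indFun (H.subgroupOf T) (fun x => θ ⟨(x : T), Subgroup.mem_subgroupOf.mp x.2⟩)) ψ' ≠ 0) : Cfsg.IsIrrCharacter G (Cfsg.indFun T ψ) ∧ (Cfsg.indFun T ψ = Cfsg.indFun T ψ' → ψ = ψ') := by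
  have hT' : ∀ g : G, g ∈ T ↔ Cfsg.Agent.CharLib.H2.conjFun hN θ g = θ := by
    intro g
    rw [hT g]
    constructor
    · intro h
      funext x
      exact h x
    · intro h x
      exact congrFun h x
  obtain ⟨h1, h2⟩ := Cfsg.Agent.Lib.Helper10.clifford_corr H T hN θ hθ hT' hHT ψ ψ' hψ hψ' hc hc'
  refine ⟨h1, ?_⟩
  intro he
  by_contra hne
  have h3 := h2 hne
  rw [← he, Cfsg.Agent.CharLib.classInner_irr_self h1] at h3
  exact one_ne_zero h3

end Cfsg.Agent.S1489
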