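import Cfsg.Statements.S1490
import Mathlib
import Cfsg.Agent.Lib.Helper10.CliffAb
-- import your own Cfsg.Agent.* helpers here

set_option autoImplicit false
open Cfsg
open Cfsg.Agent.CharLib Cfsg.Agent.CharLib.H2 Cfsg.Agent.Lib.Helper10

namespace Cfsg.Agent.S1490

/-- Let H be a normal subgroup of the finite group G, θ an irreducible character of H with inertia group T, and suppose the commutator of any two elements of T lies in H (T/H abelian). Then there are a positive integer e and a finite set C of irreducible characters of G with e ^ 2 * |C| * |H| = |T|, such that the function induced from θ is e times the sum of the members of C and every member of C has degree [G:T] * e * θ(1). -/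
theorem result {G : Type*} [Group G] [Fintype G] (H T : Subgroup G) [hN : H.Normal] (θ : H → ℂ) (hθ : Cfsg.IsIrrCharacter H θ) (hT : ∀ g : G, g ∈ T ↔ ∀ h : H, θ ⟨g * h * g⁻¹, hN.conj_mem h h.2 g⟩ = θ h) (hab : ∀ x ∈ T, ∀ y ∈ T, x * y * x⁻¹ * y⁻¹ ∈ H) : ∃ (e : ℕ) (C : Finset (G → ℂ)), 0 < e ∧ (∀ χ ∈ C, Cfsg.IsIrrCharacter G χ) ∧ e ^ 2 * C.card * Nat.card H = Nat.card T ∧ Cfsg.indFun H θ = (e : ℂ) • ∑ χ ∈ C, χ ∧ ∀ χ ∈ C, χ 1 = (T.index : ℂ) * e * θ 1 := by
  classical
  haveI : Fintype T := Fintype.ofFinite T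
  have hT' : ∀ g : G, g ∈ T ↔ H2.conjFun hN θ g = θ := by
    intro g
    rw [hT g]
    constructor
    · intro h
      funext x
      exact h x
    · intro h x
      exact congrFun h x
  have hHT : H ≤ T := by
    intro g hg
    rw [hT']
    exact conjFun_of_mem hN (isClassFunction_of_irr hθ) hg
  have hN' : (H.subgroupOf T).Normal := inferInstance
  have hθ' := isIrrCharacter_resSub hHT hθ
  have hinv : ∀ t : T, H2.conjFun hN' (resSub H T θ) t = resSub H T θ := by
    intro t
    funext x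
    exact congrFun ((hT' t).1 t.2) ⟨(x : T), Subgroup.mem_subgroupOf.mp x.2⟩
  have hab' : ∀ x y : T, x * y * x⁻¹ * y⁻¹ ∈ H.subgroupOf T := by
    intro x y
    rw [Subgroup.mem_subgroupOf]
    exact hab x x.2 y y.2
  obtain ⟨e, C, he, hcard, hind, hdeg, hne⟩ :=
    invariant_abelian_quotient (H.subgroupOf T) (resSub H T θ) hθ' hinv hab'
  have hcardH : Nat.card (H.subgroupOf T) = Nat.card H :=
    Nat.card_congr (Subgroup.subgroupOfEquivOfLe hHT).toEquiv
  have hinj : Set.InjOn (fun ψ : IrrCharacter T => indFun T (ψ : T → ℂ)) (C : Set (IrrCharacter T)) := by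
    intro ψ hψ ψ' hψ' heq
    by_contra hne'
    obtain ⟨h1, h2⟩ := clifford_corr H T hN θ hθ hT' hHT ψ ψ' ψ.2 ψ'.2 (hne ψ hψ) (hne ψ' hψ')
    have h3 := h2 (fun h => hne' (Subtype.ext h))
    simp only at heq
    rw [← heq, classInner_irr_self h1] at h3
    exact one_ne_zero h3
  refine ⟨e, C.image (fun ψ : IrrCharacter T => indFun T (ψ : T → ℂ)), he, ?_, ?_, ?_, ?_⟩
  · intro χ hχ
    obtain ⟨ψ, hψ, rfl⟩ := Finset.mem_image.1 hχ
    exact (clifford_corr H T hN θ hθ hT' hHT ψ ψ ψ.2 ψ.2 (hne ψ hψ) (hne ψ hψ)).1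
  · rw [Finset.card_image_of_injOn hinj, ← hcardH]
    exact hcard
  · rw [Finset.sum_image hinj, ← indFun_trans H T hHT θ]
    change indFun T (indFun (H.subgroupOf T) (resSub H T θ)) = _
    rw [hind, indFun_smul, indFun_sum]
  · intro χ hχ
    obtain ⟨ψ, hψ, rfl⟩ := Finset.mem_image.1 hχ
    rw [indFun_apply_one, hdeg ψ hψ]
    simp only [resSub]
    rw [mul_assoc]
    rfl

end Cfsg.Agent.S1490
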