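import Cfsg.Statements.S1491
import Mathlib
import Cfsg.Agent.Lib.Helper10.CliffAb
import Cfsg.Agent.Lib.Helper10.Extend
-- import your own Cfsg.Agent.* helpers here

set_option autoImplicit false
open Cfsg
open Cfsg.Agent.CharLib Cfsg.Agent.CharLib.H2 Cfsg.Agent.Lib.Helper10

namespace Cfsg.Agent.S1491

/-- Let H be a normal subgroup of the finite group G and θ an irreducible character of H with inertia group T, where T/H is abelian (commutators of T lie in H) and the index of H in T is coprime to the order of H. Then the function induced from θ is the sum of a set of exactly [T:H] irreducible characters of G, each of degree [G:T] * θ(1). -/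
theorem result {G : Type*} [Group G] [Fintype G] (H T : Subgroup G) [hN : H.Normal] (θ : H → ℂ) (hθ : Cfsg.IsIrrCharacter H θ) (hT : ∀ g : G, g ∈ T ↔ ∀ h : H, θ ⟨g * h * g⁻¹, hN.conj_mem h h.2 g⟩ = θ h) (hab : ∀ x ∈ T, ∀ y ∈ T, x * y * x⁻¹ * y⁻¹ ∈ H) (hcop : Nat.Coprime (Nat.card H) (H.relIndex T)) : ∃ C : Finset (G → ℂ), (∀ χ ∈ C, Cfsg.IsIrrCharacter G χ) ∧ C.card = H.relIndex T ∧ Cfsg.indFun H θ = ∑ χ ∈ C, χ ∧ ∀ χ ∈ C, χ 1 = (T.index : ℂ) * θ 1 := by
  classical
  haveI : Fintype T := Fintype.ofFinite T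
  have hT' : ∀ g : G, g ∈ T ↔ H2.conjFun hN θ g = θ := by
    intro g
    rw [hT g]
    constructor
    · intro h
      funext x
      exact h x
    · intro h x
      exact congrFun h x
  have hHT : H ≤ T := by
    intro g hg
    rw [hT']
    exact conjFun_of_mem hN (isClassFunction_of_irr hθ) hg
  have hN' : (H.subgroupOf T).Normal := inferInstance
  have hθ' := isIrrCharacter_resSub hHT hθ
  have hinv : ∀ t : T, H2.conjFun hN' (resSub H T θ) t = resSub H T θ := by
    intro t
    funext x
    exact congrFun ((hT' t).1 t.2) ⟨(x : T), Subgroup.mem_subgroupOf.mp x.2⟩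
  have hab' : ∀ x y : T, x * y * x⁻¹ * y⁻¹ ∈ H.subgroupOf T := by
    intro x y
    rw [Subgroup.mem_subgroupOf]
    exact hab x x.2 y y.2
  obtain ⟨e, C, he, hcard, hind, hdeg, hne⟩ :=
    invariant_abelian_quotient (H.subgroupOf T) (resSub H T θ) hθ' hinv hab'
  have hcardH : Nat.card (H.subgroupOf T) = Nat.card H :=
    Nat.card_congr (Subgroup.subgroupOfEquivOfLe hHT).toEquiv
  -- the extension
  obtain ⟨χ₀, hχ₀, hext⟩ := coprime_extension (H.subgroupOf T) (by rw [hcardH]; exact hcop)
    (resSub H T θ) hθ' (fun t n => congrFun (hinv t) n)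
  have he1 : e = 1 := by
    have h1 := frobenius_reciprocity (H.subgroupOf T) (resSub H T θ) (isClassFunction_of_irr hχ₀)
    have h2 : (fun h : H.subgroupOf T => χ₀ h) = resSub H T θ := funext hext
    rw [h2, classInner_irr_self hθ', hind, classInner_smul_left, classInner_sum_left] at h1
    by_cases hmem : (⟨χ₀, hχ₀⟩ : IrrCharacter T) ∈ C
    · rw [Finset.sum_eq_single (⟨χ₀, hχ₀⟩ : IrrCharacter T)] at h1
      · rw [classInner_irr_self hχ₀, mul_one] at h1
        exact_mod_cast h1
      · intro ψ _ hψ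
        exact classInner_irr_ne ψ.2 hχ₀ (fun h => hψ (Subtype.ext h))
      · intro h; exact absurd hmem h
    · rw [Finset.sum_eq_zero, mul_zero] at h1
      · exact absurd h1 zero_ne_one
      · intro ψ hψ
        exact classInner_irr_ne ψ.2 hχ₀ (fun h => hmem (by
          have : ψ = ⟨χ₀, hχ₀⟩ := Subtype.ext h
          rw [← this]; exact hψ))
  subst he1
  have hinj : Set.InjOn (fun ψ : IrrCharacter T => indFun T (ψ : T → ℂ)) (C : Set (IrrCharacter T)) := by
    intro ψ hψ ψ' hψ' heq
    by_contra hne'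
    obtain ⟨h1, h2⟩ := clifford_corr H T hN θ hθ hT' hHT ψ ψ' ψ.2 ψ'.2 (hne ψ hψ) (hne ψ' hψ')
    have h3 := h2 (fun h => hne' (Subtype.ext h))
    simp only at heq
    rw [← heq, classInner_irr_self h1] at h3
    exact one_ne_zero h3
  refine ⟨C.image (fun ψ : IrrCharacter T => indFun T (ψ : T → ℂ)), ?_, ?_, ?_, ?_⟩
  · intro χ hχ
    obtain ⟨ψ, hψ, rfl⟩ := Finset.mem_image.1 hχ
    exact (clifford_corr H T hN θ hθ hT' hHT ψ ψ ψ.2 ψ.2 (hne ψ hψ) (hne ψ hψ)).1
  · rw [Finset.card_image_of_injOn hinj]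
    have h1 := (H.subgroupOf T).card_mul_index
    rw [← hcard] at h1
    have hpos : 0 < Nat.card (H.subgroupOf T) := Nat.card_pos
    have h2 : Nat.card (H.subgroupOf T) * (H.subgroupOf T).index = Nat.card (H.subgroupOf T) * C.card := by
      rw [h1]; ring
    exact (Nat.eq_of_mul_eq_mul_left hpos h2).symm
  · rw [Finset.sum_image hinj, ← indFun_trans H T hHT θ]
    change indFun T (indFun (H.subgroupOf T) (resSub H T θ)) = _
    rw [hind, indFun_smul, indFun_sum]
    simp
  · intro χ hχ
    obtain ⟨ψ, hψ, rfl⟩ := Finset.mem_image.1 hχ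
    rw [indFun_apply_one, hdeg ψ hψ]
    simp only [resSub]
    simp
    left
    rfl

end Cfsg.Agent.S1491
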