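import Mathlib
import Cfsg.Statements.S1494
import Cfsg.Agent.Lib.Helper10.CommonEigen

set_option autoImplicit false
open Cfsg Cfsg.Agent.Lib.Helper10 Cfsg.Agent.CharLib

namespace Cfsg.Agent.S1494

theorem isIntegral_of_pow_eq_one {z : ℂ} {n : ℕ} (hn : 0 < n) (h : z ^ n = 1) : IsIntegral ℤ z := by
  refine ⟨Polynomial.X ^ n - 1, ?_, ?_⟩
  · exact Polynomial.monic_X_pow_sub_C (1 : ℤ) hn.ne'
  · simp [h]

theorem char_case {G : Type*} [Group G] [Finite G] (χ : G → ℂ) (hχ : Cfsg.IsCharacter G χ) (p : ℕ) (hp : p.Prime) (x y : G) (hx : orderOf x = p) (hxy : x * y = y * x) : ∃ ω : ℂ, IsIntegral ℤ ω ∧ χ (x * y) - χ y = (1 - Complex.exp (2 * Real.pi * Complex.I / p)) * ω := by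
  obtain ⟨d, ρ, rfl⟩ := hχ
  set ζ := Complex.exp (2 * Real.pi * Complex.I / p) with hζ
  have hprim : IsPrimitiveRoot ζ p := Complex.isPrimitiveRoot_exp p hp.ne_zero
  have hζint : IsIntegral ℤ ζ := isIntegral_of_pow_eq_one hp.pos hprim.pow_eq_one
  have hcomm : Commute (ρ x) (ρ y) := by
    change ρ x * ρ y = ρ y * ρ x
    rw [← map_mul, ← map_mul, hxy]
  have hfx : (ρ x) ^ p = 1 := by rw [← map_pow, ← hx, pow_orderOf_eq_one, map_one]
  have hfy : (ρ y) ^ (orderOf y) = 1 := by rw [← map_pow, pow_orderOf_eq_one, map_one]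
  obtain ⟨ι, _, b, lam, mu, hlam, hmu, hbx, hby⟩ :=
    exists_common_eigenbasis (ρ x) (ρ y) hcomm p (orderOf y) hp.pos (orderOf_pos y) hfx hfy
  have h1 : ρ.character y = ∑ i, mu i := trace_eq_sum_of_eigenbasis (ρ y) b mu hby
  have h2 : ρ.character (x * y) = ∑ i, lam i * mu i := by
    apply trace_eq_sum_of_eigenbasis (ρ (x * y)) b
    intro i
    rw [map_mul, Module.End.mul_apply, hby, map_smul, hbx, smul_smul, mul_comm]
  have : NeZero p := ⟨hp.ne_zero⟩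
  choose k hk hk' using fun i => hprim.eq_pow_of_pow_eq_one (hlam i)
  refine ⟨∑ i, -(∑ j ∈ Finset.range (k i), ζ ^ j) * mu i, ?_, ?_⟩
  · apply IsIntegral.sum
    intro i _
    apply IsIntegral.mul
    · apply IsIntegral.neg
      apply IsIntegral.sum
      intro j _
      exact hζint.pow j
    · exact isIntegral_of_pow_eq_one (orderOf_pos y) (hmu i)
  · rw [h1, h2, ← Finset.sum_sub_distrib, Finset.mul_sum]
    apply Finset.sum_congr rfl
    intro i _
    have := geom_sum_mul ζ (k i)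
    rw [hk' i] at this
    linear_combination (mu i) * this.symm

theorem result {G : Type*} [Group G] [Finite G] (χ : G → ℂ) (hχ : Cfsg.IsGeneralizedCharacter G χ) (p : ℕ) (hp : p.Prime) (x y : G) (hx : orderOf x = p) (hxy : x * y = y * x) : ∃ ω : ℂ, IsIntegral ℤ ω ∧ χ (x * y) - χ y = (1 - Complex.exp (2 * Real.pi * Complex.I / p)) * ω := by
  obtain ⟨χ₁, χ₂, h₁, h₂, rfl⟩ := hχ
  obtain ⟨ω₁, hω₁, e₁⟩ := char_case χ₁ h₁ p hp x y hx hxy
  obtain ⟨ω₂, hω₂, e₂⟩ := char_case χ₂ h₂ p hp x y hx hxy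
  refine ⟨ω₁ - ω₂, hω₁.sub hω₂, ?_⟩
  simp only [Pi.sub_apply]
  linear_combination e₁ - e₂

end Cfsg.Agent.S1494
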