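import Mathlib
import Cfsg.Statements.S1495

set_option autoImplicit false
open Cfsg

namespace Cfsg.Agent.S1495

theorem isIntegral_of_pow_eq_one' {z : ℂ} {n : ℕ} (hn : 0 < n) (h : z ^ n = 1) : IsIntegral ℤ z := by
  refine ⟨Polynomial.X ^ n - 1, ?_, ?_⟩
  · exact Polynomial.monic_X_pow_sub_C (1 : ℤ) hn.ne'
  · simp [h]

theorem result (p : ℕ) (hp : p.Prime) (n : ℤ) (ω : ℂ) (hω : IsIntegral ℤ ω) (h : (n : ℂ) = (1 - Complex.exp (2 * Real.pi * Complex.I / p)) * ω) : (p : ℤ) ∣ n := by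
  set ζ := Complex.exp (2 * Real.pi * Complex.I / p) with hζ
  have hprim : IsPrimitiveRoot ζ p := Complex.isPrimitiveRoot_exp p hp.ne_zero
  have hζint : IsIntegral ℤ ζ := isIntegral_of_pow_eq_one' hp.pos hprim.pow_eq_one
  obtain ⟨m, hm⟩ : ∃ m, p = m + 1 := ⟨p - 1, by have := hp.pos; omega⟩
  have hdiv : ∀ k ∈ Finset.range m, ∃ η : ℂ, IsIntegral ℤ η ∧ (n : ℂ) = (1 - ζ ^ (k + 1)) * η := by
    intro k hk
    rw [Finset.mem_range] at hk
    have hcop : Nat.Coprime (k + 1) p := by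
      apply Nat.Coprime.symm
      rw [Nat.Prime.coprime_iff_not_dvd hp]
      intro hd
      have := Nat.le_of_dvd (Nat.succ_pos k) hd
      omega
    obtain ⟨k', hk'⟩ := Nat.exists_mul_mod_eq_one_of_coprime hcop hp.one_lt
    have h1 : (ζ ^ (k + 1)) ^ k' = ζ := by
      rw [← pow_mul]
      have : ζ ^ ((k + 1) * k') = ζ ^ (((k + 1) * k') % p) := by
        conv_lhs => rw [← Nat.div_add_mod ((k + 1) * k') p, pow_add, pow_mul, hprim.pow_eq_one, one_pow, one_mul]
      rw [this, hk'.2, pow_one]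
    refine ⟨(∑ j ∈ Finset.range k', (ζ ^ (k + 1)) ^ j) * ω, ?_, ?_⟩
    · apply IsIntegral.mul _ hω
      apply IsIntegral.sum
      intro j _
      exact (hζint.pow _).pow _
    · have := geom_sum_mul (ζ ^ (k + 1)) k'
      rw [h1] at this
      rw [h]
      linear_combination (ω) * this
  choose! η hη hη' using hdiv
  have hprod : (n : ℂ) ^ m = (p : ℂ) * ∏ k ∈ Finset.range m, η k := by
    have h1 : ∏ k ∈ Finset.range m, (n : ℂ) = ∏ k ∈ Finset.range m, ((1 - ζ ^ (k + 1)) * η k) :=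
      Finset.prod_congr rfl (fun k hk => hη' k hk)
    rw [Finset.prod_const, Finset.card_range, Finset.prod_mul_distrib] at h1
    have h2 := (hm ▸ hprim).prod_one_sub_pow_eq_order
    rw [h1, h2, hm]
    push_cast
    ring
  have hint : IsIntegral ℤ (∏ k ∈ Finset.range m, η k) := IsIntegral.prod _ (fun k hk => hη k hk)
  have hp0 : (p : ℂ) ≠ 0 := by exact_mod_cast hp.ne_zero
  have hq : (∏ k ∈ Finset.range m, η k) = algebraMap ℚ ℂ (((n : ℚ) ^ m) / (p : ℚ)) := by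
    have : (∏ k ∈ Finset.range m, η k) = (n : ℂ) ^ m / (p : ℂ) := by
      rw [hprod]; field_simp
    rw [this]
    simp
  rw [hq, isIntegral_algebraMap_iff (algebraMap ℚ ℂ).injective] at hint
  obtain ⟨z, hz⟩ := IsIntegrallyClosed.isIntegral_iff.mp hint
  have hz' : (n : ℚ) ^ m = (p : ℚ) * z := by
    have hp0' : (p : ℚ) ≠ 0 := by exact_mod_cast hp.ne_zero
    have : (z : ℚ) = (n : ℚ) ^ m / (p : ℚ) := by simpa using hz
    rw [this]; field_simp
  have hz'' : n ^ m = (p : ℤ) * z := by exact_mod_cast hz'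
  have hdvd : (p : ℤ) ∣ n ^ m := ⟨z, hz''⟩
  exact (Nat.prime_iff_prime_int.1 hp).dvd_of_dvd_pow hdvd

end Cfsg.Agent.S1495
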