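import Mathlib
import Cfsg.Statements.S1497

set_option autoImplicit false
open Cfsg

namespace Cfsg.Agent.S1497

theorem result {G : Type*} [Group G] [Finite G] (A : Set G) (hA : A.Nonempty) (h1 : (1 : G) ∉ A) (L : Subgroup G) : (Cfsg.IsTISubset A ∧ Subgroup.normalizer A = L) ↔ Cfsg.DadeHypothesis A L (fun _ => ⊥) := by
  constructor
  · rintro ⟨hTI, rfl⟩
    have key : ∀ a ∈ A, ∀ g : G, g * a * g⁻¹ ∈ A → g ∈ Subgroup.normalizer A := by
      intro a ha g hg
      by_contra hn
      have := hTI g hn a ha hg
      rw [this] at ha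
      exact h1 ha
    refine ⟨h1, ?_, ?_, ?_, ?_, ?_, ?_, ?_, ?_⟩
    · intro a ha
      exact key a ha a (by simpa using ha)
    · intro x hx a ha
      exact (Subgroup.mem_set_normalizer_iff.1 hx a).1 ha
    · intro a ha g hg
      exact ⟨g, key a ha g hg, rfl⟩
    · intro a _; exact bot_le
    · intro a _ c _ u hu
      rw [Subgroup.mem_bot] at hu ⊢
      rw [hu]; simp
    · intro a _; exact bot_inf_eq _
    · intro a ha
      rw [bot_sup_eq]
      apply inf_eq_right.2
      intro c hc
      rw [Subgroup.mem_centralizer_iff] at hc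
      have hca : a * c = c * a := hc a rfl
      apply key a ha c
      have : c * a * c⁻¹ = a := by rw [← hca]; group
      rw [this]; exact ha
    · intro a _ b _
      simp
  · intro hD
    have hLN : L ≤ Subgroup.normalizer A := by
      intro x hx
      rw [Subgroup.mem_set_normalizer_iff]
      intro n
      constructor
      · exact hD.conj_mem x hx n
      · intro h
        have := hD.conj_mem x⁻¹ (L.inv_mem hx) _ h
        simpa [mul_assoc] using this
    have key : ∀ a ∈ A, ∀ g : G, g * a * g⁻¹ ∈ A → g ∈ L := by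
      intro a ha g hg
      obtain ⟨y, hy, hya⟩ := hD.fusion a ha g hg
      have hc : y⁻¹ * g ∈ Subgroup.centralizer ({a} : Set G) := by
        rw [Subgroup.mem_centralizer_iff]
        intro z hz
        rw [Set.mem_singleton_iff.1 hz]
        have e : a = y⁻¹ * (g * a * g⁻¹) * y := by rw [← hya]; group
        calc a * (y⁻¹ * g) = y⁻¹ * (g * a * g⁻¹) * y * (y⁻¹ * g) := by rw [← e]
          _ = y⁻¹ * g * a := by group
      rw [← hD.sup_eq a ha, bot_sup_eq] at hc
      have := L.mul_mem hy (Subgroup.mem_inf.1 hc).1
      simpa using this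
    constructor
    · intro g hg x hx hgx
      exact absurd (hLN (key x hx g hgx)) hg
    · apply le_antisymm _ hLN
      intro g hg
      obtain ⟨a, ha⟩ := hA
      exact key a ha g ((Subgroup.mem_set_normalizer_iff.1 hg a).1 ha)

end Cfsg.Agent.S1497
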