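import Cfsg.Statements.S1500
import Mathlib
import Cfsg.Agent.Lib.Helper10.Dade
-- import your own Cfsg.Agent.* helpers here

set_option autoImplicit false
open Cfsg
open Cfsg.Agent.Lib.Helper10.Dade
open scoped ComplexConjugate

namespace Cfsg.Agent.S1500

theorem finsum_mem_subgroup {G : Type*} [Group G] [Fintype G] (K : Subgroup G) [DecidablePred (· ∈ K)] (f : G → ℂ) :
    ∑ᶠ u ∈ (K : Set G), f u = ∑ u ∈ Finset.univ.filter (· ∈ K), f u := by
  have : (K : Set G) = ↑(Finset.univ.filter (· ∈ K)) := by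
    ext x; simp
  rw [this, finsum_mem_coe_finset]

theorem isClassFunction_dade {G : Type*} [Group G] [Finite G] (A : Set G) (L : Subgroup G) (H : G → Subgroup G)
    (hD : Cfsg.DadeHypothesis A L H) (β : L → ℂ) (hβ : Cfsg.IsClassFunction L β) :
    Cfsg.IsClassFunction G (Cfsg.dadeIsometry A L H β) := by
  intro g h
  by_cases hg : ∃ a : ↥L, (a : G) ∈ A ∧ ∃ x : G, ∃ u ∈ H (a : G), x * g * x⁻¹ = (a : G) * u
  · obtain ⟨a, ha, x, u, hu, hx⟩ := hg
    rw [dade_apply hD hβ a ha hu hx, dade_apply hD hβ a ha hu (x := x * h⁻¹) (by rw [← hx]; group)]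
  · rw [dade_apply_of_not hg, dade_apply_of_not]
    rintro ⟨a, ha, x, u, hu, hx⟩
    exact hg ⟨a, ha, x * h, u, hu, by rw [← hx]; group⟩

theorem part2 {G : Type*} [Group G] [Fintype G] (A : Set G) (L : Subgroup G) [Fintype L] (H : G → Subgroup G) (hD : Cfsg.DadeHypothesis A L H) (α : L → ℂ) (hα : Cfsg.IsClassFunction L α) (hαA : ∀ x : L, (x : G) ∉ A → α x = 0)
    (χ : G → ℂ) (ψ : L → ℂ) (hχ : Cfsg.IsClassFunction G χ) (hψ : ∀ a : L, (a : G) ∈ A → ψ a = (Nat.card (H a) : ℂ)⁻¹ * ∑ᶠ u ∈ (H a : Set G), χ (a * u)) :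
    Cfsg.classInner (Cfsg.dadeIsometry A L H α) χ = Cfsg.classInner α ψ := by
  classical
  have hF : Cfsg.IsClassFunction G (fun g => conj (χ g)) := by
    intro g h
    simp only
    rw [hχ g h]
  have hm := master hD hα hαA hF
  have hL0 : (Nat.card L : ℂ) ≠ 0 := by exact_mod_cast Nat.card_pos.ne'
  have hG0 : (Nat.card G : ℂ) ≠ 0 := by exact_mod_cast Nat.card_pos.ne'
  have h1 : ∑ a : L, α a * ((Nat.card (H a) : ℂ)⁻¹ * ∑ u ∈ Finset.univ.filter (· ∈ H a), conj (χ (a * u))) =
      ∑ a : L, α a * conj (ψ a) := by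
    refine Finset.sum_congr rfl fun a _ => ?_
    by_cases ha : (a : G) ∈ A
    · rw [hψ a ha, finsum_mem_subgroup, map_mul, map_inv₀, map_natCast, map_sum]
    · rw [hαA a ha, zero_mul, zero_mul]
  rw [h1] at hm
  unfold Cfsg.classInner
  field_simp
  linear_combination hm

/-- Under the Dade hypothesis for (A, L, H), let α be a class function of L vanishing outside A. Then (i) for every class function β of L vanishing outside A, the inner product over G of the Dade images of α and β equals the inner product of α and β over L; and (ii) for every class function χ of G and every function ψ on L whose value at each a ∈ A is the average of χ over the coset a·H(a), the inner product over G of the Dade image of α with χ equals the inner product over L of α with ψ. -/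
theorem result {G : Type*} [Group G] [Fintype G] (A : Set G) (L : Subgroup G) [Fintype L] (H : G → Subgroup G) (hD : Cfsg.DadeHypothesis A L H) (α : L → ℂ) (hα : Cfsg.IsClassFunction L α) (hαA : ∀ x : L, (x : G) ∉ A → α x = 0) : (∀ β : L → ℂ, Cfsg.IsClassFunction L β → (∀ x : L, (x : G) ∉ A → β x = 0) → Cfsg.classInner (Cfsg.dadeIsometry A L H α) (Cfsg.dadeIsometry A L H β) = Cfsg.classInner α β) ∧ (∀ (χ : G → ℂ) (ψ : L → ℂ), Cfsg.IsClassFunction G χ → (∀ a : L, (a : G) ∈ A → ψ a = (Nat.card (H a) : ℂ)⁻¹ * ∑ᶠ u ∈ (H a : Set G), χ (a * u)) → Cfsg.classInner (Cfsg.dadeIsometry A L H α) χ = Cfsg.classInner α ψ) := by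
  classical
  refine ⟨?_, fun χ ψ hχ hψ => part2 A L H hD α hα hαA χ ψ hχ hψ⟩
  intro β hβ hβA
  apply part2 A L H hD α hα hαA _ β (isClassFunction_dade A L H hD β hβ)
  intro a ha
  rw [finsum_mem_subgroup]
  have : ∀ u ∈ Finset.univ.filter (· ∈ H a), Cfsg.dadeIsometry A L H β (a * u) = β a := by
    intro u hu
    exact dade_apply hD hβ a ha (Finset.mem_filter.1 hu).2 (x := 1) (by simp)
  rw [Finset.sum_congr rfl this, Finset.sum_const, nsmul_eq_mul]
  have hc : (Finset.univ.filter (· ∈ H a)).card = Nat.card (H a) := by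
    rw [Nat.card_eq_fintype_card, Fintype.card_subtype]
  rw [hc]
  have h0 : (Nat.card (H a) : ℂ) ≠ 0 := by exact_mod_cast Nat.card_pos.ne'
  field_simp

end Cfsg.Agent.S1500
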