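import Cfsg.Statements.S1503
import Mathlib
import Cfsg.Agent.Lib.Helper10.LinChar
-- import your own Cfsg.Agent.* helpers here

set_option autoImplicit false
open Cfsg
open Cfsg.Agent.CharLib Cfsg.Agent.CharLib.H2 Cfsg.Agent.Lib.Helper10
open scoped ComplexConjugate

namespace Cfsg.Agent.S1503

/-- Let W₁, W₂ ≤ G with W = W₁ ⊔ W₂ and let χ an orthonormal family of irreducible characters of G up to sign, indexed by the linear characters ω of W, with χ_1 = 1, χ_ω = ω on W outside W₁ ∪ W₂, and the induction identity for (1 − φ)(1 − ψ). If θ is an irreducible character of G orthogonal to χ ω for every linear character ω of W, then θ vanishes at every element of W lying outside W₁ ∪ W₂. -/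
theorem result {G : Type*} [Group G] [Fintype G] (W₁ W₂ : Subgroup G) (hW : Cfsg.IsSelfNormalizingCyclic W₁ W₂) (χ : (↥(W₁ ⊔ W₂) →* ℂˣ) → (G → ℂ)) (hχ : Cfsg.IsCyclicTIFamily W₁ W₂ χ) (θ : G → ℂ) (hθ : Cfsg.IsIrrCharacter G θ) (horth : ∀ ω, Cfsg.classInner θ (χ ω) = 0) (w : ↥(W₁ ⊔ W₂)) (hw₁ : (w : G) ∉ W₁) (hw₂ : (w : G) ∉ W₂) : θ w = 0 := by
  classical
  obtain ⟨-, -, -, -, hcyc, hnorm⟩ := hW
  haveI := hcyc
  have hcommW : ∀ a b : ↥(W₁ ⊔ W₂), a * b = b * a := by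
    letI := IsCyclic.commGroup (α := ↥(W₁ ⊔ W₂))
    exact fun a b => mul_comm a b
  -- the centralizer of w
  have hcent : Nat.card (Subgroup.centralizer ({(w : G)} : Set G)) ≤ Nat.card ↥(W₁ ⊔ W₂) := by
    apply Subgroup.card_le_of_le
    have h1 := hnorm {(w : G)} (by
      intro x hx
      rw [Set.mem_singleton_iff] at hx
      subst hx
      exact ⟨w.2, fun h => h.elim hw₁ hw₂⟩) (Set.singleton_nonempty _)
    exact le_trans (Subgroup.centralizer_le_normalizer _) (le_of_eq h1)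
  -- the irreducible characters ± χ ω
  let ι : (↥(W₁ ⊔ W₂) →* ℂˣ) → IrrCharacter G := fun ω =>
    if h : IsIrrCharacter G (χ ω) then ⟨χ ω, h⟩ else ⟨-χ ω, (hχ.irr_or_neg ω).resolve_left h⟩
  have hι : ∀ ω, (ι ω : G → ℂ) = χ ω ∨ (ι ω : G → ℂ) = -χ ω := by
    intro ω
    by_cases h : IsIrrCharacter G (χ ω)
    · left; simp [ι, h]
    · right; simp [ι, h]
  have hself : ∀ ω, classInner (χ ω) (χ ω) = 1 := by
    intro ω
    rw [hχ.orthonormal, if_pos rfl]
  have hinj : Function.Injective ι := by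
    intro ω ω' h
    by_contra hne
    have h0 : classInner (χ ω) (χ ω') = 0 := by rw [hχ.orthonormal, if_neg hne]
    have h1 : (ι ω : G → ℂ) = ι ω' := by rw [h]
    rcases hι ω with e | e <;> rcases hι ω' with e' | e' <;> rw [e, e'] at h1
    · rw [h1, hself] at h0; exact one_ne_zero h0
    · rw [h1, classInner_neg_left, hself] at h0; simp at h0
    · rw [← neg_eq_iff_eq_neg.2 h1.symm, classInner_neg_left, hself] at h0; simp at h0
    · rw [neg_inj.1 h1, hself] at h0; exact one_ne_zero h0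
  have hθι : ∀ ω, ι ω ≠ ⟨θ, hθ⟩ := by
    intro ω h
    have h1 : (ι ω : G → ℂ) = θ := by rw [h]
    have h0 := horth ω
    rcases hι ω with e | e <;> rw [e] at h1
    · rw [← h1, hself] at h0; exact one_ne_zero h0
    · rw [← h1, classInner_neg_left, hself] at h0; simp at h0
  have hval : ∀ ω, (ι ω : G → ℂ) w * conj ((ι ω : G → ℂ) w) = 1 := by
    intro ω
    have h1 : χ ω w * conj (χ ω w) = 1 := by
      rw [hχ.eq_on ω w hw₁ hw₂, Complex.mul_conj, Complex.normSq_eq_norm_sq, lin_norm]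
      simp
    rcases hι ω with e | e <;> rw [e]
    · exact h1
    · simp only [Pi.neg_apply, map_neg, neg_mul_neg]; exact h1
  haveI : Fintype (↥(W₁ ⊔ W₂) →* ℂˣ) := Fintype.ofFinite _
  have hsum := sum_irr_mul_conj_self (w : G)
  have hre : ∀ χ' : IrrCharacter G, (χ' : G → ℂ) w * conj ((χ' : G → ℂ) w) = ((‖(χ' : G → ℂ) w‖ ^ 2 : ℝ) : ℂ) := by
    intro χ'
    rw [Complex.mul_conj, Complex.normSq_eq_norm_sq]
  simp only [hre] at hsum
  have hsum' : ∑ χ' : IrrCharacter G, ‖(χ' : G → ℂ) w‖ ^ 2 =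
      (Nat.card (Subgroup.centralizer ({(w : G)} : Set G)) : ℝ) := by
    exact_mod_cast hsum
  let S : Finset (IrrCharacter G) := insert ⟨θ, hθ⟩ (Finset.univ.image ι)
  have hle : ∑ χ' ∈ S, ‖(χ' : G → ℂ) w‖ ^ 2 ≤ ∑ χ' : IrrCharacter G, ‖(χ' : G → ℂ) w‖ ^ 2 :=
    Finset.sum_le_sum_of_subset_of_nonneg (Finset.subset_univ _) (fun _ _ _ => by positivity)
  have hS : ∑ χ' ∈ S, ‖(χ' : G → ℂ) w‖ ^ 2 = ‖θ w‖ ^ 2 + (Nat.card ↥(W₁ ⊔ W₂) : ℝ) := by
    rw [Finset.sum_insert (by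
      intro h
      obtain ⟨ω, -, hω⟩ := Finset.mem_image.1 h
      exact hθι ω hω), Finset.sum_image (fun a _ b _ h => hinj h)]
    congr 1
    have : ∀ ω, ‖(ι ω : G → ℂ) w‖ ^ 2 = 1 := by
      intro ω
      have := hval ω
      rw [hre] at this
      exact_mod_cast this
    simp only [this]
    rw [Finset.sum_const, Finset.card_univ, ← Nat.card_eq_fintype_card, card_lin hcommW]
    simp
  rw [hS, hsum'] at hle
  have h2 : (Nat.card (Subgroup.centralizer ({(w : G)} : Set G)) : ℝ) ≤ (Nat.card ↥(W₁ ⊔ W₂) : ℝ) := by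
    exact_mod_cast hcent
  have h3 : ‖θ w‖ ^ 2 ≤ 0 := by linarith
  have h4 : ‖θ w‖ = 0 := by
    have := sq_nonneg ‖θ w‖
    have h5 : ‖θ w‖ ^ 2 = 0 := le_antisymm h3 this
    exact pow_eq_zero_iff (two_ne_zero) |>.1 h5
  exact norm_eq_zero.1 h4

end Cfsg.Agent.S1503
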