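import Cfsg.Statements.S1504
import Mathlib
import Cfsg.Agent.Lib.Helper10.LinChar
-- import your own Cfsg.Agent.* helpers here

set_option autoImplicit false
open Cfsg
open Cfsg.Agent.CharLib Cfsg.Agent.CharLib.H2 Cfsg.Agent.Lib.Helper10

namespace Cfsg.Agent.S1504

/-- Let W₁, W₂ be subgroups of a finite group with W₁ ⊓ W₂ = ⊥ whose elements commute, and W = W₁ ⊔ W₂. For linear characters φ, ψ of W with φ trivial on W₂ and ψ trivial on W₁, the function (1 − φ)(1 − ψ) vanishes on W₁ ∪ W₂; and the family of these functions, indexed by pairs (φ, ψ) with φ ≠ 1 ≠ ψ, is linearly independent over ℂ. -/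
theorem result {G : Type*} [Group G] [Finite G] (W₁ W₂ : Subgroup G) (hdisj : W₁ ⊓ W₂ = ⊥) (hcomm : ∀ a ∈ W₁, ∀ b ∈ W₂, a * b = b * a) : (∀ φ ψ : ↥(W₁ ⊔ W₂) →* ℂˣ, (∀ w : ↥(W₁ ⊔ W₂), (w : G) ∈ W₂ → φ w = 1) → (∀ w : ↥(W₁ ⊔ W₂), (w : G) ∈ W₁ → ψ w = 1) → ∀ w : ↥(W₁ ⊔ W₂), ((w : G) ∈ W₁ ∨ (w : G) ∈ W₂) → (1 - (φ w : ℂ) - (ψ w : ℂ) + (φ w : ℂ) * (ψ w : ℂ)) = 0) ∧ LinearIndependent ℂ (fun p : {p : (↥(W₁ ⊔ W₂) →* ℂˣ) × (↥(W₁ ⊔ W₂) →* ℂˣ) // p.1 ≠ 1 ∧ p.2 ≠ 1 ∧ (∀ w : ↥(W₁ ⊔ W₂), (w : G) ∈ W₂ → p.1 w = 1) ∧ (∀ w : ↥(W₁ ⊔ W₂), (w : G) ∈ W₁ → p.2 w = 1)} => fun w : ↥(W₁ ⊔ W₂) => 1 - (p.1.1 w : ℂ) - (p.1.2 w : ℂ) + (p.1.1 w : ℂ) * (p.1.2 w : ℂ)) := by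
  classical
  haveI : Fintype ↥(W₁ ⊔ W₂) := Fintype.ofFinite _
  constructor
  · intro φ ψ hφ hψ w hw
    rcases hw with hw | hw
    · rw [hψ w hw]; simp
    · rw [hφ w hw]; simp
  · rw [linearIndependent_iff']
    intro s g hsum p₀ hp₀
    obtain ⟨⟨φ₀, ψ₀⟩, hφ₀1, hψ₀1, hφ₀, hψ₀⟩ := p₀
    have triv1 : ∀ w : ↥(W₁ ⊔ W₂), (w : G) ∈ W₁ → (1 : ↥(W₁ ⊔ W₂) →* ℂˣ) w = 1 := fun _ _ => rfl
    have triv2 : ∀ w : ↥(W₁ ⊔ W₂), (w : G) ∈ W₂ → (1 : ↥(W₁ ⊔ W₂) →* ℂˣ) w = 1 := fun _ _ => rfl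
    have e1 : ∀ ψ : ↥(W₁ ⊔ W₂) →* ℂˣ, (1 : ↥(W₁ ⊔ W₂) →* ℂˣ) * ψ = ψ := by intro ψ; ext w; simp
    have e2 : ∀ φ : ↥(W₁ ⊔ W₂) →* ℂˣ, φ * (1 : ↥(W₁ ⊔ W₂) →* ℂˣ) = φ := by intro φ; ext w; simp
    have key : ∀ p : {p : (↥(W₁ ⊔ W₂) →* ℂˣ) × (↥(W₁ ⊔ W₂) →* ℂˣ) // p.1 ≠ 1 ∧ p.2 ≠ 1 ∧ (∀ w : ↥(W₁ ⊔ W₂), (w : G) ∈ W₂ → p.1 w = 1) ∧ (∀ w : ↥(W₁ ⊔ W₂), (w : G) ∈ W₁ → p.2 w = 1)},
        classInner (alphaFun p.1.1 p.1.2) (fun w => ((φ₀ * ψ₀) w : ℂ)) =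
          if p = ⟨⟨φ₀, ψ₀⟩, hφ₀1, hψ₀1, hφ₀, hψ₀⟩ then 1 else 0 := by
      rintro ⟨⟨φ, ψ⟩, hφ1, hψ1, hφ, hψ⟩
      simp only at hφ1 hψ1 hφ hψ hφ₀1 hψ₀1 hφ₀ hψ₀ ⊢
      rw [classInner_alpha_lin]
      have h1 : (1 : ↥(W₁ ⊔ W₂) →* ℂˣ) ≠ φ₀ * ψ₀ := by
        intro h
        rw [← e1 1] at h
        exact hφ₀1 ((mul_eq_mul_iff triv2 hφ₀ triv1 hψ₀).1 h).1.symm
      have h2 : φ ≠ φ₀ * ψ₀ := by
        intro h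
        rw [← e2 φ] at h
        exact hψ₀1 ((mul_eq_mul_iff hφ hφ₀ triv1 hψ₀).1 h).2.symm
      have h3 : ψ ≠ φ₀ * ψ₀ := by
        intro h
        rw [← e1 ψ] at h
        exact hφ₀1 ((mul_eq_mul_iff triv2 hφ₀ hψ hψ₀).1 h).1.symm
      rw [if_neg h1, if_neg h2, if_neg h3]
      by_cases h4 : φ * ψ = φ₀ * ψ₀
      · obtain ⟨rfl, rfl⟩ := (mul_eq_mul_iff hφ hφ₀ hψ hψ₀).1 h4
        simp
      · rw [if_neg h4, if_neg]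
        · simp
        · intro h
          apply h4
          have := congrArg Subtype.val h
          simp only [Prod.mk.injEq] at this
          rw [this.1, this.2]
    have h5 := congrArg (fun f => classInner f (fun w => ((φ₀ * ψ₀) w : ℂ))) hsum
    rw [classInner_sum_left] at h5
    have h6 : classInner (0 : ↥(W₁ ⊔ W₂) → ℂ) (fun w => ((φ₀ * ψ₀) w : ℂ)) = 0 := by
      simp [classInner]
    rw [h6] at h5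
    simp only [classInner_smul_left] at h5
    have h7 : ∀ p ∈ s, g p * classInner (fun w : ↥(W₁ ⊔ W₂) => 1 - (p.1.1 w : ℂ) - (p.1.2 w : ℂ) + (p.1.1 w : ℂ) * (p.1.2 w : ℂ)) (fun w => ((φ₀ * ψ₀) w : ℂ)) =
        if p = ⟨⟨φ₀, ψ₀⟩, hφ₀1, hψ₀1, hφ₀, hψ₀⟩ then g p else 0 := by
      intro p _
      have := key p
      unfold alphaFun at this
      rw [this]
      split_ifs <;> simp
    rw [Finset.sum_congr rfl h7, Finset.sum_ite_eq' s, if_pos hp₀] at h5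
    exact h5

end Cfsg.Agent.S1504
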