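import Cfsg.Statements.S1505
import Mathlib
import Cfsg.Agent.Lib.Helper10.LinChar
import Cfsg.Agent.Lib.Helper10.CyclicTI
-- import your own Cfsg.Agent.* helpers here

set_option autoImplicit false
open Cfsg
open Cfsg.Agent.CharLib Cfsg.Agent.CharLib.H2 Cfsg.Agent.Lib.Helper10
open scoped ComplexConjugate

namespace Cfsg.Agent.S1505

open Classical in
/-- Let W₁, W₂ ≤ G form a self-normalising cyclic subgroup W = W₁ ⊔ W₂. For nontrivial linear characters φ, φ' of W trivial on W₂ and ψ, ψ' trivial on W₁, put α = (1 − φ)(1 − ψ) and α' = (1 − φ')(1 − ψ'). Then the function induced from α to G has inner product 1 with the principal character, and the inner product of the functions induced from α and α' is 1 + a + b + ab where a = 1 if φ = φ' (else 0) and b = 1 if ψ = ψ' (else 0). -/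
theorem result {G : Type*} [Group G] [Fintype G] (W₁ W₂ : Subgroup G) (hW : Cfsg.IsSelfNormalizingCyclic W₁ W₂) (φ φ' ψ ψ' : ↥(W₁ ⊔ W₂) →* ℂˣ) (hφ : φ ≠ 1) (hφ' : φ' ≠ 1) (hψ : ψ ≠ 1) (hψ' : ψ' ≠ 1) (hφ₂ : ∀ w : ↥(W₁ ⊔ W₂), (w : G) ∈ W₂ → φ w = 1 ∧ φ' w = 1) (hψ₁ : ∀ w : ↥(W₁ ⊔ W₂), (w : G) ∈ W₁ → ψ w = 1 ∧ ψ' w = 1) : Cfsg.classInner (Cfsg.indFun (W₁ ⊔ W₂) (fun w => 1 - (φ w : ℂ) - (ψ w : ℂ) + (φ w : ℂ) * (ψ w : ℂ))) (fun _ => 1) = 1 ∧ Cfsg.classInner (Cfsg.indFun (W₁ ⊔ W₂) (fun w => 1 - (φ w : ℂ) - (ψ w : ℂ) + (φ w : ℂ) * (ψ w : ℂ))) (Cfsg.indFun (W₁ ⊔ W₂) (fun w => 1 - (φ' w : ℂ) - (ψ' w : ℂ) + (φ' w : ℂ) * (ψ' w : ℂ))) = 1 + (if φ = φ' then 1 else 0) + (if ψ = ψ' then 1 else 0) + (if φ = φ' then 1 else 0) * (if ψ = ψ' then 1 else 0) := by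
  classical
  haveI : Fintype ↥(W₁ ⊔ W₂) := Fintype.ofFinite _
  have hTI := selfNormalizing_TI hW
  obtain ⟨-, -, -, -, hcyc, -⟩ := hW
  have hcommW : ∀ a b : ↥(W₁ ⊔ W₂), a * b = b * a := by
    letI := IsCyclic.commGroup (α := ↥(W₁ ⊔ W₂))
    exact fun a b => mul_comm a b
  have t1 : ∀ w : ↥(W₁ ⊔ W₂), (w : G) ∈ W₁ → (1 : ↥(W₁ ⊔ W₂) →* ℂˣ) w = 1 := fun _ _ => rfl
  have t2 : ∀ w : ↥(W₁ ⊔ W₂), (w : G) ∈ W₂ → (1 : ↥(W₁ ⊔ W₂) →* ℂˣ) w = 1 := fun _ _ => rfl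
  have e1 : ∀ ψ : ↥(W₁ ⊔ W₂) →* ℂˣ, (1 : ↥(W₁ ⊔ W₂) →* ℂˣ) * ψ = ψ := by intro ψ; ext w; simp
  have e2 : ∀ φ : ↥(W₁ ⊔ W₂) →* ℂˣ, φ * (1 : ↥(W₁ ⊔ W₂) →* ℂˣ) = φ := by intro φ; ext w; simp
  have aφ : ∀ w : ↥(W₁ ⊔ W₂), (w : G) ∈ W₂ → φ w = 1 := fun w hw => (hφ₂ w hw).1
  have aφ' : ∀ w : ↥(W₁ ⊔ W₂), (w : G) ∈ W₂ → φ' w = 1 := fun w hw => (hφ₂ w hw).2
  have aψ : ∀ w : ↥(W₁ ⊔ W₂), (w : G) ∈ W₁ → ψ w = 1 := fun w hw => (hψ₁ w hw).1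
  have aψ' : ∀ w : ↥(W₁ ⊔ W₂), (w : G) ∈ W₁ → ψ' w = 1 := fun w hw => (hψ₁ w hw).2
  have n2 : φ * ψ ≠ 1 := by
    intro h
    rw [← e1 1] at h
    exact hφ ((mul_eq_mul_iff aφ t2 aψ t1).1 h).1
  have n3 : ψ ≠ φ' := by
    intro h
    rw [← e1 ψ, ← e2 φ'] at h
    exact hψ ((mul_eq_mul_iff t2 aφ' aψ t1).1 h).2
  have n4 : φ * ψ ≠ φ' := by
    intro h
    rw [← e2 φ'] at h
    exact hψ ((mul_eq_mul_iff aφ aφ' aψ t1).1 h).2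
  have n5 : φ ≠ ψ' := by
    intro h
    rw [← e2 φ, ← e1 ψ'] at h
    exact hφ ((mul_eq_mul_iff aφ t2 t1 aψ').1 h).1
  have n6 : φ * ψ ≠ ψ' := by
    intro h
    rw [← e1 ψ'] at h
    exact hφ ((mul_eq_mul_iff aφ t2 aψ aψ').1 h).1
  have n7 : (1 : ↥(W₁ ⊔ W₂) →* ℂˣ) ≠ φ' * ψ' := by
    intro h
    rw [← e1 1] at h
    exact hφ' ((mul_eq_mul_iff t2 aφ' t1 aψ').1 h).1.symm
  have n8 : φ ≠ φ' * ψ' := by
    intro h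
    rw [← e2 φ] at h
    exact hψ' ((mul_eq_mul_iff aφ aφ' t1 aψ').1 h).2.symm
  have n9 : ψ ≠ φ' * ψ' := by
    intro h
    rw [← e1 ψ] at h
    exact hφ' ((mul_eq_mul_iff t2 aφ' aψ aψ').1 h).1.symm
  have hcl : ∀ f : ↥(W₁ ⊔ W₂) → ℂ, IsClassFunction ↥(W₁ ⊔ W₂) f := by
    intro f g h
    rw [hcommW h g, mul_inv_cancel_right]
  have hvan : ∀ (a b : ↥(W₁ ⊔ W₂) →* ℂˣ), (∀ w : ↥(W₁ ⊔ W₂), (w : G) ∈ W₂ → a w = 1) →
      (∀ w : ↥(W₁ ⊔ W₂), (w : G) ∈ W₁ → b w = 1) →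
      ∀ x : ↥(W₁ ⊔ W₂), (x : G) ∉ (↑(W₁ ⊔ W₂) : Set G) \ (↑W₁ ∪ ↑W₂) → alphaFun a b x = 0 := by
    intro a b ha hb x hx
    have : (x : G) ∈ W₁ ∨ (x : G) ∈ W₂ := by
      by_contra hno
      exact hx ⟨x.2, hno⟩
    rcases this with h | h
    · simp [alphaFun, hb x h]
    · simp [alphaFun, ha x h]
  constructor
  · rw [frobenius_reciprocity _ _ (fun _ _ => rfl)]
    have := classInner_alpha_lin φ ψ (1 : ↥(W₁ ⊔ W₂) →* ℂˣ)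
    rw [if_pos rfl, if_neg hφ, if_neg hψ, if_neg n2] at this
    have e : (fun w : ↥(W₁ ⊔ W₂) => (((1 : ↥(W₁ ⊔ W₂) →* ℂˣ) w : ℂˣ) : ℂ)) = fun _ => 1 := by
      funext w; simp
    rw [e] at this
    have h9 : classInner (alphaFun φ ψ) (fun _ : ↥(W₁ ⊔ W₂) => (1 : ℂ)) = 1 := by simpa using this
    exact h9
  · have h1 := indFun_isometry_on_TI' (W₁ ⊔ W₂) _ hTI (alphaFun φ ψ) (alphaFun φ' ψ') (hcl _)
      (hvan φ ψ aφ aψ) (hvan φ' ψ' aφ' aψ')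
    have h2 : classInner (alphaFun φ ψ) (alphaFun φ' ψ') =
        1 + (if φ = φ' then 1 else 0) + (if ψ = ψ' then 1 else 0) + (if φ * ψ = φ' * ψ' then 1 else 0) := by
      conv_lhs => rw [alphaFun_eq φ' ψ']
      rw [classInner_add_right, classInner_sub_right, classInner_sub_right, classInner_alpha_lin,
        classInner_alpha_lin, classInner_alpha_lin, classInner_alpha_lin]
      rw [if_pos rfl, if_neg hφ, if_neg hψ, if_neg n2, if_neg hφ'.symm, if_neg n3, if_neg n4,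
        if_neg hψ'.symm, if_neg n5, if_neg n6, if_neg n7, if_neg n8, if_neg n9]
      ring
    rw [h2] at h1
    change classInner (indFun (W₁ ⊔ W₂) (alphaFun φ ψ)) (indFun (W₁ ⊔ W₂) (alphaFun φ' ψ')) = _
    rw [h1]
    by_cases ha : φ = φ' <;> by_cases hb : ψ = ψ'
    · rw [if_pos ha, if_pos hb, if_pos (by rw [ha, hb]), if_pos ha, if_pos hb]; ring
    · have : ¬ (φ * ψ = φ' * ψ') := fun h => hb ((mul_eq_mul_iff aφ aφ' aψ aψ').1 h).2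
      rw [if_pos ha, if_neg hb, if_neg this, if_pos ha, if_neg hb]; ring
    · have : ¬ (φ * ψ = φ' * ψ') := fun h => ha ((mul_eq_mul_iff aφ aφ' aψ aψ').1 h).1
      rw [if_neg ha, if_pos hb, if_neg this, if_neg ha, if_pos hb]; ring
    · have : ¬ (φ * ψ = φ' * ψ') := fun h => ha ((mul_eq_mul_iff aφ aφ' aψ aψ').1 h).1
      rw [if_neg ha, if_neg hb, if_neg this, if_neg ha, if_neg hb]; ring

end Cfsg.Agent.S1505
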