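import Cfsg.Statements.S1507
import Mathlib
import Cfsg.Agent.Lib.Helper10.LinChar2
import Cfsg.Agent.Lib.Helper10.Grid
import Cfsg.Agent.S1506
-- import your own Cfsg.Agent.* helpers here

set_option autoImplicit false
open Cfsg
open Cfsg.Agent.CharLib Cfsg.Agent.CharLib.H2 Cfsg.Agent.Lib.Helper10
open scoped ComplexConjugate

namespace Cfsg.Agent.S1507

open Classical in
/-- Let W₁, W₂ ≤ G form a self-normalising cyclic subgroup W = W₁ ⊔ W₂ of odd order with Nat.card W₁ < Nat.card W₂, and χ an orthonormal family of irreducible characters of G up to sign, indexed by the linear characters ω of W, with χ_1 = 1, χ_ω = ω on W outside W₁ ∪ W₂, and the induction identity for (1 − φ)(1 − ψ). Let θ be a class function of G vanishing on W outside W₁ ∪ W₂, and suppose fewer than 2 · Nat.card W₁ linear characters ω of W have ⟨θ, χ ω⟩ ≠ 0. Then one of: all ⟨θ, χ ω⟩ vanish;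 or there are ψ₀ and a with ⟨θ, χ ω⟩ = a when ω ψ₀⁻¹ is trivial on W₂ and 0 otherwise; or there are φ₀ and a with ⟨θ, χ ω⟩ = a when ω φ₀⁻¹ is trivial on W₁ and 0 otherwise. -/
theorem result {G : Type*} [Group G] [Fintype G] (W₁ W₂ : Subgroup G) (hW : Cfsg.IsSelfNormalizingCyclic W₁ W₂) (hodd : Odd (Nat.card ↥(W₁ ⊔ W₂))) (χ : (↥(W₁ ⊔ W₂) →* ℂˣ) → (G → ℂ)) (hχ : Cfsg.IsCyclicTIFamily W₁ W₂ χ) (hlt : Nat.card W₁ < Nat.card W₂) (θ : G → ℂ) (hθ : Cfsg.IsClassFunction G θ) (hθV : ∀ w : ↥(W₁ ⊔ W₂), (w : G) ∉ W₁ → (w : G) ∉ W₂ → θ w = 0) (hfew : Nat.card {ω : ↥(W₁ ⊔ W₂) →* ℂˣ // Cfsg.classInner θ (χ ω) ≠ 0} < 2 * Nat.card W₁) : (∀ ω, Cfsg.classInner θ (χ ω) = 0) ∨ (∃ (ψ₀ : ↥(W₁ ⊔ W₂) →* ℂˣ) (a : ℂ), ∀ ω, Cfsg.classInner θ (χ ω) = if (∀ w : ↥(W₁ ⊔ W₂), (w : G) ∈ W₂ → (ω * ψ₀⁻¹) w = 1) then a else 0) ∨ (∃ (φ₀ : ↥(W₁ ⊔ W₂) →* ℂˣ) (a : ℂ), ∀ ω, Cfsg.classInner θ (χ ω) = if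 (∀ w : ↥(W₁ ⊔ W₂), (w : G) ∈ W₁ → (ω * φ₀⁻¹) w = 1) then a else 0) := by
  classical
  obtain ⟨hW1ne, hW2ne, hdisj, hcomm, hcyc, -⟩ := hW
  have hcommW : ∀ a b : ↥(W₁ ⊔ W₂), a * b = b * a := by
    letI := IsCyclic.commGroup (α := ↥(W₁ ⊔ W₂))
    exact fun a b => mul_comm a b
  let Φ := {φ : ↥(W₁ ⊔ W₂) →* ℂˣ // ∀ w : ↥(W₁ ⊔ W₂), (w : G) ∈ W₂ → φ w = 1}
  let Ψ := {ψ : ↥(W₁ ⊔ W₂) →* ℂˣ // ∀ w : ↥(W₁ ⊔ W₂), (w : G) ∈ W₁ → ψ w = 1}
  haveI : Fintype Φ := Fintype.ofFinite _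
  haveI : Fintype Ψ := Fintype.ofFinite _
  have hbij := bijective_mul W₁ W₂ hdisj hcomm hcommW
  have hcardΦ : Fintype.card Φ = Nat.card W₁ := by
    rw [← Nat.card_eq_fintype_card]; exact card_trivial_on_right W₁ W₂ hdisj hcomm hcommW
  have hcardΨ : Fintype.card Ψ = Nat.card W₂ := by
    rw [← Nat.card_eq_fintype_card]; exact card_trivial_on_left W₁ W₂ hdisj hcomm hcommW
  let x : Φ → ℂ := fun φ => Cfsg.classInner θ (χ φ.1) - Cfsg.classInner θ (χ 1)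
  let y : Ψ → ℂ := fun ψ => Cfsg.classInner θ (χ ψ.1)
  have hadd : ∀ (φ : Φ) (ψ : Ψ), Cfsg.classInner θ (χ (φ.1 * ψ.1)) = x φ + y ψ := by
    intro φ ψ
    rw [Cfsg.Agent.S1506.additive W₁ W₂ χ hχ θ hθ hθV φ.1 ψ.1 φ.2 ψ.2]
    simp only [x, y]
    ring
  have hm : 2 ≤ Fintype.card Φ := by
    rw [hcardΦ]
    have h1 : Nat.card W₁ ≠ 1 := by rwa [Ne, Subgroup.card_eq_one]
    have h0 : 0 < Nat.card W₁ := Nat.card_pos
    omega
  have hn : Fintype.card Φ + 2 ≤ Fintype.card Ψ := by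
    rw [hcardΦ, hcardΨ]
    rw [card_sup_of_commute W₁ W₂ hdisj hcomm, Nat.odd_mul] at hodd
    obtain ⟨⟨a, ha⟩, ⟨b, hb⟩⟩ := hodd
    omega
  have hcount : ∑ ψ : Ψ, (Finset.univ.filter (fun φ : Φ => x φ + y ψ ≠ 0)).card =
      Nat.card {ω : ↥(W₁ ⊔ W₂) →* ℂˣ // Cfsg.classInner θ (χ ω) ≠ 0} := by
    have e1 : Nat.card {ω : ↥(W₁ ⊔ W₂) →* ℂˣ // Cfsg.classInner θ (χ ω) ≠ 0} =
        Nat.card {p : Φ × Ψ // x p.1 + y p.2 ≠ 0} := by
      apply Nat.card_congr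
      symm
      refine Equiv.subtypeEquiv (Equiv.ofBijective _ hbij) ?_
      rintro ⟨φ, ψ⟩
      simp only [Equiv.ofBijective_apply]
      rw [hadd]
    rw [e1, Nat.card_eq_fintype_card, Fintype.card_subtype, Finset.card_filter, Fintype.sum_prod_type_right]
    refine Finset.sum_congr rfl fun ψ _ => ?_
    rw [Finset.card_filter]
  have hfew' : ∑ ψ : Ψ, (Finset.univ.filter (fun φ : Φ => x φ + y ψ ≠ 0)).card < 2 * Fintype.card Φ := by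
    rw [hcount, hcardΦ]; exact hfew
  rcases grid_lemma x y hm hn hfew' with h | ⟨ψ₀, a, h⟩ | ⟨φ₀, a, h⟩
  · left
    intro ω
    obtain ⟨⟨φ, ψ⟩, rfl⟩ := hbij.2 ω
    simp only
    rw [hadd, h]
  · right; left
    refine ⟨ψ₀.1, a, ?_⟩
    intro ω
    obtain ⟨⟨φ, ψ⟩, rfl⟩ := hbij.2 ω
    simp only
    rw [hadd, h]
    have hiff : (∀ w : ↥(W₁ ⊔ W₂), (w : G) ∈ W₂ → (φ.1 * ψ.1 * ψ₀.1⁻¹) w = 1) ↔ ψ = ψ₀ := by
      constructor
      · intro hw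
        apply Subtype.ext
        apply hom_ext_sup
        · intro w hw1
          rw [ψ.2 w hw1, ψ₀.2 w hw1]
        · intro w hw2
          have := hw w hw2
          simp only [MonoidHom.mul_apply, MonoidHom.inv_apply, φ.2 w hw2, one_mul] at this
          exact mul_inv_eq_one.1 this
      · rintro rfl w hw2
        simp [φ.2 w hw2]
    by_cases hψ : ψ = ψ₀
    · rw [if_pos hψ, if_pos (hiff.2 hψ)]
    · rw [if_neg hψ, if_neg (fun h' => hψ (hiff.1 h'))]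
  · right; right
    refine ⟨φ₀.1, a, ?_⟩
    intro ω
    obtain ⟨⟨φ, ψ⟩, rfl⟩ := hbij.2 ω
    simp only
    rw [hadd, h]
    have hiff : (∀ w : ↥(W₁ ⊔ W₂), (w : G) ∈ W₁ → (φ.1 * ψ.1 * φ₀.1⁻¹) w = 1) ↔ φ = φ₀ := by
      constructor
      · intro hw
        apply Subtype.ext
        apply hom_ext_sup
        · intro w hw1
          have := hw w hw1
          simp only [MonoidHom.mul_apply, MonoidHom.inv_apply, ψ.2 w hw1, mul_one] at this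
          exact mul_inv_eq_one.1 this
        · intro w hw2
          rw [φ.2 w hw2, φ₀.2 w hw2]
      · rintro rfl w hw1
        simp [ψ.2 w hw1]
    by_cases hφ : φ = φ₀
    · rw [if_pos hφ, if_pos (hiff.2 hφ)]
    · rw [if_neg hφ, if_neg (fun h' => hφ (hiff.1 h'))]

end Cfsg.Agent.S1507
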