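import Cfsg.Statements.S1510
import Mathlib
import Cfsg.Agent.Lib.Helper10.TypeP
-- import your own Cfsg.Agent.* helpers here

set_option autoImplicit false
open Cfsg

namespace Cfsg.Agent.S1510

/-- Let L be a finite group with a normal subgroup K and a nontrivial cyclic subgroup W₁ of order coprime to its index, K ⊓ W₁ = ⊥ and K ⊔ W₁ = ⊤; let W₂ ≠ ⊥ be a cyclic subgroup of K with K ⊓ C_L(x) = W₂ for every non-identity x ∈ W₁, and suppose W₁ ⊔ W₂ has odd order. Then (W₁, W₂) is a self-normalising cyclic pair in L. -/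
theorem result {L : Type*} [Group L] [Fintype L] (K W₁ W₂ : Subgroup L) [hK : K.Normal] (hKW₁ : K ⊓ W₁ = ⊥) (hKW₁' : K ⊔ W₁ = ⊤) (hW₁ : W₁ ≠ ⊥) (hW₁c : IsCyclic W₁) (hHall : Nat.Coprime (Nat.card W₁) W₁.index) (hW₂ : W₂ ≠ ⊥) (hW₂c : IsCyclic W₂) (hW₂K : W₂ ≤ K) (hC : ∀ x ∈ W₁, x ≠ 1 → K ⊓ Subgroup.centralizer ({x} : Set L) = W₂) (hodd : Odd (Nat.card ↥(W₁ ⊔ W₂))) : Cfsg.IsSelfNormalizingCyclic W₁ W₂ := by
  open Cfsg.Agent.Lib.Helper10 in
  have hcyc := tp_cyclic hKW₁ hKW₁' hW₁c hHall hW₂c hW₂K hC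
  refine ⟨hW₁, hW₂, tp_disj hKW₁ hW₂K, tp_comm hC, hcyc, ?_⟩
  intro X hX hXne
  have hcomm : ∀ a ∈ W₁ ⊔ W₂, ∀ b ∈ W₁ ⊔ W₂, a * b = b * a := by
    letI := IsCyclic.commGroup (α := ↥(W₁ ⊔ W₂))
    intro a ha b hb
    exact congrArg Subtype.val (mul_comm (⟨a, ha⟩ : ↥(W₁ ⊔ W₂)) ⟨b, hb⟩)
  apply le_antisymm
  · intro g hg
    obtain ⟨t, ht⟩ := hXne
    rw [Subgroup.mem_set_normalizer_iff] at hg
    have h1 := (hg t).1 ht
    have h2 := hX ht
    have h3 := hX h1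
    exact tp_TI hKW₁ hKW₁' hW₁c hHall hW₂K hC g t h2.1 (fun h => h2.2 (Or.inr h)) h3.1
  · intro g hg
    rw [Subgroup.mem_set_normalizer_iff]
    intro t
    constructor
    · intro ht
      rw [hcomm g hg t (hX ht).1, mul_inv_cancel_right]
      exact ht
    · intro ht
      have h1 := hcomm g⁻¹ (Subgroup.inv_mem _ hg) _ (hX ht).1
      have h2 : t = g * t * g⁻¹ := by
        calc t = g⁻¹ * (g * t * g⁻¹) * g := by group
          _ = g * t * g⁻¹ * g⁻¹ * g := by rw [h1]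
          _ = g * t * g⁻¹ := by group
      rw [h2]; exact ht

end Cfsg.Agent.S1510
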