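import Cfsg.Statements.S1511
import Mathlib
import Cfsg.Agent.Lib.Helper10.TypeP
import Cfsg.Agent.Lib.Helper10.Star
import Cfsg.Agent.Lib.Helper10.CyclicTI
import Cfsg.Agent.Lib.Helper10.Virtual
-- import your own Cfsg.Agent.* helpers here

set_option autoImplicit false
open Cfsg
open Cfsg.Agent.CharLib Cfsg.Agent.CharLib.H2 Cfsg.Agent.Lib.Helper10
open scoped ComplexConjugate

namespace Cfsg.Agent.S1511

/-- Let L be a finite group with K normal with complement W₁ ≠ 1 a cyclic Hall subgroup, and W₂ ≠ 1 a cyclic subgroup of K equal to C_K(x) for every non-identity x ∈ W₁, with W₁W₂ of odd order. Then there are a map μ from the linear characters of W = W₁ ⊔ W₂ to irreducible characters of L, injective, and a sign δ(ω) ∈ {1, −1} depending only on the values of ω on W₂, such that: for ω, ω' agreeing on W₂, the function induced to L from ω − ω' equals δ(ω) • (μ ω − μ ω');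 μ ω x = δ(ω) ω x for x ∈ W outside W₂; every irreducible character of L not of the form μ ω vanishes on W outside W₂; and μ ω 1 − δ(ω) is an integer multiple of Nat.card W₁. -/
theorem result {L : Type*} [Group L] [Fintype L] (K W₁ W₂ : Subgroup L) [hK : K.Normal] (hKW₁ : K ⊓ W₁ = ⊥) (hKW₁' : K ⊔ W₁ = ⊤) (hW₁ : W₁ ≠ ⊥) (hW₁c : IsCyclic W₁) (hHall : Nat.Coprime (Nat.card W₁) W₁.index) (hW₂ : W₂ ≠ ⊥) (hW₂c : IsCyclic W₂) (hW₂K : W₂ ≤ K) (hC : ∀ x ∈ W₁, x ≠ 1 → K ⊓ Subgroup.centralizer ({x} : Set L) = W₂) (hodd : Odd (Nat.card ↥(W₁ ⊔ W₂))) : ∃ (μ : (↥(W₁ ⊔ W₂) →* ℂˣ) → (L → ℂ)) (δ : (↥(W₁ ⊔ W₂) →* ℂˣ) → ℂ), Function.Injective μ ∧ (∀ ω, Cfsg.IsIrrCharacter L (μ ω)) ∧ (∀ ω, δ ω = 1 ∨ δ ω = -1) ∧ (∀ ω ω' : ↥(W₁ ⊔ W₂) →* ℂˣ, (∀ w : ↥(W₁ ⊔ W₂), (w : L) ∈ W₂ → ω w = ω' w) → δ ω = δ ω' ∧ Cfsg.indFun (W₁ ⊔ W₂) (fun w => (ω w : ℂ) - (ω' w : ℂ)) = δ ω • (μ ω - μ ω')) ∧ (∀ ω, ∀ w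 : ↥(W₁ ⊔ W₂), (w : L) ∉ W₂ → μ ω w = δ ω * (ω w : ℂ)) ∧ (∀ θ : L → ℂ, Cfsg.IsIrrCharacter L θ → (∀ ω, θ ≠ μ ω) → ∀ w : ↥(W₁ ⊔ W₂), (w : L) ∉ W₂ → θ w = 0) ∧ (∀ ω, ∃ n : ℤ, μ ω 1 - δ ω = n * (Nat.card W₁ : ℂ)) := by
  classical
  have hcyc := tp_cyclic hKW₁ hKW₁' hW₁c hHall hW₂c hW₂K hC
  have hdisj := tp_disj hKW₁ hW₂K
  have hcomm := tp_comm hC
  have hW : ∀ a b : ↥(W₁ ⊔ W₂), a * b = b * a := (IsCyclic.commGroup (α := ↥(W₁ ⊔ W₂))).mul_comm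
  have hcf : ∀ f : ↥(W₁ ⊔ W₂) → ℂ, IsClassFunction ↥(W₁ ⊔ W₂) f := by
    intro f g k
    rw [hW k g, mul_inv_cancel_right]
  have hgc : ∀ {Y : Type _} [Group Y] {χ : Y → ℂ}, IsCharacter Y χ → IsGeneralizedCharacter Y χ :=
    fun {Y} _ {χ} h => ⟨χ, 0, h, isCharacter_zero, by simp⟩
  -- the TI set
  let A : Set L := (↑(W₁ ⊔ W₂) : Set L) \ ↑W₂
  have hTI : ∀ g : L, g ∉ W₁ ⊔ W₂ → ∀ t ∈ A, g * t * g⁻¹ ∉ A := fun g hg t ht h =>
    hg (tp_TI hKW₁ hKW₁' hW₁c hHall hW₂K hC g t ht.1 ht.2 h.1)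
  let F : (↥(W₁ ⊔ W₂) →* ℂˣ) → (↥(W₁ ⊔ W₂) → ℂ) := fun ω w => (ω w : ℂ)
  let r : (↥(W₁ ⊔ W₂) →* ℂˣ) → (W₂ → ℂˣ) := fun ω w => ω ⟨w, Subgroup.mem_sup_right w.2⟩
  have hr : ∀ ω ω', r ω = r ω' ↔ ∀ w : ↥(W₁ ⊔ W₂), (w : L) ∈ W₂ → ω w = ω' w := by
    intro ω ω'
    constructor
    · intro h w hw
      exact congrFun h ⟨w, hw⟩
    · intro h
      funext w
      exact h _ w.2
  let D : (↥(W₁ ⊔ W₂) →* ℂˣ) → (↥(W₁ ⊔ W₂) →* ℂˣ) → (L → ℂ) := fun ω ω' => indFun (W₁ ⊔ W₂) (F ω - F ω')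
  have hvan : ∀ ω ω', r ω = r ω' → ∀ x : ↥(W₁ ⊔ W₂), (x : L) ∉ A → (F ω - F ω') x = 0 := by
    intro ω ω' h x hx
    have hx2 : (x : L) ∈ W₂ := by
      by_contra h2
      exact hx ⟨x.2, h2⟩
    simp only [F, Pi.sub_apply]
    rw [(hr ω ω').1 h x hx2, sub_self]
  have hFF : ∀ ω ω', classInner (F ω) (F ω') = if ω = ω' then 1 else 0 := fun ω ω' => classInner_lin ω ω'
  have hinner : ∀ ω₁ ω₂ ω₃ ω₄, r ω₁ = r ω₂ → r ω₃ = r ω₄ → classInner (D ω₁ ω₂) (D ω₃ ω₄) =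
      (if ω₁ = ω₃ then 1 else 0) - (if ω₁ = ω₄ then 1 else 0) - (if ω₂ = ω₃ then 1 else 0) +
        (if ω₂ = ω₄ then 1 else 0) := by
    intro ω₁ ω₂ ω₃ ω₄ h12 h34
    simp only [D]
    rw [indFun_isometry_on_TI' (W₁ ⊔ W₂) A hTI _ _ (hcf _) (hvan _ _ h12) (hvan _ _ h34),
      classInner_sub_left, classInner_sub_right, classInner_sub_right, hFF, hFF, hFF, hFF]
    ring
  have hgen : ∀ ω ω', IsGeneralizedCharacter L (D ω ω') := by
    intro ω ω'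
    refine ⟨indFun (W₁ ⊔ W₂) (F ω), indFun (W₁ ⊔ W₂) (F ω'),
      isCharacter_indFun _ (isCharacter_of_irr (isIrrCharacter_of_hom ω)),
      isCharacter_indFun _ (isCharacter_of_irr (isIrrCharacter_of_hom ω')), ?_⟩
    exact indFun_sub _ _ _
  have hone : ∀ ω ω', D ω ω' 1 = 0 := by
    intro ω ω'
    simp only [D]
    rw [indFun_apply_one]
    simp [F]
  have hdiff : ∀ ω ω', r ω = r ω' → ω ≠ ω' →
      ∃ a b : IrrCharacter L, a ≠ b ∧ D ω ω' = (a : L → ℂ) - (b : L → ℂ) := by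
    intro ω ω' h hne
    have h2 : classInner (D ω ω') (D ω ω') = 2 := by
      rw [hinner _ _ _ _ h h, if_pos rfl, if_pos rfl, if_neg hne, if_neg hne.symm]; norm_num
    obtain ⟨μ₁, μ₂, h₁, h₂, hne', heq⟩ := exists_sub_of_norm_two (hgen ω ω') h2 (hone ω ω')
    exact ⟨⟨μ₁, h₁⟩, ⟨μ₂, h₂⟩, fun h => hne' (congrArg Subtype.val h), heq⟩
  have hadd : ∀ ω₁ ω₂ ω₃, D ω₁ ω₂ + D ω₂ ω₃ = D ω₁ ω₃ := by
    intro ω₁ ω₂ ω₃
    simp only [D]
    rw [← indFun_add]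
    congr 1
    abel
  -- a nontrivial character trivial on `W₂`
  obtain ⟨l₀, hl₀, hl₀1⟩ : ∃ l₀ : ↥(W₁ ⊔ W₂) →* ℂˣ, (∀ w : ↥(W₁ ⊔ W₂), (w : L) ∈ W₂ → l₀ w = 1) ∧ l₀ ≠ 1 := by
    have h1 := card_trivial_on_right W₁ W₂ hdisj hcomm hW
    have h2 : 1 < Nat.card W₁ := by
      rw [Finite.one_lt_card_iff_nontrivial]
      exact (Subgroup.nontrivial_iff_ne_bot W₁).2 hW₁
    rw [← h1, Finite.one_lt_card_iff_nontrivial] at h2
    obtain ⟨⟨l, hl⟩, hne⟩ := exists_ne (⟨1, fun _ _ => rfl⟩ :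
      {φ : ↥(W₁ ⊔ W₂) →* ℂˣ // ∀ w : ↥(W₁ ⊔ W₂), (w : L) ∈ W₂ → φ w = 1})
    exact ⟨l, hl, fun h => hne (Subtype.ext h)⟩
  have hrl : ∀ ω, r (l₀ * ω) = r ω := by
    intro ω
    rw [hr]
    intro w hw
    rw [MonoidHom.mul_apply, hl₀ w hw, one_mul]
  have hlne : ∀ ω, l₀ * ω ≠ ω := by
    intro ω h
    apply hl₀1
    ext w
    have h2 := DFunLike.congr_fun h w
    rw [MonoidHom.mul_apply] at h2
    rw [mul_eq_right.1 h2]; rfl
  have hstar : ∀ c : W₂ → ℂˣ, ∃ (δ : ℂ) (μ : {ω // r ω = c} → IrrCharacter L), (δ = 1 ∨ δ = -1) ∧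
      Function.Injective μ ∧ ∀ i j : {ω // r ω = c}, D i j = δ • ((μ i : L → ℂ) - (μ j : L → ℂ)) := by
    intro c
    by_cases hne : Nonempty {ω // r ω = c}
    · obtain ⟨⟨ω, hω⟩⟩ := hne
      apply star_coherent (fun i j : {ω // r ω = c} => D i j) (fun i j k => hadd _ _ _)
        (fun i j hij => hdiff _ _ (i.2.trans j.2.symm) (fun h => hij (Subtype.ext h))) _
        ⟨ω, hω⟩ ⟨l₀ * ω, (hrl ω).trans hω⟩ (fun h => hlne ω (congrArg Subtype.val h).symm)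
      intro i j k hij hik hjk
      have hij' : (i : ↥(W₁ ⊔ W₂) →* ℂˣ) ≠ j := fun h => hij (Subtype.ext h)
      have hik' : (i : ↥(W₁ ⊔ W₂) →* ℂˣ) ≠ k := fun h => hik (Subtype.ext h)
      have hjk' : (j : ↥(W₁ ⊔ W₂) →* ℂˣ) ≠ k := fun h => hjk (Subtype.ext h)
      rw [hinner _ _ _ _ (i.2.trans j.2.symm) (i.2.trans k.2.symm), if_pos rfl, if_neg hik', if_neg hij'.symm,
        if_neg hjk']
      norm_num
    · exact ⟨1, fun i => (hne ⟨i⟩).elim, Or.inl rfl, fun i => (hne ⟨i⟩).elim, fun i => (hne ⟨i⟩).elim⟩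
  choose δ₀ μ₀ hδ₀ hμ₀inj hμ₀D using hstar
  let δ : (↥(W₁ ⊔ W₂) →* ℂˣ) → ℂ := fun ω => δ₀ (r ω)
  let μ : (↥(W₁ ⊔ W₂) →* ℂˣ) → IrrCharacter L := fun ω => μ₀ (r ω) ⟨ω, rfl⟩
  have hμ' : ∀ ω c (h : r ω = c), μ₀ c ⟨ω, h⟩ = μ ω := by
    intro ω c h; subst h; rfl
  have hD : ∀ ω ω', r ω = r ω' → D ω ω' = δ ω • ((μ ω : L → ℂ) - (μ ω' : L → ℂ)) := by
    intro ω ω' h
    have := hμ₀D (r ω) ⟨ω, rfl⟩ ⟨ω', h.symm⟩
    rw [hμ' ω' (r ω) h.symm] at this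
    exact this
  have hδ : ∀ ω, δ ω = 1 ∨ δ ω = -1 := fun ω => hδ₀ (r ω)
  have hδconj : ∀ ω, conj (δ ω) = δ ω := by
    intro ω
    rcases hδ ω with h | h <;> rw [h] <;> simp
  have hδne : ∀ ω, δ ω ≠ 0 := by
    intro ω
    rcases hδ ω with h | h <;> rw [h] <;> norm_num
  have hδr : ∀ ω ω', r ω = r ω' → δ ω = δ ω' := by
    intro ω ω' h
    simp only [δ]; rw [h]
  have hinjfib : ∀ ω ω', r ω = r ω' → μ ω = μ ω' → ω = ω' := by
    intro ω ω' h hμ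
    rw [← hμ' ω' (r ω) h.symm] at hμ
    exact congrArg Subtype.val (hμ₀inj (r ω) hμ)
  have hinj : Function.Injective μ := by
    intro ω ω' hμ
    by_cases h : r ω = r ω'
    · exact hinjfib ω ω' h hμ
    · exfalso
      have h1 := hinner ω (l₀ * ω) ω' (l₀ * ω') (hrl ω).symm (hrl ω').symm
      have n1 : ω ≠ ω' := fun e => h (by rw [e])
      have n2 : ω ≠ l₀ * ω' := fun e => h (by rw [e, hrl])
      have n3 : l₀ * ω ≠ ω' := fun e => h (by rw [← e, hrl])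
      have n4 : l₀ * ω ≠ l₀ * ω' := fun e => n1 (mul_left_cancel e)
      rw [if_neg n1, if_neg n2, if_neg n3, if_neg n4, hD _ _ (hrl ω).symm, hD _ _ (hrl ω').symm,
        classInner_smul_left, classInner_smul_right, inner_diff, if_pos hμ] at h1
      have m1 : μ ω ≠ μ (l₀ * ω') := by
        rw [hμ]
        intro e
        exact hlne ω' (hinjfib _ _ (hrl ω').symm e).symm
      have m2 : μ (l₀ * ω) ≠ μ ω' := by
        rw [← hμ]
        intro e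
        exact hlne ω (hinjfib _ _ (hrl ω) e)
      rw [if_neg m1, if_neg m2, hδconj] at h1
      have h2 : (1 - 0 - 0 + (if μ (l₀ * ω) = μ (l₀ * ω') then (1 : ℂ) else 0)) ≠ 0 := by
        split_ifs <;> norm_num
      have h3 : δ ω * (δ ω' * (1 - 0 - 0 + (if μ (l₀ * ω) = μ (l₀ * ω') then (1 : ℂ) else 0))) ≠ 0 :=
        mul_ne_zero (hδne ω) (mul_ne_zero (hδne ω') h2)
      apply h3
      rw [h1]; norm_num
  -- multiplicities
  have hmult : ∀ (θ : L → ℂ), IsIrrCharacter L θ → ∀ ω₁ ω₂, r ω₁ = r ω₂ →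
      classInner (F ω₁) (fun w : ↥(W₁ ⊔ W₂) => θ w) - classInner (F ω₂) (fun w : ↥(W₁ ⊔ W₂) => θ w) =
        δ ω₁ * (classInner (μ ω₁ : L → ℂ) θ - classInner (μ ω₂ : L → ℂ) θ) := by
    intro θ hθ ω₁ ω₂ h
    rw [← classInner_sub_left, ← frobenius_reciprocity _ _ (isClassFunction_of_irr hθ)]
    change classInner (D ω₁ ω₂) θ = _
    rw [hD _ _ h, classInner_smul_left, classInner_sub_left]
  have hval : ∀ ω, ∀ w : ↥(W₁ ⊔ W₂), (w : L) ∉ W₂ → (μ ω : L → ℂ) w = δ ω * (ω w : ℂ) := by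
    intro ω₀ w hw
    have h1 := vanish_off hW (W₂.subgroupOf (W₁ ⊔ W₂))
      ((fun w : ↥(W₁ ⊔ W₂) => (μ ω₀ : L → ℂ) w) - δ ω₀ • F ω₀) (by
        intro ω₁ ω₂ h12
        have h12' : r ω₁ = r ω₂ := (hr _ _).2 (fun w hw => h12 w (Subgroup.mem_subgroupOf.2 hw))
        have h2 := hmult _ (μ ω₀).2 ω₁ ω₂ h12'
        rw [classInner_irrCharacter, classInner_irrCharacter] at h2
        change classInner (F ω₁) _ = classInner (F ω₂) _
        rw [classInner_sub_right, classInner_sub_right, classInner_smul_right, classInner_smul_right, hFF, hFF,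
          hδconj]
        have h3 : classInner (F ω₁) (fun w : ↥(W₁ ⊔ W₂) => (μ ω₀ : L → ℂ) w) =
            classInner (F ω₂) (fun w : ↥(W₁ ⊔ W₂) => (μ ω₀ : L → ℂ) w) +
              δ ω₁ * ((if μ ω₁ = μ ω₀ then 1 else 0) - (if μ ω₂ = μ ω₀ then 1 else 0)) := by
          rw [← h2]; ring
        rw [h3]
        by_cases hc : r ω₁ = r ω₀
        · rw [hδr _ _ hc]
          have e1 : (if μ ω₁ = μ ω₀ then (1 : ℂ) else 0) = if ω₁ = ω₀ then 1 else 0 := by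
            by_cases e : ω₁ = ω₀
            · rw [if_pos e, if_pos (by rw [e])]
            · rw [if_neg e, if_neg (fun e' => e (hinj e'))]
          have e2 : (if μ ω₂ = μ ω₀ then (1 : ℂ) else 0) = if ω₂ = ω₀ then 1 else 0 := by
            by_cases e : ω₂ = ω₀
            · rw [if_pos e, if_pos (by rw [e])]
            · rw [if_neg e, if_neg (fun e' => e (hinj e'))]
          rw [e1, e2]; ring
        · have n1 : ω₁ ≠ ω₀ := fun e => hc (by rw [e])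
          have n2 : ω₂ ≠ ω₀ := fun e => hc (by rw [h12', e])
          rw [if_neg n1, if_neg n2, if_neg (fun e' => n1 (hinj e')), if_neg (fun e' => n2 (hinj e'))]
          ring) w (fun h => hw (Subgroup.mem_subgroupOf.1 h))
    simp only [Pi.sub_apply, Pi.smul_apply, smul_eq_mul, F] at h1
    exact sub_eq_zero.1 h1
  refine ⟨fun ω => (μ ω : L → ℂ), δ, fun a b h => hinj (Subtype.ext h), fun ω => (μ ω).2, hδ, ?_, hval, ?_, ?_⟩
  · intro ω ω' h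
    have h' := (hr ω ω').2 h
    exact ⟨hδr _ _ h', hD ω ω' h'⟩
  · intro θ hθ hne w hw
    apply vanish_off hW (W₂.subgroupOf (W₁ ⊔ W₂)) (fun w : ↥(W₁ ⊔ W₂) => θ w) _ w
      (fun h => hw (Subgroup.mem_subgroupOf.1 h))
    intro ω₁ ω₂ h12
    have h12' : r ω₁ = r ω₂ := (hr _ _).2 (fun w hw => h12 w (Subgroup.mem_subgroupOf.2 hw))
    have h2 := hmult θ hθ ω₁ ω₂ h12'
    rw [classInner_irr_ne (μ ω₁).2 hθ (fun e => hne ω₁ e.symm), classInner_irr_ne (μ ω₂).2 hθ (fun e => hne ω₂ e.symm),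
      sub_self, mul_zero] at h2
    exact sub_eq_zero.1 h2
  · intro ω
    let ι : W₁ →* ↥(W₁ ⊔ W₂) := Subgroup.inclusion le_sup_left
    let φ₁ : W₁ → ℂ := (fun w : W₁ => (μ ω : L → ℂ) w) - δ ω • (fun w : W₁ => ((ω.comp ι) w : ℂ))
    have hg1 : IsGeneralizedCharacter W₁ (fun w : W₁ => (μ ω : L → ℂ) w) :=
      hgc (isCharacter_restrict (isCharacter_of_irr (μ ω).2) W₁)
    have hg2 : IsGeneralizedCharacter W₁ (fun w : W₁ => ((ω.comp ι) w : ℂ)) :=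
      hgc (isCharacter_of_irr (isIrrCharacter_of_hom _))
    have hg3 : IsGeneralizedCharacter W₁ (δ ω • (fun w : W₁ => ((ω.comp ι) w : ℂ))) := by
      rcases hδ ω with h | h
      · rw [h, one_smul]; exact hg2
      · rw [h, neg_one_smul]; exact isGeneralizedCharacter_neg hg2
    have hg : IsGeneralizedCharacter W₁ φ₁ := isGeneralizedCharacter_sub hg1 hg3
    obtain ⟨n, hn⟩ := classInner_virtual_int hg
      (hgc (isCharacter_of_irr (isIrrCharacter_one (G := W₁))))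
    refine ⟨n, ?_⟩
    rw [← hn, classInner, Finset.sum_eq_single (1 : W₁)]
    · have h0 : (Nat.card W₁ : ℂ) ≠ 0 := by
        have : 0 < Nat.card W₁ := Nat.card_pos
        exact_mod_cast this.ne'
      simp only [φ₁, Pi.sub_apply, Pi.smul_apply, smul_eq_mul, map_one, Units.val_one, mul_one,
        OneMemClass.coe_one]
      field_simp
    · intro w _ hw1
      have hw2 : ((ι w : ↥(W₁ ⊔ W₂)) : L) ∉ W₂ := by
        intro h
        have h3 : (w : L) ∈ W₁ ⊓ W₂ := ⟨w.2, h⟩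
        rw [hdisj, Subgroup.mem_bot] at h3
        exact hw1 (Subtype.ext h3)
      have h4 := hval ω (ι w) hw2
      have h5 : φ₁ w = 0 := by
        simp only [φ₁, Pi.sub_apply, Pi.smul_apply, smul_eq_mul, MonoidHom.comp_apply]
        exact sub_eq_zero.2 h4
      rw [h5, zero_mul]
    · intro h; exact absurd (Finset.mem_univ _) h

end Cfsg.Agent.S1511
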