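import Cfsg.Statements.S1513
import Mathlib
import Cfsg.Agent.Lib.Helper10.PrimeAct
-- import your own Cfsg.Agent.* helpers here

set_option autoImplicit false
open Cfsg

namespace Cfsg.Agent.S1513

/-- Let L be a finite group with K normal with complement W₁ ≠ 1 a cyclic Hall subgroup, and W₂ ≠ 1 a cyclic subgroup of K equal to C_K(x) for every non-identity x ∈ W₁, with W₁W₂ of odd order. For an irreducible character θ of K: if θ is not fixed under conjugation by some element of W₁, then the function induced from θ to L is an irreducible character of L; and the irreducible characters of K fixed by all of W₁ are exactly Nat.card W₂ in number, each inducing to the sum of Nat.card W₁ pairwise distinct irreducible characters of L. -/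
theorem result {L : Type*} [Group L] [Fintype L] (K W₁ W₂ : Subgroup L) [hK : K.Normal] (hKW₁ : K ⊓ W₁ = ⊥) (hKW₁' : K ⊔ W₁ = ⊤) (hW₁ : W₁ ≠ ⊥) (hW₁c : IsCyclic W₁) (hHall : Nat.Coprime (Nat.card W₁) W₁.index) (hW₂ : W₂ ≠ ⊥) (hW₂c : IsCyclic W₂) (hW₂K : W₂ ≤ K) (hC : ∀ x ∈ W₁, x ≠ 1 → K ⊓ Subgroup.centralizer ({x} : Set L) = W₂) (hodd : Odd (Nat.card ↥(W₁ ⊔ W₂))) : (∀ θ : K → ℂ, Cfsg.IsIrrCharacter K θ → (∃ x ∈ W₁, (fun k : K => θ ⟨x * k * x⁻¹, hK.conj_mem (k : L) k.2 x⟩) ≠ θ) → Cfsg.IsIrrCharacter L (Cfsg.indFun K θ)) ∧ Nat.card {θ : Cfsg.IrrCharacter K // ∀ x ∈ W₁, (fun k : K => (θ : K → ℂ) ⟨x * k * x⁻¹, hK.conj_mem (k : L) k.2 x⟩) = θ} = Nat.card W₂ ∧ (∀ θ : K → ℂ, Cfsg.IsIrrCharacter K θ → (∀ x ∈ W₁, (fun k : K => θ ⟨x * k * x⁻¹, hK.conj_mem (k : L) k.2 x⟩) = θ) → ∃ C : Finset (L → ℂ), C.card = Nat.card W₁ ∧ (∀ μ ∈ C, Cfsg.IsIrrCharacter L μ) ∧ Cfsg.indFun K θ = ∑ μ ∈ C, μ) := by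
  classical
  open Cfsg.Agent.CharLib Cfsg.Agent.CharLib.H2 Cfsg.Agent.Lib.Helper10 in
  -- basic structure
  have hcompl : K.IsComplement' W₁ := Subgroup.isComplement'_of_disjoint_and_mul_eq_univ
    (disjoint_iff.2 hKW₁) (by
      rw [← Subgroup.normal_mul, hKW₁']; rfl)
  have hidxW : W₁.index = Nat.card K := hcompl.index_eq_card
  have hidxK : K.index = Nat.card W₁ := hcompl.symm.index_eq_card
  have hdecomp : ∀ g : L, ∃ k ∈ K, ∃ w ∈ W₁, g = k * w := by
    intro g
    have hg : g ∈ K ⊔ W₁ := by rw [hKW₁']; trivial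
    rw [← SetLike.mem_coe, Subgroup.normal_mul] at hg
    obtain ⟨k, hk, w, hw, rfl⟩ := Set.mem_mul.1 hg
    exact ⟨k, hk, w, hw, rfl⟩
  have hcopx : ∀ x ∈ W₁, Nat.Coprime (orderOf x) (Nat.card K) := by
    intro x hx
    rw [← hidxW]
    exact Nat.Coprime.coprime_dvd_left (Subgroup.orderOf_dvd_natCard W₁ hx) hHall
  have habW₂ : ∀ a ∈ W₂, ∀ b ∈ W₂, a * b = b * a := by
    intro a ha b hb
    have := (IsCyclic.commGroup (α := W₂)).mul_comm ⟨a, ha⟩ ⟨b, hb⟩
    exact congrArg Subtype.val this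
  have habW₁ : ∀ a ∈ W₁, ∀ b ∈ W₁, a * b = b * a := by
    intro a ha b hb
    have := (IsCyclic.commGroup (α := W₁)).mul_comm ⟨a, ha⟩ ⟨b, hb⟩
    exact congrArg Subtype.val this
  have hcardx : ∀ x ∈ W₁, x ≠ 1 →
      Nat.card {θ : IrrCharacter K // H2.conjFun hK (θ : K → ℂ) x = θ} = Nat.card W₂ := by
    intro x hx hx1
    apply card_fixed_irr K W₂ x hx1 (hcopx x hx) _ habW₂
    intro y hy hy1
    exact hC y ((Subgroup.zpowers_le.2 hx) hy) hy1
  obtain ⟨⟨x₀, hx₀⟩, hgen⟩ := hW₁c.exists_generator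
  have hx₀1 : x₀ ≠ 1 := by
    rintro rfl
    apply hW₁
    rw [Subgroup.eq_bot_iff_forall]
    intro y hy
    obtain ⟨n, hn⟩ := Subgroup.mem_zpowers_iff.1 (hgen ⟨y, hy⟩)
    have := congrArg Subtype.val hn
    simpa using this.symm
  have hfixall : ∀ θ : K → ℂ, H2.conjFun hK θ x₀ = θ → ∀ x ∈ W₁, H2.conjFun hK θ x = θ := by
    intro θ h x hx
    have h1 := hgen ⟨x, hx⟩
    rw [← mem_powers_iff_mem_zpowers] at h1
    obtain ⟨n, hn⟩ := h1
    have h2 : x = x₀ ^ n := by
      have := congrArg Subtype.val hn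
      simpa using this.symm
    rw [h2]
    exact conjFun_pow_of_fixed hK h n
  have hpart2 : Nat.card {θ : Cfsg.IrrCharacter K // ∀ x ∈ W₁, H2.conjFun hK (θ : K → ℂ) x = θ} = Nat.card W₂ := by
    rw [← hcardx x₀ hx₀ hx₀1]
    apply Nat.card_congr
    apply Equiv.subtypeEquivRight
    intro θ
    exact ⟨fun h => h x₀ hx₀, fun h => hfixall θ h⟩
  -- a character fixed by one non-identity element is fixed by all
  have hone_all : ∀ θ : K → ℂ, IsIrrCharacter K θ → ∀ x ∈ W₁, x ≠ 1 → H2.conjFun hK θ x = θ →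
      ∀ y ∈ W₁, H2.conjFun hK θ y = θ := by
    intro θ hθ x hx hx1 hfix
    let A : Set (IrrCharacter K) := {θ | ∀ y ∈ W₁, H2.conjFun hK (θ : K → ℂ) y = θ}
    let B : Set (IrrCharacter K) := {θ | H2.conjFun hK (θ : K → ℂ) x = θ}
    have hAB : A ⊆ B := fun θ h => h x hx
    have hcard : B.ncard ≤ A.ncard := by
      have h1 : A.ncard = Nat.card W₂ := hpart2
      have h2 : B.ncard = Nat.card W₂ := hcardx x hx hx1
      rw [h1, h2]
    have hEq : A = B := Set.eq_of_subset_of_ncard_le hAB hcard (Set.toFinite _)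
    have hmem : (⟨θ, hθ⟩ : IrrCharacter K) ∈ B := hfix
    rw [← hEq] at hmem
    exact hmem
  refine ⟨?_, hpart2, ?_⟩
  · rintro θ hθ ⟨x, hx, hne⟩
    have hne' : H2.conjFun hK θ x ≠ θ := hne
    have hstab : ∀ g : L, H2.conjFun hK θ g = θ ↔ g ∈ K := by
      intro g
      constructor
      · intro hg
        obtain ⟨k, hk, w, hw, rfl⟩ := hdecomp g
        rw [← conjFun_conjFun, conjFun_of_mem hK (isClassFunction_of_irr hθ) hk] at hg
        by_cases hw1 : w = 1
        · rw [hw1, mul_one]; exact hk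
        · exact absurd (hone_all θ hθ w hw hw1 hg x hx) hne'
      · intro hg
        exact conjFun_of_mem hK (isClassFunction_of_irr hθ) hg
    apply isIrrCharacter_of_norm_one (isCharacter_indFun K (isCharacter_of_irr hθ))
    have h1 := card_mul_norm_indFun hK hθ
    have h2 : Nat.card {g : L // H2.conjFun hK θ g = θ} = Nat.card K := by
      apply Nat.card_congr
      apply Equiv.subtypeEquivRight
      intro g
      exact hstab g
    rw [h2] at h1
    have h3 : (Nat.card K : ℂ) ≠ 0 := by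
      have : 0 < Nat.card K := Nat.card_pos
      exact_mod_cast this.ne'
    exact mul_left_cancel₀ h3 (by rw [h1, mul_one])
  · intro θ hθ hfix
    have hinv : ∀ t : L, H2.conjFun hK θ t = θ := by
      intro t
      obtain ⟨k, hk, w, hw, rfl⟩ := hdecomp t
      rw [← conjFun_conjFun, conjFun_of_mem hK (isClassFunction_of_irr hθ) hk]
      exact hfix w hw
    have hab : ∀ x y : L, x * y * x⁻¹ * y⁻¹ ∈ K := by
      intro x y
      rw [← QuotientGroup.eq_one_iff]
      obtain ⟨k, hk, w, hw, rfl⟩ := hdecomp x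
      obtain ⟨k', hk', w', hw', rfl⟩ := hdecomp y
      have e1 : ((k : L) : L ⧸ K) = 1 := (QuotientGroup.eq_one_iff k).2 hk
      have e2 : ((k' : L) : L ⧸ K) = 1 := (QuotientGroup.eq_one_iff k').2 hk'
      have e3 : ((w : L) : L ⧸ K) * ((w' : L) : L ⧸ K) = ((w' : L) : L ⧸ K) * ((w : L) : L ⧸ K) := by
        rw [← QuotientGroup.mk_mul, ← QuotientGroup.mk_mul, habW₁ w hw w' hw']
      simp only [QuotientGroup.mk_mul, QuotientGroup.mk_inv, e1, e2, one_mul]
      rw [e3]; group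
    obtain ⟨C, hCcard, hCind, -⟩ := invariant_abelian_coprime K θ hθ hinv hab (by
      rw [hidxK, ← hidxW]; exact hHall.symm)
    refine ⟨C.image (Subtype.val : IrrCharacter L → (L → ℂ)), ?_, ?_, ?_⟩
    · rw [Finset.card_image_of_injective _ Subtype.val_injective, hCcard, hidxK]
    · intro μ hμ
      obtain ⟨ψ, _, rfl⟩ := Finset.mem_image.1 hμ
      exact ψ.2
    · rw [hCind, Finset.sum_image (fun a _ b _ h => Subtype.val_injective h)]

end Cfsg.Agent.S1513
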