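import Cfsg.Statements.S1514
import Mathlib
import Cfsg.Agent.Lib.Helper10.Coh
-- import your own Cfsg.Agent.* helpers here

set_option autoImplicit false
open Cfsg
open Cfsg.Agent.CharLib Cfsg.Agent.Lib.Helper10
open scoped ComplexConjugate

namespace Cfsg.Agent.S1514

theorem classInner_conjFun_conjFun {L : Type*} [Group L] [Fintype L] (φ χ : L → ℂ) :
    Cfsg.classInner (Cfsg.conjFun φ) (Cfsg.conjFun χ) = conj (Cfsg.classInner φ χ) := by
  simp only [Cfsg.classInner, Cfsg.conjFun, map_mul, map_inv₀, map_natCast, map_sum]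

theorem classInner_conjFun_left {L : Type*} [Group L] [Fintype L] (φ χ : L → ℂ) :
    Cfsg.classInner (Cfsg.conjFun φ) χ = conj (Cfsg.classInner φ (Cfsg.conjFun χ)) := by
  simp only [Cfsg.classInner, Cfsg.conjFun, map_mul, map_inv₀, map_natCast, map_sum, Complex.conj_conj]

/-- Let S be a nonempty set of irreducible characters of the finite group L, closed under complex conjugation and containing no real-valued member, and τ a linear isometry on the integer combinations of S vanishing at 1, with values virtual characters of G vanishing at 1. Then there is a choice R making (S, τ, R) a coherence system. -/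
theorem result {L : Type*} [Group L] [Fintype L] {G : Type*} [Group G] [Fintype G] (S : Set (L → ℂ)) (hS : S.Nonempty) (hirr : ∀ χ ∈ S, Cfsg.IsIrrCharacter L χ) (hconj : ∀ χ ∈ S, Cfsg.conjFun χ ∈ S ∧ Cfsg.conjFun χ ≠ χ) (τ : (L → ℂ) → (G → ℂ)) (hτ : Cfsg.IsLinearIsometryOn (Cfsg.zspanOn S {1}ᶜ) τ) (hτ1 : ∀ α ∈ Cfsg.zspanOn S {1}ᶜ, τ α 1 = 0) : ∃ R : (L → ℂ) → Finset (G → ℂ), Cfsg.IsCoherenceSystem S τ R := by
  classical
  have hmem : ∀ χ ∈ S, χ - Cfsg.conjFun χ ∈ Cfsg.zspanOn S {1}ᶜ := by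
    intro χ hχ
    rw [mem_zspanOn_one_iff]
    refine ⟨zspan_sub (mem_zspan_of_mem hχ) (mem_zspan_of_mem (hconj χ hχ).1), ?_⟩
    obtain ⟨n, -, hn⟩ := irr_apply_one_nat ⟨χ, hirr χ hχ⟩
    simp only at hn
    simp [Cfsg.conjFun, hn]
  have hinner : ∀ φ ∈ S, ∀ χ ∈ S, Cfsg.classInner (φ - Cfsg.conjFun φ) (χ - Cfsg.conjFun χ) =
      Cfsg.classInner φ χ - Cfsg.classInner φ (Cfsg.conjFun χ) - conj (Cfsg.classInner φ (Cfsg.conjFun χ)) +
        conj (Cfsg.classInner φ χ) := by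
    intro φ _ χ _
    rw [classInner_sub_left, classInner_sub_right, classInner_sub_right, classInner_conjFun_conjFun,
      classInner_conjFun_left]
    ring
  have H : ∀ χ : S, ∃ μ₁ μ₂ : G → ℂ, IsIrrCharacter G μ₁ ∧ IsIrrCharacter G μ₂ ∧ μ₁ ≠ μ₂ ∧
      τ ((χ : L → ℂ) - Cfsg.conjFun χ) = μ₁ - μ₂ := by
    rintro ⟨χ, hχ⟩
    apply exists_sub_of_norm_two (lio_virtual hτ (hmem χ hχ))
    · rw [lio_inner hτ (hmem χ hχ) (hmem χ hχ), hinner χ hχ χ hχ, classInner_irr_self (hirr χ hχ),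
        classInner_irr_ne (hirr χ hχ) (hirr _ (hconj χ hχ).1) (hconj χ hχ).2.symm]
      simp; norm_num
    · exact hτ1 _ (hmem χ hχ)
  choose μ₁ μ₂ h1 h2 hne hτeq using H
  have hne' : ∀ χ : S, μ₁ χ ≠ -μ₂ χ := by
    intro χ h
    have := classInner_irr_self (h1 χ)
    rw [h] at this
    nth_rewrite 1 [← h] at this
    rw [classInner_neg_right, classInner_irr_ne (h1 χ) (h2 χ) (hne χ)] at this
    simp at this
  let R : (L → ℂ) → Finset (G → ℂ) := fun χ => if h : χ ∈ S then {μ₁ ⟨χ, h⟩, -μ₂ ⟨χ, h⟩} else ∅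
  have hR : ∀ χ (h : χ ∈ S), R χ = {μ₁ ⟨χ, h⟩, -μ₂ ⟨χ, h⟩} := by
    intro χ h
    simp only [R]
    rw [dif_pos h]
  refine ⟨R, ?_⟩
  refine
    { nonempty := hS
      isCharacter := fun χ hχ => isCharacter_of_irr (hirr χ hχ)
      conj_mem := fun χ hχ => (hconj χ hχ).1
      conj_ne := fun χ hχ => (hconj χ hχ).2
      isometry := hτ
      map_one := hτ1
      orthogonal := fun χ hχ φ hφ h => classInner_irr_ne (hirr χ hχ) (hirr φ hφ) h
      orthonormal := ?_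
      virtual := ?_
      sum_eq := ?_
      disjoint := ?_ }
  · intro χ hχ α hα β hβ
    rw [hR χ hχ] at hα hβ
    simp only [Finset.mem_insert, Finset.mem_singleton] at hα hβ
    have e12 := classInner_irr_ne (h1 ⟨χ, hχ⟩) (h2 ⟨χ, hχ⟩) (hne ⟨χ, hχ⟩)
    have e21 := classInner_irr_ne (h2 ⟨χ, hχ⟩) (h1 ⟨χ, hχ⟩) (hne ⟨χ, hχ⟩).symm
    rcases hα with rfl | rfl <;> rcases hβ with rfl | rfl
    · rw [if_pos rfl, classInner_irr_self (h1 _)]
    · rw [if_neg (hne' _), classInner_neg_right, e12, neg_zero]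
    · rw [if_neg (hne' _).symm, classInner_neg_left, e21, neg_zero]
    · rw [if_pos rfl, classInner_neg_left, classInner_neg_right, classInner_irr_self (h2 _), neg_neg]
  · intro χ hχ α hα
    rw [hR χ hχ] at hα
    simp only [Finset.mem_insert, Finset.mem_singleton] at hα
    rcases hα with rfl | rfl
    · exact ⟨_, 0, isCharacter_of_irr (h1 ⟨χ, hχ⟩), isCharacter_zero, by simp⟩
    · exact ⟨0, _, isCharacter_zero, isCharacter_of_irr (h2 ⟨χ, hχ⟩), by simp⟩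
  · intro χ hχ
    rw [hR χ hχ, Finset.sum_pair (hne' _), hτeq ⟨χ, hχ⟩, sub_eq_add_neg]
  · intro χ hχ φ hφ hz1 hz2 α hα β hβ
    rw [hR φ hφ] at hα
    rw [hR χ hχ] at hβ
    simp only [Finset.mem_insert, Finset.mem_singleton] at hα hβ
    have hmix : Cfsg.classInner (μ₁ ⟨φ, hφ⟩ - μ₂ ⟨φ, hφ⟩) (μ₁ ⟨χ, hχ⟩ - μ₂ ⟨χ, hχ⟩) = 0 := by
      rw [← hτeq ⟨φ, hφ⟩, ← hτeq ⟨χ, hχ⟩, lio_inner hτ (hmem φ hφ) (hmem χ hχ), hinner φ hφ χ hχ, hz1, hz2]
      simp
    have hd : ∀ ξ : S, μ₁ ξ 1 = μ₂ ξ 1 := by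
      intro ξ
      have := hτ1 _ (hmem ξ ξ.2)
      rw [hτeq ξ] at this
      exact sub_eq_zero.1 this
    obtain ⟨z1, z2, z3, z4⟩ := signed_orth (Or.inl (h1 ⟨φ, hφ⟩)) (Or.inl (h2 ⟨φ, hφ⟩)) (Or.inl (h1 ⟨χ, hχ⟩))
      (Or.inl (h2 ⟨χ, hχ⟩)) 1 1 1 1 one_ne_zero one_ne_zero one_ne_zero one_ne_zero
      (classInner_irr_ne (h1 _) (h2 _) (hne _)) (classInner_irr_ne (h1 _) (h2 _) (hne _))
      (by simpa using hmix) (by simpa using hd ⟨φ, hφ⟩) (by simpa using hd ⟨χ, hχ⟩)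
    rcases hα with rfl | rfl <;> rcases hβ with rfl | rfl
    · exact z1
    · rw [classInner_neg_right, z2, neg_zero]
    · rw [classInner_neg_left, z3, neg_zero]
    · rw [classInner_neg_left, classInner_neg_right, z4]; simp

end Cfsg.Agent.S1514
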