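import Cfsg.Statements.S1515
import Mathlib
import Cfsg.Agent.Lib.Helper10.Virtual2
-- import your own Cfsg.Agent.* helpers here

set_option autoImplicit false
open Cfsg

namespace Cfsg.Agent.S1515

open Cfsg.Agent.CharLib Cfsg.Agent.Lib.Helper10

/-- Let (S, τ, R) be a coherence system from L to G, χ ∈ S, and ψ an integer combination of S with ⟨χ, ψ⟩ = ⟨conj χ, ψ⟩ = 0. Let τ₁ be a linear isometry on the integer combinations of χ − ψ and χ − conj χ, with virtual-character values, agreeing with τ on integer multiples of χ − conj χ. Then the sum over α ∈ R χ of the squared absolute values of ⟨τ₁(χ − ψ), α⟩ is at least ⟨χ, χ⟩; and if ⟨τ₁(χ − ψ), τ₁(χ − ψ)⟩ minus that sum is at least ⟨ψ, ψ⟩, then the sum equals ⟨χ, χ⟩ and every ⟨τ₁(χ − ψ), α⟩ with α ∈ R χ is 0 or 1. -/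
theorem result {L : Type*} [Group L] [Fintype L] {G : Type*} [Group G] [Fintype G] (S : Set (L → ℂ)) (τ : (L → ℂ) → (G → ℂ)) (R : (L → ℂ) → Finset (G → ℂ)) (hS : Cfsg.IsCoherenceSystem S τ R) (χ : L → ℂ) (hχ : χ ∈ S) (ψ : L → ℂ) (hψ : ψ ∈ Cfsg.zspan S) (h1 : Cfsg.classInner χ ψ = 0) (h2 : Cfsg.classInner (Cfsg.conjFun χ) ψ = 0) (τ₁ : (L → ℂ) → (G → ℂ)) (hτ₁ : Cfsg.IsLinearIsometryOn (Cfsg.zspan {χ - ψ, χ - Cfsg.conjFun χ}) τ₁) (hagree : ∀ n : ℤ, τ₁ (n • (χ - Cfsg.conjFun χ)) = τ (n • (χ - Cfsg.conjFun χ))) : (Cfsg.classInner χ χ).re ≤ ∑ α ∈ R χ, ‖Cfsg.classInner (τ₁ (χ - ψ)) α‖ ^ 2 ∧ ((Cfsg.classInner ψ ψ).re ≤ (Cfsg.classInner (τ₁ (χ - ψ)) (τ₁ (χ - ψ))).re - ∑ α ∈ R χ, ‖Cfsg.classInner (τ₁ (χ - ψ)) α‖ ^ 2 → (∑ α ∈ R χ, ‖Cfsg.classInner (τ₁ (χ - ψ)) α‖ ^ 2 = (Cfsg.classInner χ χ).re ∧ ∀ α ∈ R χ, Cfsg.classInner (τ₁ (χ - ψ)) α = 0 ∨ Cfsg.classInner (τ₁ (χ - ψ)) α = 1)) := by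
  classical
  have hm1 : χ - ψ ∈ zspan ({χ - ψ, χ - Cfsg.conjFun χ} : Set (L → ℂ)) := mem_zspan_of_mem (by simp)
  have hm2 : χ - Cfsg.conjFun χ ∈ zspan ({χ - ψ, χ - Cfsg.conjFun χ} : Set (L → ℂ)) := mem_zspan_of_mem (by simp)
  have hint : ∀ α ∈ R χ, ∃ k : ℤ, classInner (τ₁ (χ - ψ)) α = k := fun α hα =>
    classInner_virtual_int (lio_virtual hτ₁ hm1) (hS.virtual χ hχ α hα)
  choose! c hc using hint
  obtain ⟨n, hn⟩ := classInner_char_nat (hS.isCharacter χ hχ) (hS.isCharacter χ hχ)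
  have hag : τ₁ (χ - Cfsg.conjFun χ) = τ (χ - Cfsg.conjFun χ) := by
    have := hagree 1
    simpa using this
  have h1' : classInner ψ χ = 0 := classInner_eq_zero_symm h1
  have h2' : classInner ψ (Cfsg.conjFun χ) = 0 := classInner_eq_zero_symm h2
  have h3 : classInner χ (Cfsg.conjFun χ) = 0 :=
    hS.orthogonal χ hχ _ (hS.conj_mem χ hχ) (hS.conj_ne χ hχ).symm
  have hsum : ∑ α ∈ R χ, c α = n := by
    have e1 := lio_inner hτ₁ hm1 hm2
    rw [hag, hS.sum_eq χ hχ, classInner_sum_right, Finset.sum_congr rfl hc, classInner_sub_left,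
      classInner_sub_right, classInner_sub_right, hn, h3, h1', h2'] at e1
    have : ((∑ α ∈ R χ, c α : ℤ) : ℂ) = ((n : ℤ) : ℂ) := by push_cast; rw [e1]; ring
    exact_mod_cast this
  have hsq : ∑ α ∈ R χ, ‖Cfsg.classInner (τ₁ (χ - ψ)) α‖ ^ 2 = ((∑ α ∈ R χ, c α ^ 2 : ℤ) : ℝ) := by
    push_cast
    refine Finset.sum_congr rfl fun α hα => ?_
    rw [hc α hα]
    simp
  have hle : ∀ α ∈ R χ, c α ≤ c α ^ 2 := by
    intro α _
    nlinarith [sq_nonneg (c α), sq_nonneg (c α - 1), Int.emod_emod_of_dvd (c α) (dvd_refl 2),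
      (by rcases le_or_gt (c α) 0 with h | h
          · nlinarith
          · nlinarith : c α ≤ c α ^ 2)]
  have hre : (Cfsg.classInner χ χ).re = ((n : ℤ) : ℝ) := by rw [hn]; simp
  rw [hsq, hre]
  constructor
  · have : (n : ℤ) ≤ ∑ α ∈ R χ, c α ^ 2 := by rw [← hsum]; exact Finset.sum_le_sum hle
    exact_mod_cast this
  · intro hyp
    have e2 := lio_inner hτ₁ hm1 hm1
    rw [classInner_sub_left, classInner_sub_right, classInner_sub_right, hn, h1, h1'] at e2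
    rw [e2] at hyp
    simp only [sub_zero, zero_sub, sub_neg_eq_add, Complex.add_re, Complex.natCast_re] at hyp
    have h4 : ((∑ α ∈ R χ, c α ^ 2 : ℤ) : ℝ) ≤ ((n : ℤ) : ℝ) := by
      push_cast; push_cast at hyp; linarith
    have h5 : ∑ α ∈ R χ, c α ^ 2 ≤ (n : ℤ) := by exact_mod_cast h4
    have h6 : ∑ α ∈ R χ, c α ^ 2 = ∑ α ∈ R χ, c α := by
      apply le_antisymm
      · rw [hsum]; exact h5
      · exact Finset.sum_le_sum hle
    refine ⟨by rw [h6, hsum], ?_⟩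
    intro α hα
    have h7 := (Finset.sum_eq_sum_iff_of_le hle).1 h6.symm α hα
    rw [hc α hα]
    have h8 : c α * (c α - 1) = 0 := by linear_combination -h7
    rcases mul_eq_zero.1 h8 with h | h
    · left; rw [h]; simp
    · right
      have : c α = 1 := by omega
      rw [this]; simp

end Cfsg.Agent.S1515
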