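import Cfsg.Statements.S1516
import Mathlib
import Cfsg.Agent.Lib.Helper10.CohExt
-- import your own Cfsg.Agent.* helpers here

set_option autoImplicit false
open Cfsg

namespace Cfsg.Agent.S1516

open Cfsg.Agent.CharLib Cfsg.Agent.Lib.Helper10

theorem arith2 (D : ℝ) (P u : ℤ) (hP : 0 ≤ P) (hD : 2 * (P : ℝ) < D) (h : (u : ℝ) ^ 2 * D ≤ 2 * u * P) :
    u = 0 := by
  by_contra hu
  have hP' : (0 : ℝ) ≤ P := by exact_mod_cast hP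
  rcases lt_or_gt_of_ne hu with h1 | h1
  · have h2 : (u : ℝ) ≤ -1 := by exact_mod_cast (by omega : u ≤ -1)
    have hD0 : 0 < D := by linarith
    have h3 : 0 < (u : ℝ) ^ 2 * D := mul_pos (by nlinarith) hD0
    have h4 : 2 * (u : ℝ) * P ≤ 0 := by nlinarith [mul_nonneg (by linarith : (0 : ℝ) ≤ -u) hP']
    linarith
  · have h2 : (1 : ℝ) ≤ u := by exact_mod_cast (by omega : 1 ≤ u)
    have hD0 : 0 < D := by linarith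
    have h3 : 0 ≤ ((u : ℝ) - 1) * D := mul_nonneg (by linarith) hD0.le
    have h4 : 0 < (u : ℝ) * D - 2 * P := by nlinarith
    have h5 : 0 < (u : ℝ) * ((u : ℝ) * D - 2 * P) := mul_pos (by linarith) h4
    nlinarith

/-- Let (S, τ, R) be a coherence system from L to G with degrees φ 1 = d φ and squared norms ⟨φ, φ⟩ = n φ for φ ∈ S. Let S₁ ⊆ S be a finite subset closed under complex conjugation such that (S₁, L minus 1, τ) is coherent, let χ ∈ S with χ ∉ S₁ and conj χ ∉ S₁, and let χ₁ ∈ S₁ with d χ₁ dividing d χ and 2 d χ d χ₁ < Σ_{φ ∈ S₁} (d φ)² / n φ. Then S₁ together with χ and conj χ is coherent. -/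
theorem result {L : Type*} [Group L] [Fintype L] {G : Type*} [Group G] [Fintype G] (S : Set (L → ℂ)) (τ : (L → ℂ) → (G → ℂ)) (R : (L → ℂ) → Finset (G → ℂ)) (hS : Cfsg.IsCoherenceSystem S τ R) (d n : (L → ℂ) → ℕ) (hd : ∀ φ ∈ S, φ 1 = (d φ : ℂ)) (hn : ∀ φ ∈ S, Cfsg.classInner φ φ = (n φ : ℂ)) (S₁ : Finset (L → ℂ)) (hS₁ : ↑S₁ ⊆ S) (hS₁c : ∀ φ ∈ S₁, Cfsg.conjFun φ ∈ S₁) (hcoh : Cfsg.IsCoherent (↑S₁ : Set (L → ℂ)) {1}ᶜ τ) (χ : L → ℂ) (hχ : χ ∈ S) (hχ₁ : χ ∉ S₁) (hχ₂ : Cfsg.conjFun χ ∉ S₁) (χ₁ : L → ℂ) (hχ₁S : χ₁ ∈ S₁) (hdvd : d χ₁ ∣ d χ) (hineq : (2 * d χ * d χ₁ : ℝ) < ∑ φ ∈ S₁, ((d φ : ℝ) ^ 2 / (n φ : ℝ))) : Cfsg.IsCoherent (↑S₁ ∪ {χ, Cfsg.conjFun χ} : Set (L → ℂ)) {1}ᶜ τ := by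
  classical
  obtain ⟨-, τ₁, hτ₁, hτ₁τ⟩ := hcoh
  set χb := Cfsg.conjFun χ with hχb
  have hχbS : χb ∈ S := hS.conj_mem χ hχ
  have hτ := hS.isometry
  have hχ₁SS : χ₁ ∈ S := hS₁ hχ₁S
  obtain ⟨a, ha⟩ := hdvd
  have hne1 : ∀ ξ ∈ S₁, ξ ≠ χ := by rintro ξ h rfl; exact hχ₁ h
  have hne2 : ∀ ξ ∈ S₁, ξ ≠ χb := by rintro ξ h rfl; exact hχ₂ h
  have hag : ∀ ξ ∈ S₁, τ₁ (ξ - Cfsg.conjFun ξ) = τ (ξ - Cfsg.conjFun ξ) := fun ξ h =>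
    hτ₁τ _ (cs_sub_conj_mem hS (hS₁ h) h (hS₁c ξ h))
  have horthR : ∀ ξ ∈ S₁, ∀ α ∈ R χ, classInner (τ₁ ξ) α = 0 := fun ξ h =>
    cs_orth_R hS hτ₁ (hS₁ h) h (hS₁c ξ h) (hag ξ h) hχ (hne1 ξ h) (hne2 ξ h)
  have npos : ∀ φ ∈ S, 0 < n φ := by
    intro φ hφ
    obtain ⟨k, hk, h⟩ := cs_norm_nat hS hφ
    rw [hn φ hφ] at h
    have : n φ = k := by exact_mod_cast h
    omega
  have dpos : ∀ φ ∈ S, 0 < d φ := by
    intro φ hφ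
    obtain ⟨k, hk, h⟩ := cs_degree_nat hS hφ
    rw [hd φ hφ] at h
    have : d φ = k := by exact_mod_cast h
    omega
  have hδ : χ - χb ∈ zspanOn S {1}ᶜ := cs_sub_conj_mem hS hχ hχ hχbS
  have hβ₀ : (1 : ℤ) • χ + (-(a : ℤ)) • χ₁ ∈ zspanOn S {1}ᶜ := by
    rw [mem_zspanOn_one_iff]
    refine ⟨zspan_add (zspan_zsmul (mem_zspan_of_mem hχ) _) (zspan_zsmul (mem_zspan_of_mem hχ₁SS) _), ?_⟩
    simp [hd χ hχ, hd χ₁ hχ₁SS, ha]; ring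
  have i1 : classInner χ χ₁ = 0 := hS.orthogonal χ hχ χ₁ hχ₁SS (hne1 χ₁ hχ₁S).symm
  have i2 : classInner χ₁ χ = 0 := hS.orthogonal χ₁ hχ₁SS χ hχ (hne1 χ₁ hχ₁S)
  have i3 : classInner χ₁ χb = 0 := hS.orthogonal χ₁ hχ₁SS χb hχbS (hne2 χ₁ hχ₁S)
  have i4 : classInner χ χb = 0 := cs_orth_conj hS hχ
  set v : G → ℂ := τ ((1 : ℤ) • χ + (-(a : ℤ)) • χ₁) with hvdef
  have hv : IsGeneralizedCharacter G v := lio_virtual hτ hβ₀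
  have hvnorm : classInner v v = ((n χ + (a : ℤ) ^ 2 * n χ₁ : ℤ) : ℂ) := by
    rw [hvdef, lio_inner hτ hβ₀ hβ₀, classInner_add_left, classInner_add_right, classInner_add_right]
    simp only [classInner_zsmul_left, classInner_zsmul_right]
    rw [hn χ hχ, hn χ₁ hχ₁SS, i1, i2]
    push_cast; ring
  obtain ⟨c, hc1, hc2, hc3, hc4, hc5⟩ := cs_split hS hχ hv
  set Γ₁ : G → ℂ := v - ∑ α ∈ R χ, (c α : ℂ) • α with hΓ₁
  have hsumc : ∑ α ∈ R χ, c α = n χ := by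
    rw [hvdef, lio_inner hτ hβ₀ hδ, classInner_add_left, classInner_zsmul_left, classInner_zsmul_left,
      classInner_sub_right, classInner_sub_right, hn χ hχ, i4, i2, i3] at hc2
    have : ((n χ : ℤ) : ℂ) = ((∑ α ∈ R χ, c α : ℤ) : ℂ) := by rw [← hc2]; push_cast; ring
    exact_mod_cast this.symm
  have hint : ∀ ξ ∈ S₁, ∃ k : ℤ, classInner v (τ₁ ξ) = k := fun ξ hξ =>
    classInner_virtual_int hv (lio_virtual hτ₁ (mem_zspan_of_mem hξ))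
  choose! b hb using hint
  have hΓb : ∀ ξ ∈ S₁, classInner Γ₁ (τ₁ ξ) = b ξ := by
    intro ξ hξ
    rw [hΓ₁, classInner_sub_left, hb ξ hξ, classInner_sum_left, Finset.sum_eq_zero, sub_zero]
    intro α hα
    rw [classInner_smul_left, classInner_eq_zero_symm (horthR ξ hξ α hα), mul_zero]
  have hB := bessel_ineq S₁ τ₁ n (fun ξ hξ => npos ξ (hS₁ hξ))
    (fun ξ hξ => by rw [lio_inner hτ₁ (mem_zspan_of_mem hξ) (mem_zspan_of_mem hξ), hn ξ (hS₁ hξ)])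
    (fun ξ hξ ξ' hξ' hne => by
      rw [lio_inner hτ₁ (mem_zspan_of_mem hξ) (mem_zspan_of_mem hξ'), hS.orthogonal ξ (hS₁ hξ) ξ' (hS₁ hξ') hne])
    Γ₁ b hΓb
  obtain ⟨k, hk⟩ := norm_virtual_nat hc4
  rw [hvnorm, hk] at hc5
  have hc5' : (n χ + (a : ℤ) ^ 2 * n χ₁ : ℤ) = k + ∑ α ∈ R χ, c α ^ 2 := by exact_mod_cast hc5
  have hcsq : ∑ α ∈ R χ, c α ≤ ∑ α ∈ R χ, c α ^ 2 := Finset.sum_le_sum fun α _ => int_le_sq _
  have hkle : (k : ℤ) ≤ (a : ℤ) ^ 2 * n χ₁ := by omega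
  rw [hk] at hB
  simp only [Complex.natCast_re] at hB
  have hrel : ∀ ξ ∈ S₁, ξ ≠ χ₁ → (d χ₁ : ℤ) * b ξ = d ξ * (b χ₁ + a * n χ₁) := by
    intro ξ hξ hne
    have hE : ((d χ₁ : ℤ) • ξ + (-(d ξ : ℤ)) • χ₁) ∈ zspanOn (↑S₁ : Set (L → ℂ)) {1}ᶜ := by
      rw [mem_zspanOn_one_iff]
      refine ⟨zspan_add (zspan_zsmul (mem_zspan_of_mem hξ) _) (zspan_zsmul (mem_zspan_of_mem hχ₁S) _), ?_⟩
      simp [hd ξ (hS₁ hξ), hd χ₁ hχ₁SS]; ring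
    have h1 := lio_inner hτ hβ₀ (zspanOn_mono hS₁ hE)
    rw [← hτ₁τ _ hE, lio_comb hτ₁ (fun α ha n => zspan_zsmul ha n) (mem_zspan_of_mem hξ) (mem_zspan_of_mem hχ₁S),
      classInner_add_right, classInner_add_right, classInner_add_left, classInner_add_left] at h1
    simp only [classInner_zsmul_left, classInner_zsmul_right] at h1
    rw [← hvdef, hb ξ hξ, hb χ₁ hχ₁S, hn χ₁ hχ₁SS, i1, hS.orthogonal χ hχ ξ (hS₁ hξ) (hne1 ξ hξ).symm,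
      hS.orthogonal χ₁ hχ₁SS ξ (hS₁ hξ) hne.symm] at h1
    have h2 : (((d χ₁ : ℤ) * b ξ : ℤ) : ℂ) = ((d ξ * (b χ₁ + a * n χ₁) : ℤ) : ℂ) := by
      push_cast; push_cast at h1; linear_combination h1
    exact_mod_cast h2
  set u : ℤ := b χ₁ + a * n χ₁ with hu
  have hd₁pos := dpos χ₁ hχ₁SS
  have hn₁pos := npos χ₁ hχ₁SS
  have hbξ : ∀ ξ ∈ S₁, (d χ₁ : ℝ) * b ξ = d ξ * u + if ξ = χ₁ then -((a : ℝ) * n χ₁ * d χ₁) else 0 := by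
    intro ξ hξ
    by_cases h : ξ = χ₁
    · rw [if_pos h, h, hu]; push_cast; ring
    · rw [if_neg h, add_zero]
      exact_mod_cast hrel ξ hξ h
  have hsq : (d χ₁ : ℝ) ^ 2 * ∑ ξ ∈ S₁, (b ξ : ℝ) ^ 2 / (n ξ : ℝ) =
      (u : ℝ) ^ 2 * (∑ φ ∈ S₁, ((d φ : ℝ) ^ 2 / (n φ : ℝ))) - 2 * u * a * (d χ₁ : ℝ) ^ 2 +
        (a : ℝ) ^ 2 * n χ₁ * (d χ₁ : ℝ) ^ 2 := by
    rw [Finset.mul_sum]
    have : ∀ ξ ∈ S₁, (d χ₁ : ℝ) ^ 2 * ((b ξ : ℝ) ^ 2 / (n ξ : ℝ)) =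
        (u : ℝ) ^ 2 * ((d ξ : ℝ) ^ 2 / (n ξ : ℝ)) +
          if ξ = χ₁ then (- 2 * u * a * (d χ₁ : ℝ) ^ 2 + (a : ℝ) ^ 2 * n χ₁ * (d χ₁ : ℝ) ^ 2) else 0 := by
      intro ξ hξ
      have h1 := hbξ ξ hξ
      have hnξ : (n ξ : ℝ) ≠ 0 := by exact_mod_cast (npos ξ (hS₁ hξ)).ne'
      have h2 : (d χ₁ : ℝ) ^ 2 * ((b ξ : ℝ) ^ 2 / (n ξ : ℝ)) = ((d χ₁ : ℝ) * b ξ) ^ 2 / (n ξ : ℝ) := by ring
      rw [h2, h1]
      by_cases h : ξ = χ₁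
      · rw [if_pos h, if_pos h, h]
        rw [h] at hnξ
        field_simp
        ring
      · rw [if_neg h, if_neg h]
        ring
    rw [Finset.sum_congr rfl this, Finset.sum_add_distrib, ← Finset.mul_sum, Finset.sum_ite_eq' S₁ χ₁,
      if_pos hχ₁S]
    ring
  have hu0 : u = 0 := by
    apply arith2 (∑ φ ∈ S₁, ((d φ : ℝ) ^ 2 / (n φ : ℝ))) ((d χ : ℤ) * d χ₁) u (by positivity)
    · push_cast; linarith
    · have hkle' : (k : ℝ) ≤ (a : ℝ) ^ 2 * n χ₁ := by exact_mod_cast hkle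
      have h3 : (d χ₁ : ℝ) ^ 2 * ∑ ξ ∈ S₁, (b ξ : ℝ) ^ 2 / (n ξ : ℝ) ≤ (d χ₁ : ℝ) ^ 2 * ((a : ℝ) ^ 2 * n χ₁) :=
        mul_le_mul_of_nonneg_left (hB.trans hkle') (by positivity)
      rw [hsq] at h3
      have ha' : (d χ : ℝ) = d χ₁ * a := by exact_mod_cast ha
      push_cast
      rw [ha']
      nlinarith
  have hb1 : b χ₁ = -((a : ℤ) * n χ₁) := by rw [hu] at hu0; linarith
  have hb0 : ∀ ξ ∈ S₁, ξ ≠ χ₁ → b ξ = 0 := by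
    intro ξ hξ hne
    have := hrel ξ hξ hne
    rw [hu0, mul_zero] at this
    rcases mul_eq_zero.1 this with h | h
    · exfalso
      have : d χ₁ = 0 := by exact_mod_cast h
      omega
    · exact h
  -- the new vector
  have hXvirt : IsGeneralizedCharacter G (v + (a : ℤ) • τ₁ χ₁) :=
    isGeneralizedCharacter_add hv (isGeneralizedCharacter_zsmul (lio_virtual hτ₁ (mem_zspan_of_mem hχ₁S)) _)
  have hτ₁n : classInner (τ₁ χ₁) (τ₁ χ₁) = n χ₁ := by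
    rw [lio_inner hτ₁ (mem_zspan_of_mem hχ₁S) (mem_zspan_of_mem hχ₁S), hn χ₁ hχ₁SS]
  have hb1' : classInner (τ₁ χ₁) v = b χ₁ := by
    rw [← classInner_conj_symm, hb χ₁ hχ₁S]; simp
  apply cs_extend hS S₁ hS₁ hS₁c hτ₁ hτ₁τ hχ hχ₁ hχ₂ hχ₁S (a : ℤ)
    (by rw [hd χ hχ, hd χ₁ hχ₁SS, ha]; push_cast; ring) hXvirt
  · rw [classInner_add_left, classInner_add_right, classInner_add_right]
    simp only [classInner_zsmul_left, classInner_zsmul_right]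
    rw [hvnorm, hb χ₁ hχ₁S, hb1', hτ₁n, hb1, hn χ hχ]
    push_cast; ring
  · intro ξ hξ
    rw [classInner_add_left, classInner_zsmul_left, hb ξ hξ,
      lio_inner hτ₁ (mem_zspan_of_mem hχ₁S) (mem_zspan_of_mem hξ)]
    by_cases h : ξ = χ₁
    · rw [h, hb1, hn χ₁ hχ₁SS]; push_cast; ring
    · rw [hb0 ξ hξ h, hS.orthogonal χ₁ hχ₁SS ξ (hS₁ hξ) (Ne.symm h)]; simp
  · rw [← hvdef]
    ext x
    simp

end Cfsg.Agent.S1516
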