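import Cfsg.Statements.S1519
import Mathlib
import Cfsg.Agent.Lib.Helper10.CohDesc
import Cfsg.Agent.S1516
-- import your own Cfsg.Agent.* helpers here

set_option autoImplicit false
open Cfsg Cfsg.Agent.CharLib Cfsg.Agent.Lib.Helper10 Cfsg.Agent.Lib.Helper23

namespace Cfsg.Agent.S1519

/-- Let K be a solvable normal subgroup of the finite group L and (S, τ, R) a coherence system from L to G where S is the set of functions induced from non-principal irreducible characters of K; write S(A) for those induced from characters whose kernel contains A. Let A, B, C, D be normal subgroups of L with A < K, B < K, B ≤ D ≤ C ≤ K and every commutator of D with C in B. If S(A) is coherent and 4 * [L:C]^2 * [C:D] < ([K:A] − 1)^2, then S(B) is coherent. -/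
theorem result {L : Type*} [Group L] [Fintype L] {G : Type*} [Group G] [Fintype G] (K : Subgroup L) [hK : K.Normal] (hsolv : Group.IsSolvable K) (τ : (L → ℂ) → (G → ℂ)) (R : (L → ℂ) → Finset (G → ℂ)) (hS : Cfsg.IsCoherenceSystem (Cfsg.inducedIrrAbove K ⊥) τ R) (A B C D : Subgroup L) [A.Normal] [B.Normal] [C.Normal] [D.Normal] (hAK : A < K) (hBK : B < K) (hBD : B ≤ D) (hDC : D ≤ C) (hCK : C ≤ K) (hcent : ∀ x ∈ D, ∀ y ∈ C, x * y * x⁻¹ * y⁻¹ ∈ B) (hA : Cfsg.IsCoherent (Cfsg.inducedIrrAbove K A) {1}ᶜ τ) (hlt : 4 * C.index ^ 2 * D.relIndex C < (A.relIndex K - 1) ^ 2) : Cfsg.IsCoherent (Cfsg.inducedIrrAbove K B) {1}ᶜ τ := by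
  classical
  have hAS := inducedIrrAbove_subset_bot K A
  have hBS := inducedIrrAbove_subset_bot K B
  let d : (L → ℂ) → ℕ := fun φ => charDegree φ
  let n : (L → ℂ) → ℕ := fun φ => ⌊(classInner φ φ).re⌋₊
  have hd : ∀ φ ∈ inducedIrrAbove K ⊥, φ 1 = (d φ : ℂ) := fun φ hφ =>
    (charDegree_cast (hS.isCharacter φ hφ)).symm
  have hn : ∀ φ ∈ inducedIrrAbove K ⊥, classInner φ φ = (n φ : ℂ) := by
    intro φ hφ
    obtain ⟨m, -, hm⟩ := cs_norm_nat hS hφ
    show _ = ((⌊(classInner φ φ).re⌋₊ : ℕ) : ℂ)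
    rw [hm]; simp
  have hd0 : ∀ φ ∈ inducedIrrAbove K ⊥, 0 < d φ := by
    intro φ hφ
    obtain ⟨m, hm0, hm⟩ := cs_degree_nat hS hφ
    have : (d φ : ℂ) = m := by rw [← hd φ hφ, hm]
    have h2 : d φ = m := by exact_mod_cast this
    omega
  have hn0 : ∀ φ ∈ inducedIrrAbove K ⊥, 0 < n φ := by
    intro φ hφ
    obtain ⟨m, hm0, hm⟩ := cs_norm_nat hS hφ
    have : (n φ : ℂ) = m := by rw [← hn φ hφ, hm]
    have h2 : n φ = m := by exact_mod_cast this
    omega
  have hdind : ∀ θ : IrrCharacter K, d (indFun K (θ : K → ℂ)) = K.index * charDegree (θ : K → ℂ) := by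
    intro θ
    apply Cfsg.Agent.H25.charDegree_of_apply_one
    rw [H2.indFun_apply_one, ← charDegree_cast_irr θ]; push_cast; ring
  obtain ⟨lam, hlam, hlam1⟩ := exists_linear_irrAbove K hsolv A hAK
  have hcc : ∀ φ : L → ℂ, Cfsg.conjFun (Cfsg.conjFun φ) = φ := by
    intro φ; funext x; simp [Cfsg.conjFun]
  have key : ∀ (N : ℕ) (T : Finset (L → ℂ)), T.card = N → inducedIrrAbove K A ⊆ ↑T →
      (↑T : Set (L → ℂ)) ⊆ inducedIrrAbove K A ∪ inducedIrrAbove K B →
      (∀ φ ∈ T, Cfsg.conjFun φ ∈ T) → IsCoherent (↑T : Set (L → ℂ)) {1}ᶜ τ := by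
    intro N
    induction N using Nat.strong_induction_on with
    | _ N ih =>
      intro T hcard hAT hTAB hTc
      by_cases hsub : (↑T : Set (L → ℂ)) ⊆ inducedIrrAbove K A
      · have : (↑T : Set (L → ℂ)) = inducedIrrAbove K A := Set.Subset.antisymm hsub hAT
        rw [this]; exact hA
      · obtain ⟨χ, hχT, hχA⟩ := Set.not_subset.1 hsub
        have hχT' : χ ∈ T := hχT
        have hχB : χ ∈ inducedIrrAbove K B := (hTAB hχT).resolve_left hχA
        have hχS := hBS hχB
        have hcA : Cfsg.conjFun χ ∉ inducedIrrAbove K A := by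
          intro h
          apply hχA
          have := conjFun_mem_inducedIrrAbove K h
          rwa [hcc] at this
        set T' : Finset (L → ℂ) := (T.erase χ).erase (Cfsg.conjFun χ) with hT'
        have hmem : ∀ φ, φ ∈ T' ↔ φ ≠ Cfsg.conjFun χ ∧ φ ≠ χ ∧ φ ∈ T := by
          intro φ; rw [hT', Finset.mem_erase, Finset.mem_erase]
        have hT'T : T' ⊆ T := fun φ hφ => ((hmem φ).1 hφ).2.2
        have hltN : T'.card < N := by
          rw [← hcard]
          apply Finset.card_lt_card
          refine ⟨hT'T, fun h => ?_⟩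
          exact ((hmem χ).1 (h hχT')).2.1 rfl
        have hAT' : inducedIrrAbove K A ⊆ ↑T' := by
          intro φ hφ
          refine (hmem φ).2 ⟨?_, ?_, hAT hφ⟩
          · rintro rfl; exact hcA hφ
          · rintro rfl; exact hχA hφ
        have hT'c : ∀ φ ∈ T', Cfsg.conjFun φ ∈ T' := by
          intro φ hφ
          obtain ⟨h1, h2, h3⟩ := (hmem φ).1 hφ
          refine (hmem _).2 ⟨?_, ?_, hTc φ h3⟩
          · intro h; apply h2
            rw [← hcc φ, h, hcc]
          · intro h; apply h1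
            rw [← h, hcc]
        have hT'S : (↑T' : Set (L → ℂ)) ⊆ inducedIrrAbove K ⊥ := by
          intro φ hφ
          rcases hTAB (hT'T hφ) with h | h
          · exact hAS h
          · exact hBS h
        have hcoh := ih T'.card hltN T' rfl hAT' (fun φ hφ => hTAB (hT'T hφ)) hT'c
        obtain ⟨θ, hθ, rfl⟩ := (mem_inducedIrrAbove_iff K).1 hχB
        have hχ₁ : indFun K (lam : K → ℂ) ∈ T' :=
          hAT' ((mem_inducedIrrAbove_iff K).2 ⟨lam, hlam, rfl⟩)
        have hsum := index_mul_sum_sq_le K (irrAbove K A) T'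
          (fun θ' hθ' => hAT' ((mem_inducedIrrAbove_iff K).2 ⟨θ', hθ', rfl⟩)) d n
          (fun φ hφ => hS.isCharacter φ (hT'S hφ)) (fun φ hφ => hd φ (hT'S hφ))
          (fun φ hφ => hd0 φ (hT'S hφ)) (fun φ hφ => hn φ (hT'S hφ)) (fun φ hφ => hn0 φ (hT'S hφ))
        have hbd := charDegree_irrAbove_bound K B C D hDC hCK hcent hθ
        have hcount := sum_irrAbove_sq K A
        have h2d : 2 * d (indFun K (θ : K → ℂ)) < A.relIndex K - 1 := by
          apply lt_of_pow_lt_pow_left₀ 2 (Nat.zero_le _)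
          rw [hdind]
          calc (2 * (K.index * charDegree (θ : K → ℂ))) ^ 2
              = 4 * (K.index * charDegree (θ : K → ℂ)) ^ 2 := by ring
            _ ≤ 4 * (C.index ^ 2 * D.relIndex C) := Nat.mul_le_mul_left _ hbd
            _ = 4 * C.index ^ 2 * D.relIndex C := by ring
            _ < _ := hlt
        have hres := Cfsg.Agent.S1516.result (inducedIrrAbove K ⊥) τ R hS d n hd hn T' hT'S hT'c hcoh
          (indFun K (θ : K → ℂ)) hχS (fun h => ((hmem _).1 h).2.1 rfl)
          (fun h => ((hmem _).1 h).1 rfl) (indFun K (lam : K → ℂ)) hχ₁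
          (by rw [hdind, hdind, hlam1, mul_one]; exact Dvd.intro _ rfl)
          (by
            refine lt_of_lt_of_le ?_ hsum
            have h3 : (∑ θ ∈ irrAbove K A, (charDegree (θ : K → ℂ) : ℝ) ^ 2) =
                ((A.relIndex K - 1 : ℕ) : ℝ) := by
              have : ∑ θ ∈ irrAbove K A, charDegree (θ : K → ℂ) ^ 2 = A.relIndex K - 1 := by omega
              rw [← this]; push_cast; rfl
            rw [h3, hdind lam, hlam1, mul_one]
            have he : (0 : ℝ) < K.index := by
              exact_mod_cast Nat.pos_of_ne_zero Subgroup.index_ne_zero_of_finite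
            have h4 : ((2 * d (indFun K (θ : K → ℂ)) : ℕ) : ℝ) < ((A.relIndex K - 1 : ℕ) : ℝ) := by
              exact_mod_cast h2d
            push_cast at h4
            calc (2 : ℝ) * (d (indFun K (θ : K → ℂ)) : ℝ) * (K.index : ℝ)
                = (K.index : ℝ) * (2 * (d (indFun K (θ : K → ℂ)) : ℝ)) := by ring
              _ < _ := mul_lt_mul_of_pos_left h4 he)
        have hTeq : (↑T' ∪ {indFun K (θ : K → ℂ), Cfsg.conjFun (indFun K (θ : K → ℂ))} : Set (L → ℂ)) = ↑T := by
          ext φ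
          simp only [Set.mem_union, Finset.mem_coe, Set.mem_insert_iff, Set.mem_singleton_iff, hmem]
          constructor
          · rintro (h | h | h)
            · exact h.2.2
            · rw [h]; exact hχT'
            · rw [h]; exact hTc _ hχT'
          · intro h
            by_cases h1 : φ = indFun K (θ : K → ℂ)
            · exact Or.inr (Or.inl h1)
            · by_cases h2 : φ = Cfsg.conjFun (indFun K (θ : K → ℂ))
              · exact Or.inr (Or.inr h2)
              · exact Or.inl ⟨h2, h1, h⟩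
        rw [← hTeq]; exact hres
  have hfin := cs_finite hS
  have hfinU : (inducedIrrAbove K A ∪ inducedIrrAbove K B).Finite :=
    hfin.subset (Set.union_subset hAS hBS)
  have hU := key _ hfinU.toFinset rfl (by rw [hfinU.coe_toFinset]; exact Set.subset_union_left)
    (by rw [hfinU.coe_toFinset]) (by
      intro φ hφ
      rw [hfinU.mem_toFinset] at hφ ⊢
      rcases hφ with h | h
      · exact Or.inl (conjFun_mem_inducedIrrAbove K h)
      · exact Or.inr (conjFun_mem_inducedIrrAbove K h))
  rw [hfinU.coe_toFinset] at hU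
  obtain ⟨-, τ₁, hτ₁, hτ₁τ⟩ := hU
  obtain ⟨lamB, hlamB, -⟩ := exists_linear_irrAbove K hsolv B hBK
  have hχB : indFun K (lamB : K → ℂ) ∈ inducedIrrAbove K B :=
    (mem_inducedIrrAbove_iff K).2 ⟨lamB, hlamB, rfl⟩
  refine ⟨⟨_, cs_sub_conj_mem hS (hBS hχB) hχB (conjFun_mem_inducedIrrAbove K hχB), ?_⟩, τ₁,
    lio_mono hτ₁ (zspan_mono Set.subset_union_right),
    fun α hα => hτ₁τ α (zspanOn_mono Set.subset_union_right hα)⟩
  intro h
  exact hS.conj_ne _ (hBS hχB) (sub_eq_zero.1 h).symm

end Cfsg.Agent.S1519
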