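import Cfsg.Statements.S1520
import Mathlib
import Cfsg.Agent.S1519
-- import your own Cfsg.Agent.* helpers here

set_option autoImplicit false
open Cfsg
open scoped commutatorElement
set_option linter.style.haveILetI false

namespace Cfsg.Agent.S1520

/-- Let K be a solvable normal subgroup of the finite group L and (S, τ, R) a coherence system from L to G with S the functions induced from non-principal irreducible characters of K; S(A) the members of S induced from characters whose kernel contains A. Let M ≤ H₁ ≤ H ≤ K be normal subgroups of L such that every term of the lower central series of H eventually lies in M (H/M nilpotent), S(H₁) is coherent and [H:H₁] > 4 * [L:K]^2 + 1. Then S(M) is coherent. -/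
theorem result {L : Type*} [Group L] [Fintype L] {G : Type*} [Group G] [Fintype G] (K : Subgroup L) [hK : K.Normal] (hsolv : Group.IsSolvable K) (τ : (L → ℂ) → (G → ℂ)) (R : (L → ℂ) → Finset (G → ℂ)) (hS : Cfsg.IsCoherenceSystem (Cfsg.inducedIrrAbove K ⊥) τ R) (M H₁ H : Subgroup L) [M.Normal] [H₁.Normal] [H.Normal] (hMH₁ : M ≤ H₁) (hH₁H : H₁ ≤ H) (hHK : H ≤ K) [(M.subgroupOf H).Normal] (hnil : Group.IsNilpotent (↥H ⧸ M.subgroupOf H)) (hcoh : Cfsg.IsCoherent (Cfsg.inducedIrrAbove K H₁) {1}ᶜ τ) (hbig : 4 * K.index ^ 2 + 1 < H₁.relIndex H) : Cfsg.IsCoherent (Cfsg.inducedIrrAbove K M) {1}ᶜ τ := by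
  classical
  obtain ⟨N, hN0, hNs⟩ : ∃ N : ℕ → Subgroup L, N 0 = H₁ ∧ ∀ j, N (j + 1) = ⁅N j, H⁆ ⊔ M :=
    ⟨fun j => Nat.rec H₁ (fun _ X => ⁅X, H⁆ ⊔ M) j, rfl, fun _ => rfl⟩
  have hNn : ∀ j, (N j).Normal := by
    intro j
    induction j with
    | zero => rw [hN0]; infer_instance
    | succ j ih => rw [hNs]; haveI := ih; infer_instance
  have hMN : ∀ j, M ≤ N j := by
    intro j
    cases j with
    | zero => rw [hN0]; exact hMH₁
    | succ j => rw [hNs]; exact le_sup_right
  have hstep : ∀ j, N (j + 1) ≤ N j := by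
    intro j
    haveI := hNn j
    rw [hNs]
    exact sup_le (Subgroup.commutator_le_left _ _) (hMN j)
  have hNH₁ : ∀ j, N j ≤ H₁ := by
    intro j
    induction j with
    | zero => exact le_of_eq hN0
    | succ j ih => exact (hstep j).trans ih
  have hNK : ∀ j, N j < K := by
    intro j
    refine lt_of_le_of_ne ((hNH₁ j).trans (hH₁H.trans hHK)) ?_
    intro h
    have h1 : H ≤ H₁ := by
      calc H ≤ K := hHK
        _ = N j := h.symm
        _ ≤ H₁ := hNH₁ j
    rw [Subgroup.relIndex_eq_one.2 h1] at hbig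
    omega
  have hcohN : ∀ j, IsCoherent (inducedIrrAbove K (N j)) {1}ᶜ τ := by
    intro j
    induction j with
    | zero => rw [hN0]; exact hcoh
    | succ j ih =>
      haveI := hNn j
      haveI := hNn (j + 1)
      refine Cfsg.Agent.S1519.result K hsolv τ R hS (N j) (N (j + 1)) H (N j) (hNK j) (hNK (j + 1))
        (hstep j) ((hNH₁ j).trans hH₁H) hHK ?_ ih ?_
      · intro x hx y hy
        rw [hNs]
        apply Subgroup.mem_sup_left
        have := Subgroup.commutator_mem_commutator hx hy
        rwa [commutatorElement_def] at this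
      · have e1 := Subgroup.relIndex_mul_index hHK
        have e2 := Subgroup.relIndex_mul_relIndex (N j) H K ((hNH₁ j).trans hH₁H) hHK
        have e3 := Subgroup.relIndex_mul_relIndex (N j) H₁ H (hNH₁ j) hH₁H
        have hk : 0 < H.relIndex K :=
          Nat.pos_of_ne_zero (Subgroup.index_ne_zero_of_finite (H := H.subgroupOf K))
        have ht : 0 < (N j).relIndex H₁ :=
          Nat.pos_of_ne_zero (Subgroup.index_ne_zero_of_finite (H := (N j).subgroupOf H₁))
        rw [← e1, ← e2]
        have hh : 4 * K.index ^ 2 + 1 < (N j).relIndex H := by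
          rw [← e3]
          exact lt_of_lt_of_le hbig (Nat.le_mul_of_pos_left _ ht)
        generalize (N j).relIndex H = h at hh
        generalize H.relIndex K = k at hk
        generalize K.index = e at hh
        obtain ⟨h', rfl⟩ : ∃ h', h = h' + 1 := ⟨h - 1, by omega⟩
        have h1 : 4 * e ^ 2 + 1 ≤ h' := by omega
        have h2 : h' * k ≤ (h' + 1) * k - 1 := by
          have : (h' + 1) * k = h' * k + k := by ring
          omega
        have h3 : 4 * e ^ 2 * (h' + 1) < h' ^ 2 := by nlinarith
        calc 4 * (k * e) ^ 2 * (h' + 1) = k ^ 2 * (4 * e ^ 2 * (h' + 1)) := by ring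
          _ < k ^ 2 * h' ^ 2 := Nat.mul_lt_mul_of_pos_left h3 (by positivity)
          _ = (h' * k) ^ 2 := by ring
          _ ≤ _ := Nat.pow_le_pow_left h2 2
  have hNH : ∀ j, N j ≤ H := fun j => (hNH₁ j).trans hH₁H
  have hlcs : ∀ j, ∀ x (hx : x ∈ H), x ∈ N j → QuotientGroup.mk' (M.subgroupOf H) ⟨x, hx⟩ ∈
      (⊤ : Subgroup (↥H ⧸ M.subgroupOf H)).lowerCentralSeries j := by
    intro j
    induction j with
    | zero =>
      intro x hx _
      rw [Subgroup.lowerCentralSeries_zero]; trivial
    | succ j ih =>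
      have hle : N (j + 1) ≤ (((⊤ : Subgroup (↥H ⧸ M.subgroupOf H)).lowerCentralSeries (j + 1)).comap
          (QuotientGroup.mk' (M.subgroupOf H))).map H.subtype := by
        rw [hNs]
        apply sup_le
        · rw [Subgroup.commutator_le]
          intro a ha b hb
          refine Subgroup.mem_map.2 ⟨⁅(⟨a, hNH j ha⟩ : H), (⟨b, hb⟩ : H)⁆, Subgroup.mem_comap.2 ?_, rfl⟩
          rw [map_commutatorElement, Subgroup.lowerCentralSeries_succ]
          exact Subgroup.commutator_mem_commutator (ih a _ ha) (Subgroup.mem_top _)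
        · intro m hm
          refine Subgroup.mem_map.2 ⟨(⟨m, hNH 0 (hMN 0 hm)⟩ : H), Subgroup.mem_comap.2 ?_, rfl⟩
          have : QuotientGroup.mk' (M.subgroupOf H) (⟨m, hNH 0 (hMN 0 hm)⟩ : H) = 1 :=
            (QuotientGroup.eq_one_iff _).2 (Subgroup.mem_subgroupOf.2 hm)
          rw [this]; exact Subgroup.one_mem _
      intro x hx hxN
      obtain ⟨y, hy, hyx⟩ := Subgroup.mem_map.1 (hle hxN)
      have : y = ⟨x, hx⟩ := Subtype.ext hyx
      rw [← this]; exact hy
  obtain ⟨c, hc⟩ := Subgroup.nilpotent_iff_lowerCentralSeries.1 hnil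
  have hNc : N c = M := by
    apply le_antisymm _ (hMN c)
    intro x hx
    have h1 := hlcs c x (hNH c hx) hx
    rw [hc, Subgroup.mem_bot] at h1
    exact Subgroup.mem_subgroupOf.1 ((QuotientGroup.eq_one_iff _).1 h1)
  rw [← hNc]; exact hcohN c

end Cfsg.Agent.S1520
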