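import Cfsg.Statements.S1521
import Mathlib
import Cfsg.Agent.Lib.Helper10.CohSub
import Cfsg.Agent.Lib.Helper10.NilFrat
import Cfsg.Agent.Lib.Helper10.FrobQuot
import Cfsg.Agent.S1520
-- import your own Cfsg.Agent.* helpers here

set_option autoImplicit false
open Cfsg Cfsg.Agent.Lib.Helper10
open scoped commutatorElement
set_option linter.style.haveILetI false

namespace Cfsg.Agent.S1521

/-- Let K be a solvable normal subgroup of the finite group L of odd order and (S, τ, R) a coherence system from L to G with S the functions induced from non-principal irreducible characters of K; S(A) as before. Let M ≤ K be normal in L with K/M nilpotent, H₁ = [K, K] ⊔ M, H₁ < K < L, and suppose every element of K outside H₁ is centralised modulo H₁ only from inside K (L/H₁ is a Frobenius group with kernel K/H₁). Suppose one of the following: some normal subgroup of L lies strictly between H₁ and K; or [K:H₁] > 4[L:K]^2 + 1; or [K:M] is not a prime power;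 or [K,K] ≤ M; or [K:M] is a power of a prime p with [L:K] dividing p − 1. Then S(M) is coherent. -/
theorem result {L : Type*} [Group L] [Fintype L] {G : Type*} [Group G] [Fintype G] (K : Subgroup L) [hK : K.Normal] (hsolv : Group.IsSolvable K) (τ : (L → ℂ) → (G → ℂ)) (R : (L → ℂ) → Finset (G → ℂ)) (hS : Cfsg.IsCoherenceSystem (Cfsg.inducedIrrAbove K ⊥) τ R) (hodd : Odd (Nat.card L)) (M : Subgroup L) [M.Normal] (hMK : M ≤ K) [(M.subgroupOf K).Normal] (hnil : Group.IsNilpotent (↥K ⧸ M.subgroupOf K)) (H₁ : Subgroup L) (hH₁ : H₁ = ⁅K, K⁆ ⊔ M) (hH₁K : H₁ < K) (hKL : K < ⊤) (hfrob : ∀ k ∈ K, k ∉ H₁ → ∀ x : L, x * k * x⁻¹ * k⁻¹ ∈ H₁ → x ∈ K) (hgood : (∃ N : Subgroup L, N.Normal ∧ H₁ < N ∧ N < K) ∨ 4 * K.index ^ 2 + 1 < H₁.relIndex K ∨ (¬ ∃ p m : ℕ, p.Prime ∧ M.relIndex K = p ^ m) ∨ ⁅K, K⁆ ≤ M ∨ (∃ p m : ℕ, p.Prime ∧ M.relIndex K = p ^ m ∧ K.index ∣ p - 1)) : Cfsg.IsCoherent (Cfsg.inducedIrrAbove K M) {1}ᶜ τ := by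
  classical
  subst hH₁
  have hab : ⁅K, K⁆ ≤ ⁅K, K⁆ ⊔ M := le_sup_left
  have hMH₁ : M ≤ ⁅K, K⁆ ⊔ M := le_sup_right
  have hcoh₁ := coherent_of_commutator_le K hsolv hS (⁅K, K⁆ ⊔ M) hH₁K hab
  have hb : 4 * K.index ^ 2 + 1 < (⁅K, K⁆ ⊔ M).relIndex K →
      Cfsg.IsCoherent (Cfsg.inducedIrrAbove K M) {1}ᶜ τ := fun h =>
    Cfsg.Agent.S1520.result K hsolv τ R hS M (⁅K, K⁆ ⊔ M) K hMH₁ hH₁K.le le_rfl hnil hcoh₁ h
  have hc : ⁅K, K⁆ ≤ M → Cfsg.IsCoherent (Cfsg.inducedIrrAbove K M) {1}ᶜ τ := by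
    intro h
    have : ⁅K, K⁆ ⊔ M = M := sup_eq_right.2 h
    rwa [this] at hcoh₁
  have he0 : 0 < K.index := Nat.pos_of_ne_zero Subgroup.index_ne_zero_of_finite
  have heodd : Odd K.index := Odd.of_dvd_nat hodd (Subgroup.index_dvd_card K)
  have hrelodd : ∀ X Y : Subgroup L, Odd (X.relIndex Y) := fun X Y =>
    Odd.of_dvd_nat hodd ((Subgroup.relIndex_dvd_card X Y).trans (Subgroup.card_subgroup_dvd_card Y))
  have hnum : ∀ a : ℕ, Odd a → 1 < a → K.index ∣ a - 1 → 2 * K.index + 1 ≤ a := by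
    intro a ha ha1 hdvd
    obtain ⟨t, ht⟩ := hdvd
    obtain ⟨e', he'⟩ := heodd
    obtain ⟨a', ha'⟩ := ha
    rcases Nat.even_or_odd t with ⟨s, hs⟩ | ⟨s, hs⟩
    · have hs0 : 0 < s := by
        rcases Nat.eq_zero_or_pos s with h | h
        · subst h; simp at hs; subst hs; omega
        · exact h
      have : K.index * 2 ≤ K.index * t := Nat.mul_le_mul_left _ (by omega)
      omega
    · exfalso
      have h1 : a - 1 = 2 * a' := by omega
      rw [h1, he', hs] at ht
      have : 2 * a' = 2 * (2 * e' * s + e' + s) + 1 := by rw [ht]; ring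
      omega
  have hd : (∃ N : Subgroup L, N.Normal ∧ ⁅K, K⁆ ⊔ M < N ∧ N < K) →
      Cfsg.IsCoherent (Cfsg.inducedIrrAbove K M) {1}ᶜ τ := by
    rintro ⟨N, hNn, hH₁N, hNK⟩
    apply hb
    have h1 := index_dvd_relIndex_sub_one K (⁅K, K⁆ ⊔ M) N hNK.le hab hfrob
    have h2 := index_dvd_relIndex_sub_one K (⁅K, K⁆ ⊔ M) K le_rfl hab hfrob
    have h3 := Subgroup.relIndex_mul_relIndex (⁅K, K⁆ ⊔ M) N K hH₁N.le hNK.le
    have ha1 : 1 < (⁅K, K⁆ ⊔ M).relIndex N := by
      have h4 : (⁅K, K⁆ ⊔ M).relIndex N ≠ 1 := fun h =>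
        not_le_of_gt hH₁N (Subgroup.relIndex_eq_one.1 h)
      have h5 : (⁅K, K⁆ ⊔ M).relIndex N ≠ 0 :=
        Subgroup.index_ne_zero_of_finite (H := (⁅K, K⁆ ⊔ M).subgroupOf N)
      omega
    have hb1 : 1 < N.relIndex K := by
      have h4 : N.relIndex K ≠ 1 := fun h => not_le_of_gt hNK (Subgroup.relIndex_eq_one.1 h)
      have h5 : N.relIndex K ≠ 0 := Subgroup.index_ne_zero_of_finite (H := N.subgroupOf K)
      omega
    have hao := hrelodd (⁅K, K⁆ ⊔ M) N
    have hbo := hrelodd N K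
    rw [← h3] at h2 ⊢
    generalize (⁅K, K⁆ ⊔ M).relIndex N = a at *
    generalize N.relIndex K = b at *
    have h4 : K.index ∣ b - 1 := by
      have h5 : a * b - 1 = a * (b - 1) + (a - 1) := by
        obtain ⟨b', rfl⟩ : ∃ b', b = b' + 1 := ⟨b - 1, by omega⟩
        have : a * (b' + 1) = a * b' + a := by ring
        simp only [Nat.add_sub_cancel]
        omega
      rw [h5] at h2
      have h6 : K.index ∣ a * (b - 1) := (Nat.dvd_add_left h1).1 h2
      have h7 : Nat.Coprime K.index a := by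
        have h8 : Nat.Coprime (a - 1) a := by
          obtain ⟨a', rfl⟩ : ∃ a', a = a' + 1 := ⟨a - 1, by omega⟩
          simp
        exact Nat.Coprime.coprime_dvd_left h1 h8
      exact h7.dvd_of_dvd_mul_left h6
    have h5 := hnum a hao ha1 h1
    have h6 := hnum b hbo hb1 h4
    calc 4 * K.index ^ 2 + 1 < (2 * K.index + 1) * (2 * K.index + 1) := by nlinarith
      _ ≤ a * b := Nat.mul_le_mul h5 h6
  have hr1 : 1 < (⁅K, K⁆ ⊔ M).relIndex K := by
    have h4 : (⁅K, K⁆ ⊔ M).relIndex K ≠ 1 := fun h =>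
      not_le_of_gt hH₁K (Subgroup.relIndex_eq_one.1 h)
    have h5 : (⁅K, K⁆ ⊔ M).relIndex K ≠ 0 :=
      Subgroup.index_ne_zero_of_finite (H := (⁅K, K⁆ ⊔ M).subgroupOf K)
    omega
  have hidx := index_commutator_quotient K M hMK
  rcases hgood with h | h | h | h | h
  · exact hd h
  · exact hb h
  · -- not a prime power
    apply hd
    obtain ⟨p, hp, hpr⟩ := Nat.exists_prime_and_dvd hr1.ne'
    by_cases hq : ∃ q : ℕ, q.Prime ∧ q ∣ (⁅K, K⁆ ⊔ M).relIndex K ∧ p ≠ q
    · obtain ⟨q, hq, hqr, hpq⟩ := hq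
      exact exists_normal_between K (⁅K, K⁆ ⊔ M) hH₁K.le hab hp hq hpq hpr hqr
    · exfalso
      push Not at hq
      have h1 := Nat.eq_prime_pow_of_unique_prime_dvd (p := p) (by omega : (⁅K, K⁆ ⊔ M).relIndex K ≠ 0)
        (fun {d} hd hdr => (hq d hd hdr).symm)
      haveI := Fact.mk hp
      rw [← hidx] at h1
      obtain ⟨k, hk⟩ := card_eq_pow_of_index_commutator h1
      apply h
      refine ⟨p, k, hp, ?_⟩
      rw [← hk]
      exact Subgroup.index_eq_card _
  · exact hc h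
  · obtain ⟨p, m, hp, hpm, hdvd⟩ := h
    have h1 := Subgroup.relIndex_mul_relIndex M (⁅K, K⁆ ⊔ M) K hMH₁ hH₁K.le
    have h2 : (⁅K, K⁆ ⊔ M).relIndex K ∣ p ^ m := by rw [← hpm]; exact Dvd.intro_left _ h1
    obtain ⟨j, -, hj⟩ := (Nat.dvd_prime_pow hp).1 h2
    rcases Nat.lt_or_ge j 2 with hj2 | hj2
    · have hj1 : j = 1 := by
        rcases Nat.eq_zero_or_pos j with h0 | h0
        · rw [h0, pow_zero] at hj; omega
        · omega
      rw [hj1, pow_one] at hj
      apply hc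
      apply commutator_le_of_commutator_quotient_eq_bot
      apply commutator_eq_bot_of_index_prime
      rw [hidx, hj]; exact hp
    · apply hb
      have hpodd : Odd p := by
        have h3 := hrelodd (⁅K, K⁆ ⊔ M) K
        rw [hj] at h3
        exact Odd.of_dvd_nat h3 (dvd_pow_self p (by omega))
      have h3 : 2 * K.index ≤ p - 1 := by
        obtain ⟨t, ht⟩ := hdvd
        obtain ⟨e', he'⟩ := heodd
        obtain ⟨p', hp'⟩ := hpodd
        have hp2 := hp.two_le
        rcases Nat.even_or_odd t with ⟨s, hs⟩ | ⟨s, hs⟩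
        · have hs0 : 0 < s := by
            rcases Nat.eq_zero_or_pos s with h | h
            · subst h; simp at hs; subst hs; omega
            · exact h
          have : K.index * 2 ≤ K.index * t := Nat.mul_le_mul_left _ (by omega)
          omega
        · exfalso
          have h1 : p - 1 = 2 * p' := by omega
          rw [h1, he', hs] at ht
          have : 2 * p' = 2 * (2 * e' * s + e' + s) + 1 := by rw [ht]; ring
          omega
      rw [hj]
      have hp2 := hp.two_le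
      obtain ⟨p', rfl⟩ : ∃ p', p = p' + 1 := ⟨p - 1, by omega⟩
      simp only [Nat.add_sub_cancel] at h3
      calc 4 * K.index ^ 2 + 1 = (2 * K.index) ^ 2 + 1 := by ring
        _ ≤ p' ^ 2 + 1 := by gcongr
        _ < (p' + 1) ^ 2 := by nlinarith
        _ ≤ (p' + 1) ^ j := Nat.pow_le_pow_right (by omega) hj2

end Cfsg.Agent.S1521
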