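import Cfsg.Statements.S1525
import Mathlib
import Cfsg.Agent.Lib.Helper10.Dade
import Cfsg.Agent.S1500
-- import your own Cfsg.Agent.* helpers here

set_option autoImplicit false
open Cfsg
open Cfsg.Agent.Lib.Helper10.Dade
open scoped ComplexConjugate

namespace Cfsg.Agent.S1525

/-- Under the Dade hypothesis for (A, L, H), let χ be a class function of G and let ψ be a function on L whose value at each a ∈ A is the average of χ over the coset a·H(a). Then (1/|G|) Σ |χ g|² over the elements g of G conjugate into some coset a·H(a) with a ∈ A is at least (1/|L|) Σ_{a ∈ A ∩ L} |ψ a|². -/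
theorem result {G : Type*} [Group G] [Fintype G] (A : Set G) (L : Subgroup G) [Fintype L] (H : G → Subgroup G) (hD : Cfsg.DadeHypothesis A L H) (χ : G → ℂ) (hχ : Cfsg.IsClassFunction G χ) (ψ : L → ℂ) (hψ : ∀ a : L, (a : G) ∈ A → ψ a = (Nat.card (H a) : ℂ)⁻¹ * ∑ᶠ u ∈ (H a : Set G), χ (a * u)) : (Nat.card L : ℝ)⁻¹ * ∑ᶠ a ∈ {a : L | (a : G) ∈ A}, ‖ψ a‖ ^ 2 ≤ (Nat.card G : ℝ)⁻¹ * ∑ᶠ g ∈ {g : G | ∃ a ∈ A, ∃ u ∈ H a, ∃ x : G, x * g * x⁻¹ = a * u}, ‖χ g‖ ^ 2 := by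
  classical
  -- the indicator function of A on L
  let w : L → ℂ := fun a => if (a : G) ∈ A then 1 else 0
  have hw : Cfsg.IsClassFunction L w := by
    intro g h
    simp only [w]
    have : ((h * g * h⁻¹ : L) : G) ∈ A ↔ (g : G) ∈ A := by
      constructor
      · intro h1
        have := hD.conj_mem (h⁻¹ : L) (h⁻¹ : L).2 _ h1
        simpa [mul_assoc] using this
      · intro h1
        have := hD.conj_mem h h.2 _ h1
        simpa using this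
    simp only [this]
  have hwA : ∀ x : L, (x : G) ∉ A → w x = 0 := by
    intro x hx
    simp only [w]
    rw [if_neg hx]
  let F : G → ℂ := fun g => ((‖χ g‖ ^ 2 : ℝ) : ℂ)
  have hF : Cfsg.IsClassFunction G F := by
    intro g h
    simp only [F]
    rw [hχ g h]
  have hm := master hD hw hwA hF
  let D : Set G := {g : G | ∃ a ∈ A, ∃ u ∈ H a, ∃ x : G, x * g * x⁻¹ = a * u}
  have hdade : ∀ g : G, Cfsg.dadeIsometry A L H w g = if g ∈ D then 1 else 0 := by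
    intro g
    by_cases hg : g ∈ D
    · obtain ⟨a, ha, u, hu, x, hx⟩ := hg
      rw [if_pos ⟨a, ha, u, hu, x, hx⟩, dade_apply hD hw ⟨a, hD.subset ha⟩ ha hu hx]
      simp only [w]
      rw [if_pos ha]
    · rw [if_neg hg, dade_apply_of_not]
      rintro ⟨a, ha, x, u, hu, hx⟩
      exact hg ⟨a, ha, u, hu, x, hx⟩
  have e1 : ∑ g : G, Cfsg.dadeIsometry A L H w g * F g =
      ((∑ g ∈ Finset.univ.filter (· ∈ D), ‖χ g‖ ^ 2 : ℝ) : ℂ) := by
    rw [Finset.sum_filter]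
    push_cast
    refine Finset.sum_congr rfl fun g _ => ?_
    rw [hdade]
    split_ifs <;> simp [F]
  have e2 : ∑ a : L, w a * ((Nat.card (H a) : ℂ)⁻¹ * ∑ u ∈ Finset.univ.filter (· ∈ H a), F (a * u)) =
      ((∑ a ∈ Finset.univ.filter (fun a : L => (a : G) ∈ A),
        ((Nat.card (H a) : ℝ)⁻¹ * ∑ u ∈ Finset.univ.filter (· ∈ H a), ‖χ (a * u)‖ ^ 2) : ℝ) : ℂ) := by
    rw [Finset.sum_filter]
    push_cast
    refine Finset.sum_congr rfl fun a _ => ?_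
    simp only [w, F]
    split_ifs <;> simp
  rw [e1, e2] at hm
  have hm' : (Nat.card L : ℝ) * ∑ g ∈ Finset.univ.filter (· ∈ D), ‖χ g‖ ^ 2 =
      (Nat.card G : ℝ) * ∑ a ∈ Finset.univ.filter (fun a : L => (a : G) ∈ A),
        ((Nat.card (H a) : ℝ)⁻¹ * ∑ u ∈ Finset.univ.filter (· ∈ H a), ‖χ (a * u)‖ ^ 2) := by
    exact_mod_cast hm
  have s1 : ∑ᶠ g ∈ {g : G | ∃ a ∈ A, ∃ u ∈ H a, ∃ x : G, x * g * x⁻¹ = a * u}, ‖χ g‖ ^ 2 =
      ∑ g ∈ Finset.univ.filter (· ∈ D), ‖χ g‖ ^ 2 := by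
    have : {g : G | ∃ a ∈ A, ∃ u ∈ H a, ∃ x : G, x * g * x⁻¹ = a * u} = ↑(Finset.univ.filter (· ∈ D)) := by
      ext g; simp [D]
    rw [this, finsum_mem_coe_finset]
  have s2 : ∑ᶠ a ∈ {a : L | (a : G) ∈ A}, ‖ψ a‖ ^ 2 =
      ∑ a ∈ Finset.univ.filter (fun a : L => (a : G) ∈ A), ‖ψ a‖ ^ 2 := by
    have : {a : L | (a : G) ∈ A} = ↑(Finset.univ.filter (fun a : L => (a : G) ∈ A)) := by
      ext g; simp
    rw [this, finsum_mem_coe_finset]
  rw [s1, s2]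
  have hL0 : (0 : ℝ) < (Nat.card L : ℝ) := by exact_mod_cast Nat.card_pos
  have hG0 : (0 : ℝ) < (Nat.card G : ℝ) := by exact_mod_cast Nat.card_pos
  have hcs : ∑ a ∈ Finset.univ.filter (fun a : L => (a : G) ∈ A), ‖ψ a‖ ^ 2 ≤
      ∑ a ∈ Finset.univ.filter (fun a : L => (a : G) ∈ A),
        ((Nat.card (H a) : ℝ)⁻¹ * ∑ u ∈ Finset.univ.filter (· ∈ H a), ‖χ (a * u)‖ ^ 2) := by
    apply Finset.sum_le_sum
    intro a ha
    have ha' := (Finset.mem_filter.1 ha).2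
    rw [hψ a ha', Cfsg.Agent.S1500.finsum_mem_subgroup, norm_mul, mul_pow]
    have hc : ((Finset.univ.filter (· ∈ H a)).card : ℝ) = (Nat.card (H a) : ℝ) := by
      rw [Nat.card_eq_fintype_card, Fintype.card_subtype]
    have hH0 : (0 : ℝ) < (Nat.card (H a) : ℝ) := by exact_mod_cast Nat.card_pos
    have h1 : ‖∑ u ∈ Finset.univ.filter (· ∈ H a), χ (a * u)‖ ^ 2 ≤
        (Nat.card (H a) : ℝ) * ∑ u ∈ Finset.univ.filter (· ∈ H a), ‖χ (a * u)‖ ^ 2 := by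
      calc ‖∑ u ∈ Finset.univ.filter (· ∈ H a), χ (a * u)‖ ^ 2
          ≤ (∑ u ∈ Finset.univ.filter (· ∈ H a), ‖χ (a * u)‖) ^ 2 := by
            gcongr
            exact norm_sum_le _ _
        _ ≤ ((Finset.univ.filter (· ∈ H a)).card : ℝ) * ∑ u ∈ Finset.univ.filter (· ∈ H a), ‖χ (a * u)‖ ^ 2 :=
            sq_sum_le_card_mul_sum_sq
        _ = _ := by rw [hc]
    have h2 : ‖((Nat.card (H a) : ℂ))⁻¹‖ = (Nat.card (H a) : ℝ)⁻¹ := by
      rw [norm_inv]; simp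
    rw [h2]
    calc (Nat.card (H a) : ℝ)⁻¹ ^ 2 * ‖∑ u ∈ Finset.univ.filter (· ∈ H a), χ (a * u)‖ ^ 2
        ≤ (Nat.card (H a) : ℝ)⁻¹ ^ 2 * ((Nat.card (H a) : ℝ) * ∑ u ∈ Finset.univ.filter (· ∈ H a), ‖χ (a * u)‖ ^ 2) := by
          gcongr
      _ = (Nat.card (H a) : ℝ)⁻¹ * ∑ u ∈ Finset.univ.filter (· ∈ H a), ‖χ (a * u)‖ ^ 2 := by
          field_simp
  have h3 : (Nat.card G : ℝ)⁻¹ * ∑ g ∈ Finset.univ.filter (· ∈ D), ‖χ g‖ ^ 2 =
      (Nat.card L : ℝ)⁻¹ * ∑ a ∈ Finset.univ.filter (fun a : L => (a : G) ∈ A),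
        ((Nat.card (H a) : ℝ)⁻¹ * ∑ u ∈ Finset.univ.filter (· ∈ H a), ‖χ (a * u)‖ ^ 2) := by
    generalize (∑ g ∈ Finset.univ.filter (· ∈ D), ‖χ g‖ ^ 2) = X at hm' ⊢
    generalize (∑ a ∈ Finset.univ.filter (fun a : L => (a : G) ∈ A),
        ((Nat.card (H a) : ℝ)⁻¹ * ∑ u ∈ Finset.univ.filter (· ∈ H a), ‖χ (a * u)‖ ^ 2)) = Y at hm' ⊢
    field_simp
    linarith
  rw [h3]
  gcongr

end Cfsg.Agent.S1525
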