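import Cfsg.Statements.S1527
import Mathlib
import Cfsg.Agent.Lib.Helper21.TICount

set_option autoImplicit false
open Cfsg

namespace Cfsg.Agent.S1527

/-- Let G be a finite group and H i (i in a finite index type) subgroups of pairwise coprime orders, each of whose underlying sets is a TI-subset of G, such that every non-identity element of G is conjugate to an element of some H i. Then Nat.card G − 1 = Σ_i [G : N_G(H i)] · (Nat.card (H i) − 1). -/
theorem result {G : Type*} [Group G] [Finite G] {ι : Type*} [Fintype ι] (H : ι → Subgroup G) (hcop : ∀ i j, i ≠ j → Nat.Coprime (Nat.card (H i)) (Nat.card (H j))) (hTI : ∀ i, Cfsg.IsTISubset (H i : Set G)) (hcover : ∀ g : G, g ≠ 1 → ∃ i, ∃ x : G, x * g * x⁻¹ ∈ H i) : Nat.card G - 1 = ∑ i, (Subgroup.normalizer (H i : Set G)).index * (Nat.card (H i) - 1) := by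
  classical
  have hord : ∀ (g x : G) (i : ι), x * g * x⁻¹ ∈ H i → orderOf g ∣ Nat.card (H i) := by
    intro g x i hx
    have h1 := orderOf_dvd_natCard (⟨_, hx⟩ : H i)
    rw [Subgroup.orderOf_mk] at h1
    have : x * g * x⁻¹ = MulAut.conj x g := by simp
    rwa [this, (MulAut.conj x).orderOf_eq] at h1
  have huniq : ∀ g : G, g ≠ 1 → ∀ i j, (∃ x, x * g * x⁻¹ ∈ H i) → (∃ x, x * g * x⁻¹ ∈ H j) →
      i = j := by
    rintro g hg i j ⟨x, hx⟩ ⟨y, hy⟩
    by_contra hij
    have h3 := Nat.dvd_gcd (hord g x i hx) (hord g y j hy)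
    rw [(hcop i j hij).gcd_eq_one, Nat.dvd_one, orderOf_eq_one_iff] at h3
    exact hg h3
  choose f hf using fun g : {g : G // g ≠ 1} => hcover g.1 g.2
  let F : {g : G // g ≠ 1} → ι := f
  have hG : Nat.card {g : G // g ≠ 1} = Nat.card G - 1 := by
    haveI : Fintype G := Fintype.ofFinite _
    rw [Nat.card_eq_fintype_card, Fintype.card_subtype_compl, Fintype.card_subtype_eq,
      ← Nat.card_eq_fintype_card]
  rw [← hG, ← Nat.card_congr (Equiv.sigmaFiberEquiv F), Nat.card_sigma]
  apply Finset.sum_congr rfl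
  intro i _
  rw [← Cfsg.Agent.Lib.Helper21.card_conj_TI (H i) (hTI i)]
  apply Nat.card_congr
  exact
    { toFun := fun t => ⟨t.1.1, t.1.2, by
        have := hf t.1
        rw [show f t.1 = i from t.2] at this
        exact this⟩
      invFun := fun x => ⟨⟨x.1, x.2.1⟩, huniq x.1 x.2.1 _ _ (hf ⟨x.1, x.2.1⟩) x.2.2⟩
      left_inv := fun t => rfl
      right_inv := fun x => rfl }

end Cfsg.Agent.S1527
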