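import Cfsg.Statements.S1530
import Mathlib
import Cfsg.Agent.Lib.Helper10.Virtual2
-- import your own Cfsg.Agent.* helpers here

set_option autoImplicit false
open Cfsg

namespace Cfsg.Agent.S1530

open Cfsg.Agent.CharLib Cfsg.Agent.Lib.Helper10

/-- the arithmetic heart -/
theorem arith (D P y k q : ℤ) (hP : 0 < P) (hD : 2 * P < D) (hk : 0 ≤ k) (hq : 0 < q)
    (h1 : q = q * k + y * (y * D - 2 * P)) (h2 : k = 0 → y * D = P) : y = 0 := by
  by_contra hy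
  have hpos : 0 < y * (y * D - 2 * P) := by
    rcases lt_or_gt_of_ne hy with h | h
    · apply mul_pos_of_neg_of_neg h
      nlinarith
    · apply mul_pos h
      nlinarith
  have hk0 : k = 0 := by
    by_contra hk0
    have : 1 ≤ k := by omega
    nlinarith
  have h3 := h2 hk0
  rw [hk0, h3] at h1
  have hy' : 0 < y := by
    by_contra h
    have : y ≤ 0 := by omega
    nlinarith
  nlinarith

/-- the map on multiples of a single irreducible character -/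
theorem single_isometry {L : Type*} [Group L] [Fintype L] {G : Type*} [Group G] [Fintype G] {χ : L → ℂ}
    (hχ : IsIrrCharacter L χ) {Γ : G → ℂ} (hΓ : IsGeneralizedCharacter G Γ) (hΓ1 : classInner Γ Γ = 1) :
    IsLinearIsometryOn (zspan {χ}) (fun θ => classInner θ χ • Γ) := by
  have hmem : ∀ θ ∈ zspan {χ}, ∃ n : ℤ, θ = n • χ := by
    intro θ hθ
    obtain ⟨n, hn⟩ := Submodule.mem_span_singleton.1 hθ
    exact ⟨n, hn.symm⟩
  have hval : ∀ n : ℤ, classInner (n • χ) χ = n := by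
    intro n
    rw [classInner_zsmul_left, classInner_irr_self hχ, mul_one]
  refine ⟨?_, ?_, ?_, ?_⟩
  · intro a _ b _
    simp only [classInner_add_left, add_smul]
  · intro a _ n
    simp only [classInner_zsmul_left]
    ext x
    simp [mul_assoc]
  · intro a ha b hb
    obtain ⟨n, rfl⟩ := hmem a ha
    obtain ⟨m, rfl⟩ := hmem b hb
    simp only [hval]
    rw [classInner_smul_left, classInner_smul_right, hΓ1, classInner_zsmul_right, hval]
    simp [mul_comm]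
  · intro a ha
    obtain ⟨n, rfl⟩ := hmem a ha
    simp only [hval]
    exact isGeneralizedCharacter_intCast_smul hΓ n

/-- Let N be a subgroup of the finite group G and S₀ a finite set of irreducible characters of N, χ an irreducible character of N not in S₀, with degrees ξ 1 = d ξ. Let τ be a linear isometry on the integer combinations of S₀ ∪ {χ} vanishing at 1, with values virtual characters of G vanishing at 1, such that (S₀, N minus 1, τ) is coherent. If some ψ ∈ S₀ has d ψ dividing d χ and 2 · d ψ · d χ < Σ_{ξ ∈ S₀} (d ξ)², then (S₀ ∪ {χ}, N minus 1, τ) is coherent. -/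
theorem result {G : Type*} [Group G] [Fintype G] (N : Subgroup G) [Fintype N] (S₀ : Finset (N → ℂ)) (χ : N → ℂ) (hirr : ∀ ξ ∈ S₀, Cfsg.IsIrrCharacter N ξ) (hχ : Cfsg.IsIrrCharacter N χ) (hχS : χ ∉ S₀) (d : (N → ℂ) → ℕ) (hd : ∀ ξ ∈ insert χ S₀, ξ 1 = (d ξ : ℂ)) (τ : (N → ℂ) → (G → ℂ)) (hτ : Cfsg.IsLinearIsometryOn (Cfsg.zspanOn (↑(insert χ S₀) : Set (N → ℂ)) {1}ᶜ) τ) (hτ1 : ∀ α ∈ Cfsg.zspanOn (↑(insert χ S₀) : Set (N → ℂ)) {1}ᶜ, τ α 1 = 0) (hcoh : Cfsg.IsCoherent (↑S₀ : Set (N → ℂ)) {1}ᶜ τ) (ψ : N → ℂ) (hψ : ψ ∈ S₀) (hdvd : d ψ ∣ d χ) (hlt : 2 * d ψ * d χ < ∑ ξ ∈ S₀, d ξ ^ 2) : Cfsg.IsCoherent (↑(insert χ S₀) : Set (N → ℂ)) {1}ᶜ τ := by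
  classical
  obtain ⟨-, τ₁, hτ₁, hτ₁τ⟩ := hcoh
  have hSeq : (↑(insert χ S₀) : Set (N → ℂ)) = ↑S₀ ∪ {χ} := by rw [Finset.coe_insert, Set.union_singleton]
  rw [hSeq] at hτ hτ1 ⊢
  have hX : ∀ ξ ∈ (↑S₀ : Set (N → ℂ)), IsIrrCharacter N ξ := fun ξ h => hirr ξ h
  have hY : ∀ ξ ∈ ({χ} : Set (N → ℂ)), IsIrrCharacter N ξ := fun ξ h => by rw [Set.mem_singleton_iff.1 h]; exact hχ
  have hSirr : ∀ ξ ∈ (↑S₀ ∪ {χ} : Set (N → ℂ)), IsIrrCharacter N ξ := by
    rintro ξ (h | h)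
    · exact hX ξ h
    · exact hY ξ h
  have hXS : (↑S₀ : Set (N → ℂ)) ⊆ ↑S₀ ∪ {χ} := Set.subset_union_left
  have hYS : ({χ} : Set (N → ℂ)) ⊆ ↑S₀ ∪ {χ} := Set.subset_union_right
  have hXY : Disjoint (↑S₀ : Set (N → ℂ)) {χ} := by
    rw [Set.disjoint_singleton_right]; exact hχS
  obtain ⟨a, ha⟩ := hdvd
  have hdχ : χ 1 = d χ := hd χ (Finset.mem_insert_self _ _)
  have hdS : ∀ ξ ∈ S₀, ξ 1 = d ξ := fun ξ h => hd ξ (Finset.mem_insert_of_mem h)
  have hdψ := hdS ψ hψ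
  have dpos : ∀ ξ ∈ S₀, 0 < d ξ := by
    intro ξ h
    rcases Nat.eq_zero_or_pos (d ξ) with h0 | h0
    · exfalso
      have := hdS ξ h
      rw [h0] at this
      exact irr_apply_one_ne_zero ⟨ξ, hirr ξ h⟩ (by simpa using this)
    · exact h0
  have dχpos : 0 < d χ := by
    rcases Nat.eq_zero_or_pos (d χ) with h0 | h0
    · exfalso
      rw [h0] at hdχ
      exact irr_apply_one_ne_zero ⟨χ, hχ⟩ (by simpa using hdχ)
    · exact h0
  have hχne : ∀ ξ ∈ S₀, χ ≠ ξ := by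
    rintro ξ h rfl; exact hχS h
  have hχmem : χ ∈ zspan (↑S₀ ∪ {χ} : Set (N → ℂ)) := mem_zspan_of_mem (Or.inr rfl)
  have hSmem : ∀ ξ ∈ S₀, ξ ∈ zspan (↑S₀ ∪ {χ} : Set (N → ℂ)) := fun ξ h => mem_zspan_of_mem (Or.inl h)
  -- β
  set β : N → ℂ := (1 : ℤ) • χ + (-(a : ℤ)) • ψ with hβdef
  have hβ : β ∈ zspanOn (↑S₀ ∪ {χ} : Set (N → ℂ)) {1}ᶜ := by
    rw [mem_zspanOn_one_iff]
    refine ⟨zspan_add (zspan_zsmul hχmem _) (zspan_zsmul (hSmem ψ hψ) _), ?_⟩
    simp [hβdef, hdχ, hdψ, ha]; ring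
  have hβnorm : classInner β β = ((1 + (a : ℤ) ^ 2 : ℤ) : ℂ) := by
    rw [hβdef, classInner_add_left, classInner_add_right, classInner_add_right]
    simp only [classInner_zsmul_left, classInner_zsmul_right]
    rw [classInner_irr_self hχ, classInner_irr_self (hirr ψ hψ), classInner_irr_ne hχ (hirr ψ hψ) (hχne ψ hψ),
      classInner_irr_ne (hirr ψ hψ) hχ (hχne ψ hψ).symm]
    push_cast; ring
  have hint : ∀ ξ ∈ S₀, ∃ k : ℤ, classInner (τ β) (τ₁ ξ) = k := fun ξ hξ =>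
    classInner_virtual_int (lio_virtual hτ hβ) (lio_virtual hτ₁ (mem_zspan_of_mem hξ))
  choose! c hc using hint
  have hrel : ∀ ξ ∈ S₀, ξ ≠ ψ → (d ψ : ℤ) * c ξ = d ξ * (c ψ + a) := by
    intro ξ hξ hne
    have hE : ((d ψ : ℤ) • ξ + (-(d ξ : ℤ)) • ψ) ∈ zspanOn (↑S₀ : Set (N → ℂ)) {1}ᶜ := by
      rw [mem_zspanOn_one_iff]
      refine ⟨zspan_add (zspan_zsmul (mem_zspan_of_mem hξ) _) (zspan_zsmul (mem_zspan_of_mem hψ) _), ?_⟩
      simp [hdS ξ hξ, hdψ]; ring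
    have h1 := lio_inner hτ hβ (zspanOn_mono hXS hE)
    rw [← hτ₁τ _ hE, lio_comb hτ₁ (fun α ha n => zspan_zsmul ha n) (mem_zspan_of_mem hξ) (mem_zspan_of_mem hψ),
      classInner_add_right, hβdef, classInner_add_right, classInner_add_left, classInner_add_left] at h1
    simp only [classInner_zsmul_left, classInner_zsmul_right] at h1
    rw [← hβdef, hc ξ hξ, hc ψ hψ, classInner_irr_self (hirr ψ hψ), classInner_irr_ne hχ (hirr ψ hψ) (hχne ψ hψ),
      classInner_irr_ne hχ (hirr ξ hξ) (hχne ξ hξ), classInner_irr_ne (hirr ψ hψ) (hirr ξ hξ) hne.symm] at h1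
    have h2 : (((d ψ : ℤ) * c ξ : ℤ) : ℂ) = ((d ξ * (c ψ + a) : ℤ) : ℂ) := by
      push_cast; push_cast at h1; linear_combination h1
    exact_mod_cast h2
  have hon : ∀ i ∈ S₀, ∀ j ∈ S₀, classInner (τ₁ i) (τ₁ j) = if i = j then 1 else 0 := by
    intro i hi j hj
    rw [lio_inner hτ₁ (mem_zspan_of_mem hi) (mem_zspan_of_mem hj), classInner_irr (hirr i hi) (hirr j hj)]
  obtain ⟨hΓorth, hbes⟩ := bessel S₀ τ₁ hon (τ β) c hc
  set Γ : G → ℂ := τ β - ∑ j ∈ S₀, (c j : ℂ) • τ₁ j with hΓdef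
  have hΓvirt : IsGeneralizedCharacter G Γ := by
    apply isGeneralizedCharacter_sub (lio_virtual hτ hβ)
    apply isGeneralizedCharacter_sum
    intro j hj
    exact isGeneralizedCharacter_intCast_smul (lio_virtual hτ₁ (mem_zspan_of_mem hj)) _
  obtain ⟨k, hk⟩ := norm_virtual_nat hΓvirt
  rw [lio_inner hτ hβ hβ, hβnorm, hk] at hbes
  have hbes' : 1 + (a : ℤ) ^ 2 = k + ∑ j ∈ S₀, c j ^ 2 := by exact_mod_cast hbes
  set y : ℤ := c ψ + a with hy
  have hcj : ∀ j ∈ S₀, (d ψ : ℤ) * c j = d j * y + if j = ψ then -(d χ : ℤ) else 0 := by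
    intro j hj
    by_cases h : j = ψ
    · rw [if_pos h, h, hy, ha]; push_cast; ring
    · rw [if_neg h, hrel j hj h, add_zero]
  set D : ℤ := ∑ ξ ∈ S₀, (d ξ : ℤ) ^ 2 with hD
  have hsq : (d ψ : ℤ) ^ 2 * ∑ j ∈ S₀, c j ^ 2 = y ^ 2 * D - 2 * (d ψ * d χ) * y + (d χ : ℤ) ^ 2 := by
    rw [Finset.mul_sum]
    have : ∀ j ∈ S₀, (d ψ : ℤ) ^ 2 * c j ^ 2 =
        y ^ 2 * (d j : ℤ) ^ 2 + if j = ψ then (- 2 * (d ψ * d χ) * y + (d χ : ℤ) ^ 2) else 0 := by
      intro j hj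
      have := hcj j hj
      by_cases h : j = ψ
      · rw [if_pos h] at this ⊢
        rw [← mul_pow, this, h]; ring
      · rw [if_neg h] at this ⊢
        rw [← mul_pow, this]; ring
    rw [Finset.sum_congr rfl this, Finset.sum_add_distrib, ← Finset.mul_sum, Finset.sum_ite_eq' S₀ ψ, if_pos hψ]
    ring
  have hlin : (d ψ : ℤ) * ∑ j ∈ S₀, c j * d j = y * D - d ψ * d χ := by
    rw [Finset.mul_sum]
    have : ∀ j ∈ S₀, (d ψ : ℤ) * (c j * d j) =
        y * (d j : ℤ) ^ 2 + if j = ψ then (- ((d ψ : ℤ) * d χ)) else 0 := by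
      intro j hj
      have := hcj j hj
      by_cases h : j = ψ
      · rw [if_pos h] at this ⊢
        rw [← mul_assoc, this, h]; ring
      · rw [if_neg h] at this ⊢
        rw [← mul_assoc, this]; ring
    rw [Finset.sum_congr rfl this, Finset.sum_add_distrib, ← Finset.mul_sum, Finset.sum_ite_eq' S₀ ψ, if_pos hψ]
    ring
  have h0τ₁ : ∀ θ ∈ zspan (↑S₀ : Set (N → ℂ)), θ 1 = 0 → τ₁ θ 1 = 0 := by
    intro θ hθ h1
    have hmem : θ ∈ zspanOn (↑S₀ : Set (N → ℂ)) {1}ᶜ := mem_zspanOn_one_iff.2 ⟨hθ, h1⟩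
    rw [hτ₁τ θ hmem]
    exact hτ1 θ (zspanOn_mono hXS hmem)
  have ht : τ₁ ψ 1 ≠ 0 := (lio_signed hX hτ₁ hψ).apply_one_ne_zero
  have hΓ1 : (d ψ : ℂ) ^ 2 * Γ 1 = - τ₁ ψ 1 * ((y * D - d ψ * d χ : ℤ) : ℂ) := by
    rw [← hlin, hΓdef]
    simp only [Pi.sub_apply, Finset.sum_apply, Pi.smul_apply, smul_eq_mul]
    rw [hτ1 β hβ, zero_sub, mul_neg, Finset.mul_sum]
    push_cast
    rw [Finset.mul_sum, Finset.mul_sum, ← Finset.sum_neg_distrib]
    refine Finset.sum_congr rfl fun j hj => ?_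
    have := lio_degree hX hτ₁ h0τ₁ (χ := j) (ψ := ψ) hj hψ
    rw [hdψ, hdS j hj] at this
    linear_combination (-(d ψ : ℂ) * c j) * this
  have hDlt : 2 * ((d ψ : ℤ) * d χ) < D := by
    rw [hD]; exact_mod_cast (by rw [← mul_assoc]; exact hlt : 2 * (d ψ * d χ) < ∑ ξ ∈ S₀, d ξ ^ 2)
  have hψpos := dpos ψ hψ
  have hy0 : y = 0 := by
    apply arith D ((d ψ : ℤ) * d χ) y k ((d ψ : ℤ) ^ 2) (by positivity) hDlt (by positivity) (by positivity)
    · have : (d ψ : ℤ) ^ 2 * (1 + (a : ℤ) ^ 2) = (d ψ : ℤ) ^ 2 * (k + ∑ j ∈ S₀, c j ^ 2) := by rw [hbes']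
      rw [mul_add ((d ψ : ℤ) ^ 2) (k : ℤ), hsq] at this
      have ha' : (d χ : ℤ) = d ψ * a := by exact_mod_cast ha
      rw [ha'] at this ⊢
      linear_combination this
    · intro hk0
      have hk0' : k = 0 := by exact_mod_cast hk0
      rw [hk0'] at hk
      have hΓ0 : Γ = 0 := classInner_self_eq_zero (by simpa using hk)
      rw [hΓ0] at hΓ1
      simp only [Pi.zero_apply, mul_zero] at hΓ1
      have h3 : ((y * D - d ψ * d χ : ℤ) : ℂ) = 0 := by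
        rcases mul_eq_zero.1 hΓ1.symm with h | h
        · exact absurd (neg_eq_zero.1 h) ht
        · exact h
      have h4 : y * D - d ψ * d χ = 0 := by exact_mod_cast h3
      linarith
  -- consequences of y = 0
  have hcψ : c ψ = -(a : ℤ) := by rw [hy] at hy0; linarith
  have hc0 : ∀ j ∈ S₀, j ≠ ψ → c j = 0 := by
    intro j hj hne
    have := hrel j hj hne
    rw [hy0, mul_zero] at this
    rcases mul_eq_zero.1 this with h | h
    · exfalso; have : d ψ = 0 := by exact_mod_cast h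
      omega
    · exact h
  have hk1 : k = 1 := by
    have : (d ψ : ℤ) ^ 2 * (1 + (a : ℤ) ^ 2) = (d ψ : ℤ) ^ 2 * (k + ∑ j ∈ S₀, c j ^ 2) := by rw [hbes']
    rw [mul_add ((d ψ : ℤ) ^ 2) (k : ℤ), hsq, hy0] at this
    have ha' : (d χ : ℤ) = d ψ * a := by exact_mod_cast ha
    rw [ha'] at this
    have h2 : (d ψ : ℤ) ^ 2 * ((k : ℤ) - 1) = 0 := by linear_combination -this
    rcases mul_eq_zero.1 h2 with h | h
    · exfalso
      have : (d ψ : ℤ) = 0 := by simpa using h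
      omega
    · omega
  have hΓnorm : classInner Γ Γ = 1 := by rw [hk, hk1]; simp
  have hΓeq : Γ = τ β + (a : ℂ) • τ₁ ψ := by
    rw [hΓdef, Finset.sum_eq_single ψ]
    · rw [hcψ]; push_cast; rw [neg_smul, sub_neg_eq_add]
    · intro j hj hne
      rw [hc0 j hj hne]; simp
    · intro h; exact absurd hψ h
  -- glue
  have hτY := single_isometry hχ hΓvirt hΓnorm
  have horth : ∀ ξ ∈ (↑S₀ : Set (N → ℂ)), ∀ η ∈ ({χ} : Set (N → ℂ)),
      classInner (τ₁ ξ) ((fun θ => classInner θ χ • Γ) η) = 0 := by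
    intro ξ hξ η hη
    rw [Set.mem_singleton_iff.1 hη]
    simp only
    rw [classInner_smul_right, classInner_eq_zero_symm (hΓorth ξ hξ), mul_zero]
  refine ⟨⟨β, hβ, ?_⟩, glueMap (↑S₀) {χ} τ₁ (fun θ => classInner θ χ • Γ),
    glue_isometry hX hY hXY hτ₁ hτY horth, ?_⟩
  · intro h0
    rw [h0] at hβnorm
    simp only [classInner_zero_left] at hβnorm
    have : (0 : ℤ) = 1 + (a : ℤ) ^ 2 := by exact_mod_cast hβnorm
    nlinarith [sq_nonneg (a : ℤ)]
  · apply glue_coherent hSirr hXS hYS hXY hτ hτ₁ hτ₁τ hτY ?_ horth (χ₀ := ψ) (η₀ := χ) hψ rfl (d ψ : ℤ) (d χ : ℤ)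
      (by simpa using hdψ) (by simpa using hdχ)
    · -- link
      have e1 : (d ψ : ℤ) • χ + (-(d χ : ℤ)) • ψ = (d ψ : ℤ) • β := by
        rw [hβdef, ha]; ext x; simp; ring
      rw [e1, lio_zsmul hτ hβ]
      rw [classInner_irr_self hχ, one_smul, hΓeq, ha]
      ext x; simp; ring
    · intro θ hθ
      rw [mem_zspanOn_one_iff] at hθ
      obtain ⟨n, hn⟩ := Submodule.mem_span_singleton.1 hθ.1
      have h1 := hθ.2
      rw [← hn] at h1
      simp only [Pi.smul_apply, zsmul_eq_mul] at h1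
      have hn0 : n = 0 := by
        rcases mul_eq_zero.1 h1 with h | h
        · exact_mod_cast h
        · exact absurd h (irr_apply_one_ne_zero ⟨χ, hχ⟩)
      rw [← hn, hn0, zero_smul, lio_zero' hτ]
      simp

end Cfsg.Agent.S1530
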