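import Cfsg.Statements.S1531
import Mathlib
import Cfsg.Agent.Lib.Helper10.Glue
-- import your own Cfsg.Agent.* helpers here

set_option autoImplicit false
open Cfsg

namespace Cfsg.Agent.S1531

open Cfsg.Agent.CharLib Cfsg.Agent.Lib.Helper10

theorem orth {L : Type*} [Group L] [Fintype L] {G : Type*} [Group G] [Fintype G] (S X Y : Set (L → ℂ))
    (hirr : ∀ ξ ∈ S, Cfsg.IsIrrCharacter L ξ) (hXS : X ⊆ S) (hYS : Y ⊆ S) (hXY : Disjoint X Y)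
    (hX2 : ∃ a ∈ X, ∃ b ∈ X, a ≠ b) (hY2 : ∃ a ∈ Y, ∃ b ∈ Y, a ≠ b) (α : (L → ℂ) → (G → ℂ))
    (hα : Cfsg.IsLinearIsometryOn (Cfsg.zspanOn S {1}ᶜ) α) (hα1 : ∀ θ ∈ Cfsg.zspanOn S {1}ᶜ, α θ 1 = 0)
    (σ τ : (L → ℂ) → (G → ℂ)) (hσ : Cfsg.IsLinearIsometryOn (Cfsg.zspan X) σ)
    (hσα : ∀ θ ∈ Cfsg.zspanOn X {1}ᶜ, σ θ = α θ) (hτ : Cfsg.IsLinearIsometryOn (Cfsg.zspan Y) τ)
    (hτα : ∀ θ ∈ Cfsg.zspanOn Y {1}ᶜ, τ θ = α θ) :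
    ∀ χ ∈ X, ∀ η ∈ Y, Cfsg.classInner (σ χ) (τ η) = 0 := by
  have hX : ∀ ξ ∈ X, IsIrrCharacter L ξ := fun ξ h => hirr ξ (hXS h)
  have hY : ∀ ξ ∈ Y, IsIrrCharacter L ξ := fun ξ h => hirr ξ (hYS h)
  intro χ hχ η hη
  have ex1 : ∃ χ' ∈ X, χ ≠ χ' := by
    obtain ⟨a, ha, b, hb, hab⟩ := hX2
    by_cases h : χ = a
    · exact ⟨b, hb, h ▸ hab⟩
    · exact ⟨a, ha, h⟩
  have ex2 : ∃ η' ∈ Y, η ≠ η' := by
    obtain ⟨a, ha, b, hb, hab⟩ := hY2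
    by_cases h : η = a
    · exact ⟨b, hb, h ▸ hab⟩
    · exact ⟨a, ha, h⟩
  obtain ⟨χ', hχ', hne1⟩ := ex1
  obtain ⟨η', hη', hne2⟩ := ex2
  obtain ⟨n, hnpos, hn⟩ := irr_apply_one_nat ⟨χ, hX χ hχ⟩
  obtain ⟨n', hn'pos, hn'⟩ := irr_apply_one_nat ⟨χ', hX χ' hχ'⟩
  obtain ⟨m, hmpos, hm⟩ := irr_apply_one_nat ⟨η, hY η hη⟩
  obtain ⟨m', hm'pos, hm'⟩ := irr_apply_one_nat ⟨η', hY η' hη'⟩
  simp only at hn hn' hm hm'
  have hA : ((n' : ℤ) • χ + (-(n : ℤ)) • χ') ∈ zspanOn X {1}ᶜ := by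
    rw [mem_zspanOn_one_iff]
    refine ⟨zspan_add (zspan_zsmul (mem_zspan_of_mem hχ) _) (zspan_zsmul (mem_zspan_of_mem hχ') _), ?_⟩
    simp [hn, hn']; ring
  have hB : ((m' : ℤ) • η + (-(m : ℤ)) • η') ∈ zspanOn Y {1}ᶜ := by
    rw [mem_zspanOn_one_iff]
    refine ⟨zspan_add (zspan_zsmul (mem_zspan_of_mem hη) _) (zspan_zsmul (mem_zspan_of_mem hη') _), ?_⟩
    simp [hm, hm']; ring
  have h0σ : ∀ θ ∈ zspan X, θ 1 = 0 → σ θ 1 = 0 := by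
    intro θ hθ h1
    have hmem : θ ∈ zspanOn X {1}ᶜ := mem_zspanOn_one_iff.2 ⟨hθ, h1⟩
    rw [hσα θ hmem]
    exact hα1 θ (zspanOn_mono hXS hmem)
  have h0τ : ∀ θ ∈ zspan Y, θ 1 = 0 → τ θ 1 = 0 := by
    intro θ hθ h1
    have hmem : θ ∈ zspanOn Y {1}ᶜ := mem_zspanOn_one_iff.2 ⟨hθ, h1⟩
    rw [hτα θ hmem]
    exact hα1 θ (zspanOn_mono hYS hmem)
  have hmix0 : classInner (σ ((n' : ℤ) • χ + (-(n : ℤ)) • χ')) (τ ((m' : ℤ) • η + (-(m : ℤ)) • η')) = 0 := by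
    rw [hσα _ hA, hτα _ hB, lio_inner hα (zspanOn_mono hXS hA) (zspanOn_mono hYS hB)]
    exact inner_zspan_zero hX hY hXY hA.1 hB.1
  rw [lio_comb hσ (fun α ha n => zspan_zsmul ha n) (mem_zspan_of_mem hχ) (mem_zspan_of_mem hχ'),
    lio_comb hτ (fun α ha n => zspan_zsmul ha n) (mem_zspan_of_mem hη) (mem_zspan_of_mem hη')] at hmix0
  have e1 : (n' : ℤ) • σ χ + (-(n : ℤ)) • σ χ' = (((n' : ℝ)) : ℂ) • σ χ - (((n : ℝ)) : ℂ) • σ χ' := by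
    ext x; simp; ring
  have e2 : (m' : ℤ) • τ η + (-(m : ℤ)) • τ η' = (((m' : ℝ)) : ℂ) • τ η - (((m : ℝ)) : ℂ) • τ η' := by
    ext x; simp; ring
  rw [e1, e2] at hmix0
  refine (signed_orth (lio_signed hX hσ hχ) (lio_signed hX hσ hχ') (lio_signed hY hτ hη) (lio_signed hY hτ hη')
    (n' : ℝ) (n : ℝ) (m' : ℝ) (m : ℝ) (by positivity) (by positivity) (by positivity) (by positivity)
    ?_ ?_ hmix0 ?_ ?_).1
  · rw [lio_inner hσ (mem_zspan_of_mem hχ) (mem_zspan_of_mem hχ'), classInner_irr_ne (hX χ hχ) (hX χ' hχ') hne1]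
  · rw [lio_inner hτ (mem_zspan_of_mem hη) (mem_zspan_of_mem hη'), classInner_irr_ne (hY η hη) (hY η' hη') hne2]
  · have := lio_degree hX hσ h0σ hχ hχ'
    rw [hn, hn'] at this
    simpa using this
  · have := lio_degree hY hτ h0τ hη hη'
    rw [hm, hm'] at this
    simpa using this

/-- Let N be a subgroup of the finite group G, S a set of irreducible characters of N, and α a linear isometry on the integer combinations of S vanishing at 1 with values virtual characters of G vanishing at 1. Let X, Y ⊆ S be disjoint, each with at least two members, and σ, τ linear isometries on ℤ[X], ℤ[Y] into virtual characters agreeing with α on the members vanishing at 1. Then ⟨σ χ, τ η⟩ = 0 for χ ∈ X, η ∈ Y; and if for some χ₀ ∈ X, η₀ ∈ Y with degrees c = χ₀ 1, e = η₀ 1 one has α (c • η₀ − e • χ₀) = c • τ η₀ − e • σ χ₀, then (X ∪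 Y, N minus 1, α) is coherent. -/
theorem result {G : Type*} [Group G] [Fintype G] (N : Subgroup G) [Fintype N] (S X Y : Set (N → ℂ)) (hirr : ∀ ξ ∈ S, Cfsg.IsIrrCharacter N ξ) (hXS : X ⊆ S) (hYS : Y ⊆ S) (hXY : Disjoint X Y) (hX2 : ∃ a ∈ X, ∃ b ∈ X, a ≠ b) (hY2 : ∃ a ∈ Y, ∃ b ∈ Y, a ≠ b) (α : (N → ℂ) → (G → ℂ)) (hα : Cfsg.IsLinearIsometryOn (Cfsg.zspanOn S {1}ᶜ) α) (hα1 : ∀ θ ∈ Cfsg.zspanOn S {1}ᶜ, α θ 1 = 0) (σ τ : (N → ℂ) → (G → ℂ)) (hσ : Cfsg.IsLinearIsometryOn (Cfsg.zspan X) σ) (hσα : ∀ θ ∈ Cfsg.zspanOn X {1}ᶜ, σ θ = α θ) (hτ : Cfsg.IsLinearIsometryOn (Cfsg.zspan Y) τ) (hτα : ∀ θ ∈ Cfsg.zspanOn Y {1}ᶜ, τ θ = α θ) : (∀ χ ∈ X, ∀ η ∈ Y, Cfsg.classInner (σ χ) (τ η) = 0) ∧ ((∃ χ₀ ∈ X, ∃ η₀ ∈ Y, α (χ₀ 1 • η₀ - η₀ 1 • χ₀) = χ₀ 1 • τ η₀ - η₀ 1 • σ χ₀) → Cfsg.IsCoherent (X ∪ Y) {1}ᶜ α) := by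
  have hX : ∀ ξ ∈ X, IsIrrCharacter N ξ := fun ξ h => hirr ξ (hXS h)
  have hY : ∀ ξ ∈ Y, IsIrrCharacter N ξ := fun ξ h => hirr ξ (hYS h)
  have horth := orth S X Y hirr hXS hYS hXY hX2 hY2 α hα hα1 σ τ hσ hσα hτ hτα
  refine ⟨horth, ?_⟩
  rintro ⟨χ₀, hχ₀, η₀, hη₀, hlink⟩
  obtain ⟨c, hcpos, hc⟩ := irr_apply_one_nat ⟨χ₀, hX χ₀ hχ₀⟩
  obtain ⟨e, hepos, he⟩ := irr_apply_one_nat ⟨η₀, hY η₀ hη₀⟩
  simp only at hc he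
  refine ⟨?_, glueMap X Y σ τ, glue_isometry hX hY hXY hσ hτ horth, ?_⟩
  · refine ⟨(c : ℤ) • η₀ + (-(e : ℤ)) • χ₀, ?_, ?_⟩
    · rw [mem_zspanOn_one_iff]
      refine ⟨zspan_add (zspan_zsmul (mem_zspan_of_mem (Or.inr hη₀)) _)
        (zspan_zsmul (mem_zspan_of_mem (Or.inl hχ₀)) _), ?_⟩
      simp [hc, he]; ring
    · intro h0
      have hne : η₀ ≠ χ₀ := by
        rintro rfl
        exact Set.disjoint_left.1 hXY hχ₀ hη₀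
      have h1 : classInner ((c : ℤ) • η₀ + (-(e : ℤ)) • χ₀) η₀ = 0 := by rw [h0]; simp [classInner]
      have e1 : (c : ℤ) • η₀ + (-(e : ℤ)) • χ₀ = (c : ℂ) • η₀ + (-(e : ℂ)) • χ₀ := by
        ext x; simp
      rw [e1, classInner_add_left, classInner_smul_left, classInner_smul_left, classInner_irr_self (hY η₀ hη₀),
        classInner_irr_ne (hX χ₀ hχ₀) (hY η₀ hη₀) hne.symm] at h1
      simp at h1
      omega
  · apply glue_coherent hirr hXS hYS hXY hα hσ hσα hτ hτα horth hχ₀ hη₀ (c : ℤ) (e : ℤ) (by simpa using hc)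
      (by simpa using he)
    have e1 : (c : ℤ) • η₀ + (-(e : ℤ)) • χ₀ = χ₀ 1 • η₀ - η₀ 1 • χ₀ := by
      ext x; simp [hc, he]; ring
    have e2 : (c : ℤ) • τ η₀ + (-(e : ℤ)) • σ χ₀ = χ₀ 1 • τ η₀ - η₀ 1 • σ χ₀ := by
      ext x; simp [hc, he]; ring
    rw [e1, e2]
    exact hlink

end Cfsg.Agent.S1531
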