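import Cfsg.Statements.S1536
import Mathlib
import Cfsg.Agent.Lib.Helper10.FixedIrr
import Cfsg.Agent.Lib.Helper10.Coprime
import Cfsg.Agent.Lib.Helper10.Pow
import Cfsg.Agent.Lib.Helper10.Basic
-- import your own Cfsg.Agent.* helpers here

set_option autoImplicit false
open Cfsg
open Cfsg.Agent.CharLib Cfsg.Agent.CharLib.H2 Cfsg.Agent.Lib.Helper10

namespace Cfsg.Agent.S1536

theorem orderOf_dvd_aux {M : Type*} [Group M] [Finite M] (H : Subgroup M) [hN : H.Normal] (m : ℕ)
    (hcop : Nat.Coprime (Nat.card H) m) (a b n' : M) (hn' : n' ∈ H) (hb : b = n' * a) (hbm : b ^ m = 1) :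
    orderOf b ∣ orderOf a := by
  apply orderOf_dvd_of_pow_eq_one
  obtain ⟨n'', hn'', h⟩ := mul_pow_mem_mul H n' a hn' (by rw [Subgroup.normalizer_eq_top]; trivial) (orderOf a)
  rw [pow_orderOf_eq_one, mul_one, ← hb] at h
  apply eq_one_of_pow_coprime hcop
  · rw [h]; exact pow_card_subgroup_eq_one H hn''
  · rw [← pow_mul, mul_comm, pow_mul, hbm, one_pow]

theorem key {M : Type*} [Group M] [Finite M] (H : Subgroup M) [hN : H.Normal]
    (hHall : Nat.Coprime (Nat.card H) H.index) (x c k : M) (hc : c ∈ H) (hk : k ∈ H) (hk1 : k ≠ 1)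
    (hcomm : (c * x) * k = k * (c * x)) : ∃ h ∈ H, h ≠ 1 ∧ x * h = h * x := by
  obtain ⟨e₁, he1, he0⟩ := Nat.chineseRemainder hHall.symm 1 0
  have hpowcard : ∀ g : M, (g ^ e₁) ^ H.index = 1 := by
    intro g
    obtain ⟨t, ht⟩ := (Nat.modEq_zero_iff_dvd.1 he0)
    rw [← pow_mul, ht, mul_right_comm, H.card_mul_index, pow_mul, pow_card_eq_one', one_pow]
  have hw : x ^ ((1 : ℤ) - e₁) ∈ H := by
    obtain ⟨t, ht⟩ := he1.dvd
    have : ((1 : ℕ) : ℤ) - (e₁ : ℤ) = (H.index : ℤ) * t := ht
    rw [Nat.cast_one] at this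
    rw [this, zpow_mul, zpow_natCast]
    exact H.zpow_mem (H.pow_index_mem x) t
  by_cases hw1 : x ^ ((1 : ℤ) - e₁) = 1
  · -- x is a π'-element
    have hx : x ^ e₁ = x := by
      rw [zpow_sub, zpow_one, zpow_natCast, mul_inv_eq_one] at hw1
      exact hw1.symm
    have hxm : x ^ H.index = 1 := by
      have := hpowcard x
      rwa [hx] at this
    obtain ⟨n', hn', hy⟩ := mul_pow_mem_mul H c x hc (by rw [Subgroup.normalizer_eq_top]; trivial) e₁
    rw [hx] at hy
    set y' := (c * x) ^ e₁ with hy'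
    have hym : y' ^ H.index = 1 := hpowcard _
    have ho : orderOf y' = orderOf x := by
      apply Nat.dvd_antisymm
      · exact orderOf_dvd_aux H H.index hHall x y' n' hn' hy hym
      · exact orderOf_dvd_aux H H.index hHall y' x n'⁻¹ (H.inv_mem hn') (by rw [hy]; group) hxm
    have hcopA : (Nat.card H).Coprime (Nat.card (Subgroup.zpowers x)) := by
      rw [Nat.card_zpowers]
      exact Nat.Coprime.coprime_dvd_right (orderOf_dvd_of_pow_eq_one hxm) hHall
    obtain ⟨u, hu, huA⟩ := sz_internal H (Subgroup.zpowers x) (Subgroup.zpowers y')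
      (by rw [Subgroup.normalizer_eq_top]; exact le_top)
      (by
        rw [Subgroup.zpowers_le, hy]
        exact Subgroup.mul_mem _ (Subgroup.mem_sup_left hn') (Subgroup.mem_sup_right (Subgroup.mem_zpowers x)))
      hcopA (by rw [Nat.card_zpowers, Nat.card_zpowers, ho])
      (Or.inr inferInstance)
    have h1 : u * x * u⁻¹ ∈ Subgroup.zpowers y' := by
      rw [← huA, Cfsg.H1.mem_conj_smul_iff]
      have : u⁻¹ * (u * x * u⁻¹) * u = x := by group
      rw [this]
      exact Subgroup.mem_zpowers x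
    have hyk : Commute y' k := by
      have : Commute (c * x) k := hcomm
      exact this.pow_left e₁
    obtain ⟨j, hj⟩ := Subgroup.mem_zpowers_iff.1 h1
    have h2 : Commute (u * x * u⁻¹) k := by
      rw [← hj]
      exact hyk.zpow_left j
    refine ⟨u⁻¹ * k * u, ?_, ?_, ?_⟩
    · have := hN.conj_mem k hk u⁻¹
      simpa using this
    · intro h
      apply hk1
      have : k = u * (u⁻¹ * k * u) * u⁻¹ := by group
      rw [this, h]
      group
    · have h3 : u * x * u⁻¹ * k = k * (u * x * u⁻¹) := h2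
      calc x * (u⁻¹ * k * u) = u⁻¹ * (u * x * u⁻¹ * k) * u := by group
        _ = u⁻¹ * (k * (u * x * u⁻¹)) * u := by rw [h3]
        _ = u⁻¹ * k * u * x := by group
  · refine ⟨_, hw, hw1, ?_⟩
    exact ((Commute.refl x).zpow_right _)

/-- Let H be a normal subgroup of the finite group M whose order is coprime to its index. For x ∈ M: some non-principal irreducible character of H is unchanged under h ↦ θ(x h x⁻¹) if and only if some non-identity element of H commutes with x. -/
theorem result {M : Type*} [Group M] [Finite M] (H : Subgroup M) [hN : H.Normal] (hHall : Nat.Coprime (Nat.card H) H.index) (x : M) : (∃ θ : H → ℂ, Cfsg.IsIrrCharacter H θ ∧ θ ≠ (fun _ => 1) ∧ (fun h : H => θ ⟨x * h * x⁻¹, hN.conj_mem h h.2 x⟩) = θ) ↔ ∃ h ∈ H, h ≠ 1 ∧ x * h = h * x := by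
  refine (fixed_irr_iff_fixed_class hN x).trans ?_
  constructor
  · rintro ⟨k, hk1, hk⟩
    obtain ⟨c, hc⟩ := isConj_iff.mp hk
    have e : (c : M) * (x * k * x⁻¹) * (c : M)⁻¹ = k := congrArg Subtype.val hc
    have e2 : ((c : M) * x) * k = (k : M) * ((c : M) * x) := by
      calc ((c : M) * x) * k = ((c : M) * (x * k * x⁻¹) * (c : M)⁻¹) * ((c : M) * x) := by group
        _ = (k : M) * ((c : M) * x) := by rw [e]
    exact key H hHall x c k c.2 k.2 (fun h => hk1 (Subtype.ext h)) e2
  · rintro ⟨h, hh, h1, hx⟩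
    refine ⟨⟨h, hh⟩, fun e => h1 (congrArg Subtype.val e), ?_⟩
    have : (⟨x * h * x⁻¹, hN.conj_mem h hh x⟩ : H) = ⟨h, hh⟩ := by
      apply Subtype.ext
      simp only
      rw [hx]
      group
    rw [this]

end Cfsg.Agent.S1536
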