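import Cfsg.Statements.S1546

set_option autoImplicit false
open Cfsg

namespace Cfsg.Agent.S1546

theorem result (p q : ℕ) (hp : p.Prime) (hq : q.Prime) (hp2 : p ≠ 2) (hq2 : q ≠ 2) : Odd ((p ^ q - 1) / (p - 1)) ∧ (p % q = 1 → q ∣ (p ^ q - 1) / (p - 1)) ∧ (p % q ≠ 1 → Nat.Coprime ((p ^ q - 1) / (p - 1)) (p - 1) ∧ ∀ x : ℕ, x ∣ (p ^ q - 1) / (p - 1) → x % q = 1) := by
  have hS : (p ^ q - 1) / (p - 1) = ∑ i ∈ Finset.range q, p ^ i := by
    rw [Nat.geomSum_eq hp.two_le]
  rw [hS]
  have hpodd : Odd p := hp.odd_of_ne_two hp2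
  have hqodd : Odd q := hq.odd_of_ne_two hq2
  have hmod : ∀ m : ℕ, p ≡ 1 [MOD m] → (∑ i ∈ Finset.range q, p ^ i) ≡ q [MOD m] := by
    intro m hm
    have : (∑ i ∈ Finset.range q, p ^ i) ≡ ∑ i ∈ Finset.range q, 1 [MOD m] := by
      unfold Nat.ModEq
      rw [Finset.sum_nat_mod, Finset.sum_nat_mod (f := fun _ => 1)]
      congr 1
      apply Finset.sum_congr rfl
      intro i _
      have := hm.pow i
      simpa [Nat.ModEq] using this
    simpa using this
  have h1p : 1 ≤ p := hp.one_lt.le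
  have hpm1 : p ≡ 1 [MOD (p - 1)] := by
    have : (1 : ℕ) ≡ p [MOD (p - 1)] := (Nat.modEq_iff_dvd' h1p).2 dvd_rfl
    exact this.symm
  refine ⟨?_, ?_, ?_⟩
  · have h2 : p ≡ 1 [MOD 2] := by
      have := Nat.odd_iff.1 hpodd
      simpa [Nat.ModEq] using this
    have := hmod 2 h2
    rw [Nat.odd_iff]
    rw [this]
    exact Nat.odd_iff.1 hqodd
  · intro h
    have h2 : p ≡ 1 [MOD q] := by
      unfold Nat.ModEq
      rw [h, Nat.mod_eq_of_lt hq.one_lt]
    have := hmod q h2
    exact (Nat.modEq_zero_iff_dvd).1 (this.trans (by simp [Nat.ModEq]))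
  · intro h
    have hqndvd : ¬ q ∣ p - 1 := by
      intro hd
      apply h
      have : (1 : ℕ) ≡ p [MOD q] := (Nat.modEq_iff_dvd' h1p).2 hd
      have h3 := this.symm
      unfold Nat.ModEq at h3
      rw [h3, Nat.mod_eq_of_lt hq.one_lt]
    have hcop : Nat.Coprime (∑ i ∈ Finset.range q, p ^ i) (p - 1) := by
      have h3 := hmod (p - 1) hpm1
      have h4 : Nat.gcd (∑ i ∈ Finset.range q, p ^ i) (p - 1) = Nat.gcd q (p - 1) := h3.gcd_eq
      unfold Nat.Coprime
      rw [h4]
      exact (Nat.Prime.coprime_iff_not_dvd hq).2 hqndvd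
    refine ⟨hcop, ?_⟩
    have hprime : ∀ r : ℕ, r.Prime → r ∣ ∑ i ∈ Finset.range q, p ^ i → r % q = 1 := by
      intro r hr hrd
      have : Fact r.Prime := ⟨hr⟩
      have : Fact q.Prime := ⟨hq⟩
      have hpq : ((p : ZMod r)) ^ q = 1 := by
        have h5 : (p - 1) * (∑ i ∈ Finset.range q, p ^ i) = p ^ q - 1 := by
          rw [← hS]
          exact Nat.mul_div_cancel' (Nat.sub_one_dvd_pow_sub_one p q) 
        have h6 : r ∣ p ^ q - 1 := by
          rw [← h5]; exact Dvd.dvd.mul_left hrd _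
        have h7 : (1 : ℕ) ≡ p ^ q [MOD r] := (Nat.modEq_iff_dvd' (Nat.one_le_pow _ _ hp.pos)).2 h6
        have h8 := (ZMod.natCast_eq_natCast_iff _ _ _).2 h7
        push_cast at h8
        exact h8.symm
      have hp1 : (p : ZMod r) ≠ 1 := by
        intro h9
        have h10 : (p : ZMod r) = ((1 : ℕ) : ZMod r) := by simpa using h9
        have h11 := (ZMod.natCast_eq_natCast_iff _ _ _).1 h10
        have h12 : r ∣ p - 1 := (Nat.modEq_iff_dvd' h1p).1 h11.symm
        have := Nat.dvd_gcd hrd h12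
        rw [hcop] at this
        exact hr.one_lt.ne' (Nat.dvd_one.1 this)
      have hord : orderOf (p : ZMod r) = q := orderOf_eq_prime hpq hp1
      have hp0 : (p : ZMod r) ≠ 0 := by
        intro h0
        rw [h0, zero_pow hq.ne_zero] at hpq
        exact zero_ne_one hpq
      have hdvd : q ∣ r - 1 := by
        rw [← hord]
        exact ZMod.orderOf_dvd_card_sub_one hp0
      have : (1 : ℕ) ≡ r [MOD q] := (Nat.modEq_iff_dvd' hr.one_lt.le).2 hdvd
      have h3 := this.symm
      unfold Nat.ModEq at h3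
      rw [h3, Nat.mod_eq_of_lt hq.one_lt]
    intro x
    induction x using Nat.recOnMul with
    | zero =>
      intro h0
      exfalso
      have := Nat.eq_zero_of_zero_dvd h0
      have hpos : 0 < ∑ i ∈ Finset.range q, p ^ i := by
        apply Finset.sum_pos
        · intro i _; exact Nat.pow_pos hp.pos
        · exact ⟨0, Finset.mem_range.2 hq.pos⟩
      omega
    | one => intro _; exact Nat.mod_eq_of_lt hq.one_lt
    | prime r hr => exact hprime r hr
    | mul a b ha hb =>
      intro hab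
      have h1 := ha (dvd_trans (Dvd.intro _ rfl) hab)
      have h2 := hb (dvd_trans (Dvd.intro_left _ rfl) hab)
      rw [Nat.mul_mod, h1, h2]
      simpa using Nat.mod_eq_of_lt hq.one_lt

end Cfsg.Agent.S1546
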