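import Mathlib
import Cfsg.Statements.S1551
import Cfsg.Agent.Lib.Helper3.SextStab

set_option autoImplicit false
open scoped Pointwise
open Cfsg

namespace Cfsg.Agent.S1551

/-- Structure of a sextet stabiliser: it induces every permutation of the six tetrads, the subgroup fixing each tetrad setwise has order 192, and there is a normal subgroup of order 64 consisting of elements squaring to the identity. -/
theorem result (S : Finset (Finset Cfsg.GolayPt)) (hS : S ∈ Cfsg.sextets) : (∀ e : Equiv.Perm ↥S, ∃ g ∈ MulAction.stabilizer Cfsg.M24 S, ∀ t : ↥S, (g : Equiv.Perm Cfsg.GolayPt) • (t : Finset Cfsg.GolayPt) = ((e t : ↥S) : Finset Cfsg.GolayPt)) ∧ Nat.card {g : ↥(MulAction.stabilizer Cfsg.M24 S) // ∀ t ∈ S, ((g : Cfsg.M24) : Equiv.Perm Cfsg.GolayPt) • t = t} = 192 ∧ ∃ N : Subgroup ↥(MulAction.stabilizer Cfsg.M24 S), N.Normal ∧ Nat.card N = 64 ∧ ∀ x ∈ N, x * x = 1 := by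
  classical
  refine ⟨?_, ?_, ?_⟩
  · intro e
    obtain ⟨g, hg, h⟩ := Cfsg.Agent.Lib.Helper3.SextStab.induce hS e
    refine ⟨⟨g, hg⟩, ?_, h⟩
    rw [MulAction.mem_stabilizer_iff]
    exact Cfsg.Agent.Lib.Helper3.SextStab.smul_eq_of_induce h
  · rw [← Cfsg.Agent.Lib.Helper3.SextStab.card_KS hS]
    apply Nat.card_congr
    exact
      { toFun := fun g => ⟨((g.1 : Cfsg.M24) : Equiv.Perm Cfsg.GolayPt), ⟨(g.1 : Cfsg.M24).2, g.2⟩⟩
        invFun := fun g => ⟨⟨⟨g.1, g.2.1⟩, MulAction.mem_stabilizer_iff.2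
          (Cfsg.Agent.Lib.Helper3.SextStab.smul_eq_of_KS g.2)⟩, g.2.2⟩
        left_inv := fun _ => rfl
        right_inv := fun _ => rfl }
  · obtain ⟨N, hN, hc⟩ := Cfsg.Agent.Lib.Helper3.SextStab.exists_N hS
    have hle1 : N ≤ Cfsg.M24 := fun g hg => ((hN g).1 hg).1.1
    have hle2 : N.subgroupOf Cfsg.M24 ≤ MulAction.stabilizer Cfsg.M24 S := by
      intro x hx
      rw [Subgroup.mem_subgroupOf] at hx
      rw [MulAction.mem_stabilizer_iff]
      exact Cfsg.Agent.Lib.Helper3.SextStab.smul_eq_of_KS ((hN _).1 hx).1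
    refine ⟨(N.subgroupOf Cfsg.M24).subgroupOf (MulAction.stabilizer Cfsg.M24 S), ⟨?_⟩, ?_, ?_⟩
    · intro n hn h
      rw [Subgroup.mem_subgroupOf, Subgroup.mem_subgroupOf] at hn ⊢
      have h1 := Cfsg.Agent.Lib.Helper3.SextStab.conj_char (S := S)
        (h := ((h : Cfsg.M24) : Equiv.Perm Cfsg.GolayPt)) (h : Cfsg.M24).2
        (MulAction.mem_stabilizer_iff.1 h.2) ((hN _).1 hn)
      exact (hN _).2 h1
    · rw [Nat.card_congr (Subgroup.subgroupOfEquivOfLe hle2).toEquiv,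
        Nat.card_congr (Subgroup.subgroupOfEquivOfLe hle1).toEquiv, hc]
    · intro x hx
      rw [Subgroup.mem_subgroupOf, Subgroup.mem_subgroupOf] at hx
      apply Subtype.ext
      apply Subtype.ext
      exact ((hN _).1 hx).2

end Cfsg.Agent.S1551
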