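import Mathlib
import Cfsg.Statements.S1554
import Cfsg.Agent.Lib.Helper3.OctStab

set_option autoImplicit false
open scoped Pointwise
open Cfsg

namespace Cfsg.Agent.S1554

open MulAction Cfsg.Agent.Lib.Helper28 Cfsg.Agent.Lib.Helper3.M24T Cfsg.Agent.Lib.Helper3.Orb
open Cfsg.Agent.Lib.Helper3.SS Cfsg.Agent.Lib.Helper3.OctStab

theorem eq_one_of_fix {o : Finset GolayPt} (ho : o ∈ octads) {p : GolayPt} (hp : p ∉ o)
    {g : Equiv.Perm GolayPt} (hg : g ∈ fixO o) (hgp : g p = p) : g = 1 := by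
  obtain ⟨k, hk, hko, _, hkp⟩ := exists_map_octad_list_out ho [] List.nodup_nil (by simp) (by simp) hp
  have h1 := (fixO_conj hk g).1 hg
  rw [hko, fixO_base, mem_stabL] at h1
  have h2 : k * g * k⁻¹ ∈ stabL [23, 0, 1, 2, 3, 5, 4] := by
    rw [mem_stabL]
    refine ⟨h1.1, fun i hi => ?_⟩
    simp only [List.mem_cons, List.not_mem_nil, or_false] at hi
    by_cases h4 : i = 4
    · subst h4
      rw [← hkp]
      simp [hgp]
    · exact h1.2 i (by simp only [List.mem_cons, List.not_mem_nil, or_false]; tauto)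
  rw [stab7_eq_bot, Subgroup.mem_bot] at h2
  have : g = k⁻¹ * (k * g * k⁻¹) * k := by group
  rw [this, h2]
  group

theorem exists_fixO_map {o : Finset GolayPt} (ho : o ∈ octads) {p p' : GolayPt} (hp : p ∉ o)
    (hp' : p' ∉ o) : ∃ e ∈ fixO o, e p = p' := by
  obtain ⟨k, hk, hko, _, hkp⟩ := exists_map_octad_list_out ho [] List.nodup_nil (by simp) (by simp) hp
  have hq1 : k p' ∉ un O5 := by rw [← hko, mem_smul_finset_iff]; exact hp'
  have hq2 : k p' ∈ un 8241104 := by
    rw [mem_un] at hq1 ⊢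
    have : ∀ j < 24, ¬ O5.testBit j = true → (8241104 : ℕ).testBit j = true := by decide
    exact this _ (idx_lt _) hq1
  obtain ⟨u, _, hu1, hu2, hu3⟩ := exists_of_lvlCheck lvl7 hq2
  have hus : permOf u ∈ fixO (k • o) := by
    rw [hko, fixO_base]
    exact (mem_stabL _ _).2 ⟨permOf_mem_M24 hu1, hu2⟩
  refine ⟨k⁻¹ * permOf u * k, ?_, ?_⟩
  · rw [fixO_conj hk]
    have : k * (k⁻¹ * permOf u * k) * k⁻¹ = permOf u := by group
    rw [this]
    exact hus
  · simp only [Equiv.Perm.mul_apply]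
    rw [hkp, hu3]
    simp

/-- An octad stabiliser is a split extension: the joint stabiliser of the octad and a point outside it is a complement to the pointwise stabiliser of the octad, and is isomorphic to the alternating group of degree 8. -/
theorem result (o : Finset Cfsg.GolayPt) (ho : o ∈ Cfsg.octads) (p : Cfsg.GolayPt) (hp : p ∉ o) : (Cfsg.M24 ⊓ fixingSubgroup (Equiv.Perm Cfsg.GolayPt) (o : Set Cfsg.GolayPt)) ⊓ (Cfsg.M24 ⊓ MulAction.stabilizer (Equiv.Perm Cfsg.GolayPt) o ⊓ MulAction.stabilizer (Equiv.Perm Cfsg.GolayPt) p) = ⊥ ∧ (Cfsg.M24 ⊓ fixingSubgroup (Equiv.Perm Cfsg.GolayPt) (o : Set Cfsg.GolayPt)) ⊔ (Cfsg.M24 ⊓ MulAction.stabilizer (Equiv.Perm Cfsg.GolayPt) o ⊓ MulAction.stabilizer (Equiv.Perm Cfsg.GolayPt) p) = (Cfsg.M24 ⊓ MulAction.stabilizer (Equiv.Perm Cfsg.GolayPt) o) ∧ Nonempty (↥(Cfsg.M24 ⊓ MulAction.stabilizer (Equiv.Perm Cfsg.GolayPt) o ⊓ MulAction.stabilizer (Equiv.Perm Cfsg.GolayPt) p) ≃* alternatingGroup (Fin 8))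 := by
  change fixO o ⊓ (stabIn o ⊓ stabilizer (Equiv.Perm GolayPt) p) = ⊥ ∧
    fixO o ⊔ (stabIn o ⊓ stabilizer (Equiv.Perm GolayPt) p) = stabIn o ∧
    Nonempty (↥(stabIn o ⊓ stabilizer (Equiv.Perm GolayPt) p) ≃* alternatingGroup (Fin 8))
  have hEle : fixO o ≤ stabIn o := by
    intro g hg
    refine ⟨(mem_fixO.1 hg).1, ?_⟩
    change g • o = o
    apply smul_of_mem_iff
    intro x
    constructor
    · intro hx
      have := (mem_fixO.1 hg).2 _ hx
      have h3 := g.injective this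
      rw [← h3]; exact hx
    · intro hx
      rw [(mem_fixO.1 hg).2 _ hx]; exact hx
  have hsplit : ∀ s ∈ stabIn o, ∃ e ∈ fixO o, e⁻¹ * s ∈ stabIn o ⊓ stabilizer (Equiv.Perm GolayPt) p := by
    intro s hs
    have hsp : s p ∉ o := by
      rw [mem_iff_of_smul hs.2]; exact hp
    obtain ⟨e, he, hep⟩ := exists_fixO_map ho hp hsp
    refine ⟨e, he, (stabIn o).mul_mem ((stabIn o).inv_mem (hEle he)) hs, ?_⟩
    change (e⁻¹ * s) p = p
    rw [Equiv.Perm.mul_apply, ← hep]
    simp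
  refine ⟨?_, ?_, ?_⟩
  · rw [eq_bot_iff]
    rintro g ⟨hg1, _, hg3⟩
    exact eq_one_of_fix ho hp hg1 hg3
  · apply le_antisymm
    · exact sup_le hEle inf_le_left
    · intro s hs
      obtain ⟨e, he, hes⟩ := hsplit s hs
      have : s = e * (e⁻¹ * s) := by group
      rw [this]
      exact Subgroup.mul_mem_sup he hes
  · set A := stabIn o ⊓ stabilizer (Equiv.Perm GolayPt) p with hA
    let f : ↥A →* Equiv.Perm ↥o := (rho o).comp (Subgroup.inclusion (inf_le_left : A ≤ stabIn o))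
    have hinj : Function.Injective f := by
      rw [injective_iff_map_eq_one]
      rintro ⟨g, hg⟩ hfg
      apply Subtype.ext
      change g = 1
      apply eq_one_of_fix ho hp _ hg.2
      rw [mem_fixO]
      refine ⟨hg.1.1, fun x hx => ?_⟩
      have h2 := congrArg (fun e : Equiv.Perm ↥o => ((e ⟨x, hx⟩ : ↥o) : GolayPt)) hfg
      exact h2
    have hrange : f.range = alternatingGroup ↥o := by
      rw [← range_rho ho]
      apply le_antisymm
      · rintro _ ⟨a, rfl⟩
        exact ⟨_, rfl⟩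
      · rintro _ ⟨⟨s, hs⟩, rfl⟩
        obtain ⟨e, he, hes⟩ := hsplit s hs
        refine ⟨⟨e⁻¹ * s, hes⟩, ?_⟩
        apply Equiv.ext
        rintro ⟨x, hx⟩
        apply Subtype.ext
        change (e⁻¹ * s) x = s x
        rw [Equiv.Perm.mul_apply, Equiv.Perm.inv_eq_iff_eq]
        exact ((mem_fixO.1 he).2 _ ((mem_iff_of_smul hs.2 x).2 hx)).symm
    have h8 : Fintype.card ↥o = 8 := by
      rw [Fintype.card_coe]
      rw [mem_octads_iff, ← card_eq_popc] at ho; exact ho.2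
    exact ⟨((MonoidHom.ofInjective hinj).trans (MulEquiv.subgroupCongr hrange)).trans
      (Equiv.altCongrHom (Fintype.equivFinOfCardEq h8))⟩

end Cfsg.Agent.S1554
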