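import Mathlib
import Cfsg.Statements.S1555
import Cfsg.Agent.Lib.Helper3.OrbitTool2

set_option autoImplicit false
open scoped Pointwise
open Cfsg

namespace Cfsg.Agent.S1555

open Cfsg.Agent.Lib.Helper28 Cfsg.Agent.Lib.Helper3.M24T Cfsg.Agent.Lib.Helper3.Orb

theorem cnt2 : {x : Finset GolayPt | isCode (mk x) = true ∧ (popc (mk x) = 8 ∧ O5 &&& (mk x) = 8388609)}.ncard = 16 :=
  (ncard_code (fun m => popc m = 8 ∧ O5 &&& m = 8388609)).trans (by decide +kernel)
theorem cnt4 : {x : Finset GolayPt | isCode (mk x) = true ∧ (popc (mk x) = 8 ∧ O5 &&& (mk x) = 8388615)}.ncard = 4 :=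
  (ncard_code (fun m => popc m = 8 ∧ O5 &&& m = 8388615)).trans (by decide +kernel)

theorem smul_eq_toFinset {s : Finset GolayPt} {k : Equiv.Perm GolayPt} {l : List GolayPt}
    (h : s.toList.map k = l) : k • s = l.toFinset := by
  rw [← h, smul_finset_eq_image]
  ext p; simp

theorem inter_eq_iff {k : Equiv.Perm GolayPt} {o s : Finset GolayPt} {M S : ℕ}
    (hko : k • o = un M) (hM : M < 2 ^ 24) (hks : k • s = un S) (hS : S < 2 ^ 24)
    (y : Finset GolayPt) : o ∩ y = s ↔ M &&& mk (k • y) = S := by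
  rw [← mk_un hM, ← hko, ← mk_inter, ← smul_inter, ← mk_un hS, ← hks, mk_inj]
  exact (MulAction.injective k).eq_iff.symm


/-- Bottom row of the Leech triangle: an octad is met in a prescribed pair of its points by exactly 16 octads and in a prescribed 4-subset by exactly 4 octads. -/
theorem result (o : Finset Cfsg.GolayPt) (ho : o ∈ Cfsg.octads) (s : Finset Cfsg.GolayPt) (hs : s ⊆ o) : (s.card = 2 → {o' : Finset Cfsg.GolayPt | o' ∈ Cfsg.octads ∧ o ∩ o' = s}.ncard = 16) ∧ (s.card = 4 → {o' : Finset Cfsg.GolayPt | o' ∈ Cfsg.octads ∧ o ∩ o' = s}.ncard = 4) := by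
  have hO5 : O5 < 2 ^ 24 := by decide
  constructor
  · intro h2
    obtain ⟨k, hk, hko, hkx⟩ := exists_map_octad_list ho s.toList s.nodup_toList
      (fun x hx => hs (Finset.mem_toList.1 hx)) (by simp [h2])
    rw [Finset.length_toList, h2] at hkx
    have hks : k • s = un 8388609 := by
      rw [smul_eq_toFinset hkx]; decide +kernel
    rw [← cnt2]
    apply ncard_transport k
    intro y
    rw [oct_iff hk y, inter_eq_iff hko hO5 hks (by norm_num) y]
    tauto
  · intro h4
    obtain ⟨k, hk, hko, hkx⟩ := exists_map_octad_list ho s.toList s.nodup_toList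
      (fun x hx => hs (Finset.mem_toList.1 hx)) (by simp [h4])
    rw [Finset.length_toList, h4] at hkx
    have hks : k • s = un 8388615 := by
      rw [smul_eq_toFinset hkx]; decide +kernel
    rw [← cnt4]
    apply ncard_transport k
    intro y
    rw [oct_iff hk y, inter_eq_iff hko hO5 hks (by norm_num) y]
    tauto

end Cfsg.Agent.S1555
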