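import Mathlib
import Cfsg.Statements.S1560
import Cfsg.Agent.Lib.Helper3.OrbitTool2
import Cfsg.Agent.Lib.Helper3.Dodecad

set_option autoImplicit false
open scoped Pointwise
open Cfsg

namespace Cfsg.Agent.S1560

open Cfsg.Agent.Lib.Helper28 Cfsg.Agent.Lib.Helper3.M24T Cfsg.Agent.Lib.Helper3.Orb Cfsg.Agent.Lib.Helper3.Dod

theorem cnt4 : {x : Finset GolayPt | isCode (mk x) = true ∧ (popc (mk x) = 12 ∧ popc (D0 &&& (mk x)) = 4)}.ncard = 495 :=
  (ncard_code (fun m => popc m = 12 ∧ popc (D0 &&& m) = 4)).trans (by decide +kernel)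
theorem cnt6 : {x : Finset GolayPt | isCode (mk x) = true ∧ (popc (mk x) = 12 ∧ popc (D0 &&& (mk x)) = 6)}.ncard = 1584 :=
  (ncard_code (fun m => popc m = 12 ∧ popc (D0 &&& m) = 6)).trans (by decide +kernel)
theorem cnt8 : {x : Finset GolayPt | isCode (mk x) = true ∧ (popc (mk x) = 12 ∧ popc (D0 &&& (mk x)) = 8)}.ncard = 495 :=
  (ncard_code (fun m => popc m = 12 ∧ popc (D0 &&& m) = 8)).trans (by decide +kernel)


/-- Intersection numbers of dodecads: a dodecad meets every other dodecad in 0, 4, 6 or 8 points, meeting 495 of them in 4 points, 1584 in 6 points and 495 in 8 points. -/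
theorem result (d : Finset Cfsg.GolayPt) (hd : d ∈ Cfsg.dodecads) : (∀ d' ∈ Cfsg.dodecads, d' ≠ d → (d ∩ d').card = 0 ∨ (d ∩ d').card = 4 ∨ (d ∩ d').card = 6 ∨ (d ∩ d').card = 8) ∧ {d' : Finset Cfsg.GolayPt | d' ∈ Cfsg.dodecads ∧ (d ∩ d').card = 4}.ncard = 495 ∧ {d' : Finset Cfsg.GolayPt | d' ∈ Cfsg.dodecads ∧ (d ∩ d').card = 6}.ncard = 1584 ∧ {d' : Finset Cfsg.GolayPt | d' ∈ Cfsg.dodecads ∧ (d ∩ d').card = 8}.ncard = 495 := by
  obtain ⟨k, hk, hko⟩ := exists_smul_eq hd D0_dod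
  refine ⟨?_, ?_, ?_, ?_⟩
  · intro d' hd' hne
    rw [mem_dodecads_iff] at hd hd'
    have h1 := popc_xor_add (mk d) (mk d')
    have h2 := popc_cases (isCode_xor hd.1 hd'.1)
    rw [card_eq_popc, mk_inter]
    rw [hd.2, hd'.2] at h1
    have h3 : popc (mk d ^^^ mk d') ≠ 0 := by
      intro h0
      have := eq_zero_of_popc_lt (isCode_xor hd.1 hd'.1) (by omega)
      exact hne (mk_injective (Nat.xor_eq_zero_iff.1 this)).symm
    omega
  · rw [← cnt4]
    apply ncard_transport k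
    intro y
    rw [dod_iff hk y, card_inter_eq hko D0_lt y]
    tauto
  · rw [← cnt6]
    apply ncard_transport k
    intro y
    rw [dod_iff hk y, card_inter_eq hko D0_lt y]
    tauto
  · rw [← cnt8]
    apply ncard_transport k
    intro y
    rw [dod_iff hk y, card_inter_eq hko D0_lt y]
    tauto

end Cfsg.Agent.S1560
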