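import Mathlib
import Cfsg.Statements.S1563
import Cfsg.Agent.Lib.Helper3.SmallSets
import Cfsg.Agent.Lib.Helper3.Maximal

set_option autoImplicit false
open scoped Pointwise
open Cfsg

namespace Cfsg.Agent.S1563

open Cfsg.Agent.Lib.Helper28 Cfsg.Agent.Lib.Helper3.M24T Cfsg.Agent.Lib.Helper3.Orb Cfsg.Agent.Lib.Helper3

theorem card_pts : Fintype.card GolayPt = 24 := by decide

/-- The stabiliser of a pair of points (setwise) is a maximal proper subgroup of the group of the length-24 code. -/
theorem result (s : Finset Cfsg.GolayPt) (hs : s.card = 2) : IsCoatom (MulAction.stabilizer Cfsg.M24 s) := by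
  have hsc : sᶜ.card = 22 := by rw [Finset.card_compl, card_pts, hs]
  refine Maximal.isCoatom_stabilizer s {y | y.card = 2} ?_ 3 (fun y => 2 - (s ∩ y).card)
    (fun i => [1, 44, 231].getD i 0) ?_ ?_ ?_ ?_ ?_ (by norm_num) (by decide) (by decide)
  · intro y
    constructor
    · intro hy
      obtain ⟨g, hg, _, hgo⟩ := Small.exists_map_pair ∅ s y (hs.trans (Eq.symm hy)) (by simp)
        (by rw [Finset.empty_union]; omega)
      exact ⟨⟨g, hg⟩, hgo⟩
    · rintro ⟨⟨g, hg⟩, rfl⟩
      change (g • s).card = 2
      rw [Finset.card_smul_finset, hs]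
  · intro y _
    change 2 - (s ∩ y).card < 3
    omega
  · intro i hi
    have hle : ∀ y : Finset GolayPt, (s ∩ y).card ≤ 2 := fun y =>
      hs ▸ Finset.card_le_card Finset.inter_subset_left
    have : {y : Finset GolayPt | y ∈ {y : Finset GolayPt | y.card = 2} ∧ 2 - (s ∩ y).card = i} =
        {y : Finset GolayPt | y.card = 2 ∧ (s ∩ y).card = 2 - i} := by
      ext y
      have := hle y
      simp only [Set.mem_ofPred_eq]
      constructor
      · rintro ⟨h1, h2⟩; exact ⟨h1, by omega⟩
      · rintro ⟨h1, h2⟩; exact ⟨h1, by omega⟩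
    rw [this, Small.ncard_card_inter s 2 (2 - i) (by omega), hs, hsc]
    interval_cases i <;> decide
  · intro y hy h
    change 2 - (s ∩ y).card = 0 at h
    have hy2 : y.card = 2 := hy
    have h3 : s ∩ y = s := Finset.eq_of_subset_of_card_le Finset.inter_subset_left (by omega)
    have h4 : s ∩ y = y := Finset.eq_of_subset_of_card_le Finset.inter_subset_right (by omega)
    rw [← h4, h3]
  · change 2 - (s ∩ s).card = 0
    rw [Finset.inter_self, hs]
  · intro y hy z hz h
    change 2 - (s ∩ y).card = 2 - (s ∩ z).card at h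
    have hy2 : y.card = 2 := hy
    have hz2 : z.card = 2 := hz
    have h1 : (s ∩ y).card ≤ 2 := hs ▸ Finset.card_le_card Finset.inter_subset_left
    have h2 : (s ∩ z).card ≤ 2 := hs ▸ Finset.card_le_card Finset.inter_subset_left
    obtain ⟨g, hg, hg1, hg2⟩ := Small.exists_map_pair s y z (by omega) (by omega)
      (by have := Finset.card_union_le s y; omega)
    exact ⟨⟨g, hg⟩, hg1, hg2⟩

end Cfsg.Agent.S1563
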