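import Mathlib
import Cfsg.Statements.S1564
import Cfsg.Agent.Lib.Helper3.Triads
import Cfsg.Agent.Lib.Helper3.Maximal

set_option autoImplicit false
open scoped Pointwise
open Cfsg

namespace Cfsg.Agent.S1564

open Cfsg.Agent.Lib.Helper28 Cfsg.Agent.Lib.Helper3.M24T Cfsg.Agent.Lib.Helper3.Orb Cfsg.Agent.Lib.Helper3

open Classical in
/-- the class of a triad relative to `s` -/
noncomputable def cl (s y : Finset GolayPt) : ℕ :=
  if (s ∩ y).card = 0 then (if ∃ o ∈ octads, s ∪ y ⊆ o then 3 else 4) else 3 - (s ∩ y).card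

theorem cl_lt (s y : Finset GolayPt) : cl s y < 5 := by
  unfold cl
  split_ifs <;> omega

theorem cl_pos {s y : Finset GolayPt} (hs : s.card = 3) (i : ℕ) (hi : i < 3) :
    cl s y = i ↔ (s ∩ y).card = 3 - i := by
  have hle : (s ∩ y).card ≤ 3 := hs ▸ Finset.card_le_card Finset.inter_subset_left
  unfold cl
  split_ifs <;> omega

theorem cl_three {s y : Finset GolayPt} (hs : s.card = 3) :
    cl s y = 3 ↔ Disjoint s y ∧ ∃ o ∈ octads, s ∪ y ⊆ o := by
  have hle : (s ∩ y).card ≤ 3 := hs ▸ Finset.card_le_card Finset.inter_subset_left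
  rw [Finset.disjoint_iff_inter_eq_empty, ← Finset.card_eq_zero]
  unfold cl
  split_ifs with h1 h2
  · simp [h1, h2]
  · simp [h2]
  · simp only [h1, false_and, iff_false]; omega

theorem cl_four {s y : Finset GolayPt} (hs : s.card = 3) :
    cl s y = 4 ↔ Disjoint s y ∧ ¬ ∃ o ∈ octads, s ∪ y ⊆ o := by
  have hle : (s ∩ y).card ≤ 3 := hs ▸ Finset.card_le_card Finset.inter_subset_left
  rw [Finset.disjoint_iff_inter_eq_empty, ← Finset.card_eq_zero]
  unfold cl
  split_ifs with h1 h2
  · simp [h2]
  · simp [h1, h2]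
  · simp only [h1, false_and, iff_false]; omega

/-- The stabiliser of a set of three points (setwise) is a maximal proper subgroup of the group of the length-24 code. -/
theorem result (s : Finset Cfsg.GolayPt) (hs : s.card = 3) : IsCoatom (MulAction.stabilizer Cfsg.M24 s) := by
  have hsc : sᶜ.card = 21 := by rw [Finset.card_compl, Triads.card_pts, hs]
  refine Maximal.isCoatom_stabilizer s {y | y.card = 3} ?_ 5 (cl s)
    (fun i => [1, 63, 630, 210, 1120].getD i 0) ?_ ?_ ?_ ?_ ?_ (by norm_num) (by decide) (by decide)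
  · intro y
    constructor
    · intro hy
      obtain ⟨g, hg, _, hgo⟩ := Small.exists_map_pair ∅ s y (hs.trans (Eq.symm hy)) (by simp)
        (by rw [Finset.empty_union]; omega)
      exact ⟨⟨g, hg⟩, hgo⟩
    · rintro ⟨⟨g, hg⟩, rfl⟩
      change (g • s).card = 3
      rw [Finset.card_smul_finset, hs]
  · intro y _
    exact cl_lt s y
  · intro i hi
    by_cases hi3 : i < 3
    · have : {y : Finset GolayPt | y ∈ {y : Finset GolayPt | y.card = 3} ∧ cl s y = i} =
          {y : Finset GolayPt | y.card = 3 ∧ (s ∩ y).card = 3 - i} := by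
        ext y
        simp only [Set.mem_ofPred_eq, cl_pos hs i hi3]
      rw [this, Small.ncard_card_inter s 3 (3 - i) (by omega), hs, hsc]
      interval_cases i <;> decide
    · have h34 : i = 3 ∨ i = 4 := by omega
      rcases h34 with rfl | rfl
      · have : {y : Finset GolayPt | y ∈ {y : Finset GolayPt | y.card = 3} ∧ cl s y = 3} =
          {U : Finset GolayPt | U.card = 3 ∧ Disjoint s U ∧ (∃ o ∈ octads, s ∪ U ⊆ o)} := by
          ext y
          simp only [Set.mem_ofPred_eq, cl_three hs]
        rw [this, Triads.ncard_in s hs]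
        rfl
      · have : {y : Finset GolayPt | y ∈ {y : Finset GolayPt | y.card = 3} ∧ cl s y = 4} =
          {U : Finset GolayPt | U.card = 3 ∧ Disjoint s U ∧ ¬ (∃ o ∈ octads, s ∪ U ⊆ o)} := by
          ext y
          simp only [Set.mem_ofPred_eq, cl_four hs]
        rw [this, Triads.ncard_out s hs]
        rfl
  · intro y hy h
    rw [cl_pos hs 0 (by norm_num)] at h
    have hy2 : y.card = 3 := hy
    have h3 : s ∩ y = s := Finset.eq_of_subset_of_card_le Finset.inter_subset_left (by omega)
    have h4 : s ∩ y = y := Finset.eq_of_subset_of_card_le Finset.inter_subset_right (by omega)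
    rw [← h4, h3]
  · rw [cl_pos hs 0 (by norm_num), Finset.inter_self, hs]
  · intro y hy z hz h
    have hy2 : y.card = 3 := hy
    have hz2 : z.card = 3 := hz
    have hlt := cl_lt s z
    by_cases hi3 : cl s z < 3
    · have h1 := (cl_pos hs _ hi3).1 h
      have h2 := (cl_pos hs _ hi3).1 rfl
      obtain ⟨g, hg, hg1, hg2⟩ := Small.exists_map_pair s y z (by omega) (by omega)
        (by have := Finset.card_union_add_card_inter s y; omega)
      exact ⟨⟨g, hg⟩, hg1, hg2⟩
    · have h34 : cl s z = 3 ∨ cl s z = 4 := by omega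
      rcases h34 with h3 | h4
      · rw [h3] at h
        obtain ⟨d1, o, ho, h1⟩ := (cl_three hs).1 h
        obtain ⟨d2, o', ho', h2⟩ := (cl_three hs).1 h3
        obtain ⟨g, hg, hg1, hg2⟩ := Triads.trans_in hs hy2 hz2 d1 d2 ho ho' h1 h2
        exact ⟨⟨g, hg⟩, hg1, hg2⟩
      · rw [h4] at h
        obtain ⟨d1, h1⟩ := (cl_four hs).1 h
        obtain ⟨d2, h2⟩ := (cl_four hs).1 h4
        obtain ⟨g, hg, hg1, hg2⟩ := Triads.trans_out hs hy2 hz2 d1 d2 h1 h2
        exact ⟨⟨g, hg⟩, hg1, hg2⟩

end Cfsg.Agent.S1564
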