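import Mathlib
import Cfsg.Statements.S1565
import Cfsg.Agent.Lib.Helper3.OrbitTool2
import Cfsg.Agent.Lib.Helper3.OctOrb
import Cfsg.Agent.Lib.Helper3.Maximal

set_option autoImplicit false
open scoped Pointwise
open Cfsg

namespace Cfsg.Agent.S1565

open Cfsg.Agent.Lib.Helper28 Cfsg.Agent.Lib.Helper3.M24T Cfsg.Agent.Lib.Helper3.Orb Cfsg.Agent.Lib.Helper3

theorem cnt (i : ℕ) (hi : i < 4) : {x : Finset GolayPt | isCode (mk x) = true ∧ (popc (mk x) = 8 ∧ (9 - popc (O5 &&& (mk x))) / 3 = i)}.ncard = [1, 280, 448, 30].getD i 0 := by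
  refine (ncard_code (fun m => popc m = 8 ∧ (9 - popc (O5 &&& m)) / 3 = i)).trans ?_
  revert i
  decide +kernel

theorem inter_cases {o y : Finset GolayPt} (ho : o ∈ octads) (hy : y ∈ octads) :
    (o ∩ y).card = 0 ∨ (o ∩ y).card = 2 ∨ (o ∩ y).card = 4 ∨ (o ∩ y).card = 8 := by
  rw [mem_octads_iff] at ho hy
  have h1 := popc_xor_add (mk o) (mk y)
  have h2 := popc_cases (isCode_xor ho.1 hy.1)
  rw [card_eq_popc, mk_inter]
  rw [ho.2, hy.2] at h1
  omega

/-- The stabiliser of an octad is a maximal proper subgroup of the group of the length-24 code. -/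
theorem result (o : Finset Cfsg.GolayPt) (ho : o ∈ Cfsg.octads) : IsCoatom (MulAction.stabilizer Cfsg.M24 o) := by
  obtain ⟨k, hk, hko⟩ := exists_M24_smul_octad ho
  have h8 : o.card = 8 := by
    rw [mem_octads_iff, ← card_eq_popc] at ho; exact ho.2
  refine Maximal.isCoatom_stabilizer o {y | y ∈ octads} ?_ 4 (fun y => (9 - (o ∩ y).card) / 3)
    (fun i => [1, 280, 448, 30].getD i 0) ?_ ?_ ?_ ?_ ?_ (by norm_num) (by decide) (by decide)
  · intro y
    constructor
    · intro hy
      obtain ⟨g, hg, hgo⟩ := exists_M24_smul_octad hy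
      refine ⟨⟨g⁻¹ * k, M24.mul_mem (M24.inv_mem hg) hk⟩, ?_⟩
      change (g⁻¹ * k) • o = y
      rw [mul_smul, hko, ← hgo, inv_smul_smul]
    · rintro ⟨⟨g, hg⟩, rfl⟩
      exact smul_mem_octads hg ho
  · intro y _
    change (9 - (o ∩ y).card) / 3 < 4
    omega
  · intro i hi
    rw [← cnt i hi]
    apply ncard_transport k
    intro y
    change (y ∈ octads ∧ (9 - (o ∩ y).card) / 3 = i) ↔ _
    rw [oct_iff hk y, card_inter_eq hko OctOrb.O5_lt y]
    tauto
  · intro y hy h
    change (9 - (o ∩ y).card) / 3 = 0 at h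
    have h1 := inter_cases ho hy
    have h2 : (o ∩ y).card = 8 := by omega
    have hy8 : y.card = 8 := by
      have hy' : y ∈ octads := hy
      rw [mem_octads_iff, ← card_eq_popc] at hy'; exact hy'.2
    have h3 : o ∩ y = o := Finset.eq_of_subset_of_card_le Finset.inter_subset_left (by omega)
    have h4 : o ∩ y = y := Finset.eq_of_subset_of_card_le Finset.inter_subset_right (by omega)
    rw [← h4, h3]
  · change (9 - (o ∩ o).card) / 3 = 0
    rw [Finset.inter_self, h8]
  · intro y hy z hz h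
    change (9 - (o ∩ y).card) / 3 = (9 - (o ∩ z).card) / 3 at h
    have h1 := inter_cases ho hy
    have h2 := inter_cases ho hz
    obtain ⟨g, hg, hg1, hg2⟩ := OctOrb.same_orbit ho hy hz (by omega)
    exact ⟨⟨g, hg⟩, hg1, hg2⟩

end Cfsg.Agent.S1565
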