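import Mathlib
import Cfsg.Statements.S1566
import Cfsg.Agent.Lib.Helper3.OrbitTool2
import Cfsg.Agent.Lib.Helper3.Dodecad
import Cfsg.Agent.Lib.Helper3.M11Compl
import Cfsg.Agent.Lib.Helper3.Maximal
import Cfsg.Agent.S1560
import Cfsg.Agent.S1561

set_option autoImplicit false
open scoped Pointwise
open Cfsg

namespace Cfsg.Agent.S1566

open Cfsg.Agent.Lib.Helper28 Cfsg.Agent.Lib.Helper3.M24T Cfsg.Agent.Lib.Helper3.Orb Cfsg.Agent.Lib.Helper3 Cfsg.Agent.Lib.Helper3.Dod

def f (t : ℕ) : ℕ := (t * (12 - t) + 28) / 32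

theorem cnt (i : ℕ) (hi : i < 3) : {x : Finset GolayPt | isCode (mk x) = true ∧ (popc (mk x) = 12 ∧ (mk x).testBit 23 = true ∧ f (popc (D0 &&& (mk x))) = i)}.ncard = [1, 495, 792].getD i 0 := by
  refine (ncard_code (fun m => popc m = 12 ∧ m.testBit 23 = true ∧ f (popc (D0 &&& m)) = i)).trans ?_
  revert i
  decide +kernel

def pr (e : Finset GolayPt) : Finset (Finset GolayPt) := {e, eᶜ}

def c (d : Finset GolayPt) (P : Finset (Finset GolayPt)) : ℕ := P.sup (fun e => f (d ∩ e).card)

theorem card_inter_compl {d : Finset GolayPt} (hd : d.card = 12) (e : Finset GolayPt) :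
    (d ∩ eᶜ).card = 12 - (d ∩ e).card := by
  have h := Finset.card_inter_add_card_sdiff d e
  have h2 : d ∩ eᶜ = d \ e := by
    ext a; simp only [Finset.mem_inter, Finset.mem_compl, Finset.mem_sdiff]
  rw [h2]; omega

theorem f_symm {t : ℕ} (ht : t ≤ 12) : f (12 - t) = f t := by
  unfold f
  have : 12 - (12 - t) = t := by omega
  rw [this, mul_comm]

theorem c_pr {d : Finset GolayPt} (hd : d.card = 12) (e : Finset GolayPt) :
    c d (pr e) = f (d ∩ e).card := by
  have hle : (d ∩ e).card ≤ 12 := hd ▸ Finset.card_le_card Finset.inter_subset_left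
  unfold c pr
  rw [Finset.sup_insert, Finset.sup_singleton, card_inter_compl hd, f_symm hle]
  exact sup_idem _

theorem smul_pr (g : Equiv.Perm GolayPt) (e : Finset GolayPt) : g • pr e = pr (g • e) := by
  unfold pr
  have hc : g • eᶜ = (g • e)ᶜ := by
    ext a
    rw [Finset.mem_compl, ← Finset.inv_smul_mem_iff, ← Finset.inv_smul_mem_iff, Finset.mem_compl]
  rw [Finset.smul_finset_insert, Finset.smul_finset_singleton, hc]

theorem pr_compl (e : Finset GolayPt) : pr eᶜ = pr e := by
  unfold pr
  rw [compl_compl, Finset.pair_comm]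

theorem f_lt (t : ℕ) : f t < 3 := by
  unfold f
  have : t * (12 - t) ≤ 36 := by
    by_cases h : t ≤ 12
    · interval_cases t <;> norm_num
    · have : 12 - t = 0 := by omega
      rw [this]; omega
  omega

theorem cases {d e : Finset GolayPt} (hd : d ∈ dodecads) (he : e ∈ dodecads) :
    (d ∩ e).card = 0 ∨ (d ∩ e).card = 4 ∨ (d ∩ e).card = 6 ∨ (d ∩ e).card = 8 ∨ (d ∩ e).card = 12 := by
  by_cases h : e = d
  · subst h
    rw [Finset.inter_self]
    have : e.card = 12 := by
      rw [mem_dodecads_iff, ← card_eq_popc] at hd; exact hd.2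
    tauto
  · have := (Cfsg.Agent.S1560.result d hd).1 e he h
    tauto

/-- The setwise stabiliser of a dodecad together with its complement is a maximal proper subgroup of the group of the length-24 code. -/
theorem result (d : Finset Cfsg.GolayPt) (hd : d ∈ Cfsg.dodecads) : IsCoatom (MulAction.stabilizer Cfsg.M24 ({d, dᶜ} : Finset (Finset Cfsg.GolayPt))) := by
  have h12 : d.card = 12 := by
    have hd' := hd
    rw [mem_dodecads_iff, ← card_eq_popc] at hd'; exact hd'.2
  obtain ⟨xs, hx1, hx2, hx3⟩ := exists_five hd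
  obtain ⟨k, hk, hkd, _⟩ := exists_map_dodecad hd xs hx1 hx2 hx3
  have hkp : k (k⁻¹ (ptOf 23)) = ptOf 23 := by simp
  set p := k⁻¹ (ptOf 23) with hp
  change IsCoatom (MulAction.stabilizer Cfsg.M24 (pr d))
  refine Maximal.isCoatom_stabilizer (pr d) {P | ∃ e ∈ dodecads, P = pr e} ?_ 3 (c d)
    (fun i => [1, 495, 792].getD i 0) ?_ ?_ ?_ ?_ ?_ (by norm_num) (by decide) (by decide)
  · intro P
    constructor
    · rintro ⟨e, he, rfl⟩
      obtain ⟨g, hg, hge⟩ := exists_smul_eq hd he
      refine ⟨⟨g, hg⟩, ?_⟩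
      change g • pr d = pr e
      rw [smul_pr, hge]
    · rintro ⟨⟨g, hg⟩, rfl⟩
      exact ⟨g • d, smul_mem_dodecads hg hd, smul_pr g d⟩
  · rintro P ⟨e, he, rfl⟩
    rw [c_pr h12]
    exact f_lt _
  · intro i hi
    have key : {P | P ∈ {P | ∃ e ∈ dodecads, P = pr e} ∧ c d P = i} =
        pr '' {e | e ∈ dodecads ∧ p ∈ e ∧ f (d ∩ e).card = i} := by
      ext P
      constructor
      · rintro ⟨⟨e, he, rfl⟩, h2⟩
        rw [c_pr h12] at h2
        by_cases hpe : p ∈ e
        · exact ⟨e, ⟨he, hpe, h2⟩, rfl⟩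
        · refine ⟨eᶜ, ⟨M11C.compl_mem_dodecads he, Finset.mem_compl.2 hpe, ?_⟩, pr_compl e⟩
          have hle : (d ∩ e).card ≤ 12 := h12 ▸ Finset.card_le_card Finset.inter_subset_left
          rw [card_inter_compl h12, f_symm hle, h2]
      · rintro ⟨e, ⟨he, _, h2⟩, rfl⟩
        exact ⟨⟨e, he, rfl⟩, by rw [c_pr h12, h2]⟩
    rw [key, Set.InjOn.ncard_image, ← cnt i hi]
    · apply ncard_transport k
      intro y
      rw [dod_iff hk y, card_inter_eq hkd D0_lt y, mem_iff_bit hkp (by norm_num) y]
      tauto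
    · rintro e ⟨_, hpe, _⟩ e' ⟨_, hpe', _⟩ h
      have : e ∈ pr e' := by rw [← h]; unfold pr; simp
      unfold pr at this
      rw [Finset.mem_insert, Finset.mem_singleton] at this
      rcases this with h1 | h1
      · exact h1
      · rw [h1] at hpe
        exact absurd hpe' (Finset.mem_compl.1 hpe)
  · rintro P ⟨e, he, rfl⟩ h
    rw [c_pr h12] at h
    have he12 : e.card = 12 := by
      have he' := he
      rw [mem_dodecads_iff, ← card_eq_popc] at he'; exact he'.2
    rcases cases hd he with h1 | h1 | h1 | h1 | h1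
    · have : e = dᶜ := by
        apply Finset.eq_of_subset_of_card_le
        · intro a ha
          rw [Finset.mem_compl]
          intro had
          have : a ∈ d ∩ e := Finset.mem_inter.2 ⟨had, ha⟩
          rw [Finset.card_eq_zero.1 h1] at this
          simp at this
        · rw [Finset.card_compl, h12, he12]; decide
      rw [this, pr_compl]
    · rw [h1] at h; exact absurd h (by decide)
    · rw [h1] at h; exact absurd h (by decide)
    · rw [h1] at h; exact absurd h (by decide)
    · have h3 : d ∩ e = d := Finset.eq_of_subset_of_card_le Finset.inter_subset_left (by omega)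
      have h4 : d ∩ e = e := Finset.eq_of_subset_of_card_le Finset.inter_subset_right (by omega)
      rw [← h4, h3]
  · rw [c_pr h12, Finset.inter_self, h12]; decide
  · rintro P ⟨e, he, rfl⟩ Q ⟨e', he', rfl⟩ h
    rw [c_pr h12, c_pr h12] at h
    have hcase : (d ∩ e).card = (d ∩ e').card ∨ (d ∩ e).card = 12 - (d ∩ e').card := by
      rcases cases hd he with h1 | h1 | h1 | h1 | h1 <;> rcases cases hd he' with h2 | h2 | h2 | h2 | h2 <;>
        rw [h1, h2] at h ⊢ <;> first | (left; rfl) | (right; rfl) | (exfalso; revert h; decide)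
    rcases hcase with h1 | h1
    · obtain ⟨g, hg, hg1, hg2⟩ := Cfsg.Agent.S1561.result d e e' hd he he' h1
      refine ⟨⟨g, hg⟩, ?_, ?_⟩
      · change g • pr d = pr d
        rw [smul_pr, hg1]
      · change g • pr e = pr e'
        rw [smul_pr, hg2]
    · rw [← card_inter_compl h12] at h1
      obtain ⟨g, hg, hg1, hg2⟩ := Cfsg.Agent.S1561.result d e e'ᶜ hd he (M11C.compl_mem_dodecads he') h1
      refine ⟨⟨g, hg⟩, ?_, ?_⟩
      · change g • pr d = pr d
        rw [smul_pr, hg1]
      · change g • pr e = pr e'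
        rw [smul_pr, hg2, pr_compl]

end Cfsg.Agent.S1566
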