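import Cfsg.Statements.S1567
import Cfsg.Agent.Lib.Helper28.LeechGen

set_option autoImplicit false
open Cfsg

namespace Cfsg.Agent.S1567

/-- The rank-24 lattice is the additive subgroup generated by its 196560 minimal vectors. -/
theorem result : AddSubgroup.closure {x : Cfsg.GolayPt → ℤ | x ∈ Cfsg.leechLattice ∧ Cfsg.sqNorm x = 32} = Cfsg.leechLattice := by
  apply le_antisymm
  · rw [AddSubgroup.closure_le]
    intro x hx
    exact hx.1
  · refine le_trans Cfsg.Agent.Lib.Helper28.leech_le_closure ?_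
    rw [AddSubgroup.closure_le]
    have hmin : ∀ z : Cfsg.GolayPt → ℤ, Cfsg.Agent.Lib.Helper28.inL z = true ∧ Cfsg.sqNorm z = 32 →
        z ∈ AddSubgroup.closure {x : Cfsg.GolayPt → ℤ | x ∈ Cfsg.leechLattice ∧ Cfsg.sqNorm x = 32} :=
      fun z hz => AddSubgroup.subset_closure ⟨Cfsg.Agent.Lib.Helper28.mem_of_inL hz.1, hz.2⟩
    have h1 : ∀ i : Cfsg.GolayPt, i ≠ none →
        Cfsg.Agent.Lib.Helper28.inL ((Pi.single i 4 : Cfsg.GolayPt → ℤ) - Pi.single none 4) = true ∧
        Cfsg.sqNorm ((Pi.single i 4 : Cfsg.GolayPt → ℤ) - Pi.single none 4) = 32 := by decide +kernel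
    have h2 : Cfsg.Agent.Lib.Helper28.inL ((Pi.single (some 0) 4 : Cfsg.GolayPt → ℤ) + Pi.single none 4) = true ∧
        Cfsg.sqNorm ((Pi.single (some 0) 4 : Cfsg.GolayPt → ℤ) + Pi.single none 4) = 32 := by decide +kernel
    have h3 : ∀ b ∈ Cfsg.Agent.Lib.Helper28.B12,
        Cfsg.Agent.Lib.Helper28.inL (fun i => 2 * Cfsg.Agent.Lib.Helper28.chi (Cfsg.Agent.Lib.Helper28.un b) i) = true ∧
        Cfsg.sqNorm (fun i => 2 * Cfsg.Agent.Lib.Helper28.chi (Cfsg.Agent.Lib.Helper28.un b) i) = 32 := by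
      decide +kernel
    have h4 : Cfsg.Agent.Lib.Helper28.inL Cfsg.Agent.Lib.Helper28.v0 = true ∧
        Cfsg.sqNorm Cfsg.Agent.Lib.Helper28.v0 = 32 := by decide +kernel
    rintro x (rfl | ⟨b, hb, rfl⟩ | ⟨i, rfl⟩ | rfl)
    · exact hmin _ h4
    · exact hmin _ (h3 b hb)
    · by_cases hi : i = none
      · subst hi
        rw [sub_self]
        exact AddSubgroup.zero_mem _
      · exact hmin _ (h1 i hi)
    · have e : (Pi.single none 8 : Cfsg.GolayPt → ℤ) = ((Pi.single (some 0) 4 : Cfsg.GolayPt → ℤ) + Pi.single none 4)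
          - ((Pi.single (some 0) 4 : Cfsg.GolayPt → ℤ) - Pi.single none 4) := by decide +kernel
      rw [SetLike.mem_coe, e]
      exact AddSubgroup.sub_mem _ (hmin _ h2) (hmin _ (h1 (some 0) (by decide)))

end Cfsg.Agent.S1567
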