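import Cfsg.Statements.S1579
import Cfsg.Agent.Lib.Helper28.LeechTri223

set_option autoImplicit false
open Cfsg

namespace Cfsg.Agent.S1579

/-- The stabiliser of a vector of customary norm 6 is transitive on the 552 minimal vectors that complete it to a sum of two minimal vectors. -/
theorem result (u v v' : ↥Cfsg.leechLattice) (hu : Cfsg.sqNorm (u : Cfsg.GolayPt → ℤ) = 48) (hv : Cfsg.sqNorm (v : Cfsg.GolayPt → ℤ) = 32 ∧ Cfsg.sqNorm ((u - v) : Cfsg.GolayPt → ℤ) = 32) (hv' : Cfsg.sqNorm (v' : Cfsg.GolayPt → ℤ) = 32 ∧ Cfsg.sqNorm ((u - v') : Cfsg.GolayPt → ℤ) = 32) : ∃ g : ↥Cfsg.Co0, g • u = u ∧ g • v = v' := by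
  open Cfsg.Agent.Lib.Helper28 in
  have key : ∀ x : leechLattice, sqNorm (x : GolayPt → ℤ) = 32 →
      sqNorm ((u - x) : GolayPt → ℤ) = 32 →
      dotInt (x : GolayPt → ℤ) ((u - x : leechLattice) : GolayPt → ℤ) = -8 := by
    intro x hx hux
    have h1 : (u : GolayPt → ℤ) = (x : GolayPt → ℤ) + ((u - x : leechLattice) : GolayPt → ℤ) := by
      rw [AddSubgroup.coe_sub]; abel
    have h2 := sqNorm_add (x : GolayPt → ℤ) ((u - x : leechLattice) : GolayPt → ℤ)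
    rw [← h1, hu, hx, AddSubgroup.coe_sub, hux] at h2
    rw [AddSubgroup.coe_sub]
    omega
  obtain ⟨g, hg1, hg2⟩ := Cfsg.Agent.Lib.Helper28.co0_trans223 v v' (u - v) (u - v') hv.1 hv'.1
    (by rw [AddSubgroup.coe_sub]; exact hv.2) (by rw [AddSubgroup.coe_sub]; exact hv'.2)
    (key v hv.1 hv.2) (key v' hv'.1 hv'.2)
  refine ⟨g, ?_, hg1⟩
  rw [Cfsg.Agent.Lib.Helper28.co0_sub, hg1] at hg2
  exact sub_left_injective hg2

end Cfsg.Agent.S1579
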