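import Cfsg.Statements.S1585
import Cfsg.Agent.Lib.Helper28.LeechTriangles

set_option autoImplicit false
open Cfsg

namespace Cfsg.Agent.S1585

/-- Two vectors of customary norm 6 with inner product −4 are exchanged by some automorphism of the lattice. -/
theorem result (v w : ↥Cfsg.leechLattice) (hv : Cfsg.sqNorm (v : Cfsg.GolayPt → ℤ) = 48) (hw : Cfsg.sqNorm (w : Cfsg.GolayPt → ℤ) = 48) (hvw : Cfsg.dotInt (v : Cfsg.GolayPt → ℤ) (w : Cfsg.GolayPt → ℤ) = -32) : ∃ g : ↥Cfsg.Co0, g • v = w ∧ g • w = v := by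
  have hadd : ∀ a b c : Cfsg.GolayPt → ℤ, Cfsg.dotInt (a + b) c = Cfsg.dotInt a c + Cfsg.dotInt b c := by
    intro a b c
    unfold Cfsg.dotInt
    rw [← Finset.sum_add_distrib]
    exact Finset.sum_congr rfl fun i _ => by simp only [Pi.add_apply]; ring
  have hcomm : ∀ a b : Cfsg.GolayPt → ℤ, Cfsg.dotInt a b = Cfsg.dotInt b a := by
    intro a b
    unfold Cfsg.dotInt
    exact Finset.sum_congr rfl fun i _ => by ring
  have hself : ∀ a : Cfsg.GolayPt → ℤ, Cfsg.dotInt a a = Cfsg.sqNorm a := by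
    intro a
    unfold Cfsg.dotInt Cfsg.sqNorm
    exact Finset.sum_congr rfl fun i _ => by ring
  have hz : Cfsg.sqNorm ((v + w : ↥Cfsg.leechLattice) : Cfsg.GolayPt → ℤ) = 32 := by
    rw [AddSubgroup.coe_add, Cfsg.Agent.Lib.Helper28.sqNorm_add, hv, hw, hvw]; norm_num
  have h1 : Cfsg.dotInt ((v + w : ↥Cfsg.leechLattice) : Cfsg.GolayPt → ℤ) (v : Cfsg.GolayPt → ℤ) = 16 := by
    rw [AddSubgroup.coe_add, hadd, hself, hcomm (w : Cfsg.GolayPt → ℤ), hv, hvw]; norm_num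
  have h2 : Cfsg.dotInt ((v + w : ↥Cfsg.leechLattice) : Cfsg.GolayPt → ℤ) (w : Cfsg.GolayPt → ℤ) = 16 := by
    rw [AddSubgroup.coe_add, hadd, hself, hw, hvw]; norm_num
  obtain ⟨g, hg1, hg2⟩ := Cfsg.Agent.Lib.Helper28.co0_trans32_16 (v + w) (v + w) v w hz hz hv hw h1 h2
  refine ⟨g, hg2, ?_⟩
  rw [Cfsg.Agent.Lib.Helper28.co0_add, hg2] at hg1
  have : g • w = v + w - w := by rw [← hg1]; abel
  rw [this]; abel

end Cfsg.Agent.S1585
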