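import Cfsg.Statements.S1588
import Cfsg.Agent.Lib.Helper28.ShortClasses

set_option autoImplicit false
open Matrix
open Cfsg

namespace Cfsg.Agent.S1588

/-- Second step of the characterisation: under the vector counts of the rank-24 lattice, the norm-8 vectors fall into congruence classes of exactly 48 modulo twice the lattice. -/
theorem result (B : Matrix (Fin 24) (Fin 24) ℤ) (hsymm : B.IsSymm) (hpos : ∀ x : Fin 24 → ℤ, x ≠ 0 → 0 < x ⬝ᵥ (B *ᵥ x)) (heven : ∀ x : Fin 24 → ℤ, (2 : ℤ) ∣ x ⬝ᵥ (B *ᵥ x)) (h2 : ∀ x : Fin 24 → ℤ, x ⬝ᵥ (B *ᵥ x) ≠ 2) (h4 : {x : Fin 24 → ℤ | x ⬝ᵥ (B *ᵥ x) = 4}.ncard = 196560) (h6 : {x : Fin 24 → ℤ | x ⬝ᵥ (B *ᵥ x) = 6}.ncard = 16773120) (h8 : {x : Fin 24 → ℤ | x ⬝ᵥ (B *ᵥ x) = 8}.ncard = 398034000) (x : Fin 24 → ℤ) (hx : x ⬝ᵥ (B *ᵥ x) = 8) : {y : Fin 24 → ℤ | y ⬝ᵥ (B *ᵥ y) = 8 ∧ ∀ i, (2 : ℤ) ∣ (x - y) i}.ncard = 48 := by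
  have hbil : ∀ x y : Fin 24 → ℤ, (x + y) ⬝ᵥ (B *ᵥ (x + y)) = x ⬝ᵥ (B *ᵥ x) + y ⬝ᵥ (B *ᵥ y) + 2 * (x ⬝ᵥ (B *ᵥ y)) := by
    intro x y
    have hs : y ⬝ᵥ (B *ᵥ x) = x ⬝ᵥ (B *ᵥ y) := by
      rw [Matrix.dotProduct_mulVec, ← Matrix.mulVec_transpose, hsymm.eq, dotProduct_comm]
    rw [Matrix.mulVec_add, add_dotProduct, dotProduct_add, dotProduct_add, hs]
    ring
  have hbil' : ∀ x y : Fin 24 → ℤ, (x - y) ⬝ᵥ (B *ᵥ (x - y)) = x ⬝ᵥ (B *ᵥ x) + y ⬝ᵥ (B *ᵥ y) - 2 * (x ⬝ᵥ (B *ᵥ y)) := by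
    intro x y
    have hs : y ⬝ᵥ (B *ᵥ x) = x ⬝ᵥ (B *ᵥ y) := by
      rw [Matrix.dotProduct_mulVec, ← Matrix.mulVec_transpose, hsymm.eq, dotProduct_comm]
    rw [Matrix.mulVec_sub, sub_dotProduct, dotProduct_sub, dotProduct_sub, hs]
    ring
  have D : Cfsg.Agent.Lib.Helper28.ShortData (⊤ : AddSubgroup (Fin 24 → ℤ)) (fun x => x ⬝ᵥ (B *ᵥ x)) 1 :=
    { upos := by norm_num
      par := fun x y => by
        show (x + y) ⬝ᵥ (B *ᵥ (x + y)) + (x - y) ⬝ᵥ (B *ᵥ (x - y)) = _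
        rw [hbil, hbil']; ring
      min := fun x _ h0 => by
        have h1 := hpos x h0
        have h3 := heven x
        have h4 := h2 x
        show 4 * 1 ≤ x ⬝ᵥ (B *ᵥ x)
        omega
      c4 := by simpa using h4
      c6 := by simpa using h6
      c8 := by simpa using h8
      idx := by
        rw [Cfsg.Agent.Lib.Helper28.relIndex_dbl (Fin 24) ⊤ (by simp)]
        simp
      orth := fun F h1 h2' => by
        have := Cfsg.Agent.Lib.Helper28.card_le_two_mul B 8 (by norm_num) F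
          (fun y hy => by have := (h1 y hy).2; simpa using this)
          (fun y hy z hz hyz => by
            rcases h2' y hy z hz hyz with h | h
            · exact Or.inl h
            · right
              have a1 := (h1 y hy).2
              have a2 := (h1 z hz).2
              have a3 : (y - z) ⬝ᵥ (B *ᵥ (y - z)) = 16 * 1 := h
              rw [hbil'] at a3
              omega)
        simpa using this }
  have h := D.main.1 x (AddSubgroup.mem_top x) (by simpa using hx)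
  rw [← h]
  congr 1
  ext y
  simp only [Set.mem_ofPred_eq, AddSubgroup.mem_top, true_and, mul_one]
  constructor
  · rintro ⟨h1, h2⟩
    refine ⟨h1, fun i => (x - y) i / 2, ?_⟩
    funext i
    have := h2 i
    simp only [Pi.smul_apply, smul_eq_mul]
    omega
  · rintro ⟨h1, z, hz⟩
    refine ⟨h1, fun i => ?_⟩
    rw [hz]
    simp

end Cfsg.Agent.S1588
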