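import Cfsg.Statements.S1590
import Cfsg.Agent.Lib.Helper28.TGolay2

set_option autoImplicit false
open Cfsg

namespace Cfsg.Agent.S1590

/-- The length-12 ternary code has 729 words with weight distribution 0^1 6^264 9^440 12^24. -/
theorem result : Nat.card ↥Cfsg.ternaryGolayCode = 729 ∧ (∀ x ∈ Cfsg.ternaryGolayCode, x ≠ 0 → (Cfsg.ternarySupport x).card = 6 ∨ (Cfsg.ternarySupport x).card = 9 ∨ (Cfsg.ternarySupport x).card = 12) ∧ {x : Cfsg.ArrayPt → ZMod 3 | x ∈ Cfsg.ternaryGolayCode ∧ (Cfsg.ternarySupport x).card = 6}.ncard = 264 ∧ {x : Cfsg.ArrayPt → ZMod 3 | x ∈ Cfsg.ternaryGolayCode ∧ (Cfsg.ternarySupport x).card = 9}.ncard = 440 ∧ {x : Cfsg.ArrayPt → ZMod 3 | x ∈ Cfsg.ternaryGolayCode ∧ (Cfsg.ternarySupport x).card = 12}.ncard = 24 := by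
  refine ⟨Cfsg.Agent.Lib.Helper28.TGolay.card_code, ?_, ?_, ?_, ?_⟩
  · intro x hx hne
    rw [Cfsg.Agent.Lib.Helper28.TGolay.eq_e6 hx] at hne ⊢
    rcases Cfsg.Agent.Lib.Helper28.TGolay.wts _ with h | h | h | h
    · exact absurd h hne
    · exact Or.inl h
    · exact Or.inr (Or.inl h)
    · exact Or.inr (Or.inr h)
  · exact (Cfsg.Agent.Lib.Helper28.TGolay.count (fun x => (Cfsg.ternarySupport x).card = 6)).trans
      Cfsg.Agent.Lib.Helper28.TGolay.c6
  · exact (Cfsg.Agent.Lib.Helper28.TGolay.count (fun x => (Cfsg.ternarySupport x).card = 9)).trans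
      Cfsg.Agent.Lib.Helper28.TGolay.c9
  · exact (Cfsg.Agent.Lib.Helper28.TGolay.count (fun x => (Cfsg.ternarySupport x).card = 12)).trans
      Cfsg.Agent.Lib.Helper28.TGolay.c12

end Cfsg.Agent.S1590
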