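import Cfsg.Statements.S1591
import Cfsg.Agent.Lib.Helper28.TGolay

set_option autoImplicit false
open Cfsg

namespace Cfsg.Agent.S1591

/-- Any two words of the length-12 ternary code have dot product zero. -/
theorem result (x y : Cfsg.ArrayPt → ZMod 3) (hx : x ∈ Cfsg.ternaryGolayCode) (hy : y ∈ Cfsg.ternaryGolayCode) : ∑ p, x p * y p = 0 := by
  have GG : ∀ j k, ∑ p, Cfsg.Agent.Lib.Helper28.TGolay.G j p * Cfsg.Agent.Lib.Helper28.TGolay.G k p = 0 := by
    decide +kernel
  have h1 : ∀ (m : Fin 6 → ZMod 3) (k : Fin 6),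
      ∑ p, Cfsg.Agent.Lib.Helper28.TGolay.enc m p * Cfsg.Agent.Lib.Helper28.TGolay.G k p = 0 := by
    intro m k
    calc ∑ p, Cfsg.Agent.Lib.Helper28.TGolay.enc m p * Cfsg.Agent.Lib.Helper28.TGolay.G k p
        = ∑ p, ∑ j, m j * (Cfsg.Agent.Lib.Helper28.TGolay.G j p * Cfsg.Agent.Lib.Helper28.TGolay.G k p) := by
          refine Finset.sum_congr rfl fun p _ => ?_
          unfold Cfsg.Agent.Lib.Helper28.TGolay.enc
          rw [Finset.sum_apply, Finset.sum_mul]
          refine Finset.sum_congr rfl fun j _ => ?_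
          rw [Pi.smul_apply, smul_eq_mul, mul_assoc]
      _ = ∑ j, ∑ p, m j * (Cfsg.Agent.Lib.Helper28.TGolay.G j p * Cfsg.Agent.Lib.Helper28.TGolay.G k p) :=
          Finset.sum_comm
      _ = 0 := by
          refine Finset.sum_eq_zero fun j _ => ?_
          rw [← Finset.mul_sum, GG, mul_zero]
  rw [Cfsg.Agent.Lib.Helper28.TGolay.eq_enc hx, Cfsg.Agent.Lib.Helper28.TGolay.eq_enc hy]
  generalize (fun k => x (Cfsg.Agent.Lib.Helper28.TGolay.info k)) = m
  generalize (fun k => y (Cfsg.Agent.Lib.Helper28.TGolay.info k)) = m'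
  calc ∑ p, Cfsg.Agent.Lib.Helper28.TGolay.enc m p * Cfsg.Agent.Lib.Helper28.TGolay.enc m' p
      = ∑ p, ∑ k, m' k * (Cfsg.Agent.Lib.Helper28.TGolay.enc m p * Cfsg.Agent.Lib.Helper28.TGolay.G k p) := by
        refine Finset.sum_congr rfl fun p _ => ?_
        conv_lhs => rw [Cfsg.Agent.Lib.Helper28.TGolay.enc.eq_def m']
        rw [Finset.sum_apply, Finset.mul_sum]
        refine Finset.sum_congr rfl fun j _ => ?_
        rw [Pi.smul_apply, smul_eq_mul]
        ring
    _ = ∑ k, ∑ p, m' k * (Cfsg.Agent.Lib.Helper28.TGolay.enc m p * Cfsg.Agent.Lib.Helper28.TGolay.G k p) :=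
        Finset.sum_comm
    _ = 0 := by
        refine Finset.sum_eq_zero fun j _ => ?_
        rw [← Finset.mul_sum, h1, mul_zero]

end Cfsg.Agent.S1591
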