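import Mathlib
import Cfsg.Statements.S1604
import Cfsg.Agent.Lib.Helper3.OrbitTool2

set_option autoImplicit false
open scoped Pointwise
open Cfsg

namespace Cfsg.Agent.S1604

open Cfsg.Agent.Lib.Helper28 Cfsg.Agent.Lib.Helper3.M24T Cfsg.Agent.Lib.Helper3.Orb

def gensA : List (List ℕ) :=
  [[0, 2, 1, 17, 19, 14, 8, 12, 15, 13, 22, 9, 20, 6, 3, 4, 21, 5, 10, 11, 16, 18, 7, 23],
   [0, 2, 1, 14, 15, 17, 13, 22, 6, 11, 18, 19, 7, 9, 5, 8, 20, 3, 21, 4, 12, 16, 10, 23],
   [0, 5, 17, 1, 6, 14, 10, 8, 12, 4, 19, 20, 11, 16, 3, 21, 7, 2, 15, 18, 22, 9, 13, 23],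
   [0, 3, 17, 14, 9, 1, 4, 16, 7, 21, 6, 12, 8, 22, 5, 18, 13, 2, 19, 10, 11, 15, 20, 23],
   [0, 1, 2, 3, 12, 14, 19, 7, 20, 16, 4, 15, 10, 11, 17, 13, 18, 5, 9, 21, 22, 6, 8, 23],
   [0, 1, 2, 3, 10, 17, 21, 7, 22, 18, 12, 13, 4, 15, 5, 11, 9, 14, 16, 6, 8, 19, 20, 23],
   [0, 3, 17, 5, 12, 14, 16, 10, 11, 20, 22, 18, 6, 8, 1, 9, 7, 2, 21, 4, 13, 15, 19, 23],
   [0, 14, 17, 1, 19, 3, 12, 16, 13, 15, 7, 8, 4, 20, 5, 21, 6, 2, 11, 22, 9, 18, 10, 23]]

def certA : Cert :=
  [(2, 11575377,
    [0, 0, 0, 0, 0, 0, 0, 2, 0, 0, 0, 0, 0, 0, 0],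
    1345412831699050727344123421181497196160156071953461063420405724339628640292094551110325193607356483097819611005428707190596830829562997503027622389019416509110882637805970417528539020583716184187618005338148133188938355085440870343020416843583368306239968168514518220008110662390306394048955274488250510761223672915450105222205848134786227508526498973354804845403770582208985245839609619918760364577860621621479818369298763069186838717299619217466383472927924669506220108937336254413962486349615572935889168910296900584564111487551408728497209387081290319316872517507434446276951926279539993972433851470131049523078196783983940483301105024909468715936870176535319646958266860151179816754571964783063235201913084149899138061008808675667219803611026308173237276428196924685837593392708185839693492233495611169498784648401719523735189618026532676124553496475351915892741354917963019649220527906913390291262557077182933513205447241080389988503383051937479717719054093984484503091067401671176999550102536192),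
   (4, 13062145,
    [0, 2, 0, 0, 0, 0, 0, 0, 0, 2, 0, 0, 0, 4, 0, 0, 0, 0, 0, 0, 0, 3, 0, 0, 0, 0, 0, 0, 0, 2, 0, 0,
     0, 0, 0, 0, 0, 3, 0, 0, 0, 0, 0, 0, 0, 4, 0, 2, 0, 0, 0, 0, 0, 0, 0, 1, 1, 1, 1, 1, 1, 1, 3, 1,
     6, 0, 0, 0],
    39881769643296449927428458215377202500794304405783606385147535857687086137929603198643623963481355660494932944012482548061974516011937668229220891379303801167744297786559750920805572645408787109756743193230976006464099977686720724223518683313681034671921515895388960442389756704067855936957122065847062247147230985586159575124708241438970575073840527431047594572561209914895653812725545883139000800533971339485162189372474904125540996955030744186813782390840214693451548182396644613481330376805757905502483361327614572920650459227727587242361680940277568167172302060760381938578647073824456735381689438542466763879989338256601675896857499398770934722432915715206718692122249678022050381878070682931363394759513975240027909825918944008454163395817507645957195483872920981708223475229491695343582194405359004622865388709380532148942988829786588536918007226951187990989376203618793434854232765729591678772146915959113195339794529717682443207273855269777441981932036486719737317125262356611966572092699393439774511520916412435061992209644061190094948708736266990020237848821580620106250),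
   (8, 8536111,
    [],
    140737488355328)]

theorem gensA_ok : gensA.all (inStab [23, 0] [O5]) = true := by decide +kernel
theorem certA_ok : certOk gensA certA = true := by decide +kernel
theorem chkA : allRange 12 0 (fun a => !((enc B12 a).testBit 23 && (enc B12 a).testBit 0 &&
    popc (enc B12 a) == 8) || lookupBit certA (popc (O5 &&& enc B12 a)) a) = true := by
  decide +kernel
theorem cnt2 : {x : Finset GolayPt | isCode (mk x) = true ∧ ((mk x).testBit 23 = true ∧ (mk x).testBit 0 = true ∧ popc (mk x) = 8 ∧ popc (O5 &&& (mk x)) = 2)}.ncard = 16 :=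
  (ncard_code (fun m => m.testBit 23 = true ∧ m.testBit 0 = true ∧ popc m = 8 ∧ popc (O5 &&& m) = 2)).trans (by decide +kernel)
theorem cnt4 : {x : Finset GolayPt | isCode (mk x) = true ∧ ((mk x).testBit 23 = true ∧ (mk x).testBit 0 = true ∧ popc (mk x) = 8 ∧ popc (O5 &&& (mk x)) = 4)}.ncard = 60 :=
  (ncard_code (fun m => m.testBit 23 = true ∧ m.testBit 0 = true ∧ popc m = 8 ∧ popc (O5 &&& m) = 4)).trans (by decide +kernel)


/-- A hexad stabiliser in the two-point stabiliser has orbits of sizes 1, 16, 60 on the 77 hexads: the 16 hexads disjoint from it and the 60 meeting it in two points. -/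
theorem result (p q : Cfsg.GolayPt) (hpq : p ≠ q) (o o' o'' : Finset Cfsg.GolayPt) (ho : o ∈ Cfsg.octads) (ho' : o' ∈ Cfsg.octads) (ho'' : o'' ∈ Cfsg.octads) (hp : p ∈ o ∧ p ∈ o' ∧ p ∈ o'') (hq : q ∈ o ∧ q ∈ o' ∧ q ∈ o'') (h : (o ∩ o').card = (o ∩ o'').card) : {x : Finset Cfsg.GolayPt | x ∈ Cfsg.octads ∧ p ∈ x ∧ q ∈ x ∧ (o ∩ x).card = 2}.ncard = 16 ∧ {x : Finset Cfsg.GolayPt | x ∈ Cfsg.octads ∧ p ∈ x ∧ q ∈ x ∧ (o ∩ x).card = 4}.ncard = 60 ∧ ∃ g : Equiv.Perm Cfsg.GolayPt, g ∈ Cfsg.M24 ∧ g p = p ∧ g q = q ∧ g • o = o ∧ g • o' = o'' := by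
  obtain ⟨k, hk, hko, hkx⟩ := exists_map_octad_list ho [p, q] (by simpa using hpq)
    (by simp [hp.1, hq.1]) (by simp)
  have hkp : k p = ptOf 23 := by
    have := hkx; simp [basePts] at this; exact this.1
  have hkq : k q = ptOf 0 := by
    have := hkx; simp [basePts] at this; exact this.2
  have hO5 : O5 < 2 ^ 24 := by decide
  refine ⟨?_, ?_, ?_⟩
  · rw [← cnt2]
    apply ncard_transport k
    intro y
    rw [oct_iff hk y, mem_iff_bit hkp (by norm_num) y, mem_iff_bit hkq (by norm_num) y,
      card_inter_eq hko hO5 y]
    tauto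
  · rw [← cnt4]
    apply ncard_transport k
    intro y
    rw [oct_iff hk y, mem_iff_bit hkp (by norm_num) y, mem_iff_bit hkq (by norm_num) y,
      card_inter_eq hko hO5 y]
    tauto
  · rw [oct_iff hk] at ho' ho''
    have hp' := (mem_iff_bit hkp (by norm_num) o').1 hp.2.1
    have hp'' := (mem_iff_bit hkp (by norm_num) o'').1 hp.2.2
    have hq' := (mem_iff_bit hkq (by norm_num) o').1 hq.2.1
    have hq'' := (mem_iff_bit hkq (by norm_num) o'').1 hq.2.2
    rw [card_inter_eq hko hO5, card_inter_eq hko hO5] at h
    obtain ⟨g, hg, hgo⟩ := same_orbit_of_cert (stabPM [23, 0] [O5]) (stabPM_le _ _) gensA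
      (gens_good gensA_ok) certA certA_ok (fun m => m.testBit 23 && m.testBit 0 && popc m == 8)
      (fun m => popc (O5 &&& m)) chkA (k • o') (k • o'') ho'.1 ho''.1
      (by simp [hp', hq', ho'.2]) (by simp [hp'', hq'', ho''.2]) h
    exact ⟨k⁻¹ * g * k, conj_back hk hg.1, conj_back_pt hkp (hg.2.1 23 (by simp)),
      conj_back_pt hkq (hg.2.1 0 (by simp)),
      conj_back_set hko hko (hg.2.2 O5 (by simp)), conj_back_set rfl rfl hgo⟩

end Cfsg.Agent.S1604
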