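import Mathlib
import Cfsg.Statements.S1605
import Cfsg.Agent.Lib.Helper3.OrbitTool2
import Cfsg.Agent.Lib.Helper28.M24Pts

set_option autoImplicit false
open scoped Pointwise
open Cfsg

namespace Cfsg.Agent.S1605

open Cfsg.Agent.Lib.Helper28 Cfsg.Agent.Lib.Helper3.M24T Cfsg.Agent.Lib.Helper3.Orb

def gensA : List (List ℕ) :=
  [[1, 3, 17, 0, 4, 2, 10, 18, 6, 9, 8, 19, 22, 13, 14, 15, 7, 5, 16, 20, 11, 12, 21, 23],
   [3, 0, 5, 1, 4, 17, 8, 16, 10, 9, 6, 20, 21, 13, 14, 15, 18, 2, 7, 11, 19, 22, 12, 23],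
   [2, 14, 17, 5, 4, 3, 12, 20, 13, 15, 11, 22, 19, 16, 1, 10, 6, 0, 7, 8, 18, 9, 21, 23],
   [17, 14, 0, 5, 4, 3, 16, 18, 19, 21, 15, 10, 6, 8, 1, 9, 13, 2, 20, 12, 7, 22, 11, 23],
   [2, 3, 17, 14, 4, 0, 18, 8, 21, 6, 7, 20, 15, 12, 5, 9, 11, 1, 19, 13, 10, 16, 22, 23],
   [5, 17, 0, 1, 4, 14, 9, 10, 7, 15, 20, 16, 13, 19, 3, 12, 21, 2, 6, 18, 11, 8, 22, 23],
   [14, 0, 1, 5, 4, 2, 7, 12, 19, 6, 11, 9, 22, 18, 17, 15, 21, 3, 8, 20, 16, 13, 10, 23],
   [1, 2, 5, 17, 4, 3, 9, 6, 18, 11, 22, 10, 7, 21, 0, 15, 20, 14, 13, 8, 19, 16, 12, 23]]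

def certA : Cert :=
  [(2, 13938692,
    [0, 0, 2, 0, 0, 2, 0, 0, 3, 0, 0, 2, 0, 0, 2, 0, 0, 2, 0, 0, 3, 0, 0, 2, 0, 0, 2, 0, 0, 3, 0, 0,
     3, 0, 0, 2, 0, 0, 4, 0, 0, 3, 0, 0, 2, 0, 0, 2, 0, 0, 1, 5, 0, 0, 2, 0, 0, 5, 0, 0, 1, 6, 0, 0,
     2, 3, 1, 2, 0, 0, 1, 1, 3, 1, 3, 0, 0],
    144312294671208456933975649384293564870632448381977309136600639186401200711876279642131111612274684881071476882526524100714753202339335078286384608088071181681795991330627895759418805882906733830900752469739424807224432803257315282623328691432212124380426455659881098714487970994451361985600678694269223222327910307547951845357630434932319845249975448897340583557387862930197860456471209581627322712253370710061646710816278421482341151288241529306843683321883954982034100721684465082945149360760298063301821543582595383103577833069512068355791785966100359282004451212894884408928577867977172007522796314555690761382239690343868930673129424805374220843817635745190397759225667333512527841449023440776255744625138092195244999082279246482344349389900619883272356986498386829212637431091817470104113262789256173441262824118336964581011560450763325653605252450676333885778747197184725651937692089553004435630460645306509155143963554377312366489680319008119838319568189257143393944046588914634089670517702350726882368320074015989727015841073193547623913259823382636817761176555269939328182807525382675655969048588193367010376735535905716809136874689422701493223440),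
   (4, 13062145,
    [0, 0, 2, 0, 0, 2, 0, 0, 2, 0, 0, 3, 0, 0, 2, 0, 0, 2, 0, 0, 2, 0, 0, 3, 0, 0, 2, 0, 0, 2, 0, 0,
     2, 0, 0, 4, 0, 0, 2, 0, 0, 3, 0, 0, 2, 0, 0, 3, 0, 0, 2, 0, 0, 2, 0, 0, 2, 0, 0, 3, 0, 0, 2, 0,
     0, 3, 0, 0, 3, 0, 0, 2, 0, 0, 2, 0, 0, 1, 5, 0, 0, 7, 0, 0, 2, 0, 0, 2, 0, 0, 4, 0, 0, 5, 0, 0,
     1, 1, 4, 1, 7, 4, 0, 0, 2, 0, 0, 1, 1, 3, 1, 1, 5, 6, 1, 5, 1, 1, 3, 1, 1, 3, 1, 1, 6, 1, 1, 4,
     1, 3, 5, 4, 1, 1, 3, 1, 1, 2, 1, 1, 2, 1, 3],
    39881769643296449927428458215377202500794304405783606385147535857687097694937826730993600339527419184823208591146697139937212029694217142946608098901366556897801504240445392989951532111506670147353746037829366910975656839995328572170816505073878238423021848955993167316300578328676394007970381648870008796424567960367764576222923452924978566091993034694733002298086956538515810937751528028429572493346849034389330350316362622134137046240774138002619060058102077980149800345367636425426808288093904142776455970053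778311638336697484975557741313362069083079017912330918344750724801367037317569912764640605862432387961230287913845498223477943562168089492275659169769286919932574670793750110718267569225123882744580616136907053065742444427428136476601075332836721845752247135400281456209322257696512386338331039250602660099785656208946908506562565345116629143477786518485147040761692959730258426634356662297674973132333436091657440979521212023165461311876641660267150106865854974722146905441372227264436016819310557413871397605175996790658606466027099174483191188838168962065107957848650),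
   (8, 8536111,
    [],
    140737488355328)]

theorem gensA_ok : gensA.all (inStab [23, 4] [O5]) = true := by decide +kernel
theorem certA_ok : certOk gensA certA = true := by decide +kernel
theorem chkA : allRange 12 0 (fun a => !((enc B12 a).testBit 23 && !(enc B12 a).testBit 4 &&
    popc (enc B12 a) == 8) || lookupBit certA (popc (O5 &&& enc B12 a)) a) = true := by
  decide +kernel
theorem cntAll : {x : Finset GolayPt | isCode (mk x) = true ∧ ((mk x).testBit 23 = true ∧ ¬ (mk x).testBit 4 = true ∧ popc (mk x) = 8)}.ncard = 176 :=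
  (ncard_code (fun m => m.testBit 23 = true ∧ ¬ m.testBit 4 = true ∧ popc m = 8)).trans (by decide +kernel)
theorem cnt2 : {x : Finset GolayPt | isCode (mk x) = true ∧ ((mk x).testBit 23 = true ∧ ¬ (mk x).testBit 4 = true ∧ popc (mk x) = 8 ∧ popc (O5 &&& (mk x)) = 2)}.ncard = 70 :=
  (ncard_code (fun m => m.testBit 23 = true ∧ ¬ m.testBit 4 = true ∧ popc m = 8 ∧ popc (O5 &&& m) = 2)).trans (by decide +kernel)
theorem cnt4 : {x : Finset GolayPt | isCode (mk x) = true ∧ ((mk x).testBit 23 = true ∧ ¬ (mk x).testBit 4 = true ∧ popc (mk x) = 8 ∧ popc (O5 &&& (mk x)) = 4)}.ncard = 105 :=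
  (ncard_code (fun m => m.testBit 23 = true ∧ ¬ m.testBit 4 = true ∧ popc m = 8 ∧ popc (O5 &&& m) = 4)).trans (by decide +kernel)


/-- The two-point stabiliser acts on the 176 octads through the first point avoiding the second with rank 3 and subdegrees 1, 70, 105 (intersections 8, 2, 4). -/
theorem result (p q : Cfsg.GolayPt) (hpq : p ≠ q) : {x : Finset Cfsg.GolayPt | (x ∈ Cfsg.octads ∧ p ∈ x ∧ q ∉ x)}.ncard = 176 ∧ (∀ o o' : Finset Cfsg.GolayPt, (o ∈ Cfsg.octads ∧ p ∈ o ∧ q ∉ o) → (o' ∈ Cfsg.octads ∧ p ∈ o' ∧ q ∉ o') → ∃ g : Equiv.Perm Cfsg.GolayPt, g ∈ Cfsg.M24 ∧ g p = p ∧ g q = q ∧ g • o = o') ∧ ∀ o : Finset Cfsg.GolayPt, (o ∈ Cfsg.octads ∧ p ∈ o ∧ q ∉ o) → {x : Finset Cfsg.GolayPt | (x ∈ Cfsg.octads ∧ p ∈ x ∧ q ∉ x) ∧ (o ∩ x).card = 2}.ncard = 70 ∧ {x : Finset Cfsg.GolayPt | (x ∈ Cfsg.octads ∧ p ∈ x ∧ q ∉ x) ∧ (o ∩ x).card = 4}.ncard = 105 ∧ ∀ o' o'' : Finset Cfsg.GolayPt, (o' ∈ Cfsg.octads ∧ p ∈ o' ∧ q ∉ o') → (o'' ∈ Cfsg.octads ∧ p ∈ o'' ∧ q ∉ o'') → (o ∩ o').card =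 (o ∩ o'').card → ∃ g : Equiv.Perm Cfsg.GolayPt, g ∈ Cfsg.M24 ∧ g p = p ∧ g q = q ∧ g • o = o ∧ g • o' = o'' := by
  have hO5 : O5 < 2 ^ 24 := by decide
  have base : ∀ o : Finset GolayPt, (o ∈ octads ∧ p ∈ o ∧ q ∉ o) →
      ∃ k ∈ M24, k • o = un O5 ∧ k p = ptOf 23 ∧ k q = ptOf 4 := by
    intro o ho
    obtain ⟨k, hk, hko, hkx, hkq⟩ := exists_map_octad_list_out ho.1 [p] (by simp)
      (by simpa using ho.2.1) (by simp) ho.2.2
    exact ⟨k, hk, hko, by simpa [basePts] using hkx, hkq⟩
  refine ⟨?_, ?_, ?_⟩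
  · obtain ⟨k, hk, hkp, hkq⟩ := M24_trans2 hpq (show ptOf 23 ≠ ptOf 4 by decide)
    rw [← cntAll]
    apply ncard_transport k
    intro y
    rw [oct_iff hk y, mem_iff_bit hkp (by norm_num) y, mem_iff_bit hkq (by norm_num) y]
    tauto
  · intro o o' ho ho'
    obtain ⟨k, hk, hko, hkp, hkq⟩ := base o ho
    obtain ⟨k', hk', hko', hkp', hkq'⟩ := base o' ho'
    refine ⟨k'⁻¹ * k, M24.mul_mem (M24.inv_mem hk') hk, ?_, ?_, ?_⟩
    · rw [Equiv.Perm.mul_apply, hkp, ← hkp']; simp
    · rw [Equiv.Perm.mul_apply, hkq, ← hkq']; simp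
    · rw [mul_smul, hko, ← hko', inv_smul_smul]
  · intro o ho
    obtain ⟨k, hk, hko, hkp, hkq⟩ := base o ho
    refine ⟨?_, ?_, ?_⟩
    · rw [← cnt2]
      apply ncard_transport k
      intro y
      rw [oct_iff hk y, mem_iff_bit hkp (by norm_num) y, mem_iff_bit hkq (by norm_num) y,
        card_inter_eq hko hO5 y]
      tauto
    · rw [← cnt4]
      apply ncard_transport k
      intro y
      rw [oct_iff hk y, mem_iff_bit hkp (by norm_num) y, mem_iff_bit hkq (by norm_num) y,
        card_inter_eq hko hO5 y]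
      tauto
    · intro o' o'' ho' ho'' h
      rw [oct_iff hk, mem_iff_bit hkp (by norm_num), mem_iff_bit hkq (by norm_num)] at ho' ho''
      rw [card_inter_eq hko hO5, card_inter_eq hko hO5] at h
      obtain ⟨g, hg, hgo⟩ := same_orbit_of_cert (stabPM [23, 4] [O5]) (stabPM_le _ _) gensA
        (gens_good gensA_ok) certA certA_ok
        (fun m => m.testBit 23 && !m.testBit 4 && popc m == 8)
        (fun m => popc (O5 &&& m)) chkA (k • o') (k • o'') ho'.1.1 ho''.1.1
        (by simp [ho'.2.1, ho'.2.2, ho'.1.2]) (by simp [ho''.2.1, ho''.2.2, ho''.1.2]) h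
      exact ⟨k⁻¹ * g * k, conj_back hk hg.1, conj_back_pt hkp (hg.2.1 23 (by simp)),
        conj_back_pt hkq (hg.2.1 4 (by simp)),
        conj_back_set hko hko (hg.2.2 O5 (by simp)), conj_back_set rfl rfl hgo⟩

end Cfsg.Agent.S1605
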