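import Cfsg.Statements.S1612
import Cfsg.Agent.Lib.Helper27.ThreeTrN

set_option autoImplicit false
open Cfsg

namespace Cfsg.Agent.S1612

open Cfsg.Agent.Lib.Helper27.TT

/-- In a 3-transposition group (no solvable normal subgroup, perfect derived group), the normaliser of a commuting set of transpositions of maximum size contains a Sylow 2-subgroup and is doubly transitive on the set. -/
theorem result {G : Type*} [Group G] [Finite G] (hsol : ∀ N : Subgroup G, N.Normal → Group.IsSolvable ↥N → N = ⊥) (hperf : ⁅commutator G, commutator G⁆ = commutator G) {D : Set G} (hD : Cfsg.IsThreeTranspositionClass D) {E : Set G} (hE : E ⊆ D) (hc : ∀ a ∈ E, ∀ b ∈ E, Commute a b) (hmax : ∀ E' : Set G, E' ⊆ D → (∀ a ∈ E', ∀ b ∈ E', Commute a b) → E'.ncard ≤ E.ncard) : (∃ P : Sylow 2 G, (P : Subgroup G) ≤ Subgroup.normalizer E) ∧ ∀ a ∈ E, ∀ b ∈ E, ∀ c ∈ E, ∀ d ∈ E, a ≠ b → c ≠ d → ∃ g ∈ Subgroup.normalizer E, g * a * g⁻¹ = c ∧ g * b * g⁻¹ = d := by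
  have hT := hD.1
  have hconj := conj_mem_of_class hD
  have : Fact (Nat.Prime 2) := ⟨Nat.prime_two⟩
  constructor
  · have hQ : IsPGroup 2 (Subgroup.closure E) :=
      isPGroup_two_closure_of_commute (fun a ha => sq hT (hE ha)) hc
    obtain ⟨P, hP⟩ := hQ.exists_le_sylow
    refine ⟨P, fun x hx => ?_⟩
    have heq := inter_eq_of_max hT hE hmax P.2 (fun a ha => hP (Subgroup.subset_closure ha))
    apply mem_normalizer_of_conj_mem
    intro a ha
    rw [← heq]
    exact ⟨hconj x a (hE ha), (P : Subgroup G).mul_mem ((P : Subgroup G).mul_mem hx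
      (hP (Subgroup.subset_closure ha))) ((P : Subgroup G).inv_mem hx)⟩
  · intro a ha b hb c hcE d hd hab hcd
    have hP := prim_of_fischer hsol hperf hD ⟨a, hE ha, b, hE hb, hab, hc a ha b hb⟩
    obtain ⟨g₀, hg₀⟩ := exists_conj_of_class hD (hE ha) (hE hcE)
    obtain ⟨k₁, hk₁, h₁⟩ := exists_conj_back hT hconj hE hc hmax (C := Subgroup.centralizer {c}) (g := g₀)
      (by
        intro e he
        rw [SetLike.mem_coe, Subgroup.mem_centralizer_singleton_iff]
        exact (hc e he c hcE).eq)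
      (by
        intro e he
        rw [Subgroup.mem_centralizer_singleton_iff, ← hg₀]
        exact ((Commute.conj_iff g₀).2 (hc e he a ha)).eq)
    rw [Subgroup.mem_centralizer_singleton_iff] at hk₁
    have ha₁ : (k₁ * g₀) * a * (k₁ * g₀)⁻¹ = c := by
      calc (k₁ * g₀) * a * (k₁ * g₀)⁻¹ = k₁ * (g₀ * a * g₀⁻¹) * k₁⁻¹ := by group
        _ = k₁ * c * k₁⁻¹ := by rw [hg₀]
        _ = c := by rw [hk₁, mul_inv_cancel_right]
    obtain ⟨b', hb'⟩ : ∃ b', b' = (k₁ * g₀) * b * (k₁ * g₀)⁻¹ := ⟨_, rfl⟩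
    have hb'E : b' ∈ E := hb' ▸ h₁ b hb
    have hb'c : b' ≠ c := by
      intro h
      apply hab
      rw [hb', ← ha₁] at h
      exact (mul_left_cancel (mul_right_cancel h)).symm
    have hb'D : b' ∈ Dd D c := ⟨hE hb'E, hb'c, hc c hcE b' hb'E⟩
    have hdD : d ∈ Dd D c := ⟨hE hd, fun h => hcd h.symm, hc c hcE d hd⟩
    obtain ⟨g₂, hg₂, hg₂d⟩ := hP.single_class (hE hcE) b' hb'D d hdD
    have hg₂c := closure_Dd_commute hg₂
    have hg₂c' : g₂ * c * g₂⁻¹ = c := by rw [hg₂c.eq, mul_inv_cancel_right]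
    obtain ⟨k₂, hk₂, h₂⟩ := exists_conj_back hT hconj hE hc hmax
      (C := Subgroup.centralizer {c} ⊓ Subgroup.centralizer {d}) (g := g₂)
      (by
        intro e he
        rw [SetLike.mem_coe, Subgroup.mem_inf, Subgroup.mem_centralizer_singleton_iff,
          Subgroup.mem_centralizer_singleton_iff]
        exact ⟨(hc e he c hcE).eq, (hc e he d hd).eq⟩)
      (by
        intro e he
        rw [Subgroup.mem_inf, Subgroup.mem_centralizer_singleton_iff,
          Subgroup.mem_centralizer_singleton_iff]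
        constructor
        · have := (Commute.conj_iff g₂).2 (hc e he c hcE)
          rw [hg₂c'] at this
          exact this.eq
        · have := (Commute.conj_iff g₂).2 (hc e he b' hb'E)
          rw [← hg₂d] at this
          exact this.eq)
    rw [Subgroup.mem_inf, Subgroup.mem_centralizer_singleton_iff,
      Subgroup.mem_centralizer_singleton_iff] at hk₂
    refine ⟨(k₂ * g₂) * (k₁ * g₀), Subgroup.mul_mem _ (mem_normalizer_of_conj_mem h₂)
      (mem_normalizer_of_conj_mem h₁), ?_, ?_⟩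
    · calc (k₂ * g₂) * (k₁ * g₀) * a * ((k₂ * g₂) * (k₁ * g₀))⁻¹
          = k₂ * (g₂ * ((k₁ * g₀) * a * (k₁ * g₀)⁻¹) * g₂⁻¹) * k₂⁻¹ := by group
        _ = k₂ * c * k₂⁻¹ := by rw [ha₁, hg₂c']
        _ = c := by rw [hk₂.1, mul_inv_cancel_right]
    · calc (k₂ * g₂) * (k₁ * g₀) * b * ((k₂ * g₂) * (k₁ * g₀))⁻¹
          = k₂ * (g₂ * ((k₁ * g₀) * b * (k₁ * g₀)⁻¹) * g₂⁻¹) * k₂⁻¹ := by group
        _ = k₂ * d * k₂⁻¹ := by rw [← hb', ← hg₂d]
        _ = d := by rw [hk₂.2, mul_inv_cancel_right]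

end Cfsg.Agent.S1612
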