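import Cfsg.Statements.S2644
import Cfsg.Agent.Lib.Helper29.SuGen
import Cfsg.Agent.Lib.Helper18.Herm4

set_option autoImplicit false
open Cfsg

namespace Cfsg.Agent.S2644


open Matrix Module Cfsg.Agent.H6 Cfsg.Agent.Lib.Helper29

variable {F : Type*} [Field F] [Fintype F] {n q : ℕ}

local notation "H" => Cfsg.hermForm n F q

/-- normal form of a unitary transvection -/
theorem normal_form (hF : Fintype.card F = q ^ 2) (M : Matrix (Fin n) (Fin n) F)
    (hM : ∀ u v, H (M *ᵥ u) (M *ᵥ v) = H u v) (ht : Cfsg.IsTransvection M) :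
    ∃ (a : Fin n → F) (c : F), a ≠ 0 ∧ H a a = 0 ∧ c ≠ 0 ∧ c + c ^ q = 0 ∧
      ∀ x, M *ᵥ x = x + (c * H x a) • a := by
  obtain ⟨hr, hsq⟩ := ht
  have hq : q ≠ 0 := by have := q_pos hF; omega
  rw [Matrix.rank] at hr
  obtain ⟨⟨a, ha⟩, ha0, hspan⟩ := finrank_eq_one_iff'.1 hr
  have ha0' : a ≠ 0 := fun h => ha0 (Subtype.ext h)
  have hφ : ∀ x, ∃ r : F, (M - 1) *ᵥ x = r • a := by
    intro x
    obtain ⟨r, hr⟩ := hspan ⟨(M - 1) *ᵥ x, ⟨x, rfl⟩⟩
    exact ⟨r, (congrArg Subtype.val hr).symm⟩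
  choose φ hφ using hφ
  have hMx : ∀ x, M *ᵥ x = x + φ x • a := by
    intro x
    have := hφ x
    rw [Matrix.sub_mulVec, Matrix.one_mulVec] at this
    rw [← this]; abel
  obtain ⟨x₀, hx₀⟩ := ha
  have hx₀' : φ x₀ ≠ 0 := by
    intro h
    apply ha0'
    have : (M - 1) *ᵥ x₀ = a := hx₀
    rw [← this, hφ, h, zero_smul]
  have hφa : φ a = 0 := by
    have h1 : (M - 1) *ᵥ ((M - 1) *ᵥ x₀) = 0 := by
      rw [Matrix.mulVec_mulVec, hsq, Matrix.zero_mulVec]
    rw [hφ x₀, Matrix.mulVec_smul, hφ a, smul_smul] at h1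
    rcases smul_eq_zero.1 h1 with h | h
    · exact (mul_eq_zero.1 h).resolve_left hx₀'
    · exact absurd h ha0'
  have key : ∀ x y, φ x * H a y + (φ y) ^ q * H x a + φ x * (φ y) ^ q * H a a = 0 := by
    intro x y
    have := hM x y
    rw [hMx x, hMx y] at this
    simp only [hermForm_add_left, hermForm_add_right hF, hermForm_smul_left,
      hermForm_smul_right] at this
    linear_combination this
  have haa : H a a = 0 := by
    have := key x₀ a
    rw [hφa, zero_pow hq] at this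
    simp only [zero_mul, mul_zero, add_zero] at this
    exact (mul_eq_zero.1 this).resolve_left hx₀'
  obtain ⟨y₀, hy₀⟩ := exists_herm_ne_zero (q := q) hF ha0'
  have hy₀' : H a y₀ ≠ 0 := herm_ne_zero_symm hF hy₀
  have hφx : ∀ x, φ x = (-(φ y₀) ^ q / H a y₀) * H x a := by
    intro x
    have := key x y₀
    rw [haa] at this
    field_simp
    linear_combination this
  set c := -(φ y₀) ^ q / H a y₀ with hc
  have hc0 : c ≠ 0 := by
    intro h
    apply hx₀'
    rw [hφx, h, zero_mul]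
  refine ⟨a, c, ha0', haa, hc0, ?_, fun x => by rw [hMx, hφx]⟩
  have h1 : φ y₀ = c * H y₀ a := hφx y₀
  have h2 : c * H a y₀ = -(φ y₀) ^ q := by
    rw [hc]; field_simp
  rw [h1, mul_pow, hermForm_conj hF] at h2
  have : (c + c ^ q) * H a y₀ = 0 := by linear_combination h2
  exact (mul_eq_zero.1 this).resolve_right hy₀'

/-- moving one isotropic vector to a non-perpendicular one -/
theorem move_of_ne (hF : Fintype.card F = q ^ 2) {a a' : Fin n → F} (ha : H a a = 0)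
    (ha' : H a' a' = 0) (h : H a a' ≠ 0) :
    ∃ g : GL (Fin n) F, g ∈ Cfsg.GU n F q ∧ (g : Matrix (Fin n) (Fin n) F) *ᵥ a = a' := by
  have h' : H a' a ≠ 0 := herm_ne_zero_symm hF h
  have hconj : (H a a') ^ q = H a' a := hermForm_conj hF a a'
  have hdd : H (a - a') (a - a') = - H a a' - H a' a := by
    rw [herm_sub_left, herm_sub_right hF, herm_sub_right hF, ha, ha']; ring
  have hcond : (H a a')⁻¹ + ((H a a')⁻¹) ^ q + (H a a')⁻¹ * ((H a a')⁻¹) ^ q * H (a - a') (a - a') = 0 := by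
    rw [hdd, inv_pow, hconj]
    field_simp
    ring
  refine ⟨uref q (a - a') (H a a')⁻¹ _ hcond, uref_mem_GU hF _ _ hcond, ?_⟩
  rw [uref_mulVec, herm_sub_right hF, ha]
  have : (H a a')⁻¹ * (0 - H a a') = -1 := by field_simp; ring
  rw [this]
  simp

theorem move (hF : Fintype.card F = q ^ 2) {a a' : Fin n → F} (ha0 : a ≠ 0) (ha0' : a' ≠ 0)
    (ha : H a a = 0) (ha' : H a' a' = 0) :
    ∃ g : GL (Fin n) F, g ∈ Cfsg.GU n F q ∧ (g : Matrix (Fin n) (Fin n) F) *ᵥ a = a' := by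
  by_cases h : H a a' = 0
  · have h' : H a' a = 0 := herm_eq_zero_symm hF h
    obtain ⟨x, hx1, hx2⟩ : ∃ x, H a x ≠ 0 ∧ H a' x ≠ 0 := by
      obtain ⟨x1, hx1⟩ := exists_herm_ne_zero (q := q) hF ha0
      obtain ⟨x2, hx2⟩ := exists_herm_ne_zero (q := q) hF ha0'
      have hx1' := herm_ne_zero_symm hF hx1
      have hx2' := herm_ne_zero_symm hF hx2
      by_cases h1 : H a' x1 = 0
      · by_cases h2 : H a x2 = 0
        · refine ⟨x1 + x2, ?_, ?_⟩
          · rw [hermForm_add_right hF, h2, add_zero]; exact hx1'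
          · rw [hermForm_add_right hF, h1, zero_add]; exact hx2'
        · exact ⟨x2, h2, hx2'⟩
      · exact ⟨x1, hx1', h1⟩
    obtain ⟨l, hl⟩ := exists_isotropic_add hF ha hx1
    have e1 : H a (x + l • a) ≠ 0 := by
      rw [hermForm_add_right hF, hermForm_smul_right, ha, mul_zero, add_zero]; exact hx1
    have e2 : H a' (x + l • a) ≠ 0 := by
      rw [hermForm_add_right hF, hermForm_smul_right, h', mul_zero, add_zero]; exact hx2
    obtain ⟨g1, hg1, hg1a⟩ := move_of_ne hF ha hl e1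
    obtain ⟨g2, hg2, hg2a⟩ := move_of_ne hF hl ha' (herm_ne_zero_symm hF e2)
    refine ⟨g2 * g1, mul_mem hg2 hg1, ?_⟩
    rw [gl_mul_mulVec, hg1a, hg2a]
  · exact move_of_ne hF ha ha' h

theorem move_det (hF : Fintype.card F = q ^ 2) (hn : 3 ≤ n) {a a' : Fin n → F} (ha0 : a ≠ 0)
    (ha0' : a' ≠ 0) (ha : H a a = 0) (ha' : H a' a' = 0) :
    ∃ g : GL (Fin n) F, g ∈ Cfsg.GU n F q ∧ (g : Matrix (Fin n) (Fin n) F).det = 1 ∧
      (g : Matrix (Fin n) (Fin n) F) *ᵥ a = a' := by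
  obtain ⟨g, hg, hga⟩ := move hF ha0 ha0' ha ha'
  have hdet : (g : Matrix (Fin n) (Fin n) F).det ^ (q + 1) = 1 :=
    Cfsg.Agent.Lib.Helper18.herm_det_pow hF ((Cfsg.Agent.Lib.Helper18.mem_GU_iff hF g).1 hg)
  set δ := (g : Matrix (Fin n) (Fin n) F).det with hδ
  have hδ0 : δ ≠ 0 := by
    intro h
    rw [h, zero_pow (by omega)] at hdet
    exact zero_ne_one hdet
  obtain ⟨b, hb, hbb⟩ := exists_norm_perp (q := q) hF (fun _ : Fin 1 => a) (by omega) 1 (one_pow q)
  have hba : H b a = 0 := hb 0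
  have hab : H a b = 0 := herm_eq_zero_symm hF hba
  have hcond : (δ⁻¹ - 1) + (δ⁻¹ - 1) ^ q + (δ⁻¹ - 1) * (δ⁻¹ - 1) ^ q * H b b = 0 := by
    rw [hbb, sub_pow_q hF, one_pow, inv_pow]
    have : δ * δ ^ q = 1 := by rw [← hdet]; ring
    have hδq : δ ^ q ≠ 0 := pow_ne_zero _ hδ0
    field_simp
    linear_combination -this
  refine ⟨g * uref q b (δ⁻¹ - 1) _ hcond, mul_mem hg (uref_mem_GU hF _ _ hcond), ?_, ?_⟩
  · have : ((g * uref q b (δ⁻¹ - 1) _ hcond : GL (Fin n) F) : Matrix (Fin n) (Fin n) F)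
        = (g : Matrix (Fin n) (Fin n) F) * (uref q b (δ⁻¹ - 1) _ hcond : Matrix (Fin n) (Fin n) F) := rfl
    rw [this, Matrix.det_mul, uref_det, hbb, ← hδ]
    field_simp
    ring
  · rw [gl_mul_mulVec, uref_mulVec, hab, mul_zero, zero_smul, add_zero, hga]


/-- In the special unitary group SU_n(q) with n ≥ 3 (isometries of Σ u_i v_i^q of determinant one over the field with q² elements), any two transvections (elements t with t − 1 of rank one and square zero) are conjugate. -/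
theorem result {K : Type*} [Field K] [Fintype K] {q n : ℕ} (hK : Fintype.card K = q ^ 2) (hn : 3 ≤ n) (s t : ↥(Cfsg.SU n K q)) (hs : Cfsg.IsTransvection (((s : GL (Fin n) K) : Matrix (Fin n) (Fin n) K))) (ht : Cfsg.IsTransvection (((t : GL (Fin n) K) : Matrix (Fin n) (Fin n) K))) : IsConj s t := by
  have hsM : ∀ u v, Cfsg.hermForm n K q ((s.1 : Matrix (Fin n) (Fin n) K) *ᵥ u) ((s.1 : Matrix (Fin n) (Fin n) K) *ᵥ v) = Cfsg.hermForm n K q u v := s.2
  have htM : ∀ u v, Cfsg.hermForm n K q ((t.1 : Matrix (Fin n) (Fin n) K) *ᵥ u) ((t.1 : Matrix (Fin n) (Fin n) K) *ᵥ v) = Cfsg.hermForm n K q u v := t.2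
  obtain ⟨a, c, ha0, haa, hc0, hc, hsx⟩ := normal_form hK _ hsM hs
  obtain ⟨a', c', ha0', haa', hc0', hc', htx⟩ := normal_form hK _ htM ht
  have hfix : (c' / c) ^ q = c' / c := by
    have e1 : c ^ q = -c := by linear_combination hc
    have e2 : c' ^ q = -c' := by linear_combination hc'
    rw [div_pow, e1, e2, neg_div_neg_eq]
  obtain ⟨l, hl⟩ := exists_norm_eq hK (c' / c) hfix
  have hl0 : l ≠ 0 := by
    intro h
    rw [h, zero_mul] at hl
    exact (div_ne_zero hc0' hc0) hl.symm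
  have hla : Cfsg.hermForm n K q (l • a') (l • a') = 0 := by
    rw [hermForm_smul_left, hermForm_smul_right, haa']; ring
  obtain ⟨g, hg, hdet, hga⟩ := move_det hK hn ha0 (smul_ne_zero hl0 ha0') haa hla
  rw [isConj_iff]
  refine ⟨Cfsg.Agent.Lib.Helper18.mkSU (g : Matrix (Fin n) (Fin n) K) hdet hg, ?_⟩
  rw [mul_inv_eq_iff_eq_mul]
  apply Subtype.ext
  apply Subtype.ext
  show (g : Matrix (Fin n) (Fin n) K) * (s.1 : Matrix (Fin n) (Fin n) K)
    = (t.1 : Matrix (Fin n) (Fin n) K) * (g : Matrix (Fin n) (Fin n) K)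
  apply Matrix.toLin'.injective
  apply LinearMap.ext
  intro x
  simp only [Matrix.toLin'_apply, ← Matrix.mulVec_mulVec]
  rw [hsx, htx, Matrix.mulVec_add, Matrix.mulVec_smul, hga]
  have e : Cfsg.hermForm n K q ((g : Matrix (Fin n) (Fin n) K) *ᵥ x) a'
      = (l ^ q)⁻¹ * Cfsg.hermForm n K q x a := by
    have h1 : Cfsg.hermForm n K q ((g : Matrix (Fin n) (Fin n) K) *ᵥ x) ((g : Matrix (Fin n) (Fin n) K) *ᵥ a)
      = Cfsg.hermForm n K q x a := hg x a
    rw [hga, hermForm_smul_right] at h1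
    rw [← h1]
    have : l ^ q ≠ 0 := pow_ne_zero _ hl0
    field_simp
  rw [e, smul_smul]
  congr 2
  have : l ^ q ≠ 0 := pow_ne_zero _ hl0
  have h2 : c' = c * (l * l ^ q) := by rw [hl]; field_simp
  rw [h2]
  field_simp

end Cfsg.Agent.S2644
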