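import Cfsg.Statements.S1631
import Cfsg.Agent.S0780
import Cfsg.Agent.S2644

set_option autoImplicit false
open scoped MatrixGroups
open Cfsg

namespace Cfsg.Agent.S1631


open Matrix Module Cfsg.Agent.H6 Cfsg.Agent.Lib.Helper29 Cfsg.Agent.Lib.Helper15

variable {F : Type*} [Field F] [Fintype F] {n q : ℕ}

local notation "H" => Cfsg.hermForm n F q

/-- normal form of a unitary map `M` with `M - 1` of rank one -/
theorem normal_form1 (hF : Fintype.card F = q ^ 2) (M : Matrix (Fin n) (Fin n) F)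
    (hM : ∀ u v, H (M *ᵥ u) (M *ᵥ v) = H u v) (hr : (M - 1).rank = 1) :
    ∃ (a : Fin n → F) (c : F), a ≠ 0 ∧ c ≠ 0 ∧ c + c ^ q + c * c ^ q * H a a = 0 ∧
      ∀ x, M *ᵥ x = x + (c * H x a) • a := by
  have hq : q ≠ 0 := by have := q_pos hF; omega
  rw [Matrix.rank] at hr
  obtain ⟨⟨a, ha⟩, ha0, hspan⟩ := finrank_eq_one_iff'.1 hr
  have ha0' : a ≠ 0 := fun h => ha0 (Subtype.ext h)
  have hφ : ∀ x, ∃ r : F, (M - 1) *ᵥ x = r • a := by
    intro x
    obtain ⟨r, hr⟩ := hspan ⟨(M - 1) *ᵥ x, ⟨x, rfl⟩⟩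
    exact ⟨r, (congrArg Subtype.val hr).symm⟩
  choose φ hφ using hφ
  have hMx : ∀ x, M *ᵥ x = x + φ x • a := by
    intro x
    have := hφ x
    rw [Matrix.sub_mulVec, Matrix.one_mulVec] at this
    rw [← this]; abel
  obtain ⟨x₀, hx₀⟩ := ha
  have hx₀' : φ x₀ ≠ 0 := by
    intro h
    apply ha0'
    have : (M - 1) *ᵥ x₀ = a := hx₀
    rw [← this, hφ, h, zero_smul]
  have key : ∀ x y, φ x * H a y + (φ y) ^ q * H x a + φ x * (φ y) ^ q * H a a = 0 := by
    intro x y
    have := hM x y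
    rw [hMx x, hMx y] at this
    simp only [hermForm_add_left, hermForm_add_right hF, hermForm_smul_left,
      hermForm_smul_right] at this
    linear_combination this
  set K := H a x₀ + (φ x₀) ^ q * H a a with hK
  have hφq : (φ x₀) ^ q ≠ 0 := pow_ne_zero _ hx₀'
  have hK0 : K ≠ 0 := by
    intro h0
    obtain ⟨y₀, hy₀⟩ := exists_herm_ne_zero (q := q) hF ha0'
    apply hy₀
    have := key y₀ x₀
    have h2 : (φ x₀) ^ q * H y₀ a = 0 := by
      have e : φ y₀ * H a x₀ + (φ x₀) ^ q * H y₀ a + φ y₀ * (φ x₀) ^ q * H a a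
          = (φ x₀) ^ q * H y₀ a + φ y₀ * K := by rw [hK]; ring
      rw [e, h0, mul_zero, add_zero] at this
      exact this
    exact (mul_eq_zero.1 h2).resolve_left hφq
  have hφx : ∀ x, φ x = (-(φ x₀) ^ q / K) * H x a := by
    intro x
    have := key x x₀
    have e : φ x * K = -(φ x₀) ^ q * H x a := by rw [hK]; linear_combination this
    field_simp
    linear_combination e
  set c := -(φ x₀) ^ q / K with hc
  have hc0 : c ≠ 0 := by
    intro h
    apply hx₀'
    rw [hφx, h, zero_mul]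
  refine ⟨a, c, ha0', hc0, ?_, fun x => by rw [hMx, hφx]⟩
  obtain ⟨y₀, hy₀⟩ := exists_herm_ne_zero (q := q) hF ha0'
  have hy₀' : H a y₀ ≠ 0 := herm_ne_zero_symm hF hy₀
  have := key y₀ y₀
  rw [hφx y₀, mul_pow, hermForm_conj hF] at this
  have h3 : (c + c ^ q + c * c ^ q * H a a) * (H y₀ a * H a y₀) = 0 := by linear_combination this
  exact (mul_eq_zero.1 h3).resolve_right (mul_ne_zero hy₀ hy₀')

/-- with determinant one the centre is isotropic -/
theorem normal_form2 (hF : Fintype.card F = q ^ 2) (M : Matrix (Fin n) (Fin n) F)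
    (hM : ∀ u v, H (M *ᵥ u) (M *ᵥ v) = H u v) (hr : (M - 1).rank = 1) (hdet : M.det = 1) :
    ∃ (a : Fin n → F) (c : F), a ≠ 0 ∧ c ≠ 0 ∧ H a a = 0 ∧ c + c ^ q = 0 ∧
      ∀ x, M *ᵥ x = x + (c * H x a) • a := by
  obtain ⟨a, c, ha0, hc0, hc, hx⟩ := normal_form1 hF M hM hr
  have e : M = (uref q a c (c ^ q) hc : Matrix (Fin n) (Fin n) F) := by
    apply Matrix.toLin'.injective
    apply LinearMap.ext
    intro x
    rw [Matrix.toLin'_apply, Matrix.toLin'_apply, hx, uref_mulVec]
  have hd := uref_det a c (c ^ q) hc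
  rw [← e, hdet] at hd
  have haa : H a a = 0 := by
    have : c * H a a = 0 := by linear_combination -hd
    exact (mul_eq_zero.1 this).resolve_left hc0
  refine ⟨a, c, ha0, hc0, haa, ?_, hx⟩
  rw [haa, mul_zero, add_zero] at hc
  exact hc

theorem rank_of_form (hF : Fintype.card F = q ^ 2) (M : Matrix (Fin n) (Fin n) F) {a : Fin n → F} {c : F}
    (ha0 : a ≠ 0) (hc0 : c ≠ 0) (hx : ∀ x, M *ᵥ x = x + (c * H x a) • a) : (M - 1).rank = 1 := by
  rw [Matrix.rank]
  have : LinearMap.range (M - 1).mulVecLin = Submodule.span F {a} := by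
    apply le_antisymm
    · rintro _ ⟨x, rfl⟩
      rw [Matrix.mulVecLin_apply, Matrix.sub_mulVec, Matrix.one_mulVec, hx, add_sub_cancel_left]
      exact Submodule.smul_mem _ _ (Submodule.mem_span_singleton_self a)
    · rw [Submodule.span_singleton_le_iff_mem]
      obtain ⟨y₀, hy₀⟩ := exists_herm_ne_zero (q := q) hF ha0
      refine ⟨(c * H y₀ a)⁻¹ • y₀, ?_⟩
      rw [Matrix.mulVecLin_apply, Matrix.mulVec_smul, Matrix.sub_mulVec, Matrix.one_mulVec, hx,
        add_sub_cancel_left, smul_smul, inv_mul_cancel₀ (mul_ne_zero hc0 hy₀), one_smul]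
  rw [this, finrank_span_singleton ha0]

theorem sq_zero_of_form (M : Matrix (Fin n) (Fin n) F) {a : Fin n → F} {c : F}
    (haa : H a a = 0) (hx : ∀ x, M *ᵥ x = x + (c * H x a) • a) : (M - 1) * (M - 1) = 0 := by
  apply Matrix.toLin'.injective
  apply LinearMap.ext
  intro x
  have h1 : ∀ y, (M - 1) *ᵥ y = (c * H y a) • a := by
    intro y
    rw [Matrix.sub_mulVec, Matrix.one_mulVec, hx, add_sub_cancel_left]
  rw [Matrix.toLin'_apply, ← Matrix.mulVec_mulVec, h1, h1, hermForm_smul_left, haa]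
  simp


/-- The unitary transvections of SU(n, 2), n ≥ 4, form a generating conjugacy class of 3-transpositions. -/
theorem result (F : Type) [Field F] [Fintype F] [DecidableEq F] (hF : Fintype.card F = 4) (n : ℕ) (hn : 4 ≤ n) : Cfsg.IsThreeTranspositionClass {g : ↥(Cfsg.SU n F 2) | (((g : Matrix.SpecialLinearGroup (Fin n) F) : Matrix (Fin n) (Fin n) F) - 1).rank = 1} := by
  have hF' : Fintype.card F = 2 ^ 2 := by rw [hF]; norm_num
  have h2 : (2 : F) = 0 := by
    have := add_pow_q hF' (1 : F) 1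
    linear_combination this
  have hnf : ∀ d : ↥(Cfsg.SU n F 2), ((d.1 : Matrix (Fin n) (Fin n) F) - 1).rank = 1 →
      ∃ a : Fin n → F, a ≠ 0 ∧ Cfsg.hermForm n F 2 a a = 0 ∧
        ∀ x, (d.1 : Matrix (Fin n) (Fin n) F) *ᵥ x = x + Cfsg.hermForm n F 2 x a • a := by
    intro d hd
    obtain ⟨a, c, ha0, hc0, haa, hc, hx⟩ := normal_form2 hF' (d.1 : Matrix (Fin n) (Fin n) F) d.2 hd d.1.2
    have hc1 : c = 1 := by
      have : c * (c - 1) = 0 := by linear_combination hc - c * h2
      exact sub_eq_zero.1 ((mul_eq_zero.1 this).resolve_left hc0)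
    refine ⟨a, ha0, haa, fun x => ?_⟩
    rw [hx, hc1, one_mul]
  have hext : ∀ (A B : ↥(Cfsg.SU n F 2)), (∀ x, (A.1 : Matrix (Fin n) (Fin n) F) *ᵥ x = (B.1 : Matrix (Fin n) (Fin n) F) *ᵥ x) → A = B := by
    intro A B h
    apply Subtype.ext
    apply Subtype.ext
    apply Matrix.toLin'.injective
    apply LinearMap.ext
    intro x
    rw [Matrix.toLin'_apply, Matrix.toLin'_apply, h]
  have hmul : ∀ (A B : ↥(Cfsg.SU n F 2)) x, ((A * B).1 : Matrix (Fin n) (Fin n) F) *ᵥ x
      = (A.1 : Matrix (Fin n) (Fin n) F) *ᵥ ((B.1 : Matrix (Fin n) (Fin n) F) *ᵥ x) := by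
    intro A B x
    rw [Matrix.mulVec_mulVec]
    rfl
  have hone : ∀ x, ((1 : ↥(Cfsg.SU n F 2)).1 : Matrix (Fin n) (Fin n) F) *ᵥ x = x := by
    intro x
    exact Matrix.one_mulVec x
  refine ⟨⟨?_, ?_⟩, ?_, ?_⟩
  · intro d hd
    obtain ⟨a, ha0, haa, hx⟩ := hnf d hd
    apply orderOf_eq_prime
    · rw [sq]
      apply hext
      intro x
      rw [hmul, hone, hx, hx, hermForm_add_left, hermForm_smul_left, haa]
      linear_combination (norm := module) (Cfsg.hermForm n F 2 x a * h2) • a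
    · rintro rfl
      have hd' : (((1 : ↥(Cfsg.SU n F 2)).1 : Matrix (Fin n) (Fin n) F) - 1).rank = 1 := hd
      have : ((1 : ↥(Cfsg.SU n F 2)).1 : Matrix (Fin n) (Fin n) F) = 1 := rfl
      rw [this, sub_self, Matrix.rank_zero] at hd'
      exact zero_ne_one hd'
  · intro d hd e he
    obtain ⟨a, ha0, haa, hdx⟩ := hnf d hd
    obtain ⟨b, hb0, hbb, hex⟩ := hnf e he
    have hP : ∀ x, ((d * e).1 : Matrix (Fin n) (Fin n) F) *ᵥ x
        = x + (Cfsg.hermForm n F 2 x a + Cfsg.hermForm n F 2 x b * Cfsg.hermForm n F 2 b a) • a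
          + Cfsg.hermForm n F 2 x b • b := by
      intro x
      rw [hmul, hex, hdx, hermForm_add_left, hermForm_smul_left]
      module
    have hX : ∀ x, Cfsg.hermForm n F 2 (((d * e).1 : Matrix (Fin n) (Fin n) F) *ᵥ x) a
        = Cfsg.hermForm n F 2 x a + Cfsg.hermForm n F 2 x b * Cfsg.hermForm n F 2 b a := by
      intro x
      rw [hP, hermForm_add_left, hermForm_add_left, hermForm_smul_left, hermForm_smul_left, haa]
      ring
    by_cases hab : Cfsg.hermForm n F 2 a b = 0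
    · left
      have hba : Cfsg.hermForm n F 2 b a = 0 := herm_eq_zero_symm hF' hab
      rw [sq]
      apply hext
      intro x
      rw [hmul (d * e) (d * e), hone, hP (_ *ᵥ x), hX]
      rw [hP x]
      simp only [hermForm_add_left, hermForm_smul_left, hab, hba, hbb]
      linear_combination (norm := module) (Cfsg.hermForm n F 2 x a * h2) • a
        + (Cfsg.hermForm n F 2 x b * h2) • b
    · right
      have hba : Cfsg.hermForm n F 2 b a = (Cfsg.hermForm n F 2 a b) ^ 2 := (hermForm_conj hF' a b).symm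
      have hh : Cfsg.hermForm n F 2 a b * Cfsg.hermForm n F 2 b a = 1 := by
        have := FiniteField.pow_card_sub_one_eq_one _ hab
        rw [hF] at this
        rw [hba, ← this]
        ring
      have hY : ∀ x, Cfsg.hermForm n F 2 (((d * e).1 : Matrix (Fin n) (Fin n) F) *ᵥ x) b
          = Cfsg.hermForm n F 2 x a * Cfsg.hermForm n F 2 a b := by
        intro x
        rw [hP, hermForm_add_left, hermForm_add_left, hermForm_smul_left, hermForm_smul_left, hbb]
        linear_combination Cfsg.hermForm n F 2 x b * hh + Cfsg.hermForm n F 2 x b * h2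
      have hP2 : ∀ x, ((d * e).1 : Matrix (Fin n) (Fin n) F) *ᵥ (((d * e).1 : Matrix (Fin n) (Fin n) F) *ᵥ x)
          = x + Cfsg.hermForm n F 2 x a • a
            + (Cfsg.hermForm n F 2 x b + Cfsg.hermForm n F 2 x a * Cfsg.hermForm n F 2 a b) • b := by
        intro x
        rw [hP (_ *ᵥ x), hX, hY, hP x]
        linear_combination (norm := module) (Cfsg.hermForm n F 2 x a * hh
          + (Cfsg.hermForm n F 2 x a + Cfsg.hermForm n F 2 x b * Cfsg.hermForm n F 2 b a) * h2) • a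
      have e3 : (d * e) ^ 3 = (d * e) * ((d * e) * (d * e)) := by rw [pow_succ, sq, mul_assoc]
      rw [e3]
      apply hext
      intro x
      rw [hmul (d * e) ((d * e) * (d * e)), hmul (d * e) (d * e), hone, hP2 (_ *ᵥ x), hX, hY, hP x]
      linear_combination (norm := module)
        ((Cfsg.hermForm n F 2 x a + Cfsg.hermForm n F 2 x b * Cfsg.hermForm n F 2 b a) * h2) • a
        + (Cfsg.hermForm n F 2 x b * hh
          + (Cfsg.hermForm n F 2 x b + Cfsg.hermForm n F 2 x a * Cfsg.hermForm n F 2 a b) * h2) • b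
  · obtain ⟨a, ha0, -, haa⟩ := exists_isotropic_perp (q := 2) hF' (Fin.elim0 : Fin 0 → (Fin n → F)) (by omega)
    have hc : (1 : F) + 1 ^ 2 = 0 := by linear_combination h2
    have hm := utv_mem_SU hF' a 1 haa hc
    set d₀ : ↥(Cfsg.SU n F 2) := Cfsg.Agent.Lib.Helper18.mkSU (utv 2 a 1 haa : Matrix (Fin n) (Fin n) F)
      ((mem_specialLinear_iff _).1 hm.2) hm.1 with hd₀
    have hd₀x : ∀ x, (d₀.1 : Matrix (Fin n) (Fin n) F) *ᵥ x = x + (1 * Cfsg.hermForm n F 2 x a) • a :=
      fun x => utv_mulVec a 1 haa x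
    have hd₀r : ((d₀.1 : Matrix (Fin n) (Fin n) F) - 1).rank = 1 :=
      rank_of_form hF' _ ha0 one_ne_zero hd₀x
    refine ⟨d₀, hd₀r, ?_⟩
    ext t
    show _ ↔ IsConj d₀ t
    constructor
    · intro ht
      have ht' : ((t.1 : Matrix (Fin n) (Fin n) F) - 1).rank = 1 := ht
      obtain ⟨b, hb0, hbb, htx⟩ := hnf t ht'
      exact Cfsg.Agent.S2644.result hF' (by omega) d₀ t ⟨hd₀r, sq_zero_of_form _ haa hd₀x⟩
        ⟨ht', sq_zero_of_form (c := 1) (t.1 : Matrix (Fin n) (Fin n) F) hbb (fun x => by rw [htx, one_mul])⟩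
    · intro h
      obtain ⟨g, hg⟩ := isConj_iff.1 h
      rw [mul_inv_eq_iff_eq_mul] at hg
      have hg' : (g.1 : Matrix (Fin n) (Fin n) F) * (d₀.1 : Matrix (Fin n) (Fin n) F)
          = (t.1 : Matrix (Fin n) (Fin n) F) * (g.1 : Matrix (Fin n) (Fin n) F) :=
        congrArg (fun A : ↥(Cfsg.SU n F 2) => (A.1 : Matrix (Fin n) (Fin n) F)) hg
      have hu : IsUnit (g.1 : Matrix (Fin n) (Fin n) F).det := by rw [g.1.2]; exact isUnit_one
      show ((t.1 : Matrix (Fin n) (Fin n) F) - 1).rank = 1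
      rw [← Matrix.rank_mul_eq_left_of_isUnit_det _ _ hu, Matrix.sub_mul, ← hg', Matrix.one_mul]
      have : (g.1 : Matrix (Fin n) (Fin n) F) * (d₀.1 : Matrix (Fin n) (Fin n) F) - (g.1 : Matrix (Fin n) (Fin n) F)
          = (g.1 : Matrix (Fin n) (Fin n) F) * ((d₀.1 : Matrix (Fin n) (Fin n) F) - 1) := by
        rw [Matrix.mul_sub, Matrix.mul_one]
      rw [this, Matrix.rank_mul_eq_right_of_isUnit_det _ _ hu, hd₀r]
  · have h := Cfsg.Agent.S0780.closure_eq_top_of_utv (su_le_utvGroup' hF' (by omega) (by omega)) hF'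
      (S := (Subgroup.closure {g : ↥(Cfsg.SU n F 2) | (((g : Matrix.SpecialLinearGroup (Fin n) F) : Matrix (Fin n) (Fin n) F) - 1).rank = 1} : Set ↥(Cfsg.SU n F 2))) ?_
    · rwa [Subgroup.closure_eq] at h
    · intro A v c hv hc hx
      by_cases h0 : v = 0 ∨ c = 0
      · have : A = 1 := by
          apply hext
          intro x
          rw [hx, hone]
          rcases h0 with h0 | h0 <;> simp [h0]
        rw [this]
        exact Subgroup.one_mem _
      · push Not at h0
        exact Subgroup.subset_closure (rank_of_form hF' _ h0.1 h0.2 hx)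

end Cfsg.Agent.S1631
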