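import Cfsg.Statements.S1635
import Mathlib
-- import your own Cfsg.Agent.* helpers here
import Cfsg.Agent.H5.Golay24
import Cfsg.Agent.S0358
import Cfsg.Agent.S0359

set_option autoImplicit false
open Cfsg

namespace Cfsg.Agent.S1635



/-- Coset leaders of the length-24 code: a coset contains a unique word of weight ≤ 3, or else exactly six words of weight 4 and none lighter. -/
theorem result (w : Cfsg.GolayPt → ZMod 2) : ({v : Cfsg.GolayPt → ZMod 2 | hammingNorm v ≤ 4 ∧ w - v ∈ Cfsg.golayCode}.ncard = 1 ∧ ∃ v : Cfsg.GolayPt → ZMod 2, hammingNorm v ≤ 3 ∧ w - v ∈ Cfsg.golayCode) ∨ ({v : Cfsg.GolayPt → ZMod 2 | hammingNorm v ≤ 4 ∧ w - v ∈ Cfsg.golayCode}.ncard = 6 ∧ ∀ v : Cfsg.GolayPt → ZMod 2, w - v ∈ Cfsg.golayCode → hammingNorm v ≤ 4 → hammingNorm v = 4) := by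
  have hcard : Nat.card Cfsg.golayCode = 4096 := by
    rw [Module.natCard_eq_pow_finrank (K := ZMod 2), Cfsg.Agent.S0358.result, Nat.card_zmod]; norm_num
  have hmin : ∀ w ∈ Cfsg.golayCode, w ≠ 0 → 8 ≤ hammingNorm w := by
    intro w hw hw0
    rcases Cfsg.Agent.S0359.result w hw with h | h | h | h | h
    · exact absurd (hammingNorm_eq_zero.mp h) hw0
    all_goals omega
  have hiff : ∀ v : Cfsg.GolayPt → ZMod 2, w - v ∈ Cfsg.golayCode ↔ v - w ∈ Cfsg.golayCode := by
    intro v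
    rw [← neg_sub, Submodule.neg_mem_iff]
  have hset : {v : Cfsg.GolayPt → ZMod 2 | hammingNorm v ≤ 4 ∧ w - v ∈ Cfsg.golayCode}
      = ↑(Cfsg.Agent.H5Golay24.T Cfsg.golayCode w) := by
    ext u
    simp [Cfsg.Agent.H5Golay24.mem_T, hiff, and_comm]
  rw [hset, Set.ncard_coe_finset]
  rcases Cfsg.Agent.H5Golay24.coset_leaders (by simp [Fintype.card_option, ZMod.card]) Cfsg.golayCode hcard hmin w
    with ⟨u, hu, h3⟩ | ⟨h6, h⟩
  · left
    refine ⟨by rw [hu, Finset.card_singleton], u, h3, ?_⟩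
    have : u ∈ Cfsg.Agent.H5Golay24.T Cfsg.golayCode w := by rw [hu]; exact Finset.mem_singleton_self u
    exact (hiff u).mpr ((Cfsg.Agent.H5Golay24.mem_T Cfsg.golayCode w u).mp this).1
  · right
    refine ⟨h6, ?_⟩
    intro v hv h4
    have hv' : v ∈ Cfsg.Agent.H5Golay24.T Cfsg.golayCode w :=
      by
        rw [Cfsg.Agent.H5Golay24.mem_T]
        constructor
        · exact (hiff v).mp hv
        · convert h4
    exact (h v hv').1

end Cfsg.Agent.S1635
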