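import Cfsg.Statements.S1637
import Mathlib
-- import your own Cfsg.Agent.* helpers here
import Cfsg.Agent.H5.Golay24
import Cfsg.Agent.S0358
import Cfsg.Agent.S0359

set_option autoImplicit false
open Cfsg

namespace Cfsg.Agent.S1637


theorem norm_option (z : Cfsg.GolayPt → ZMod 2) :
    hammingNorm z = (if z none ≠ 0 then 1 else 0) + hammingNorm (fun x : ZMod 23 => z (some x)) := by
  unfold hammingNorm
  rw [Finset.card_filter, Finset.card_filter, Fintype.sum_option]

theorem dist_eq (x y : ZMod 23 → ZMod 2) : hammingDist x y = hammingNorm (x - y) := by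
  simp [hammingDist, hammingNorm, sub_ne_zero]


/-- The punctured length-23 code is a perfect 3-error-correcting code: each word of length 23 is within distance 3 of exactly one codeword. -/
theorem result (u : ZMod 23 → ZMod 2) : ∃! c : ZMod 23 → ZMod 2, c ∈ {u : ZMod 23 → ZMod 2 | ∃ w ∈ Cfsg.golayCode, ∀ x : ZMod 23, u x = w (some x)} ∧ hammingDist u c ≤ 3 := by
  have hcard : Nat.card Cfsg.golayCode = 4096 := by
    rw [Module.natCard_eq_pow_finrank (K := ZMod 2), Cfsg.Agent.S0358.result, Nat.card_zmod]; norm_num
  have hmin : ∀ w ∈ Cfsg.golayCode, w ≠ 0 → 8 ≤ hammingNorm w := by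
    intro w hw hw0
    rcases Cfsg.Agent.S0359.result w hw with h | h | h | h | h
    · exact absurd (hammingNorm_eq_zero.mp h) hw0
    all_goals omega
  have h24 : Fintype.card Cfsg.GolayPt = 24 := by simp [Fintype.card_option, ZMod.card]
  -- existence of a good coset representative
  set W : Cfsg.GolayPt → ZMod 2 := fun p => match p with
    | none => 0
    | some x => u x with hW
  have hex : ∃ v : Cfsg.GolayPt → ZMod 2, v - W ∈ Cfsg.golayCode ∧
      hammingNorm (fun x : ZMod 23 => v (some x)) ≤ 3 := by
    rcases Cfsg.Agent.H5Golay24.coset_leaders h24 Cfsg.golayCode hcard hmin W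
      with ⟨v, hv, h3⟩ | ⟨h6, h⟩
    · have hvT : v ∈ Cfsg.Agent.H5Golay24.T Cfsg.golayCode W := by
        rw [hv]; exact Finset.mem_singleton_self v
      refine ⟨v, ((Cfsg.Agent.H5Golay24.mem_T Cfsg.golayCode W v).mp hvT).1, ?_⟩
      have := norm_option v
      have h3' : hammingNorm v ≤ 3 := by convert h3
      omega
    · have hU : ((Cfsg.Agent.H5Golay24.T Cfsg.golayCode W).biUnion Cfsg.Agent.H5Golay24.S).card
          = ∑ v ∈ Cfsg.Agent.H5Golay24.T Cfsg.golayCode W, (Cfsg.Agent.H5Golay24.S v).card := by
        apply Finset.card_biUnion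
        intro x hx y hy hxy
        exact (h x hx).2 y hy hxy
      have hU2 : ∑ v ∈ Cfsg.Agent.H5Golay24.T Cfsg.golayCode W, (Cfsg.Agent.H5Golay24.S v).card
          = 6 * 4 := by
        rw [← h6]
        apply Finset.sum_const_nat
        intro v hv
        rw [Cfsg.Agent.H5Golay24.card_S]
        exact (h v hv).1
      have hU3 : (Cfsg.Agent.H5Golay24.T Cfsg.golayCode W).biUnion Cfsg.Agent.H5Golay24.S
          = Finset.univ := by
        apply Finset.eq_univ_of_card
        rw [hU, hU2, h24]
      have hnone : (none : Cfsg.GolayPt) ∈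
          (Cfsg.Agent.H5Golay24.T Cfsg.golayCode W).biUnion Cfsg.Agent.H5Golay24.S := by
        rw [hU3]; exact Finset.mem_univ _
      obtain ⟨v, hvT, hvn⟩ := Finset.mem_biUnion.mp hnone
      refine ⟨v, ((Cfsg.Agent.H5Golay24.mem_T Cfsg.golayCode W v).mp hvT).1, ?_⟩
      have hn : v none ≠ 0 := by
        simpa [Cfsg.Agent.H5Golay24.S] using hvn
      have := norm_option v
      rw [if_pos hn] at this
      have h4 : hammingNorm v = 4 := by convert (h v hvT).1
      omega
  obtain ⟨v, hvC, hv3⟩ := hex
  refine ⟨fun x => (W - v) (some x), ⟨⟨W - v, ?_, fun x => rfl⟩, ?_⟩, ?_⟩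
  · rw [← neg_sub, Submodule.neg_mem_iff]; exact hvC
  · rw [dist_eq]
    have : (u - fun x => (W - v) (some x)) = fun x : ZMod 23 => v (some x) := by
      funext x
      simp [hW]
    rw [this]; exact hv3
  · rintro c ⟨⟨cw, hcw, hc⟩, hd⟩
    have hd' : hammingDist u (fun x => (W - v) (some x)) ≤ 3 := by
      rw [dist_eq]
      have : (u - fun x => (W - v) (some x)) = fun x : ZMod 23 => v (some x) := by
        funext x
        simp [hW]
      rw [this]; exact hv3
    have h6 : hammingDist c (fun x => (W - v) (some x)) ≤ 6 := by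
      have := hammingDist_triangle c u (fun x => (W - v) (some x))
      rw [hammingDist_comm c u] at this
      omega
    have hmem : cw - (W - v) ∈ Cfsg.golayCode := by
      apply Submodule.sub_mem _ hcw
      rw [← neg_sub, Submodule.neg_mem_iff]; exact hvC
    have hz : cw - (W - v) = 0 := by
      by_contra hne
      have h8 := hmin _ hmem hne
      have h9 := norm_option (cw - (W - v))
      have h10 : hammingNorm (fun x : ZMod 23 => (cw - (W - v)) (some x)) ≤ 6 := by
        rw [dist_eq] at h6
        have : (c - fun x => (W - v) (some x)) = fun x : ZMod 23 => (cw - (W - v)) (some x) := by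
          funext x
          simp [hc x]
        rw [this] at h6; exact h6
      split_ifs at h9 <;> omega
    funext x
    rw [hc x, sub_eq_zero.mp hz]

end Cfsg.Agent.S1637
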