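import Cfsg.Statements.S1640
import Cfsg.Agent.Lib.Helper28.LeechCensus3

set_option autoImplicit false
open Cfsg

namespace Cfsg.Agent.S1640

/-- The stabiliser of a vector of customary norm 6 is transitive on the 11178 minimal vectors of customary inner product −2 with it. -/
theorem result (u : ↥Cfsg.leechLattice) (hu : Cfsg.sqNorm (u : Cfsg.GolayPt → ℤ) = 48) : {x : ↥Cfsg.leechLattice | Cfsg.sqNorm (x : Cfsg.GolayPt → ℤ) = 32 ∧ Cfsg.dotInt (u : Cfsg.GolayPt → ℤ) (x : Cfsg.GolayPt → ℤ) = -16}.ncard = 11178 ∧ ∀ x ∈ {x : ↥Cfsg.leechLattice | Cfsg.sqNorm (x : Cfsg.GolayPt → ℤ) = 32 ∧ Cfsg.dotInt (u : Cfsg.GolayPt → ℤ) (x : Cfsg.GolayPt → ℤ) = -16}, ∀ x' ∈ {x : ↥Cfsg.leechLattice | Cfsg.sqNorm (x : Cfsg.GolayPt → ℤ) = 32 ∧ Cfsg.dotInt (u : Cfsg.GolayPt → ℤ) (x : Cfsg.GolayPt → ℤ) = -16}, ∃ g : ↥Cfsg.Co0, g • u = u ∧ g • x = x' := by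
  refine ⟨Cfsg.Agent.Lib.Helper28.census48_16 u hu, ?_⟩
  rintro x ⟨hx1, hx2⟩ x' ⟨hx1', hx2'⟩
  obtain ⟨g, hg1, hg2⟩ := Cfsg.Agent.Lib.Helper28.co0_trans32_16 (-x) (-x') u u
    (by rw [AddSubgroup.coe_neg, Cfsg.Agent.Lib.Helper28.sqNorm_neg]; exact hx1)
    (by rw [AddSubgroup.coe_neg, Cfsg.Agent.Lib.Helper28.sqNorm_neg]; exact hx1') hu hu
    (by rw [AddSubgroup.coe_neg, Cfsg.Agent.Lib.Helper28.dotInt_neg_left,
          Cfsg.Agent.Lib.Helper28.dotInt_comm', hx2]; rfl)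
    (by rw [AddSubgroup.coe_neg, Cfsg.Agent.Lib.Helper28.dotInt_neg_left,
          Cfsg.Agent.Lib.Helper28.dotInt_comm', hx2']; rfl)
  refine ⟨g, hg2, ?_⟩
  rw [Cfsg.Agent.Lib.Helper28.co0_neg] at hg1
  exact neg_injective hg1

end Cfsg.Agent.S1640
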