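import Cfsg.Statements.S1666
import Cfsg.Agent.Lib.Helper28.RankHS2
import Cfsg.Agent.Lib.Helper28.RankHS3

set_option autoImplicit false
open Cfsg

namespace Cfsg.Agent.S1666

/-- Recognition of the Higman–Sims group as a rank 3 permutation group: a transitive permutation group on 100 points in which the stabiliser of a point is isomorphic to the Mathieu group M₂₂ and has two further orbits, of sizes 22 and 77, is isomorphic to the Higman–Sims group. -/
theorem result {Ω : Type*} [Fintype Ω] [DecidableEq Ω] (hΩ : Fintype.card Ω = 100) (G : Subgroup (Equiv.Perm Ω)) [MulAction.IsPretransitive G Ω] (a : Ω)  (e : MulAction.stabilizer G a ≃* Cfsg.Spor.M22) (b c : Ω) (hb : (MulAction.orbit (MulAction.stabilizer G a) b).ncard = 22) (hc : (MulAction.orbit (MulAction.stabilizer G a) c).ncard = 77) : Cfsg.Spor.IsoHS G := by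
  classical
  have horb : ∀ z : Ω, (Finset.univ.filter (fun y => ∃ g ∈ G, g a = a ∧ g z = y)).card
      = (MulAction.orbit (MulAction.stabilizer G a) z).ncard := by
    intro z
    rw [← Set.ncard_coe_finset]
    congr 1
    ext y
    simp only [Finset.coe_filter, Finset.mem_univ, true_and, Set.mem_ofPred_eq]
    constructor
    · rintro ⟨g, hg, g1, g2⟩
      exact ⟨⟨⟨g, hg⟩, g1⟩, g2⟩
    · rintro ⟨g, hg⟩
      exact ⟨g.1.1, g.1.2, g.2, hg⟩
  have hcard : Nat.card G = 44352000 := by
    have h1 := Subgroup.card_mul_index (MulAction.stabilizer G a)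
    rw [MulAction.index_stabilizer, MulAction.orbit_eq_univ, Set.ncard_univ,
      Nat.card_eq_fintype_card (α := Ω), hΩ, Nat.card_congr e.toEquiv,
      Cfsg.Agent.Lib.Helper28.card_M22] at h1
    omega
  have S : Cfsg.Agent.Lib.Helper28.RankHS.Setup G a b c :=
    { card := hΩ
      trans := fun x y => by
        obtain ⟨g, hg⟩ := MulAction.exists_smul_eq G x y
        exact ⟨g.1, g.2, hg⟩
      hb := by
        rw [← hb, ← horb b]
        congr
      hc := by
        rw [← hc, ← horb c]
        congr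
      two := by
        rintro y y' ⟨g, hg, g1, rfl⟩ ⟨g', hg', g1', rfl⟩ hy hy'
        obtain ⟨k, k1, k2⟩ := Cfsg.Agent.Lib.Helper28.RankHS.two_trans e b hb
          ⟨⟨g, hg⟩, g1⟩ ⟨⟨g', hg'⟩, g1'⟩ hy hy'
        exact ⟨k.1.1, k.1.2, k.2, k1, k2⟩ }
  exact Cfsg.Agent.Lib.Helper28.RankHS.iso_HS S hcard

end Cfsg.Agent.S1666
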