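import Cfsg.Statements.S1680
import Cfsg.Agent.Lib.Helper11.Suz1782Enc
import Cfsg.Agent.Lib.Helper11.Suz1782Cert
import Cfsg.Agent.Lib.Helper11.Suz1782Perm

set_option autoImplicit false
open Cfsg

namespace Cfsg.Agent.S1680

open Cfsg.Agent.Lib.Helper11 Cfsg.Agent.Lib.Helper11.TC

set_option maxRecDepth 100000

theorem admAll : Suz1782.adm.all (admCheck (fun l => l) (Suz1782.coxW ++ Suz1782.extraW) Suz1782.subs) = true := by
  decide +kernel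

theorem hS : (PresentedGroup.mk (Cfsg.Spor.coxRelators Cfsg.Spor.Suz.edges ∪ {r | r ∈ Cfsg.Spor.Suz.extra})) ''
      ({Cfsg.Spor.Suz.a, Cfsg.Spor.Suz.b, Cfsg.Spor.Suz.c, Cfsg.Spor.Suz.d, Cfsg.Spor.Suz.e, Cfsg.Spor.Suz.f} : Set (FreeGroup Cfsg.Spor.Suz.Gen)) =
      {g | ∃ s ∈ Suz1782.subs, g = ev (Cox.genOf Suz1782.dec (PresentedGroup.of : Cfsg.Spor.Suz.Gen → Cfsg.Spor.CoxPresented Cfsg.Spor.Suz.Gen Cfsg.Spor.Suz.edges Cfsg.Spor.Suz.extra)) s} := by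
  ext g
  simp only [Set.image_insert_eq, Set.image_singleton, Set.mem_insert_iff, Set.mem_singleton_iff,
    Set.mem_setOf_eq, Suz1782.subs, List.mem_cons, List.mem_nil_iff, or_false, exists_eq_or_imp,
    exists_eq_left, ev, Cox.genOf, Suz1782.dec, List.map_cons, List.map_nil, List.prod_cons,
    List.prod_nil, mul_one, PresentedGroup.of, map_pow, map_mul, pow_succ, pow_zero, one_mul, mul_assoc]

/-- In the presented sporadic Suzuki group, let H be the subgroup generated by the images of a, …, f. Then H has index 1782, H has orbits of sizes 416 and 1365 on the cosets of H other than H itself (with the index 1782 this makes the action rank 3). -/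
theorem result : (((Subgroup.closure ({Cfsg.Spor.Suz.a, Cfsg.Spor.Suz.b, Cfsg.Spor.Suz.c, Cfsg.Spor.Suz.d, Cfsg.Spor.Suz.e, Cfsg.Spor.Suz.f} : Set (FreeGroup Cfsg.Spor.Suz.Gen))).map (PresentedGroup.mk (Cfsg.Spor.coxRelators Cfsg.Spor.Suz.edges ∪ {r | r ∈ Cfsg.Spor.Suz.extra})))).index = 1782 ∧ ∃ q₁ q₂ : Cfsg.Spor.Suz ⧸ (((Subgroup.closure ({Cfsg.Spor.Suz.a, Cfsg.Spor.Suz.b, Cfsg.Spor.Suz.c, Cfsg.Spor.Suz.d, Cfsg.Spor.Suz.e, Cfsg.Spor.Suz.f} : Set (FreeGroup Cfsg.Spor.Suz.Gen))).map (PresentedGroup.mk (Cfsg.Spor.coxRelators Cfsg.Spor.Suz.edges ∪ {r | r ∈ Cfsg.Spor.Suz.extra})))), (MulAction.orbit (((Subgroup.closure ({Cfsg.Spor.Suz.a, Cfsg.Spor.Suz.b, Cfsg.Spor.Suz.c, Cfsg.Spor.Suz.d, Cfsg.Spor.Suz.e, Cfsg.Spor.Suz.f} : Set (FreeGroup Cfsg.Spor.Suz.Gen))).map (PresentedGroup.mk (Cfsg.Spor.coxRelators Cfsg.Spor.Suz.edges ∪ {r | r ∈ Cfsg.Spor.Suz.extra})))) q₁).ncard = 416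 ∧ (MulAction.orbit (((Subgroup.closure ({Cfsg.Spor.Suz.a, Cfsg.Spor.Suz.b, Cfsg.Spor.Suz.c, Cfsg.Spor.Suz.d, Cfsg.Spor.Suz.e, Cfsg.Spor.Suz.f} : Set (FreeGroup Cfsg.Spor.Suz.Gen))).map (PresentedGroup.mk (Cfsg.Spor.coxRelators Cfsg.Spor.Suz.edges ∪ {r | r ∈ Cfsg.Spor.Suz.extra})))) q₂).ncard = 1365 := by
  obtain ⟨hidx, Φ, hinj, hiv⟩ := Cox.master Suz1782.enc (n := 1782)
    (fun act q0 h31 hadm hl => Suz1782.closed act q0 h31 hadm hl)
    admAll (by decide) (by decide) Suz1782.tables Suz1782.relsOK Suz1782.orbits _ hS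
  refine ⟨hidx, ?_⟩
  obtain ⟨q1, h1⟩ := hiv (1366, 1782) (by decide)
  obtain ⟨q2, h2⟩ := hiv (1, 1366) (by decide)
  refine ⟨q1, q2, ?_, ?_⟩
  · exact PR.ncard_of_image Φ hinj _ _ _ (by norm_num) (by norm_num) h1
  · exact PR.ncard_of_image Φ hinj _ _ _ (by norm_num) (by norm_num) h2

end Cfsg.Agent.S1680
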