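import Cfsg.Statements.S1679
import Cfsg.Agent.Lib.Helper11.G24Hom
import Cfsg.Agent.S1680
import Cfsg.Agent.S1694
import Cfsg.Agent.S1059

set_option autoImplicit false
open Cfsg

namespace Cfsg.Agent.S1679

open Cfsg.Agent.Lib.Helper11 Cfsg.Agent.Lib.Helper11.TC Cfsg.Lie

set_option maxRecDepth 100000

theorem card_G : Nat.card (chevG2.group F4) = 251596800 := by
  rw [Cfsg.Agent.S1059.result (F := F4) (q := 4) F4.card]
  norm_num

theorem iso_P : Nonempty (G24S.P ≃* chevG2.group F4) := by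
  obtain ⟨hs, hc⟩ := G24S.simple
  obtain ⟨γ, hγ⟩ := G24M.exists_hom
  have hker : γ.ker = ⊥ := by
    rcases hs.eq_bot_or_eq_top_of_normal γ.ker inferInstance with h | h
    · exact h
    · exfalso
      have h3 : G24S.gen 0 ∈ γ.ker := by rw [h]; exact Subgroup.mem_top _
      rw [MonoidHom.mem_ker, hγ 0 (by decide)] at h3
      apply G24M.mat_ne
      have := congrArg (fun x : chevG2.group F4 => ((x : GL chevG2.Idx F4) : G24M.M14)) h3
      exact this
  have hinj : Function.Injective γ := (MonoidHom.ker_eq_bot_iff γ).mp hker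
  have hfin : Finite (chevG2.group F4) := Nat.finite_of_card_ne_zero (by rw [card_G]; norm_num)
  have hbij := Function.Injective.bijective_of_nat_card_le hinj (by rw [card_G, hc])
  exact ⟨MulEquiv.ofBijective γ hbij⟩

theorem iso_H (H : Subgroup Cfsg.Spor.Suz)
    (hH : H = Subgroup.closure {g | ∃ s ∈ Suz1782.subs, g = ev (Cox.genOf Suz1782.dec
      (PresentedGroup.of : Cfsg.Spor.Suz.Gen → Cfsg.Spor.Suz)) s})
    (hidx : H.index = 1782) : Nonempty (H ≃* G24S.P) := by
  obtain ⟨hs, hc⟩ := G24S.simple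
  set q : ℕ → Cfsg.Spor.Suz := Cox.genOf Suz1782.dec
      (PresentedGroup.of : Cfsg.Spor.Suz.Gen → Cfsg.Spor.Suz) with hq
  have hq_inv : ∀ l ∈ G24.Ls, q (G24.invL l) = (q l)⁻¹ := by
    intro l _
    exact eq_inv_of_mul_eq_one_right (Cox.gen_sq Suz1782.enc l)
  have hrot : (G24.coxW ++ G24.extraW).all (fun r' => (Suz1782.coxW ++ Suz1782.extraW).any
      (fun r => isRot r r')) = true := by decide +kernel
  have hq_rel : ∀ r ∈ G24.coxW ++ G24.extraW, ev q r = 1 := by
    intro r hr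
    exact ev_of_any_isRot q _ r (List.all_eq_true.mp hrot r hr) (Cox.words_hold Suz1782.enc)
  obtain ⟨α, hα⟩ := G24S.pres.lift Cfsg.Spor.Suz q hq_inv hq_rel
  have hrange : α.range = H := by
    rw [MonoidHom.range_eq_map, ← G24S.pres.hgen, MonoidHom.map_closure, hH]
    congr 1
    ext x
    constructor
    · rintro ⟨_, ⟨l, hl, rfl⟩, rfl⟩
      have h1 : ∀ l ∈ G24.Ls, [l] ∈ Suz1782.subs := by decide
      exact ⟨[l], h1 l hl, by rw [hα l hl]; simp⟩
    · rintro ⟨s, hs', rfl⟩
      have h1 : ∀ s ∈ Suz1782.subs, ∃ l ∈ G24.Ls, s = [l] := by decide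
      obtain ⟨l, hl, rfl⟩ := h1 s hs'
      exact ⟨G24S.gen l, ⟨l, hl, rfl⟩, by rw [hα l hl]; simp⟩
  have hαinj : Function.Injective α := by
    rw [← MonoidHom.ker_eq_bot_iff]
    rcases hs.eq_bot_or_eq_top_of_normal α.ker inferInstance with h | h
    · exact h
    · exfalso
      have h1 : α.range = ⊥ := by
        rw [eq_bot_iff]
        rintro _ ⟨x, rfl⟩
        have : x ∈ α.ker := by rw [h]; exact Subgroup.mem_top _
        exact this
      rw [hrange] at h1
      rw [h1, Subgroup.index_bot, Cfsg.Agent.S1694.result.2] at hidx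
      norm_num at hidx
  exact ⟨(MulEquiv.subgroupCongr hrange.symm).trans (MonoidHom.ofInjective hαinj).symm⟩

/-- In the presented sporadic Suzuki group (generators a, …, g), the subgroup generated by the images of a, …, f is isomorphic to the adjoint Chevalley group of type G₂ over a field with four elements. -/
theorem result : ∃ (K : Type) (_ : Field K) (_ : Fintype K), Fintype.card K = 4 ∧ Nonempty ((((Subgroup.closure ({Cfsg.Spor.Suz.a, Cfsg.Spor.Suz.b, Cfsg.Spor.Suz.c, Cfsg.Spor.Suz.d, Cfsg.Spor.Suz.e, Cfsg.Spor.Suz.f} : Set (FreeGroup Cfsg.Spor.Suz.Gen))).map (PresentedGroup.mk (Cfsg.Spor.coxRelators Cfsg.Spor.Suz.edges ∪ {r | r ∈ Cfsg.Spor.Suz.extra})))) ≃* Cfsg.Lie.chevG2.group K) := by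
  obtain ⟨e1⟩ := iso_H _ (by rw [MonoidHom.map_closure, Cfsg.Agent.S1680.hS]) Cfsg.Agent.S1680.result.1
  obtain ⟨e2⟩ := iso_P
  exact ⟨F4, inferInstance, inferInstance, F4.card, ⟨e1.trans e2⟩⟩

end Cfsg.Agent.S1679
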