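import Cfsg.Statements.S1681
import Cfsg.Agent.Lib.Helper11.Suz22880Enc
import Cfsg.Agent.Lib.Helper11.Suz22880Cert
import Cfsg.Agent.Lib.Helper11.Suz22880Perm

set_option autoImplicit false
open Cfsg

namespace Cfsg.Agent.S1681

open Cfsg.Agent.Lib.Helper11 Cfsg.Agent.Lib.Helper11.TC

set_option maxRecDepth 100000

theorem admAll : Suz22880.adm.all (admCheck (fun l => l) (Suz22880.coxW ++ Suz22880.extraW) Suz22880.subs) = true := by
  decide +kernel

theorem hS : (PresentedGroup.mk (Cfsg.Spor.coxRelators Cfsg.Spor.Suz.edges ∪ {r | r ∈ Cfsg.Spor.Suz.extra})) ''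
      ({Cfsg.Spor.Suz.a, Cfsg.Spor.Suz.b, Cfsg.Spor.Suz.c, Cfsg.Spor.Suz.d, Cfsg.Spor.Suz.f, Cfsg.Spor.Suz.g} : Set (FreeGroup Cfsg.Spor.Suz.Gen)) =
      {g | ∃ s ∈ Suz22880.subs, g = ev (Cox.genOf Suz22880.dec (PresentedGroup.of : Cfsg.Spor.Suz.Gen → Cfsg.Spor.CoxPresented Cfsg.Spor.Suz.Gen Cfsg.Spor.Suz.edges Cfsg.Spor.Suz.extra)) s} := by
  ext g
  simp only [Set.image_insert_eq, Set.image_singleton, Set.mem_insert_iff, Set.mem_singleton_iff,
    Set.mem_setOf_eq, Suz22880.subs, List.mem_cons, List.mem_nil_iff, or_false, exists_eq_or_imp,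
    exists_eq_left, ev, Cox.genOf, Suz22880.dec, List.map_cons, List.map_nil, List.prod_cons,
    List.prod_nil, mul_one, PresentedGroup.of, map_pow, map_mul, pow_succ, pow_zero, one_mul, mul_assoc]

/-- In the presented sporadic Suzuki group (generators a, …, g), the subgroup generated by the images of a, b, c, d, f, g has index 22880. -/
theorem result : (((Subgroup.closure ({Cfsg.Spor.Suz.a, Cfsg.Spor.Suz.b, Cfsg.Spor.Suz.c, Cfsg.Spor.Suz.d, Cfsg.Spor.Suz.f, Cfsg.Spor.Suz.g} : Set (FreeGroup Cfsg.Spor.Suz.Gen))).map (PresentedGroup.mk (Cfsg.Spor.coxRelators Cfsg.Spor.Suz.edges ∪ {r | r ∈ Cfsg.Spor.Suz.extra})))).index = 22880 := by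
  obtain ⟨hidx, Φ, hinj, hiv⟩ := Cox.master Suz22880.enc (n := 22880)
    (fun act q0 h31 hadm hl => Suz22880.closed act q0 h31 hadm hl)
    admAll (by decide) (by decide) Suz22880.tables Suz22880.relsOK Suz22880.orbits _ hS
  exact hidx

end Cfsg.Agent.S1681
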