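import Cfsg.Statements.S1685
import Cfsg.Agent.Lib.Helper11.Fi22bEnc
import Cfsg.Agent.Lib.Helper11.Fi22bCert
import Cfsg.Agent.Lib.Helper11.Fi22bPerm

set_option autoImplicit false
open Cfsg

namespace Cfsg.Agent.S1685

open Cfsg.Agent.Lib.Helper11 Cfsg.Agent.Lib.Helper11.TC

set_option maxRecDepth 100000

theorem admAll : Fi22b.adm.all (admCheck (fun l => l) (Fi22b.coxW ++ Fi22b.extraW) Fi22b.subs) = true := by
  decide +kernel

theorem hS : (PresentedGroup.mk (Cfsg.Spor.coxRelators Cfsg.Spor.Fi22.edges ∪ {r | r ∈ Cfsg.Spor.Fi22.extra})) ''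
      ({Cfsg.Spor.Fi22.b, Cfsg.Spor.Fi22.c, Cfsg.Spor.Fi22.d, Cfsg.Spor.Fi22.e, Cfsg.Spor.Fi22.f, Cfsg.Spor.Fi22.g, Cfsg.Spor.Fi22.h, Cfsg.Spor.Fi22.i} : Set (FreeGroup Cfsg.Spor.Fi22.Gen)) =
      {g | ∃ s ∈ Fi22b.subs, g = ev (Cox.genOf Fi22b.dec (PresentedGroup.of : Cfsg.Spor.Fi22.Gen → Cfsg.Spor.CoxPresented Cfsg.Spor.Fi22.Gen Cfsg.Spor.Fi22.edges Cfsg.Spor.Fi22.extra)) s} := by
  ext g
  simp only [Set.image_insert_eq, Set.image_singleton, Set.mem_insert_iff, Set.mem_singleton_iff,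
    Set.mem_setOf_eq, Fi22b.subs, List.mem_cons, List.mem_nil_iff, or_false, exists_eq_or_imp,
    exists_eq_left, ev, Cox.genOf, Fi22b.dec, List.map_cons, List.map_nil, List.prod_cons,
    List.prod_nil, mul_one, PresentedGroup.of, map_pow, map_mul, pow_succ, pow_zero, one_mul, mul_assoc]

/-- In the presented Fischer group Fi₂₂ (generators a, …, i), the subgroup generated by the images of b, c, d, e, f, g, h, i has index 14080. -/
theorem result : (((Subgroup.closure ({Cfsg.Spor.Fi22.b, Cfsg.Spor.Fi22.c, Cfsg.Spor.Fi22.d, Cfsg.Spor.Fi22.e, Cfsg.Spor.Fi22.f, Cfsg.Spor.Fi22.g, Cfsg.Spor.Fi22.h, Cfsg.Spor.Fi22.i} : Set (FreeGroup Cfsg.Spor.Fi22.Gen))).map (PresentedGroup.mk (Cfsg.Spor.coxRelators Cfsg.Spor.Fi22.edges ∪ {r | r ∈ Cfsg.Spor.Fi22.extra})))).index = 14080 := by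
  obtain ⟨hidx, Φ, hinj, hiv⟩ := Cox.master Fi22b.enc (n := 14080)
    (fun act q0 h31 hadm hl => Fi22b.closed act q0 h31 hadm hl)
    admAll (by decide) (by decide) Fi22b.tables Fi22b.relsOK Fi22b.orbits _ hS
  exact hidx

end Cfsg.Agent.S1685
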