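import Cfsg.Statements.S1686
import Cfsg.Agent.Lib.Helper11.O73Hom
import Cfsg.Agent.S1685
import Cfsg.Agent.S1696
import Cfsg.Agent.S0292

set_option autoImplicit false
open Cfsg

namespace Cfsg.Agent.S1686

open Cfsg.Agent.Lib.Helper11 Cfsg.Agent.Lib.Helper11.TC

set_option maxRecDepth 100000

abbrev Iso7 := Cfsg.isometryGroup (ZMod 3) (Cfsg.quadFormOdd 3 (ZMod 3))
abbrev Om := Cfsg.Omega (ZMod 3) (Cfsg.quadFormOdd 3 (ZMod 3))
abbrev POm := Cfsg.POmega (ZMod 3) (Cfsg.quadFormOdd 3 (ZMod 3))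

theorem card_POm : Nat.card POm = 4585351680 := by
  have h := Cfsg.Agent.S0292.result (F := ZMod 3) (q := 3) (ZMod.card 3) (by decide) 3 (by norm_num)
  simp only [Finset.prod_range_succ, Finset.prod_range_zero] at h
  norm_num [-Nat.card_eq_fintype_card] at h
  have h' : 2 * Nat.card POm = 9170703360 := h
  omega

open scoped commutatorElement in
theorem iso_P : Nonempty (O73S.P ≃* POm) := by
  obtain ⟨hs, hc⟩ := O73S.simple
  obtain ⟨γ, hγ⟩ := O73M.exists_hom
  have hnc : γ (O73S.gen 2) * γ (O73S.gen 4) ≠ γ (O73S.gen 4) * γ (O73S.gen 2) := by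
    rw [hγ 2 (by decide), hγ 4 (by decide)]
    intro h
    apply O73M.ncomm
    have := congrArg (fun x : Iso7 => ((x : GL O73M.I7 (ZMod 3)) : O73M.M7)) h
    exact this
  have hperf : commutator O73S.P = ⊤ := by
    rcases hs.eq_bot_or_eq_top_of_normal (commutator O73S.P) inferInstance with h | h
    · exfalso
      apply hnc
      have h2 : O73S.gen 2 * O73S.gen 4 = O73S.gen 4 * O73S.gen 2 := by
        have h1 : ⁅O73S.gen 2, O73S.gen 4⁆ ∈ commutator O73S.P :=
          Subgroup.commutator_mem_commutator (Subgroup.mem_top _) (Subgroup.mem_top _)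
        rw [h, Subgroup.mem_bot, commutatorElement_eq_one_iff_mul_comm] at h1
        exact h1
      rw [← map_mul, h2, map_mul]
    · exact h
  have hmem : ∀ x, γ x ∈ Om := by
    intro x
    have hx : x ∈ commutator O73S.P := by rw [hperf]; exact Subgroup.mem_top _
    have h1 := Subgroup.mem_map_of_mem γ hx
    rw [commutator_def, Subgroup.map_commutator] at h1
    exact Subgroup.commutator_mono le_top le_top h1
  let γ' : O73S.P →* Om := γ.codRestrict _ hmem
  let β : O73S.P →* POm := (QuotientGroup.mk' _).comp γ'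
  have hker : β.ker = ⊥ := by
    rcases hs.eq_bot_or_eq_top_of_normal β.ker inferInstance with h | h
    · exact h
    · exfalso
      have h2 : γ' (O73S.gen 2) ∈ Subgroup.center Om := by
        have h3 : O73S.gen 2 ∈ β.ker := by rw [h]; exact Subgroup.mem_top _
        rw [MonoidHom.mem_ker] at h3
        exact (QuotientGroup.eq_one_iff _).mp h3
      have h3 := Subgroup.mem_center_iff.mp h2 (γ' (O73S.gen 4))
      apply hnc
      have h4 := congrArg Subtype.val h3
      exact h4.symm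
  have hinj : Function.Injective β := (MonoidHom.ker_eq_bot_iff β).mp hker
  have hfin : Finite POm := Nat.finite_of_card_ne_zero (by rw [card_POm]; norm_num)
  have hbij := Function.Injective.bijective_of_nat_card_le hinj (by rw [card_POm, hc])
  exact ⟨MulEquiv.ofBijective β hbij⟩

theorem iso_H (H : Subgroup Cfsg.Spor.Fi22)
    (hH : H = Subgroup.closure {g | ∃ s ∈ Fi22b.subs, g = ev (Cox.genOf Fi22b.dec
      (PresentedGroup.of : Cfsg.Spor.Fi22.Gen → Cfsg.Spor.Fi22)) s})
    (hidx : H.index = 14080) : Nonempty (H ≃* O73S.P) := by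
  obtain ⟨hs, hc⟩ := O73S.simple
  set q : ℕ → Cfsg.Spor.Fi22 := Cox.genOf Fi22b.dec
      (PresentedGroup.of : Cfsg.Spor.Fi22.Gen → Cfsg.Spor.Fi22) with hq
  have hq_inv : ∀ l ∈ O73.Ls, q (O73.invL l) = (q l)⁻¹ := by
    intro l _
    exact eq_inv_of_mul_eq_one_right (Cox.gen_sq Fi22b.enc l)
  have hrot : (O73.coxW ++ O73.extraW).all (fun r' => (Fi22b.coxW ++ Fi22b.extraW).any
      (fun r => isRot r r')) = true := by decide +kernel
  have hq_rel : ∀ r ∈ O73.coxW ++ O73.extraW, ev q r = 1 := by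
    intro r hr
    exact ev_of_any_isRot q _ r (List.all_eq_true.mp hrot r hr) (Cox.words_hold Fi22b.enc)
  obtain ⟨α, hα⟩ := O73S.pres.lift Cfsg.Spor.Fi22 q hq_inv hq_rel
  have hrange : α.range = H := by
    rw [MonoidHom.range_eq_map, ← O73S.pres.hgen, MonoidHom.map_closure, hH]
    congr 1
    ext x
    constructor
    · rintro ⟨_, ⟨l, hl, rfl⟩, rfl⟩
      have h1 : ∀ l ∈ O73.Ls, [l] ∈ Fi22b.subs := by decide
      exact ⟨[l], h1 l hl, by rw [hα l hl]; simp⟩
    · rintro ⟨s, hs', rfl⟩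
      have h1 : ∀ s ∈ Fi22b.subs, ∃ l ∈ O73.Ls, s = [l] := by decide
      obtain ⟨l, hl, rfl⟩ := h1 s hs'
      exact ⟨O73S.gen l, ⟨l, hl, rfl⟩, by rw [hα l hl]; simp⟩
  have hαinj : Function.Injective α := by
    rw [← MonoidHom.ker_eq_bot_iff]
    rcases hs.eq_bot_or_eq_top_of_normal α.ker inferInstance with h | h
    · exact h
    · exfalso
      have h1 : α.range = ⊥ := by
        rw [eq_bot_iff]
        rintro _ ⟨x, rfl⟩
        have : x ∈ α.ker := by rw [h]; exact Subgroup.mem_top _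
        exact this
      rw [hrange] at h1
      rw [h1, Subgroup.index_bot, Cfsg.Agent.S1696.result.2] at hidx
      norm_num at hidx
  exact ⟨(MulEquiv.subgroupCongr hrange.symm).trans (MonoidHom.ofInjective hαinj).symm⟩

/-- In the presented Fischer group Fi₂₂, the subgroup generated by the images of b, …, i is isomorphic to PΩ(7, 3), the commutator subgroup of the isometry group of the quadratic form x₀² + x₁y₁ + x₂y₂ + x₃y₃ over the integers mod 3, modulo its centre. -/
theorem result : Nonempty ((((Subgroup.closure ({Cfsg.Spor.Fi22.b, Cfsg.Spor.Fi22.c, Cfsg.Spor.Fi22.d, Cfsg.Spor.Fi22.e, Cfsg.Spor.Fi22.f, Cfsg.Spor.Fi22.g, Cfsg.Spor.Fi22.h, Cfsg.Spor.Fi22.i} : Set (FreeGroup Cfsg.Spor.Fi22.Gen))).map (PresentedGroup.mk (Cfsg.Spor.coxRelators Cfsg.Spor.Fi22.edges ∪ {r | r ∈ Cfsg.Spor.Fi22.extra})))) ≃* Cfsg.POmega (ZMod 3) (Cfsg.quadFormOdd 3 (ZMod 3))) := by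
  obtain ⟨e1⟩ := iso_H _ (by rw [MonoidHom.map_closure, Cfsg.Agent.S1685.hS]) Cfsg.Agent.S1685.result
  obtain ⟨e2⟩ := iso_P
  exact ⟨e1.trans e2⟩

end Cfsg.Agent.S1686
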