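import Mathlib
import Cfsg.Statements.S1691

set_option autoImplicit false
open Cfsg

namespace Cfsg.Agent.S1691

open Cfsg.Spor Cfsg.Spor.Fi24

/-- the relator set -/
abbrev rels : Set (FreeGroup Gen) := coxRelators edges ∪ {r | r ∈ extra}

theorem sgn_rel : ∀ r ∈ rels,
    FreeGroup.lift (fun _ : Gen => (Multiplicative.ofAdd (1 : ZMod 2))) r = 1 := by
  intro r hr
  rcases hr with hr | hr
  · obtain ⟨x, _, y, _, rfl⟩ := hr
    simp only [map_pow, map_mul, FreeGroup.lift_apply_of]
    have : (Multiplicative.ofAdd (1 : ZMod 2)) * Multiplicative.ofAdd (1 : ZMod 2) = 1 := by decide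
    rw [this, one_pow]
  · simp only [extra, Set.mem_ofPred_eq, List.mem_cons, List.not_mem_nil, or_false] at hr
    rcases hr with rfl | rfl
    · simp only [map_pow, map_mul, map_inv, FreeGroup.lift_apply_of]
      decide
    · simp only [map_pow, map_mul, map_inv, FreeGroup.lift_apply_of]
      decide

/-- the sign homomorphism -/
noncomputable def sgn : Fi24 →* Multiplicative (ZMod 2) := PresentedGroup.toGroup sgn_rel

theorem sgn_of (x : Gen) : sgn (PresentedGroup.of x) = Multiplicative.ofAdd (1 : ZMod 2) :=
  PresentedGroup.toGroup.of sgn_rel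

theorem cox_rel (x y : Gen) :
    ((PresentedGroup.of x : Fi24) * PresentedGroup.of y) ^ coxLabel edges x y = 1 := by
  have hx : x ∈ coxNodes edges := by cases x <;> decide
  have hy : y ∈ coxNodes edges := by cases y <;> decide
  have : (FreeGroup.of x * FreeGroup.of y) ^ coxLabel edges x y ∈ rels :=
    Or.inl ⟨x, hx, y, hy, rfl⟩
  have h := PresentedGroup.one_of_mem this
  simpa [PresentedGroup.of, map_pow, map_mul] using h

theorem sq_one (x : Gen) : (PresentedGroup.of x : Fi24) * PresentedGroup.of x = 1 := by
  have := cox_rel x x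
  have h1 : coxLabel edges x x = 1 := by simp [coxLabel]
  rwa [h1, pow_one] at this

/-- in the abelianization, adjacent generators agree -/
theorem ab_eq (x y : Gen) (h : coxLabel edges x y = 3) :
    Abelianization.of (PresentedGroup.of x : Fi24) = Abelianization.of (PresentedGroup.of y : Fi24) := by
  have h3 := cox_rel x y
  rw [h] at h3
  have hx := congrArg Abelianization.of (sq_one x)
  have hy := congrArg Abelianization.of (sq_one y)
  have h3' := congrArg Abelianization.of h3
  simp only [map_mul, map_pow, map_one] at hx hy h3'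
  set X := Abelianization.of (PresentedGroup.of x : Fi24)
  set Y := Abelianization.of (PresentedGroup.of y : Fi24)
  have : (X * Y) ^ 3 = (X * X) * (Y * Y) * (X * Y) := by
    rw [mul_pow]; simp only [pow_succ, pow_zero, one_mul]
    simp only [mul_assoc, mul_comm, mul_left_comm]
  rw [this, hx, hy, one_mul, one_mul] at h3'
  calc X = X * (Y * Y) := by rw [hy, mul_one]
    _ = (X * Y) * Y := by rw [mul_assoc]
    _ = Y := by rw [h3', one_mul]

theorem ab_all (x : Gen) :
    Abelianization.of (PresentedGroup.of x : Fi24) = Abelianization.of (PresentedGroup.of Gen.d : Fi24) := by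
  have hcd := ab_eq .c .d (by decide)
  have hbc := ab_eq .b .c (by decide)
  have hab := ab_eq .a .b (by decide)
  have hka := ab_eq .k .a (by decide)
  have hlk := ab_eq .l .k (by decide)
  have hde := ab_eq .d .e (by decide)
  have hdh := ab_eq .d .h (by decide)
  have hef := ab_eq .e .f (by decide)
  have hfg := ab_eq .f .g (by decide)
  have hgj := ab_eq .g .j (by decide)
  have hhi := ab_eq .h .i (by decide)
  cases x
  · rw [hlk, hka, hab, hbc, hcd]
  · rw [hka, hab, hbc, hcd]
  · rw [hab, hbc, hcd]
  · rw [hbc, hcd]
  · rw [hcd]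
  · rfl
  · rw [hde]
  · rw [← hef, hde]
  · rw [← hfg, ← hef, hde]
  · rw [← hgj, ← hfg, ← hef, hde]
  · rw [hdh]
  · rw [← hhi, hdh]

/-- The commutator subgroup of the presented group Fi₂₄ has index 2 (the presented group is Fi₂₄′:2 with Fi₂₄′ its derived subgroup). -/
theorem result : (commutator Cfsg.Spor.Fi24).index = 2 := by
  set D : Fi24 := PresentedGroup.of Gen.d with hD
  have hker : commutator Fi24 = sgn.ker := by
    apply le_antisymm
    · rw [← Abelianization.ker_of]
      intro g hg
      have : sgn = (Abelianization.lift sgn).comp Abelianization.of := by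
        ext x; simp
      rw [MonoidHom.mem_ker] at hg ⊢
      rw [this, MonoidHom.comp_apply, hg, map_one]
    · intro g hg
      have hgen : g ∈ commutator Fi24 ⊔ Subgroup.zpowers D := by
        apply PresentedGroup.generated_by
        intro jj
        have h1 : (PresentedGroup.of jj : Fi24) * D⁻¹ ∈ commutator Fi24 := by
          rw [← Abelianization.ker_of, MonoidHom.mem_ker, map_mul, map_inv, ab_all jj]
          simp [hD]
        have h2 : (PresentedGroup.of jj : Fi24) = ((PresentedGroup.of jj : Fi24) * D⁻¹) * D := by simp
        rw [h2]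
        exact Subgroup.mul_mem_sup h1 (Subgroup.mem_zpowers D)
      obtain ⟨n, hn, z, hz, rfl⟩ := Subgroup.mem_sup_of_normal_left.mp hgen
      obtain ⟨k, rfl⟩ := Subgroup.mem_zpowers_iff.mp hz
      have hn' : sgn n = 1 := by
        have : sgn = (Abelianization.lift sgn).comp Abelianization.of := by
          ext x; simp
        rw [← Abelianization.ker_of, MonoidHom.mem_ker] at hn
        rw [this, MonoidHom.comp_apply, hn, map_one]
      rw [MonoidHom.mem_ker, map_mul, hn', one_mul, map_zpow, hD, sgn_of] at hg
      have hD2 : D ^ (2 : ℤ) = 1 := by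
        have := sq_one Gen.d
        rw [zpow_two]; exact this
      have hk : Even k := by
        rcases Int.even_or_odd k with h | h
        · exact h
        · exfalso
          obtain ⟨m, rfl⟩ := h
          rw [zpow_add, zpow_mul, zpow_one] at hg
          have h1 : (Multiplicative.ofAdd (1 : ZMod 2)) ^ (2 : ℤ) = 1 := by decide
          rw [h1, one_zpow, one_mul] at hg
          exact absurd hg (by decide)
      obtain ⟨m, rfl⟩ := hk
      have : D ^ (m + m) = 1 := by
        rw [← two_mul, zpow_mul, hD2, one_zpow]
      rw [this, mul_one]; exact hn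
  rw [hker, Subgroup.index_ker]
  have hsurj : Function.Surjective sgn := by
    intro y
    by_cases hy : y = 1
    · exact ⟨1, by rw [map_one, hy]⟩
    · refine ⟨D, ?_⟩
      rw [hD, sgn_of]
      revert hy; revert y; decide
  rw [MonoidHom.range_eq_top.mpr hsurj]
  simp [Nat.card_eq_fintype_card]

end Cfsg.Agent.S1691
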