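import Cfsg.Statements.S1693
import Cfsg.Agent.S1692
import Cfsg.Agent.Lib.Helper11.ONFacts
import Cfsg.Agent.Lib.Helper11.L37Iso

set_option autoImplicit false
open Cfsg

namespace Cfsg.Agent.S1693

open Cfsg.Agent.Lib.Helper11 Cfsg.Agent.Lib.Helper11.TC

set_option maxRecDepth 100000

/-- the generators `ab, ba, ac, ad, ae, af` of the subgroup of index two, as words -/
def wd : ℕ → List ℕ
  | 0 => [2, 4] | 1 => [4, 2] | 2 => [2, 6] | 4 => [2, 8] | 6 => [2, 10] | 8 => [2, 12] | _ => []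

theorem ev_flatMap {Γ : Type*} [Group Γ] (g : ℕ → Γ) (w : List ℕ) :
    ev (fun l => ev g (wd l)) w = ev g (w.flatMap wd) := by
  induction w with
  | nil => rfl
  | cons l w ih => rw [ev_cons, ih, List.flatMap_cons, Simp.ev_append]

theorem main (H : Subgroup Cfsg.Spor.ON)
    (hH : H = Subgroup.closure {g | ∃ s ∈ ONa.subs, g = ev ONEnc.gen s}) (hidx : H.index = 122760) :
    ∃ N : Subgroup H, N.Normal ∧ N.index = 2 ∧
      Nonempty (N ≃* Matrix.ProjectiveSpecialLinearGroup (Fin 3) (ZMod 7)) := by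
  obtain ⟨hcard, φ, hφ, hinj, hwp⟩ := ONFacts.facts
  let q : ℕ → Cfsg.Spor.ON := fun l => ev ONEnc.gen (wd l)
  have hq_inv : ∀ l ∈ L37a.Ls, q (L37a.invL l) = (q l)⁻¹ := by
    intro l hl
    have h1 : q l * q (L37a.invL l) = 1 := by
      show ev ONEnc.gen (wd l) * ev ONEnc.gen (wd (L37a.invL l)) = 1
      rw [← Simp.ev_append]
      revert l
      have h2 : ∀ l ∈ L37a.Ls, (∀ x ∈ wd l ++ wd (L37a.invL l), x ∈ ONa.Ls) ∧
          ∀ β ∈ ONa.lbase, PR.trace ((wd l ++ wd (L37a.invL l)).map ONa.tbl) β = β := by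
        decide +kernel
      intro l hl
      exact hwp _ (h2 l hl).1 (h2 l hl).2
    exact eq_inv_of_mul_eq_one_right h1
  have hq_rel : ∀ r ∈ L37a.rels, ev q r = 1 := by
    have h2 : ∀ r ∈ L37a.rels, (∀ x ∈ r.flatMap wd, x ∈ ONa.Ls) ∧
        ∀ β ∈ ONa.lbase, PR.trace ((r.flatMap wd).map ONa.tbl) β = β := by
      decide +kernel
    intro r hr
    show ev (fun l => ev ONEnc.gen (wd l)) r = 1
    rw [ev_flatMap]
    exact hwp _ (h2 r hr).1 (h2 r hr).2
  obtain ⟨α, hα⟩ := L37.pres.lift Cfsg.Spor.ON q hq_inv hq_rel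
  have hsimple := L37.simple_P
  have hαinj : Function.Injective α := by
    rw [← MonoidHom.ker_eq_bot_iff]
    rcases hsimple.eq_bot_or_eq_top_of_normal α.ker inferInstance with h | h
    · exact h
    · exfalso
      have h1 : L37.gen 2 ∈ α.ker := by rw [h]; exact Subgroup.mem_top _
      rw [MonoidHom.mem_ker, hα 2 (by decide)] at h1
      exact ONFacts.ne_one [2, 6] (by decide) 1 (by norm_num) (by decide +kernel) h1
  have hgenH : ∀ l ∈ [2, 4, 6, 8, 10, 12], ONEnc.gen l ∈ H := by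
    intro l hl
    rw [hH]
    apply Subgroup.subset_closure
    refine ⟨[l], ?_, by simp⟩
    revert l
    decide
  have hle : α.range ≤ H := by
    rw [MonoidHom.range_eq_map, ← L37.pres.hgen, MonoidHom.map_closure, Subgroup.closure_le]
    rintro _ ⟨_, ⟨l, hl, rfl⟩, rfl⟩
    rw [hα l hl]
    have h3 : ∀ l ∈ L37a.Ls, ∀ x ∈ wd l, x ∈ [2, 4, 6, 8, 10, 12] := by decide
    have h4 : ∀ w : List ℕ, (∀ x ∈ w, x ∈ [2, 4, 6, 8, 10, 12]) → ev ONEnc.gen w ∈ H := by
      intro w hw
      induction w with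
      | nil => exact H.one_mem
      | cons x w ih =>
        rw [ev_cons]
        exact H.mul_mem (hgenH x (hw x List.mem_cons_self))
          (ih (fun y hy => hw y (List.mem_cons_of_mem _ hy)))
    exact h4 _ (h3 l hl)
  have hcH : Nat.card H = 3753792 := by
    have := Subgroup.index_mul_card H
    rw [hidx, hcard] at this
    omega
  have hcR : Nat.card α.range = 1876896 := by
    rw [← Nat.card_congr (MonoidHom.ofInjective hαinj).toEquiv, L37.card_P]
  have e1 : (α.range.subgroupOf H) ≃* α.range := Subgroup.subgroupOfEquivOfLe hle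
  have hcN : Nat.card (α.range.subgroupOf H) = 1876896 := by
    rw [Nat.card_congr e1.toEquiv, hcR]
  have hi : (α.range.subgroupOf H).index = 2 := by
    have := Subgroup.index_mul_card (α.range.subgroupOf H)
    rw [hcN, hcH] at this
    omega
  obtain ⟨e, _⟩ := L37.exists_iso
  exact ⟨α.range.subgroupOf H, Subgroup.normal_of_index_eq_two hi, hi,
    ⟨e1.trans ((MonoidHom.ofInjective hαinj).symm.trans e)⟩⟩

/-- In the presented O'Nan group, the subgroup H generated by the images of a, …, f has a normal subgroup of index 2 isomorphic to PSL(3, 7). -/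
theorem result : ∃ N : Subgroup (((Subgroup.closure ({Cfsg.Spor.ON.a, Cfsg.Spor.ON.b, Cfsg.Spor.ON.c, Cfsg.Spor.ON.d, Cfsg.Spor.ON.e, Cfsg.Spor.ON.f} : Set (FreeGroup Cfsg.Spor.ON.Gen))).map (PresentedGroup.mk (Cfsg.Spor.coxRelators Cfsg.Spor.ON.edges ∪ {r | r ∈ Cfsg.Spor.ON.extra})))), N.Normal ∧ N.index = 2 ∧ Nonempty (N ≃* Matrix.ProjectiveSpecialLinearGroup (Fin 3) (ZMod 7)) := by
  exact main _ (by rw [MonoidHom.map_closure, Cfsg.Agent.S1692.hS]) Cfsg.Agent.S1692.result

end Cfsg.Agent.S1693
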