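import Mathlib
import Cfsg.Statements.S1717
import Cfsg.Agent.Fus.Embedded

set_option autoImplicit false
open Cfsg

namespace Cfsg.Agent.S1717

section aux

variable {F : Type*} [Field F] {n : ℕ} {C : Type*} [Group C]

/-- the elements acting (through `ρ`) as transvections with centre `e` -/
def Qrho (ρ : C →* Matrix (Fin n) (Fin n) F) (e : Fin n → F) : Subgroup C where
  carrier := {g | ∀ v : Fin n → F, ∃ c : F, (ρ g).mulVec v - v = c • e}
  one_mem' := fun v => ⟨0, by simp⟩
  mul_mem' := by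
    intro g h hg hh v
    obtain ⟨c, hc⟩ := hh v
    obtain ⟨c', hc'⟩ := hg v
    obtain ⟨c'', hc''⟩ := hg e
    refine ⟨c * (1 + c'') + c', ?_⟩
    have e1 : (ρ h).mulVec v = v + c • e := by rw [← hc]; abel
    have e2 : (ρ g).mulVec v = v + c' • e := by rw [← hc']; abel
    have e3 : (ρ g).mulVec e = (1 + c'') • e := by
      rw [add_smul, one_smul, ← hc'']; abel
    rw [map_mul, ← Matrix.mulVec_mulVec, e1,
      Matrix.mulVec_add, Matrix.mulVec_smul, e2, e3, smul_smul, add_smul]
    abel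
  inv_mem' := by
    intro g hg v
    obtain ⟨c, hc⟩ := hg ((ρ g⁻¹).mulVec v)
    refine ⟨-c, ?_⟩
    rw [Matrix.mulVec_mulVec, ← map_mul, mul_inv_cancel, map_one, Matrix.one_mulVec] at hc
    rw [neg_smul, ← hc]
    abel

theorem Qrho_le_sylow [Finite C] (h01 : ∀ x : F, x = 0 ∨ x = 1)
    (ρ : C →* Matrix (Fin n) (Fin n) F) (hρ : Function.Injective ρ) (e : Fin n → F) (he : e ≠ 0)
    (hstab : ∀ h : C, ∃ l : F, (ρ h).mulVec e = l • e) (T : Sylow 2 C) : Qrho ρ e ≤ T := by
  haveI : Fact (Nat.Prime 2) := ⟨Nat.prime_two⟩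
  have h2 : (1 : F) + 1 = 0 := by
    rcases h01 (1 + 1) with h | h
    · exact h
    · exfalso
      have : (1 : F) = 0 := by linear_combination h
      exact one_ne_zero this
  have hinj : ∀ (g : C) (v : Fin n → F), (ρ g).mulVec v = 0 → v = 0 := by
    intro g v hv
    have : (ρ (g⁻¹ * g)).mulVec v = 0 := by
      rw [map_mul, ← Matrix.mulVec_mulVec, hv, Matrix.mulVec_zero]
    simpa using this
  apply Cfsg.Agent.Fus.normal_pSubgroup_le_sylow
  · constructor
    intro g hg h v
    obtain ⟨c, hc⟩ := hg ((ρ h⁻¹).mulVec v)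
    obtain ⟨l, hl⟩ := hstab h
    refine ⟨c * l, ?_⟩
    have e1 : (ρ g).mulVec ((ρ h⁻¹).mulVec v) = (ρ h⁻¹).mulVec v + c • e := by rw [← hc]; abel
    have e2 : (ρ h).mulVec ((ρ h⁻¹).mulVec v) = v := by
      rw [Matrix.mulVec_mulVec, ← map_mul, mul_inv_cancel, map_one, Matrix.one_mulVec]
    rw [map_mul, map_mul, ← Matrix.mulVec_mulVec, ← Matrix.mulVec_mulVec, e1,
      Matrix.mulVec_add, e2, Matrix.mulVec_smul, hl, smul_smul]
    abel
  · intro g
    refine ⟨1, ?_⟩
    apply Subtype.ext
    apply hρ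
    show ρ ((g ^ 2 ^ 1 : ↥(Qrho ρ e)) : C) = ρ 1
    rw [pow_one, pow_two, Subgroup.coe_mul, map_mul, map_one, Matrix.ext_iff_mulVec]
    intro v
    obtain ⟨c, hc⟩ := g.2 v
    obtain ⟨c'', hc''⟩ := g.2 e
    have e2 : (ρ (g : C)).mulVec v = v + c • e := by rw [← hc]; abel
    have e3 : (ρ (g : C)).mulVec e = (1 + c'') • e := by
      rw [add_smul, one_smul, ← hc'']; abel
    have hc0 : c'' = 0 := by
      rcases h01 c'' with h | h
      · exact h
      · exfalso
        rw [h, h2, zero_smul] at e3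
        exact he (hinj _ _ e3)
    rw [← Matrix.mulVec_mulVec, e2, Matrix.mulVec_add, Matrix.mulVec_smul, e2, e3, hc0, add_zero,
      one_smul, Matrix.one_mulVec, add_assoc, ← add_smul]
    have : c + c = 0 := by linear_combination c * h2
    rw [this, zero_smul, add_zero]

/-- abstract part: a Sylow subgroup of `C(z)` whose centre is `{1, z}` is Sylow in `G` -/
theorem sylow_of_center {G : Type*} [Group G] [Finite G] (z : G) (hz1 : z ≠ 1)
    (C : Subgroup G) (hC : C = Subgroup.centralizer ({z} : Set G))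
    (T : Sylow 2 C)
    (hzT : ∀ hz : z ∈ C, (⟨z, hz⟩ : C) ∈ T)
    (hZ : ∀ y : C, y ∈ T → (∀ t ∈ T, t * y = y * t) → (y : G) = 1 ∨ (y : G) = z) :
    ¬ 2 ∣ ((T : Subgroup C).map (Subgroup.subtype C)).index := by
  haveI : Fact (Nat.Prime 2) := ⟨Nat.prime_two⟩
  set H := (T : Subgroup C).map C.subtype with hH
  intro hdvd
  obtain ⟨m, hm⟩ := T.2.exists_card_eq
  have hHc : Nat.card H = 2 ^ m := by
    rw [hH, Subgroup.card_map_of_injective C.subtype_injective, hm]
  have hG : 2 ^ (m + 1) ∣ Nat.card G := by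
    rw [← Subgroup.card_mul_index H, hHc, pow_succ]
    exact Nat.mul_dvd_mul_left _ hdvd
  have h1 := Sylow.prime_dvd_card_quotient_normalizer hG hHc
  have hzC : z ∈ C := by rw [hC, Subgroup.mem_centralizer_singleton_iff]
  have hNC : Subgroup.normalizer (H : Set G) ≤ C := by
    intro x hx
    rw [Subgroup.mem_normalizer_iff] at hx
    have hzH : z ∈ H := ⟨⟨z, hzC⟩, hzT hzC, rfl⟩
    obtain ⟨y, hyT, hy⟩ := (hx z).mp hzH
    have hy' : (y : G) = x * z * x⁻¹ := hy
    have := hZ y hyT (by
      intro t ht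
      have htH : (t : G) ∈ H := ⟨t, ht, rfl⟩
      have h3 : x⁻¹ * (t : G) * x ∈ H := by
        rw [hx]; convert htH using 1; group
      obtain ⟨u, huT, hu⟩ := h3
      have hu' : (u : G) = x⁻¹ * (t : G) * x := hu
      have huC : (u : G) ∈ Subgroup.centralizer ({z} : Set G) := by rw [← hC]; exact u.2
      have huz := Subgroup.mem_centralizer_singleton_iff.mp huC
      rw [hu'] at huz
      apply Subtype.ext
      rw [Subgroup.coe_mul, Subgroup.coe_mul, hy']
      calc (t : G) * (x * z * x⁻¹) = x * ((x⁻¹ * (t : G) * x) * z) * x⁻¹ := by group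
        _ = x * (z * (x⁻¹ * (t : G) * x)) * x⁻¹ := by rw [huz]
        _ = x * z * x⁻¹ * (t : G) := by group)
    rw [hy'] at this
    rcases this with h | h
    · exfalso
      apply hz1
      calc z = x⁻¹ * (x * z * x⁻¹) * x := by group
        _ = 1 := by rw [h]; group
    · rw [hC, Subgroup.mem_centralizer_singleton_iff]
      calc x * z = (x * z * x⁻¹) * x := by group
        _ = z * x := by rw [h]
  have h4 := Subgroup.card_dvd_of_le hNC
  have h5 := Subgroup.card_eq_card_quotient_mul_card_subgroup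
    (H.comap (Subgroup.normalizer (H : Set G)).subtype)
  have h6 : Nat.card (H.comap (Subgroup.normalizer (H : Set G)).subtype) = 2 ^ m := by
    rw [← hHc]
    exact Nat.card_congr (Subgroup.subgroupOfEquivOfLe Subgroup.le_normalizer).toEquiv
  have h7 := Subgroup.card_mul_index (T : Subgroup C)
  have h8 := T.not_dvd_index
  rw [h5, h6, ← h7, hm] at h4
  obtain ⟨k, hk⟩ := h1
  rw [hk] at h4
  apply h8
  have : 2 ^ m * (2 * k) ∣ 2 ^ m * (T : Subgroup C).index := by
    rw [mul_comm (2 ^ m) (2 * k)]; exact h4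
  have := Nat.dvd_of_mul_dvd_mul_left (by positivity) this
  exact (Dvd.intro _ rfl).trans this

/-- the natural representation -/
def rho1 (C' : Subgroup (Matrix.SpecialLinearGroup (Fin n) F)) : ↥C' →* Matrix (Fin n) (Fin n) F where
  toFun g := ((g : Matrix.SpecialLinearGroup (Fin n) F) : Matrix (Fin n) (Fin n) F)
  map_one' := rfl
  map_mul' a b := by rw [Subgroup.coe_mul, Matrix.SpecialLinearGroup.coe_mul]

/-- the dual representation -/
def rho2 (C' : Subgroup (Matrix.SpecialLinearGroup (Fin n) F)) : ↥C' →* Matrix (Fin n) (Fin n) F where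
  toFun g := (((g⁻¹ : ↥C') : Matrix.SpecialLinearGroup (Fin n) F) : Matrix (Fin n) (Fin n) F).transpose
  map_one' := by rw [inv_one]; exact Matrix.transpose_one
  map_mul' a b := by
    rw [_root_.mul_inv_rev, Subgroup.coe_mul, Matrix.SpecialLinearGroup.coe_mul, Matrix.transpose_mul]

theorem rho1_inj (C' : Subgroup (Matrix.SpecialLinearGroup (Fin n) F)) : Function.Injective (rho1 C') := by
  intro a b h
  exact Subtype.ext (Subtype.ext h)

theorem rho2_inj (C' : Subgroup (Matrix.SpecialLinearGroup (Fin n) F)) : Function.Injective (rho2 C') := by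
  intro a b h
  have h1 : a⁻¹ = b⁻¹ := Subtype.ext (Subtype.ext (Matrix.transpose_injective h))
  exact inv_injective h1

end aux

/-- Let G be a finite group with an involution z whose centraliser C is isomorphic to the centraliser of a transvection of SL(5, 2). Then a Sylow 2-subgroup of C, viewed in G, is a Sylow 2-subgroup of G (its index in G is odd). -/
theorem result {G : Type*} [Group G] [Finite G] (s : Matrix.SpecialLinearGroup (Fin 5) (ZMod 2)) (hs : (s : Matrix (Fin 5) (Fin 5) (ZMod 2)) = Matrix.transvection 0 1 1) (z : G) (hz : orderOf z = 2) (e : (Subgroup.centralizer ({z} : Set G)) ≃* Subgroup.centralizer ({s} : Set (Matrix.SpecialLinearGroup (Fin 5) (ZMod 2)))) (T : Sylow 2 (Subgroup.centralizer ({z} : Set G))) : ¬ 2 ∣ ((T : Subgroup (Subgroup.centralizer ({z} : Set G))).map (Subgroup.subtype (Subgroup.centralizer ({z} : Set G)))).index := by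
  classical
  haveI : Fact (Nat.Prime 2) := ⟨Nat.prime_two⟩
  have h01 : ∀ x : ZMod 2, x = 0 ∨ x = 1 := by
    intro x
    fin_cases x
    · exact Or.inl rfl
    · exact Or.inr rfl
  have hz1 : z ≠ 1 := by
    rintro rfl
    simp at hz
  obtain ⟨C', hC'⟩ : ∃ C' : Subgroup (Matrix.SpecialLinearGroup (Fin 5) (ZMod 2)),
      C' = Subgroup.centralizer ({s} : Set (Matrix.SpecialLinearGroup (Fin 5) (ZMod 2))) := ⟨_, rfl⟩
  rw [← hC'] at e
  -- commutation in matrix form
  have hcomm : ∀ g : ↥C', ((g : Matrix.SpecialLinearGroup (Fin 5) (ZMod 2)) : Matrix (Fin 5) (Fin 5) (ZMod 2)) *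
      Matrix.single 0 1 1 = Matrix.single 0 1 1 *
      ((g : Matrix.SpecialLinearGroup (Fin 5) (ZMod 2)) : Matrix (Fin 5) (Fin 5) (ZMod 2)) := by
    intro g
    have hg : (g : Matrix.SpecialLinearGroup (Fin 5) (ZMod 2)) ∈
      Subgroup.centralizer ({s} : Set (Matrix.SpecialLinearGroup (Fin 5) (ZMod 2))) := by
      rw [← hC']; exact g.2
    have hg := Subgroup.mem_centralizer_singleton_iff.mp hg
    have hm := congrArg (fun x : Matrix.SpecialLinearGroup (Fin 5) (ZMod 2) =>
      (x : Matrix (Fin 5) (Fin 5) (ZMod 2))) hg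
    simp only [Matrix.SpecialLinearGroup.coe_mul, hs, Matrix.transvection, mul_add, add_mul,
      mul_one, one_mul, add_right_inj] at hm
    exact hm
  have hstab1 : ∀ g : ↥C', ∃ l : ZMod 2, (rho1 C' g).mulVec (Pi.single 0 1) = l • Pi.single 0 1 := by
    intro g
    refine ⟨((g : Matrix.SpecialLinearGroup (Fin 5) (ZMod 2)) : Matrix (Fin 5) (Fin 5) (ZMod 2)) 1 1, ?_⟩
    funext a
    have := congrFun (congrFun (hcomm g) a) 1
    simp [Matrix.mul_apply, Matrix.single_apply] at this
    have e' : (rho1 C' g).mulVec (Pi.single 0 1) a =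
        ((g : Matrix.SpecialLinearGroup (Fin 5) (ZMod 2)) : Matrix (Fin 5) (Fin 5) (ZMod 2)) a 0 := by
      rw [Matrix.mulVec_single_one]; rfl
    rw [e', this]
    by_cases ha : 0 = a
    · subst ha; simp
    · simp [ha, Pi.single_apply, Ne.symm ha]
  have hstab2 : ∀ g : ↥C', ∃ l : ZMod 2, (rho2 C' g).mulVec (Pi.single 1 1) = l • Pi.single 1 1 := by
    intro g
    obtain ⟨k, hk⟩ : ∃ k : ↥C', k = g⁻¹ := ⟨_, rfl⟩
    have hr : rho2 C' g = ((k : Matrix.SpecialLinearGroup (Fin 5) (ZMod 2)) :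
        Matrix (Fin 5) (Fin 5) (ZMod 2)).transpose := by rw [hk]; rfl
    refine ⟨((k : Matrix.SpecialLinearGroup (Fin 5) (ZMod 2)) : Matrix (Fin 5) (Fin 5) (ZMod 2)) 0 0, ?_⟩
    funext a
    have := congrFun (congrFun (hcomm k) 0) a
    simp [Matrix.mul_apply, Matrix.single_apply] at this
    have e' : (rho2 C' g).mulVec (Pi.single 1 1) a =
        ((k : Matrix.SpecialLinearGroup (Fin 5) (ZMod 2)) : Matrix (Fin 5) (Fin 5) (ZMod 2)) 1 a := by
      rw [hr, Matrix.mulVec_single_one]; rfl
    rw [e', ← this]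
    by_cases ha : 1 = a
    · subst ha; simp
    · simp [ha, Ne.symm ha]
  have he0 : (Pi.single 0 1 : Fin 5 → ZMod 2) ≠ 0 := by
    intro h
    have := congrFun h 0
    simp at this
  have he1 : (Pi.single 1 1 : Fin 5 → ZMod 2) ≠ 0 := by
    intro h
    have := congrFun h 1
    simp at this
  have hQ1 := Qrho_le_sylow h01 ((rho1 C').comp e.toMonoidHom) ((rho1_inj C').comp e.injective) _ he0
    (fun h => hstab1 (e h)) T
  have hQ2 := Qrho_le_sylow h01 ((rho2 C').comp e.toMonoidHom) ((rho2_inj C').comp e.injective) _ he1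
    (fun h => hstab2 (e h)) T
  have hT1 : ∀ b : Fin 5, b ≠ 0 → ∃ t : ↥C', ((t : Matrix.SpecialLinearGroup (Fin 5) (ZMod 2)) :
      Matrix (Fin 5) (Fin 5) (ZMod 2)) = 1 + Matrix.single 0 b 1 ∧ e.symm t ∈ T := by
    intro b hb
    have hmemC : Matrix.SpecialLinearGroup.transvection (Ne.symm hb) (1 : ZMod 2) ∈ C' := by
      rw [hC', Subgroup.mem_centralizer_singleton_iff]
      apply Subtype.ext
      show ((Matrix.SpecialLinearGroup.transvection (Ne.symm hb) (1 : ZMod 2) * s :
        Matrix.SpecialLinearGroup (Fin 5) (ZMod 2)) : Matrix (Fin 5) (Fin 5) (ZMod 2)) =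
        ((s * Matrix.SpecialLinearGroup.transvection (Ne.symm hb) (1 : ZMod 2) :
        Matrix.SpecialLinearGroup (Fin 5) (ZMod 2)) : Matrix (Fin 5) (Fin 5) (ZMod 2))
      rw [Matrix.SpecialLinearGroup.coe_mul, Matrix.SpecialLinearGroup.coe_mul, hs,
        Matrix.SpecialLinearGroup.transvection_coe, Matrix.transvection]
      simp only [mul_add, add_mul, mul_one, one_mul,
        Matrix.single_mul_single_of_ne _ _ _ _ hb,
        Matrix.single_mul_single_of_ne _ _ _ _ (one_ne_zero : (1 : Fin 5) ≠ 0)]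
      abel
    refine ⟨⟨_, hmemC⟩, Matrix.SpecialLinearGroup.transvection_coe (Ne.symm hb) _, hQ1 ?_⟩
    intro v
    refine ⟨v b, ?_⟩
    show (rho1 C' (e (e.symm ⟨_, hmemC⟩))).mulVec v - v = _
    rw [MulEquiv.apply_symm_apply]
    show (Matrix.SpecialLinearGroup.transvection (Ne.symm hb) (1 : ZMod 2) :
        Matrix (Fin 5) (Fin 5) (ZMod 2)).mulVec v - v = _
    rw [Matrix.SpecialLinearGroup.transvection_coe, Matrix.add_mulVec, Matrix.one_mulVec,
      add_sub_cancel_left]
    funext a
    simp [Matrix.mulVec, dotProduct, Matrix.single_apply, Pi.single_apply]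
    by_cases ha : 0 = a
    · subst ha; simp
    · simp [ha, Ne.symm ha]
  have hT2 : ∀ a : Fin 5, a ≠ 1 → ∃ t : ↥C', ((t : Matrix.SpecialLinearGroup (Fin 5) (ZMod 2)) :
      Matrix (Fin 5) (Fin 5) (ZMod 2)) = 1 + Matrix.single a 1 1 ∧ e.symm t ∈ T := by
    intro a ha
    have hmemC : Matrix.SpecialLinearGroup.transvection ha (1 : ZMod 2) ∈ C' := by
      rw [hC', Subgroup.mem_centralizer_singleton_iff]
      apply Subtype.ext
      show ((Matrix.SpecialLinearGroup.transvection ha (1 : ZMod 2) * s :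
        Matrix.SpecialLinearGroup (Fin 5) (ZMod 2)) : Matrix (Fin 5) (Fin 5) (ZMod 2)) =
        ((s * Matrix.SpecialLinearGroup.transvection ha (1 : ZMod 2) :
        Matrix.SpecialLinearGroup (Fin 5) (ZMod 2)) : Matrix (Fin 5) (Fin 5) (ZMod 2))
      rw [Matrix.SpecialLinearGroup.coe_mul, Matrix.SpecialLinearGroup.coe_mul, hs,
        Matrix.SpecialLinearGroup.transvection_coe, Matrix.transvection]
      simp only [mul_add, add_mul, mul_one, one_mul,
        Matrix.single_mul_single_of_ne _ _ _ _ (Ne.symm ha),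
        Matrix.single_mul_single_of_ne _ _ _ _ (one_ne_zero : (1 : Fin 5) ≠ 0)]
      abel
    refine ⟨⟨_, hmemC⟩, Matrix.SpecialLinearGroup.transvection_coe ha _, ?_⟩
    have hin : (e.symm ⟨_, hmemC⟩)⁻¹ ∈ T := by
      apply hQ2
      intro v
      refine ⟨v a, ?_⟩
      show (rho2 C' (e (e.symm ⟨_, hmemC⟩)⁻¹)).mulVec v - v = _
      rw [map_inv, MulEquiv.apply_symm_apply]
      show ((((⟨_, hmemC⟩ : ↥C')⁻¹⁻¹ : ↥C') : Matrix.SpecialLinearGroup (Fin 5) (ZMod 2)) :
        Matrix (Fin 5) (Fin 5) (ZMod 2)).transpose.mulVec v - v = _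
      rw [inv_inv]
      show (Matrix.SpecialLinearGroup.transvection ha (1 : ZMod 2) :
        Matrix (Fin 5) (Fin 5) (ZMod 2)).transpose.mulVec v - v = _
      rw [Matrix.SpecialLinearGroup.transvection_coe, Matrix.transpose_add, Matrix.transpose_one,
        Matrix.add_mulVec, Matrix.one_mulVec, add_sub_cancel_left]
      funext x
      simp [Matrix.mulVec, dotProduct, Matrix.single_apply, Pi.single_apply, Matrix.transpose_apply]
      by_cases hx : 1 = x
      · subst hx; simp
      · simp [hx, Ne.symm hx]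
    exact inv_mem_iff.mp hin
  have hcent : ∀ y : ↥(Subgroup.centralizer ({z} : Set G)), y ∈ T → (∀ t ∈ T, t * y = y * t) →
      ((e y : Matrix.SpecialLinearGroup (Fin 5) (ZMod 2)) : Matrix (Fin 5) (Fin 5) (ZMod 2)) = 1 ∨
      ((e y : Matrix.SpecialLinearGroup (Fin 5) (ZMod 2)) : Matrix (Fin 5) (Fin 5) (ZMod 2)) =
        (s : Matrix (Fin 5) (Fin 5) (ZMod 2)) := by
    intro y hy hyc
    have hdet := (e y : Matrix.SpecialLinearGroup (Fin 5) (ZMod 2)).2
    obtain ⟨c, hc⟩ : ∃ c : Matrix (Fin 5) (Fin 5) (ZMod 2),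
      c = ((e y : Matrix.SpecialLinearGroup (Fin 5) (ZMod 2)) : Matrix (Fin 5) (Fin 5) (ZMod 2)) := ⟨_, rfl⟩
    rw [← hc]
    have hdet' : c.det = 1 := by rw [hc]; exact hdet
    have hrow : ∀ b : Fin 5, b ≠ 0 → ∀ x : Fin 5, c b x = if b = x then c 0 0 else 0 := by
      intro b hb x
      obtain ⟨t, ht, htT⟩ := hT1 b hb
      have h2 := congrArg e (hyc _ htT)
      rw [map_mul, map_mul, MulEquiv.apply_symm_apply] at h2
      have hm := congrArg (fun x : ↥C' => ((x : Matrix.SpecialLinearGroup (Fin 5) (ZMod 2)) :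
        Matrix (Fin 5) (Fin 5) (ZMod 2))) h2
      simp only [Subgroup.coe_mul, Matrix.SpecialLinearGroup.coe_mul, ht, ← hc, mul_add, add_mul,
        mul_one, one_mul, add_right_inj] at hm
      have := congrFun (congrFun hm 0) x
      simp [Matrix.mul_apply, Matrix.single_apply] at this
      rw [this]
      by_cases hbx : b = x
      · subst hbx; simp
      · simp [hbx]
    have hcol : ∀ a : Fin 5, a ≠ 1 → ∀ x : Fin 5, c x a = if x = a then c 1 1 else 0 := by
      intro a ha x
      obtain ⟨t, ht, htT⟩ := hT2 a ha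
      have h2 := congrArg e (hyc _ htT)
      rw [map_mul, map_mul, MulEquiv.apply_symm_apply] at h2
      have hm := congrArg (fun x : ↥C' => ((x : Matrix.SpecialLinearGroup (Fin 5) (ZMod 2)) :
        Matrix (Fin 5) (Fin 5) (ZMod 2))) h2
      simp only [Subgroup.coe_mul, Matrix.SpecialLinearGroup.coe_mul, ht, ← hc, mul_add, add_mul,
        mul_one, one_mul, add_right_inj] at hm
      have := congrFun (congrFun hm x) 1
      simp [Matrix.mul_apply, Matrix.single_apply] at this
      rw [← this]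
      by_cases hbx : a = x
      · subst hbx; simp
      · simp [hbx, Ne.symm hbx]
    have h00 : c 0 0 = 1 := by
      rcases h01 (c 0 0) with h | h
      · exfalso
        rw [Matrix.det_eq_zero_of_row_eq_zero 1 (fun x => by rw [hrow 1 one_ne_zero x, h]; simp)] at hdet'
        exact zero_ne_one hdet'
      · exact h
    have h11 : c 1 1 = 1 := by
      have := hcol 0 (by decide) 0
      simp at this
      rw [← this, h00]
    rcases h01 (c 0 1) with h | h
    · left
      ext x a
      by_cases hx : x = 0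
      · subst hx
        by_cases ha : a = 1
        · subst ha; rw [h]; simp
        · rw [hcol a ha 0, h11]; simp [Matrix.one_apply]
      · rw [hrow x hx a, h00]; simp [Matrix.one_apply]
    · right
      rw [hs]
      ext x a
      by_cases hx : x = 0
      · subst hx
        by_cases ha : a = 1
        · subst ha; rw [h]; simp [Matrix.transvection, Matrix.single_apply]
        · rw [hcol a ha 0, h11]
          simp [Matrix.transvection, Matrix.one_apply, Matrix.single_apply, Ne.symm ha]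
      · rw [hrow x hx a, h00]
        simp [Matrix.transvection, Matrix.one_apply, Matrix.single_apply, Ne.symm hx]
  have hzC : z ∈ Subgroup.centralizer ({z} : Set G) := by rw [Subgroup.mem_centralizer_singleton_iff]
  have hzcen : ∀ t : ↥(Subgroup.centralizer ({z} : Set G)), t * ⟨z, hzC⟩ = ⟨z, hzC⟩ * t := by
    intro t
    apply Subtype.ext
    exact Subgroup.mem_centralizer_singleton_iff.mp t.2
  have hzT : (⟨z, hzC⟩ : ↥(Subgroup.centralizer ({z} : Set G))) ∈ T := by
    have hN : (Subgroup.zpowers (⟨z, hzC⟩ : ↥(Subgroup.centralizer ({z} : Set G)))).Normal := by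
      constructor
      intro n hn g
      obtain ⟨k, rfl⟩ := Subgroup.mem_zpowers_iff.mp hn
      have : g * (⟨z, hzC⟩ : ↥(Subgroup.centralizer ({z} : Set G))) ^ k * g⁻¹ = ⟨z, hzC⟩ ^ k := by
        have hc : Commute g (⟨z, hzC⟩ : ↥(Subgroup.centralizer ({z} : Set G))) := hzcen g
        rw [(hc.zpow_right k).eq, mul_inv_cancel_right]
      rw [this]; exact hn
    have hP : IsPGroup 2 (Subgroup.zpowers (⟨z, hzC⟩ : ↥(Subgroup.centralizer ({z} : Set G)))) := by
      apply IsPGroup.of_card (n := 1)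
      rw [Nat.card_zpowers, pow_one, ← hz]
      exact Subgroup.orderOf_mk z hzC
    exact Cfsg.Agent.Fus.normal_pSubgroup_le_sylow hN hP T (Subgroup.mem_zpowers _)
  have hez : ((e ⟨z, hzC⟩ : Matrix.SpecialLinearGroup (Fin 5) (ZMod 2)) :
      Matrix (Fin 5) (Fin 5) (ZMod 2)) = (s : Matrix (Fin 5) (Fin 5) (ZMod 2)) := by
    rcases hcent _ hzT (fun t _ => hzcen t) with h | h
    · exfalso
      have h1 : e ⟨z, hzC⟩ = 1 := Subtype.ext (Subtype.ext h)
      have h2 := (MulEquiv.map_eq_one_iff e).mp h1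
      exact hz1 (congrArg Subtype.val h2)
    · exact h
  apply sylow_of_center z hz1 _ rfl T (fun _ => hzT)
  intro y hy hyc
  rcases hcent y hy hyc with h | h
  · left
    have h1 : e y = 1 := Subtype.ext (Subtype.ext h)
    have h2 := (MulEquiv.map_eq_one_iff e).mp h1
    rw [h2]; rfl
  · right
    have h1 : e y = e ⟨z, hzC⟩ := Subtype.ext (Subtype.ext (h.trans hez.symm))
    have h2 := e.injective h1
    rw [h2]

end Cfsg.Agent.S1717
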