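import Mathlib
import Cfsg.Statements.S1754
import Cfsg.Agent.Lib.Helper11.TI
import Cfsg.Agent.Lib.Helper11.Quasi

set_option autoImplicit false
open Cfsg

namespace Cfsg.Agent.S1754

open Cfsg.Agent.Lib.Helper11

/-- Let A be a standard subgroup of the finite group G (A quasisimple, C_G(A) tightly embedded of even order, A commuting elementwise with no other conjugate of itself, and N_G(A) = N_G(C_G(A))), and let t be an involution of G centralizing A. Then the centralizer of t lies in the normalizer of A; in particular A, viewed inside C_G(t), is a component of C_G(t). -/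
theorem result {G : Type*} [Group G] [Finite G]
    (A : Subgroup G) (hA : Cfsg.IsStandardSubgroup A) (t : G) (ht : orderOf t = 2) (htA : t ∈ Subgroup.centralizer (A : Set G)) :
    Subgroup.centralizer ({t} : Set G) ≤ Subgroup.normalizer (A : Set G) ∧
      Cfsg.IsComponent (A.subgroupOf (Subgroup.centralizer ({t} : Set G))) := by
  obtain ⟨hq, ⟨_, hte⟩, _, hN⟩ := hA
  have h1 : Subgroup.centralizer ({t} : Set G) ≤ Subgroup.normalizer (A : Set G) := by
    intro g hg
    rw [hN]
    by_contra hcon
    have hodd := hte g hcon
    have hgt : g * t = t * g := by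
      have := Subgroup.mem_centralizer_singleton_iff.mp hg
      first | exact this | exact this.symm
    have hmem : t ∈ Subgroup.centralizer (A : Set G) ⊓
        (Subgroup.centralizer (A : Set G)).map (MulAut.conj g).toMonoidHom := by
      rw [Subgroup.mem_inf]
      refine ⟨htA, ?_⟩
      rw [mem_map_conj]
      have : g⁻¹ * t * g = t := by rw [mul_assoc, ← hgt, ← mul_assoc]; simp
      rw [this]; exact htA
    have hdvd : 2 ∣ Nat.card ↥(Subgroup.centralizer (A : Set G) ⊓
        (Subgroup.centralizer (A : Set G)).map (MulAut.conj g).toMonoidHom) := by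
      have := orderOf_dvd_natCard (⟨t, hmem⟩ : ↥(Subgroup.centralizer (A : Set G) ⊓
        (Subgroup.centralizer (A : Set G)).map (MulAut.conj g).toMonoidHom))
      rwa [Subgroup.orderOf_mk, ht] at this
    exact (Nat.not_even_iff_odd.mpr hodd) (even_iff_two_dvd.mpr hdvd)
  refine ⟨h1, ?_, ?_⟩
  · have : (A.subgroupOf (Subgroup.centralizer ({t} : Set G))).Normal :=
      Subgroup.normal_subgroupOf_of_le_normalizer h1
    exact this.isSubnormal
  · have hle : A ≤ Subgroup.centralizer ({t} : Set G) := by
      intro a ha
      rw [Subgroup.mem_centralizer_singleton_iff]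
      have := Subgroup.mem_centralizer_iff.mp htA a ha
      first | exact this | exact this.symm
    exact isQuasisimple_of_mulEquiv (Subgroup.subgroupOfEquivOfLe hle).symm hq

end Cfsg.Agent.S1754
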