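import Cfsg.Statements.S1755
import Cfsg.Agent.Lib.Helper27.XS11

set_option autoImplicit false
open Cfsg

namespace Cfsg.Agent.S1755

open Cfsg.Agent.Lib.Helper27.XS Cfsg.Agent.Lib.Helper27

theorem exists_pow_invol {T : Type*} [Group T] (hT : IsPGroup 2 T) {x : T} (hx : x ≠ 1) :
    ∃ n : ℕ, (x ^ n) * (x ^ n) = 1 ∧ x ^ n ≠ 1 := by
  obtain ⟨k, hk⟩ := IsPGroup.iff_orderOf.1 hT x
  have hk0 : k ≠ 0 := by
    rintro rfl
    rw [pow_zero, orderOf_eq_one_iff] at hk
    exact hx hk
  obtain ⟨m, rfl⟩ := Nat.exists_eq_succ_of_ne_zero hk0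
  refine ⟨2 ^ m, ?_, ?_⟩
  · rw [← pow_add, ← two_mul, ← pow_succ', ← Nat.succ_eq_add_one, ← hk]
    exact pow_orderOf_eq_one x
  · apply pow_ne_one_of_lt_orderOf (by positivity)
    rw [hk]
    exact Nat.pow_lt_pow_right (by norm_num) (Nat.lt_succ_self m)

theorem aux {G : Type*} [Group G] [Finite G] (z : G) (hz : orderOf z = 2) (C : Subgroup G)
    (hC : C = Subgroup.centralizer ({z} : Set G))
    (hQ : Cfsg.IsOfSymplecticType ↥(Cfsg.generalizedFittingSubgroup ↥C))
    (B : Subgroup ↥(Cfsg.generalizedFittingSubgroup ↥C)) (hBc : B.Characteristic)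
    (hBa : IsMulCommutative ↥B) (g : G) :
    ((B.map (Cfsg.generalizedFittingSubgroup ↥C).subtype).map C.subtype).map
        (MulAut.conj g).toMonoidHom =
        (B.map (Cfsg.generalizedFittingSubgroup ↥C).subtype).map C.subtype ∨
      ((B.map (Cfsg.generalizedFittingSubgroup ↥C).subtype).map C.subtype).map
        (MulAut.conj g).toMonoidHom ⊓
        (B.map (Cfsg.generalizedFittingSubgroup ↥C).subtype).map C.subtype = ⊥ := by
  have : Fact (Nat.Prime 2) := ⟨Nat.prime_two⟩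
  have memC : ∀ x, x ∈ C ↔ x * z = z * x := by
    intro x; rw [hC]; exact Subgroup.mem_centralizer_singleton_iff
  have hz1 : z ≠ 1 := by rintro rfl; simp at hz
  have hzz : z * z = 1 := by rw [← pow_two, ← hz]; exact pow_orderOf_eq_one z
  have hcen := Cfsg.H9.centralizer_genFitting_le (G := ↥C)
  have hzC : z ∈ C := (memC z).2 rfl
  have hzF : (⟨z, hzC⟩ : ↥C) ∈ Cfsg.generalizedFittingSubgroup ↥C := by
    apply hcen
    rw [Subgroup.mem_centralizer_iff]
    intro y _
    exact Subtype.ext ((memC y.1).1 y.2)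
  obtain ⟨z', hz'⟩ : ∃ z' : ↥(Cfsg.generalizedFittingSubgroup ↥C), z' = ⟨⟨z, hzC⟩, hzF⟩ := ⟨_, rfl⟩
  have hz'v : ((z' : ↥C) : G) = z := by rw [hz']
  have ext' : ∀ a' b' : ↥(Cfsg.generalizedFittingSubgroup ↥C), ((a' : ↥C) : G) = ((b' : ↥C) : G) →
      a' = b' := fun a' b' h => Subtype.ext (Subtype.ext h)
  have hz'c : ∀ x : ↥(Cfsg.generalizedFittingSubgroup ↥C), x * z' = z' * x := by
    intro x
    apply ext'
    show ((x : ↥C) : G) * ((z' : ↥C) : G) = ((z' : ↥C) : G) * ((x : ↥C) : G)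
    rw [hz'v]; exact (memC _).1 x.1.2
  have hz'1 : z' ≠ 1 := by
    intro h; apply hz1; rw [← hz'v, h]; rfl
  have hz'z' : z' * z' = 1 := by
    apply ext'
    show ((z' : ↥C) : G) * ((z' : ↥C) : G) = 1
    rw [hz'v]; exact hzz
  obtain ⟨B', hB'⟩ : ∃ B' : Subgroup G,
      B' = (B.map (Cfsg.generalizedFittingSubgroup ↥C).subtype).map C.subtype := ⟨_, rfl⟩
  rw [← hB']
  have memB' : ∀ y, y ∈ B' ↔ ∃ b ∈ B, ((b : ↥C) : G) = y := by
    intro y
    rw [hB']
    constructor
    · rintro ⟨_, ⟨b, hb, rfl⟩, rfl⟩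
      exact ⟨b, hb, rfl⟩
    · rintro ⟨b, hb, rfl⟩
      exact ⟨_, ⟨b, hb, rfl⟩, rfl⟩
  have hBn : B.Normal := inferInstance
  have hBcyc : IsCyclic ↥B := hQ.2 B hBc hBa
  have hZcyc : IsCyclic ↥(Subgroup.center ↥(Cfsg.generalizedFittingSubgroup ↥C)) :=
    hQ.2 _ inferInstance inferInstance
  -- involutions of `B`
  have invB : ∀ u ∈ B, u * u = 1 → u ≠ 1 → u = z' := by
    intro u hu huu hu1
    have hBbot : ¬ B ≤ ⊥ := fun h => hu1 (Subgroup.mem_bot.1 (h hu))
    obtain ⟨a, haB, ha1, hac⟩ := Sym4.exists_central_mod hQ.1 hBbot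
    rw [Subgroup.mem_bot] at ha1
    obtain ⟨n, hn, hn1⟩ := exists_pow_invol hQ.1 ha1
    have hacen : a ∈ Subgroup.center ↥(Cfsg.generalizedFittingSubgroup ↥C) := by
      rw [Subgroup.mem_center_iff]
      intro x
      have := Subgroup.mem_bot.1 (hac x)
      calc x * a = (x * a * x⁻¹ * a⁻¹) * (a * x) := by group
        _ = a * x := by rw [this, one_mul]
    have hancen := Subgroup.pow_mem _ hacen n
    have hzcen : z' ∈ Subgroup.center ↥(Cfsg.generalizedFittingSubgroup ↥C) :=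
      Subgroup.mem_center_iff.2 hz'c
    have h1 := Sym4.invol_unique_of_cyclic
      (A := ↥(Subgroup.center ↥(Cfsg.generalizedFittingSubgroup ↥C))) (a := ⟨a ^ n, hancen⟩)
      (u := ⟨z', hzcen⟩) (fun h => hn1 (congrArg Subtype.val h)) (Subtype.ext hn)
      (fun h => hz'1 (congrArg Subtype.val h)) (Subtype.ext hz'z')
    have h2 : a ^ n = z' := congrArg Subtype.val h1
    have hzB : z' ∈ B := h2 ▸ B.pow_mem haB n
    have h3 := Sym4.invol_unique_of_cyclic (A := ↥B) (a := ⟨u, hu⟩) (u := ⟨z', hzB⟩)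
      (fun h => hu1 (congrArg Subtype.val h)) (Subtype.ext huu)
      (fun h => hz'1 (congrArg Subtype.val h)) (Subtype.ext hz'z')
    exact congrArg Subtype.val h3
  have invB' : ∀ u ∈ B', u * u = 1 → u ≠ 1 → u = z := by
    intro u hu huu hu1
    obtain ⟨b, hb, rfl⟩ := (memB' u).1 hu
    have := invB b hb (ext' _ _ huu) (fun h => hu1 (by rw [h]; rfl))
    rw [this, hz'v]
  -- `C` normalizes `B'`
  have hnorm : ∀ c ∈ C, ∀ y ∈ B', c * y * c⁻¹ ∈ B' := by
    intro c hc y hy
    obtain ⟨b, hb, rfl⟩ := (memB' y).1 hy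
    have h1 := (Subgroup.characteristic_iff_map_eq.1 hBc)
      (MulAut.conjNormal (H := Cfsg.generalizedFittingSubgroup ↥C) (⟨c, hc⟩ : ↥C))
    have h2 : (MulAut.conjNormal (H := Cfsg.generalizedFittingSubgroup ↥C) (⟨c, hc⟩ : ↥C)) b ∈ B := by
      rw [← h1]; exact ⟨b, hb, rfl⟩
    refine (memB' _).2 ⟨_, h2, ?_⟩
    rw [MulAut.conjNormal_apply]
    rfl
  by_cases hbot : B'.map (MulAut.conj g).toMonoidHom ⊓ B' = ⊥
  · exact Or.inr hbot
  · left
    obtain ⟨⟨x, hx⟩, hx1'⟩ := Subgroup.ne_bot_iff_exists_ne_one.1 hbot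
    have hx1 : x ≠ 1 := fun h => hx1' (Subtype.ext h)
    obtain ⟨hx₁, hx₂⟩ := Subgroup.mem_inf.1 hx
    have hB'p : IsPGroup 2 ↥B' := by
      rw [hB']; exact ((hQ.1.to_subgroup B).map _).map _
    obtain ⟨n, hn, hn1⟩ := exists_pow_invol hB'p (x := ⟨x, hx₂⟩) (fun h => hx1 (congrArg Subtype.val h))
    have hn' : (x ^ n) * (x ^ n) = 1 := congrArg Subtype.val hn
    have hn1' : x ^ n ≠ 1 := fun h => hn1 (Subtype.ext h)
    have e1 : x ^ n = z := invB' _ (B'.pow_mem hx₂ n) hn' hn1'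
    have hx₃ : g⁻¹ * (x ^ n) * g ∈ B' := mem_conj_iff.1 (Subgroup.pow_mem _ hx₁ n)
    have e2 : g⁻¹ * (x ^ n) * g = z := by
      apply invB' _ hx₃
      · calc g⁻¹ * x ^ n * g * (g⁻¹ * x ^ n * g) = g⁻¹ * (x ^ n * x ^ n) * g := by group
          _ = 1 := by rw [hn']; group
      · have := Setup.conj_ne_one (g := g⁻¹) hn1'
        rwa [inv_inv] at this
    rw [e1] at e2
    have hgC : g ∈ C := by
      rw [memC]
      calc g * z = g * (g⁻¹ * z * g) := by rw [e2]
        _ = z * g := by group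
    ext y
    rw [mem_conj_iff]
    constructor
    · intro h
      have := hnorm g hgC _ h
      have e : g * (g⁻¹ * y * g) * g⁻¹ = y := by group
      rwa [e] at this
    · intro h
      have := hnorm g⁻¹ (C.inv_mem hgC) _ h
      rwa [inv_inv] at this

/-- Let G be a finite group and let z be an involution of G such that Q, the generalized Fitting subgroup of the centralizer C of z, is a 2-group of symplectic type (every characteristic abelian subgroup of Q is cyclic). Let B be a characteristic abelian subgroup of Q, viewed as a subgroup of G. Then for every g in G, the conjugate of B by g either equals B or meets B trivially. -/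
theorem result {G : Type*} [Group G] [Finite G] (z : G) (hz : orderOf z = 2) (hQ : Cfsg.IsOfSymplecticType ↥(Cfsg.generalizedFittingSubgroup ↥(Subgroup.centralizer ({z} : Set G))))
    (B : Subgroup ↥(Cfsg.generalizedFittingSubgroup ↥(Subgroup.centralizer ({z} : Set G)))) (hBc : B.Characteristic) (hBa : IsMulCommutative ↥B) (g : G) :
    ((B.map (Cfsg.generalizedFittingSubgroup ↥(Subgroup.centralizer ({z} : Set G))).subtype).map (Subgroup.centralizer ({z} : Set G)).subtype).map (MulAut.conj g).toMonoidHom =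
        (B.map (Cfsg.generalizedFittingSubgroup ↥(Subgroup.centralizer ({z} : Set G))).subtype).map (Subgroup.centralizer ({z} : Set G)).subtype ∨
      ((B.map (Cfsg.generalizedFittingSubgroup ↥(Subgroup.centralizer ({z} : Set G))).subtype).map (Subgroup.centralizer ({z} : Set G)).subtype).map (MulAut.conj g).toMonoidHom ⊓
        (B.map (Cfsg.generalizedFittingSubgroup ↥(Subgroup.centralizer ({z} : Set G))).subtype).map (Subgroup.centralizer ({z} : Set G)).subtype = ⊥ := by
  exact aux z hz _ rfl hQ B hBc hBa g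

end Cfsg.Agent.S1755
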