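import Cfsg.Statements.S1756
import Cfsg.Agent.Lib.Helper27.Extra
import Cfsg.Agent.H20.Extra3

set_option autoImplicit false
open Cfsg

namespace Cfsg.Agent.S1756

open Subgroup

theorem central_aux {E : Type*} [Group E] [Finite E] (hE : Cfsg.IsExtraspecial 2 E) (φ : E →* E)
    (hinv : ∀ x, φ (φ x) = x) (M : Subgroup E) (hM : ∀ x, x ∈ M ↔ φ x = x) (hi : M.index ≤ 2) (x : E) :
    φ x * x⁻¹ ∈ center E := by
  classical
  by_cases hx : x ∈ M
  · rw [(hM x).mp hx, mul_inv_cancel]; exact one_mem _
  have hi2 : M.index = 2 := by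
    have h0 : M.index ≠ 0 := Subgroup.index_ne_zero_of_finite
    have h1 : M.index ≠ 1 := by
      intro h
      rw [Subgroup.index_eq_one] at h
      exact hx (h ▸ mem_top x)
    omega
  have hnorm : M.Normal := Subgroup.normal_of_index_eq_two hi2
  have hZ2 : Nat.card (center E) = 2 := hE.2
  -- the centre is fixed by φ
  have hφinj : Function.Injective φ := fun a b hab => by rw [← hinv a, ← hinv b, hab]
  have hcen : ∀ z ∈ center E, φ z = z := by
    intro z hz
    have hφz : φ z ∈ center E := by
      rw [mem_center_iff]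
      intro y
      have h1 := (mem_center_iff.mp hz) (φ y)
      have h2 := congrArg φ h1
      rw [map_mul, map_mul, hinv] at h2
      exact h2
    by_cases hz1 : z = 1
    · rw [hz1, map_one]
    · have hφz1 : φ z ≠ 1 := fun h => hz1 (hφinj (h.trans (map_one φ).symm))
      by_contra hne
      haveI := Fintype.ofFinite (center E)
      have h1 : ({1, ⟨z, hz⟩, ⟨φ z, hφz⟩} : Finset (center E)).card = 3 := by
        rw [Finset.card_insert_of_notMem, Finset.card_insert_of_notMem, Finset.card_singleton]
        · simp only [Finset.mem_singleton, Subtype.mk.injEq]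
          exact fun h => hne h.symm
        · simp only [Finset.mem_insert, Finset.mem_singleton, not_or]
          refine ⟨fun h => hz1 (congrArg Subtype.val h).symm, fun h => hφz1 (congrArg Subtype.val h).symm⟩
      have h2 := Finset.card_le_univ ({1, ⟨z, hz⟩, ⟨φ z, hφz⟩} : Finset (center E))
      rw [h1, ← Nat.card_eq_fintype_card, hZ2] at h2
      omega
  set c := φ x * x⁻¹ with hc
  have hφx : φ x = c * x := by rw [hc]; group
  -- (a) c commutes with M
  have ha : ∀ m ∈ M, Commute c m := by
    intro m hm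
    have h1 : x⁻¹ * m * x ∈ M := by
      have := hnorm.conj_mem m hm x⁻¹
      rwa [inv_inv] at this
    have h2 := (hM _).mp h1
    rw [map_mul, map_mul, map_inv, (hM m).mp hm] at h2
    -- (φ x)⁻¹ m φ x = x⁻¹ m x
    show c * m = m * c
    calc c * m = φ x * (x⁻¹ * m * x) * x⁻¹ := by rw [hc]; group
      _ = φ x * ((φ x)⁻¹ * m * φ x) * x⁻¹ := by rw [h2]
      _ = m * c := by rw [hc]; group
  have hmem : ∀ w, (∀ y, y ∉ M → Commute w y) → (∀ m ∈ M, Commute w m) → w ∈ center E := by
    intro w h1 h2
    rw [mem_center_iff]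
    intro y
    by_cases hy : y ∈ M
    · exact (h2 y hy).eq.symm
    · exact (h1 y hy).eq.symm
  by_cases hcM : c ∈ M
  · -- (c)
    have hφc : φ c = c := (hM c).mp hcM
    have hc2 : c * c = 1 := by
      have h1 := hinv x
      rw [hφx, map_mul, hφc, hφx] at h1
      have h2 : c * c * x = 1 * x := by rw [one_mul, mul_assoc]; exact h1
      exact mul_right_cancel h2
    have hx2 : φ (x ^ 2) = x ^ 2 := hcen _ (Cfsg.Agent.H20.IsExtraspecial.pow_mem_center hE x)
    have hcx : Commute c x := by
      rw [map_pow, hφx] at hx2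
      -- (c x)^2 = x^2
      have h1 : c * x * c = x := by
        have h2 : (c * x * c) * x = x * x := by
          calc (c * x * c) * x = (c * x) ^ 2 := by rw [pow_two]; group
            _ = x ^ 2 := hx2
            _ = x * x := pow_two x
        exact mul_right_cancel h2
      show c * x = x * c
      calc c * x = c * x * (c * c) := by rw [hc2, mul_one]
        _ = (c * x * c) * c := by group
        _ = x * c := by rw [h1]
    apply hmem c _ ha
    intro y hy
    have h1 : y * x ∈ M := (Subgroup.mul_mem_iff_of_index_two hi2).mpr (iff_of_false hy hx)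
    have h2 := ha _ h1
    have h3 : Commute c (y * x * x⁻¹) := h2.mul_right hcx.inv_right
    rwa [mul_inv_cancel_right] at h3
  · -- (b)
    apply hmem c _ ha
    intro y hy
    have h1 : y * c ∈ M := (Subgroup.mul_mem_iff_of_index_two hi2).mpr (iff_of_false hy hcM)
    have h2 := ha _ h1
    have h3 : Commute c (y * c * c⁻¹) := h2.mul_right (Commute.refl c).inv_right
    rwa [mul_inv_cancel_right] at h3

theorem result {G : Type*} [Group G] [Finite G] (Q : Subgroup G)
    (hQ : Cfsg.IsExtraspecial 2 ↥Q) (t : G) (ht : orderOf t = 2) (htN : t ∈ Subgroup.normalizer (Q : Set G))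
    (hi : (Subgroup.centralizer ({t} : Set G) ⊓ Q).relIndex Q ≤ 2) :
    t ∈ Q ⊔ Subgroup.centralizer (Q : Set G) := by
  have ht2 : t * t = 1 := by rw [← pow_two, ← ht]; exact pow_orderOf_eq_one t
  have htinv : t⁻¹ = t := inv_eq_of_mul_eq_one_left ht2
  have hN : ∀ x ∈ Q, t * x * t⁻¹ ∈ Q := fun x hx => (Subgroup.mem_normalizer_iff.mp htN x).mp hx
  let φ : Q →* Q :=
    { toFun := fun x => ⟨t * x * t⁻¹, hN x x.2⟩
      map_one' := by ext; simp
      map_mul' := fun x y => by ext; simp }
  have hφ : ∀ x : Q, ((φ x : Q) : G) = t * x * t⁻¹ := fun x => rfl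
  have hinv : ∀ x, φ (φ x) = x := by
    intro x
    ext
    rw [hφ, hφ, htinv]
    calc t * (t * x * t) * t = (t * t) * x * (t * t) := by group
      _ = x := by rw [ht2, one_mul, mul_one]
  let M : Subgroup Q := (Subgroup.centralizer ({t} : Set G)).subgroupOf Q
  have hM : ∀ x, x ∈ M ↔ φ x = x := by
    intro x
    rw [Subgroup.mem_subgroupOf, Subgroup.mem_centralizer_singleton_iff, Subtype.ext_iff, hφ]
    constructor
    · intro h
      rw [mul_inv_eq_iff_eq_mul]; exact h.symm
    · intro h
      rw [mul_inv_eq_iff_eq_mul] at h; exact h.symm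
  have hMi : M.index ≤ 2 := by
    rw [Subgroup.inf_relIndex_right] at hi
    exact hi
  obtain ⟨g, hg⟩ := Cfsg.Agent.Lib.Helper27.Extra.inner_of_central hQ φ
    (central_aux hQ φ hinv M hM hMi)
  have h1 : (g : G)⁻¹ * t ∈ Subgroup.centralizer (Q : Set G) := by
    rw [Subgroup.mem_centralizer_iff]
    intro x hx
    have h2 := congrArg Subtype.val (hg ⟨x, hx⟩)
    rw [hφ] at h2
    simp only [Subgroup.coe_mul, Subgroup.coe_inv] at h2
    -- t x t⁻¹ = g x g⁻¹
    calc x * ((g : G)⁻¹ * t) = (g : G)⁻¹ * ((g : G) * x * (g : G)⁻¹) * t := by group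
      _ = (g : G)⁻¹ * (t * x * t⁻¹) * t := by rw [h2]
      _ = (g : G)⁻¹ * t * x := by group
  have h2 : t = (g : G) * ((g : G)⁻¹ * t) := by group
  rw [h2]
  exact Subgroup.mul_mem _ (Subgroup.mem_sup_left g.2) (Subgroup.mem_sup_right h1)

end Cfsg.Agent.S1756
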