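import Cfsg.Statements.S1774
import Cfsg.Agent.Lib.Helper27.XS11

set_option autoImplicit false
open Cfsg

namespace Cfsg.Agent.S1774

open Cfsg.Agent.Lib.Helper27.XS

theorem aux {G : Type*} [Group G] [Finite G] {Q : Subgroup G} {z : G} (S : Setup4 Q z) (g : G)
    (hne : g * z * g⁻¹ ≠ z) (hin : g * z * g⁻¹ ∈ Q) :
    z ∈ Q.map (MulAut.conj g).toMonoidHom ∧
      ∀ u ∈ Subgroup.closure ({z, g * z * g⁻¹} : Set G),
        ∀ v ∈ Subgroup.closure ({z, g * z * g⁻¹} : Set G), u ≠ 1 → v ≠ 1 → u ≠ v →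
          ∃ x ∈ Q ⊔ Q.map (MulAut.conj g).toMonoidHom,
            x * z * x⁻¹ = u ∧ x * (g * z * g⁻¹) * x⁻¹ = v := by
  have hzg : g⁻¹ * z * g ∈ Q := S.z_mem_conj hin hne
  refine ⟨mem_conj_iff.2 hzg, ?_⟩
  obtain ⟨t, htg⟩ : ∃ t, t = g * z * g⁻¹ := ⟨_, rfl⟩
  rw [← htg] at hne hin ⊢
  have hzz := S.zz
  have ht1 : t ≠ 1 := htg ▸ Setup.conj_ne_one S.z1
  have htt : t * t = 1 := by
    rw [htg]
    calc g * z * g⁻¹ * (g * z * g⁻¹) = g * (z * z) * g⁻¹ := by group
      _ = 1 := by rw [S.zz]; group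
  have htz : t * z = z * t := S.zc _ hin
  obtain ⟨q, hq, hqt⟩ := S.exists_conj_mul hin ht1 hne htt
  have hqz : q * z * q⁻¹ = z := by rw [S.zc _ hq]; group
  obtain ⟨s, hs⟩ : ∃ s, s = g⁻¹ * z * g := ⟨_, rfl⟩
  rw [← hs] at hzg
  have hs1 : s ≠ 1 := by
    have := Setup.conj_ne_one (g := g⁻¹) S.z1
    rw [inv_inv] at this
    rw [hs]; exact this
  have hsz : s ≠ z := by
    intro h
    apply hne
    rw [htg]
    calc g * z * g⁻¹ = g * s * g⁻¹ := by rw [h]
      _ = z := by rw [hs]; group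
  have hss : s * s = 1 := by
    rw [hs]
    calc g⁻¹ * z * g * (g⁻¹ * z * g) = g⁻¹ * (z * z) * g := by group
      _ = 1 := by rw [S.zz]; group
  obtain ⟨q₁, hq₁, hq₁s⟩ := S.exists_conj_mul hzg hs1 hsz hss
  obtain ⟨p, hp⟩ : ∃ p, p = g * q₁ * g⁻¹ := ⟨_, rfl⟩
  have hpQ : p ∈ Q.map (MulAut.conj g).toMonoidHom := by
    rw [mem_conj_iff, hp]
    have : g⁻¹ * (g * q₁ * g⁻¹) * g = q₁ := by group
    rw [this]; exact hq₁
  have hpz : p * z * p⁻¹ = z * t := by
    rw [hp]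
    calc g * q₁ * g⁻¹ * z * (g * q₁ * g⁻¹)⁻¹ = g * (q₁ * (g⁻¹ * z * g) * q₁⁻¹) * g⁻¹ := by group
      _ = g * (z * s) * g⁻¹ := by rw [← hs, hq₁s]
      _ = (g * z * g⁻¹) * (g * s * g⁻¹) := by group
      _ = t * z := by rw [← htg, hs]; group
      _ = z * t := htz
  have hpt : p * t * p⁻¹ = t := by
    rw [hp, htg]
    calc g * q₁ * g⁻¹ * (g * z * g⁻¹) * (g * q₁ * g⁻¹)⁻¹ = g * (q₁ * z) * q₁⁻¹ * g⁻¹ := by group
      _ = g * (z * q₁) * q₁⁻¹ * g⁻¹ := by rw [S.zc _ hq₁]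
      _ = _ := by group
  have hqX : q ∈ Q ⊔ Q.map (MulAut.conj g).toMonoidHom := Subgroup.mem_sup_left hq
  have hpX : p ∈ Q ⊔ Q.map (MulAut.conj g).toMonoidHom := Subgroup.mem_sup_right hpQ
  have cj : ∀ a b x : G, (a * b) * x * (a * b)⁻¹ = a * (b * x * b⁻¹) * a⁻¹ := by
    intro a b x; group
  have cm : ∀ a x y : G, a * (x * y) * a⁻¹ = (a * x * a⁻¹) * (a * y * a⁻¹) := by
    intro a x y; group
  have e1 : z * (z * t) = t := by rw [← mul_assoc, hzz, one_mul]
  have e2 : z * t * t = z := by rw [mul_assoc, htt, mul_one]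
  rw [closure_pair_eq_four hzz htt htz]
  intro u hu v hv hu1 hv1 huv
  rcases mem_four.1 hu with rfl | rfl | rfl | rfl
  · exact absurd rfl hu1
  · rcases mem_four.1 hv with rfl | rfl | rfl | rfl
    · exact absurd rfl hv1
    · exact absurd rfl huv
    · exact ⟨1, Subgroup.one_mem _, by simp, by simp⟩
    · exact ⟨q, hqX, hqz, hqt⟩
  · rcases mem_four.1 hv with rfl | rfl | rfl | rfl
    · exact absurd rfl hv1
    · refine ⟨q * (p * q), Subgroup.mul_mem _ hqX (Subgroup.mul_mem _ hpX hqX), ?_, ?_⟩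
      · rw [cj, cj, hqz, hpz, cm q, hqz, hqt, e1]
      · rw [cj, cj, hqt, cm p, hpz, hpt, e2, hqz]
    · exact absurd rfl huv
    · refine ⟨q * p, Subgroup.mul_mem _ hqX hpX, ?_, ?_⟩
      · rw [cj, hpz, cm q, hqz, hqt, e1]
      · rw [cj, hpt, hqt]
  · rcases mem_four.1 hv with rfl | rfl | rfl | rfl
    · exact absurd rfl hv1
    · refine ⟨p * q, Subgroup.mul_mem _ hpX hqX, ?_, ?_⟩
      · rw [cj, hqz, hpz]
      · rw [cj, hqt, cm p, hpz, hpt, e2]
    · exact ⟨p, hpX, hpz, hpt⟩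
    · exact absurd rfl huv

/-- Let G be a finite group and let z be an involution of G such that Q, the generalized Fitting subgroup of the centralizer C of z, is a 2-group of symplectic type (every characteristic abelian subgroup of Q is cyclic); suppose every element of Q has order dividing 4. Let g ∈ G with z' = g z g⁻¹ ≠ z and z' ∈ Q. Then z lies in the conjugate g Q g⁻¹, and the subgroup X generated by Q and g Q g⁻¹ induces every automorphism of the four-group generated by z and z': for any two distinct non-identity elements u, v of that four-group there is x ∈ X with x z x⁻¹ = u and x z' x⁻¹ = v. -/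
theorem result {G : Type*} [Group G] [Finite G] (z : G) (hz : orderOf z = 2) (hQ : Cfsg.IsOfSymplecticType ↥(Cfsg.generalizedFittingSubgroup ↥(Subgroup.centralizer ({z} : Set G))))
    (h4 : ∀ q ∈ (Cfsg.generalizedFittingSubgroup ↥(Subgroup.centralizer ({z} : Set G))).map (Subgroup.centralizer ({z} : Set G)).subtype, q ^ 4 = 1) (g : G) (hne : g * z * g⁻¹ ≠ z) (hin : g * z * g⁻¹ ∈ (Cfsg.generalizedFittingSubgroup ↥(Subgroup.centralizer ({z} : Set G))).map (Subgroup.centralizer ({z} : Set G)).subtype) :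
    z ∈ ((Cfsg.generalizedFittingSubgroup ↥(Subgroup.centralizer ({z} : Set G))).map (Subgroup.centralizer ({z} : Set G)).subtype).map (MulAut.conj g).toMonoidHom ∧
      ∀ u ∈ Subgroup.closure ({z, g * z * g⁻¹} : Set G), ∀ v ∈ Subgroup.closure ({z, g * z * g⁻¹} : Set G),
        u ≠ 1 → v ≠ 1 → u ≠ v →
          ∃ x ∈ (Cfsg.generalizedFittingSubgroup ↥(Subgroup.centralizer ({z} : Set G))).map (Subgroup.centralizer ({z} : Set G)).subtype ⊔ ((Cfsg.generalizedFittingSubgroup ↥(Subgroup.centralizer ({z} : Set G))).map (Subgroup.centralizer ({z} : Set G)).subtype).map (MulAut.conj g).toMonoidHom, x * z * x⁻¹ = u ∧ x * (g * z * g⁻¹) * x⁻¹ = v := by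
  exact aux (Setup4.of_fstar hz rfl hQ h4) g hne hin

end Cfsg.Agent.S1774
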