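import Mathlib
import Cfsg.Statements.S1780

set_option autoImplicit false
open Cfsg

namespace Cfsg.Agent.S1780

/-- Key step: if `t⁴ a = a` then `t² a = a`. -/
theorem step {A : Type*} [CommGroup A] [Finite A]
    (hA : IsPGroup 2 A) (t : MulAut A) (hC : ∀ a : A, t (t a) = a → t a = a)
    (a : A) (ha : t (t (t (t a))) = a) : t (t a) = a := by
  by_contra hne
  set b : A := t (t a) * a⁻¹ with hb
  have hb1 : b ≠ 1 := by
    intro h
    apply hne
    rw [hb] at h
    exact mul_inv_eq_one.mp h
  have htb : t (t b) = b⁻¹ := by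
    rw [hb]
    simp only [map_mul, map_inv, ha]
    simp [mul_comm]
  haveI : Fact (Nat.Prime 2) := ⟨Nat.prime_two⟩
  obtain ⟨m, hm⟩ := hA.exists_orderOf_eq_pow b
  obtain ⟨n, rfl⟩ : ∃ n, m = n + 1 := by
    cases m with
    | zero => exfalso; apply hb1; simpa using hm
    | succ n => exact ⟨n, rfl⟩
  set c : A := b ^ (2 ^ n) with hc
  have hc1 : c ≠ 1 := by
    apply pow_ne_one_of_lt_orderOf (by positivity)
    rw [hm]
    exact Nat.pow_lt_pow_right (by norm_num) (by omega)
  have hc2 : c * c = 1 := by
    rw [hc, ← pow_add, ← two_mul, ← pow_succ', ← hm]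
    exact pow_orderOf_eq_one b
  have hcinv : c⁻¹ = c := by
    rw [inv_eq_iff_mul_eq_one]; exact hc2
  have htc : t (t c) = c := by
    rw [hc, map_pow, map_pow, htb, inv_pow, ← hc, hcinv]
  have htc' : t c = c := hC c htc
  set a' : A := a ^ (2 ^ n) with ha'
  have hca : c = t (t a') * a'⁻¹ := by
    rw [hc, hb, ha', mul_pow, map_pow, map_pow, inv_pow]
  set d : A := t a' * a' with hd
  have htd : t d = c * d := by
    rw [hd, hca, map_mul]
    simp only [mul_assoc]
    congr 1
    rw [mul_comm (t a') a', ← mul_assoc, inv_mul_cancel, one_mul]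
  have httd : t (t d) = d := by
    rw [htd, map_mul, htd, htc', ← mul_assoc, hc2, one_mul]
  have := hC d httd
  rw [htd] at this
  exact hc1 (by simpa using this)

theorem aux {A : Type*} [CommGroup A] [Finite A] (hA : IsPGroup 2 A) (k : ℕ) :
    ∀ t : MulAut A, t ^ (2 ^ k) = 1 → (∀ a : A, t (t a) = a → t a = a) → ∀ a : A, t a = a := by
  induction k with
  | zero =>
    intro t ht _ a
    simp only [pow_zero, pow_one] at ht
    rw [ht]; rfl
  | succ k ih =>
    intro t ht hC a
    have h2 : ∀ a : A, (t ^ 2) a = a := by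
      apply ih (t ^ 2)
      · rw [← pow_mul, ← pow_succ']; exact ht
      · intro x hx
        have : t (t (t (t x))) = x := by
          simpa [pow_two, MulAut.mul_apply] using hx
        simpa [pow_two, MulAut.mul_apply] using step hA t hC x this
    apply hC
    simpa [pow_two, MulAut.mul_apply] using h2 a

/-- Let A be a finite abelian 2-group and t an automorphism of A whose order is a power of 2. If every element of A fixed by t² is fixed by t, then t fixes every element of A. -/
theorem result {A : Type*} [CommGroup A] [Finite A]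
    (hA : IsPGroup 2 A) (t : MulAut A) (ht : ∃ k : ℕ, orderOf t = 2 ^ k) (hC : ∀ a : A, t (t a) = a → t a = a) :
    ∀ a : A, t a = a := by
  obtain ⟨k, hk⟩ := ht
  exact aux hA k t (by rw [← hk]; exact pow_orderOf_eq_one t) hC

end Cfsg.Agent.S1780
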