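import Mathlib
import Cfsg.Statements.S1781
import Cfsg.Agent.Lib.Helper11.TI
import Cfsg.Agent.S1780

set_option autoImplicit false
open Cfsg

namespace Cfsg.Agent.S1781

open Cfsg.Agent.Lib.Helper11

/-- conjugation by a normalizing element, as an automorphism of the subgroup -/
def conjAut {G : Type*} [Group G] (B : Subgroup G) (d : G)
    (hd : d ∈ Subgroup.normalizer (B : Set G)) : MulAut B where
  toFun b := ⟨d * b * d⁻¹, (Subgroup.mem_normalizer_iff.mp hd b).mp b.2⟩
  invFun b := ⟨d⁻¹ * b * d, (Subgroup.mem_normalizer_iff''.mp hd b).mp b.2⟩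
  left_inv b := by apply Subtype.ext; simp [mul_assoc]
  right_inv b := by apply Subtype.ext; simp [mul_assoc]
  map_mul' a b := by apply Subtype.ext; simp [mul_assoc]

theorem conjAut_apply {G : Type*} [Group G] (B : Subgroup G) (d : G)
    (hd : d ∈ Subgroup.normalizer (B : Set G)) (b : B) :
    ((conjAut B d hd b : B) : G) = d * b * d⁻¹ := rfl

theorem conjAut_pow {G : Type*} [Group G] (B : Subgroup G) (d : G)
    (hd : d ∈ Subgroup.normalizer (B : Set G)) (n : ℕ) (b : B) :
    (((conjAut B d hd) ^ n) b : G) = d ^ n * b * (d ^ n)⁻¹ := by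
  induction n generalizing b with
  | zero => simp
  | succ n ih =>
    rw [pow_succ, MulAut.mul_apply, ih, conjAut_apply, pow_succ]
    simp [mul_assoc]

/-- Let A be an abelian 2-subgroup of the finite group G such that every conjugate of A equals A or meets A trivially, and let g ∈ G with g A g⁻¹ ≠ A. Then either the subgroup of those elements of A that normalize g A g⁻¹ is an elementary abelian 2-group, or A and g A g⁻¹ commute elementwise. -/
theorem result {G : Type*} [Group G] [Finite G] (A : Subgroup G)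
    (hA2 : IsPGroup 2 ↥A) (hAa : IsMulCommutative ↥A)
    (hti : ∀ h : G, A.map (MulAut.conj h).toMonoidHom = A ∨ A.map (MulAut.conj h).toMonoidHom ⊓ A = ⊥)
    (g : G) (hg : A.map (MulAut.conj g).toMonoidHom ≠ A) :
    Cfsg.IsElementaryAbelian 2 (A ⊓ Subgroup.normalizer ((A.map (MulAut.conj g).toMonoidHom : Subgroup G) : Set G)) ∨
      ⁅A, A.map (MulAut.conj g).toMonoidHom⁆ = ⊥ := by
  set B : Subgroup G := A.map (MulAut.conj g).toMonoidHom with hB
  have hcommA : ∀ x ∈ A, ∀ y ∈ A, x * y = y * x := by
    intro x hx y hy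
    have := hAa.is_comm.comm (⟨x, hx⟩ : A) ⟨y, hy⟩
    exact congrArg Subtype.val this
  by_cases hel : ∀ d ∈ A ⊓ Subgroup.normalizer (B : Set G), d ^ 2 = 1
  · left
    refine ⟨⟨⟨fun x y => ?_⟩⟩, hel⟩
    apply Subtype.ext
    exact hcommA x (Subgroup.mem_inf.mp x.2).1 y (Subgroup.mem_inf.mp y.2).1
  right
  push Not at hel
  obtain ⟨d, hd, hd2⟩ := hel
  obtain ⟨hdA, hdN⟩ := Subgroup.mem_inf.mp hd
  have hAB : A ⊓ B = ⊥ := by
    rcases hti g with h | h
    · exact absurd h hg
    · rw [inf_comm]; exact h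
  -- B is TI
  have hBti : ∀ h : G, B.map (MulAut.conj h).toMonoidHom = B ∨ B.map (MulAut.conj h).toMonoidHom ⊓ B = ⊥ := by
    intro h
    have key : B.map (MulAut.conj h).toMonoidHom
        = (A.map (MulAut.conj (g⁻¹ * h * g)).toMonoidHom).map (MulAut.conj g).toMonoidHom := by
      ext x
      simp only [hB, mem_map_conj]
      simp [mul_assoc]
    rcases hti (g⁻¹ * h * g) with h1 | h1
    · left; rw [key, h1]
    · right
      rw [key, hB, eq_bot_iff]
      intro x hx
      obtain ⟨hx1, hx2⟩ := Subgroup.mem_inf.mp hx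
      rw [mem_map_conj] at hx1 hx2
      have : g⁻¹ * x * g ∈ A.map (MulAut.conj (g⁻¹ * h * g)).toMonoidHom ⊓ A := Subgroup.mem_inf.mpr ⟨hx1, hx2⟩
      rw [h1, Subgroup.mem_bot] at this
      rw [Subgroup.mem_bot]
      have h3 : x = g * (g⁻¹ * x * g) * g⁻¹ := by simp [mul_assoc]
      rw [h3, this]; simp
  have hcard : Nat.card A = Nat.card B := by
    rw [hB]
    exact (Nat.card_congr (A.equivMapOfInjective _ (MulAut.conj g).injective).toEquiv)
  have hcommB : ∀ x ∈ B, ∀ y ∈ B, x * y = y * x := by
    intro x hx y hy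
    rw [hB, mem_map_conj] at hx hy
    have := hcommA _ hx _ hy
    have h1 : g * ((g⁻¹ * x * g) * (g⁻¹ * y * g)) * g⁻¹ = g * ((g⁻¹ * y * g) * (g⁻¹ * x * g)) * g⁻¹ := by rw [this]
    simpa [mul_assoc] using h1
  -- an element e ≠ 1 of A commuting with b forces b to normalize A
  have hnormA : ∀ b : G, ∀ e ∈ A, e ≠ 1 → b * e = e * b → A.map (MulAut.conj b).toMonoidHom = A := by
    intro b e he he1 hbe
    rcases hti b with h | h
    · exact h
    · exfalso
      have : e ∈ A.map (MulAut.conj b).toMonoidHom ⊓ A := by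
        rw [Subgroup.mem_inf]
        refine ⟨?_, he⟩
        rw [mem_map_conj]
        have : b⁻¹ * e * b = e := by rw [mul_assoc, ← hbe, ← mul_assoc]; simp
        rw [this]; exact he
      rw [h] at this
      exact he1 (Subgroup.mem_bot.mp this)
  have hd1 : d ≠ 1 := by
    intro h; apply hd2; rw [h]; simp
  letI instB : CommGroup B :=
    { (inferInstance : Group B) with
      mul_comm := fun x y => Subtype.ext (hcommB x x.2 y y.2) }
  have hB2 : IsPGroup 2 B := by
    rw [hB]
    exact hA2.map _
  -- d centralizes B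
  have hcent : ∀ b : B, conjAut B d hdN b = b := by
    apply Cfsg.Agent.S1780.result hB2 (conjAut B d hdN)
    · obtain ⟨k, hk⟩ := hA2 ⟨d, hdA⟩
      have hk' : d ^ 2 ^ k = 1 := by
        have := congrArg Subtype.val hk
        simpa using this
      have : (conjAut B d hdN) ^ (2 ^ k) = 1 := by
        ext b
        rw [conjAut_pow, hk']
        simp
      have hdvd := orderOf_dvd_of_pow_eq_one this
      obtain ⟨j, _, hj⟩ := (Nat.dvd_prime_pow Nat.prime_two).mp hdvd
      exact ⟨j, hj⟩
    · intro b hb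
      have hb' : d * (d * b * d⁻¹) * d⁻¹ = b := by
        have := congrArg Subtype.val hb
        simpa [conjAut_apply] using this
      have hcomm2 : (b : G) * d ^ 2 = d ^ 2 * b := by
        have : d * (d * b * d⁻¹) * d⁻¹ * (d * d) = b * (d * d) := by rw [hb']
        rw [pow_two]
        rw [← this]; simp [mul_assoc]
      have hAb := hnormA b (d ^ 2) (A.pow_mem hdA 2) hd2 hcomm2
      have h1 : d * b * d⁻¹ * (b : G)⁻¹ ∈ A ⊓ B := by
        rw [Subgroup.mem_inf]
        constructor
        · have : d * b * d⁻¹ * (b : G)⁻¹ = d * (b * d⁻¹ * (b : G)⁻¹) := by simp [mul_assoc]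
          rw [this]
          apply A.mul_mem hdA
          rw [← hAb]
          exact conj_mem_map_conj A b _ (A.inv_mem hdA)
        · exact B.mul_mem ((Subgroup.mem_normalizer_iff.mp hdN b).mp b.2) (B.inv_mem b.2)
      rw [hAB, Subgroup.mem_bot, mul_inv_eq_one] at h1
      apply Subtype.ext
      rw [conjAut_apply]; exact h1
  have hBN : B ≤ Subgroup.normalizer (A : Set G) := by
    intro b hb
    have h1 : d * b * d⁻¹ = b := by
      have := congrArg Subtype.val (hcent ⟨b, hb⟩)
      simpa [conjAut_apply] using this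
    have h2 : b * d = d * b := by
      rw [mul_inv_eq_iff_eq_mul] at h1; exact h1.symm
    have := hnormA b d hdA hd1 h2
    rw [Subgroup.mem_normalizer_iff_map_conj_eq]
    exact this
  exact commutator_eq_bot_of_TI A B hBti hcard.le hAB hBN

end Cfsg.Agent.S1781
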