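import Mathlib
import Cfsg.Statements.S1782
import Cfsg.Agent.H9.TIFam

set_option autoImplicit false
open Cfsg
open scoped commutatorElement

namespace Cfsg.Agent.S1782

/-- Let S be a finite 2-group and Δ a set of subgroups of S closed under conjugation by S, all of the same order, each with nontrivial Frattini subgroup, and such that two distinct members of Δ meet trivially. Then any two distinct members of Δ commute elementwise. -/
theorem result {S : Type*} [Group S] [Finite S] (hS : IsPGroup 2 S)
    (Δ : Set (Subgroup S)) (hinv : ∀ s : S, ∀ R ∈ Δ, R.map (MulAut.conj s).toMonoidHom ∈ Δ)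
    (hΦ : ∀ R ∈ Δ, frattini ↥R ≠ ⊥) (hord : ∀ R ∈ Δ, ∀ T ∈ Δ, Nat.card ↥R = Nat.card ↥T)
    (hti : ∀ R ∈ Δ, ∀ T ∈ Δ, R = T ∨ R ⊓ T = ⊥) :
    ∀ R ∈ Δ, ∀ T ∈ Δ, R ≠ T → ⁅R, T⁆ = ⊥ := by
  haveI : Fact (Nat.Prime 2) := ⟨Nat.prime_two⟩
  have hF : Cfsg.H9.TIFam.Fam (⊤ : Subgroup S) Δ :=
    { le := fun R _ => le_top
      inv := fun s _ R hR => hinv s R hR
      ord := hord
      ti := hti }
  have hsq : ∀ R ∈ Δ, ∃ t ∈ R, t ^ 2 ≠ 1 := by
    intro R hR
    by_contra hcon
    push Not at hcon
    apply hΦ R hR
    rw [eq_bot_iff]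
    apply Cfsg.H1.frattini_pgroup_le 2 (⊥ : Subgroup R)
    · rw [commutator_def, Subgroup.commutator_le]
      intro a _ b _
      rw [Subgroup.mem_bot, commutatorElement_def]
      have ha : a * a = 1 := Subtype.ext (by
        have := hcon a a.2
        rw [sq] at this
        exact this)
      have hb : b * b = 1 := Subtype.ext (by
        have := hcon b b.2
        rw [sq] at this
        exact this)
      have hab : (a * b) * (a * b) = 1 := Subtype.ext (by
        have := hcon (a * b : R) (a * b : R).2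
        rw [sq] at this
        exact this)
      have ha' : a⁻¹ = a := inv_eq_of_mul_eq_one_left ha
      have hb' : b⁻¹ = b := inv_eq_of_mul_eq_one_left hb
      rw [ha', hb', mul_assoc]
      exact hab
    · intro x
      rw [Subgroup.mem_bot]
      exact Subtype.ext (by simpa using hcon x x.2)
  intro R hR T hT hne
  rw [Subgroup.commutator_eq_bot_iff_le_centralizer]
  intro r hr
  rw [Subgroup.mem_centralizer_iff]
  intro t ht
  exact (Cfsg.H9.TIFam.main hS _ ⊤ rfl Δ hF hsq R hR T hT hne r hr t ht).symm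

end Cfsg.Agent.S1782
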