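import Cfsg.Statements.S1783
import Cfsg.Agent.S1782
import Cfsg.Agent.Lib.Helper22.FrattiniFaithful
import Cfsg.Agent.Lib.Helper27.XS7

set_option autoImplicit false
open Cfsg

namespace Cfsg.Agent.S1783

open Cfsg.Agent.Lib.Helper27 Cfsg.Agent.Lib.Helper27.XS
open scoped commutatorElement

/-- The theorem on families of pairwise disjoint subgroups of a `2`-group, for subgroups of an ambient group. -/
theorem ti_family_commute {X : Type*} [Group X] [Finite X] {S₀ : Subgroup X} (hS : IsPGroup 2 ↥S₀)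
    (Δ : Set (Subgroup X)) (hle : ∀ R ∈ Δ, R ≤ S₀)
    (hinv : ∀ s ∈ S₀, ∀ R ∈ Δ, R.map (MulAut.conj s).toMonoidHom ∈ Δ)
    (hsq : ∀ R ∈ Δ, ∃ r ∈ R, r * r ≠ 1) (hord : ∀ R ∈ Δ, ∀ T ∈ Δ, Nat.card ↥R = Nat.card ↥T)
    (hti : ∀ R ∈ Δ, ∀ T ∈ Δ, R = T ∨ R ⊓ T = ⊥) :
    ∀ R ∈ Δ, ∀ T ∈ Δ, R ≠ T → ∀ r ∈ R, ∀ t ∈ T, r * t = t * r := by
  have : Fact (Nat.Prime 2) := ⟨Nat.prime_two⟩
  have key := Cfsg.Agent.S1782.result (S := ↥S₀) hS
    {R' | ∃ R ∈ Δ, R' = R.subgroupOf S₀} ?_ ?_ ?_ ?_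
  · intro R hR T hT hne r hr t ht
    have hne' : R.subgroupOf S₀ ≠ T.subgroupOf S₀ := by
      intro h
      apply hne
      have h1 := congrArg (fun K : Subgroup ↥S₀ => K.map S₀.subtype) h
      simp only [Subgroup.subgroupOf_map_subtype] at h1
      rwa [inf_eq_left.2 (hle R hR), inf_eq_left.2 (hle T hT)] at h1
    have h := key _ ⟨R, hR, rfl⟩ _ ⟨T, hT, rfl⟩ hne'
    have h1 : ⁅(⟨r, hle R hR hr⟩ : ↥S₀), (⟨t, hle T hT ht⟩ : ↥S₀)⁆ ∈
        ⁅R.subgroupOf S₀, T.subgroupOf S₀⁆ :=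
      Subgroup.commutator_mem_commutator (Subgroup.mem_subgroupOf.2 hr) (Subgroup.mem_subgroupOf.2 ht)
    rw [h, Subgroup.mem_bot, commutatorElement_eq_one_iff_mul_comm] at h1
    exact congrArg Subtype.val h1
  · rintro s _ ⟨R, hR, rfl⟩
    refine ⟨_, hinv s.1 s.2 R hR, ?_⟩
    ext x
    rw [mem_conj_iff, Subgroup.mem_subgroupOf, Subgroup.mem_subgroupOf, mem_conj_iff]
    rfl
  · rintro _ ⟨R, hR, rfl⟩
    obtain ⟨r, hr, hrr⟩ := hsq R hR
    have hp : IsPGroup 2 ↥(R.subgroupOf S₀) := hS.to_subgroup _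
    have h1 := (Cfsg.H1.frattini_pgroup_ge 2 hp).2
      ⟨⟨r, hle R hR hr⟩, Subgroup.mem_subgroupOf.2 hr⟩
    intro h
    rw [h, Subgroup.mem_bot] at h1
    apply hrr
    have h2 := congrArg (fun x : ↥(R.subgroupOf S₀) => ((x : ↥S₀) : X)) h1
    simpa [pow_two] using h2
  · rintro _ ⟨R, hR, rfl⟩ _ ⟨T, hT, rfl⟩
    rw [Nat.card_congr (Subgroup.subgroupOfEquivOfLe (hle R hR)).toEquiv,
      Nat.card_congr (Subgroup.subgroupOfEquivOfLe (hle T hT)).toEquiv]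
    exact hord R hR T hT
  · rintro _ ⟨R, hR, rfl⟩ _ ⟨T, hT, rfl⟩
    rcases hti R hR T hT with h | h
    · left; rw [h]
    · right
      rw [eq_bot_iff]
      intro x hx
      have h1 : (x : X) ∈ R ⊓ T := ⟨Subgroup.mem_subgroupOf.1 hx.1, Subgroup.mem_subgroupOf.1 hx.2⟩
      rw [h, Subgroup.mem_bot] at h1
      exact Subgroup.mem_bot.2 (Subtype.ext h1)

theorem map_conj_mul {X : Type*} [Group X] (A : Subgroup X) (s t : X) :
    (A.map (MulAut.conj t).toMonoidHom).map (MulAut.conj s).toMonoidHom =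
      A.map (MulAut.conj (s * t)).toMonoidHom := by
  ext x
  rw [mem_conj_iff, mem_conj_iff, mem_conj_iff]
  have : t⁻¹ * (s⁻¹ * x * s) * t = (s * t)⁻¹ * x * (s * t) := by group
  rw [this]

/-- conjugates of a TI subgroup. -/
theorem ti_conj {X : Type*} [Group X] {A : Subgroup X}
    (hti : ∀ h : X, A.map (MulAut.conj h).toMonoidHom = A ∨ A.map (MulAut.conj h).toMonoidHom ⊓ A = ⊥)
    (s t : X) : A.map (MulAut.conj s).toMonoidHom = A.map (MulAut.conj t).toMonoidHom ∨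
      A.map (MulAut.conj s).toMonoidHom ⊓ A.map (MulAut.conj t).toMonoidHom = ⊥ := by
  rcases hti (t⁻¹ * s) with h | h
  · left
    have := congrArg (fun K : Subgroup X => K.map (MulAut.conj t).toMonoidHom) h
    simp only [map_conj_mul] at this
    rwa [mul_inv_cancel_left] at this
  · right
    rw [eq_bot_iff]
    intro x hx
    have h1 : t⁻¹ * x * t ∈ A.map (MulAut.conj (t⁻¹ * s)).toMonoidHom ⊓ A := by
      refine ⟨?_, mem_conj_iff.1 hx.2⟩
      have h2 := mem_conj_iff.1 hx.1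
      show t⁻¹ * x * t ∈ A.map (MulAut.conj (t⁻¹ * s)).toMonoidHom
      rw [mem_conj_iff]
      have : (t⁻¹ * s)⁻¹ * (t⁻¹ * x * t) * (t⁻¹ * s) = s⁻¹ * x * s := by group
      rw [this]; exact h2
    rw [h, Subgroup.mem_bot] at h1
    rw [Subgroup.mem_bot]
    calc x = t * (t⁻¹ * x * t) * t⁻¹ := by group
      _ = 1 := by rw [h1]; group

/-- Let X be a finite group whose generalized Fitting subgroup equals its largest normal 2-subgroup Q, and let A be an abelian 2-subgroup of X such that every conjugate of A equals A or meets A trivially. Let B be the subgroup generated by the squares of the elements of A. Then B lies in Q, and if B is not an elementary abelian 2-group then the normal closure of B in X is commutative. -/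
theorem result {X : Type*} [Group X] [Finite X]
    (hX : Cfsg.generalizedFittingSubgroup X = Cfsg.pCore 2 X) (A : Subgroup X) (hA2 : IsPGroup 2 ↥A) (hAa : IsMulCommutative ↥A)
    (hti : ∀ h : X, A.map (MulAut.conj h).toMonoidHom = A ∨ A.map (MulAut.conj h).toMonoidHom ⊓ A = ⊥) :
    Subgroup.closure ((fun a : X => a ^ 2) '' (A : Set X)) ≤ Cfsg.pCore 2 X ∧
      (¬ Cfsg.IsElementaryAbelian 2 (Subgroup.closure ((fun a : X => a ^ 2) '' (A : Set X))) →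
        IsMulCommutative ↥(Subgroup.normalClosure ((fun a : X => a ^ 2) '' (A : Set X)))) := by
  have : Fact (Nat.Prime 2) := ⟨Nat.prime_two⟩
  obtain ⟨Q, hQ⟩ : ∃ Q : Subgroup X, Q = Cfsg.pCore 2 X := ⟨_, rfl⟩
  have hQp : IsPGroup 2 ↥Q := hQ ▸ isPGroup_pCore 2 X
  have hQn : Q.Normal := hQ ▸ pCore_normal 2 X
  have hC : Subgroup.centralizer (Cfsg.pCore 2 X : Set X) ≤ Cfsg.pCore 2 X := by
    have := Cfsg.H9.centralizer_genFitting_le (G := X)
    rwa [hX] at this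
  have hAc : ∀ a ∈ A, ∀ b ∈ A, a * b = b * a := by
    intro a ha b hb
    exact congrArg Subtype.val (mul_comm' (⟨a, ha⟩ : ↥A) ⟨b, hb⟩)
  have memc : ∀ (K : Subgroup X) (g k : X), k ∈ K → g * k * g⁻¹ ∈ K.map (MulAut.conj g).toMonoidHom := by
    intro K g k hk
    rw [mem_conj_iff]
    have : g⁻¹ * (g * k * g⁻¹) * g = k := by group
    rw [this]; exact hk
  have hone : ∀ K : Subgroup X, K = K.map (MulAut.conj (1 : X)).toMonoidHom := by
    intro K; ext x; rw [mem_conj_iff]; simp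
  have hcard : ∀ (K : Subgroup X) (g : X), Nat.card ↥(K.map (MulAut.conj g).toMonoidHom) = Nat.card ↥K :=
    fun K g => Subgroup.card_map_of_injective (MulAut.conj g).injective
  -- Part 1
  have hcommQ : (∃ a₀ ∈ A, a₀ * a₀ ≠ 1) → ∀ q ∈ Q, ∀ a ∈ A, ∀ a₁ ∈ A,
      a₁ * (q * a * q⁻¹) = (q * a * q⁻¹) * a₁ := by
    rintro ⟨a₀, ha₀, ha₀1⟩ q hq a ha a₁ ha₁
    have hSp : IsPGroup 2 ↥(A ⊔ Q) := hA2.to_sup_of_normal_right hQp
    have key := ti_family_commute hSp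
      {R | ∃ s ∈ A ⊔ Q, R = A.map (MulAut.conj s).toMonoidHom} ?_ ?_ ?_ ?_ ?_
    · by_cases hEq : A.map (MulAut.conj q).toMonoidHom = A
      · have h1 : q * a * q⁻¹ ∈ A := by rw [← hEq]; exact memc A q a ha
        exact hAc _ ha₁ _ h1
      · exact key A ⟨1, Subgroup.one_mem _, hone A⟩ _ ⟨q, Subgroup.mem_sup_right hq, rfl⟩
          (Ne.symm hEq) a₁ ha₁ _ (memc A q a ha)
    · rintro _ ⟨s, hs, rfl⟩ x hx
      have h1 := mem_conj_iff.1 hx
      have h2 : x = s * (s⁻¹ * x * s) * s⁻¹ := by group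
      rw [h2]
      exact Subgroup.mul_mem _ (Subgroup.mul_mem _ hs (Subgroup.mem_sup_left h1))
        (Subgroup.inv_mem _ hs)
    · rintro s hs _ ⟨t, ht, rfl⟩
      exact ⟨s * t, Subgroup.mul_mem _ hs ht, map_conj_mul A s t⟩
    · rintro _ ⟨s, hs, rfl⟩
      refine ⟨s * a₀ * s⁻¹, memc A s a₀ ha₀, ?_⟩
      intro h
      apply ha₀1
      calc a₀ * a₀ = s⁻¹ * ((s * a₀ * s⁻¹) * (s * a₀ * s⁻¹)) * s := by group
        _ = 1 := by rw [h]; group
    · rintro _ ⟨s, hs, rfl⟩ _ ⟨t, ht, rfl⟩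
      rw [hcard, hcard]
    · rintro _ ⟨s, hs, rfl⟩ _ ⟨t, ht, rfl⟩
      exact ti_conj hti s t
  have hsqQ : ∀ a ∈ A, a ^ 2 ∈ Q := by
    intro a ha
    by_cases hex : ∃ a₀ ∈ A, a₀ * a₀ ≠ 1
    · have hcq := hcommQ hex
      subst hQ
      apply Cfsg.Agent.Lib.Helper22.mem_pCore_of_trivial_on_frattini 2 hC
      intro x hx
      obtain ⟨c, hc⟩ : ∃ c, c = a * x * a⁻¹ * x⁻¹ := ⟨_, rfl⟩
      have hcQ : c ∈ Cfsg.pCore 2 X := by
        rw [hc]; exact Subgroup.mul_mem _ (hQn.conj_mem _ hx _) (Subgroup.inv_mem _ hx)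
      have h1 := hcq x hx a⁻¹ (A.inv_mem ha) a ha
      have e : a ^ 2 * x * (a ^ 2)⁻¹ * x⁻¹ = c * c := by
        rw [pow_two]
        calc a * a * x * (a * a)⁻¹ * x⁻¹ = (a * (a * x * a⁻¹ * x⁻¹)) * (x * a⁻¹ * x⁻¹) := by group
          _ = (a * (a * (x * a⁻¹ * x⁻¹))) * (x * a⁻¹ * x⁻¹) := by group
          _ = (a * ((x * a⁻¹ * x⁻¹) * a)) * (x * a⁻¹ * x⁻¹) := by rw [h1]
          _ = (a * x * a⁻¹ * x⁻¹) * (a * x * a⁻¹ * x⁻¹) := by group
          _ = c * c := by rw [← hc]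
      rw [e]
      have h2 := (Cfsg.H1.frattini_pgroup_ge 2 hQp).2 ⟨c, hcQ⟩
      refine ⟨_, h2, ?_⟩
      simp [pow_two]
    · push Not at hex
      rw [pow_two, hex a ha]; exact Q.one_mem
  obtain ⟨B, hB⟩ : ∃ B : Subgroup X, B = Subgroup.closure ((fun a : X => a ^ 2) '' (A : Set X)) :=
    ⟨_, rfl⟩
  rw [← hB, ← hQ]
  have hBQ : B ≤ Q := by
    rw [hB, Subgroup.closure_le]
    rintro _ ⟨a, ha, rfl⟩
    exact hsqQ a ha
  refine ⟨hBQ, ?_⟩
  intro hne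
  have hBA : B ≤ A := by
    rw [hB, Subgroup.closure_le]
    rintro _ ⟨a, ha, rfl⟩
    exact A.pow_mem ha 2
  have hBc : IsMulCommutative ↥B :=
    ⟨⟨fun a b => Subtype.ext (hAc _ (hBA a.2) _ (hBA b.2))⟩⟩
  have hb : ∃ b ∈ B, b * b ≠ 1 := by
    by_contra h
    push Not at h
    exact hne ⟨hBc, fun a ha => by rw [pow_two]; exact h a ha⟩
  obtain ⟨b₀, hb₀, hb₀1⟩ := hb
  have hBmap : ∀ g : X, B.map (MulAut.conj g).toMonoidHom =
      Subgroup.closure ((fun a : X => a ^ 2) '' ((A.map (MulAut.conj g).toMonoidHom : Subgroup X) : Set X)) := by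
    intro g
    rw [hB, MonoidHom.map_closure, Subgroup.coe_map, Set.image_image, Set.image_image]
    congr 1
    apply Set.image_congr
    intro a _
    exact map_pow _ a 2
  have key := ti_family_commute hQp {R | ∃ x : X, R = B.map (MulAut.conj x).toMonoidHom} ?_ ?_ ?_ ?_ ?_
  · apply Subgroup.isMulCommutative_closure
    intro u hu v hv
    obtain ⟨_, ⟨a, ha, rfl⟩, hau⟩ := Group.mem_conjugatesOfSet_iff.1 hu
    obtain ⟨_, ⟨a', ha', rfl⟩, hav⟩ := Group.mem_conjugatesOfSet_iff.1 hv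
    obtain ⟨g, rfl⟩ := isConj_iff.1 hau
    obtain ⟨h, rfl⟩ := isConj_iff.1 hav
    have haB : a ^ 2 ∈ B := by rw [hB]; exact Subgroup.subset_closure ⟨a, ha, rfl⟩
    have ha'B : a' ^ 2 ∈ B := by rw [hB]; exact Subgroup.subset_closure ⟨a', ha', rfl⟩
    by_cases hEq : B.map (MulAut.conj g).toMonoidHom = B.map (MulAut.conj h).toMonoidHom
    · have h1 : h * a' ^ 2 * h⁻¹ ∈ B.map (MulAut.conj g).toMonoidHom := by
        rw [hEq]; exact memc B h _ ha'B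
      have h2 := mem_conj_iff.1 h1
      have h3 := hAc _ (hBA haB) _ (hBA h2)
      calc g * a ^ 2 * g⁻¹ * (h * a' ^ 2 * h⁻¹)
          = g * (a ^ 2 * (g⁻¹ * (h * a' ^ 2 * h⁻¹) * g)) * g⁻¹ := by group
        _ = g * ((g⁻¹ * (h * a' ^ 2 * h⁻¹) * g) * a ^ 2) * g⁻¹ := by rw [h3]
        _ = _ := by group
    · exact key _ ⟨g, rfl⟩ _ ⟨h, rfl⟩ hEq _ (memc B g _ haB) _ (memc B h _ ha'B)
  · rintro _ ⟨s, rfl⟩ x hx
    have h1 := hBQ (mem_conj_iff.1 hx)
    have h2 : x = s * (s⁻¹ * x * s) * s⁻¹ := by group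
    rw [h2]
    exact hQn.conj_mem _ h1 _
  · rintro s _ _ ⟨t, rfl⟩
    exact ⟨s * t, map_conj_mul B s t⟩
  · rintro _ ⟨s, rfl⟩
    refine ⟨s * b₀ * s⁻¹, memc B s b₀ hb₀, ?_⟩
    intro h
    apply hb₀1
    calc b₀ * b₀ = s⁻¹ * ((s * b₀ * s⁻¹) * (s * b₀ * s⁻¹)) * s := by group
      _ = 1 := by rw [h]; group
  · rintro _ ⟨s, rfl⟩ _ ⟨t, rfl⟩
    rw [hcard, hcard]
  · rintro _ ⟨s, rfl⟩ _ ⟨t, rfl⟩
    rcases ti_conj hti s t with h | h
    · left; rw [hBmap, hBmap, h]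
    · right
      rw [eq_bot_iff, ← h]
      exact inf_le_inf (Subgroup.map_mono hBA) (Subgroup.map_mono hBA)

end Cfsg.Agent.S1783
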