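import Cfsg.Statements.S1784
import Cfsg.Agent.Lib.Helper27.XS9

set_option autoImplicit false
open Cfsg

namespace Cfsg.Agent.S1784

open Cfsg.Agent.Lib.Helper27.XS

theorem aux {G : Type*} [Group G] [Finite G] {Q : Subgroup G} {z : G} (S : Setup Q z)
    (α : G) (hαα : α * α = 1) (hαz : α * z = z * α) (hαQ : α ∉ Q)
    (Q₀ : Subgroup G) (hQ₀ : ∀ q : G, q ∈ Q₀ ↔ (q ∈ Q ∧ α * q * α⁻¹ * q⁻¹ ∈ Subgroup.zpowers z)) :
    Subgroup.closure ((fun q : G => α * q * α⁻¹ * q⁻¹) '' (Q : Set G)) =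
        (Subgroup.center ↥Q₀).map Q₀.subtype ∧
      (¬ Q₀ ≤ (Q ⊓ Subgroup.centralizer ({α} : Set G)) ⊔ Subgroup.zpowers z →
        ∃ q ∈ Q, q * α * q⁻¹ = α * z) := by
  have hαi : α⁻¹ = α := inv_eq_of_mul_eq_one_left hαα
  have hN : ∀ q ∈ Q, α * q * α⁻¹ ∈ Q := fun q hq =>
    (Subgroup.mem_normalizer_iff.1 (S.norm α hαz) q).1 hq
  have hcQ : ∀ q ∈ Q, α * q * α⁻¹ * q⁻¹ ∈ Q := fun q hq => Q.mul_mem (hN q hq) (Q.inv_mem hq)
  constructor
  · obtain ⟨K, hK⟩ : ∃ K : Subgroup G,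
        K = Subgroup.closure ((fun q : G => α * q * α⁻¹ * q⁻¹) '' (Q : Set G)) := ⟨_, rfl⟩
    rw [← hK]
    have hgen : ∀ q ∈ Q, α * q * α⁻¹ * q⁻¹ ∈ K := fun q hq => by
      rw [hK]; exact Subgroup.subset_closure ⟨q, hq, rfl⟩
    have hKQ : K ≤ Q := by
      rw [hK, Subgroup.closure_le]
      rintro _ ⟨q, hq, rfl⟩
      exact hcQ q hq
    -- K is normalized by Q
    have hKn : ∀ q₁ ∈ Q, ∀ k ∈ K, q₁ * k * q₁⁻¹ ∈ K := by
      intro q₁ hq₁ k hk
      rw [hK] at hk
      induction hk using Subgroup.closure_induction with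
      | mem x hx =>
        obtain ⟨q, hq, rfl⟩ := hx
        have e : q₁ * (α * q * α⁻¹ * q⁻¹) * q₁⁻¹ =
            (α * q₁ * α⁻¹ * q₁⁻¹)⁻¹ * (α * (q₁ * q) * α⁻¹ * (q₁ * q)⁻¹) := by group
        show q₁ * (α * q * α⁻¹ * q⁻¹) * q₁⁻¹ ∈ K
        rw [e]
        exact K.mul_mem (K.inv_mem (hgen _ hq₁)) (hgen _ (Q.mul_mem hq₁ hq))
      | one => simp
      | mul x y _ _ hx hy =>
        have e : q₁ * (x * y) * q₁⁻¹ = (q₁ * x * q₁⁻¹) * (q₁ * y * q₁⁻¹) := by group
        rw [e]; exact K.mul_mem hx hy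
      | inv x _ hx =>
        have e : q₁ * x⁻¹ * q₁⁻¹ = (q₁ * x * q₁⁻¹)⁻¹ := by group
        rw [e]; exact K.inv_mem hx
    -- z ∈ K
    have hzK : z ∈ K := by
      have h1 : ∃ q ∈ Q, α * q * α⁻¹ * q⁻¹ ≠ 1 := by
        by_contra h
        push Not at h
        have h2 : ∀ q ∈ Q, q * α = α * q := by
          intro q hq
          have h3 := h q hq
          calc q * α = (α * q * α⁻¹ * q⁻¹)⁻¹ * (α * q) := by group
            _ = α * q := by rw [h3]; group
        rcases S.cent α h2 with h3 | h3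
        · exact hαQ (h3 ▸ Q.one_mem)
        · exact hαQ (h3 ▸ S.zQ)
      obtain ⟨q, hq, hne⟩ := h1
      obtain ⟨x, hx⟩ : ∃ x, x = α * q * α⁻¹ * q⁻¹ := ⟨_, rfl⟩
      have hxK : x ∈ K := hx ▸ hgen q hq
      have hxQ : x ∈ Q := hKQ hxK
      rw [← hx] at hne
      by_cases hxZ : x ∈ (Subgroup.center ↥Q).map Q.subtype
      · rcases S.mem_Z.1 hxZ with h | h
        · exact absurd h hne
        · exact h ▸ hxK
      · obtain ⟨q', hq', hq'x⟩ := exists_conj_mul S.ex S.zZ S.z1 hxQ hxZ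
        have : z = q' * x * q'⁻¹ * x⁻¹ := by rw [hq'x]; group
        rw [this]; exact K.mul_mem (hKn _ hq' _ hxK) (K.inv_mem hxK)
    -- conjugation by α and commutation
    have hconj : ∀ a b : G, a * (α * b * α⁻¹) = (α * b * α⁻¹) * a ↔
        (α * a * α⁻¹) * b = b * (α * a * α⁻¹) := by
      intro a b
      have e : α * a * α⁻¹ = α⁻¹ * a * α := by rw [hαi]
      rw [e]
      constructor
      · intro h
        calc α⁻¹ * a * α * b = α⁻¹ * (a * (α * b * α⁻¹)) * α := by group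
          _ = α⁻¹ * ((α * b * α⁻¹) * a) * α := by rw [h]
          _ = _ := by group
      · intro h
        calc a * (α * b * α⁻¹) = α * ((α⁻¹ * a * α) * b) * α⁻¹ := by group
          _ = α * (b * (α⁻¹ * a * α)) * α⁻¹ := by rw [h]
          _ = _ := by group
    -- the centralizer of K in Q
    have hCK : Q ⊓ Subgroup.centralizer (K : Set G) = Q₀ := by
      ext q₀
      rw [Subgroup.mem_inf, hQ₀]
      refine and_congr_right fun hq₀ => ?_
      have h1 : q₀ ∈ Subgroup.centralizer (K : Set G) ↔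
          ∀ q ∈ Q, q₀ * (α * q * α⁻¹ * q⁻¹) = (α * q * α⁻¹ * q⁻¹) * q₀ := by
        constructor
        · intro h q hq
          exact (Subgroup.mem_centralizer_iff.1 h _ (hgen q hq)).symm
        · intro h
          have h2 : K ≤ Subgroup.centralizer ({q₀} : Set G) := by
            rw [hK, Subgroup.closure_le]
            rintro _ ⟨q, hq, rfl⟩
            exact Subgroup.mem_centralizer_singleton_iff.2 (h q hq).symm
          rw [Subgroup.mem_centralizer_iff]
          intro k hk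
          exact Subgroup.mem_centralizer_singleton_iff.1 (h2 hk)
      have h2 : α * q₀ * α⁻¹ * q₀⁻¹ ∈ Subgroup.zpowers z ↔
          ∀ q ∈ Q, q * (α * q₀ * α⁻¹ * q₀⁻¹) = (α * q₀ * α⁻¹ * q₀⁻¹) * q := by
        rw [mem_zpowers_invol S.zz, ← S.mem_Z, mem_Z_iff]
        exact ⟨fun h => h.2, fun h => ⟨hcQ q₀ hq₀, h⟩⟩
      rw [h1, h2]
      refine forall₂_congr fun q hq => ?_
      rw [S.commute_mul_iff hq₀ (hN q hq) (Q.inv_mem hq),
        S.commute_mul_iff hq (hN q₀ hq₀) (Q.inv_mem hq₀), Setup.commute_inv_iff,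
        Setup.commute_inv_iff, hconj q₀ q]
      constructor
      · intro h
        exact ⟨fun h3 => (h.1 h3.symm).symm, fun h3 => (h.2 h3.symm).symm⟩
      · intro h
        exact ⟨fun h3 => (h.1 h3.symm).symm, fun h3 => (h.2 h3.symm).symm⟩
    have hKQ₀ : K ≤ Q₀ := by
      rw [hK, Subgroup.closure_le]
      rintro _ ⟨q, hq, rfl⟩
      show α * q * α⁻¹ * q⁻¹ ∈ Q₀
      rw [hQ₀]
      refine ⟨hcQ q hq, ?_⟩
      have e : α * (α * q * α⁻¹ * q⁻¹) * α⁻¹ * (α * q * α⁻¹ * q⁻¹)⁻¹ =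
          (q * (α * q⁻¹ * α⁻¹)) * (q * (α * q⁻¹ * α⁻¹)) := by
        calc α * (α * q * α⁻¹ * q⁻¹) * α⁻¹ * (α * q * α⁻¹ * q⁻¹)⁻¹
            = (α * α) * q * α⁻¹ * q⁻¹ * α⁻¹ * (q * (α * q⁻¹ * α⁻¹)) := by group
          _ = q * α * q⁻¹ * α⁻¹ * (q * (α * q⁻¹ * α⁻¹)) := by rw [hαα, one_mul, hαi]
          _ = _ := by group
      rw [e, mem_zpowers_invol S.zz]
      exact S.sq (Q.mul_mem hq (hN _ (Q.inv_mem hq)))
    have hdc := S.double_cent hKQ hzK
    rw [hCK] at hdc
    ext x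
    rw [mem_Z_iff]
    constructor
    · intro hx
      refine ⟨hKQ₀ hx, fun y hy => ?_⟩
      rw [← hCK] at hy
      exact (Subgroup.mem_centralizer_iff.1 hy.2 x hx).symm
    · rintro ⟨hx, h⟩
      rw [← hdc]
      refine Subgroup.mem_inf.2 ⟨((hQ₀ x).1 hx).1, ?_⟩
      rw [Subgroup.mem_centralizer_iff]
      exact h
  · intro h
    obtain ⟨q, hq, hqn⟩ := SetLike.not_le_iff_exists.1 h
    obtain ⟨hqQ, hqc⟩ := (hQ₀ q).1 hq
    refine ⟨q, hqQ, ?_⟩
    rcases (mem_zpowers_invol S.zz).1 hqc with h1 | h1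
    · exfalso
      apply hqn
      apply Subgroup.mem_sup_left
      refine Subgroup.mem_inf.2 ⟨hqQ, ?_⟩
      rw [Subgroup.mem_centralizer_singleton_iff]
      calc q * α = (α * q * α⁻¹ * q⁻¹)⁻¹ * (α * q) := by group
        _ = α * q := by rw [h1]; group
    · calc q * α * q⁻¹ = q * α⁻¹ * q⁻¹ := by rw [hαi]
        _ = α⁻¹ * (α * q * α⁻¹ * q⁻¹) := by group
        _ = α * z := by rw [h1, hαi]

/-- Let G be a finite group and let z be an involution of G such that Q, the generalized Fitting subgroup of the centralizer C of z, is a 2-group of symplectic type (every characteristic abelian subgroup of Q is cyclic); suppose Q is extraspecial, and view Q inside G. Let α be an involution of C that is not in Q, and let Q₀ be the subgroup of those q ∈ Q whose commutator with α lies in the subgroup generated by z. Then (a) the subgroup generated by the commutators α q α⁻¹ q⁻¹, q ∈ Q, equals the centre of Q₀; and (b) if Q₀ is not contained in the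 product of the centralizer of α in Q with the subgroup generated by z, then some element of Q conjugates α to α z. -/
theorem result {G : Type*} [Group G] [Finite G] (z : G) (hz : orderOf z = 2) (hQ : Cfsg.IsOfSymplecticType ↥(Cfsg.generalizedFittingSubgroup ↥(Subgroup.centralizer ({z} : Set G)))) (hE : Cfsg.IsExtraspecial 2 ↥(Cfsg.generalizedFittingSubgroup ↥(Subgroup.centralizer ({z} : Set G))))
    (α : G) (hα : orderOf α = 2) (hαC : α ∈ Subgroup.centralizer ({z} : Set G)) (hαQ : α ∉ (Cfsg.generalizedFittingSubgroup ↥(Subgroup.centralizer ({z} : Set G))).map (Subgroup.centralizer ({z} : Set G)).subtype)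
    (Q₀ : Subgroup G) (hQ₀ : ∀ q : G, q ∈ Q₀ ↔ (q ∈ (Cfsg.generalizedFittingSubgroup ↥(Subgroup.centralizer ({z} : Set G))).map (Subgroup.centralizer ({z} : Set G)).subtype ∧ α * q * α⁻¹ * q⁻¹ ∈ Subgroup.zpowers z)) :
    Subgroup.closure ((fun q : G => α * q * α⁻¹ * q⁻¹) '' ((Cfsg.generalizedFittingSubgroup ↥(Subgroup.centralizer ({z} : Set G))).map (Subgroup.centralizer ({z} : Set G)).subtype : Set G)) = (Subgroup.center ↥Q₀).map Q₀.subtype ∧
      (¬ Q₀ ≤ ((Cfsg.generalizedFittingSubgroup ↥(Subgroup.centralizer ({z} : Set G))).map (Subgroup.centralizer ({z} : Set G)).subtype ⊓ Subgroup.centralizer ({α} : Set G)) ⊔ Subgroup.zpowers z →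
        ∃ q ∈ (Cfsg.generalizedFittingSubgroup ↥(Subgroup.centralizer ({z} : Set G))).map (Subgroup.centralizer ({z} : Set G)).subtype, q * α * q⁻¹ = α * z) := by
  have hE' : Cfsg.IsExtraspecial 2 ↥((Cfsg.generalizedFittingSubgroup
      ↥(Subgroup.centralizer ({z} : Set G))).map (Subgroup.centralizer ({z} : Set G)).subtype) :=
    isExtraspecial_of_equiv (Subgroup.equivMapOfInjective _ _ (Subgroup.subtype_injective _)) hE
  have S := Setup.of_fstar hz rfl hE'
  have hαα : α * α = 1 := by rw [← pow_two, ← hα]; exact pow_orderOf_eq_one α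
  exact aux S α hαα (Subgroup.mem_centralizer_singleton_iff.1 hαC) hαQ Q₀ hQ₀

end Cfsg.Agent.S1784
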