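import Mathlib
import Cfsg.Statements.S1785
import Cfsg.Agent.H9.KConn

set_option autoImplicit false
open Cfsg
open scoped commutatorElement

namespace Cfsg.Agent.S1785

/-- Let X be a finite 2-group having a normal elementary abelian subgroup of order at least 32. Then (a) for any two elementary abelian subgroups A, B of X of order 8 there is a chain A = A₁, A₂, …, Aₙ = B of elementary abelian subgroups of order 8 in which consecutive members commute elementwise; and (b) every elementary abelian subgroup of X of order 4 is contained in an elementary abelian subgroup of order 8. -/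
theorem result {X : Type*} [Group X] [Finite X]
    (hX : IsPGroup 2 X) (E : Subgroup X) [E.Normal] (hE : Cfsg.IsElementaryAbelian 2 E) (hE32 : 32 ≤ Nat.card ↥E) :
    (∀ A B : Subgroup X, Cfsg.IsElementaryAbelian 2 A → Nat.card ↥A = 8 → Cfsg.IsElementaryAbelian 2 B → Nat.card ↥B = 8 →
        Relation.ReflTransGen
          (fun C D : Subgroup X => Cfsg.IsElementaryAbelian 2 C ∧ Nat.card ↥C = 8 ∧ Cfsg.IsElementaryAbelian 2 D ∧ Nat.card ↥D = 8 ∧ ⁅C, D⁆ = ⊥)
          A B) ∧
      (∀ V : Subgroup X, Cfsg.IsElementaryAbelian 2 V → Nat.card ↥V = 4 →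
        ∃ A : Subgroup X, V ≤ A ∧ Cfsg.IsElementaryAbelian 2 A ∧ Nat.card ↥A = 8) := by
  have hE2 := hE.2
  have hnum3 : ∀ j c : ℕ, j < 3 → 5 * 2 ^ j ≤ c * 2 ^ 3 → j < c := by
    intro j c hj h
    interval_cases j <;> omega
  have hnum2 : ∀ j c : ℕ, j < 2 → 5 * 2 ^ j ≤ c * 2 ^ 2 → j < c := by
    intro j c hj h
    interval_cases j <;> omega
  have hE' : 2 ^ 5 ≤ Nat.card E := by norm_num; exact hE32
  constructor
  · intro A B hA hA8 hB hB8
    have h := Cfsg.H9.KConn.connected hX E hE2 3 5 hnum3 hE' A B hA.2 (by rw [hA8]; norm_num) hB.2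
      (by rw [hB8]; norm_num)
    refine Relation.ReflTransGen.mono ?_ _ _ h
    rintro C D ⟨h1, h2, h3, h4, h5⟩
    refine ⟨⟨Cfsg.H9.NFour.comm_of_sq C h1, h1⟩, by rw [h2]; norm_num,
      ⟨Cfsg.H9.NFour.comm_of_sq D h3, h3⟩, by rw [h4]; norm_num, ?_⟩
    rw [Subgroup.commutator_eq_bot_iff_le_centralizer]
    intro c hc
    rw [Subgroup.mem_centralizer_iff]
    intro d hd
    exact (h5 c hc d hd).symm
  · intro V hV hV4
    obtain ⟨B, h1, h2, h3⟩ := Cfsg.H9.KConn.extend hX E hE2 2 5 hnum2 hE' (by norm_num) V hV.2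
      (by rw [hV4]; norm_num)
    exact ⟨B, h1, ⟨Cfsg.H9.NFour.comm_of_sq B h2, h2⟩, by rw [h3]; norm_num⟩

end Cfsg.Agent.S1785
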