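import Cfsg.Statements.S1965
import Cfsg.Agent.H12.Alperin

set_option autoImplicit false
open Cfsg
open Cfsg.Agent.H12

namespace Cfsg.Agent.S1965

/-- Let p be a prime, G a finite group with Sylow p-subgroup S and 𝓕 a set of subgroups of S. Suppose that every subgroup T of S is G-conjugate to some member U of 𝓕 for which N_S(U) is a Sylow p-subgroup of N_G(U). Then 𝓕 is a conjugation family for S in G. -/
theorem result {G : Type*} [Group G] [Finite G] {p : ℕ} [Fact p.Prime] (S : Sylow p G) (𝓕 : Set (Subgroup G)) (h𝓕 : ∀ U ∈ 𝓕, U ≤ (S : Subgroup G)) (h : ∀ T : Subgroup G, T ≤ (S : Subgroup G) → ∃ U ∈ 𝓕, (∃ g : G, T.map (MulAut.conj g).toMonoidHom = U) ∧ ¬ p ∣ ((S : Subgroup G) ⊓ Subgroup.normalizer ((U : Subgroup G) : Set G)).relIndex (Subgroup.normalizer ((U : Subgroup G) : Set G))) : Cfsg.IsConjugationFamily 𝓕 (S : Subgroup G) := by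
  refine ⟨h𝓕, ?_⟩
  intro A g _ hAS hAg
  let Rel : Subgroup G → G → Prop := fun D x => D ∈ 𝓕 ∧ x ∈ Subgroup.normalizer (D : Set G)
  have hN : ∀ D x, Rel D x → x ∈ Subgroup.normalizer (D : Set G) := fun D x h => h.2
  have hI : ∀ D x, Rel D x → Rel D x⁻¹ := fun D x h => ⟨h.1, inv_mem h.2⟩
  have hC := Chain.fusionClosed (S : Subgroup G) hN hI
  have hS𝓕 : (S : Subgroup G) ∈ 𝓕 := by
    obtain ⟨U, hU, ⟨g, hg⟩, -⟩ := h S le_rfl
    have : U = S := eq_of_le_of_card_eq (h𝓕 U hU) (by rw [← hg, card_map_conj])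
    rwa [this] at hU
  have main := alperin_abstract S (Chain Rel) hC (fun g hg => Chain.single ⟨hS𝓕, hg⟩ le_rfl) (by
    intro T hT hne
    obtain ⟨U, hU, ⟨g, hg⟩, hfn⟩ := h T hT
    have e : cj T g⁻¹ = U := by unfold cj; simpa using hg
    refine ⟨g⁻¹, ?_, ?_, ?_⟩
    · rw [e]; exact h𝓕 U hU
    · rw [e]; exact hfn
    · intro _ m hm
      rw [e] at hm ⊢
      exact Chain.single ⟨hU, hm⟩ le_rfl)
  have hch := main (Subgroup.closure A) ((Subgroup.closure_le _).mpr hAS) g (closure_conj_le hAg)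
  obtain ⟨n, D, x, hprod, hRel, h0, hstep⟩ := hch.toFin
  exact ⟨n, D, x, hprod, fun i => (hRel i).1, fun i => (hRel i).2,
    fun h => Subgroup.subset_closure.trans (h0 h), fun i h => image_conj_subset (hstep i h)⟩

end Cfsg.Agent.S1965
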