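import Cfsg.Statements.S1964
import Cfsg.Agent.H12.Functors
import Cfsg.Agent.S1965

set_option autoImplicit false
open Cfsg
open Cfsg.Agent.H12

namespace Cfsg.Agent.S1964

/-- Let p be a prime, G a finite group with Sylow p-subgroup S and W a conjugacy functor for p on G. Then the subgroups of S that are well placed in S with respect to W form a conjugation family for S in G. -/
theorem result {G : Type*} [Group G] [Finite G] {p : ℕ} [Fact p.Prime] (S : Sylow p G) (W : Subgroup G → Subgroup G) (hW : Cfsg.IsConjugacyFunctor p W) : Cfsg.IsConjugationFamily {T : Subgroup G | Cfsg.IsWellPlaced p W (S : Subgroup G) T} (S : Subgroup G) := by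
  apply Cfsg.Agent.S1965.result S
  · intro U hU; exact hU.1
  · intro T hT
    obtain ⟨g, hg⟩ := exists_wellPlaced hW S T (S.2.to_le hT)
    exact ⟨cj T g, hg, ⟨g⁻¹, rfl⟩, hg.2 0⟩

end Cfsg.Agent.S1964
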