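import Cfsg.Statements.S1967
import Cfsg.Agent.H12.Control3

set_option autoImplicit false
open Cfsg
open Cfsg.Agent.H12

namespace Cfsg.Agent.S1967

/-- Let p be a prime, G a finite group with Sylow p-subgroup S and W a conjugacy functor for p on G. Then W controls strong fusion in G if and only if, whenever T ≤ S and g ∈ G satisfy gTg⁻¹ ≤ S, one can write g = n c with n ∈ N_G(W(S)) and c ∈ C_G(T). -/
theorem result {G : Type*} [Group G] [Finite G] {p : ℕ} [Fact p.Prime] (S : Sylow p G) (W : Subgroup G → Subgroup G) (hW : Cfsg.IsConjugacyFunctor p W) : Cfsg.ControlsStrongFusionIn p W ⊤ ↔ ∀ (T : Subgroup G) (g : G), T ≤ (S : Subgroup G) → T.map (MulAut.conj g).toMonoidHom ≤ (S : Subgroup G) → ∃ n ∈ Subgroup.normalizer ((W (S : Subgroup G) : Subgroup G) : Set G), ∃ c ∈ Subgroup.centralizer (T : Set G), g = n * c := by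
  constructor
  · intro hctl T g hT hTg
    have h1 := family_at (𝓦 := {W}) (by
      intro W' hW'
      rw [Set.mem_singleton_iff] at hW'
      rw [hW']; exact hW) (family_singleton_of_controls hctl) (T := (S : Subgroup G)) le_top S.2
      (sylow_not_dvd_relIndex_top S) T g⁻¹ hT (Subgroup.mem_top _) (by unfold cj; simpa using hTg)
    obtain ⟨g', hg1, hg2⟩ := h1
    have hmem : g' ∈ Subgroup.normalizer ((W (S : Subgroup G) : Subgroup G) : Set G) := by
      have : WChain ((Subgroup.normalizer ((W (S : Subgroup G) : Subgroup G) : Set G) : Subgroup G) : Set G)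
          (S : Subgroup G) T g' := by
        refine hg1.mono ?_ le_rfl
        rintro x ⟨W', hW', hx⟩
        rw [Set.mem_singleton_iff] at hW'
        rw [hW'] at hx
        exact hx.2
      exact this.mem_of_subgroup
    refine ⟨g'⁻¹, inv_mem hmem, g' * g, ?_, by group⟩
    rw [Subgroup.mem_centralizer_iff]
    intro a ha
    have := hg2 a ha
    rw [inv_inv] at this
    calc a * (g' * g) = g' * (g'⁻¹ * a * g') * g := by group
      _ = g' * (g * a * g⁻¹) * g := by rw [this]
      _ = g' * g * a := by group
  · intro h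
    refine ⟨S, le_top, S.2, sylow_not_dvd_relIndex_top S, ?_⟩
    intro A k _ hA hAk
    obtain ⟨n, hn, c, hc, rfl⟩ := h (Subgroup.closure A) k ((Subgroup.closure_le _).mpr hA) (by
      have := closure_conj_le (A := A) (g := k⁻¹) (P := (S : Subgroup G)) (by simpa using hAk)
      unfold cj at this; simpa using this)
    refine ⟨n, ⟨Subgroup.mem_top _, hn⟩, ?_⟩
    intro a ha
    rw [Subgroup.mem_centralizer_iff] at hc
    have := hc a (Subgroup.subset_closure ha)
    calc n * a * n⁻¹ = n * (a * c) * c⁻¹ * n⁻¹ := by group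
      _ = n * (c * a) * c⁻¹ * n⁻¹ := by rw [this]
      _ = n * c * a * (n * c)⁻¹ := by group

end Cfsg.Agent.S1967
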