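import Cfsg.Statements.S1968
import Cfsg.Agent.H12.Functors

set_option autoImplicit false
open Cfsg
open Cfsg.Agent.H12

namespace Cfsg.Agent.S1968

/-- Let p be a prime, G a finite group with Sylow p-subgroup S and W a conjugacy functor for p on G with Z(P) ≤ W(P) for every p-subgroup P. Let A be a subgroup of Z(S) normalized by N_G(W(S)) that is not weakly closed in S with respect to G. Then there is a subgroup T of S, well placed in S with respect to W, such that: A ≤ T; N_G(W(N_S(T))) normalizes A; N_S(T) is a Sylow p-subgroup of N_G(T); A ≤ Z(N_S(T)); and A is not weakly closed in N_S(T) with respect to N_G(T), that is, some N_G(T)-conjugate of A other than A lies in N_S(T). -/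
theorem result {G : Type*} [Group G] [Finite G] {p : ℕ} [Fact p.Prime] (S : Sylow p G) (W : Subgroup G → Subgroup G) (hW : Cfsg.IsConjugacyFunctor p W) (hWZ : ∀ P : Subgroup G, IsPGroup p ↥P → P ⊓ Subgroup.centralizer (P : Set G) ≤ W P) (A : Subgroup G) (hAZ : A ≤ (S : Subgroup G) ⊓ Subgroup.centralizer ((S : Subgroup G) : Set G)) (hAN : Subgroup.normalizer ((W (S : Subgroup G) : Subgroup G) : Set G) ≤ Subgroup.normalizer ((A : Subgroup G) : Set G)) (hnwc : ¬ Cfsg.IsWeaklyClosed A (S : Subgroup G)) : ∃ T : Subgroup G, Cfsg.IsWellPlaced p W (S : Subgroup G) T ∧ A ≤ T ∧ Subgroup.normalizer ((W ((S : Subgroup G) ⊓ Subgroup.normalizer ((T : Subgroup G) : Set G)) : Subgroup G) : Set G) ≤ Subgroup.normalizer ((A : Subgroup G) : Set G) ∧ ¬ p ∣ ((S : Subgroup G) ⊓ Subgroup.normalizer ((T : Subgroup G) : Set G)).relIndex (Subgroup.normalizer ((T : Subgroup G) : Set G)) ∧ A ≤ Subgroup.centralizer (((S : Subgroup G) ⊓ Subgroup.normalizer ((T : Subgroup G) : Set G) : Subgroup G) : Set G) ∧ ∃ g ∈ Subgroup.normalizer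 ((T : Subgroup G) : Set G), A.map (MulAut.conj g).toMonoidHom ≤ (S : Subgroup G) ⊓ Subgroup.normalizer ((T : Subgroup G) : Set G) ∧ A.map (MulAut.conj g).toMonoidHom ≠ A := by
  classical
  have hAS : A ≤ S := hAZ.trans inf_le_left
  have hAC : A ≤ Subgroup.centralizer ((S : Subgroup G) : Set G) := hAZ.trans inf_le_right
  let Bad : Subgroup G → Prop := fun T => IsWellPlaced p W (S : Subgroup G) T ∧ A ≤ T ∧
    ∃ m ∈ Subgroup.normalizer (T : Set G), cj A m ≠ A
  have hex : ∃ T, Bad T := by
    by_contra hno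
    have hno' : ∀ T, IsWellPlaced p W (S : Subgroup G) T → A ≤ T →
        ∀ m ∈ Subgroup.normalizer (T : Set G), cj A m = A := by
      intro T h1 h2 m hm
      by_contra h3
      exact hno ⟨T, h1, h2, m, hm, h3⟩
    apply hnwc
    refine ⟨hAS, fun g hg => ?_⟩
    have main := alperin_abstract S (fun T g => (A ≤ T ∨ A ≤ cj T g) → cj A g = A) ?_ ?_ ?_ A hAS g⁻¹
      (by unfold cj; rwa [inv_inv]) (Or.inl le_rfl)
    · unfold cj at main; rwa [inv_inv] at main
    · refine ⟨?_, ?_, ?_⟩
      · intro T g h _ _ _ h1 h2 h3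
        rcases h3 with h3 | h3
        · have e1 := h1 (Or.inl h3)
          have e2 := h2 (Or.inl (by rw [← e1]; exact cj_mono h3 g))
          rw [← cj_mul, e1, e2]
        · rw [← cj_mul] at h3
          have e2 := h2 (Or.inr h3)
          have h4 : A ≤ cj T g := by
            have := cj_mono h3 h⁻¹
            rw [cj_cj_inv] at this
            have e3 : cj A h⁻¹ = A := by
              conv_lhs => rw [← e2]
              exact cj_cj_inv A h
            rwa [e3] at this
          have e1 := h1 (Or.inr h4)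
          rw [← cj_mul, e1, e2]
      · intro T g _ _ h1 h3
        rw [cj_cj_inv] at h3
        have e1 := h1 h3.symm
        conv_lhs => rw [← e1]
        exact cj_cj_inv A g
      · intro T T' g hTT _ _ h1 h3
        exact h1 (h3.imp (fun h => h.trans hTT) (fun h => h.trans (cj_mono hTT g)))
    · intro g hg _
      exact cj_eq_self (hAN (normalizer_le_normalizer_functor hW S.2 hg))
    · intro T hT _
      obtain ⟨h, hh⟩ := exists_wellPlaced hW S T (S.2.to_le hT)
      refine ⟨h, hh.1, hh.2 0, fun _ m hm h3 => ?_⟩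
      rw [cj_eq_self hm, or_self] at h3
      exact hno' _ hh h3 m hm
  obtain ⟨T, hT, hmax⟩ : ∃ T, Bad T ∧ ∀ T', Bad T' →
      Nat.card ((S : Subgroup G) ⊓ Subgroup.normalizer (T' : Set G) : Subgroup G) ≤
        Nat.card ((S : Subgroup G) ⊓ Subgroup.normalizer (T : Set G) : Subgroup G) := by
    have hfin : {T | Bad T}.Finite := Set.toFinite _
    obtain ⟨T, hT, hmax⟩ := Set.exists_max_image {T | Bad T}
      (fun T => Nat.card ((S : Subgroup G) ⊓ Subgroup.normalizer (T : Set G) : Subgroup G)) hfin hex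
    exact ⟨T, hT, hmax⟩
  obtain ⟨hwp, hAT, m, hm, hAm⟩ := hT
  have hwp' := (isWellPlaced_iff' hW S.2 T).mp hwp
  set N := (S : Subgroup G) ⊓ Subgroup.normalizer (T : Set G) with hN
  have hNp : IsPGroup p N := S.2.to_le inf_le_left
  have hAN' : A ≤ N := le_inf hAS (hAT.trans Subgroup.le_normalizer)
  have hACN : A ≤ Subgroup.centralizer (N : Set G) :=
    hAC.trans (Subgroup.centralizer_le (show (N : Set G) ⊆ (S : Subgroup G) from inf_le_left))
  have hAW : A ≤ W N := (le_inf hAN' hACN).trans (hWZ N hNp)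
  refine ⟨T, hwp, hAT, ?_, hwp'.2.1, hACN, m⁻¹, inv_mem hm, ?_, ?_⟩
  · show Subgroup.normalizer ((W N : Subgroup G) : Set G) ≤ Subgroup.normalizer ((A : Subgroup G) : Set G)
    by_cases hNS : N = S
    · rw [hNS]; exact hAN
    · intro x hx
      rw [← cj_eq_self_iff]
      by_contra hne
      have hbad : Bad (W N) := ⟨hwp'.2.2, hAW, x, hx, hne⟩
      have h1 := hmax _ hbad
      have h2 : N < (S : Subgroup G) ⊓ Subgroup.normalizer (N : Set G) :=
        lt_inf_normalizer S.2 (lt_of_le_of_ne inf_le_left hNS)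
      have h3 : (S : Subgroup G) ⊓ Subgroup.normalizer (N : Set G) ≤
          (S : Subgroup G) ⊓ Subgroup.normalizer ((W N : Subgroup G) : Set G) :=
        inf_le_inf_left _ (normalizer_le_normalizer_functor hW hNp)
      have h4 := card_lt_of_lt h2
      have h5 := Subgroup.card_le_of_le h3
      omega
  · show cj A m ≤ N
    have : cj A m ≤ cj T m := cj_mono hAT m
    rw [cj_eq_self hm] at this
    exact this.trans (le_inf hwp.1 Subgroup.le_normalizer)
  · exact hAm

end Cfsg.Agent.S1968
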