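import Cfsg.Statements.S1970
import Cfsg.Agent.H12.Sec5

set_option autoImplicit false
universe u
open Cfsg
open Cfsg.Agent.H12

namespace Cfsg.Agent.S1970

/-- Let p be a prime, G a finite group and W an isomorphism-invariant p-group functor (W assigns to every group Q a subgroup W(Q), nontrivial whenever Q is a nontrivial finite p-group, and every isomorphism from a finite p-group Q onto a group R carries W(Q) onto W(R)). Suppose that for every section G* = K/R of G with C_{G*}(O_p(G*)) ≤ O_p(G*) and every Sylow p-subgroup S* of G*, one has O_p(G*) ∩ (G*)' = O_p(G*) ∩ (N_{G*}(W(S*)))'. Then W controls transfer in every section G* of G: S* ∩ (G*)' = S* ∩ (N_{G*}(W(S*)))' for a Sylow p-subgroup S* of G*. -/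
theorem result {G : Type u} [Group G] [Finite G] {p : ℕ} [Fact p.Prime] (W : ∀ (Q : Type u) [Group Q], Subgroup Q) (hW : Cfsg.IsCharPFunctor.{u} p W) (hloc : ∀ (K R : Subgroup G) [hR : (R.subgroupOf K).Normal], Subgroup.centralizer ((Cfsg.pCore p (↥K ⧸ R.subgroupOf K) : Subgroup (↥K ⧸ R.subgroupOf K)) : Set (↥K ⧸ R.subgroupOf K)) ≤ Cfsg.pCore p (↥K ⧸ R.subgroupOf K) → ∀ T : Sylow p (↥K ⧸ R.subgroupOf K), Cfsg.pCore p (↥K ⧸ R.subgroupOf K) ⊓ commutator (↥K ⧸ R.subgroupOf K) = Cfsg.pCore p (↥K ⧸ R.subgroupOf K) ⊓ ⁅Subgroup.normalizer ((Cfsg.inducedFunctor (G := (↥K ⧸ R.subgroupOf K)) W ((T : Subgroup (↥K ⧸ R.subgroupOf K))) : Subgroup (↥K ⧸ R.subgroupOf K)) : Set (↥K ⧸ R.subgroupOf K)), Subgroup.normalizer ((Cfsg.inducedFunctor (G := (↥K ⧸ R.subgroupOf K)) W ((T : Subgroup (↥K ⧸ R.subgroupOf K))) : Subgroup (↥K ⧸ R.subgroupOf K)) : Set (↥K ⧸ R.subgroupOf K))⁆) : ∀ (K R : Subgroup G) [hR : (R.subgroupOf K).Normal], Cfsg.ControlsTransferIn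 p (Cfsg.inducedFunctor (G := (↥K ⧸ R.subgroupOf K)) W) ⊤ := by

  have h𝓦 : ∀ W' ∈ ({W} : Set (∀ (Q : Type u) [Group Q], Subgroup Q)), Cfsg.IsCharPFunctor.{u} p W' := by
    intro W' hW'
    rw [Set.mem_singleton_iff] at hW'
    rw [hW']; exact hW
  have hne : ({W} : Set (∀ (Q : Type u) [Group Q], Subgroup Q)).Nonempty := Set.singleton_nonempty W
  intro K R hR
  apply controlsTransferIn_of_family
  revert K R
  apply controls_all_sections h𝓦
  intro K R hR ih
  obtain ⟨S⟩ : Nonempty (Sylow p (↥K ⧸ R.subgroupOf K)) := inferInstance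
  suffices hCT : CT {W} ⊤ (S : Subgroup (↥K ⧸ R.subgroupOf K)) from
    controls_of_CT le_top S.2 (sylow_not_dvd_relIndex_top S) hCT
  by_contra hnot
  apply hnot
  have h1 := ih.pPrimeCore_eq_bot h𝓦 S hnot
  have h2 := ih.sylow_inf_centralizer_le h𝓦 hne S hnot
  have h3 := centralizer_pCore_le_of S h1 h2
  have h4 := hloc K R h3 S
  refine (ih.le_focT_sup h𝓦 hne S hnot).trans (sup_le le_rfl ?_)
  rw [commutator_def] at h4
  rw [h4]
  unfold focT
  rw [iSup_singleton, top_inf_eq]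
  exact inf_le_inf_right _ (pCore_le_sylow S)

end Cfsg.Agent.S1970
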