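import Cfsg.Statements.S1998
import Cfsg.Agent.H12.Sec6

set_option autoImplicit false
universe u
open Cfsg
open Cfsg.Agent.H12

namespace Cfsg.Agent.S1998

/-- Let p be a prime, G a finite group with Sylow p-subgroup S, and 𝓦 a nonempty set of isomorphism-invariant p-group functors (W assigns to every group Q a subgroup W(Q), nontrivial whenever Q is a nontrivial finite p-group, and every isomorphism from a finite p-group Q onto a group R carries W(Q) onto W(R)). Suppose the induced conjugacy functors control transfer in every section of G other than G itself, but not in G. Let T be the subgroup generated by the S ∩ (N_G(W(S)))', W ∈ 𝓦, and M = N_G(T ∩ O_p(G)). Then: C_G(O_p(G)) ≤ O_p(G); M is a proper subgroup of G containing every proper subgroup of G that contains S (the unique maximal subgroup over S); [O_p(G), M] ≤ O_p(G) ∩ M' ≤ O_p(G) ∩ T; and every element u of S outside O_p(G) satisfies [X, u, …, u] ≰ Y with p − 1 entries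 u, for some chief factor X/Y of G with X ≤ O_p(G). -/
theorem result {G : Type u} [Group G] [Finite G] {p : ℕ} [Fact p.Prime] (S : Sylow p G) (𝓦 : Set (∀ (Q : Type u) [Group Q], Subgroup Q)) (h𝓦 : ∀ W ∈ 𝓦, Cfsg.IsCharPFunctor.{u} p W) (hne : 𝓦.Nonempty) (hsec : ∀ (K R : Subgroup G) [hR : (R.subgroupOf K).Normal], (K = ⊤ → R ≠ ⊥) → Cfsg.FamilyControlsTransferIn p ((fun W => Cfsg.inducedFunctor (G := (↥K ⧸ R.subgroupOf K)) W) '' 𝓦) ⊤) (hG : ¬ Cfsg.FamilyControlsTransferIn p ((fun W => Cfsg.inducedFunctor (G := G) W) '' 𝓦) ⊤) (T M : Subgroup G) (hT : T = (⨆ W ∈ 𝓦, (S : Subgroup G) ⊓ ⁅Subgroup.normalizer ((Cfsg.inducedFunctor (G := G) W (S : Subgroup G) : Subgroup G) : Set G), Subgroup.normalizer ((Cfsg.inducedFunctor (G := G) W (S : Subgroup G) : Subgroup G) : Set G)⁆)) (hM : M = Subgroup.normalizer ((T ⊓ Cfsg.pCore p G : Subgroup G) : Set G)) : Subgroup.centralizer ((Cfsg.pCore p G : Subgroup G) : Set G) ≤ Cfsg.pCore p G ∧ (M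 ≠ ⊤ ∧ ∀ H : Subgroup G, (S : Subgroup G) ≤ H → H ≠ ⊤ → H ≤ M) ∧ (⁅Cfsg.pCore p G, M⁆ ≤ Cfsg.pCore p G ⊓ ⁅M, M⁆ ∧ Cfsg.pCore p G ⊓ ⁅M, M⁆ ≤ Cfsg.pCore p G ⊓ T) ∧ ∀ u : G, u ∈ (S : Subgroup G) → u ∉ Cfsg.pCore p G → ∃ U V : Subgroup G, Cfsg.IsChiefFactor U V ∧ U ≤ Cfsg.pCore p G ∧ ¬ Cfsg.iterCommutator U (Subgroup.zpowers u) (p - 1) ≤ V := by

  have ih : SecIH p 𝓦 G := by
    intro H' _ hsec' hcard
    obtain ⟨K, R, hR, ⟨e⟩⟩ := hsec'.exists_official
    refine controls_of_iso h𝓦 e (@hsec K R hR ?_)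
    intro hK hRb
    subst hK
    subst hRb
    have h1 : Nat.card (↥(⊤ : Subgroup G) ⧸ (⊥ : Subgroup G).subgroupOf ⊤) = Nat.card G := by
      have h2 := Subgroup.card_eq_card_quotient_mul_card_subgroup ((⊥ : Subgroup G).subgroupOf ⊤)
      rw [Subgroup.bot_subgroupOf, Subgroup.card_bot, mul_one, Subgroup.card_top] at h2
      rw [Subgroup.bot_subgroupOf]
      exact h2.symm
    rw [← Nat.card_congr e.toEquiv, h1] at hcard
    exact lt_irrefl _ hcard
  have hnot : ¬ CT 𝓦 ⊤ (S : Subgroup G) := fun h =>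
    hG (controls_of_CT le_top S.2 (sylow_not_dvd_relIndex_top S) h)
  have hT' : T = focT 𝓦 ⊤ (S : Subgroup G) := by
    rw [hT]; unfold focT; simp only [top_inf_eq]
  obtain ⟨h1, h2, h3, h4⟩ := ih.structure h𝓦 hne S hnot hT' hM
  refine ⟨h1, h2, h3, ?_⟩
  intro u hu huQ
  have h5 := h4 u hu huQ
  unfold GoodElt at h5
  push Not at h5
  obtain ⟨U, V, hUV, hU, hn⟩ := h5
  exact ⟨U, V, hUV, hU, hn⟩

end Cfsg.Agent.S1998
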