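import Cfsg.Statements.S2007
import Cfsg.Agent.H12.AG2
import Cfsg.Agent.H12.Functors

set_option autoImplicit false
open Cfsg
open Cfsg.Agent.H12

namespace Cfsg.Agent.S2007

/-- Let p be a prime, G a finite group with Sylow p-subgroup S, and T a normal subgroup of S containing C_S(T). If N_G(T)/C_G(T) is a p-group (every element of N_G(T) of order prime to p centralizes T), then N_G(T) has a normal p-complement. -/
theorem result {G : Type*} [Group G] [Finite G] {p : ℕ} [Fact p.Prime] (S : Sylow p G) (T : Subgroup G) (hTS : T ≤ (S : Subgroup G)) (hTn : (S : Subgroup G) ≤ Subgroup.normalizer ((T : Subgroup G) : Set G)) (hC : (S : Subgroup G) ⊓ Subgroup.centralizer ((T : Subgroup G) : Set G) ≤ T) (hN : ∀ g ∈ Subgroup.normalizer ((T : Subgroup G) : Set G), (orderOf g).Coprime p → g ∈ Subgroup.centralizer ((T : Subgroup G) : Set G)) : Cfsg.HasNormalPComplement p ↥(Subgroup.normalizer ((T : Subgroup G) : Set G)) := by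
  set X := Subgroup.normalizer ((T : Subgroup G) : Set G) with hX
  set C := Subgroup.centralizer ((T : Subgroup G) : Set G) with hCdef
  have hfn : FullyNormalized p S T := fullyNormalized_of_le_normalizer S hTn
  have hCX : C ≤ X := Subgroup.centralizer_le_normalizer _
  have hCn : ∀ x ∈ X, cj C x = C := by
    intro x hx
    rw [hCdef, ← centralizer_cj, cj_eq_self hx]
  have hCsyl : ¬ p ∣ ((S : Subgroup G) ⊓ C).relIndex C := by
    have := sylow_rel_inf_normal (S := (S : Subgroup G) ⊓ X) inf_le_right (S.2.to_le inf_le_left) hfn hCX hCn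
    rwa [inf_assoc, inf_eq_right.mpr hCX] at this
  have hR' : IsPGroup p (((S : Subgroup G) ⊓ C).subgroupOf C) := (S.2.to_le inf_le_left).comap_subtype
  let S' : Sylow p C := hR'.toSylow hCsyl
  have hScen : (S' : Subgroup C) ≤ Subgroup.center C := by
    intro s hs
    have hs' : (s : G) ∈ (S : Subgroup G) ⊓ C := hs
    rw [Subgroup.mem_center_iff]
    intro c
    apply Subtype.ext
    have := (Subgroup.mem_centralizer_iff.mp c.2) s (hC hs')
    simpa using this.symm
  have hOc := pResidual_coprime_of_central S' hScen
  rw [hasNormalPComplement_iff]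
  have hle : (pResidual p X).map X.subtype ≤ (pResidual p C).map C.subtype := by
    rw [pResidual, MonoidHom.map_closure, Subgroup.closure_le]
    rintro _ ⟨y, hy, rfl⟩
    have hy' : (orderOf y).Coprime p := hy
    rw [← Subgroup.orderOf_coe] at hy'
    refine ⟨⟨y, hN y y.2 hy'⟩, mem_pResidual ?_, rfl⟩
    rwa [Subgroup.orderOf_mk]
  have h1 := Subgroup.card_dvd_of_le hle
  rw [Subgroup.card_map_of_injective X.subtype_injective, Subgroup.card_map_of_injective C.subtype_injective] at h1
  exact Nat.Coprime.coprime_dvd_left h1 hOc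

end Cfsg.Agent.S2007
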