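import Cfsg.Statements.S2008
import Cfsg.Agent.H12.FourGroup

set_option autoImplicit false
open Cfsg
open Cfsg.Agent.H12

namespace Cfsg.Agent.S2008

/-- Let H be a finite group and z an involution such that every proper normal subgroup of H meets the centralizer of z trivially, and suppose z lies in a Klein four-subgroup E of H all three of whose involutions are conjugate to z in H. Then H has no non-trivial abelian normal subgroup. -/
theorem result {H : Type*} [Group H] [Finite H] (z : H) (hz : orderOf z = 2) (hN : ∀ N : Subgroup H, N.Normal → N ≠ ⊤ → N ⊓ Subgroup.centralizer ({z} : Set H) = ⊥) (E : Subgroup H) (hE : IsKleinFour ↥E) (hzE : z ∈ E) (hc : ∀ e ∈ E, e ≠ 1 → IsConj z e) (N : Subgroup H) [N.Normal] (hab : IsMulCommutative ↥N) : N = ⊥ := by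
  classical
  by_cases hne : N = ⊤
  · exfalso
    have hcomm : ∀ a b : H, a * b = b * a := by
      intro a b
      have ha : a ∈ N := by rw [hne]; trivial
      have hb : b ∈ N := by rw [hne]; trivial
      have := hab.is_comm.comm (⟨a, ha⟩ : N) ⟨b, hb⟩
      exact congrArg Subtype.val this
    have hall : ∀ e ∈ E, e ≠ 1 → e = z := by
      intro e he he1
      obtain ⟨c, hc'⟩ := isConj_iff.mp (hc e he he1)
      rw [← hc', hcomm c z]; group
    have hcard : Nat.card E = 4 := hE.card_four
    have : Fintype E := Fintype.ofFinite E
    rw [Nat.card_eq_fintype_card] at hcard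
    have hsub : (Finset.univ : Finset E) ⊆ {1, ⟨z, hzE⟩} := by
      intro x _
      by_cases hx : (x : H) = 1
      · simp [Subtype.ext_iff, hx]
      · have := hall x x.2 hx
        simp [Subtype.ext_iff, this]
    have h1 := Finset.card_le_card hsub
    have h2 : ({1, ⟨z, hzE⟩} : Finset E).card ≤ 2 := Finset.card_le_two
    rw [Finset.card_univ] at h1
    omega
  · exact normal_eq_bot_of_four z hz hN E hE hzE hc N inferInstance hne

end Cfsg.Agent.S2008
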