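import Cfsg.Statements.S2157
import Cfsg.Agent.Chev.Tab.Step
import Cfsg.Agent.Chev.All

set_option autoImplicit false
open Cfsg

namespace Cfsg.Agent.S2157

/-- In a Chevalley group of type G₂, B₂, D₄, F₄, E₆, E₇ or E₈, for every character `χ` of the root lattice with values in `Fˣ` the diagonal matrix `ĥ(χ)` (identity on the coroot coordinates, `χ(s)` on the coordinate of `e_s`) conjugates each root element `x_r(t)` to `x_r(χ(r) t)`: `ĥ(χ) x_r(t) ĥ(χ)⁻¹ = x_r(χ(r) t)` as matrices, with `ĥ(χ)⁻¹` written as `ĥ(χ⁻¹)`. -/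
theorem result {F : Type*} [Field F] (D : Cfsg.Lie.ChevalleyDatum) (hD : D ∈ [Cfsg.Lie.chevG2, Cfsg.Lie.chevB2, Cfsg.Lie.chevD4, Cfsg.Lie.chevF4, Cfsg.Lie.chevE6, Cfsg.Lie.chevE7, Cfsg.Lie.chevE8]) (χ : ℕ → Fˣ) (hχ : D.IsRootCharacter χ) (r : ℕ) (hr : r < D.nroots) (t : F) :
    D.charDiag F χ * D.x F r t * D.charDiag F (fun s => (χ s)⁻¹) = D.x F r ((χ r : F) * t) := by
  have key : ∀ (G : Cfsg.Agent.Chev.Good D) (S : Cfsg.Agent.Chev.Step D),
      D.charDiag F χ * D.x F r t * D.charDiag F (fun s => (χ s)⁻¹) = D.x F r ((χ r : F) * t) := by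
    intro G S
    rw [Cfsg.Agent.Chev.charDiag_mul_x G S hχ r hr t, Matrix.mul_assoc]
    have h1 : D.charDiag F χ * D.charDiag F (fun s => (χ s)⁻¹) = 1 := by
      rw [Cfsg.Lie.ChevalleyDatum.charDiag, Cfsg.Lie.ChevalleyDatum.charDiag, Matrix.diagonal_mul_diagonal,
        ← Matrix.diagonal_one]
      congr 1
      funext a
      rcases a with i | s <;> simp
    rw [h1, Matrix.mul_one]
  simp only [List.mem_cons, List.not_mem_nil, or_false] at hD
  rcases hD with rfl | rfl | rfl | rfl | rfl | rfl | rfl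
  · exact key Cfsg.Agent.Chev.goodG2 Cfsg.Agent.Chev.stepG2
  · exact key Cfsg.Agent.Chev.goodB2 Cfsg.Agent.Chev.stepB2
  · exact key Cfsg.Agent.Chev.goodD4 Cfsg.Agent.Chev.stepD4
  · exact key Cfsg.Agent.Chev.goodF4 Cfsg.Agent.Chev.stepF4
  · exact key Cfsg.Agent.Chev.goodE6 Cfsg.Agent.Chev.stepE6
  · exact key Cfsg.Agent.Chev.goodE7 Cfsg.Agent.Chev.stepE7
  · exact key Cfsg.Agent.Chev.goodE8 Cfsg.Agent.Chev.stepE8

end Cfsg.Agent.S2157
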