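import Cfsg.Statements.S2160
import Cfsg.Agent.Chev.Gen
import Cfsg.Agent.Chev.All2

set_option autoImplicit false
open Cfsg

namespace Cfsg.Agent.S2160

/-- In a Chevalley group of type G₂, B₂, D₄, F₄, E₆, E₇ or E₈ over a finite field, every field automorphism commutes with every graph automorphism. -/
theorem result {F : Type*} [Field F] [Finite F] (D : Cfsg.Lie.ChevalleyDatum) (hD : D ∈ [Cfsg.Lie.chevG2, Cfsg.Lie.chevB2, Cfsg.Lie.chevD4, Cfsg.Lie.chevF4, Cfsg.Lie.chevE6, Cfsg.Lie.chevE7, Cfsg.Lie.chevE8]) (f g : ↥(D.group F) ≃* ↥(D.group F))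
    (hf : D.IsFieldAut f) (hg : D.IsGraphAut g) (y : ↥(D.group F)) : f (g y) = g (f y) := by
  obtain ⟨G, G2, R⟩ := Cfsg.Agent.Chev.exists_good2 hD
  have R := R F
  obtain ⟨σ, hσ⟩ := hf
  obtain ⟨π, -, hπ⟩ := hg
  have key : f.toMonoidHom.comp g.toMonoidHom = g.toMonoidHom.comp f.toMonoidHom := by
    apply R.hom_ext G2
    intro i hi t
    have h1 := (hπ (R.xG (D.simple i) t) ⟨i, hi⟩ t).1 rfl
    have h2 := (hπ (R.xG (D.neg (D.simple i)) t) ⟨i, hi⟩ t).2 rfl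
    have h3 := hσ (R.xG (D.simple i) t) _ t (G.simple_lt i hi) rfl
    have h4 := hσ (R.xG (D.neg (D.simple i)) t) _ t (G.neg_lt (G.simple_lt i hi)) rfl
    rw [R.eq_xG_iff] at h1 h2 h3 h4
    have h5 := (hπ (R.xG (D.simple i) (σ t)) ⟨i, hi⟩ (σ t)).1 rfl
    have h6 := (hπ (R.xG (D.neg (D.simple i)) (σ t)) ⟨i, hi⟩ (σ t)).2 rfl
    have h7 := hσ (R.xG (D.simple (π ⟨i, hi⟩)) (t ^ D.graphExp (ringChar F) i (π ⟨i, hi⟩))) _ _ (G.simple_lt _ (π ⟨i, hi⟩).2) rfl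
    have h8 := hσ (R.xG (D.neg (D.simple (π ⟨i, hi⟩))) (t ^ D.graphExp (ringChar F) i (π ⟨i, hi⟩))) _ _ (G.neg_lt (G.simple_lt _ (π ⟨i, hi⟩).2)) rfl
    rw [R.eq_xG_iff] at h5 h6 h7 h8
    constructor
    · show f (g _) = g (f _)
      rw [h1, h3, h5, h7, map_pow]
    · show f (g _) = g (f _)
      rw [h2, h4, h6, h8, map_pow]
  exact DFunLike.congr_fun key y

end Cfsg.Agent.S2160
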