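import Mathlib
import Cfsg.Statements.S2298
import Cfsg.Agent.H14.GL2Deg

set_option autoImplicit false

namespace Cfsg.Agent.S2298

open Cfsg.Agent.H14

theorem result {F : Type*} [Field F] [Fintype F] :
    (∀ χ : Matrix.GeneralLinearGroup (Fin 2) F → ℂ, Cfsg.IsIrrCharacter (Matrix.GeneralLinearGroup (Fin 2) F) χ →
      χ 1 = 1 ∨ χ 1 = (Fintype.card F : ℂ) - 1 ∨ χ 1 = (Fintype.card F : ℂ) ∨ χ 1 = (Fintype.card F : ℂ) + 1) ∧
    (3 ≤ Fintype.card F →
      Nat.card {χ : Cfsg.IrrCharacter (Matrix.GeneralLinearGroup (Fin 2) F) // (χ : Matrix.GeneralLinearGroup (Fin 2) F → ℂ) 1 = 1} = Fintype.card F - 1 ∧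
      Nat.card {χ : Cfsg.IrrCharacter (Matrix.GeneralLinearGroup (Fin 2) F) // (χ : Matrix.GeneralLinearGroup (Fin 2) F → ℂ) 1 = (Fintype.card F : ℂ)} = Fintype.card F - 1 ∧
      Nat.card {χ : Cfsg.IrrCharacter (Matrix.GeneralLinearGroup (Fin 2) F) // (χ : Matrix.GeneralLinearGroup (Fin 2) F → ℂ) 1 = (Fintype.card F : ℂ) + 1} = (Fintype.card F - 1) * (Fintype.card F - 2) / 2 ∧
      Nat.card {χ : Cfsg.IrrCharacter (Matrix.GeneralLinearGroup (Fin 2) F) // (χ : Matrix.GeneralLinearGroup (Fin 2) F → ℂ) 1 = (Fintype.card F : ℂ) - 1} = Fintype.card F * (Fintype.card F - 1) / 2) := by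
  classical
  refine ⟨fun χ hχ => gl2_degree_cases hχ, fun hq => ?_⟩
  obtain ⟨k, hk⟩ : ∃ k, Fintype.card F = k + 3 := ⟨Fintype.card F - 3, by omega⟩
  have hkc : (Fintype.card F : ℂ) = (k : ℂ) + 3 := by rw [hk]; push_cast; ring
  have hpos : ∀ (c : ℕ), (k : ℂ) + (c : ℂ) + 1 ≠ 0 := by
    intro c h
    have : ((k + c + 1 : ℕ) : ℂ) = 0 := by push_cast; exact h
    have := Nat.cast_eq_zero.mp this
    omega
  have n1 : ¬ ((Fintype.card F : ℂ) - 1 = 1) := by
    intro h; apply hpos 0; rw [hkc] at h; push_cast; linear_combination h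
  have n2 : ¬ ((Fintype.card F : ℂ) = 1) := by
    intro h; apply hpos 1; rw [hkc] at h; push_cast; linear_combination h
  have n3 : ¬ ((Fintype.card F : ℂ) + 1 = 1) := by
    intro h; apply hpos 2; rw [hkc] at h; push_cast; linear_combination h
  have n4 : ¬ ((Fintype.card F : ℂ) - 1 = (Fintype.card F : ℂ)) := by
    intro h; have : (1 : ℂ) = 0 := by linear_combination -h
    exact one_ne_zero this
  have n5 : ¬ ((Fintype.card F : ℂ) + 1 = (Fintype.card F : ℂ)) := by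
    intro h; have : (1 : ℂ) = 0 := by linear_combination h
    exact one_ne_zero this
  have n6 : ¬ ((Fintype.card F : ℂ) - 1 = (Fintype.card F : ℂ) + 1) := by
    intro h; have : (2 : ℂ) = 0 := by linear_combination -h
    exact two_ne_zero this
  have n2' : ¬ ((1 : ℂ) = (Fintype.card F : ℂ)) := fun h => n2 h.symm
  have n3' : ¬ ((1 : ℂ) = (Fintype.card F : ℂ) + 1) := fun h => n3 h.symm
  have n1' : ¬ ((1 : ℂ) = (Fintype.card F : ℂ) - 1) := fun h => n1 h.symm
  have n4' : ¬ ((Fintype.card F : ℂ) = (Fintype.card F : ℂ) - 1) := fun h => n4 h.symm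
  have n5' : ¬ ((Fintype.card F : ℂ) = (Fintype.card F : ℂ) + 1) := fun h => n5 h.symm
  have n6' : ¬ ((Fintype.card F : ℂ) + 1 = (Fintype.card F : ℂ) - 1) := fun h => n6 h.symm
  refine ⟨?_, ?_, ?_, ?_⟩
  · have h := card_deg_gl2 (F := F) 1
    rw [if_neg n1, if_pos rfl, if_neg n2, if_neg n3, hkc] at h
    have h' : Nat.card {χ : Cfsg.IrrCharacter (Matrix.GeneralLinearGroup (Fin 2) F) // (χ : Matrix.GeneralLinearGroup (Fin 2) F → ℂ) 1 = 1} = k + 2 := by
      have : ((Nat.card {χ : Cfsg.IrrCharacter (Matrix.GeneralLinearGroup (Fin 2) F) // (χ : Matrix.GeneralLinearGroup (Fin 2) F → ℂ) 1 = 1} : ℕ) : ℂ) = ((k + 2 : ℕ) : ℂ) := by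
        rw [h]; push_cast; ring
      exact_mod_cast this
    rw [h', hk]; omega
  · have h := card_deg_gl2 (F := F) (Fintype.card F : ℂ)
    rw [if_neg n4, if_neg n2', if_pos rfl, if_neg n5] at h
    have h' : Nat.card {χ : Cfsg.IrrCharacter (Matrix.GeneralLinearGroup (Fin 2) F) // (χ : Matrix.GeneralLinearGroup (Fin 2) F → ℂ) 1 = (Fintype.card F : ℂ)} = k + 2 := by
      have : ((Nat.card {χ : Cfsg.IrrCharacter (Matrix.GeneralLinearGroup (Fin 2) F) // (χ : Matrix.GeneralLinearGroup (Fin 2) F → ℂ) 1 = (Fintype.card F : ℂ)} : ℕ) : ℂ) = ((k + 2 : ℕ) : ℂ) := by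
        rw [h, hkc]; push_cast; ring
      exact_mod_cast this
    rw [h', hk]; omega
  · have h := card_deg_gl2 (F := F) ((Fintype.card F : ℂ) + 1)
    rw [if_neg n6, if_neg n3', if_neg n5', if_pos rfl] at h
    have h' : 2 * Nat.card {χ : Cfsg.IrrCharacter (Matrix.GeneralLinearGroup (Fin 2) F) // (χ : Matrix.GeneralLinearGroup (Fin 2) F → ℂ) 1 = (Fintype.card F : ℂ) + 1} = (k + 2) * (k + 1) := by
      have : ((2 * Nat.card {χ : Cfsg.IrrCharacter (Matrix.GeneralLinearGroup (Fin 2) F) // (χ : Matrix.GeneralLinearGroup (Fin 2) F → ℂ) 1 = (Fintype.card F : ℂ) + 1} : ℕ) : ℂ) = (((k + 2) * (k + 1) : ℕ) : ℂ) := by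
        rw [Nat.cast_mul, h, hkc]; push_cast; ring
      exact_mod_cast this
    have e1 : Fintype.card F - 1 = k + 2 := by omega
    have e2 : Fintype.card F - 2 = k + 1 := by omega
    rw [e1, e2, ← h']
    omega
  · have h := card_deg_gl2 (F := F) ((Fintype.card F : ℂ) - 1)
    rw [if_pos rfl, if_neg n1', if_neg n4', if_neg n6'] at h
    have h' : 2 * Nat.card {χ : Cfsg.IrrCharacter (Matrix.GeneralLinearGroup (Fin 2) F) // (χ : Matrix.GeneralLinearGroup (Fin 2) F → ℂ) 1 = (Fintype.card F : ℂ) - 1} = (k + 3) * (k + 2) := by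
      have : ((2 * Nat.card {χ : Cfsg.IrrCharacter (Matrix.GeneralLinearGroup (Fin 2) F) // (χ : Matrix.GeneralLinearGroup (Fin 2) F → ℂ) 1 = (Fintype.card F : ℂ) - 1} : ℕ) : ℂ) = (((k + 3) * (k + 2) : ℕ) : ℂ) := by
        rw [Nat.cast_mul, h, hkc]; push_cast; ring
      exact_mod_cast this
    have e0 : Fintype.card F * (Fintype.card F - 1) = (k + 3) * (k + 2) := by
      rw [hk]; rfl
    rw [e0, ← h']
    omega

end Cfsg.Agent.S2298
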