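import Mathlib
import Cfsg.Statements.S2300
import Cfsg.Agent.H14.SL2Mult

namespace Cfsg.Agent.S2300

open Cfsg Cfsg.Agent.H14 Cfsg.Agent.CharLib

theorem result {F : Type*} [Field F] [Fintype F] [CharP F 2] :
    (∀ χ : Matrix.SpecialLinearGroup (Fin 2) F → ℂ, Cfsg.IsIrrCharacter (Matrix.SpecialLinearGroup (Fin 2) F) χ →
      χ 1 = 1 ∨ χ 1 = (Fintype.card F : ℂ) - 1 ∨ χ 1 = (Fintype.card F : ℂ) ∨ χ 1 = (Fintype.card F : ℂ) + 1) ∧
    (4 ≤ Fintype.card F →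
      Nat.card {χ : Cfsg.IrrCharacter (Matrix.SpecialLinearGroup (Fin 2) F) // (χ : Matrix.SpecialLinearGroup (Fin 2) F → ℂ) 1 = 1} = 1 ∧
      Nat.card {χ : Cfsg.IrrCharacter (Matrix.SpecialLinearGroup (Fin 2) F) // (χ : Matrix.SpecialLinearGroup (Fin 2) F → ℂ) 1 = (Fintype.card F : ℂ)} = 1 ∧
      Nat.card {χ : Cfsg.IrrCharacter (Matrix.SpecialLinearGroup (Fin 2) F) // (χ : Matrix.SpecialLinearGroup (Fin 2) F → ℂ) 1 = (Fintype.card F : ℂ) + 1} = (Fintype.card F - 2) / 2 ∧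
      Nat.card {χ : Cfsg.IrrCharacter (Matrix.SpecialLinearGroup (Fin 2) F) // (χ : Matrix.SpecialLinearGroup (Fin 2) F → ℂ) 1 = (Fintype.card F : ℂ) - 1} = Fintype.card F / 2) := by
  classical
  have h1q : 1 < Fintype.card F := Fintype.one_lt_card
  have heven : Even (Fintype.card F) := by
    rw [Nat.even_iff]
    exact FiniteField.even_card_iff_char_two.mp (ringChar.eq F 2)
  have c1 : (1 : ℂ) = ((1 : ℕ) : ℂ) := by simp
  have c2 : (Fintype.card F : ℂ) + 1 = ((Fintype.card F + 1 : ℕ) : ℂ) := by push_cast; ring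
  have c3 : (Fintype.card F : ℂ) - 1 = ((Fintype.card F - 1 : ℕ) : ℂ) := by
    rw [Nat.cast_sub (by omega)]; simp
  rw [c2, c3]
  constructor
  · intro χ hχ
    obtain ⟨d, hd, hc⟩ := deg_cases hχ
    rw [hd, c1]
    simp only [Nat.cast_inj]
    obtain ⟨k, hk⟩ := heven
    omega
  · intro hq
    obtain ⟨a, b⟩ := Ndeg_even heven hq
    have n1 := Ndeg_one (F := F) hq
    rw [Ndeg, ← c1] at n1
    exact ⟨n1, Ndeg_q, a, b⟩

end Cfsg.Agent.S2300
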