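import Cfsg.Statements.S2302

set_option autoImplicit false
open Cfsg

namespace Cfsg.Agent.S2302

variable {F : Type*} [Field F] [CharP F 2]

/-- the involution attached to the vector `(x, y)`. -/
def invo (v : F × F) : Matrix.SpecialLinearGroup (Fin 2) F :=
  ⟨!![1 + v.1 * v.2, v.1 ^ 2; v.2 ^ 2, 1 + v.1 * v.2], by
    rw [Matrix.det_fin_two_of]
    have h2 : (2 : F) = 0 := CharTwo.two_eq_zero
    linear_combination (v.1 * v.2) * h2⟩

theorem invo_coe (v : F × F) : (invo v : Matrix (Fin 2) (Fin 2) F) =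
    !![1 + v.1 * v.2, v.1 ^ 2; v.2 ^ 2, 1 + v.1 * v.2] := rfl

theorem sq_inj {x y : F} (h : x ^ 2 = y ^ 2) : x = y := by
  have : (x + y) ^ 2 = 0 := by rw [CharTwo.add_sq, h, CharTwo.add_self_eq_zero]
  exact CharTwo.add_eq_zero.mp (pow_eq_zero_iff (two_ne_zero) |>.mp this)

theorem invo_injective : Function.Injective (invo : F × F → Matrix.SpecialLinearGroup (Fin 2) F) := by
  intro v w h
  have h1 := congrArg (fun g : Matrix.SpecialLinearGroup (Fin 2) F => (g : Matrix (Fin 2) (Fin 2) F) 0 1) h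
  have h2 := congrArg (fun g : Matrix.SpecialLinearGroup (Fin 2) F => (g : Matrix (Fin 2) (Fin 2) F) 1 0) h
  simp [invo] at h1 h2
  exact Prod.ext (sq_inj h1) (sq_inj h2)

theorem invo_zero : invo (0 : F × F) = 1 := by
  ext i j
  fin_cases i <;> fin_cases j <;> simp [invo]

theorem invo_sq (v : F × F) : invo v ^ 2 = 1 := by
  have h2 : (2 : F) = 0 := CharTwo.two_eq_zero
  rw [sq]
  apply Subtype.ext
  rw [Matrix.SpecialLinearGroup.coe_mul, invo_coe, Matrix.SpecialLinearGroup.coe_one]
  ext i j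
  fin_cases i <;> fin_cases j <;> simp [sq, Matrix.mul_apply, Fin.sum_univ_two]
  · linear_combination (v.1 * v.2 + v.1 * v.2 * v.1 * v.2) * h2
  · linear_combination (v.1 * v.1 + v.1 * v.2 * v.1 * v.1) * h2
  · linear_combination (v.2 * v.2 + v.1 * v.2 * v.2 * v.2) * h2
  · linear_combination (v.1 * v.2 + v.1 * v.2 * v.1 * v.2) * h2

theorem orderOf_invo {v : F × F} (hv : v ≠ 0) : orderOf (invo v) = 2 := by
  apply orderOf_eq_prime (invo_sq v)
  intro h
  rw [← invo_zero] at h
  exact hv (invo_injective h)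

theorem exists_invo [Finite F] (g : Matrix.SpecialLinearGroup (Fin 2) F) (hg : orderOf g = 2) :
    ∃ v : F × F, v ≠ 0 ∧ invo v = g := by
  have h2 : (2 : F) = 0 := CharTwo.two_eq_zero
  obtain ⟨hsq, hne⟩ := orderOf_eq_prime_iff.mp hg
  have hdet := g.det_coe
  rw [Matrix.det_fin_two] at hdet
  have hm : (g : Matrix (Fin 2) (Fin 2) F) * g = 1 := by
    have := congrArg (fun g : Matrix.SpecialLinearGroup (Fin 2) F => (g : Matrix (Fin 2) (Fin 2) F)) hsq
    simpa [sq] using this
  have h00 := congrFun (congrFun hm 0) 0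
  have h01 := congrFun (congrFun hm 0) 1
  have h10 := congrFun (congrFun hm 1) 0
  have h11 := congrFun (congrFun hm 1) 1
  simp [Matrix.mul_apply, Fin.sum_univ_two] at h00 h01 h10 h11
  set a := (g : Matrix (Fin 2) (Fin 2) F) 0 0
  set b := (g : Matrix (Fin 2) (Fin 2) F) 0 1
  set c := (g : Matrix (Fin 2) (Fin 2) F) 1 0
  set d := (g : Matrix (Fin 2) (Fin 2) F) 1 1
  have had : a + d = 0 := by
    by_contra hne'
    have ha : a = 0 := by
      have : a * (a + d) = 0 := by linear_combination h00 + hdet + h2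
      exact (mul_eq_zero.mp this).resolve_right hne'
    have hb : b = 0 := by
      have : b * (a + d) = 0 := by linear_combination h01
      exact (mul_eq_zero.mp this).resolve_right hne'
    rw [ha, hb] at hdet
    simp at hdet
  have hda : d = a := (CharTwo.add_eq_zero.mp had).symm
  have hchar : ringChar F = 2 := ringChar.eq F 2
  obtain ⟨x, hx⟩ := FiniteField.isSquare_of_char_two hchar b
  obtain ⟨y, hy⟩ := FiniteField.isSquare_of_char_two hchar c
  have haxy : a + 1 = x * y := by
    apply sq_inj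
    rw [hx, hy] at h00
    linear_combination h00 + (a + 1 - x ^ 2 * y ^ 2) * h2
  have ha : a = 1 + x * y := by linear_combination haxy - h2
  have hgv : invo (x, y) = g := by
    ext i j
    fin_cases i <;> fin_cases j <;> simp [invo]
    · exact ha.symm
    · change _ = b; rw [hx, sq]
    · change _ = c; rw [hy, sq]
    · change _ = d; rw [hda]; exact ha.symm
  refine ⟨(x, y), ?_, hgv⟩
  intro h0
  rw [h0, invo_zero] at hgv
  exact hne hgv.symm

theorem isConj_invo {v : F × F} (hv : v ≠ 0) : IsConj (invo ((1 : F), (0 : F))) (invo v) := by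
  have h2 : (2 : F) = 0 := CharTwo.two_eq_zero
  obtain ⟨x, y⟩ := v
  rw [isConj_iff]
  by_cases hx : x = 0
  · have hy : y ≠ 0 := by
      rintro rfl
      exact hv (by simp [hx])
    subst hx
    have hd : (!![0, y⁻¹; y, 0] : Matrix (Fin 2) (Fin 2) F).det = 1 := by
      rw [Matrix.det_fin_two_of, inv_mul_cancel₀ hy]
      linear_combination -h2
    obtain ⟨P, hP⟩ : ∃ P : Matrix.SpecialLinearGroup (Fin 2) F,
        (P : Matrix (Fin 2) (Fin 2) F) = !![0, y⁻¹; y, 0] := ⟨⟨_, hd⟩, rfl⟩
    refine ⟨P, ?_⟩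
    · apply mul_inv_eq_iff_eq_mul.mpr
      apply Subtype.ext
      rw [Matrix.SpecialLinearGroup.coe_mul, Matrix.SpecialLinearGroup.coe_mul, invo_coe, invo_coe, hP]
      ext i j
      fin_cases i <;> fin_cases j <;> simp [Matrix.mul_apply, Fin.sum_univ_two]
      field_simp
  · have hd : (!![x, 0; y, x⁻¹] : Matrix (Fin 2) (Fin 2) F).det = 1 := by
      rw [Matrix.det_fin_two_of, mul_inv_cancel₀ hx]
      simp
    obtain ⟨P, hP⟩ : ∃ P : Matrix.SpecialLinearGroup (Fin 2) F,
        (P : Matrix (Fin 2) (Fin 2) F) = !![x, 0; y, x⁻¹] := ⟨⟨_, hd⟩, rfl⟩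
    refine ⟨P, ?_⟩
    · apply mul_inv_eq_iff_eq_mul.mpr
      apply Subtype.ext
      rw [Matrix.SpecialLinearGroup.coe_mul, Matrix.SpecialLinearGroup.coe_mul, invo_coe, invo_coe, hP]
      ext i j
      fin_cases i <;> fin_cases j <;> simp [Matrix.mul_apply, Fin.sum_univ_two]
      · linear_combination (- x * x * y) * h2
      · field_simp
      · linear_combination (- x * y * y) * h2
      · field_simp
        ring

theorem result {F : Type*} [Field F] [Fintype F] [CharP F 2] (g h : Matrix.SpecialLinearGroup (Fin 2) F) (hg : orderOf g = 2) (hh : orderOf h = 2) :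
    IsConj g h ∧ Nat.card (ConjClasses.mk g).carrier = Fintype.card F ^ 2 - 1 := by
  have allconj : ∀ g h : Matrix.SpecialLinearGroup (Fin 2) F, orderOf g = 2 → orderOf h = 2 → IsConj g h := by
    intro g h hg hh
    obtain ⟨v, hv, rfl⟩ := exists_invo g hg
    obtain ⟨w, hw, rfl⟩ := exists_invo h hh
    exact (isConj_invo hv).symm.trans (isConj_invo hw)
  refine ⟨allconj g h hg hh, ?_⟩
  have hset : (ConjClasses.mk g).carrier = Set.range (fun v : {v : F × F // v ≠ 0} => invo v.1) := by
    ext k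
    rw [ConjClasses.mem_carrier_iff_mk_eq, ConjClasses.mk_eq_mk_iff_isConj]
    constructor
    · intro hk
      have hk2 : orderOf k = 2 := by
        obtain ⟨c, hc⟩ := isConj_iff.mp hk
        have hsc : SemiconjBy c k g := by
          rw [SemiconjBy, ← hc]; group
        exact (hsc.orderOf_eq).trans hg
      obtain ⟨v, hv, rfl⟩ := exists_invo k hk2
      exact ⟨⟨v, hv⟩, rfl⟩
    · rintro ⟨v, rfl⟩
      exact allconj _ _ (orderOf_invo v.2) hg
  rw [hset, Nat.card_range_of_injective (fun v w hvw => Subtype.ext (invo_injective hvw))]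
  classical
  rw [Nat.card_eq_fintype_card, Fintype.card_subtype_compl]
  simp [sq]

end Cfsg.Agent.S2302
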