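import Mathlib
import Cfsg.Statements.S2304
import Cfsg.Agent.H14.GL2Class

set_option autoImplicit false

namespace Cfsg.Agent.S2304

theorem result {F : Type*} [Field F] [Fintype F] [DecidableEq F] (α β : MulChar F ℂ) (hαβ : α ≠ β) :
    Cfsg.IsIrrCharacter (Matrix.GeneralLinearGroup (Fin 2) F) (Cfsg.indFun (Cfsg.upperTriangularGL 2 F) (fun b => α (((b : Matrix.GeneralLinearGroup (Fin 2) F) : Matrix (Fin 2) (Fin 2) F) 0 0) * β (((b : Matrix.GeneralLinearGroup (Fin 2) F) : Matrix (Fin 2) (Fin 2) F) 1 1))) :=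
  Cfsg.Agent.H14.isIrr_GR hαβ

end Cfsg.Agent.S2304
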