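import Mathlib
import Cfsg.Statements.S2306
import Cfsg.Agent.H14.SL2Extra

namespace Cfsg.Agent.S2306

open Cfsg Cfsg.Agent.H14 Cfsg.Agent.CharLib

theorem result {F : Type*} [Field F] [Fintype F] [DecidableEq F] (α : MulChar F ℂ) :
    Cfsg.IsIrrCharacter (Matrix.SpecialLinearGroup (Fin 2) F) (Cfsg.indFun ((Cfsg.upperTriangularGL 2 F).comap Matrix.SpecialLinearGroup.toGL) (fun b => α (((b : Matrix.SpecialLinearGroup (Fin 2) F) : Matrix (Fin 2) (Fin 2) F) 0 0))) ↔ α ^ 2 ≠ 1 := by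
  classical
  have e : α ^ 2 = 1 ↔ α = α⁻¹ := by
    rw [eq_inv_iff_mul_eq_one, sq]
  change IsIrrCharacter _ (Rch α) ↔ _
  rw [ne_eq, e]
  constructor
  · intro h h'
    have h1 := classInner_irr_self h
    rw [inner_Rch_Rch, if_pos rfl, if_pos h'] at h1
    norm_num at h1
  · intro h
    exact isIrr_Rch h

end Cfsg.Agent.S2306
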