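import Mathlib
import Cfsg.Statements.S2307
import Cfsg.Agent.H14.SL2Twist

namespace Cfsg.Agent.S2307

open Cfsg Cfsg.Agent.H14 Cfsg.Agent.CharLib

theorem result {F : Type*} [Field F] [Fintype F] [DecidableEq F] (hodd : Odd (Fintype.card F)) (α : MulChar F ℂ)
    (hα : α ^ 2 = 1) (hα1 : α ≠ 1) :
    ∃ χ₁ χ₂ : Matrix.SpecialLinearGroup (Fin 2) F → ℂ, Cfsg.IsIrrCharacter (Matrix.SpecialLinearGroup (Fin 2) F) χ₁ ∧ Cfsg.IsIrrCharacter (Matrix.SpecialLinearGroup (Fin 2) F) χ₂ ∧ χ₁ ≠ χ₂ ∧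
      Cfsg.indFun ((Cfsg.upperTriangularGL 2 F).comap Matrix.SpecialLinearGroup.toGL) (fun b => α (((b : Matrix.SpecialLinearGroup (Fin 2) F) : Matrix (Fin 2) (Fin 2) F) 0 0)) = χ₁ + χ₂ ∧
      χ₁ 1 = (((Fintype.card F + 1) / 2 : ℕ) : ℂ) ∧ χ₂ 1 = (((Fintype.card F + 1) / 2 : ℕ) : ℂ) ∧
      ∃ x : Matrix.GeneralLinearGroup (Fin 2) F, ∀ g h : Matrix.SpecialLinearGroup (Fin 2) F,
        Matrix.SpecialLinearGroup.toGL h = x * Matrix.SpecialLinearGroup.toGL g * x⁻¹ → χ₂ h = χ₁ g := by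
  classical
  have h0 : α = α⁻¹ := by rw [eq_inv_iff_mul_eq_one, ← sq]; exact hα
  obtain ⟨C, hC⟩ := exists_NST (F := F)
  change ∃ χ₁ χ₂ : Matrix.SpecialLinearGroup (Fin 2) F → ℂ, _ ∧ _ ∧ _ ∧ Rch α = χ₁ + χ₂ ∧ _
  have hR0 : Rch α ≠ 0 := by
    intro h
    have := congrFun h 1
    rw [Rch_apply_one] at this
    exact q_add_one_ne_zero this
  obtain ⟨χ₁, h1, hin⟩ := exists_constituent (isClassFunction_Rch α) hR0
  have hh1 := halfOf_Rch hC h0 hα1 h1 hin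
  obtain ⟨χ₂, h2, hne, hsum⟩ := hh1.1
  have hin2 : classInner (Rch α) χ₂ ≠ 0 := by
    rw [hsum, classInner_add_left, classInner_irr_self h2, classInner_irr_ne h1 h2 hne.symm]; norm_num
  have hh2 := halfOf_Rch hC h0 hα1 h2 hin2
  have hdeg : ∀ χ : Matrix.SpecialLinearGroup (Fin 2) F → ℂ, HalfOf C χ (Rch α) →
      χ 1 = (((Fintype.card F + 1) / 2 : ℕ) : ℂ) := by
    intro χ hh
    have := hh.apply_one
    rw [Rch_apply_one] at this
    obtain ⟨k, hk⟩ := hodd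
    have e : (Fintype.card F + 1) / 2 = k + 1 := by omega
    have hk' : (Fintype.card F : ℂ) = 2 * k + 1 := by exact_mod_cast hk
    rw [e]
    rw [hk'] at this
    push_cast
    linear_combination this / 2
  obtain ⟨e, he⟩ := FiniteField.exists_nonsquare (ringChar_ne_two_of_odd hodd)
  have he0 : e ≠ 0 := by rintro rfl; exact he IsSquare.zero
  refine ⟨χ₁, χ₂, h1, h2, hne.symm, hsum, hdeg χ₁ hh1, hdeg χ₂ hh2, dGL (Units.mk0 e he0), ?_⟩
  intro g h hgh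
  rw [eq_twist_of_conj _ g h hgh]
  exact half_twist hC hodd h0 hα1 h1 h2 hne hsum (by simpa using he) g

end Cfsg.Agent.S2307
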