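import Cfsg.Statements.S2308

set_option autoImplicit false
open Cfsg

namespace Cfsg.Agent.S2308

open Matrix

variable {F : Type*} [Field F]

theorem mem_B (x : GL (Fin 2) F) : x ∈ upperTriangularGL 2 F ↔ (x : Matrix (Fin 2) (Fin 2) F) 1 0 = 0 := by
  change (x : Matrix (Fin 2) (Fin 2) F).BlockTriangular id ↔ _
  constructor
  · intro h
    exact h (by simp : (id (0 : Fin 2)) < id 1)
  · intro h i j hij
    fin_cases i <;> fin_cases j <;> simp_all

/-- coset representatives of the Borel subgroup, indexed by the projective line. -/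
def rep : Option F → GL (Fin 2) F
  | some c => ⟨!![1, 0; c, 1], !![1, 0; -c, 1], by
      ext i j; fin_cases i <;> fin_cases j <;> simp [Matrix.mul_apply, Fin.sum_univ_two], by
      ext i j; fin_cases i <;> fin_cases j <;> simp [Matrix.mul_apply, Fin.sum_univ_two]⟩
  | none => ⟨!![0, 1; 1, 0], !![0, 1; 1, 0], by
      ext i j; fin_cases i <;> fin_cases j <;> simp [Matrix.mul_apply, Fin.sum_univ_two], by
      ext i j; fin_cases i <;> fin_cases j <;> simp [Matrix.mul_apply, Fin.sum_univ_two]⟩

theorem rep_some (c : F) : (rep (some c) : Matrix (Fin 2) (Fin 2) F) = !![1, 0; c, 1] := rfl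
theorem rep_some_inv (c : F) : ((rep (some c))⁻¹ : GL (Fin 2) F).val = !![1, 0; -c, 1] := rfl
theorem rep_none : (rep (none : Option F) : Matrix (Fin 2) (Fin 2) F) = !![0, 1; 1, 0] := rfl
theorem rep_none_inv : ((rep (none : Option F))⁻¹ : GL (Fin 2) F).val = !![0, 1; 1, 0] := rfl

theorem entry_some (c : F) (x : GL (Fin 2) F) :
    (((rep (some c))⁻¹ * x : GL (Fin 2) F) : Matrix (Fin 2) (Fin 2) F) 1 0 =
      (x : Matrix (Fin 2) (Fin 2) F) 1 0 - c * (x : Matrix (Fin 2) (Fin 2) F) 0 0 := by
  rw [Units.val_mul, rep_some_inv]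
  simp [Matrix.mul_apply, Fin.sum_univ_two]
  ring

theorem entry_none (x : GL (Fin 2) F) :
    (((rep (none : Option F))⁻¹ * x : GL (Fin 2) F) : Matrix (Fin 2) (Fin 2) F) 1 0 =
      (x : Matrix (Fin 2) (Fin 2) F) 0 0 := by
  rw [Units.val_mul, rep_none_inv]
  simp [Matrix.mul_apply, Fin.sum_univ_two]

/-- the map from the projective line to the coset space. -/
def psi (o : Option F) : GL (Fin 2) F ⧸ upperTriangularGL 2 F := QuotientGroup.mk (rep o)

theorem psi_bijective : Function.Bijective (psi : Option F → GL (Fin 2) F ⧸ upperTriangularGL 2 F) := by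
  constructor
  · intro o o' h
    rw [psi, psi, QuotientGroup.eq, mem_B] at h
    rcases o with _ | c <;> rcases o' with _ | c'
    · rfl
    · rw [entry_none, rep_some] at h; simp at h
    · rw [entry_some, rep_none] at h; simp at h
    · rw [entry_some, rep_some] at h
      simp at h
      rw [sub_eq_zero.mp h]
  · intro y
    obtain ⟨x, rfl⟩ := QuotientGroup.mk_surjective y
    by_cases hp : (x : Matrix (Fin 2) (Fin 2) F) 0 0 = 0
    · refine ⟨none, ?_⟩
      rw [psi, QuotientGroup.eq, mem_B, entry_none, hp]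
    · refine ⟨some ((x : Matrix (Fin 2) (Fin 2) F) 1 0 / (x : Matrix (Fin 2) (Fin 2) F) 0 0), ?_⟩
      rw [psi, QuotientGroup.eq, mem_B, entry_some]
      field_simp
      simp

/-- fixed point condition on the projective line. -/
def fixP (g : GL (Fin 2) F) : Option F → Prop
  | some c => (g : Matrix (Fin 2) (Fin 2) F) 1 0 + (g : Matrix (Fin 2) (Fin 2) F) 1 1 * c
      = c * ((g : Matrix (Fin 2) (Fin 2) F) 0 0 + (g : Matrix (Fin 2) (Fin 2) F) 0 1 * c)
  | none => (g : Matrix (Fin 2) (Fin 2) F) 0 1 = 0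

theorem smul_psi_iff (g : GL (Fin 2) F) (o : Option F) : g • psi o = psi o ↔ fixP g o := by
  have : g • psi o = QuotientGroup.mk (g * rep o) := rfl
  rw [this, psi, eq_comm, QuotientGroup.eq, mem_B]
  rcases o with _ | c
  · rw [entry_none, Units.val_mul, rep_none]
    simp [Matrix.mul_apply, Fin.sum_univ_two, fixP]
  · rw [entry_some, Units.val_mul, rep_some]
    simp [Matrix.mul_apply, Fin.sum_univ_two, fixP, sub_eq_zero]

theorem card_fixed (g : GL (Fin 2) F) :
    Nat.card (MulAction.fixedBy (GL (Fin 2) F ⧸ upperTriangularGL 2 F) g) = Set.ncard {o | fixP g o} := by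
  rw [← Nat.card_coe_set_eq]
  symm
  apply Nat.card_congr
  refine Equiv.ofBijective (fun o => ⟨psi o.1, (smul_psi_iff g o.1).mpr o.2⟩) ⟨?_, ?_⟩
  · intro o o' h
    exact Subtype.ext (psi_bijective.1 (congrArg Subtype.val h))
  · rintro ⟨y, hy⟩
    obtain ⟨o, rfl⟩ := psi_bijective.2 y
    exact ⟨⟨o, (smul_psi_iff g o).mp hy⟩, rfl⟩

theorem result {F : Type*} [Field F] [Fintype F] (g : Matrix.GeneralLinearGroup (Fin 2) F) :
    ((∃ a : F, (g : Matrix (Fin 2) (Fin 2) F) = a • (1 : Matrix (Fin 2) (Fin 2) F)) → Cfsg.fixedPointCharacter (Cfsg.upperTriangularGL 2 F) g = Fintype.card F + 1) ∧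
    ((g : Matrix (Fin 2) (Fin 2) F) 0 1 = 0 → (g : Matrix (Fin 2) (Fin 2) F) 1 0 = 0 → (g : Matrix (Fin 2) (Fin 2) F) 0 0 ≠ (g : Matrix (Fin 2) (Fin 2) F) 1 1 →
      Cfsg.fixedPointCharacter (Cfsg.upperTriangularGL 2 F) g = 2) ∧
    ((∀ (c : F) (v : Fin 2 → F), v ≠ 0 → (g : Matrix (Fin 2) (Fin 2) F).mulVec v ≠ c • v) → Cfsg.fixedPointCharacter (Cfsg.upperTriangularGL 2 F) g = 0) ∧
    ((g : Matrix (Fin 2) (Fin 2) F) 1 0 = 0 → (g : Matrix (Fin 2) (Fin 2) F) 0 0 = (g : Matrix (Fin 2) (Fin 2) F) 1 1 → (g : Matrix (Fin 2) (Fin 2) F) 0 1 ≠ 0 →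
      Cfsg.fixedPointCharacter (Cfsg.upperTriangularGL 2 F) g = 1) := by
  unfold Cfsg.fixedPointCharacter
  rw [card_fixed]
  refine ⟨?_, ?_, ?_, ?_⟩
  · rintro ⟨a, ha⟩
    have : {o | fixP g o} = Set.univ := by
      ext o
      rcases o with _ | c <;> simp [fixP, ha, mul_comm]
    rw [this, Set.ncard_univ, Nat.card_eq_fintype_card, Fintype.card_option]
    push_cast
    rfl
  · intro h01 h10 hne
    have : {o | fixP g o} = {some 0, none} := by
      ext o
      rcases o with _ | c
      · simp [fixP, h01]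
      · simp only [fixP, h01, h10, Set.mem_ofPred_eq, Set.mem_insert_iff, Set.mem_singleton_iff, Option.some.injEq, reduceCtorEq, or_false]
        constructor
        · intro h
          have : c * ((g : Matrix (Fin 2) (Fin 2) F) 0 0 - (g : Matrix (Fin 2) (Fin 2) F) 1 1) = 0 := by
            linear_combination -h
          exact (mul_eq_zero.mp this).resolve_right (sub_ne_zero.mpr hne)
        · rintro rfl; simp
    rw [this, Set.ncard_pair (by simp)]
    norm_num
  · intro hg
    have : {o | fixP g o} = ∅ := by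
      ext o
      simp only [Set.mem_ofPred_eq, Set.mem_empty_iff_false, iff_false]
      rcases o with _ | c
      · intro hb
        simp only [fixP] at hb
        apply hg ((g : Matrix (Fin 2) (Fin 2) F) 1 1) ![0, 1] (by intro h; simpa using congrFun h 1)
        ext i
        fin_cases i <;> simp [Matrix.mulVec, dotProduct, Fin.sum_univ_two, hb]
      · intro hc
        simp only [fixP] at hc
        apply hg ((g : Matrix (Fin 2) (Fin 2) F) 0 0 + (g : Matrix (Fin 2) (Fin 2) F) 0 1 * c) ![1, c] (by intro h; simpa using congrFun h 0)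
        ext i
        fin_cases i <;> simp [Matrix.mulVec, dotProduct, Fin.sum_univ_two]
        rw [hc]; ring
    rw [this, Set.ncard_empty]
    norm_num
  · intro h10 had hb
    have : {o | fixP g o} = {some 0} := by
      ext o
      rcases o with _ | c
      · simp [fixP, hb]
      · simp only [fixP, h10, had, Set.mem_ofPred_eq, Set.mem_singleton_iff, Option.some.injEq]
        constructor
        · intro h
          have : (g : Matrix (Fin 2) (Fin 2) F) 0 1 * (c * c) = 0 := by
            linear_combination -h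
          have := (mul_eq_zero.mp this).resolve_left hb
          exact mul_self_eq_zero.mp this
        · rintro rfl; simp
    rw [this, Set.ncard_singleton]
    norm_num

end Cfsg.Agent.S2308
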