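import Mathlib
import Cfsg.Statements.S2309
import Cfsg.Agent.H14.GL2Val

set_option autoImplicit false

namespace Cfsg.Agent.S2309

open Cfsg.Agent.H14 Cfsg.Agent.CharLib Cfsg.Agent.CharLib.H2

theorem result {F : Type*} [Field F] [Fintype F] (χ : Matrix.GeneralLinearGroup (Fin 2) F → ℂ) (hχ : Cfsg.IsIrrCharacter (Matrix.GeneralLinearGroup (Fin 2) F) χ) (g : Matrix.GeneralLinearGroup (Fin 2) F) :
    (χ 1 = (Fintype.card F : ℂ) - 1 → (g : Matrix (Fin 2) (Fin 2) F) 0 1 = 0 → (g : Matrix (Fin 2) (Fin 2) F) 1 0 = 0 → (g : Matrix (Fin 2) (Fin 2) F) 0 0 ≠ (g : Matrix (Fin 2) (Fin 2) F) 1 1 → χ g = 0) ∧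
    (χ 1 = (Fintype.card F : ℂ) + 1 → (∀ (c : F) (v : Fin 2 → F), v ≠ 0 → (g : Matrix (Fin 2) (Fin 2) F).mulVec v ≠ c • v) → χ g = 0) := by
  classical
  constructor
  · intro hd h01 h10 hne
    have hg := eq_gb g h10
    rw [h01] at hg
    rcases cusp_or_of_degree hχ hd with hc | hq
    · rw [hg]
      apply hc.apply_diag (isClassFunction_of_char (isCharacter_of_irr hχ))
      intro e
      exact hne (by simpa using congrArg Units.val e)
    · exfalso
      have h1 : Fintype.card Fˣ = 1 := by rw [Fintype.card_units, hq]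
      have h2 : Subsingleton Fˣ := Fintype.card_le_one_iff_subsingleton.mp h1.le
      have h3 := Subsingleton.elim (Units.mk0 _ (gborel_diag g h10).1) (Units.mk0 _ (gborel_diag g h10).2)
      exact hne (by simpa using congrArg Units.val h3)
  · intro hd hne
    obtain ⟨α, β, -, rfl⟩ := eq_GR_of_degree hχ hd
    exact GR_noEig α β hne

end Cfsg.Agent.S2309
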