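import Mathlib
import Cfsg.Statements.S2310
import Cfsg.Agent.H14.GL2Val

set_option autoImplicit false

namespace Cfsg.Agent.S2310

open Cfsg.Agent.H14 Cfsg.Agent.CharLib Cfsg.Agent.CharLib.H2

theorem result {F : Type*} [Field F] [Fintype F] (hq : 3 ≤ Fintype.card F) (χ : Matrix.GeneralLinearGroup (Fin 2) F → ℂ) (hχ : Cfsg.IsIrrCharacter (Matrix.GeneralLinearGroup (Fin 2) F) χ)
    (u : Matrix.GeneralLinearGroup (Fin 2) F) (hu : (u : Matrix (Fin 2) (Fin 2) F) = !![1, 1; 0, 1]) :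
    (χ 1 = 1 → χ u = 1) ∧ (χ 1 = (Fintype.card F : ℂ) + 1 → χ u = 1) ∧
    (χ 1 = (Fintype.card F : ℂ) - 1 → χ u = -1) ∧ (χ 1 = (Fintype.card F : ℂ) → χ u = 0) := by
  classical
  have hu' : u = gb 1 1 1 := by
    apply Units.ext
    rw [hu]; simp
  refine ⟨?_, ?_, ?_, ?_⟩
  · intro hd
    rcases eq_gdet_or_of_degree hχ hd with ⟨α, rfl⟩ | h2
    · simp [gdet, hu, Matrix.det_fin_two]
    · omega
  · intro hd
    obtain ⟨α, β, -, rfl⟩ := eq_GR_of_degree hχ hd
    rw [GR_unip α β (by simp [hu]) (by simp [hu]) (by simp [hu])]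
    simp [hu]
  · intro hd
    rcases cusp_or_of_degree hχ hd with hc | h2
    · have h1 := hc.apply_unip (isClassFunction_of_char (isCharacter_of_irr hχ)) 1
      rw [gb_one, hd, ← hu'] at h1
      have hq1 := q_sub_one_ne_zero (F := F)
      apply mul_left_cancel₀ hq1
      linear_combination h1
    · omega
  · intro hd
    obtain ⟨α, rfl⟩ := eq_GSt_of_degree hχ hd
    exact GSt_unip α (by simp [hu]) (by simp [hu]) (by simp [hu])

end Cfsg.Agent.S2310
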