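import Mathlib
import Cfsg.Statements.S2315
import Cfsg.Agent.Lib.Helper19.Jordan
-- import your own Cfsg.Agent.* helpers here

set_option autoImplicit false
open Cfsg

namespace Cfsg.Agent.S2315

section aux
open Module Cfsg.Agent.Lib.Helper19

universe u

theorem sumExtend_inl {K V ι : Type*} [Field K] [AddCommGroup V] [Module K V] {v : ι → V}
    (hs : LinearIndependent K v) (i : ι) : Basis.sumExtend hs (Sum.inl i) = v i := by
  simp [Basis.sumExtend, Equiv.Set.sumDiffSubset]
  rfl

section blocks
variable {F : Type*} [Field F] {m κ : Type*} [Fintype m] [Fintype κ] [DecidableEq m] [DecidableEq κ]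

theorem fromBlocks_pow (A : Matrix m m F) (B : Matrix m κ F) (D : Matrix κ κ F) (i : ℕ) :
    ∃ B', (Matrix.fromBlocks A B 0 D) ^ i = Matrix.fromBlocks (A ^ i) B' 0 (D ^ i) := by
  induction i with
  | zero => exact ⟨0, by rw [pow_zero, pow_zero, pow_zero, Matrix.fromBlocks_one]⟩
  | succ i ih =>
    obtain ⟨B', hB'⟩ := ih
    refine ⟨A ^ i * B + B' * D, ?_⟩
    rw [pow_succ, hB', Matrix.fromBlocks_multiply, pow_succ, pow_succ]
    simp

theorem nilp_blocks (A : Matrix m m F) (hA : IsNilpotent A) (B : Matrix m κ F) (D : Matrix κ κ F) :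
    IsNilpotent (Matrix.fromBlocks A B 0 D) ↔ IsNilpotent D := by
  constructor
  · rintro ⟨i, hi⟩
    obtain ⟨B', hB'⟩ := fromBlocks_pow A B D i
    rw [hi] at hB'
    refine ⟨i, ?_⟩
    have := congrArg Matrix.toBlocks₂₂ hB'
    rw [Matrix.toBlocks_fromBlocks₂₂] at this
    rw [← this]
    rfl
  · rintro ⟨c, hc⟩
    obtain ⟨a, ha⟩ := hA
    obtain ⟨B', hB'⟩ := fromBlocks_pow A B D (a + c)
    refine ⟨(a + c) * 2, ?_⟩
    rw [pow_mul, hB', pow_add A, ha, zero_mul, pow_add D, hc, mul_zero, pow_two,
      Matrix.fromBlocks_multiply]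
    simp

end blocks

theorem nilp_pow_finrank {F V : Type*} [Field F] [AddCommGroup V] [Module F V] [Module.Finite F V]
    (N : End F V) (hN : IsNilpotent N) : N ^ finrank F V = 0 := by
  have h1 := (LinearMap.isNilpotent_iff_charpoly N).1 hN
  have h2 := LinearMap.aeval_self_charpoly N
  rw [h1, map_pow, Polynomial.aeval_X] at h2
  exact h2

/-- (d): a nilpotent map with a chain whose last image lies in the span kills the last vector -/
theorem last_eq_zero {F V : Type*} [Field F] [AddCommGroup V] [Module F V] [Module.Finite F V]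
    (k : ℕ) (v : Fin (k + 1) → V) (hv : LinearIndependent F v) (T : End F V) (hT : IsNilpotent T)
    (hch : ∀ j : Fin k, T (v j.castSucc) = v j.succ)
    (hw : T (v (Fin.last k)) ∈ Submodule.span F (Set.range v)) : T (v (Fin.last k)) = 0 := by
  obtain ⟨W, hW⟩ : ∃ W, W = Submodule.span F (Set.range v) := ⟨_, rfl⟩
  rw [← hW] at hw
  have hvW : ∀ j, v j ∈ W := fun j => by rw [hW]; exact Submodule.subset_span ⟨j, rfl⟩
  have hinv : ∀ x ∈ W, T x ∈ W := by
    have : W ≤ W.comap T := by
      rw [hW, Submodule.span_le, ← hW]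
      rintro _ ⟨j, rfl⟩
      show T (v j) ∈ W
      induction j using Fin.lastCases with
      | last => exact hw
      | cast j => rw [hch]; exact hvW _
    exact this
  have hfr : finrank F W = k + 1 := by
    rw [hW, finrank_span_eq_card hv, Fintype.card_fin]
  obtain ⟨a, ha⟩ := hT
  have hres : IsNilpotent (T.restrict hinv : End F W) := ⟨a, Jordan.restrict_pow_eq_zero T hinv a ha⟩
  have hpow := nilp_pow_finrank _ hres
  rw [hfr, Module.End.pow_restrict] at hpow
  have h0 : (T ^ (k + 1)) (v 0) = 0 := by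
    have := congrArg (fun f : End F W => ((f ⟨v 0, hvW 0⟩ : W) : V)) hpow
    exact this
  have hi : ∀ i (hi : i < k + 1), (T ^ i) (v 0) = v ⟨i, hi⟩ := by
    intro i
    induction i with
    | zero => intro _; rfl
    | succ i ih =>
      intro hi
      rw [pow_succ', Module.End.mul_apply, ih (by omega)]
      exact hch ⟨i, by omega⟩
  rw [pow_succ', Module.End.mul_apply, hi k (by omega)] at h0
  exact h0

theorem zero_count {F V : Type u} [Field F] [Fintype F] [AddCommGroup V] [Module F V] [Module.Finite F V]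
    (k d Z : ℕ) (hn : finrank F V = k + 1 + d) (v : Fin (k + 1) → V) (hv : LinearIndependent F v)
    (hnil : ∀ (κ : Type u) [Fintype κ] [DecidableEq κ], Fintype.card κ = d →
      Nat.card {D : Matrix κ κ F // IsNilpotent D} = Z) :
    Nat.card {T : End F V // IsNilpotent T ∧ (∀ j : Fin k, T (v j.castSucc) = v j.succ) ∧
      T (v (Fin.last k)) = 0} = (Fintype.card F) ^ ((k + 1) * d) * Z := by
  classical
  obtain ⟨κ, b, hb⟩ : ∃ (κ : Type u) (b : Basis (Fin (k + 1) ⊕ κ) F V), ∀ j, b (Sum.inl j) = v j :=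
    ⟨_, Basis.sumExtend hv, sumExtend_inl hv⟩
  have hfin : Finite (Fin (k + 1) ⊕ κ) := Module.Finite.finite_basis b
  have hfinκ : Finite κ := Finite.sum_right (Fin (k + 1))
  have := Fintype.ofFinite κ
  have hcard : Fintype.card κ = d := by
    have h1 := Module.finrank_eq_card_basis b
    rw [Fintype.card_sum, Fintype.card_fin, hn] at h1
    omega
  let J₀ : Matrix (Fin (k + 1)) (Fin (k + 1)) F := (Cfsg.Agent.S2578.jb F (k + 1)).transpose
  have hJ₀ : IsNilpotent J₀ := ⟨k + 1, by
    show (Cfsg.Agent.S2578.jb F (k + 1)).transpose ^ (k + 1) = 0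
    rw [← Matrix.transpose_pow, Cfsg.Agent.S2578.jb_pow, Matrix.transpose_zero]⟩
  let e := LinearMap.toMatrixAlgEquiv b
  let u : Fin (k + 1) → V := fun j => if h : (j : ℕ) + 1 < k + 1 then b (Sum.inl ⟨(j : ℕ) + 1, h⟩) else 0
  have hrepr1 : ∀ (j i' : Fin (k + 1)), b.repr (u j) (Sum.inl i') = J₀ i' j := by
    intro j i'
    show b.repr (u j) (Sum.inl i') = Cfsg.Agent.S2578.jb F (k + 1) j i'
    simp only [u, Cfsg.Agent.S2578.jb, Matrix.of_apply]
    split_ifs with h1 h2 h2
    · rw [Basis.repr_self, Finsupp.single_apply, if_pos]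
      exact congrArg Sum.inl (Fin.ext h2.symm)
    · rw [Basis.repr_self, Finsupp.single_apply, if_neg]
      intro h3
      apply h2
      have := Sum.inl.inj h3
      rw [← this]
    · have := i'.2
      omega
    · simp
  have hrepr2 : ∀ (j : Fin (k + 1)) (x : κ), b.repr (u j) (Sum.inr x) = 0 := by
    intro j x
    simp only [u]
    split_ifs with h1
    · rw [Basis.repr_self, Finsupp.single_apply, if_neg (by simp)]
    · simp
  have hchain : ∀ T : End F V, ((∀ j : Fin k, T (v j.castSucc) = v j.succ) ∧ T (v (Fin.last k)) = 0) ↔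
      ∀ j, T (b (Sum.inl j)) = u j := by
    intro T
    constructor
    · rintro ⟨h1, h2⟩ j
      rw [hb]
      induction j using Fin.lastCases with
      | last =>
        rw [h2]
        simp [u]
      | cast j =>
        rw [h1]
        have hj := j.2
        simp only [u]
        rw [dif_pos (by simp), hb]
        rfl
    · intro h
      constructor
      · intro j
        have h1 := h j.castSucc
        rw [hb] at h1
        rw [h1]
        simp only [u]
        rw [dif_pos (by simp), hb]
        rfl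
      · have h1 := h (Fin.last k)
        rw [hb] at h1
        rw [h1]
        simp [u]
  have key : ∀ T : End F V, (IsNilpotent T ∧ (∀ j : Fin k, T (v j.castSucc) = v j.succ) ∧
      T (v (Fin.last k)) = 0) ↔
      (IsNilpotent (e T) ∧ (e T).toBlocks₁₁ = J₀ ∧ (e T).toBlocks₂₁ = 0) := by
    intro T
    rw [IsNilpotent.map_iff e.injective, hchain]
    apply and_congr_right
    intro _
    constructor
    · intro h
      constructor
      · ext i' j
        show e T (Sum.inl i') (Sum.inl j) = _
        rw [LinearMap.toMatrixAlgEquiv_apply, h, hrepr1]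
      · ext x j
        show e T (Sum.inr x) (Sum.inl j) = _
        rw [LinearMap.toMatrixAlgEquiv_apply, h, hrepr2]
        rfl
    · rintro ⟨h1, h2⟩ j
      apply b.repr.injective
      ext i
      cases i with
      | inl i' =>
        rw [hrepr1, ← h1]
        show _ = e T (Sum.inl i') (Sum.inl j)
        rw [LinearMap.toMatrixAlgEquiv_apply]
      | inr x =>
        rw [hrepr2]
        have h3 : e T (Sum.inr x) (Sum.inl j) = 0 := congrFun (congrFun h2 x) j
        rw [LinearMap.toMatrixAlgEquiv_apply] at h3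
        exact h3
  rw [Nat.card_congr (Equiv.subtypeEquiv (q := fun M : Matrix (Fin (k + 1) ⊕ κ) (Fin (k + 1) ⊕ κ) F =>
    IsNilpotent M ∧ M.toBlocks₁₁ = J₀ ∧ M.toBlocks₂₁ = 0) e.toEquiv key)]
  let Ψ : {M : Matrix (Fin (k + 1) ⊕ κ) (Fin (k + 1) ⊕ κ) F //
      IsNilpotent M ∧ M.toBlocks₁₁ = J₀ ∧ M.toBlocks₂₁ = 0} ≃
      Matrix (Fin (k + 1)) κ F × {D : Matrix κ κ F // IsNilpotent D} :=
    { toFun := fun M => (M.1.toBlocks₁₂, ⟨M.1.toBlocks₂₂, by
        have h1 := M.2.1
        rw [← Matrix.fromBlocks_toBlocks M.1, M.2.2.1, M.2.2.2, nilp_blocks _ hJ₀] at h1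
        exact h1⟩)
      invFun := fun BD => ⟨Matrix.fromBlocks J₀ BD.1 0 BD.2.1,
        (nilp_blocks _ hJ₀ _ _).2 BD.2.2, Matrix.toBlocks_fromBlocks₁₁ _ _ _ _,
        Matrix.toBlocks_fromBlocks₂₁ _ _ _ _⟩
      left_inv := by
        rintro ⟨M, h1, h2, h3⟩
        apply Subtype.ext
        show Matrix.fromBlocks J₀ M.toBlocks₁₂ 0 M.toBlocks₂₂ = M
        rw [← h2, ← h3, Matrix.fromBlocks_toBlocks]
      right_inv := by
        rintro ⟨B, D⟩
        simp }
  rw [Nat.card_congr Ψ, Nat.card_prod, hnil κ hcard, Nat.card_eq_fintype_card]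
  congr 1
  show Fintype.card (Fin (k + 1) → κ → F) = _
  rw [Fintype.card_fun, Fintype.card_fun, Fintype.card_fin, hcard, ← pow_mul, mul_comm]

theorem snoc_chain {F V : Type*} [Field F] [AddCommGroup V] [Module F V] (k : ℕ) (T : End F V)
    (v : Fin (k + 1) → V) (w : V) :
    (∀ j : Fin (k + 1), T ((Fin.snoc v w : Fin (k + 1 + 1) → V) j.castSucc) =
      (Fin.snoc v w : Fin (k + 1 + 1) → V) j.succ) ↔
    (∀ j : Fin k, T (v j.castSucc) = v j.succ) ∧ T (v (Fin.last k)) = w := by
  constructor
  · intro h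
    constructor
    · intro j
      have h1 := h j.castSucc
      rw [Fin.snoc_castSucc, Fin.succ_castSucc, Fin.snoc_castSucc] at h1
      exact h1
    · have h1 := h (Fin.last k)
      rw [Fin.snoc_castSucc, Fin.succ_last, Fin.snoc_last] at h1
      exact h1
  · rintro ⟨h1, h2⟩ j
    induction j using Fin.lastCases with
    | last => rw [Fin.snoc_castSucc, Fin.succ_last, Fin.snoc_last]; exact h2
    | cast j => rw [Fin.snoc_castSucc, Fin.succ_castSucc, Fin.snoc_castSucc]; exact h1 j

theorem step {F V : Type u} [Field F] [Fintype F] [AddCommGroup V] [Module F V] [Module.Finite F V]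
    (k Y Z : ℕ) (v : Fin (k + 1) → V) (hv : LinearIndependent F v)
    (hY : ∀ w, w ∉ Submodule.span F (Set.range v) →
      Nat.card {T : End F V // IsNilpotent T ∧ ∀ j : Fin (k + 1),
        T ((Fin.snoc v w : Fin (k + 1 + 1) → V) j.castSucc) =
          (Fin.snoc v w : Fin (k + 1 + 1) → V) j.succ} = Y)
    (hZ : Nat.card {T : End F V // IsNilpotent T ∧ (∀ j : Fin k, T (v j.castSucc) = v j.succ) ∧
      T (v (Fin.last k)) = 0} = Z) :
    Nat.card {T : End F V // IsNilpotent T ∧ ∀ j : Fin k, T (v j.castSucc) = v j.succ} =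
      Z + ((Fintype.card F) ^ (finrank F V) - (Fintype.card F) ^ (k + 1)) * Y := by
  classical
  have hfV : Finite V := Module.finite_of_finite F
  have := Fintype.ofFinite V
  have hfE : Finite (End F V) := Module.finite_of_finite F
  obtain ⟨W, hW⟩ : ∃ W, W = Submodule.span F (Set.range v) := ⟨_, rfl⟩
  rw [← hW] at hY
  let f : {T : End F V // IsNilpotent T ∧ ∀ j : Fin k, T (v j.castSucc) = v j.succ} → V :=
    fun T => T.1 (v (Fin.last k))
  rw [← Nat.card_congr (Equiv.sigmaFiberEquiv f), Nat.card_sigma]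
  have hfib : ∀ w, Nat.card {T // f T = w} = (if w = 0 then Z else 0) + (if w ∈ W then 0 else Y) := by
    intro w
    by_cases hw : w ∈ W
    · by_cases h0 : w = 0
      · rw [if_pos h0, if_pos hw, add_zero, ← hZ, h0]
        apply Nat.card_congr
        refine (Equiv.subtypeSubtypeEquivSubtypeInter _ (fun T : End F V => T (v (Fin.last k)) = 0)).trans
          (Equiv.subtypeEquivRight (fun T => ?_))
        rw [and_assoc]
      · rw [if_neg h0, if_pos hw, add_zero]
        have : IsEmpty {T // f T = w} := ⟨by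
          rintro ⟨T, hT⟩
          apply h0
          rw [← hT]
          apply last_eq_zero k v hv T.1 T.2.1 T.2.2
          rw [← hW]
          have : T.1 (v (Fin.last k)) = w := hT
          rw [this]
          exact hw⟩
        exact Nat.card_of_isEmpty
    · have h0 : w ≠ 0 := fun h => hw (by rw [h]; exact W.zero_mem)
      rw [if_neg h0, if_neg hw, zero_add, ← hY w hw]
      apply Nat.card_congr
      refine (Equiv.subtypeSubtypeEquivSubtypeInter _ (fun T : End F V => T (v (Fin.last k)) = w)).trans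
        (Equiv.subtypeEquivRight (fun T => ?_))
      rw [snoc_chain, and_assoc]
  rw [Finset.sum_congr rfl (fun w _ => hfib w), Finset.sum_add_distrib, Finset.sum_ite_eq' Finset.univ 0,
    if_pos (Finset.mem_univ _)]
  congr 1
  rw [Finset.sum_ite, Finset.sum_const_zero, zero_add, Finset.sum_const, smul_eq_mul]
  congr 1
  have h1 : (Finset.univ.filter (fun w : V => ¬ w ∈ W)).card = Fintype.card {w : V // ¬ w ∈ W} :=
    (Fintype.card_subtype _).symm
  rw [h1, Fintype.card_subtype_compl]
  have h2 : Fintype.card V = Fintype.card F ^ finrank F V := Module.card_eq_pow_finrank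
  have h3 : Fintype.card {w : V // w ∈ W} = Fintype.card F ^ (k + 1) := by
    have h4 : Fintype.card W = Fintype.card F ^ finrank F W := Module.card_eq_pow_finrank
    rw [hW, finrank_span_eq_card hv, Fintype.card_fin, ← hW] at h4
    exact h4
  rw [h2, h3]

/-- the chain statement in dimension `n` -/
def ChainStmt (F : Type u) [Field F] [Fintype F] (n : ℕ) : Prop :=
  ∀ (V : Type u) [AddCommGroup V] [Module F V] [Module.Finite F V], finrank F V = n →
    ∀ (d k : ℕ), k + 1 + d = n → ∀ v : Fin (k + 1) → V, LinearIndependent F v →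
      Nat.card {T : End F V // IsNilpotent T ∧ ∀ j : Fin k, T (v j.castSucc) = v j.succ} =
        (Fintype.card F) ^ (n * d)

theorem nil_of_chain {F : Type u} [Field F] [Fintype F] (d : ℕ) (h : ChainStmt F d)
    (κ : Type u) [Fintype κ] [DecidableEq κ] (hκ : Fintype.card κ = d) :
    Nat.card {D : Matrix κ κ F // IsNilpotent D} = (Fintype.card F) ^ (d * (d - 1)) := by
  rcases Nat.eq_zero_or_pos d with h0 | h0
  · subst h0
    have : IsEmpty κ := Fintype.card_eq_zero_iff.1 hκ
    rw [Nat.zero_mul, pow_zero]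
    have : Unique {D : Matrix κ κ F // IsNilpotent D} :=
      { default := ⟨0, IsNilpotent.zero⟩
        uniq := fun D => Subtype.ext (Subsingleton.elim _ _) }
    exact Nat.card_unique
  · have hne : Nonempty κ := Fintype.card_pos_iff.1 (by omega)
    obtain ⟨x₀⟩ := hne
    have hsub : Subsingleton (Fin (0 + 1)) := (inferInstance : Subsingleton (Fin 1))
    have h1 := h (κ → F) (by rw [Module.finrank_fintype_fun_eq_card, hκ]) (d - 1) 0 (by omega)
      (fun _ => Pi.single x₀ (1 : F))
      (LinearIndependent.of_subsingleton 0 (by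
        intro h2
        have := congrFun h2 x₀
        simp at this))
    rw [← h1]
    apply Nat.card_congr
    refine Equiv.subtypeEquiv (Matrix.toLinAlgEquiv' : Matrix κ κ F ≃ₐ[F] _).toEquiv (fun D => ?_)
    constructor
    · intro hD
      exact ⟨hD.map (Matrix.toLinAlgEquiv' : Matrix κ κ F ≃ₐ[F] _), fun j => j.elim0⟩
    · rintro ⟨hD, -⟩
      exact (IsNilpotent.map_iff (Matrix.toLinAlgEquiv' : Matrix κ κ F ≃ₐ[F] _).injective).1 hD

theorem chain_count (F : Type u) [Field F] [Fintype F] (n : ℕ) : ChainStmt F n := by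
  induction n using Nat.strong_induction_on with
  | _ n IH =>
    intro V _ _ _ hV d
    obtain ⟨q, hq⟩ : ∃ q, q = Fintype.card F := ⟨_, rfl⟩
    have hq1 : 1 ≤ q := by rw [hq]; exact Fintype.card_pos
    induction d with
    | zero =>
      intro k hk v hv
      have hZ := zero_count k 0 1 (by rw [hV]; omega) v hv (fun κ _ _ hκ => by
        have h1 := nil_of_chain 0 (IH 0 (by omega)) κ hκ
        rw [h1]
        simp)
      have htop : Submodule.span F (Set.range v) = ⊤ := by
        apply Submodule.eq_top_of_finrank_eq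
        rw [finrank_span_eq_card hv, Fintype.card_fin, hV]
        omega
      rw [step k 0 _ v hv (fun w hw => absurd (by rw [htop]; exact Submodule.mem_top) hw) hZ]
      simp
    | succ d ihd =>
      intro k hk v hv
      have hZ := zero_count k (d + 1) _ (by rw [hV]; omega) v hv (fun κ _ _ hκ =>
        nil_of_chain (d + 1) (IH (d + 1) (by omega)) κ hκ)
      rw [step k (Fintype.card F ^ (n * d)) _ v hv (fun w hw =>
        ihd (k + 1) (by omega) _ (linearIndependent_finSnoc.2 ⟨hv, hw⟩)) hZ, hV, ← hq]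
      have hn : n = k + 1 + (d + 1) := hk.symm
      have e1 : q ^ ((k + 1) * (d + 1)) * q ^ ((d + 1) * (d + 1 - 1)) = q ^ (k + 1) * q ^ (n * d) := by
        rw [← pow_add, ← pow_add]
        congr 1
        rw [hn, Nat.add_sub_cancel]
        ring
      have e2 : q ^ (n * (d + 1)) = q ^ n * q ^ (n * d) := by
        rw [← pow_add]
        congr 1
        ring
      have e3 : q ^ (k + 1) ≤ q ^ n := Nat.pow_le_pow_right hq1 (by omega)
      rw [e1, e2, Nat.sub_mul]
      have e4 : q ^ (k + 1) * q ^ (n * d) ≤ q ^ n * q ^ (n * d) := Nat.mul_le_mul_right _ e3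
      omega

theorem nil_fin (F : Type u) [Field F] [Fintype F] (n : ℕ) :
    Nat.card {D : Matrix (Fin n) (Fin n) F // IsNilpotent D} = (Fintype.card F) ^ (n * (n - 1)) := by
  rw [← nil_of_chain n (chain_count F n) (ULift.{u} (Fin n)) (by simp)]
  apply Nat.card_congr
  exact Equiv.subtypeEquiv (Matrix.reindexAlgEquiv F F Equiv.ulift.symm).toEquiv
    (fun D => (IsNilpotent.map_iff (AlgEquiv.injective _)).symm)

theorem unip_card (F : Type u) [Field F] [Fintype F] (p : ℕ) [Fact p.Prime] [CharP F p] (n : ℕ) :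
    Nat.card {g : Matrix.GeneralLinearGroup (Fin n) F // ∃ k : ℕ, orderOf g = p ^ k} =
      Nat.card {D : Matrix (Fin n) (Fin n) F // IsNilpotent D} := by
  have hp : p.Prime := Fact.out
  apply Nat.card_eq_of_bijective
    (fun g : {g : Matrix.GeneralLinearGroup (Fin n) F // ∃ k : ℕ, orderOf g = p ^ k} =>
      (⟨(g.1 : Matrix (Fin n) (Fin n) F) - 1, by
        obtain ⟨k, hk⟩ := g.2
        refine ⟨p ^ k, ?_⟩
        rw [← Jordan.gl_pow_char_iff, ← hk, pow_orderOf_eq_one]⟩ :
        {D : Matrix (Fin n) (Fin n) F // IsNilpotent D}))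
  constructor
  · intro g h hgh
    have h1 : (g.1 : Matrix (Fin n) (Fin n) F) - 1 = (h.1 : Matrix (Fin n) (Fin n) F) - 1 :=
      congrArg Subtype.val hgh
    apply Subtype.ext
    apply Units.ext
    exact sub_left_injective h1
  · rintro ⟨D, hD⟩
    have hu := IsNilpotent.isUnit_one_add hD
    obtain ⟨m, hm⟩ := hD
    have hval : (hu.unit : Matrix (Fin n) (Fin n) F) = 1 + D := hu.unit_spec
    have h1 : hu.unit ^ p ^ m = 1 := by
      rw [Jordan.gl_pow_char_iff, hval, add_sub_cancel_left]
      exact pow_eq_zero_of_le (Nat.lt_pow_self hp.one_lt).le hm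
    obtain ⟨k, -, hk⟩ := (Nat.dvd_prime_pow hp).1 (orderOf_dvd_of_pow_eq_one h1)
    refine ⟨⟨hu.unit, k, hk⟩, ?_⟩
    apply Subtype.ext
    show (hu.unit : Matrix (Fin n) (Fin n) F) - 1 = D
    rw [hval, add_sub_cancel_left]


end aux

/-- Steinberg's count of unipotent elements for the general linear group: over a finite field with q elements of characteristic p, the number of elements of GL_n of p-power order (the unipotent matrices) is q^(n(n−1)). -/
theorem result {F : Type*} [Field F] [Fintype F] (p : ℕ) [Fact p.Prime] [CharP F p] (n : ℕ) :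
    Nat.card {g : Matrix.GeneralLinearGroup (Fin n) F // ∃ k : ℕ, orderOf g = p ^ k} = Fintype.card F ^ (n * (n - 1)) := by
  rw [unip_card F p n, nil_fin F n]

end Cfsg.Agent.S2315
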