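import Mathlib
import Cfsg.Statements.S2317
import Cfsg.Agent.Lib.Helper19.Jordan
-- import your own Cfsg.Agent.* helpers here

set_option autoImplicit false
open Cfsg

namespace Cfsg.Agent.S2317

/-- Over a finite field of characteristic p, the conjugacy classes of GL_n consisting of elements of p-power order (the unipotent classes) are as many as the partitions of n. -/
theorem result {F : Type*} [Field F] [Fintype F] (p : ℕ) [Fact p.Prime] [CharP F p] (n : ℕ) :
    Nat.card {C : ConjClasses (Matrix.GeneralLinearGroup (Fin n) F) //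
      ∃ g : Matrix.GeneralLinearGroup (Fin n) F, (∃ k : ℕ, orderOf g = p ^ k) ∧ ConjClasses.mk g = C} =
      Fintype.card (Nat.Partition n) := by
  classical
  have hp : p.Prime := Fact.out
  rw [Cfsg.Agent.Lib.Helper19.Jordan.count (fun g => ∃ k : ℕ, orderOf g = p ^ k) (fun _ => True)]
  · rw [Nat.card_eq_fintype_card]
    exact Fintype.card_congr (Equiv.subtypeUnivEquiv (fun _ => trivial))
  · rintro g ⟨k, hk⟩
    refine ⟨p ^ k, ?_⟩
    rw [← Cfsg.Agent.Lib.Helper19.Jordan.gl_pow_char_iff, ← hk]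
    exact pow_orderOf_eq_one g
  · rintro g μ ⟨m, hm⟩ -
    refine ⟨fun _ => trivial, fun _ => ?_⟩
    have h1 : ((g : Matrix (Fin n) (Fin n) F) - 1) ^ p ^ m = 0 :=
      pow_eq_zero_of_le (Nat.lt_pow_self hp.one_lt).le hm
    rw [← Cfsg.Agent.Lib.Helper19.Jordan.gl_pow_char_iff] at h1
    obtain ⟨k, -, hk⟩ := (Nat.dvd_prime_pow hp).1 (orderOf_dvd_of_pow_eq_one h1)
    exact ⟨k, hk⟩

end Cfsg.Agent.S2317
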