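import Mathlib
import Cfsg.Statements.S2320
import Cfsg.Agent.H14.GL2Val

set_option autoImplicit false

namespace Cfsg.Agent.S2320

open Cfsg.Agent.H14 Cfsg.Agent.CharLib Cfsg.Agent.CharLib.H2

theorem result {F : Type*} [Field F] [Fintype F] (χ : Matrix.GeneralLinearGroup (Fin 2) F → ℂ) (hχ : Cfsg.IsIrrCharacter (Matrix.GeneralLinearGroup (Fin 2) F) χ) (hdeg : χ 1 = (Fintype.card F : ℂ)) (g : Matrix.GeneralLinearGroup (Fin 2) F) :
    ((g : Matrix (Fin 2) (Fin 2) F) 0 1 = 0 → (g : Matrix (Fin 2) (Fin 2) F) 1 0 = 0 → (g : Matrix (Fin 2) (Fin 2) F) 0 0 ≠ (g : Matrix (Fin 2) (Fin 2) F) 1 1 → ‖χ g‖ = 1) ∧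
    ((∀ (c : F) (v : Fin 2 → F), v ≠ 0 → (g : Matrix (Fin 2) (Fin 2) F).mulVec v ≠ c • v) → ‖χ g‖ = 1) := by
  classical
  obtain ⟨α, rfl⟩ := eq_GSt_of_degree hχ hdeg
  have hdet : (g : Matrix (Fin 2) (Fin 2) F).det ≠ 0 := (Matrix.isUnits_det_units g).ne_zero
  constructor
  · intro h01 h10 hne
    rw [GSt_diag α h10 h01 hne]
    exact norm_mulChar α hdet
  · intro hne
    rw [GSt_noEig α hne, norm_neg]
    exact norm_mulChar α hdet

end Cfsg.Agent.S2320
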