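import Mathlib
import Cfsg.Statements.S2321
import Cfsg.Agent.H14.SL2Deg

namespace Cfsg.Agent.S2321

open Cfsg Cfsg.Agent.H14

theorem result {F : Type*} [Field F] [Fintype F] (χ : Matrix.SpecialLinearGroup (Fin 2) F → ℂ) (hχ : Cfsg.IsIrrCharacter (Matrix.SpecialLinearGroup (Fin 2) F) χ) (hdeg : χ 1 = (Fintype.card F : ℂ)) (g : Matrix.SpecialLinearGroup (Fin 2) F) :
    ((g : Matrix (Fin 2) (Fin 2) F) 0 1 = 0 → (g : Matrix (Fin 2) (Fin 2) F) 1 0 = 0 → (g : Matrix (Fin 2) (Fin 2) F) 0 0 ^ 2 ≠ 1 → χ g = 1) ∧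
    ((∀ (c : F) (v : Fin 2 → F), v ≠ 0 → (g : Matrix (Fin 2) (Fin 2) F).mulVec v ≠ c • v) → χ g = -1) ∧
    ((g : Matrix (Fin 2) (Fin 2) F) 1 0 = 0 → (g : Matrix (Fin 2) (Fin 2) F) 0 0 = (g : Matrix (Fin 2) (Fin 2) F) 1 1 → (g : Matrix (Fin 2) (Fin 2) F) 0 1 ≠ 0 → χ g = 0) := by
  classical
  have hq : 1 < Fintype.card F := Fintype.one_lt_card
  obtain ⟨C, hC⟩ := exists_NST (F := F)
  have hSt : χ = Stc := by
    rcases classification_deg hC hχ with ⟨_, h2⟩ | ⟨h1, _⟩ | ⟨_, h2⟩ | ⟨_, h2⟩ | ⟨_, h2⟩ | ⟨_, h2⟩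
    · exfalso
      rw [hdeg] at h2
      have : 2 * Fintype.card F = 2 := by exact_mod_cast h2
      omega
    · exact h1
    · exfalso
      rw [hdeg] at h2
      have : 2 * Fintype.card F = 2 * Fintype.card F + 2 := by exact_mod_cast h2
      omega
    · exfalso
      rw [hdeg] at h2
      have : 2 * Fintype.card F = Fintype.card F + 1 := by exact_mod_cast h2
      omega
    · exfalso
      rw [hdeg] at h2
      have : 2 * Fintype.card F = 2 * Fintype.card F - 2 := by exact_mod_cast h2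
      omega
    · exfalso
      rw [hdeg] at h2
      have : 2 * Fintype.card F = Fintype.card F - 1 := by exact_mod_cast h2
      omega
  subst hSt
  refine ⟨fun h01 h10 hne => ?_, fun h => ?_, fun h10 heq h01 => ?_⟩
  · have hd := borel_diag g h10
    have hne' : g.1 0 0 ≠ g.1 1 1 := by
      intro h
      apply hne
      rw [sq]
      nth_rewrite 2 [h]
      exact hd
    have u0 : IsUnit (g.1 0 0) := IsUnit.of_mul_eq_one _ hd
    have u1 : IsUnit (g.1 1 1) := IsUnit.of_mul_eq_one _ (by rw [mul_comm]; exact hd)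
    rw [Stc, Rch_diag 1 h10 h01 hne', MulChar.one_apply u0, MulChar.one_apply u1]
    norm_num
  · rw [Stc, Rch_noEig 1 ((noEig_iff_mulVec g).mpr h)]
    norm_num
  · have hd := borel_diag g h10
    have u0 : IsUnit (g.1 0 0) := IsUnit.of_mul_eq_one _ hd
    rw [Stc, Rch_unip 1 h10 heq h01, MulChar.one_apply u0]
    norm_num

end Cfsg.Agent.S2321
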