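import Mathlib
import Cfsg.Statements.S2322
import Cfsg.Agent.H14.SL2Extra

namespace Cfsg.Agent.S2322

open Cfsg Cfsg.Agent.H14 Cfsg.Agent.CharLib

theorem result {F : Type*} [Field F] [Fintype F] (hodd : Odd (Fintype.card F)) (χ : Matrix.SpecialLinearGroup (Fin 2) F → ℂ) (hχ : Cfsg.IsIrrCharacter (Matrix.SpecialLinearGroup (Fin 2) F) χ) (g : Matrix.SpecialLinearGroup (Fin 2) F) :
    ((χ 1 = (Fintype.card F : ℂ) - 1 ∨ χ 1 = (((Fintype.card F - 1) / 2 : ℕ) : ℂ)) →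
      (g : Matrix (Fin 2) (Fin 2) F) 0 1 = 0 → (g : Matrix (Fin 2) (Fin 2) F) 1 0 = 0 → (g : Matrix (Fin 2) (Fin 2) F) 0 0 ^ 2 ≠ 1 → χ g = 0) ∧
    ((χ 1 = (Fintype.card F : ℂ) + 1 ∨ χ 1 = (((Fintype.card F + 1) / 2 : ℕ) : ℂ)) →
      (∀ (c : F) (v : Fin 2 → F), v ≠ 0 → (g : Matrix (Fin 2) (Fin 2) F).mulVec v ≠ c • v) → χ g = 0) := by
  classical
  obtain ⟨C, hC⟩ := exists_NST (F := F)
  obtain ⟨k, hk⟩ := hodd
  have hq : 1 < Fintype.card F := Fintype.one_lt_card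
  constructor
  · intro hdeg h01 h10 hne
    have hq3 : Fintype.card F ≠ 3 := by
      intro h3
      apply hne
      have h0 : g.1 0 0 ≠ 0 := by
        intro h0
        have := borel_diag g h10
        rw [h0] at this
        simp at this
      have := FiniteField.pow_card_sub_one_eq_one (g.1 0 0) h0
      rwa [h3] at this
    have hg := eq_dg_of_diag g h01 h10
    have ha := diagUnit_sq_ne g h10 hne
    rw [hg]
    rcases hdeg with hdeg | hdeg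
    · have e : 2 * χ 1 = ((2 * Fintype.card F - 2 : ℕ) : ℂ) := by
        rw [hdeg, Nat.cast_sub (by omega)]; push_cast; ring
      rcases classification_nat hC hχ _ e with ⟨h1, h2⟩ | ⟨h1, h2⟩ | ⟨h1, h2⟩ | ⟨h1, h2⟩ | ⟨h1, h2⟩ | ⟨h1, h2⟩ <;>
        try (exfalso; omega)
      obtain ⟨θ, α, hc, _, rfl⟩ := h1
      exact Pch_dg_reg hC θ α _ ha
    · have e : 2 * χ 1 = ((2 * ((Fintype.card F - 1) / 2) : ℕ) : ℂ) := by rw [hdeg]; push_cast; ring
      rcases classification_nat hC hχ _ e with ⟨h1, h2⟩ | ⟨h1, h2⟩ | ⟨h1, h2⟩ | ⟨h1, h2⟩ | ⟨h1, h2⟩ | ⟨h1, h2⟩ <;>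
        try (exfalso; omega)
      obtain ⟨θ, α, hc, _, _, hh⟩ := h1
      rw [hh.2.2.1]
      simp [Pch_dg_reg hC θ α _ ha]
  · intro hdeg hg
    have hg' : NoEig g := (noEig_iff_mulVec g).mpr hg
    obtain ⟨x, hx, hconj, hxn⟩ := hC.exists_conj' hg'
    rw [isClassFunction_apply_of_isConj (isClassFunction_of_irr hχ) hconj]
    rcases hdeg with hdeg | hdeg
    · have e : 2 * χ 1 = ((2 * Fintype.card F + 2 : ℕ) : ℂ) := by rw [hdeg]; push_cast; ring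
      rcases classification_nat hC hχ _ e with ⟨h1, h2⟩ | ⟨h1, h2⟩ | ⟨h1, h2⟩ | ⟨h1, h2⟩ | ⟨h1, h2⟩ | ⟨h1, h2⟩ <;>
        try (exfalso; omega)
      obtain ⟨α, _, rfl⟩ := h1
      exact Rch_noEig α hxn
    · have e : 2 * χ 1 = ((2 * ((Fintype.card F + 1) / 2) : ℕ) : ℂ) := by rw [hdeg]; push_cast; ring
      rcases classification_nat hC hχ _ e with ⟨h1, h2⟩ | ⟨h1, h2⟩ | ⟨h1, h2⟩ | ⟨h1, h2⟩ | ⟨h1, h2⟩ | ⟨h1, h2⟩
      · exfalso; omega
      · exfalso; omega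
      · exfalso; omega
      · obtain ⟨α, _, _, hh⟩ := h1
        rw [hh.2.2.2 x hx]
        simp [Rch_noEig α hxn]
      · obtain ⟨θ, α, hc, hθ, rfl⟩ := h1
        have h3 : Fintype.card F = 3 := by omega
        rw [Pch_mem hC θ α hx hxn.not_isScal, q3_sum_eq_zero hC h3 hθ hx hxn.not_isScal, neg_zero]
      · exfalso; omega

end Cfsg.Agent.S2322
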