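import Mathlib
import Cfsg.Statements.S2323
import Cfsg.Agent.H14.SL2Deg

namespace Cfsg.Agent.S2323

open Cfsg Cfsg.Agent.H14

theorem result {F : Type*} [Field F] [Fintype F] (hq : 4 ≤ Fintype.card F) (χ : Matrix.SpecialLinearGroup (Fin 2) F → ℂ) (hχ : Cfsg.IsIrrCharacter (Matrix.SpecialLinearGroup (Fin 2) F) χ)
    (u : Matrix.SpecialLinearGroup (Fin 2) F) (hu : (u : Matrix (Fin 2) (Fin 2) F) = !![1, 1; 0, 1]) :
    (χ 1 = (Fintype.card F : ℂ) + 1 → χ u = 1) ∧ (χ 1 = (Fintype.card F : ℂ) - 1 → χ u = -1) := by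
  classical
  obtain ⟨C, hC⟩ := exists_NST (F := F)
  have hu' : u = bm 1 1 := by
    apply Subtype.ext
    rw [hu]; simp
  subst hu'
  constructor
  · intro hdeg
    have e : 2 * χ 1 = ((2 * Fintype.card F + 2 : ℕ) : ℂ) := by rw [hdeg]; push_cast; ring
    rcases classification_deg hC hχ with ⟨_, h2⟩ | ⟨_, h2⟩ | ⟨h1, _⟩ | ⟨_, h2⟩ | ⟨_, h2⟩ | ⟨_, h2⟩
    · exfalso
      rw [e] at h2
      have : 2 * Fintype.card F + 2 = 2 := by exact_mod_cast h2
      omega
    · exfalso
      rw [e] at h2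
      have : 2 * Fintype.card F + 2 = 2 * Fintype.card F := by exact_mod_cast h2
      omega
    · obtain ⟨α, _, rfl⟩ := h1
      rw [Rch_bm_unip α 1 (one_pow 2) one_ne_zero]; simp
    · exfalso
      rw [e] at h2
      have : 2 * Fintype.card F + 2 = Fintype.card F + 1 := by exact_mod_cast h2
      omega
    · exfalso
      rw [e] at h2
      have : 2 * Fintype.card F + 2 = 2 * Fintype.card F - 2 := by exact_mod_cast h2
      omega
    · exfalso
      rw [e] at h2
      have : 2 * Fintype.card F + 2 = Fintype.card F - 1 := by exact_mod_cast h2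
      omega
  · intro hdeg
    have e : 2 * χ 1 = ((2 * Fintype.card F - 2 : ℕ) : ℂ) := by
      rw [hdeg, Nat.cast_sub (by omega)]; push_cast; ring
    rcases classification_deg hC hχ with ⟨_, h2⟩ | ⟨_, h2⟩ | ⟨_, h2⟩ | ⟨_, h2⟩ | ⟨h1, _⟩ | ⟨_, h2⟩
    · exfalso
      rw [e] at h2
      have : 2 * Fintype.card F - 2 = 2 := by exact_mod_cast h2
      omega
    · exfalso
      rw [e] at h2
      have : 2 * Fintype.card F - 2 = 2 * Fintype.card F := by exact_mod_cast h2
      omega
    · exfalso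
      rw [e] at h2
      have : 2 * Fintype.card F - 2 = 2 * Fintype.card F + 2 := by exact_mod_cast h2
      omega
    · exfalso
      rw [e] at h2
      have : 2 * Fintype.card F - 2 = Fintype.card F + 1 := by exact_mod_cast h2
      omega
    · obtain ⟨θ, α, hc, _, rfl⟩ := h1
      rw [Pch_bm_unip hC θ α 1 (one_pow 2) one_ne_zero]; simp
    · exfalso
      rw [e] at h2
      have : 2 * Fintype.card F - 2 = Fintype.card F - 1 := by exact_mod_cast h2
      omega

end Cfsg.Agent.S2323
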