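import Mathlib
import Cfsg.Statements.S2324
import Cfsg.Agent.H14.SL2Half

namespace Cfsg.Agent.S2324

open Cfsg Cfsg.Agent.H14 Cfsg.Agent.CharLib
open scoped ComplexConjugate

theorem result {F : Type*} [Field F] [Fintype F] (hodd : Odd (Fintype.card F)) (hq : 5 ≤ Fintype.card F)
    (u : Matrix.SpecialLinearGroup (Fin 2) F) (hu : (u : Matrix (Fin 2) (Fin 2) F) = !![1, 1; 0, 1]) :
    (∀ χ : Matrix.SpecialLinearGroup (Fin 2) F → ℂ, Cfsg.IsIrrCharacter (Matrix.SpecialLinearGroup (Fin 2) F) χ → χ 1 = (((Fintype.card F + 1) / 2 : ℕ) : ℂ) → (2 * χ u - 1) ^ 2 = (-1 : ℂ) ^ ((Fintype.card F - 1) / 2) * (Fintype.card F : ℂ)) ∧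
    (∀ χ : Matrix.SpecialLinearGroup (Fin 2) F → ℂ, Cfsg.IsIrrCharacter (Matrix.SpecialLinearGroup (Fin 2) F) χ → χ 1 = (((Fintype.card F - 1) / 2 : ℕ) : ℂ) → (2 * χ u + 1) ^ 2 = (-1 : ℂ) ^ ((Fintype.card F - 1) / 2) * (Fintype.card F : ℂ)) ∧
    (∀ χ₁ χ₂ : Matrix.SpecialLinearGroup (Fin 2) F → ℂ, Cfsg.IsIrrCharacter (Matrix.SpecialLinearGroup (Fin 2) F) χ₁ → Cfsg.IsIrrCharacter (Matrix.SpecialLinearGroup (Fin 2) F) χ₂ → χ₁ ≠ χ₂ →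
      χ₁ 1 = (((Fintype.card F + 1) / 2 : ℕ) : ℂ) → χ₂ 1 = (((Fintype.card F + 1) / 2 : ℕ) : ℂ) → χ₁ u + χ₂ u = 1) ∧
    (∀ χ₁ χ₂ : Matrix.SpecialLinearGroup (Fin 2) F → ℂ, Cfsg.IsIrrCharacter (Matrix.SpecialLinearGroup (Fin 2) F) χ₁ → Cfsg.IsIrrCharacter (Matrix.SpecialLinearGroup (Fin 2) F) χ₂ → χ₁ ≠ χ₂ →
      χ₁ 1 = (((Fintype.card F - 1) / 2 : ℕ) : ℂ) → χ₂ 1 = (((Fintype.card F - 1) / 2 : ℕ) : ℂ) → χ₁ u + χ₂ u = -1) := by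
  classical
  obtain ⟨C, hC⟩ := exists_NST (F := F)
  have hodd' := hodd
  obtain ⟨k, hk⟩ := hodd
  have hu' : u = bm 1 1 := by
    apply Subtype.ext
    rw [hu]; simp
  have hm1 : (-1 : Fˣ) ^ 2 = 1 := by simp
  have hω : ∀ α : MulChar F ℂ, conj (α ((-1 : Fˣ) : F)) * α ((-1 : Fˣ) : F) = 1 := by
    intro α
    rw [conj_mulChar, ← MulChar.mul_apply, inv_mul_cancel, MulChar.one_apply_coe]
  have A : ∀ χ : Matrix.SpecialLinearGroup (Fin 2) F → ℂ, Cfsg.IsIrrCharacter (Matrix.SpecialLinearGroup (Fin 2) F) χ →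
      χ 1 = (((Fintype.card F + 1) / 2 : ℕ) : ℂ) →
      ∃ α : MulChar F ℂ, α = α⁻¹ ∧ α ≠ 1 ∧ HalfOf C χ (Rch α) := by
    intro χ hχ hdeg
    have e : 2 * χ 1 = ((2 * ((Fintype.card F + 1) / 2) : ℕ) : ℂ) := by rw [hdeg]; push_cast; ring
    rcases classification_nat hC hχ _ e with ⟨h1, h2⟩ | ⟨h1, h2⟩ | ⟨h1, h2⟩ | ⟨h1, h2⟩ | ⟨h1, h2⟩ | ⟨h1, h2⟩ <;>
      try (exfalso; omega)
    exact h1
  have B : ∀ χ : Matrix.SpecialLinearGroup (Fin 2) F → ℂ, Cfsg.IsIrrCharacter (Matrix.SpecialLinearGroup (Fin 2) F) χ →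
      χ 1 = (((Fintype.card F - 1) / 2 : ℕ) : ℂ) →
      ∃ (θ : C →* ℂˣ) (α : MulChar F ℂ), Compat C θ α ∧ θ = θ⁻¹ ∧ θ ≠ 1 ∧ HalfOf C χ (Pch C θ α) := by
    intro χ hχ hdeg
    have e : 2 * χ 1 = ((2 * ((Fintype.card F - 1) / 2) : ℕ) : ℂ) := by rw [hdeg]; push_cast; ring
    rcases classification_nat hC hχ _ e with ⟨h1, h2⟩ | ⟨h1, h2⟩ | ⟨h1, h2⟩ | ⟨h1, h2⟩ | ⟨h1, h2⟩ | ⟨h1, h2⟩ <;>
      try (exfalso; omega)
    exact h1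
  have hzc : dg (-1 : Fˣ) ∈ Subgroup.center (Matrix.SpecialLinearGroup (Fin 2) F) :=
    (mem_center_iff_isScal _).mpr ((isScal_dg_iff _).mpr (by simp))
  have hzC : dg (-1 : Fˣ) ∈ C := hC.mem_of_isScal ((isScal_dg_iff _).mpr (by simp))
  refine ⟨?_, ?_, ?_, ?_⟩
  · intro χ hχ hdeg
    obtain ⟨α, hα, hα', hh⟩ := A χ hχ hdeg
    have := hh.unip_sq hC hodd' hχ (α ((-1 : Fˣ) : F)) (hω α) (fun g => Rch_central_mul α (-1) hm1 g)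
    rw [Rch_bm_unip α 1 (one_pow 2) one_ne_zero] at this
    rw [hu', ← this]; simp
  · intro χ hχ hdeg
    obtain ⟨θ, α, hc, hθ, hθ', hh⟩ := B χ hχ hdeg
    have := hh.unip_sq hC hodd' hχ (α ((-1 : Fˣ) : F)) (hω α) (fun g => by
      rw [Pch_central_mul hc hzc hzC g, hc (-1) hzC hm1])
    rw [Pch_bm_unip hC θ α 1 (one_pow 2) one_ne_zero] at this
    rw [hu', ← this]; simp
  · intro χ₁ χ₂ h1 h2 hne d1 d2
    obtain ⟨α, hα, hα', hh⟩ := A χ₁ h1 d1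
    obtain ⟨β, hβ, hβ', hh'⟩ := A χ₂ h2 d2
    obtain rfl := quad_mulChar_unique hα hα' hβ hβ'
    have := HalfOf.add_eq h1 h2 hne hh hh' (norm_Rch_quad hα)
    have e := congrFun this (bm 1 1)
    rw [Rch_bm_unip α 1 (one_pow 2) one_ne_zero] at e
    rw [hu']
    simpa using e.symm
  · intro χ₁ χ₂ h1 h2 hne d1 d2
    obtain ⟨θ, α, hc, hθ, hθ', hh⟩ := B χ₁ h1 d1
    obtain ⟨θ', β, hc', hη, hη', hh'⟩ := B χ₂ h2 d2
    obtain rfl := quad_hom_unique hC hodd' hθ hθ' hη hη'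
    have := HalfOf.add_eq h1 h2 hne hh hh' (by
      rw [inner_Pch_Pch hC hc hc', if_pos rfl, if_pos hθ]; norm_num)
    have e := congrFun this (bm 1 1)
    rw [Pch_bm_unip hC θ α 1 (one_pow 2) one_ne_zero] at e
    rw [hu']
    simpa using e.symm

end Cfsg.Agent.S2324
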