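import Mathlib
import Cfsg.Statements.S2325
import Cfsg.Agent.H14.SL2

set_option autoImplicit false
open Cfsg

namespace Cfsg.Agent.S2325

open Cfsg.Agent.H14 Matrix

variable {F : Type*} [Field F]

/-- `±2` -/
def sg (e : Bool) : F := if e then 2 else -2

/-- representatives -/
def rep (ν : Fˣ) : Bool ⊕ {t : F // t ^ 2 ≠ 4} ⊕ (Bool × Bool) → Matrix.SpecialLinearGroup (Fin 2) F
  | Sum.inl b => if b then 1 else -1
  | Sum.inr (Sum.inl t) => slC t.1 1
  | Sum.inr (Sum.inr (e, s)) => slC (sg e) (if s then 1 else ν)

theorem isScal_pm (b : Bool) : IsScal ((if b then 1 else -1 : Matrix.SpecialLinearGroup (Fin 2) F) : Matrix (Fin 2) (Fin 2) F) := by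
  cases b <;> simp [IsScal]

theorem sg_sq (e : Bool) : (sg e : F) ^ 2 = 4 := by
  cases e <;> simp [sg] <;> norm_num

theorem two_ne_zero_of_odd [Fintype F] (hodd : Fintype.card F % 2 = 1) : (2 : F) ≠ 0 := by
  intro h
  have hch : ringChar F = 2 := by
    have : ringChar F ∣ 2 := (ringChar.spec F 2).mp (by exact_mod_cast h)
    rcases (Nat.dvd_prime Nat.prime_two).mp this with h1 | h1
    · exact absurd h1 (CharP.ringChar_ne_one)
    · exact h1
  have := FiniteField.even_card_of_char_two hch
  omega

theorem no_rep (ν : Fˣ) (hν : ¬ IsSquare (ν : F)) (e : Bool) (x y : F) :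
    qf (slC (sg e) ν).1 x y ≠ 1 := by
  intro h
  rw [qf_slC] at h
  apply hν
  have hinv : (ν : F) * ((ν⁻¹ : Fˣ) : F) = 1 := by simp
  cases e
  · refine ⟨ν * x - y, ?_⟩
    simp only [sg, Bool.false_eq_true, if_false] at h
    linear_combination (-(ν : F)) * h + y ^ 2 * hinv
  · refine ⟨ν * x + y, ?_⟩
    simp only [sg, if_true] at h
    linear_combination (-(ν : F)) * h + y ^ 2 * hinv

theorem rep_bij [Fintype F] (hodd : Fintype.card F % 2 = 1) (ν : Fˣ) (hν : ¬ IsSquare (ν : F)) :
    Function.Bijective (fun x => ConjClasses.mk (rep ν x)) := by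
  classical
  have h2 : (2 : F) ≠ 0 := two_ne_zero_of_odd hodd
  constructor
  · intro x y hxy
    have hc : IsConj (rep ν x) (rep ν y) := ConjClasses.mk_eq_mk_iff_isConj.mp hxy
    rcases x with b | t | ⟨e, s⟩ <;> rcases y with b' | t' | ⟨e', s'⟩
    · have h : (if b' then 1 else -1 : Matrix.SpecialLinearGroup (Fin 2) F) = if b then 1 else -1 :=
        sl2_eq_of_isConj_of_isScal hc (isScal_pm b)
      have h3 := congrArg (fun g : Matrix.SpecialLinearGroup (Fin 2) F => (g : Matrix (Fin 2) (Fin 2) F) 0 0) h
      cases b <;> cases b' <;> simp at h3 ⊢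
      · apply h2; linear_combination h3
      · apply h2; linear_combination -h3
    · have h : slC t'.1 1 = (if b then 1 else -1) := sl2_eq_of_isConj_of_isScal hc (isScal_pm b)
      exact absurd (h ▸ isScal_pm b) (not_isScal_slC _ _)
    · have h : slC _ _ = (if b then 1 else -1) := sl2_eq_of_isConj_of_isScal hc (isScal_pm b)
      exact absurd (h ▸ isScal_pm b) (not_isScal_slC _ _)
    · have h : slC _ _ = (if b' then 1 else -1) := sl2_eq_of_isConj_of_isScal hc.symm (isScal_pm b')
      exact absurd (h ▸ isScal_pm b') (not_isScal_slC _ _)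
    · have h1 := sl2_trace_eq_of_isConj hc
      simp only [rep, trace_slC] at h1
      rw [Subtype.ext h1]
    · have h1 := sl2_trace_eq_of_isConj hc
      simp only [rep, trace_slC] at h1
      exact absurd (h1 ▸ sg_sq e') t.2
    · have h : slC _ _ = (if b' then 1 else -1) := sl2_eq_of_isConj_of_isScal hc.symm (isScal_pm b')
      exact absurd (h ▸ isScal_pm b') (not_isScal_slC _ _)
    · have h1 := sl2_trace_eq_of_isConj hc
      simp only [rep, trace_slC] at h1
      exact absurd (h1 ▸ sg_sq e) t'.2
    · have h1 := sl2_trace_eq_of_isConj hc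
      simp only [rep, trace_slC] at h1
      have he : e = e' := by
        cases e <;> cases e' <;> simp [sg] at h1 ⊢
        · have : (2 : F) * 2 = 0 := by linear_combination -h1
          exact h2 (mul_self_eq_zero.mp this)
        · have : (2 : F) * 2 = 0 := by linear_combination h1
          exact h2 (mul_self_eq_zero.mp this)
      subst he
      have hs : s = s' := by
        cases s <;> cases s'
        · rfl
        · exfalso
          have := rep_of_isConj hc.symm 1 ⟨1, 0, by simp [rep, qf]⟩
          obtain ⟨x, y, hxy⟩ := this
          exact no_rep ν hν e x y (by simpa [rep] using hxy)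
        · exfalso
          have := rep_of_isConj hc 1 ⟨1, 0, by simp [rep, qf]⟩
          obtain ⟨x, y, hxy⟩ := this
          exact no_rep ν hν e x y (by simpa [rep] using hxy)
        · rfl
      rw [hs]
  · intro c
    obtain ⟨g, rfl⟩ := ConjClasses.mk_surjective c
    by_cases hs : IsScal g.1
    · have hdet := sl2_det g
      obtain ⟨s1, s2, s3⟩ := hs
      rw [s1, ← s3] at hdet
      have ha : (g.1 0 0 - 1) * (g.1 0 0 + 1) = 0 := by linear_combination hdet
      rcases mul_eq_zero.mp ha with ha | ha
      · refine ⟨Sum.inl true, ?_⟩
        have ha' : g.1 0 0 = 1 := by linear_combination ha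
        have : g = 1 := by
          ext i j
          fin_cases i <;> fin_cases j
          · simpa using ha'
          · simpa using s1
          · simpa using s2
          · simpa using (s3 ▸ ha')
        rw [this]
        rfl
      · refine ⟨Sum.inl false, ?_⟩
        have ha' : g.1 0 0 = -1 := by linear_combination ha
        have : g = -1 := by
          ext i j
          fin_cases i <;> fin_cases j
          · simpa using ha'
          · simpa using s1
          · simpa using s2
          · simpa using (s3 ▸ ha')
        rw [this]
        rfl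
    · by_cases ht : g.1.trace ^ 2 = 4
      · obtain ⟨δ, hδ⟩ := sl2_exists_isConj_slC g hs
        have hte : ∃ e : Bool, g.1.trace = sg e := by
          have : (g.1.trace - 2) * (g.1.trace + 2) = 0 := by linear_combination ht
          rcases mul_eq_zero.mp this with h | h
          · exact ⟨true, by simp only [sg, if_true]; linear_combination h⟩
          · exact ⟨false, by simp only [sg, Bool.false_eq_true, if_false]; linear_combination h⟩
        obtain ⟨e, he⟩ := hte
        by_cases hsq : IsSquare (δ : F)
        · obtain ⟨s, hs'⟩ := hsq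
          have hs0 : s ≠ 0 := by
            intro h
            rw [h, mul_zero] at hs'
            exact δ.ne_zero hs'
          have h3 := slC_isConj_slC_mul_sq g.1.trace δ (Units.mk0 s hs0)⁻¹
          have h1 : δ * ((Units.mk0 s hs0)⁻¹) ^ 2 = 1 := by
            apply Units.ext
            simp only [Units.val_mul, Units.val_pow_eq_pow_val, Units.val_inv_eq_inv_val, Units.val_mk0, Units.val_one]
            rw [hs']
            field_simp
          rw [h1] at h3
          refine ⟨Sum.inr (Sum.inr (e, true)), ?_⟩
          refine (ConjClasses.mk_eq_mk_iff_isConj.mpr ?_).symm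
          have := hδ.trans h3
          rw [he] at this
          simpa [rep] using this
        · -- δ⁻¹ ν is a square
          have hq : IsSquare ((δ : F)⁻¹ * ν) := by
            have hne : (δ : F)⁻¹ * ν ≠ 0 := mul_ne_zero (inv_ne_zero δ.ne_zero) ν.ne_zero
            rw [← quadraticChar_one_iff_isSquare hne, map_mul]
            have h1 : quadraticChar F (ν : F) = -1 := quadraticChar_neg_one_iff_not_isSquare.mpr hν
            have h2' : quadraticChar F (δ : F) = -1 := quadraticChar_neg_one_iff_not_isSquare.mpr hsq
            have h3 : quadraticChar F (δ : F)⁻¹ * quadraticChar F (δ : F) = 1 := by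
              rw [← map_mul, inv_mul_cancel₀ δ.ne_zero, map_one]
            rw [h2'] at h3
            rw [h1]
            linarith
          obtain ⟨s, hs'⟩ := hq
          have hs0 : s ≠ 0 := by
            intro h
            rw [h, mul_zero] at hs'
            exact (mul_ne_zero (inv_ne_zero δ.ne_zero) ν.ne_zero) hs'
          have h3 := slC_isConj_slC_mul_sq g.1.trace δ (Units.mk0 s hs0)
          have h1 : δ * (Units.mk0 s hs0) ^ 2 = ν := by
            apply Units.ext
            simp only [Units.val_mul, Units.val_pow_eq_pow_val, Units.val_mk0]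
            rw [pow_two, ← hs']
            field_simp
          rw [h1] at h3
          refine ⟨Sum.inr (Sum.inr (e, false)), ?_⟩
          refine (ConjClasses.mk_eq_mk_iff_isConj.mpr ?_).symm
          have := hδ.trans h3
          rw [he] at this
          simpa [rep] using this
      · refine ⟨Sum.inr (Sum.inl ⟨g.1.trace, ht⟩), ?_⟩
        exact (ConjClasses.mk_eq_mk_iff_isConj.mpr (sl2_isConj_slC_one_of_odd hodd g hs ht)).symm

theorem result {F : Type*} [Field F] [Fintype F] (hodd : Odd (Fintype.card F)) :
    Nat.card (ConjClasses (Matrix.SpecialLinearGroup (Fin 2) F)) = Fintype.card F + 4 := by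
  classical
  have hodd' : Fintype.card F % 2 = 1 := Nat.odd_iff.mp hodd
  have h2 : (2 : F) ≠ 0 := two_ne_zero_of_odd hodd'
  have hch : ringChar F ≠ 2 := by
    intro h
    have := FiniteField.even_card_of_char_two h
    omega
  obtain ⟨a, ha⟩ := FiniteField.exists_nonsquare hch
  have ha0 : a ≠ 0 := by
    rintro rfl
    exact ha ⟨0, by simp⟩
  rw [← Nat.card_congr (Equiv.ofBijective _ (rep_bij hodd' (Units.mk0 a ha0) ha))]
  rw [Nat.card_eq_fintype_card, Fintype.card_sum, Fintype.card_sum, Fintype.card_prod, Fintype.card_bool]
  have hc : Fintype.card {t : F // t ^ 2 = 4} = 2 := by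
    rw [Fintype.card_subtype]
    have : (Finset.univ.filter fun t : F => t ^ 2 = 4) = {2, -2} := by
      ext t
      simp only [Finset.mem_filter, Finset.mem_univ, true_and, Finset.mem_insert, Finset.mem_singleton]
      constructor
      · intro h
        have : (t - 2) * (t + 2) = 0 := by linear_combination h
        rcases mul_eq_zero.mp this with h | h
        · left; linear_combination h
        · right; linear_combination h
      · rintro (rfl | rfl) <;> norm_num
    rw [this, Finset.card_pair]
    intro h
    have : (2 : F) * 2 = 0 := by linear_combination h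
    exact h2 (mul_self_eq_zero.mp this)
  have hc2 : Fintype.card {t : F // t ^ 2 ≠ 4} = Fintype.card F - 2 := by
    rw [Fintype.card_subtype_compl, hc]
  rw [hc2]
  have : 2 ≤ Fintype.card F := by
    rw [← hc]; exact Fintype.card_subtype_le _
  omega

end Cfsg.Agent.S2325
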