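import Mathlib
import Cfsg.Statements.S2329
import Cfsg.Agent.H14.GL2
import Cfsg.Agent.H14.Unipotent

set_option autoImplicit false
open Cfsg

namespace Cfsg.Agent.S2329

open Cfsg.Agent.H14 Matrix

theorem key {F : Type*} [Field F] (p : ℕ) [Fact p.Prime] [CharP F p] (g : Matrix.GeneralLinearGroup (Fin 2) F)
    (hg : orderOf g = p) : IsConj g (glC (2 : F) 1) := by
  have hp : p.Prime := Fact.out
  have h1 : g ^ p ^ 1 = 1 := by rw [pow_one, ← hg]; exact pow_orderOf_eq_one g
  have h2 : (g : Matrix (Fin 2) (Fin 2) F) ^ p ^ 1 = 1 := by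
    have := congrArg (fun x : Matrix.GeneralLinearGroup (Fin 2) F => (x : Matrix (Fin 2) (Fin 2) F)) h1
    simpa using this
  have h3 := sub_one_pow_card_eq_zero p (g : Matrix (Fin 2) (Fin 2) F) 1 h2
  rw [Fintype.card_fin] at h3
  have hne : g ≠ 1 := by
    intro h
    rw [h, orderOf_one] at hg
    exact hp.one_lt.ne hg
  set A := (g : Matrix (Fin 2) (Fin 2) F) with hA
  have hA1 : A ≠ 1 := fun h => hne (Units.ext h)
  -- entries
  have e00 := congrFun (congrFun h3 0) 0
  have e01 := congrFun (congrFun h3 0) 1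
  have e10 := congrFun (congrFun h3 1) 0
  have e11 := congrFun (congrFun h3 1) 1
  simp only [pow_two, Matrix.mul_apply, Fin.sum_univ_two, Matrix.sub_apply, Matrix.one_apply_eq,
    Matrix.zero_apply] at e00 e01 e10 e11
  simp only [Matrix.one_apply, Fin.isValue, zero_ne_one, one_ne_zero, if_false, sub_zero] at e00 e01 e10 e11
  -- trace of N is zero
  have htr : A 0 0 + A 1 1 = 2 := by
    by_contra hcon
    have hs : A 0 0 - 1 + (A 1 1 - 1) ≠ 0 := by
      intro h; apply hcon; linear_combination h
    have hb : A 0 1 = 0 := by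
      have : A 0 1 * (A 0 0 - 1 + (A 1 1 - 1)) = 0 := by linear_combination e01
      rcases mul_eq_zero.mp this with h | h
      · exact h
      · exact absurd h hs
    have hc : A 1 0 = 0 := by
      have : A 1 0 * (A 0 0 - 1 + (A 1 1 - 1)) = 0 := by linear_combination e10
      rcases mul_eq_zero.mp this with h | h
      · exact h
      · exact absurd h hs
    rw [hb, hc] at e00 e11
    have ha : A 0 0 - 1 = 0 := by
      have : (A 0 0 - 1) * (A 0 0 - 1) = 0 := by linear_combination e00
      exact mul_self_eq_zero.mp this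
    have hd : A 1 1 - 1 = 0 := by
      have : (A 1 1 - 1) * (A 1 1 - 1) = 0 := by linear_combination e11
      exact mul_self_eq_zero.mp this
    apply hs
    rw [ha, hd]; ring
  have hdet : A 0 0 * A 1 1 - A 0 1 * A 1 0 = 1 := by
    have hd : A 1 1 = 2 - A 0 0 := by linear_combination htr
    rw [hd]
    linear_combination -e00
  apply gl2_isConj_glC
  · rintro ⟨s1, s2, s3⟩
    apply hA1
    rw [← hA] at s1 s2 s3
    rw [s1, s2] at e00
    have ha : A 0 0 - 1 = 0 := by
      have : (A 0 0 - 1) * (A 0 0 - 1) = 0 := by linear_combination e00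
      exact mul_self_eq_zero.mp this
    have ha' : A 0 0 = 1 := by linear_combination ha
    ext i j
    fin_cases i <;> fin_cases j <;> simp [s1, s2, ← s3, ha']
  · rw [Matrix.trace_fin_two]; exact htr
  · rw [Matrix.det_fin_two]; simpa using hdet

theorem result {F : Type*} [Field F] [Fintype F] (p : ℕ) [Fact p.Prime] [CharP F p] (g h : Matrix.GeneralLinearGroup (Fin 2) F)
    (hg : orderOf g = p) (hh : orderOf h = p) : IsConj g h :=
  (key p g hg).trans (key p h hh).symm

end Cfsg.Agent.S2329
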