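import Mathlib
import Cfsg.Statements.S2330
import Cfsg.Agent.H14.GL2

set_option autoImplicit false
open Cfsg

namespace Cfsg.Agent.S2330

open Cfsg.Agent.H14 Matrix

variable {F : Type*} [Field F]

/-- scalar matrix in `GL₂` -/
noncomputable def glS (a : Fˣ) : Matrix.GeneralLinearGroup (Fin 2) F :=
  Matrix.GeneralLinearGroup.mkOfDetNeZero ((a : F) • (1 : Matrix (Fin 2) (Fin 2) F)) (by simp [Matrix.det_smul])

/-- representatives -/
noncomputable def rep : Fˣ ⊕ (F × Fˣ) → Matrix.GeneralLinearGroup (Fin 2) F
  | Sum.inl a => glS a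
  | Sum.inr (t, d) => glC t d

theorem rep_bij : Function.Bijective (fun x : Fˣ ⊕ (F × Fˣ) => ConjClasses.mk (rep x)) := by
  constructor
  · intro x y hxy
    have hc : IsConj (rep x) (rep y) := ConjClasses.mk_eq_mk_iff_isConj.mp hxy
    rcases x with a | ⟨t, d⟩ <;> rcases y with b | ⟨t', d'⟩
    · have h := gl2_eq_of_isConj_of_isScal hc (isScal_smul_one (a : F))
      have h2 := congrArg (fun g : Matrix.GeneralLinearGroup (Fin 2) F => (g : Matrix (Fin 2) (Fin 2) F) 0 0) h
      simp only [rep, glS, Matrix.GeneralLinearGroup.mkOfDetNeZero] at h2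
      have h3 : (b : F) = a := by simpa using h2
      rw [Units.ext h3]
    · have h := gl2_eq_of_isConj_of_isScal hc (isScal_smul_one (a : F))
      have h2 := congrArg (fun g : Matrix.GeneralLinearGroup (Fin 2) F => (g : Matrix (Fin 2) (Fin 2) F) 1 0) h
      simp only [rep, glS, Matrix.GeneralLinearGroup.mkOfDetNeZero] at h2
      simp at h2
    · have h := gl2_eq_of_isConj_of_isScal hc.symm (isScal_smul_one (b : F))
      have h2 := congrArg (fun g : Matrix.GeneralLinearGroup (Fin 2) F => (g : Matrix (Fin 2) (Fin 2) F) 1 0) h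
      simp only [rep, glS, Matrix.GeneralLinearGroup.mkOfDetNeZero] at h2
      simp at h2
    · have h1 := gl_trace_eq_of_isConj hc
      have h2 := gl_det_eq_of_isConj hc
      simp only [rep, coe_glC, Matrix.trace_fin_two_of, Matrix.det_fin_two_of] at h1 h2
      have h3 : t = t' := by simpa using h1
      have h4 : (d : F) = d' := by simpa using h2
      rw [h3, Units.ext h4]
  · intro c
    obtain ⟨g, rfl⟩ := ConjClasses.mk_surjective c
    by_cases hs : IsScal (g : Matrix (Fin 2) (Fin 2) F)
    · have hne : (g : Matrix (Fin 2) (Fin 2) F) 0 0 ≠ 0 := by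
        intro h0
        have := hs.eq_smul
        rw [h0, zero_smul] at this
        have hdet : (g : Matrix (Fin 2) (Fin 2) F).det ≠ 0 := by
          have := Matrix.GeneralLinearGroup.det_ne_zero g
          simpa using this
        rw [this] at hdet
        simp at hdet
      refine ⟨Sum.inl (Units.mk0 _ hne), ?_⟩
      have : rep (Sum.inl (Units.mk0 _ hne)) = g := by
        apply Units.ext
        exact hs.eq_smul.symm
      change ConjClasses.mk (rep (Sum.inl (Units.mk0 _ hne))) = _
      rw [this]
    · have hdet : (g : Matrix (Fin 2) (Fin 2) F).det ≠ 0 := by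
        have := Matrix.GeneralLinearGroup.det_ne_zero g
        simpa using this
      refine ⟨Sum.inr ((g : Matrix (Fin 2) (Fin 2) F).trace, Units.mk0 _ hdet), ?_⟩
      exact (ConjClasses.mk_eq_mk_iff_isConj.mpr (gl2_isConj_glC g hs _ _ rfl rfl)).symm

theorem result {F : Type*} [Field F] [Fintype F] :
    Nat.card (ConjClasses (Matrix.GeneralLinearGroup (Fin 2) F)) = Fintype.card F ^ 2 - 1 := by
  classical
  rw [← Nat.card_congr (Equiv.ofBijective _ (rep_bij (F := F)))]
  rw [Nat.card_eq_fintype_card, Fintype.card_sum, Fintype.card_prod, Fintype.card_units]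
  have h1 : 1 ≤ Fintype.card F := Fintype.card_pos
  obtain ⟨k, hk⟩ : ∃ k, Fintype.card F = k + 1 := ⟨Fintype.card F - 1, by omega⟩
  rw [hk]
  simp only [Nat.add_sub_cancel]
  have : (k + 1) ^ 2 = k + (k + 1) * k + 1 := by ring
  omega

end Cfsg.Agent.S2330
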