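import Mathlib
import Cfsg.Statements.S2331
import Cfsg.Agent.H14.SL2

set_option autoImplicit false
open Cfsg

namespace Cfsg.Agent.S2331

open Cfsg.Agent.H14 Matrix

variable {F : Type*} [Field F]

/-- representatives -/
def rep : Unit ⊕ F → Matrix.SpecialLinearGroup (Fin 2) F
  | Sum.inl _ => 1
  | Sum.inr t => slC t 1

theorem isScal_one : IsScal ((1 : Matrix.SpecialLinearGroup (Fin 2) F) : Matrix (Fin 2) (Fin 2) F) := by
  simp [IsScal]

theorem rep_bij [Fintype F] [CharP F 2] :
    Function.Bijective (fun x : Unit ⊕ F => ConjClasses.mk (rep x)) := by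
  have h2 : ringChar F = 2 := ringChar.eq F 2
  constructor
  · intro x y hxy
    have hc : IsConj (rep x) (rep y) := ConjClasses.mk_eq_mk_iff_isConj.mp hxy
    rcases x with a | t <;> rcases y with b | t'
    · rfl
    · have h : slC t' 1 = 1 := sl2_eq_of_isConj_of_isScal hc isScal_one
      exact absurd (h ▸ isScal_one) (not_isScal_slC t' 1)
    · have h : slC t 1 = 1 := sl2_eq_of_isConj_of_isScal hc.symm isScal_one
      exact absurd (h ▸ isScal_one) (not_isScal_slC t 1)
    · have h1 := sl2_trace_eq_of_isConj hc
      simp only [rep, trace_slC] at h1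
      rw [h1]
  · intro c
    obtain ⟨g, rfl⟩ := ConjClasses.mk_surjective c
    by_cases hs : IsScal g.1
    · refine ⟨Sum.inl (), ?_⟩
      have hdet := sl2_det g
      obtain ⟨s1, s2, s3⟩ := hs
      rw [s1, ← s3] at hdet
      have h20 : (2 : F) = 0 := by
        have := CharP.cast_eq_zero F 2
        exact_mod_cast this
      have ha : (g.1 0 0 - 1) * (g.1 0 0 - 1) = 0 := by
        linear_combination hdet - (g.1 0 0 - 1) * h20
      have ha' : g.1 0 0 = 1 := by
        have := mul_self_eq_zero.mp ha
        linear_combination this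
      have : g = 1 := by
        ext i j
        fin_cases i <;> fin_cases j
        · simpa using ha'
        · simpa using s1
        · simpa using s2
        · simpa using (s3 ▸ ha')
      rw [this]
      rfl
    · refine ⟨Sum.inr g.1.trace, ?_⟩
      exact (ConjClasses.mk_eq_mk_iff_isConj.mpr (sl2_isConj_slC_one_of_char_two h2 g hs)).symm

theorem result {F : Type*} [Field F] [Fintype F] [CharP F 2] :
    Nat.card (ConjClasses (Matrix.SpecialLinearGroup (Fin 2) F)) = Fintype.card F + 1 := by
  classical
  rw [← Nat.card_congr (Equiv.ofBijective _ (rep_bij (F := F)))]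
  rw [Nat.card_eq_fintype_card, Fintype.card_sum]
  simp [add_comm]

end Cfsg.Agent.S2331
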