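import Mathlib
import Cfsg.Statements.S2364
import Cfsg.Agent.S0242
import Cfsg.Agent.Lib.Helper18.SLCard2
-- import your own Cfsg.Agent.* helpers here

set_option autoImplicit false
open Cfsg

namespace Cfsg.Agent.S2364

theorem core {F : Type*} [Field F] [Fintype F] {V : Type*} [AddCommGroup V] [Module F V]
    [FiniteDimensional F V] (r : ℕ) (hr : r.Prime) (hrq : ¬ r ∣ Fintype.card F) (n : ℕ) (hn : 4 ≤ n)
    (hV : Module.finrank F V = n)
    (H : ∀ i, 1 ≤ i → i ≤ n - 2 → ¬ r ∣ (Fintype.card F) ^ i - 1)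
    (T N : Module.End F V) (hT : T ^ r = 1) (hT1 : T ≠ 1) (hN : IsNilpotent N) (hN0 : N ≠ 0)
    (hc : ∀ v, T (N v) = N (T v)) : False := by
  classical
  haveI : Fact r.Prime := ⟨hr⟩
  haveI : Finite V := Module.finite_of_finite F
  obtain ⟨q, hq⟩ : ∃ q, q = Fintype.card F := ⟨_, rfl⟩
  rw [← hq] at hrq H
  have hq1 : 1 ≤ q := by rw [hq]; exact Fintype.card_pos
  have hcardW : ∀ W : Submodule F V, Nat.card W = q ^ Module.finrank F W := by
    intro W
    rw [Module.natCard_eq_pow_finrank (K := F), Nat.card_eq_fintype_card, hq]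
  obtain ⟨K, hK⟩ : ∃ K : Submodule F V, K = LinearMap.ker (T - 1) := ⟨_, rfl⟩
  have hKmem : ∀ v, v ∈ K ↔ T v = v := by
    intro v
    rw [hK, LinearMap.mem_ker, LinearMap.sub_apply, sub_eq_zero]
    rfl
  have key : ∀ W : Submodule F V, (∀ w ∈ W, T w ∈ W) →
      Nat.card W ≡ Nat.card (W ⊓ K : Submodule F V) [MOD r] := by
    intro W hW
    haveI : Fintype W := Fintype.ofFinite _
    let f : Function.End W := fun w => ⟨T w.1, hW _ w.2⟩
    have hfk : ∀ k : ℕ, ∀ w : W, ((f ^ k) w : V) = (T ^ k) w.1 := by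
      intro k
      induction k with
      | zero => intro w; rw [pow_zero, pow_zero]; rfl
      | succ k ih =>
        intro w
        rw [pow_succ', pow_succ']
        show T ((f ^ k) w : V) = _
        rw [ih]
        rfl
    have hf : f ^ r ^ 1 = 1 := by
      rw [pow_one]
      funext w
      apply Subtype.ext
      rw [hfk, hT]
      rfl
    have h1 := Equiv.Perm.card_fixedPoints_modEq hf
    rw [← Nat.card_eq_fintype_card, ← Nat.card_eq_fintype_card] at h1
    refine h1.trans ?_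
    have h2 : Nat.card (Function.fixedPoints f) = Nat.card (W ⊓ K : Submodule F V) := by
      refine Nat.card_congr ⟨fun w => ⟨w.1.1, ⟨w.1.2, ?_⟩⟩, fun v => ⟨⟨v.1, v.2.1⟩, ?_⟩, ?_, ?_⟩
      · have h3 : f w.1 = w.1 := w.2
        have h4 : T w.1.1 = w.1.1 := congrArg Subtype.val h3
        exact (hKmem _).2 h4
      · have h3 : v.1 ∈ K := v.2.2
        rw [hKmem] at h3
        show f ⟨v.1, v.2.1⟩ = ⟨v.1, v.2.1⟩
        apply Subtype.ext
        exact h3
      · intro w; rfl
      · intro v; rfl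
    rw [h2]
  have dich : ∀ W : Submodule F V, (∀ w ∈ W, T w ∈ W) →
      W ≤ K ∨ Module.finrank F (W ⊓ K : Submodule F V) + (n - 1) ≤ Module.finrank F W := by
    intro W hW
    have h1 := key W hW
    rw [hcardW, hcardW] at h1
    have h2 : Module.finrank F (W ⊓ K : Submodule F V) ≤ Module.finrank F W :=
      Submodule.finrank_mono inf_le_left
    obtain ⟨d, hd⟩ := Nat.exists_eq_add_of_le h2
    rw [hd, pow_add] at h1
    have hcop : Nat.Coprime r q := (Nat.Prime.coprime_iff_not_dvd hr).2 hrq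
    have h3 : q ^ d ≡ 1 [MOD r] := by
      apply Nat.ModEq.cancel_left_of_coprime (c := q ^ Module.finrank F (W ⊓ K : Submodule F V))
      · exact Nat.Coprime.pow_right _ hcop
      · rw [mul_one]; exact h1
    have h4 : r ∣ q ^ d - 1 := (Nat.modEq_iff_dvd' (Nat.one_le_pow _ _ hq1)).1 h3.symm
    rcases Nat.eq_zero_or_pos d with h5 | h5
    · left
      have h6 : (W ⊓ K : Submodule F V) = W :=
        Submodule.eq_of_le_of_finrank_eq inf_le_left (by omega)
      rw [← h6]
      exact inf_le_right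
    · right
      by_contra h6
      exact H d h5 (by omega) h4
  -- K small
  have hKle : Module.finrank F K ≤ 1 := by
    rcases dich ⊤ (fun _ _ => Submodule.mem_top) with h | h
    · exfalso
      apply hT1
      apply LinearMap.ext
      intro v
      exact (hKmem v).1 (h Submodule.mem_top)
    · rw [top_inf_eq, finrank_top, hV] at h
      omega
  obtain ⟨k, hk⟩ := hN
  obtain ⟨W, hW⟩ : ∃ W : Submodule F V, W = LinearMap.ker N := ⟨_, rfl⟩
  have hWmem : ∀ v, v ∈ W ↔ N v = 0 := by
    intro v; rw [hW, LinearMap.mem_ker]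
  have hWinv : ∀ w ∈ W, T w ∈ W := by
    intro w hw
    rw [hWmem] at hw ⊢
    rw [← hc, hw, map_zero]
  have hVnt : (⊥ : Submodule F V) ≠ ⊤ := by
    intro h
    have h1 := congrArg (fun S : Submodule F V => Module.finrank F S) h
    simp only [finrank_bot, finrank_top, hV] at h1
    omega
  have hWtop : W ≠ ⊤ := by
    intro h
    apply hN0
    apply LinearMap.ext
    intro v
    exact (hWmem v).1 (h ▸ Submodule.mem_top)
  have hWbot : W ≠ ⊥ := by
    intro h
    have h1 : LinearMap.ker (N ^ 0) = LinearMap.ker (N ^ (Nat.succ 0)) := by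
      rw [pow_zero, pow_one, ← hW, h]
      exact LinearMap.ker_id
    have h2 := Module.End.ker_pow_constant h1 k
    rw [zero_add, hk, pow_zero, LinearMap.ker_zero] at h2
    exact hVnt ((LinearMap.ker_id).symm.trans h2)
  have hWlt : Module.finrank F W < n := by
    rw [← hV]
    exact Submodule.finrank_lt hWtop
  have hWpos : 0 < Module.finrank F W := by
    rw [Module.finrank_pos_iff_exists_ne_zero]
    obtain ⟨w, hw, hw0⟩ := Submodule.exists_mem_ne_zero_of_ne_bot hWbot
    exact ⟨⟨w, hw⟩, fun h => hw0 (congrArg Subtype.val h)⟩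
  have hrn := LinearMap.finrank_range_add_finrank_ker N
  rw [← hW, hV] at hrn
  rcases dich W hWinv with h | h
  · -- dim W = 1
    have hW1 : Module.finrank F W = 1 := by
      have := Submodule.finrank_mono h
      omega
    obtain ⟨W₂, hW₂⟩ : ∃ W₂ : Submodule F V, W₂ = LinearMap.ker (N ^ 2) := ⟨_, rfl⟩
    have hW₂mem : ∀ v, v ∈ W₂ ↔ N (N v) = 0 := by
      intro v; rw [hW₂, LinearMap.mem_ker, pow_two]; rfl
    have hle : W ≤ W₂ := by
      intro v hv
      rw [hWmem] at hv
      rw [hW₂mem, hv, map_zero]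
    have hne : W ≠ W₂ := by
      intro h1
      have h2 : LinearMap.ker (N ^ 1) = LinearMap.ker (N ^ (Nat.succ 1)) := by
        rw [pow_one, ← hW, ← hW₂, h1]
      have h3 := Module.End.ker_pow_constant h2 k
      rw [pow_add, hk, mul_zero, LinearMap.ker_zero, pow_one, ← hW] at h3
      exact hWtop h3
    have h2le : 2 ≤ Module.finrank F W₂ := by
      have := Submodule.finrank_lt_finrank_of_lt (lt_of_le_of_ne hle hne)
      omega
    have hW₂inv : ∀ w ∈ W₂, T w ∈ W₂ := by
      intro w hw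
      rw [hW₂mem] at hw ⊢
      rw [← hc, ← hc, hw, map_zero]
    rcases dich W₂ hW₂inv with h3 | h3
    · have := Submodule.finrank_mono h3
      omega
    · have h4 : Module.finrank F W ≤ Module.finrank F (W₂ ⊓ K : Submodule F V) :=
        Submodule.finrank_mono (le_inf hle h)
      have h5 : Module.finrank F W₂ ≤ n := by
        rw [← hV]; exact Submodule.finrank_le _
      have h6 : W₂ = ⊤ := Submodule.eq_top_of_finrank_eq (by omega)
      have h7 : LinearMap.range N ≤ W := by
        rintro _ ⟨v, rfl⟩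
        rw [hWmem]
        exact (hW₂mem v).1 (h6 ▸ Submodule.mem_top)
      have := Submodule.finrank_mono h7
      omega
  · -- dim W = n - 1
    have hWK : (W ⊓ K : Submodule F V) = ⊥ := by
      apply Submodule.finrank_eq_zero.1
      omega
    have hR1 : Module.finrank F (LinearMap.range N) = 1 := by omega
    have hRinv : ∀ w ∈ LinearMap.range N, T w ∈ LinearMap.range N := by
      rintro _ ⟨v, rfl⟩
      exact ⟨T v, (hc v).symm⟩
    have hRK : LinearMap.range N ≤ K := by
      rcases dich _ hRinv with h1 | h1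
      · exact h1
      · omega
    obtain ⟨v, hv⟩ : ∃ v, N v ≠ 0 := by
      by_contra h1
      push Not at h1
      exact hN0 (LinearMap.ext h1)
    have h1 : ∀ w : LinearMap.range N, ∃ c : F, c • (⟨N v, v, rfl⟩ : LinearMap.range N) = w :=
      (finrank_eq_one_iff_of_nonzero' (⟨N v, v, rfl⟩ : LinearMap.range N)
        (fun h => hv (congrArg Subtype.val h))).1 hR1
    obtain ⟨c, hc1⟩ := h1 ⟨N (N v), N v, rfl⟩
    have hc2 : c • N v = N (N v) := congrArg Subtype.val hc1
    have hc3 : ∀ j : ℕ, (N ^ j) (N v) = c ^ j • N v := by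
      intro j
      induction j with
      | zero => simp
      | succ j ih =>
        rw [pow_succ', Module.End.mul_apply, ih, map_smul, ← hc2, smul_smul, pow_succ]
    have hc4 := hc3 k
    rw [hk, LinearMap.zero_apply] at hc4
    have hc5 : c = 0 := by
      rcases smul_eq_zero.1 hc4.symm with h2 | h2
      · exact pow_eq_zero_iff (n := k) (by
          intro hk0
          rw [hk0, pow_zero] at h2
          exact one_ne_zero h2) |>.1 h2
      · exact absurd h2 hv
    rw [hc5, zero_smul] at hc2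
    have h3 : N v ∈ (W ⊓ K : Submodule F V) := ⟨(hWmem _).2 hc2.symm, hRK ⟨v, rfl⟩⟩
    rw [hWK, Submodule.mem_bot] at h3
    exact hv h3


theorem card_SL_formula {F : Type*} [Field F] [Fintype F] (m : ℕ) :
    Nat.card (Matrix.SpecialLinearGroup (Fin (m + 1)) F) =
      (∏ j : Fin m, ((Fintype.card F) ^ (m + 1) - (Fintype.card F) ^ (j : ℕ))) * (Fintype.card F) ^ m := by
  have h := Cfsg.Agent.S0242.result (F := F) rfl (m + 1) (by omega)
  rw [Fin.prod_univ_castSucc] at h
  have hq : 1 < Fintype.card F := Fintype.one_lt_card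
  have h1 : (Fintype.card F) ^ (m + 1) - (Fintype.card F) ^ ((Fin.last m : Fin (m + 1)) : ℕ) =
      (Fintype.card F) ^ m * (Fintype.card F - 1) := by
    rw [Fin.val_last, pow_succ, Nat.mul_sub, mul_one]
  rw [h1] at h
  have h2 : 0 < Fintype.card F - 1 := by omega
  apply Nat.eq_of_mul_eq_mul_left h2
  rw [h]
  simp only [Fin.val_castSucc]
  ring

theorem dvd_card_SL {F : Type*} [Field F] [Fintype F] (m : ℕ) (hm : 2 ≤ m) (r i : ℕ) (hi : 1 ≤ i)
    (him : i ≤ m) (hr : r ∣ (Fintype.card F) ^ i - 1) :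
    r ∣ Nat.card (Matrix.SpecialLinearGroup (Fin m) F) := by
  obtain ⟨m', rfl⟩ : ∃ m', m = m' + 1 := ⟨m - 1, by omega⟩
  have hq : 1 < Fintype.card F := Fintype.one_lt_card
  have main : ∀ i, 2 ≤ i → i ≤ m' + 1 → r ∣ (Fintype.card F) ^ i - 1 →
      r ∣ Nat.card (Matrix.SpecialLinearGroup (Fin (m' + 1)) F) := by
    intro i hi him hr
    rw [card_SL_formula]
    apply Dvd.dvd.mul_right
    refine Dvd.dvd.trans ?_ (Finset.dvd_prod_of_mem _ (Finset.mem_univ (⟨m' + 1 - i, by omega⟩ : Fin m')))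
    have h1 : (Fintype.card F) ^ (m' + 1) - (Fintype.card F) ^ (m' + 1 - i) =
        (Fintype.card F) ^ (m' + 1 - i) * ((Fintype.card F) ^ i - 1) := by
      rw [Nat.mul_sub, mul_one, ← pow_add]
      congr 2
      omega
    show r ∣ (Fintype.card F) ^ (m' + 1) - (Fintype.card F) ^ (m' + 1 - i)
    rw [h1]
    exact Dvd.dvd.mul_left hr _
  rcases Nat.lt_or_ge i 2 with h | h
  · have h1 : i = 1 := by omega
    subst h1
    apply main 2 le_rfl hm
    refine hr.trans ?_
    have := Nat.sub_dvd_pow_sub_pow (Fintype.card F) 1 2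
    simpa using this
  · exact main i h him hr

theorem card_dvd_card_SL {F : Type*} [Field F] [Fintype F] (m : ℕ) (hm : 2 ≤ m) :
    Fintype.card F ∣ Nat.card (Matrix.SpecialLinearGroup (Fin m) F) := by
  obtain ⟨m', rfl⟩ : ∃ m', m = m' + 1 := ⟨m - 1, by omega⟩
  rw [card_SL_formula]
  apply Dvd.dvd.mul_left
  exact dvd_pow_self _ (by omega)

theorem exists_lift {G : Type*} [Group G] [Finite G] (Z : Subgroup G) [Z.Normal] (s : ℕ) (hs : 1 < s)
    (hcop : (Nat.card Z).Coprime s) (x : G ⧸ Z) (hx : x ^ s = 1) :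
    ∃ g : G, (QuotientGroup.mk g : G ⧸ Z) = x ∧ g ^ s = 1 := by
  obtain ⟨g₀, rfl⟩ := QuotientGroup.mk_surjective x
  obtain ⟨c, -, hc⟩ := Nat.exists_mul_mod_eq_one_of_coprime hcop hs
  refine ⟨g₀ ^ (Nat.card Z * c), ?_, ?_⟩
  · rw [QuotientGroup.mk_pow, ← Nat.div_add_mod (Nat.card Z * c) s, pow_add, pow_mul, hx, one_pow,
      one_mul, hc, pow_one]
  · have h1 : g₀ ^ s ∈ Z := by
      rw [← QuotientGroup.eq_one_iff, QuotientGroup.mk_pow]
      exact hx
    have h2 : (⟨g₀ ^ s, h1⟩ : Z) ^ Nat.card Z = 1 := pow_card_eq_one'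
    have h3 : (g₀ ^ s) ^ Nat.card Z = 1 := congrArg Subtype.val h2
    rw [← pow_mul, mul_comm, pow_mul, pow_mul, h3, one_pow]

/-- Let F be a finite field of characteristic p, n ≥ 4, and let a, b be commuting elements of PSL(n, F) with a of order p. Then every prime divisor of the order of b divides the order of SL(n − 2, F). -/
theorem result {F : Type*} [Field F] [Fintype F] (p : ℕ) [Fact p.Prime] [CharP F p] (n : ℕ) (hn : 4 ≤ n)
    (a b : Matrix.ProjectiveSpecialLinearGroup (Fin n) F) (ha : orderOf a = p) (hab : Commute a b) :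
    (orderOf b).primeFactors ⊆ (Nat.card (Matrix.SpecialLinearGroup (Fin (n - 2)) F)).primeFactors := by
  classical
  have hp : p.Prime := Fact.out
  haveI : Nonempty (Fin n) := ⟨⟨0, by omega⟩⟩
  intro r hr
  rw [Nat.mem_primeFactors] at hr ⊢
  obtain ⟨hrp, hrb, hb0⟩ := hr
  refine ⟨hrp, ?_, Nat.card_pos.ne'⟩
  by_contra hnd
  have hq1 : 1 < Fintype.card F := Fintype.one_lt_card
  have hpq : p ∣ Fintype.card F := by
    obtain ⟨k, _, hk⟩ := FiniteField.card F p
    rw [hk]
    exact dvd_pow_self p k.ne_zero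
  have hrq : ¬ r ∣ Fintype.card F := fun h => hnd (h.trans (card_dvd_card_SL (n - 2) (by omega)))
  have H : ∀ i, 1 ≤ i → i ≤ n - 2 → ¬ r ∣ (Fintype.card F) ^ i - 1 :=
    fun i h1 h2 h3 => hnd (dvd_card_SL (n - 2) (by omega) r i h1 h2 h3)
  have hZ : Nat.card (Subgroup.center (Matrix.SpecialLinearGroup (Fin n) F)) =
      Nat.gcd n (Fintype.card F - 1) := Cfsg.Agent.Lib.Helper18.card_center_SL n (by omega)
  have hZp : (Nat.card (Subgroup.center (Matrix.SpecialLinearGroup (Fin n) F))).Coprime p := by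
    rw [hZ]
    apply Nat.Coprime.coprime_dvd_left (Nat.gcd_dvd_right _ _)
    rw [Nat.coprime_comm, Nat.Prime.coprime_iff_not_dvd hp]
    intro h
    have h1 := Nat.dvd_sub hpq h
    have h2 : Fintype.card F - (Fintype.card F - 1) = 1 := by omega
    rw [h2] at h1
    exact hp.one_lt.ne' (Nat.dvd_one.1 h1)
  have hZr : (Nat.card (Subgroup.center (Matrix.SpecialLinearGroup (Fin n) F))).Coprime r := by
    rw [hZ]
    apply Nat.Coprime.coprime_dvd_left (Nat.gcd_dvd_right _ _)
    rw [Nat.coprime_comm, Nat.Prime.coprime_iff_not_dvd hrp]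
    intro h
    exact H 1 le_rfl (by omega) (by rwa [pow_one])
  obtain ⟨A, hA, hAp⟩ := exists_lift (Subgroup.center (Matrix.SpecialLinearGroup (Fin n) F)) p
    hp.one_lt hZp a (by rw [← ha]; exact pow_orderOf_eq_one a)
  obtain ⟨b', hb'def⟩ : ∃ b', b' = b ^ (orderOf b / r) := ⟨_, rfl⟩
  have hb' : orderOf b' = r := by rw [hb'def]; exact orderOf_pow_orderOf_div hb0 hrb
  obtain ⟨B, hB, hBr⟩ := exists_lift (Subgroup.center (Matrix.SpecialLinearGroup (Fin n) F)) r
    hrp.one_lt hZr b' (by rw [← hb']; exact pow_orderOf_eq_one _)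
  have hcomm' : Commute a b' := by rw [hb'def]; exact hab.pow_right _
  have hz : A⁻¹ * (B * A * B⁻¹) ∈ Subgroup.center (Matrix.SpecialLinearGroup (Fin n) F) := by
    rw [← QuotientGroup.eq_one_iff]
    rw [QuotientGroup.mk_mul, QuotientGroup.mk_inv, QuotientGroup.mk_mul, QuotientGroup.mk_mul,
      QuotientGroup.mk_inv, hA, hB, ← hcomm'.eq, mul_assoc, mul_inv_cancel, mul_one, inv_mul_cancel]
  have hzp : (A⁻¹ * (B * A * B⁻¹)) ^ p = 1 := by
    have h1 : (A * (A⁻¹ * (B * A * B⁻¹))) ^ p = 1 := by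
      rw [mul_inv_cancel_left, conj_pow, hAp, mul_one, mul_inv_cancel]
    have h2 : Commute A (A⁻¹ * (B * A * B⁻¹)) := (Subgroup.mem_center_iff.1 hz A)
    rw [h2.mul_pow, hAp, one_mul] at h1
    exact h1
  have hzc : (A⁻¹ * (B * A * B⁻¹)) ^
      Nat.card (Subgroup.center (Matrix.SpecialLinearGroup (Fin n) F)) = 1 := by
    have h2 : (⟨_, hz⟩ : Subgroup.center (Matrix.SpecialLinearGroup (Fin n) F)) ^
      Nat.card (Subgroup.center (Matrix.SpecialLinearGroup (Fin n) F)) = 1 := pow_card_eq_one'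
    exact congrArg Subtype.val h2
  have hz1 : A⁻¹ * (B * A * B⁻¹) = 1 := by
    have h1 := pow_gcd_eq_one.2 ⟨hzc, hzp⟩
    rw [Nat.Coprime.gcd_eq_one hZp, pow_one] at h1
    exact h1
  have hBA : B * A = A * B := by
    have h1 : B * A * B⁻¹ = A := by
      rw [inv_mul_eq_one] at hz1
      exact hz1.symm
    rw [mul_inv_eq_iff_eq_mul] at h1
    exact h1
  obtain ⟨MA, hMA⟩ : ∃ MA : Matrix (Fin n) (Fin n) F, MA = (A : Matrix (Fin n) (Fin n) F) := ⟨_, rfl⟩
  obtain ⟨MB, hMB⟩ : ∃ MB : Matrix (Fin n) (Fin n) F, MB = (B : Matrix (Fin n) (Fin n) F) := ⟨_, rfl⟩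
  have hMAp : MA ^ p = 1 := by
    have h2 := congrArg (fun y : Matrix.SpecialLinearGroup (Fin n) F => (y : Matrix (Fin n) (Fin n) F)) hAp
    simp only [Matrix.SpecialLinearGroup.coe_pow, Matrix.SpecialLinearGroup.coe_one] at h2
    rw [hMA]; exact h2
  have hMBr : MB ^ r = 1 := by
    have h2 := congrArg (fun y : Matrix.SpecialLinearGroup (Fin n) F => (y : Matrix (Fin n) (Fin n) F)) hBr
    simp only [Matrix.SpecialLinearGroup.coe_pow, Matrix.SpecialLinearGroup.coe_one] at h2
    rw [hMB]; exact h2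
  have hMcomm : MB * MA = MA * MB := by
    have h2 := congrArg (fun y : Matrix.SpecialLinearGroup (Fin n) F => (y : Matrix (Fin n) (Fin n) F)) hBA
    simp only [Matrix.SpecialLinearGroup.coe_mul] at h2
    rw [hMA, hMB]; exact h2
  have hMA1 : MA ≠ 1 := by
    intro h
    have h1 : A = 1 := Subtype.ext (by rw [← hMA, h]; rfl)
    rw [h1] at hA
    have h2 : a = 1 := hA.symm
    rw [h2, orderOf_one] at ha
    exact hp.one_lt.ne ha
  have hMB1 : MB ≠ 1 := by
    intro h
    have h1 : B = 1 := Subtype.ext (by rw [← hMB, h]; rfl)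
    rw [h1] at hB
    have h2 : b' = 1 := hB.symm
    rw [h2, orderOf_one] at hb'
    exact hrp.one_lt.ne hb'
  have hNp : (MA - 1) ^ p = 0 := by
    rw [sub_pow_char_of_commute _ (Commute.one_right MA), hMAp, one_pow, sub_self]
  refine core r hrp hrq n hn (by simp) H (Matrix.toLinAlgEquiv' MB) (Matrix.toLinAlgEquiv' (MA - 1))
    ?_ ?_ ⟨p, ?_⟩ ?_ ?_
  · rw [← map_pow, hMBr, map_one]
  · intro h
    apply hMB1
    apply Matrix.toLinAlgEquiv'.injective
    rw [h, map_one]
  · rw [← map_pow, hNp, map_zero]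
  · intro h
    apply hMA1
    have h1 : MA - 1 = 0 := by
      apply Matrix.toLinAlgEquiv'.injective
      rw [h, map_zero]
    exact sub_eq_zero.1 h1
  · intro v
    have h1 : Matrix.toLinAlgEquiv' MB * Matrix.toLinAlgEquiv' (MA - 1) =
        Matrix.toLinAlgEquiv' (MA - 1) * Matrix.toLinAlgEquiv' MB := by
      rw [← map_mul, ← map_mul, mul_sub, sub_mul, hMcomm, mul_one, one_mul]
    exact congrArg (fun f : Module.End F (Fin n → F) => f v) h1

end Cfsg.Agent.S2364
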