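import Cfsg.Statements.S2367


set_option autoImplicit false
open Cfsg

namespace Cfsg.Agent.S2367


def PL : List ℕ := [2,3,5,7,11,13,17,19,23,29,31,37,41,43,47,59,67,71]

theorem mem_PL (p : ℕ) (hp : p.Prime) (N : ℕ) (hN : N ∣ PL.prod ^ 46) (h : p ∣ N) : p ∈ PL := by
  have h1 : p ∣ PL.prod := hp.dvd_of_dvd_pow (h.trans hN)
  obtain ⟨a, ha, hpa⟩ := (Prime.dvd_prod_iff hp.prime).1 h1
  have hap : a.Prime := by
    simp only [PL, List.mem_cons, List.not_mem_nil, or_false] at ha
    rcases ha with rfl | rfl | rfl | rfl | rfl | rfl | rfl | rfl | rfl | rfl | rfl | rfl | rfl | rfl | rfl | rfl | rfl | rfl <;> norm_num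
  rw [(Nat.prime_dvd_prime_iff_eq hp hap).1 hpa]
  exact ha

theorem spor (N a : ℕ) (hN0 : N ≠ 0) (hN : N ∣ PL.prod ^ 46) (ha : 2 ^ a ∣ N)
    (H : ∀ x ∈ PL, x ≠ 2 → x ^ 3 ∣ N → x ^ 3 < 2 ^ a)
    (p : ℕ) (hp : p.Prime) (hodd : p ≠ 2) (h3 : N.factorization p = 3) :
    p ^ 3 < 2 ^ N.factorization 2 := by
  have hd : p ^ 3 ∣ N := (hp.pow_dvd_iff_le_factorization hN0).2 h3.ge
  have hm := mem_PL p hp N hN ((dvd_pow_self p (by norm_num)).trans hd)
  have h1 := H p hm hodd hd
  have h2 : a ≤ N.factorization 2 := (Nat.prime_two.pow_dvd_iff_le_factorization hN0).1 ha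
  exact h1.trans_le (Nat.pow_le_pow_right (by norm_num) h2)

theorem pow_bound : ∀ p : ℕ, 3 ≤ p → p ^ 3 < 2 ^ (2 * p - 1) := by
  intro p hp
  induction p, hp using Nat.le_induction with
  | base => norm_num
  | succ k hk ih =>
    have e : 2 * (k + 1) - 1 = (2 * k - 1) + 2 := by omega
    rw [e, pow_add]
    nlinarith [ih, sq_nonneg k, mul_pos (show 0 < k by omega) (show 0 < k by omega)]

theorem alt (n : ℕ) (hn : 5 ≤ n) (c : ℕ) (hc : 2 * c = n.factorial)
    (p : ℕ) (hp : p.Prime) (hodd : p ≠ 2) (h3 : c.factorization p = 3) :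
    p ^ 3 < 2 ^ c.factorization 2 := by
  have hc0 : c ≠ 0 := by
    rintro rfl
    exact n.factorial_ne_zero hc.symm
  have hp3 : 3 ≤ p := by
    have := hp.two_le
    omega
  have e1 : (n.factorial).factorization p = 3 := by
    rw [← hc, Nat.factorization_mul (by norm_num) hc0]
    simp [h3, Nat.factorization_eq_zero_of_not_dvd (show ¬ p ∣ 2 from fun h => hodd ((Nat.prime_dvd_prime_iff_eq hp Nat.prime_two).1 h))]
  have e2 : (n.factorial).factorization 2 = 1 + c.factorization 2 := by
    rw [← hc, Nat.factorization_mul (by norm_num) hc0]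
    simp [Nat.prime_two.factorization_self]
  have h3p : 3 * p ≤ n := by
    by_contra hlt
    push Not at hlt
    have hlog : Nat.log p n < 2 := by
      apply Nat.log_lt_of_lt_pow (by omega)
      nlinarith
    rw [Nat.factorization_factorial hp hlog] at e1
    simp at e1
    have : n / p < 3 := by
      rw [Nat.div_lt_iff_lt_mul hp.pos]
      exact hlt
    omega
  have h2 : 2 * p ≤ (n.factorial).factorization 2 := by
    rw [Nat.factorization_factorial Nat.prime_two (show Nat.log 2 n < Nat.log 2 n + 3 by omega)]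
    have hsub : Finset.Ico 1 3 ⊆ Finset.Ico 1 (Nat.log 2 n + 3) := by
      apply Finset.Ico_subset_Ico le_rfl (by omega)
    refine le_trans ?_ (Finset.sum_le_sum_of_subset hsub)
    have : ∑ i ∈ Finset.Ico 1 3, n / 2 ^ i = n / 2 + n / 4 := by
      simp [Finset.sum_Ico_eq_sum_range, Finset.sum_range_succ]
    rw [this]
    omega
  have h4 : 2 * p - 1 ≤ c.factorization 2 := by omega
  exact (pow_bound p hp3).trans_le (Nat.pow_le_pow_right (by norm_num) h4)


/-- Let G be an alternating group of degree at least 5 or a simple group with the order of one of the 26 sporadic groups, and let p be an odd prime such that p³ is the exact power of p dividing the order of G. Then p³ is less than the 2-part of the order of G. -/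
theorem result {G : Type*} [Group G] [Finite G] (hG : Cfsg.IsAlternating G ∨ Cfsg.IsSporadic G)
    (p : ℕ) (hp : p.Prime) (hodd : p ≠ 2) (h3 : (Nat.card G).factorization p = 3) :
    p ^ 3 < 2 ^ (Nat.card G).factorization 2 := by
  rcases hG with ⟨n, hn, ⟨e⟩⟩ | hG
  · haveI : Nontrivial (Fin n) := Fin.nontrivial_iff_two_le.2 (by omega)
    apply alt n hn _ _ p hp hodd h3
    rw [Nat.card_congr e.toEquiv, two_mul_nat_card_alternatingGroup, Nat.card_perm]
    simp
  · unfold IsSporadic at hG
    rcases hG with h | h | h | h | h | h | h | h | h | h | h | h | h | h | h | h | h | h | h | h | h | h | h | h | h | h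
    · rw [h.2] at h3 ⊢; exact spor _ 4 (by norm_num) (by decide) (by decide) (by decide) p hp hodd h3
    · rw [h.2] at h3 ⊢; exact spor _ 6 (by norm_num) (by decide) (by decide) (by decide) p hp hodd h3
    · rw [h.2] at h3 ⊢; exact spor _ 7 (by norm_num) (by decide) (by decide) (by decide) p hp hodd h3
    · rw [h.2] at h3 ⊢; exact spor _ 7 (by norm_num) (by decide) (by decide) (by decide) p hp hodd h3
    · rw [h.2] at h3 ⊢; exact spor _ 10 (by norm_num) (by decide) (by decide) (by decide) p hp hodd h3
    · rw [h.2] at h3 ⊢; exact spor _ 3 (by norm_num) (by decide) (by decide) (by decide) p hp hodd h3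
    · rw [h.2] at h3 ⊢; exact spor _ 7 (by norm_num) (by decide) (by decide) (by decide) p hp hodd h3
    · rw [h.2] at h3 ⊢; exact spor _ 7 (by norm_num) (by decide) (by decide) (by decide) p hp hodd h3
    · rw [h.2] at h3 ⊢; exact spor _ 21 (by norm_num) (by decide) (by decide) (by decide) p hp hodd h3
    · rw [h.2] at h3 ⊢; exact spor _ 21 (by norm_num) (by decide) (by decide) (by decide) p hp hodd h3
    · rw [h.2] at h3 ⊢; exact spor _ 18 (by norm_num) (by decide) (by decide) (by decide) p hp hodd h3
    · rw [h.2] at h3 ⊢; exact spor _ 10 (by norm_num) (by decide) (by decide) (by decide) p hp hodd h3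
    · rw [h.2] at h3 ⊢; exact spor _ 17 (by norm_num) (by decide) (by decide) (by decide) p hp hodd h3
    · rw [h.2] at h3 ⊢; exact spor _ 18 (by norm_num) (by decide) (by decide) (by decide) p hp hodd h3
    · rw [h.2] at h3 ⊢; exact spor _ 21 (by norm_num) (by decide) (by decide) (by decide) p hp hodd h3
    · rw [h.2] at h3 ⊢; exact spor _ 9 (by norm_num) (by decide) (by decide) (by decide) p hp hodd h3
    · rw [h.2] at h3 ⊢; exact spor _ 7 (by norm_num) (by decide) (by decide) (by decide) p hp hodd h3
    · rw [h.2] at h3 ⊢; exact spor _ 10 (by norm_num) (by decide) (by decide) (by decide) p hp hodd h3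
    · rw [h.2] at h3 ⊢; exact spor _ 14 (by norm_num) (by decide) (by decide) (by decide) p hp hodd h3
    · rw [h.2] at h3 ⊢; exact spor _ 13 (by norm_num) (by decide) (by decide) (by decide) p hp hodd h3
    · rw [h.2] at h3 ⊢; exact spor _ 9 (by norm_num) (by decide) (by decide) (by decide) p hp hodd h3
    · rw [h.2] at h3 ⊢; exact spor _ 14 (by norm_num) (by decide) (by decide) (by decide) p hp hodd h3
    · rw [h.2] at h3 ⊢; exact spor _ 8 (by norm_num) (by decide) (by decide) (by decide) p hp hodd h3
    · rw [h.2] at h3 ⊢; exact spor _ 15 (by norm_num) (by decide) (by decide) (by decide) p hp hodd h3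
    · rw [h.2] at h3 ⊢; exact spor _ 41 (by norm_num) (by decide) (by decide) (by decide) p hp hodd h3
    · rw [h.2] at h3 ⊢; exact spor _ 46 (by norm_num) (by decide) (by decide) (by decide) p hp hodd h3

end Cfsg.Agent.S2367
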