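import Mathlib
import Cfsg.Statements.S2368
import Cfsg.Agent.H14.Unipotent

set_option autoImplicit false
open Cfsg

namespace Cfsg.Agent.S2368

open Cfsg.Agent.H14

/-- the shift matrix -/
def shiftM (F : Type*) [Field F] (m : ℕ) : Matrix (Fin m) (Fin m) F :=
  Matrix.of fun i j => if j.val = i.val + 1 then 1 else 0

theorem shiftM_pow (F : Type*) [Field F] (m k : ℕ) :
    (shiftM F m) ^ k = Matrix.of fun i j => if j.val = i.val + k then (1 : F) else 0 := by
  induction k with
  | zero =>
    ext i j
    simp [Matrix.one_apply, Fin.ext_iff, eq_comm]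
  | succ k ih =>
    rw [pow_succ, ih]
    ext i j
    simp only [Matrix.mul_apply, shiftM, Matrix.of_apply]
    by_cases h : j.val = i.val + (k + 1)
    · rw [if_pos h]
      have hlt : i.val + k < m := by have := j.2; omega
      rw [Finset.sum_eq_single (⟨i.val + k, hlt⟩ : Fin m)]
      · simp [h]; omega
      · intro b _ hb
        have : ¬ (b.val = i.val + k) := fun hh => hb (Fin.ext hh)
        simp [this]
      · simp
    · rw [if_neg h]
      apply Finset.sum_eq_zero
      intro b _
      by_cases h1 : b.val = i.val + k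
      · have : ¬ (j.val = b.val + 1) := by omega
        simp [this]
      · simp [h1]

theorem result {F : Type*} [Field F] [Fintype F] (p : ℕ) [Fact p.Prime] [CharP F p] (m : ℕ) (hm : 1 ≤ m) :
    (∀ g : Matrix.GeneralLinearGroup (Fin m) F, (∃ j : ℕ, orderOf g = p ^ j) → orderOf g < p * m) ∧
      ∃ g : Matrix.GeneralLinearGroup (Fin m) F, (∃ j : ℕ, orderOf g = p ^ j) ∧ m ≤ orderOf g := by
  have hp : p.Prime := Fact.out
  have hp1 : 1 < p := hp.one_lt
  -- key bound
  have hclog : p ^ Nat.clog p m < p * m := by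
    rcases Nat.lt_or_ge 1 m with h1 | h1
    · have := Nat.pow_pred_clog_lt_self hp1 h1
      have hpos : 0 < Nat.clog p m := Nat.clog_pos hp1 h1
      obtain ⟨c, hc⟩ : ∃ c, Nat.clog p m = c + 1 := ⟨Nat.clog p m - 1, by omega⟩
      rw [hc] at this ⊢
      simp only [Nat.pred_eq_sub_one, Nat.add_sub_cancel] at this
      rw [pow_succ, mul_comm]
      exact Nat.mul_lt_mul_of_pos_left this hp.pos
    · have : m = 1 := by omega
      subst this
      simp [hp1]
  have hle : m ≤ p ^ Nat.clog p m := Nat.le_pow_clog hp1 m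
  constructor
  · rintro g ⟨j, hj⟩
    have h1 : g ^ p ^ j = 1 := by rw [← hj]; exact pow_orderOf_eq_one g
    have h2 : (g : Matrix (Fin m) (Fin m) F) ^ p ^ j = 1 := by
      have := congrArg (fun x : Matrix.GeneralLinearGroup (Fin m) F => (x : Matrix (Fin m) (Fin m) F)) h1
      simpa using this
    have h3 := sub_one_pow_card_eq_zero p (g : Matrix (Fin m) (Fin m) F) j h2
    rw [Fintype.card_fin] at h3
    have h4 := pow_char_pow_eq_one_of_sub_one_pow p (g : Matrix (Fin m) (Fin m) F) (Nat.clog p m) m hle h3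
    have h5 : g ^ p ^ Nat.clog p m = 1 := by
      apply Units.ext
      simpa using h4
    have h6 : orderOf g ∣ p ^ Nat.clog p m := orderOf_dvd_of_pow_eq_one h5
    exact lt_of_le_of_lt (Nat.le_of_dvd (pow_pos hp.pos _) h6) hclog
  · -- the regular unipotent element
    set N := shiftM F m with hN
    have hNm : N ^ m = 0 := by
      rw [hN, shiftM_pow]
      ext i j
      have : ¬ (j.val = i.val + m) := by have := j.2; omega
      simp [this]
    have hNm1 : N ^ (m - 1) ≠ 0 := by
      rw [hN, shiftM_pow]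
      intro h
      have := congrFun (congrFun h ⟨0, by omega⟩) ⟨m - 1, by omega⟩
      simp at this
    have hunit : IsUnit (1 + N) := IsNilpotent.isUnit_one_add ⟨m, hNm⟩
    obtain ⟨g, hg⟩ := hunit
    have hgsub : (g : Matrix (Fin m) (Fin m) F) - 1 = N := by rw [hg]; simp
    have h4 := pow_char_pow_eq_one_of_sub_one_pow p (g : Matrix (Fin m) (Fin m) F) (Nat.clog p m) m hle
      (by rw [hgsub]; exact hNm)
    have h5 : g ^ p ^ Nat.clog p m = 1 := by
      apply Units.ext
      simpa using h4
    have h6 : orderOf g ∣ p ^ Nat.clog p m := orderOf_dvd_of_pow_eq_one h5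
    obtain ⟨j, -, hj⟩ := (Nat.dvd_prime_pow hp).mp h6
    refine ⟨g, ⟨j, hj⟩, ?_⟩
    by_contra hlt
    push_neg at hlt
    have h7 : g ^ p ^ j = 1 := by rw [← hj]; exact pow_orderOf_eq_one g
    have h8 : (g : Matrix (Fin m) (Fin m) F) ^ p ^ j = 1 := by
      have := congrArg (fun x : Matrix.GeneralLinearGroup (Fin m) F => (x : Matrix (Fin m) (Fin m) F)) h7
      simpa using this
    haveI : Nonempty (Fin m) := ⟨⟨0, by omega⟩⟩
    have hchar : CharP (Matrix (Fin m) (Fin m) F) p := inferInstance
    have h9 : ((g : Matrix (Fin m) (Fin m) F) - 1) ^ p ^ j = 0 := by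
      rw [sub_pow_char_pow_of_commute p _ (Commute.one_right _), h8]
      simp
    rw [hgsub] at h9
    exact hNm1 (pow_eq_zero_of_le (by omega) h9)

end Cfsg.Agent.S2368
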