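import Mathlib
import Cfsg.Statements.S2380
-- import your own Cfsg.Agent.* helpers here

set_option autoImplicit false
open scoped MatrixGroups
open Cfsg

namespace Cfsg.Agent.S2380

section aux
open Module Polynomial

theorem embed {F : Type*} [Field F] (L : Type*) [Field L] [Algebra F L] [Module.Finite F L]
    (a n : ℕ) (h : a * finrank F L ≤ n) :
    ∃ θ : (Fin a → Lˣ) →* GL (Fin n) F, Function.Injective θ := by
  classical
  obtain ⟨b, hb⟩ : ∃ b, n = a * finrank F L + b := ⟨n - a * finrank F L, by omega⟩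
  have hfin : finrank F ((Fin a → L) × (Fin b → F)) = n := by
    rw [Module.finrank_prod, Module.finrank_pi_fintype, Module.finrank_fin_fun, hb]
    simp
  let bV := Module.finBasisOfFinrankEq F ((Fin a → L) × (Fin b → F)) hfin
  let μ : (Fin a → L) →* End F ((Fin a → L) × (Fin b → F)) :=
    (LinearMap.prodMapRingHom F (Fin a → L) (Fin b → F)).toMonoidHom.comp
      (MonoidHom.prod (Algebra.lmul F (Fin a → L)).toMonoidHom 1)
  have hμ : Function.Injective μ := by
    intro x y hxy
    have h1 := congrArg (fun f : End F ((Fin a → L) × (Fin b → F)) => (f (1, 0)).1) hxy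
    simpa [μ] using h1
  refine ⟨(Units.mapEquiv (LinearMap.toMatrixAlgEquiv bV).toMulEquiv).toMonoidHom.comp
    ((Units.map μ).comp (MulEquiv.piUnits (M := fun _ : Fin a => L)).symm.toMonoidHom), ?_⟩
  intro x y hxy
  have h1 := (Units.mapEquiv (LinearMap.toMatrixAlgEquiv bV).toMulEquiv).injective hxy
  have h2 := Units.map_injective hμ h1
  exact (MulEquiv.piUnits (M := fun _ : Fin a => L)).symm.injective h2

theorem cyc (L : Type*) [Field L] [Fintype L] (m : ℕ) (hm0 : 0 < m) (hm : m ∣ Fintype.card L - 1) :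
    ∃ f : Multiplicative (ZMod m) →* Lˣ, Function.Injective f := by
  classical
  haveI : NeZero m := ⟨hm0.ne'⟩
  obtain ⟨ζ, hζ⟩ := IsCyclic.exists_generator (α := Lˣ)
  have hord : orderOf ζ = Fintype.card L - 1 := by
    rw [orderOf_eq_card_of_forall_mem_zpowers hζ, Nat.card_eq_fintype_card, Fintype.card_units]
  obtain ⟨c, hc⟩ := hm
  have hpos : 0 < Fintype.card L - 1 := by
    have := Fintype.one_lt_card (α := L)
    omega
  have hc0 : c ≠ 0 := by
    rintro rfl
    rw [mul_zero] at hc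
    omega
  have hord' : orderOf (ζ ^ c) = m := by
    rw [orderOf_pow_of_dvd hc0 (by rw [hord, hc]; exact dvd_mul_left c m), hord, hc]
    exact Nat.mul_div_cancel m (Nat.pos_of_ne_zero hc0)
  have hcard : Nat.card (Multiplicative (ZMod m)) = Nat.card (Subgroup.zpowers (ζ ^ c)) := by
    rw [Nat.card_zpowers, hord']
    show Nat.card (ZMod m) = m
    rw [Nat.card_eq_fintype_card, ZMod.card]
  let e := mulEquivOfCyclicCardEq hcard
  exact ⟨(Subgroup.zpowers (ζ ^ c)).subtype.comp e.toMonoidHom,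
    (Subgroup.subtype_injective _).comp e.injective⟩



theorem arith (q n r : ℕ) [hr : Fact r.Prime] (hq : 1 < q) (hrn : n < r) (hrq : ¬ r ∣ q) :
    (∏ i : Fin n, (q ^ n - q ^ (i : ℕ))).factorization r =
      padicValNat r ((cyclotomic (orderOf (q : ZMod r)) ℤ).eval (q : ℤ)).natAbs *
        (n / orderOf (q : ZMod r)) := by
  have hrp : r.Prime := hr.out
  obtain ⟨d, hd⟩ : ∃ d, d = orderOf (q : ZMod r) := ⟨_, rfl⟩
  rw [← hd]
  have hq0 : (q : ZMod r) ≠ 0 := by
    intro h
    rw [ZMod.natCast_eq_zero_iff] at h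
    exact hrq h
  have hdpos : 0 < d := by
    rw [hd, orderOf_pos_iff, isOfFinOrder_iff_pow_eq_one]
    exact ⟨r - 1, by have := hrp.two_le; omega, ZMod.pow_card_sub_one_eq_one hq0⟩
  have hpow1 : ∀ j, 1 ≤ q ^ j := fun j => Nat.one_le_pow _ _ (by omega)
  have key1 : ∀ j, r ∣ q ^ j - 1 ↔ d ∣ j := by
    intro j
    rw [hd, orderOf_dvd_iff_pow_eq_one, ← ZMod.natCast_eq_zero_iff, Nat.cast_sub (hpow1 j), Nat.cast_pow,
      Nat.cast_one, sub_eq_zero]
  obtain ⟨c₀, hc₀⟩ : ∃ c₀, c₀ = padicValNat r (q ^ d - 1) := ⟨_, rfl⟩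
  have key2 : ∀ k, 1 ≤ k → k < r → padicValNat r (q ^ (d * k) - 1) = c₀ := by
    intro k hk1 hkr
    rcases Nat.eq_or_lt_of_le hk1 with h1 | h1
    · rw [← h1, mul_one, hc₀]
    · have hodd : Odd r := hrp.odd_of_ne_two (by omega)
      have h2 := padicValNat.pow_sub_pow (p := r) hodd (x := q ^ d) (y := 1)
        (Nat.one_lt_pow hdpos.ne' hq) ((key1 d).2 dvd_rfl)
        (fun h => hrq (hrp.dvd_of_dvd_pow h)) (n := k) (by omega)
      rw [one_pow, ← pow_mul] at h2
      rw [h2, ← hc₀, padicValNat.eq_zero_of_not_dvd (Nat.not_dvd_of_pos_of_lt (by omega) hkr), add_zero]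
  have key3 : c₀ = padicValNat r ((cyclotomic d ℤ).eval (q : ℤ)).natAbs := by
    have h := congrArg (eval (q : ℤ)) (prod_cyclotomic_eq_X_pow_sub_one hdpos ℤ)
    rw [eval_prod, eval_sub, eval_pow, eval_X, eval_one, ← Nat.insert_self_properDivisors hdpos.ne',
      Finset.prod_insert Nat.self_notMem_properDivisors] at h
    obtain ⟨R, hR⟩ : ∃ R, R = ∏ e ∈ d.properDivisors, eval (q : ℤ) (cyclotomic e ℤ) := ⟨_, rfl⟩
    rw [← hR] at h
    have hrR : ¬ (r : ℤ) ∣ R := by
      intro hdvd
      rw [hR, (Nat.prime_iff_prime_int.1 hrp).dvd_finsetProd_iff] at hdvd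
      obtain ⟨e, he, hde⟩ := hdvd
      rw [Nat.mem_properDivisors] at he
      have h1 : eval (q : ℤ) (cyclotomic e ℤ) ∣ eval (q : ℤ) (X ^ e - 1) :=
        eval_dvd (cyclotomic.dvd_X_pow_sub_one e ℤ)
      rw [eval_sub, eval_pow, eval_X, eval_one] at h1
      have h2 : (r : ℤ) ∣ ((q ^ e - 1 : ℕ) : ℤ) := by
        rw [Nat.cast_sub (hpow1 e), Nat.cast_pow, Nat.cast_one]
        exact hde.trans h1
      rw [Int.natCast_dvd_natCast, key1] at h2
      have hepos : 0 < e := Nat.pos_of_dvd_of_pos he.1 hdpos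
      have := Nat.le_of_dvd hepos h2
      omega
    have h3 : q ^ d - 1 = (eval (q : ℤ) (cyclotomic d ℤ)).natAbs * R.natAbs := by
      rw [← Int.natAbs_mul, h]
      have : ((q : ℤ) ^ d - 1) = ((q ^ d - 1 : ℕ) : ℤ) := by
        rw [Nat.cast_sub (hpow1 d), Nat.cast_pow, Nat.cast_one]
      rw [this, Int.natAbs_natCast]
    have hne : q ^ d - 1 ≠ 0 := by
      have := Nat.one_lt_pow hdpos.ne' hq
      omega
    have hA : (eval (q : ℤ) (cyclotomic d ℤ)).natAbs ≠ 0 := fun h0 => hne (by rw [h3, h0, zero_mul])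
    have hB : R.natAbs ≠ 0 := fun h0 => hne (by rw [h3, h0, mul_zero])
    rw [hc₀, h3, padicValNat.mul hA hB, padicValNat.eq_zero_of_not_dvd (n := R.natAbs), add_zero]
    intro h4
    exact hrR (Int.natCast_dvd.2 h4)
  rw [← key3]
  have hterm : ∀ i : Fin n, (q ^ n - q ^ (i : ℕ)).factorization r = (q ^ (n - (i : ℕ)) - 1).factorization r := by
    intro i
    have hi := i.2
    have e1 : q ^ n - q ^ (i : ℕ) = q ^ (i : ℕ) * (q ^ (n - (i : ℕ)) - 1) := by
      rw [Nat.mul_sub, mul_one, ← pow_add]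
      congr 2
      omega
    have hne : q ^ (n - (i : ℕ)) - 1 ≠ 0 := by
      have := Nat.one_lt_pow (show n - (i : ℕ) ≠ 0 by omega) hq
      omega
    rw [e1, Nat.factorization_mul (pow_ne_zero _ (by omega)) hne, Finsupp.add_apply,
      Nat.factorization_eq_zero_of_not_dvd (fun h => hrq (hrp.dvd_of_dvd_pow h)), zero_add]
  rw [Nat.factorization_prod_apply (fun i _ => by
    have hi := i.2
    have := Nat.pow_lt_pow_right hq hi
    omega), Finset.sum_congr rfl (fun i _ => hterm i),
    Fin.sum_univ_eq_sum_range (fun i => (q ^ (n - i) - 1).factorization r) n]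
  have hrefl := Finset.sum_range_reflect (fun j => (q ^ (j + 1) - 1).factorization r) n
  have e2 : ∑ i ∈ Finset.range n, (q ^ (n - i) - 1).factorization r =
      ∑ j ∈ Finset.range n, (q ^ (n - 1 - j + 1) - 1).factorization r := by
    apply Finset.sum_congr rfl
    intro i hi
    rw [Finset.mem_range] at hi
    have e0 : n - i = n - 1 - i + 1 := by omega
    rw [e0]
  rw [e2, hrefl]
  have e3 : ∀ j ∈ Finset.range n, (q ^ (j + 1) - 1).factorization r = if d ∣ j + 1 then c₀ else 0 := by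
    intro j hj
    rw [Finset.mem_range] at hj
    split_ifs with h
    · obtain ⟨k, hk⟩ := h
      rw [hk, Nat.factorization_def _ hrp]
      apply key2
      · rcases Nat.eq_zero_or_pos k with h0 | h0
        · rw [h0, mul_zero] at hk
          omega
        · exact h0
      · have : k ≤ d * k := Nat.le_mul_of_pos_left k hdpos
        omega
    · exact Nat.factorization_eq_zero_of_not_dvd (fun h1 => h ((key1 _).1 h1))
  rw [Finset.sum_congr rfl e3, Finset.sum_ite, Finset.sum_const_zero, add_zero, Finset.sum_const,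
    smul_eq_mul, Nat.card_multiples, mul_comm]


end aux

/-- Sylow subgroups of `GL_n(q)` for large primes. Let `F` be a field with `q` elements and `r` a prime with `r > n` and `r ∤ q`. Let `d` be the multiplicative order of `q` modulo `r` and `m` the `r`-part of the value at `q` of the `d`-th cyclotomic polynomial. Then every Sylow `r`-subgroup of `GL_n(q)` is a direct product of `⌊n/d⌋` cyclic groups of order `m` (the degrees of the Weyl group being `1, …, n`). -/
theorem result {F : Type*} [Field F] [Fintype F] {q : ℕ} (hq : Fintype.card F = q) (n : ℕ)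
    (r : ℕ) [Fact r.Prime] (hrn : n < r) (hrq : ¬ r ∣ q) (P : Sylow r (GL (Fin n) F)) :
    Nonempty (↥(P : Subgroup (GL (Fin n) F)) ≃*
      (Fin (n / orderOf (q : ZMod r)) →
        Multiplicative (ZMod (r ^ padicValNat r ((Polynomial.cyclotomic (orderOf (q : ZMod r)) ℤ).eval (q : ℤ)).natAbs)))) := by
  classical
  have hrp : r.Prime := Fact.out
  obtain ⟨p, hp⟩ := CharP.exists F
  haveI : Fact p.Prime := ⟨CharP.char_is_prime F p⟩
  have hpp : p.Prime := Fact.out
  obtain ⟨f, -, hf⟩ := FiniteField.card F p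
  have hK : Fintype.card F = p ^ (f : ℕ) := hf
  have hq1 : 1 < q := by rw [← hq]; exact Fintype.one_lt_card
  have hpr : p ≠ r := by
    intro h
    apply hrq
    rw [← hq, hK, h]
    exact dvd_pow_self r f.ne_zero
  have hn : p.Coprime r := (Nat.coprime_primes hpp hrp).2 hpr
  obtain ⟨d, hd⟩ : ∃ d, d = orderOf (q : ZMod r) := ⟨_, rfl⟩
  obtain ⟨c, hc⟩ : ∃ c, c = padicValNat r ((Polynomial.cyclotomic d ℤ).eval (q : ℤ)).natAbs := ⟨_, rfl⟩
  have harith := arith q n r hq1 hrn hrq
  rw [← hd, ← hc] at harith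
  rw [← hd, ← hc]
  have hord : orderOf (ZMod.unitOfCoprime _ (hn.pow_left (f : ℕ))) = d := by
    rw [hd, ← orderOf_units, ZMod.coe_unitOfCoprime, ← hq, hK]
  obtain ⟨P₀, hirr, hdvd⟩ := WfDvdMonoid.exists_irreducible_factor (a := Polynomial.cyclotomic r F)
    (Polynomial.not_isUnit_of_natDegree_pos _ (by
      rw [Polynomial.natDegree_cyclotomic, Nat.totient_prime hrp]
      have := hrp.two_le
      omega)) (Polynomial.cyclotomic_ne_zero r F)
  have hdeg : P₀.natDegree = d := by
    rw [Polynomial.natDegree_of_dvd_cyclotomic_of_irreducible hK hn hdvd hirr, hord]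
  haveI : Fact (Irreducible P₀) := ⟨hirr⟩
  have hfinL : Module.Finite F (AdjoinRoot P₀) := (AdjoinRoot.powerBasis hirr.ne_zero).finite
  have hrank : Module.finrank F (AdjoinRoot P₀) = d := by
    rw [(AdjoinRoot.powerBasis hirr.ne_zero).finrank, AdjoinRoot.powerBasis_dim, hdeg]
  have hfL : Finite (AdjoinRoot P₀) := Module.finite_of_finite F
  have := Fintype.ofFinite (AdjoinRoot P₀)
  have hcardL : Fintype.card (AdjoinRoot P₀) = q ^ d := by
    rw [Module.card_eq_pow_finrank (K := F), hrank, hq]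
  have hm : r ^ c ∣ q ^ d - 1 := by
    have h1 : r ^ c ∣ ((Polynomial.cyclotomic d ℤ).eval (q : ℤ)).natAbs := by
      rw [hc]
      exact pow_padicValNat_dvd
    have h2 : Polynomial.eval (q : ℤ) (Polynomial.cyclotomic d ℤ) ∣
        Polynomial.eval (q : ℤ) (Polynomial.X ^ d - 1) :=
      Polynomial.eval_dvd (Polynomial.cyclotomic.dvd_X_pow_sub_one d ℤ)
    rw [Polynomial.eval_sub, Polynomial.eval_pow, Polynomial.eval_X, Polynomial.eval_one] at h2
    have h3 : ((q : ℤ) ^ d - 1) = ((q ^ d - 1 : ℕ) : ℤ) := by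
      rw [Nat.cast_sub (Nat.one_le_pow _ _ (by omega)), Nat.cast_pow, Nat.cast_one]
    rw [h3] at h2
    have h4 := Int.natAbs_dvd_natAbs.2 h2
    rw [Int.natAbs_natCast] at h4
    exact h1.trans h4
  obtain ⟨θ, hθ⟩ := embed (F := F) (AdjoinRoot P₀) (n / d) n (by rw [hrank]; exact Nat.div_mul_le_self n d)
  obtain ⟨f₀, hf₀⟩ := cyc (AdjoinRoot P₀) (r ^ c) (pow_pos hrp.pos c) (by rw [hcardL]; exact hm)
  have hι : Function.Injective (θ.comp (f₀.compLeft (Fin (n / d)))) :=
    hθ.comp (fun x y h => funext fun i => hf₀ (congrFun h i))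
  have hcardQ : Nat.card (θ.comp (f₀.compLeft (Fin (n / d)))).range =
      r ^ (Nat.card (GL (Fin n) F)).factorization r := by
    haveI : NeZero (r ^ c) := ⟨(pow_pos hrp.pos c).ne'⟩
    rw [← Nat.card_congr (MonoidHom.ofInjective hι).toEquiv, Matrix.card_GL_field, hq, harith,
      Nat.card_fun, Nat.card_eq_fintype_card (α := Fin (n / d)), Fintype.card_fin, pow_mul]
    congr 1
    show Nat.card (ZMod (r ^ c)) = r ^ c
    rw [Nat.card_eq_fintype_card, ZMod.card]
  exact ⟨(Sylow.equiv P (Sylow.ofCard _ hcardQ)).trans (MonoidHom.ofInjective hι).symm⟩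

end Cfsg.Agent.S2380
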