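import Mathlib
import Cfsg.Statements.S2384
import Cfsg.Agent.Lib.Helper19.SemisimpleClasses
-- import your own Cfsg.Agent.* helpers here

set_option autoImplicit false
open Cfsg

namespace Cfsg.Agent.S2384

/-- In `SL_n(q)`, `q` a power of the prime `p`, the number of conjugacy classes of elements of order prime to `p` (the semisimple classes) is `q^(n-1)`. -/
theorem result {F : Type*} [Field F] [Fintype F] {q : ℕ} (hq : Fintype.card F = q) (p : ℕ) [Fact p.Prime] [CharP F p] (n : ℕ) (hn : 1 ≤ n) :
    Nat.card {c : ConjClasses (Matrix.SpecialLinearGroup (Fin n) F) //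
      ∃ g : Matrix.SpecialLinearGroup (Fin n) F, ConjClasses.mk g = c ∧ (orderOf g).Coprime p} = q ^ (n - 1) := by
  classical
  have hp : p.Prime := Fact.out
  let i₀ : Fin n := ⟨0, hn⟩
  have hrep : ∀ c : {c : ConjClasses (Matrix.SpecialLinearGroup (Fin n) F) //
      ∃ g : Matrix.SpecialLinearGroup (Fin n) F, ConjClasses.mk g = c ∧
      (orderOf g).Coprime p}, ConjClasses.mk (Classical.choose c.2) = c.1 ∧
      (orderOf (Classical.choose c.2)).Coprime p := fun c => Classical.choose_spec c.2
  have hsq : ((-1 : F) ^ n) * ((-1) ^ n) = 1 := by rw [← mul_pow]; simp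
  have hc0 : ∀ g : Matrix.SpecialLinearGroup (Fin n) F,
      (g : Matrix (Fin n) (Fin n) F).charpoly.coeff 0 = (-1) ^ n := by
    intro g
    have h1 := Matrix.det_eq_sign_charpoly_coeff (g : Matrix (Fin n) (Fin n) F)
    rw [g.2, Fintype.card_fin] at h1
    calc (g : Matrix (Fin n) (Fin n) F).charpoly.coeff 0
        = ((-1) ^ n * (-1) ^ n) * (g : Matrix (Fin n) (Fin n) F).charpoly.coeff 0 := by
          rw [hsq, one_mul]
      _ = (-1) ^ n * ((-1) ^ n * (g : Matrix (Fin n) (Fin n) F).charpoly.coeff 0) := by ring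
      _ = (-1) ^ n := by rw [← h1, mul_one]
  let Φ : {c : ConjClasses (Matrix.SpecialLinearGroup (Fin n) F) //
      ∃ g : Matrix.SpecialLinearGroup (Fin n) F, ConjClasses.mk g = c ∧
      (orderOf g).Coprime p} → {f : Fin n → F // f i₀ ∈ ({(-1) ^ n} : Finset F)} := fun c =>
    ⟨fun i => ((Classical.choose c.2 : Matrix.SpecialLinearGroup (Fin n) F) :
        Matrix (Fin n) (Fin n) F).charpoly.coeff i,
      Finset.mem_singleton.2 (hc0 _)⟩
  have hΦ : Function.Bijective Φ := by
    constructor
    · intro c d hcd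
      have h1 : ∀ i : Fin n,
          ((Classical.choose c.2 : Matrix.SpecialLinearGroup (Fin n) F) :
            Matrix (Fin n) (Fin n) F).charpoly.coeff i =
          ((Classical.choose d.2 : Matrix.SpecialLinearGroup (Fin n) F) :
            Matrix (Fin n) (Fin n) F).charpoly.coeff i :=
        fun i => congrFun (congrArg Subtype.val hcd) i
      have h2 := Cfsg.Agent.Lib.Helper19.monic_ext (Matrix.charpoly_monic _) (Matrix.charpoly_monic _)
        ((Matrix.charpoly_natDegree_eq_dim _).trans (Fintype.card_fin n))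
        ((Matrix.charpoly_natDegree_eq_dim _).trans (Fintype.card_fin n)) h1
      have h3 := Cfsg.Agent.S2388.result p n _ _ (hrep c).2 (hrep d).2 h2
      apply Subtype.ext
      rw [← (hrep c).1, ← (hrep d).1]
      exact ConjClasses.mk_eq_mk_iff_isConj.2 h3
    · intro f
      have hf0 : (Cfsg.Agent.Lib.Helper19.polyOf f.1).coeff 0 = (-1) ^ n := by
        have h1 := Cfsg.Agent.Lib.Helper19.polyOf_coeff f.1 i₀
        have h2 : (Cfsg.Agent.Lib.Helper19.polyOf f.1).coeff 0 = f.1 i₀ := h1
        rw [h2]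
        exact Finset.mem_singleton.1 f.2
      obtain ⟨g, hg, hgc⟩ := Cfsg.Agent.Lib.Helper19.exists_gl_coprime_charpoly p
        (Cfsg.Agent.Lib.Helper19.polyOf f.1) (Cfsg.Agent.Lib.Helper19.polyOf_monic f.1)
        (Cfsg.Agent.Lib.Helper19.polyOf_natDegree f.1) (by
          rw [hf0]
          exact pow_ne_zero _ (by simp))
      have hdet : (g : Matrix (Fin n) (Fin n) F).det = 1 := by
        rw [Matrix.det_eq_sign_charpoly_coeff, hgc, hf0, Fintype.card_fin, hsq]
      obtain ⟨s, hsg⟩ : ∃ s : Matrix.SpecialLinearGroup (Fin n) F,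
          (s : Matrix (Fin n) (Fin n) F) = (g : Matrix (Fin n) (Fin n) F) := ⟨⟨_, hdet⟩, rfl⟩
      have hs : Matrix.SpecialLinearGroup.toGL s = g := Units.ext hsg
      have hso : (orderOf s).Coprime p := by
        rw [← orderOf_injective Matrix.SpecialLinearGroup.toGL
          Matrix.SpecialLinearGroup.toGL_injective, hs]
        exact hg
      refine ⟨⟨ConjClasses.mk s, _, rfl, hso⟩, ?_⟩
      apply Subtype.ext
      funext i
      have h1 := hrep ⟨ConjClasses.mk s, _, rfl, hso⟩
      have h2 := Cfsg.Agent.Lib.Helper19.gl_charpoly_of_isConj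
        (Matrix.SpecialLinearGroup.toGL.map_isConj (ConjClasses.mk_eq_mk_iff_isConj.1 h1.1))
      rw [hs] at h2
      show (Matrix.charpoly _).coeff i = f.1 i
      have h3 : (Matrix.charpoly _).coeff i = (g : Matrix (Fin n) (Fin n) F).charpoly.coeff i :=
        congrArg (fun P : Polynomial F => P.coeff i) h2
      refine h3.trans ?_
      rw [hgc, Cfsg.Agent.Lib.Helper19.polyOf_coeff]
  rw [Nat.card_congr (Equiv.ofBijective Φ hΦ), Cfsg.Agent.Lib.Helper19.card_fun_mem,
    Finset.card_singleton, one_mul, hq]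

end Cfsg.Agent.S2384
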