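import Mathlib
import Cfsg.Statements.S2387
import Cfsg.Agent.Lib.Helper19.SemisimpleClasses
-- import your own Cfsg.Agent.* helpers here

set_option autoImplicit false
open scoped MatrixGroups
open Cfsg

namespace Cfsg.Agent.S2387

/-- In `GL_n(q)` with `n ≥ 1`, `q` a power of the prime `p`, the number of conjugacy classes of elements of order prime to `p` (diagonalisable over the algebraic closure; determined by the characteristic polynomial) is `(q - 1) q^(n-1)`. -/
theorem result {F : Type*} [Field F] [Fintype F] {q : ℕ} (hq : Fintype.card F = q) (p : ℕ) [Fact p.Prime] [CharP F p] (n : ℕ) (hn : 1 ≤ n) :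
    Nat.card {c : ConjClasses (GL (Fin n) F) // ∃ g : GL (Fin n) F, ConjClasses.mk g = c ∧ (orderOf g).Coprime p} = (q - 1) * q ^ (n - 1) := by
  classical
  have hp : p.Prime := Fact.out
  let i₀ : Fin n := ⟨0, hn⟩
  have hrep : ∀ c : {c : ConjClasses (GL (Fin n) F) // ∃ g : GL (Fin n) F, ConjClasses.mk g = c ∧
      (orderOf g).Coprime p}, ConjClasses.mk (Classical.choose c.2) = c.1 ∧
      (orderOf (Classical.choose c.2)).Coprime p := fun c => Classical.choose_spec c.2
  have hne : ∀ g : GL (Fin n) F, (g : Matrix (Fin n) (Fin n) F).charpoly.coeff 0 ≠ 0 := by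
    intro g h0
    have h1 := Matrix.det_eq_sign_charpoly_coeff (g : Matrix (Fin n) (Fin n) F)
    rw [h0, mul_zero] at h1
    have h2 : IsUnit (g : Matrix (Fin n) (Fin n) F).det :=
      (Matrix.isUnit_iff_isUnit_det _).1 g.isUnit
    rw [h1] at h2
    exact not_isUnit_zero h2
  let Φ : {c : ConjClasses (GL (Fin n) F) // ∃ g : GL (Fin n) F, ConjClasses.mk g = c ∧
      (orderOf g).Coprime p} → {f : Fin n → F // f i₀ ∈ (Finset.univ.erase (0 : F))} := fun c =>
    ⟨fun i => ((Classical.choose c.2 : GL (Fin n) F) : Matrix (Fin n) (Fin n) F).charpoly.coeff i,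
      Finset.mem_erase.2 ⟨hne _, Finset.mem_univ _⟩⟩
  have hΦ : Function.Bijective Φ := by
    constructor
    · intro c d hcd
      have h1 : ∀ i : Fin n,
          ((Classical.choose c.2 : GL (Fin n) F) : Matrix (Fin n) (Fin n) F).charpoly.coeff i =
          ((Classical.choose d.2 : GL (Fin n) F) : Matrix (Fin n) (Fin n) F).charpoly.coeff i :=
        fun i => congrFun (congrArg Subtype.val hcd) i
      have h2 := Cfsg.Agent.Lib.Helper19.monic_ext (Matrix.charpoly_monic _) (Matrix.charpoly_monic _)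
        ((Matrix.charpoly_natDegree_eq_dim _).trans (Fintype.card_fin n))
        ((Matrix.charpoly_natDegree_eq_dim _).trans (Fintype.card_fin n)) h1
      have h3 := Cfsg.Agent.Lib.Helper19.gl_conj_of_charpoly p _ _ (hrep c).2 (hrep d).2 h2
      apply Subtype.ext
      rw [← (hrep c).1, ← (hrep d).1]
      exact ConjClasses.mk_eq_mk_iff_isConj.2 h3
    · intro f
      obtain ⟨g, hg, hgc⟩ := Cfsg.Agent.Lib.Helper19.exists_gl_coprime_charpoly p
        (Cfsg.Agent.Lib.Helper19.polyOf f.1) (Cfsg.Agent.Lib.Helper19.polyOf_monic f.1)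
        (Cfsg.Agent.Lib.Helper19.polyOf_natDegree f.1) (by
          have h1 := Cfsg.Agent.Lib.Helper19.polyOf_coeff f.1 i₀
          have h2 : (Cfsg.Agent.Lib.Helper19.polyOf f.1).coeff 0 = f.1 i₀ := h1
          rw [h2]
          exact (Finset.mem_erase.1 f.2).1)
      refine ⟨⟨ConjClasses.mk g, g, rfl, hg⟩, ?_⟩
      apply Subtype.ext
      funext i
      have h1 := hrep ⟨ConjClasses.mk g, g, rfl, hg⟩
      have h2 := Cfsg.Agent.Lib.Helper19.gl_charpoly_of_isConj (ConjClasses.mk_eq_mk_iff_isConj.1 h1.1)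
      show (Matrix.charpoly _).coeff i = f.1 i
      rw [h2, hgc, Cfsg.Agent.Lib.Helper19.polyOf_coeff]
  rw [Nat.card_congr (Equiv.ofBijective Φ hΦ), Cfsg.Agent.Lib.Helper19.card_fun_mem,
    Finset.card_erase_of_mem (Finset.mem_univ _), Finset.card_univ, hq]

end Cfsg.Agent.S2387
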