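import Cfsg.Statements.S2391
import Cfsg.Agent.Lib.Helper10.FlagU
-- import your own Cfsg.Agent.* helpers here

set_option autoImplicit false
open Cfsg
open Cfsg.Agent.Lib.Helper10.FlagU

namespace Cfsg.Agent.S2391

/-- The Borel–Tits property of `SL_n(q)` in flag form: for a field `F` of characteristic `p` with finitely many elements and a non-trivial `p`-subgroup `U` of `SL_n(F)`, there is a flag `0 = V₀ < V₁ < ⋯ < V_{k+1} = F^n` with at least one proper non-zero member such that every element of the normaliser of `U` maps each `V_i` onto itself and every element of `U` acts trivially on each quotient `V_{i+1}/V_i` (so the normaliser lies in the parabolic subgroup of the flag and `U` in its unipotent radical). -/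
theorem result {F : Type*} [Field F] [Fintype F] (p : ℕ) [Fact p.Prime] [CharP F p] (n : ℕ)
    (U : Subgroup (Matrix.SpecialLinearGroup (Fin n) F)) (hU : IsPGroup p ↥U) (hne : U ≠ ⊥) :
    ∃ (k : ℕ) (V : Fin (k + 2) → Submodule F (Fin n → F)), 1 ≤ k ∧ StrictMono V ∧ V 0 = ⊥ ∧ V (Fin.last (k + 1)) = ⊤ ∧
      (∀ g ∈ Subgroup.normalizer (U : Set (Matrix.SpecialLinearGroup (Fin n) F)), ∀ i, (V i).map (Matrix.mulVecLin (g : Matrix (Fin n) (Fin n) F)) = V i) ∧
      (∀ u ∈ U, ∀ i : Fin (k + 1), ∀ v ∈ V i.succ, (u : Matrix (Fin n) (Fin n) F).mulVec v - v ∈ V (Fin.castSucc i)) := by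
  classical
  set W : ℕ → Submodule F (Fin n → F) := fun i => (next U)^[i] ⊥ with hWdef
  have hW0 : W 0 = ⊥ := rfl
  have hWs : ∀ i, W (i + 1) = next U (W i) := fun i => Function.iterate_succ_apply' _ _ _
  have hinv : ∀ i, Inv U (W i) := by
    intro i
    induction i with
    | zero =>
      intro g _ v hv
      rw [hW0, Submodule.mem_bot] at hv ⊢
      rw [hv, Matrix.mulVec_zero]
    | succ i ih => rw [hWs]; exact inv_next ih
  have htopstep : ∀ i, W i = ⊤ → W (i + 1) = ⊤ := by
    intro i h
    have h1 := le_next (hinv i)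
    rw [← hWs, h] at h1
    exact top_le_iff.1 h1
  have hrank : ∀ i, W i = ⊤ ∨ i ≤ Module.finrank F (W i) := by
    intro i
    induction i with
    | zero => right; exact Nat.zero_le _
    | succ i ih =>
      by_cases htop : W i = ⊤
      · left; exact htopstep i htop
      · right
        have h1 := ih.resolve_left htop
        have h2 := Submodule.finrank_lt_finrank_of_lt (lt_next p hU (hinv i) htop)
        rw [hWs]; omega
  have hex : ∃ N, W N = ⊤ := by
    refine ⟨n + 1, (hrank (n + 1)).resolve_right ?_⟩
    intro h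
    have h1 : Module.finrank F (W (n + 1)) ≤ Module.finrank F (Fin n → F) := Submodule.finrank_le _
    rw [Module.finrank_fin_fun] at h1
    omega
  have hN : W (Nat.find hex) = ⊤ := Nat.find_spec hex
  have hmin : ∀ i < Nat.find hex, W i ≠ ⊤ := fun i hi => Nat.find_min hex hi
  have hW1 : W 1 ≠ ⊤ := by
    intro h
    apply hne
    rw [eq_bot_iff]
    intro u hu
    rw [Subgroup.mem_bot]
    apply Subtype.ext
    apply Matrix.mulVec_injective
    funext v
    have hv : v ∈ W 1 := by rw [h]; trivial
    rw [hWs, hW0, mem_next] at hv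
    have := hv u hu
    rw [Submodule.mem_bot, sub_eq_zero] at this
    rw [this]
    simp
  have hN2 : 2 ≤ Nat.find hex := by
    by_contra hlt
    have h01 : Nat.find hex = 0 ∨ Nat.find hex = 1 := by omega
    rcases h01 with h | h
    · apply hW1
      apply htopstep 0
      rw [← h]; exact hN
    · apply hW1
      rw [← h]; exact hN
  refine ⟨Nat.find hex - 1, fun i => W i.val, by omega, ?_, rfl, ?_, ?_, ?_⟩
  · rw [Fin.strictMono_iff_lt_succ]
    intro i
    show W i.val < W (i.val + 1)
    rw [hWs]
    exact lt_next p hU (hinv _) (hmin _ (by have := i.2; omega))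
  · show W (Nat.find hex - 1 + 1) = ⊤
    rw [show Nat.find hex - 1 + 1 = Nat.find hex by omega]
    exact hN
  · intro g hg i
    exact map_eq_of_inv (hinv _) hg
  · intro u hu i v hv
    have hv' : v ∈ W (i.val + 1) := hv
    rw [hWs, mem_next] at hv'
    exact hv' u hu

end Cfsg.Agent.S2391
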