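import Mathlib
import Cfsg.Statements.S2395

set_option autoImplicit false
open Cfsg

namespace Cfsg.Agent.S2395

open Cfsg.Lie Cfsg.Lie.ChevalleyDatum

variable (D : ChevalleyDatum) (K : Type*) [Field K]

theorem scGen_add (r : ℕ) (hr : r < D.nroots) (t₁ t₂ : K) :
    D.scGen K r t₁ * D.scGen K r t₂ = D.scGen K r (t₁ + t₂) := by
  have h : PresentedGroup.mk (D.steinbergRelsAB K) (D.stX r t₁ * D.stX r t₂ * (D.stX r (t₁ + t₂))⁻¹) = 1 := by
    apply (PresentedGroup.mk_eq_one_iff).mpr
    apply Subgroup.subset_normalClosure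
    left
    exact ⟨r, t₁, t₂, hr, rfl⟩
  rw [map_mul, map_mul, map_inv, mul_inv_eq_one] at h
  exact h

theorem scGen_zero (r : ℕ) (hr : r < D.nroots) : D.scGen K r 0 = 1 := by
  have := scGen_add D K r hr 0 0
  rw [add_zero] at this
  exact mul_eq_left.mp this

theorem scGen_neg (r : ℕ) (hr : r < D.nroots) (t : K) : (D.scGen K r t)⁻¹ = D.scGen K r (-t) := by
  rw [inv_eq_iff_mul_eq_one, scGen_add D K r hr, add_neg_cancel, scGen_zero D K r hr]

theorem mk_stWord (w : List (ℕ × K)) :
    PresentedGroup.mk (D.steinbergRelsAB K) (D.stWord w) = (w.map fun p => D.scGen K p.1 p.2).prod := by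
  simp only [stWord, map_list_prod, List.map_map]
  rfl

theorem word_mem (r s : ℕ) (hr : r < D.nroots) (hs : s < D.nroots) (h1 : s ≠ r) (h2 : s ≠ D.neg r) (t u : K) :
    ((D.commWord K r s t u).map fun p => D.scGen K p.1 p.2).prod ∈ commutator (D.SteinbergCover K) := by
  have h : PresentedGroup.mk (D.steinbergRelsAB K) ((D.stX s u)⁻¹ * (D.stX r t)⁻¹ * D.stX s u * D.stX r t * (D.stWord (D.commWord K r s t u))⁻¹) = 1 := by
    apply (PresentedGroup.mk_eq_one_iff).mpr
    apply Subgroup.subset_normalClosure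
    right
    exact ⟨r, s, t, u, hr, hs, h1, h2, rfl⟩
  rw [map_mul, map_inv, mul_inv_eq_one, mk_stWord] at h
  rw [← h, commutator_def]
  have := Subgroup.commutator_mem_commutator (Subgroup.mem_top ((D.scGen K s u)⁻¹)) (Subgroup.mem_top ((D.scGen K r t)⁻¹))
  rw [commutatorElement_def] at this
  simpa [scGen] using this

/-- all `x̄_k(t)` lie in the commutator subgroup -/
def Good (k : ℕ) : Prop := ∀ t : K, D.scGen K k t ∈ commutator (D.SteinbergCover K)

theorem good_of_single (k r s : ℕ) (c : ℤ) (hr : r < D.nroots) (hs : s < D.nroots) (h1 : s ≠ r) (h2 : s ≠ D.neg r)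
    (hc : c = 1 ∨ c = -1) (h : D.commTerms r s = [(k, c, 1, 1)]) : Good D K k := by
  intro t
  have := word_mem D K r s hr hs h1 h2 (-(c : K) * t) 1
  simp only [commWord, h, List.map_cons, List.map_nil, List.prod_cons, List.prod_nil, mul_one, pow_one, neg_mul, neg_neg] at this
  have hcc : (c : K) * ((c : K) * t) = t := by
    rcases hc with rfl | rfl <;> simp
  rwa [hcc] at this

theorem good_of_pair_aux (k1 k2 : ℕ) (c1 c2 : ℤ) (hk2 : k2 < D.nroots)
    (hc1 : c1 = 1 ∨ c1 = -1) (hc2 : c2 = 1 ∨ c2 = -1) (hK : ∃ x : K, x ≠ 0 ∧ x ≠ 1)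
    (h : ∀ t u : K, D.scGen K k1 ((c1 : K) * (-t) * u) * D.scGen K k2 ((c2 : K) * (-t) ^ 2 * u) ∈ commutator (D.SteinbergCover K)) :
    Good D K k1 ∧ Good D K k2 := by
  obtain ⟨x, hx0, hx1⟩ := hK
  have hc2' : (c2 : K) ≠ 0 := by rcases hc2 with rfl | rfl <;> simp
  have hg2 : Good D K k2 := by
    intro v
    -- choose t = 1, u = v / (c2 (x - 1))
    set u : K := v / ((c2 : K) * (x - 1)) with hu
    have hx1' : x - 1 ≠ 0 := sub_ne_zero.mpr hx1
    have a := h 1 u
    have b := h x (x⁻¹ * u)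
    have e1 : (c1 : K) * (-x) * (x⁻¹ * u) = (c1 : K) * (-1) * u := by field_simp
    rw [e1] at b
    have := (commutator (D.SteinbergCover K)).mul_mem ((commutator (D.SteinbergCover K)).inv_mem a) b
    have e2 : (D.scGen K k1 ((c1 : K) * (-1) * u) * D.scGen K k2 ((c2 : K) * (-1) ^ 2 * u))⁻¹ *
        (D.scGen K k1 ((c1 : K) * (-1) * u) * D.scGen K k2 ((c2 : K) * (-x) ^ 2 * (x⁻¹ * u))) =
        D.scGen K k2 v := by
      rw [mul_inv_rev, mul_assoc, inv_mul_cancel_left, scGen_neg D K k2 hk2, scGen_add D K k2 hk2]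
      congr 1
      rw [hu]
      field_simp
      ring
    rwa [e2] at this
  refine ⟨?_, hg2⟩
  intro v
  have a := h (-(c1 : K) * v) 1
  have hcc : (c1 : K) * -(-(c1 : K) * v) * 1 = v := by
    rcases hc1 with rfl | rfl <;> simp
  rw [hcc] at a
  exact (Subgroup.mul_mem_cancel_right _ (hg2 _)).mp a

theorem good_of_pair (k1 k2 r s : ℕ) (c1 c2 : ℤ) (hr : r < D.nroots) (hs : s < D.nroots) (h1 : s ≠ r) (h2 : s ≠ D.neg r)
    (hk2 : k2 < D.nroots)
    (hc1 : c1 = 1 ∨ c1 = -1) (hc2 : c2 = 1 ∨ c2 = -1) (hK : ∃ x : K, x ≠ 0 ∧ x ≠ 1)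
    (h : D.commTerms r s = [(k1, c1, 1, 1), (k2, c2, 2, 1)]) : Good D K k1 ∧ Good D K k2 := by
  apply good_of_pair_aux D K k1 k2 c1 c2 hk2 hc1 hc2 hK
  intro t u
  have := word_mem D K r s hr hs h1 h2 t u
  simpa only [commWord, h, List.map_cons, List.map_nil, List.prod_cons, List.prod_nil, mul_one, pow_one] using this

theorem good_of_quad (k1 k2 k3 k4 r s : ℕ) (c1 c2 c3 c4 : ℤ) (hr : r < D.nroots) (hs : s < D.nroots) (h1 : s ≠ r) (h2 : s ≠ D.neg r)
    (hk2 : k2 < D.nroots)
    (hc1 : c1 = 1 ∨ c1 = -1) (hc2 : c2 = 1 ∨ c2 = -1) (hK : ∃ x : K, x ≠ 0 ∧ x ≠ 1)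
    (h3 : Good D K k3) (h4 : Good D K k4)
    (h : D.commTerms r s = [(k1, c1, 1, 1), (k2, c2, 2, 1), (k3, c3, 3, 1), (k4, c4, 3, 2)]) : Good D K k1 ∧ Good D K k2 := by
  apply good_of_pair_aux D K k1 k2 c1 c2 hk2 hc1 hc2 hK
  intro t u
  have := word_mem D K r s hr hs h1 h2 t u
  simp only [commWord, h, List.map_cons, List.map_nil, List.prod_cons, List.prod_nil, mul_one, pow_one] at this
  rw [← mul_assoc, ← mul_assoc] at this
  have := (Subgroup.mul_mem_cancel_right _ (h4 _)).mp this
  exact (Subgroup.mul_mem_cancel_right _ (h3 _)).mp this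

theorem perfect_of_good (h : ∀ k, k < D.nroots → Good D K k) : commutator (D.SteinbergCover K) = ⊤ := by
  rw [eq_top_iff, ← PresentedGroup.closure_range_of, Subgroup.closure_le]
  rintro _ ⟨⟨⟨r, hr⟩, t⟩, rfl⟩
  have := h r hr t
  simp only [scGen, stX, hr, dif_pos] at this
  exact this

/-- boolean check of a witness for `good_of_single` -/
def chk (k : ℕ) (rs : ℕ × ℕ) : Bool :=
  decide (rs.1 < D.nroots) && decide (rs.2 < D.nroots) && decide (rs.2 ≠ rs.1) && decide (rs.2 ≠ D.neg rs.1) &&
    (decide (D.commTerms rs.1 rs.2 = [(k, 1, 1, 1)]) || decide (D.commTerms rs.1 rs.2 = [(k, -1, 1, 1)]))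

theorem good_of_chk (k : ℕ) (rs : ℕ × ℕ) (h : chk D k rs = true) : Good D K k := by
  simp only [chk, Bool.and_eq_true, Bool.or_eq_true, decide_eq_true_eq] at h
  obtain ⟨⟨⟨⟨a, b⟩, c⟩, d⟩, e⟩ := h
  rcases e with e | e
  · exact good_of_single D K k rs.1 rs.2 1 a b c d (Or.inl rfl) e
  · exact good_of_single D K k rs.1 rs.2 (-1) a b c d (Or.inr rfl) e

theorem perfect_of_table (w : Array (ℕ × ℕ))
    (h : (List.range D.nroots).all (fun k => chk D k (w.getD k (0, 0))) = true) :
    commutator (D.SteinbergCover K) = ⊤ := by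
  apply perfect_of_good
  intro k hk
  rw [List.all_eq_true] at h
  exact good_of_chk D K k _ (h k (List.mem_range.mpr hk))

def witD4 : Array (ℕ × ℕ) := #[(1, 9), (0, 14), (0, 15), (0, 16), (0, 17), (1, 17), (0, 19), (0, 20), (0, 21), (0, 22), (1, 20), (1, 21), (2, 22), (3, 22), (1, 23), (2, 23), (3, 23), (4, 23), (6, 22), (6, 23), (7, 23), (8, 23), (9, 23), (14, 22)]

def witF4 : Array (ℕ × ℕ) := #[(1, 23), (0, 24), (0, 26), (7, 14), (0, 31), (0, 32), (1, 32), (3, 33), (3, 34), (3, 35), (3, 36), (3, 37), (3, 38), (3, 39), (3, 40), (0, 42), (0, 43), (1, 43), (7, 37), (7, 38), (7, 39), (0, 45), (1, 45), (0, 46), (1, 47), (2, 46), (2, 47), (8, 40), (9, 40), (10, 40), (4, 46), (4, 47), (5, 47), (7, 44), (8, 44), (9, 44), (10, 44), (11, 44), (12, 44), (13, 44), (14, 44), (15, 46), (15, 47), (16, 47), (33, 40), (21, 47), (23, 47), (24, 46)]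

def witE6 : Array (ℕ × ℕ) := #[(1, 25), (0, 46), (0, 47), (0, 48), (0, 49), (0, 50), (0, 51), (0, 52), (0, 53), (0, 54), (0, 55), (1, 53), (1, 54), (1, 55), (2, 55), (5, 55), (0, 61), (0, 62), (0, 63), (0, 64), (0, 65), (0, 66), (0, 67), (0, 68), (0, 69), (0, 70), (1, 64), (1, 65), (1, 66), (2, 66), (1, 67), (1, 68), (1, 69), (2, 67), (2, 68), (3, 67), (4, 68), (3, 69), (4, 69), (2, 70), (3, 70), (4, 70), (5, 69), (5, 70), (6, 70), (7, 70), (1, 71), (2, 71), (3, 71), (4, 71), (5, 71), (6, 71), (7, 71), (8, 71), (9, 71), (10, 71), (16, 66), (16, 69), (16, 70), (17, 70), (18, 70), (16, 71), (17, 71), (18, 71), (19, 71), (20, 71), (21, 71), (22, 71), (23, 71), (24, 71), (25, 71), (46, 70)]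

def witE7 : Array (ℕ × ℕ) := #[(1, 32), (0, 93), (0, 94), (0, 95), (0, 96), (0, 97), (0, 98), (0, 99), (0, 100), (0, 101), (0, 102), (0, 103), (0, 104), (0, 105), (0, 106), (0, 107), (0, 108), (0, 109), (0, 110), (0, 111), (0, 112), (0, 113), (0, 114), (0, 115), (0, 116), (0, 117), (0, 118), (0, 119), (0, 120), (0, 121), (0, 122), (0, 123), (0, 124), (1, 109), (1, 110), (1, 111), (1, 112), (1, 113), (1, 114), (1, 115), (1, 116), (1, 117), (1, 118), (2, 115), (2, 116), (2, 117), (2, 118), (3, 118), (1, 119), (1, 120), (1, 121), (1, 122), (1, 123), (2, 119), (2, 120), (2, 121), (2, 122), (3, 119), (3, 120), (3, 121), (4, 119), (4, 120), (5, 119), (6, 120), (5, 121), (6, 121), (4, 122), (5, 122), (6, 122), (3, 123), (4, 123), (5, 123), (6, 123), (2, 124), (3, 124), (4, 124), (5, 124), (6, 124), (7, 122), (7, 123), (8, 123), (9, 123), (10, 123), (7, 124), (8, 124), (9, 124), (10, 124), (11, 124), (12, 124), (13, 124), (14, 124), (15, 124), (16, 124), (1, 125), (2, 125), (3, 125), (4,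 125), (5, 125), (6, 125), (7, 125), (8, 125), (9, 125), (10, 125), (11, 125), (12, 125), (13, 125), (14, 125), (15, 125), (16, 125), (17, 125), (18, 125), (19, 125), (20, 125), (21, 125), (22, 125), (23, 125), (24, 125), (25, 125), (26, 125), (27, 125), (28, 125), (29, 125), (30, 125), (31, 125), (32, 125), (93, 124)]

def witE8 : Array (ℕ × ℕ) := #[(1, 119), (0, 120), (0, 122), (0, 125), (0, 129), (0, 134), (0, 140), (0, 146), (0, 151), (0, 155), (0, 158), (0, 160), (0, 161), (1, 161), (0, 168), (0, 173), (0, 177), (0, 180), (0, 182), (0, 183), (1, 183), (0, 187), (0, 190), (0, 192), (0, 193), (1, 193), (0, 196), (0, 198), (0, 199), (1, 199), (0, 201), (0, 202), (1, 202), (0, 203), (1, 203), (2, 203), (0, 206), (0, 208), (0, 209), (1, 209), (0, 211), (0, 212), (1, 212), (0, 213), (1, 213), (2, 213), (0, 215), (0, 216), (1, 216), (0, 217), (1, 217), (2, 217), (0, 218), (1, 218), (2, 218), (3, 218), (0, 220), (0, 221), (1, 221), (0, 222), (1, 222), (2, 222), (0, 223), (1, 223), (2,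 223), (3, 223), (0, 224), (1, 224), (2, 224), (3, 224), (4, 224), (0, 225), (1, 225), (2, 225), (3, 225), (4, 225), (5, 225), (6, 225), (0, 227), (0, 228), (1, 228), (0, 229), (1, 229), (2, 229), (0, 230), (1, 230), (2, 230), (3, 230), (0, 231), (1, 231), (2, 231), (3, 231), (4, 231), (0, 232), (1, 232), (2, 232), (3, 232), (4, 232), (5, 232), (0, 233), (1, 233), (2, 233), (3, 233), (4, 233), (5, 233), (0, 234), (1, 234), (2, 234), (3, 234), (4, 234), (0, 235), (1, 235), (2, 235), (3, 235), (0, 236), (1, 236), (2, 236), (0, 237), (1, 237), (0, 238), (1, 239), (2, 238), (2, 239), (3, 237), (3, 238), (3, 239), (4, 236), (4, 237), (4, 238), (4, 239), (5, 235), (5, 236), (5, 237), (5, 238), (5, 239), (6, 234), (6, 235), (6, 236), (6, 237), (6, 238), (6, 239), (7, 234), (7, 235), (7, 236), (7, 237), (7, 238), (7, 239), (8, 235), (8, 236), (8, 237), (8, 238), (8, 239), (9, 236), (9, 237), (9, 238), (9, 239), (10, 237), (10, 238), (10, 239), (11, 238), (11, 239), (12, 239), (14, 233), (14,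 234), (14, 235), (14, 236), (14, 237), (14, 238), (14, 239), (15, 235), (15, 236), (15, 237), (15, 238), (15, 239), (16, 236), (16, 237), (16, 238), (16, 239), (17, 237), (17, 238), (17, 239), (18, 238), (18, 239), (19, 239), (21, 236), (21, 237), (21, 238), (21, 239), (22, 237), (22, 238), (22, 239), (23, 238), (23, 239), (24, 239), (26, 237), (26, 238), (26, 239), (27, 238), (27, 239), (28, 239), (30, 238), (30, 239), (31, 239), (33, 239), (36, 237), (36, 238), (36, 239), (37, 238), (37, 239), (38, 239), (40, 238), (40, 239), (41, 239), (43, 239), (46, 238), (46, 239), (47, 239), (49, 239), (52, 239), (56, 238), (56, 239), (57, 239), (59, 239), (62, 239), (66, 239), (71, 239), (78, 238), (78, 239), (79, 239), (81, 239), (84, 239), (88, 239), (93, 239), (99, 239), (105, 239), (110, 239), (114, 239), (117, 239), (119, 239), (120, 238)]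

theorem perfD4 : commutator (chevD4.SteinbergCover K) = ⊤ :=
  perfect_of_table chevD4 K witD4 (by decide +kernel)

theorem perfF4 : commutator (chevF4.SteinbergCover K) = ⊤ :=
  perfect_of_table chevF4 K witF4 (by decide +kernel)

theorem perfE6 : commutator (chevE6.SteinbergCover K) = ⊤ :=
  perfect_of_table chevE6 K witE6 (by decide +kernel)

theorem perfE7 : commutator (chevE7.SteinbergCover K) = ⊤ :=
  perfect_of_table chevE7 K witE7 (by decide +kernel)

theorem perfE8 : commutator (chevE8.SteinbergCover K) = ⊤ :=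
  perfect_of_table chevE8 K witE8 (by decide +kernel)

theorem perfB2 (hK : ∃ x : K, x ≠ 0 ∧ x ≠ 1) : commutator (chevB2.SteinbergCover K) = ⊤ := by
  have a := good_of_pair chevB2 K 2 0 1 4 1 1 (by decide) (by decide) (by decide) (by decide +kernel) (by decide)
    (by decide) (by decide) hK (by decide +kernel)
  have b := good_of_pair chevB2 K 5 3 1 7 (-1) 1 (by decide) (by decide) (by decide) (by decide +kernel) (by decide)
    (by decide) (by decide) hK (by decide +kernel)
  have c := good_of_pair chevB2 K 1 0 2 3 1 (-1) (by decide) (by decide) (by decide) (by decide +kernel) (by decide)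
    (by decide) (by decide) hK (by decide +kernel)
  have d := good_of_pair chevB2 K 6 4 2 7 1 (-1) (by decide) (by decide) (by decide) (by decide +kernel) (by decide)
    (by decide) (by decide) hK (by decide +kernel)
  have e := good_of_pair chevB2 K 6 7 5 4 (-1) (-1) (by decide) (by decide) (by decide) (by decide +kernel) (by decide)
    (by decide) (by decide) hK (by decide +kernel)
  apply perfect_of_good
  intro k hk
  change k < 8 at hk
  interval_cases k
  · exact a.2
  · exact c.1
  · exact a.1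
  · exact b.2
  · exact d.2
  · exact b.1
  · exact d.1
  · exact e.2

theorem perfG2 (hK : ∃ x : K, x ≠ 0 ∧ x ≠ 1) : commutator (chevG2.SteinbergCover K) = ⊤ := by
  have g0 := good_of_single chevG2 K 0 1 5 1 (by decide) (by decide) (by decide) (by decide +kernel) (by decide) (by decide +kernel)
  have g1 := good_of_single chevG2 K 1 0 6 1 (by decide) (by decide) (by decide) (by decide +kernel) (by decide) (by decide +kernel)
  have g5 := good_of_single chevG2 K 5 0 10 (-1) (by decide) (by decide) (by decide) (by decide +kernel) (by decide) (by decide +kernel)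
  have g6 := good_of_single chevG2 K 6 1 11 (-1) (by decide) (by decide) (by decide) (by decide +kernel) (by decide) (by decide +kernel)
  have g10 := good_of_single chevG2 K 10 5 11 1 (by decide) (by decide) (by decide) (by decide +kernel) (by decide) (by decide +kernel)
  have g11 := good_of_single chevG2 K 11 6 10 1 (by decide) (by decide) (by decide) (by decide +kernel) (by decide) (by decide +kernel)
  have a := good_of_quad chevG2 K 7 3 0 5 2 10 (-1) 1 1 1 (by decide) (by decide) (by decide) (by decide +kernel) (by decide)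
    (by decide) (by decide) hK g0 g5 (by decide +kernel)
  have b := good_of_quad chevG2 K 8 4 1 6 2 11 (-1) (-1) (-1) (-1) (by decide) (by decide) (by decide) (by decide +kernel) (by decide)
    (by decide) (by decide) hK g1 g6 (by decide +kernel)
  have c := good_of_quad chevG2 K 4 2 0 1 3 6 1 (-1) 1 (-1) (by decide) (by decide) (by decide) (by decide +kernel) (by decide)
    (by decide) (by decide) hK g0 g1 (by decide +kernel)
  have d := good_of_quad chevG2 K 9 7 5 10 3 11 1 1 (-1) 1 (by decide) (by decide) (by decide) (by decide +kernel) (by decide)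
    (by decide) (by decide) hK g5 g10 (by decide +kernel)
  apply perfect_of_good
  intro k hk
  change k < 12 at hk
  interval_cases k
  · exact g0
  · exact g1
  · exact c.2
  · exact a.2
  · exact b.2
  · exact g5
  · exact g6
  · exact a.1
  · exact b.1
  · exact d.1
  · exact g10
  · exact g11

theorem result {K : Type*} [Field K] (D : Cfsg.Lie.ChevalleyDatum) (hD : D ∈ [Cfsg.Lie.chevG2, Cfsg.Lie.chevB2, Cfsg.Lie.chevD4, Cfsg.Lie.chevF4, Cfsg.Lie.chevE6, Cfsg.Lie.chevE7, Cfsg.Lie.chevE8]) (hK : D ∈ [Cfsg.Lie.chevB2, Cfsg.Lie.chevG2] → ∃ x : K, x ≠ 0 ∧ x ≠ 1) :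
    commutator (D.SteinbergCover K) = ⊤ := by
  simp only [List.mem_cons, List.not_mem_nil, or_false] at hD hK
  rcases hD with rfl | rfl | rfl | rfl | rfl | rfl | rfl
  · exact perfG2 K (hK (Or.inr rfl))
  · exact perfB2 K (hK (Or.inl rfl))
  · exact perfD4 K
  · exact perfF4 K
  · exact perfE6 K
  · exact perfE7 K
  · exact perfE8 K

end Cfsg.Agent.S2395
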