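import Mathlib
import Cfsg.Statements.S2403
import Cfsg.Agent.H14.SLTwoGen

set_option autoImplicit false

open Cfsg

namespace Cfsg.Agent.S2403

theorem result {K : Type*} [Field K] [Fintype K] (hK : Fintype.card K ≤ 3) (n : ℕ) (hn : 1 ≤ n)
    (x w : Matrix.SpecialLinearGroup (Fin (n + 1)) K)
    (hx : (x : Matrix (Fin (n + 1)) (Fin (n + 1)) K) = Matrix.transvection (0 : Fin (n + 1)) (1 : Fin (n + 1)) 1)
    (hw : (w : Matrix (Fin (n + 1)) (Fin (n + 1)) K) =
      Matrix.of (fun i j => if j.val = i.val + 1 then 1 else if i.val = n ∧ j.val = 0 then (-1) ^ n else 0)) :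
    Subgroup.closure ({x, w} : Set (Matrix.SpecialLinearGroup (Fin (n + 1)) K)) ⊔
      Subgroup.center (Matrix.SpecialLinearGroup (Fin (n + 1)) K) = ⊤ := by
  have hc : ∀ c : K, c = 0 ∨ c = 1 ∨ c = -1 := by
    intro c
    by_cases h0 : c = 0
    · exact Or.inl h0
    · right
      have h1 := FiniteField.pow_card_sub_one_eq_one c h0
      have h2 : 1 < Fintype.card K := Fintype.one_lt_card
      have h3 : Fintype.card K = 2 ∨ Fintype.card K = 3 := by omega
      rcases h3 with h3 | h3
      · rw [h3] at h1
        left; simpa using h1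
      · rw [h3] at h1
        exact sq_eq_one_iff.mp (by simpa using h1)
  have key : Subgroup.closure ({x, w} : Set (Matrix.SpecialLinearGroup (Fin (n + 1)) K)) = ⊤ := by
    apply Cfsg.Agent.H14.eq_top_of_cox hn _ w hw (Subgroup.subset_closure (by simp))
    intro h c
    have hxx : x = Matrix.SpecialLinearGroup.transvection h 1 := Subtype.ext hx
    have hxm : x ∈ Subgroup.closure ({x, w} : Set (Matrix.SpecialLinearGroup (Fin (n + 1)) K)) :=
      Subgroup.subset_closure (by simp)
    rcases hc c with rfl | rfl | rfl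
    · rw [Matrix.SpecialLinearGroup.transvection_coeff_zero]; exact Subgroup.one_mem _
    · rw [← hxx]; exact hxm
    · rw [← Matrix.SpecialLinearGroup.transvection_inv, ← hxx]; exact Subgroup.inv_mem _ hxm
  rw [key, top_sup_eq]

end Cfsg.Agent.S2403
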