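import Cfsg.Statements.S2416
import Cfsg.Agent.Chev.Tab.Derive
import Cfsg.Agent.Chev.All2

set_option autoImplicit false
open scoped MatrixGroups
open Cfsg

namespace Cfsg.Agent.S2416

/-- A Chevalley group of type G₂, B₂, D₄, F₄, E₆, E₇ or E₈ over a finite field lies in (indeed equals) the subgroup generated by its monomial subgroup `N` and a single fundamental root subgroup `X_p`, where `p` is a short fundamental root if there are two root lengths (any fundamental root otherwise), provided the characteristic is not 2 for types B₂, F₄ and not 3 for type G₂ (and the field has more than two elements for B₂, G₂). -/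
theorem result {K : Type*} [Field K] [Finite K] (D : Cfsg.Lie.ChevalleyDatum) (hD : D ∈ [Cfsg.Lie.chevG2, Cfsg.Lie.chevB2, Cfsg.Lie.chevD4, Cfsg.Lie.chevF4, Cfsg.Lie.chevE6, Cfsg.Lie.chevE7, Cfsg.Lie.chevE8])
    (hK : D ∈ [Cfsg.Lie.chevB2, Cfsg.Lie.chevG2] → ∃ x : K, x ≠ 0 ∧ x ≠ 1)
    (h2 : D ∈ [Cfsg.Lie.chevB2, Cfsg.Lie.chevF4] → ringChar K ≠ 2) (h3 : D = Cfsg.Lie.chevG2 → ringChar K ≠ 3)
    (i : ℕ) (hi : i < D.rank) (hshort : D.isLong (D.simple i) = false) :
    D.group K ≤ D.monomialSubgroup K ⊔ D.rootSubgroup K (D.simple i) := by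
  have key : ∀ (G : Cfsg.Agent.Chev.Good D) (G2 : Cfsg.Agent.Chev.Good2 D) (R : Cfsg.Agent.Chev.Rels D G K) (m : ℕ)
      (hm : (m : K) ≠ 0) (steps : List (ℕ × ℕ × ℕ))
      (hall : (List.range D.rank).all (fun j => (Cfsg.Agent.Chev.derive D m steps [D.simple i]).contains (D.simple j)) = true),
      D.group K ≤ D.monomialSubgroup K ⊔ D.rootSubgroup K (D.simple i) := by
    intro G G2 R m hm steps hall
    refine R.group_le_of_derive G2 le_sup_left m hm steps [D.simple i] ?_ hall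
    intro r hr t
    rw [List.mem_singleton] at hr
    subst hr
    exact Subgroup.mem_sup_right (R.xg_mem_rootSubgroup _ t)
  have h1 : ((1 : ℕ) : K) ≠ 0 := by simp
  have h2' : ringChar K ≠ 2 → ((2 : ℕ) : K) ≠ 0 := by
    intro h
    have := Ring.two_ne_zero h
    simpa using this
  have h3' : ringChar K ≠ 3 → ((3 : ℕ) : K) ≠ 0 := by
    intro h h0
    have hd := (ringChar.spec K 3).mp h0
    rcases (Nat.dvd_prime Nat.prime_three).mp hd with h4 | h4
    · exact CharP.ringChar_ne_one h4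
    · exact h h4
  simp only [List.mem_cons, List.not_mem_nil, or_false] at hD
  rcases hD with rfl | rfl | rfl | rfl | rfl | rfl | rfl
  · exact key Cfsg.Agent.Chev.goodG2 Cfsg.Agent.Chev.good2G2 (Cfsg.Agent.Chev.relsG2 K) 3 (h3' (h3 rfl)) _
      (Cfsg.Agent.Chev.dchkG2 i hi hshort)
  · exact key Cfsg.Agent.Chev.goodB2 Cfsg.Agent.Chev.good2B2 (Cfsg.Agent.Chev.relsB2 K) 2 (h2' (h2 (by simp))) _
      (Cfsg.Agent.Chev.dchkB2 i hi hshort)
  · exact key Cfsg.Agent.Chev.goodD4 Cfsg.Agent.Chev.good2D4 (Cfsg.Agent.Chev.relsD4 K) 1 h1 _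
      (Cfsg.Agent.Chev.dchkD4 i hi hshort)
  · exact key Cfsg.Agent.Chev.goodF4 Cfsg.Agent.Chev.good2F4 (Cfsg.Agent.Chev.relsF4 K) 2 (h2' (h2 (by simp))) _
      (Cfsg.Agent.Chev.dchkF4 i hi hshort)
  · exact key Cfsg.Agent.Chev.goodE6 Cfsg.Agent.Chev.good2E6 (Cfsg.Agent.Chev.relsE6 K) 1 h1 _
      (Cfsg.Agent.Chev.dchkE6 i hi hshort)
  · exact key Cfsg.Agent.Chev.goodE7 Cfsg.Agent.Chev.good2E7 (Cfsg.Agent.Chev.relsE7 K) 1 h1 _
      (Cfsg.Agent.Chev.dchkE7 i hi hshort)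
  · exact key Cfsg.Agent.Chev.goodE8 Cfsg.Agent.Chev.good2E8 (Cfsg.Agent.Chev.relsE8 K) 1 h1 _
      (Cfsg.Agent.Chev.dchkE8 i hi hshort)

end Cfsg.Agent.S2416
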