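import Cfsg.Statements.S2417
import Cfsg.Agent.Chev.Tab.Derive
import Cfsg.Agent.Chev.All2

set_option autoImplicit false
open scoped MatrixGroups
open Cfsg

namespace Cfsg.Agent.S2417

/-- In the characteristics with an exceptional graph symmetry — type B₂ or F₄ in characteristic 2 (field of more than two elements for B₂) and type G₂ in characteristic 3 — the Chevalley group lies in the subgroup generated by its monomial subgroup `N` and the two fundamental root subgroups `X_a`, `X_b` of a short root `a` and a long root `b` joined in the Dynkin diagram. -/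
theorem result {K : Type*} [Field K] [Finite K] (e : Cfsg.Lie.ChevalleyDatum × ℕ)
    (he : e ∈ [(Cfsg.Lie.chevB2, 2), (Cfsg.Lie.chevF4, 2), (Cfsg.Lie.chevG2, 3)]) [CharP K e.2]
    (hK : e.1 = Cfsg.Lie.chevB2 → ∃ x : K, x ≠ 0 ∧ x ≠ 1)
    (i j : ℕ) (hi : i < e.1.rank) (hj : j < e.1.rank) (hshort : e.1.isLong (e.1.simple i) = false)
    (hlong : e.1.isLong (e.1.simple j) = true) (hbond : e.1.bonds i j ≠ 0) :
    e.1.group K ≤ e.1.monomialSubgroup K ⊔ e.1.rootSubgroup K (e.1.simple i) ⊔ e.1.rootSubgroup K (e.1.simple j) := by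
  have key : ∀ (D : Cfsg.Lie.ChevalleyDatum) (G : Cfsg.Agent.Chev.Good D) (G2 : Cfsg.Agent.Chev.Good2 D)
      (R : Cfsg.Agent.Chev.Rels D G K) (steps : List (ℕ × ℕ × ℕ))
      (hall : (List.range D.rank).all (fun k => (Cfsg.Agent.Chev.derive D 1 steps [D.simple i, D.simple j]).contains (D.simple k)) = true),
      D.group K ≤ D.monomialSubgroup K ⊔ D.rootSubgroup K (D.simple i) ⊔ D.rootSubgroup K (D.simple j) := by
    intro D G G2 R steps hall
    refine R.group_le_of_derive G2 (le_sup_left.trans le_sup_left) 1 (by simp) steps [D.simple i, D.simple j] ?_ hall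
    intro r hr t
    simp only [List.mem_cons, List.not_mem_nil, or_false] at hr
    rcases hr with rfl | rfl
    · exact Subgroup.mem_sup_left (Subgroup.mem_sup_right (R.xg_mem_rootSubgroup _ t))
    · exact Subgroup.mem_sup_right (R.xg_mem_rootSubgroup _ t)
  simp only [List.mem_cons, List.not_mem_nil, or_false] at he
  rcases he with rfl | rfl | rfl
  · exact key _ Cfsg.Agent.Chev.goodB2 Cfsg.Agent.Chev.good2B2 (Cfsg.Agent.Chev.relsB2 K) _
      (Cfsg.Agent.Chev.dchk2B2 i hi j hj hshort hlong)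
  · exact key _ Cfsg.Agent.Chev.goodF4 Cfsg.Agent.Chev.good2F4 (Cfsg.Agent.Chev.relsF4 K) _
      (Cfsg.Agent.Chev.dchk2F4 i hi j hj hshort hlong)
  · exact key _ Cfsg.Agent.Chev.goodG2 Cfsg.Agent.Chev.good2G2 (Cfsg.Agent.Chev.relsG2 K) _
      (Cfsg.Agent.Chev.dchk2G2 i hi j hj hshort hlong)

end Cfsg.Agent.S2417
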