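import Mathlib
import Cfsg.Statements.S2428
import Cfsg.Agent.H14.SL2Tori

namespace Cfsg.Agent.S2428

open Cfsg Cfsg.Agent.H14

theorem result {F : Type*} [Field F] [Fintype F] (hodd : Odd (Fintype.card F))
    (d : Matrix.SpecialLinearGroup (Fin 2) F) (hd01 : (d : Matrix (Fin 2) (Fin 2) F) 0 1 = 0) (hd10 : (d : Matrix (Fin 2) (Fin 2) F) 1 0 = 0) (hda : (d : Matrix (Fin 2) (Fin 2) F) 0 0 ^ 2 ≠ 1) :
    (∀ g : Matrix.SpecialLinearGroup (Fin 2) F, g ∈ Subgroup.centralizer ({d} : Set (Matrix.SpecialLinearGroup (Fin 2) F)) ↔ ((g : Matrix (Fin 2) (Fin 2) F) 0 1 = 0 ∧ (g : Matrix (Fin 2) (Fin 2) F) 1 0 = 0)) ∧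
    Nat.card (Subgroup.normalizer ((Subgroup.centralizer ({d} : Set (Matrix.SpecialLinearGroup (Fin 2) F))) : Set (Matrix.SpecialLinearGroup (Fin 2) F))) = 2 * (Fintype.card F - 1) ∧
    Nat.card (ConjClasses (Subgroup.normalizer ((Subgroup.centralizer ({d} : Set (Matrix.SpecialLinearGroup (Fin 2) F))) : Set (Matrix.SpecialLinearGroup (Fin 2) F)))) = (Fintype.card F + 5) / 2 ∧
    ∀ g : Matrix.SpecialLinearGroup (Fin 2) F, g ∈ Subgroup.normalizer ((Subgroup.centralizer ({d} : Set (Matrix.SpecialLinearGroup (Fin 2) F))) : Set (Matrix.SpecialLinearGroup (Fin 2) F)) →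
      g ∉ Subgroup.centralizer ({d} : Set (Matrix.SpecialLinearGroup (Fin 2) F)) → ((g * g) : Matrix (Fin 2) (Fin 2) F) = -1 := by
  have h2 : (2 : F) ≠ 0 := odd_two_ne_zero (by obtain ⟨k, hk⟩ := hodd; omega)
  have ha := diagUnit_sq_ne d hd10 hda
  have hd := eq_dg_of_diag d hd01 hd10
  set a := diagUnit d hd10 with ha'
  rw [hd]
  have ht := trace_dg_sq_ne a ha
  have h1q : 1 < Fintype.card F := Fintype.one_lt_card
  refine ⟨mem_centralizer_dg_iff a ha, ?_, ?_, ?_⟩
  · rw [card_normalizer_centralizer h2 _ ht, card_centralizer_dg a ha]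
  · have := card_conjClasses_normalizer_centralizer h2 _ ht
    rw [card_centralizer_dg a ha] at this
    omega
  · intro g hg hg'
    rcases (mem_normalizer_centralizer_iff h2 _ ht g).mp hg with h | h
    · exact absurd h hg'
    · rw [← Matrix.SpecialLinearGroup.coe_mul, sq_of_inverting h2 _ g ht h]
      exact coe_dg_neg_one

end Cfsg.Agent.S2428
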