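import Mathlib
import Cfsg.Statements.S2429
import Cfsg.Agent.H14.SL2Tori

namespace Cfsg.Agent.S2429

open Cfsg Cfsg.Agent.H14

theorem result {F : Type*} [Field F] [Fintype F] (hodd : Odd (Fintype.card F)) :
    ∃ T' : Subgroup (Matrix.SpecialLinearGroup (Fin 2) F), IsCyclic T' ∧ Nat.card T' = Fintype.card F + 1 ∧
      Subgroup.centralizer ((T' : Set (Matrix.SpecialLinearGroup (Fin 2) F))) = T' ∧
      (∀ g : Matrix.SpecialLinearGroup (Fin 2) F, g ∈ T' → (g : Matrix (Fin 2) (Fin 2) F) ≠ 1 → (g : Matrix (Fin 2) (Fin 2) F) ≠ -1 → Subgroup.centralizer ({g} : Set (Matrix.SpecialLinearGroup (Fin 2) F)) = T') ∧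
      (∀ g : Matrix.SpecialLinearGroup (Fin 2) F, (∀ (c : F) (v : Fin 2 → F), v ≠ 0 → (g : Matrix (Fin 2) (Fin 2) F).mulVec v ≠ c • v) → ∃ h : Matrix.SpecialLinearGroup (Fin 2) F, h * g * h⁻¹ ∈ T') ∧
      Nat.card (Subgroup.normalizer (T' : Set (Matrix.SpecialLinearGroup (Fin 2) F))) = 2 * (Fintype.card F + 1) ∧
      Nat.card (ConjClasses (Subgroup.normalizer (T' : Set (Matrix.SpecialLinearGroup (Fin 2) F)))) = (Fintype.card F + 7) / 2 ∧
      ∀ g : Matrix.SpecialLinearGroup (Fin 2) F, g ∈ Subgroup.normalizer (T' : Set (Matrix.SpecialLinearGroup (Fin 2) F)) → g ∉ T' → ((g * g) : Matrix (Fin 2) (Fin 2) F) = -1 := by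
  classical
  have h2 : (2 : F) ≠ 0 := odd_two_ne_zero (by obtain ⟨k, hk⟩ := hodd; omega)
  obtain ⟨C, hC⟩ := exists_NST (F := F)
  obtain ⟨x₀, h0, ho, hz⟩ := hC.exists_gen
  have hx₀ : x₀ ∈ C := by rw [hz]; exact Subgroup.mem_zpowers x₀
  have hcen := hC.centralizer_eq hx₀ h0.not_isScal
  have ht := h0.trace_sq_ne
  refine ⟨C, hC.1, hC.2, ?_, ?_, ?_, ?_, ?_, ?_⟩
  · apply le_antisymm
    · intro g hg
      rw [← hcen, Subgroup.mem_centralizer_singleton_iff]
      exact (Subgroup.mem_centralizer_iff.mp hg x₀ hx₀).symm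
    · intro g hg
      rw [Subgroup.mem_centralizer_iff]
      intro h hh
      exact hC.comm hh hg
  · intro g hg h1 hm1
    apply hC.centralizer_eq hg
    intro hs
    obtain ⟨u, hu, rfl⟩ := exists_dg_of_isScal hs
    rcases units_sq_eq_one u hu with rfl | rfl
    · apply h1; rw [dg_one]; rfl
    · exact hm1 coe_dg_neg_one
  · intro g hg
    obtain ⟨x, hx, hc⟩ := hC.exists_conj ((noEig_iff_mulVec g).mpr hg)
    obtain ⟨h, hh⟩ := isConj_iff.mp hc
    exact ⟨h, hh ▸ hx⟩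
  · rw [← hcen, card_normalizer_centralizer h2 _ ht, hcen, hC.2]
  · have := card_conjClasses_normalizer_centralizer h2 _ ht
    rw [hcen, hC.2] at this
    omega
  · intro g hg hg'
    rw [← hcen] at hg hg'
    rcases (mem_normalizer_centralizer_iff h2 _ ht g).mp hg with h | h
    · exact absurd h hg'
    · rw [← Matrix.SpecialLinearGroup.coe_mul, sq_of_inverting h2 _ g ht h]
      exact coe_dg_neg_one

end Cfsg.Agent.S2429
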