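import Mathlib
import Cfsg.Statements.S2430
import Cfsg.Agent.H14.SL2Syl

namespace Cfsg.Agent.S2430

open Cfsg Cfsg.Agent.H14

theorem eq_one_of_coprime_pow {G : Type*} [Group G] {y : G} {m n : ℕ} (h : Nat.Coprime m n) (h1 : y ^ m = 1)
    (h2 : y ^ n = 1) : y = 1 := by
  have := Nat.dvd_gcd (orderOf_dvd_of_pow_eq_one h1) (orderOf_dvd_of_pow_eq_one h2)
  rw [h] at this
  exact orderOf_eq_one_iff.mp (Nat.dvd_one.mp this)

theorem result {F : Type*} [Field F] [Fintype F] (hodd : Odd (Fintype.card F)) (ℓ : ℕ) [Fact ℓ.Prime] (hℓ : ℓ ≠ 2)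
    (P : Sylow ℓ (Matrix.SpecialLinearGroup (Fin 2) F)) :
    (ℓ ∣ Fintype.card F - 1 →
      Nat.card (Subgroup.centralizer ((P : Subgroup (Matrix.SpecialLinearGroup (Fin 2) F)) : Set (Matrix.SpecialLinearGroup (Fin 2) F))) = Fintype.card F - 1 ∧
      IsCyclic (Subgroup.centralizer ((P : Subgroup (Matrix.SpecialLinearGroup (Fin 2) F)) : Set (Matrix.SpecialLinearGroup (Fin 2) F))) ∧
      Nat.card (Subgroup.normalizer ((P : Subgroup (Matrix.SpecialLinearGroup (Fin 2) F)) : Set (Matrix.SpecialLinearGroup (Fin 2) F))) = 2 * (Fintype.card F - 1)) ∧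
    (ℓ ∣ Fintype.card F + 1 →
      Nat.card (Subgroup.centralizer ((P : Subgroup (Matrix.SpecialLinearGroup (Fin 2) F)) : Set (Matrix.SpecialLinearGroup (Fin 2) F))) = Fintype.card F + 1 ∧
      IsCyclic (Subgroup.centralizer ((P : Subgroup (Matrix.SpecialLinearGroup (Fin 2) F)) : Set (Matrix.SpecialLinearGroup (Fin 2) F))) ∧
      Nat.card (Subgroup.normalizer ((P : Subgroup (Matrix.SpecialLinearGroup (Fin 2) F)) : Set (Matrix.SpecialLinearGroup (Fin 2) F))) = 2 * (Fintype.card F + 1)) := by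
  classical
  have h2 : (2 : F) ≠ 0 := odd_two_ne_zero (by obtain ⟨k, hk⟩ := hodd; omega)
  have hp : ℓ.Prime := Fact.out
  have h1q : 1 < Fintype.card F := Fintype.one_lt_card
  have hl2 : ¬ ℓ ∣ 2 := fun h => hℓ ((Nat.prime_dvd_prime_iff_eq hp Nat.prime_two).mp h)
  have key : ℓ ∣ Nat.card (Matrix.SpecialLinearGroup (Fin 2) F) →
      ∃ y : Matrix.SpecialLinearGroup (Fin 2) F, y ∈ (P : Subgroup (Matrix.SpecialLinearGroup (Fin 2) F)) ∧ y ≠ 1 ∧
        (P : Subgroup (Matrix.SpecialLinearGroup (Fin 2) F)) ≤ Subgroup.centralizer {y} ∧ ∃ k : ℕ, y ^ (ℓ ^ k) = 1 := by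
    intro hdvd
    have hne := P.ne_bot_of_dvd_card hdvd
    haveI : Nontrivial (P : Subgroup (Matrix.SpecialLinearGroup (Fin 2) F)) :=
      (Subgroup.nontrivial_iff_ne_bot _).mpr hne
    haveI := P.isPGroup'.center_nontrivial
    obtain ⟨z, hz⟩ := exists_ne (1 : Subgroup.center (P : Subgroup (Matrix.SpecialLinearGroup (Fin 2) F)))
    refine ⟨z.1.1, z.1.2, ?_, ?_, ?_⟩
    · intro h
      apply hz
      apply Subtype.ext
      apply Subtype.ext
      exact h
    · intro h hh
      rw [Subgroup.mem_centralizer_singleton_iff]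
      have := Subgroup.mem_center_iff.mp z.2 ⟨h, hh⟩
      exact congrArg Subtype.val this
    · obtain ⟨k, hk⟩ := P.isPGroup' z.1
      exact ⟨k, by simpa using congrArg Subtype.val hk⟩
  have hcard : Nat.card (Matrix.SpecialLinearGroup (Fin 2) F) =
      Fintype.card F * (Fintype.card F - 1) * (Fintype.card F + 1) := by
    rw [Nat.card_eq_fintype_card, card_sl2]
  have cop : ∀ n k : ℕ, ¬ ℓ ∣ n → Nat.Coprime n (ℓ ^ k) := fun n k h =>
    (((Nat.Prime.coprime_iff_not_dvd hp).mpr h).pow_left k).symm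
  constructor
  · intro hd
    obtain ⟨y, hyP, hy1, hPy, k, hk⟩ := key (by
      rw [hcard]; exact Dvd.dvd.mul_right (Dvd.dvd.mul_left hd _) _)
    have hq : ¬ ℓ ∣ Fintype.card F := by
      intro h
      have := (Nat.dvd_sub_iff_right (by omega) h).mp hd
      exact hp.one_lt.ne' (Nat.dvd_one.mp this)
    have hq1 : ¬ ℓ ∣ Fintype.card F + 1 := by
      intro h
      apply hl2
      have := Nat.dvd_sub h hd
      have e : Fintype.card F + 1 - (Fintype.card F - 1) = 2 := by omega
      rwa [e] at this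
    have ht : y.1.trace ^ 2 ≠ 4 := by
      intro ht
      apply hy1
      refine eq_one_of_coprime_pow (cop _ k ?_) (pow_two_card_eq_one y ht) hk
      intro h
      rcases (Nat.Prime.dvd_mul hp).mp h with h | h
      · exact hl2 h
      · exact hq h
    have hne : ¬ NoEig y := by
      intro hne
      exact hy1 (eq_one_of_coprime_pow (cop _ k hq1) hne.pow_card_add_one hk)
    obtain ⟨e1, e2⟩ := sylow_torus h2 y ht _ hyP hPy
    obtain ⟨c1, c2⟩ := card_centralizer_split y ht hne
    rw [e1, e2, card_normalizer_centralizer h2 y ht, c1]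
    exact ⟨rfl, c2, rfl⟩
  · intro hd
    obtain ⟨y, hyP, hy1, hPy, k, hk⟩ := key (by
      rw [hcard]; exact Dvd.dvd.mul_left hd _)
    have hq : ¬ ℓ ∣ Fintype.card F := by
      intro h
      have := (Nat.dvd_add_right h).mp hd
      exact hp.one_lt.ne' (Nat.dvd_one.mp this)
    have hq1 : ¬ ℓ ∣ Fintype.card F - 1 := by
      intro h
      apply hl2
      have := Nat.dvd_sub hd h
      have e : Fintype.card F + 1 - (Fintype.card F - 1) = 2 := by omega
      rwa [e] at this
    have ht : y.1.trace ^ 2 ≠ 4 := by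
      intro ht
      apply hy1
      refine eq_one_of_coprime_pow (cop _ k ?_) (pow_two_card_eq_one y ht) hk
      intro h
      rcases (Nat.Prime.dvd_mul hp).mp h with h | h
      · exact hl2 h
      · exact hq h
    have hne : NoEig y := by
      by_contra hne
      exact hy1 (eq_one_of_coprime_pow (cop _ k hq1) (pow_card_sub_one_eq_one y ht hne) hk)
    obtain ⟨e1, e2⟩ := sylow_torus h2 y ht _ hyP hPy
    rw [e1, e2, card_normalizer_centralizer h2 y ht, hne.card_centralizer]
    exact ⟨rfl, isCyclic_centralizer_noEig hne, rfl⟩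

end Cfsg.Agent.S2430
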