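import Mathlib
import Cfsg.Statements.S2434
import Cfsg.Agent.H14.SL2Extra

namespace Cfsg.Agent.S2434

open Cfsg Cfsg.Agent.H14 Cfsg.Agent.CharLib

theorem result {F : Type*} [Field F] [Fintype F] (hodd : Odd (Fintype.card F))
    (C : Subgroup (Matrix.SpecialLinearGroup (Fin 2) F)) (hC : IsCyclic C) (hcard : Nat.card C = Fintype.card F + 1) :
    (∀ θ : C →* ℂˣ, (∃ c : C, θ c ^ 2 ≠ 1) →
      ∃ χ : Matrix.SpecialLinearGroup (Fin 2) F → ℂ, Cfsg.IsIrrCharacter (Matrix.SpecialLinearGroup (Fin 2) F) χ ∧ χ 1 = (Fintype.card F : ℂ) - 1 ∧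
        (∀ c : C, (c : Matrix.SpecialLinearGroup (Fin 2) F) ∉ Subgroup.center (Matrix.SpecialLinearGroup (Fin 2) F) → χ c = -((θ c).val + (θ c)⁻¹.val)) ∧
        (∀ c : C, (c : Matrix.SpecialLinearGroup (Fin 2) F) ∈ Subgroup.center (Matrix.SpecialLinearGroup (Fin 2) F) → ∀ g : Matrix.SpecialLinearGroup (Fin 2) F, χ ((c : Matrix.SpecialLinearGroup (Fin 2) F) * g) = (θ c).val * χ g) ∧
        (∀ g : Matrix.SpecialLinearGroup (Fin 2) F, (g : Matrix (Fin 2) (Fin 2) F) 0 1 = 0 → (g : Matrix (Fin 2) (Fin 2) F) 1 0 = 0 → (g : Matrix (Fin 2) (Fin 2) F) 0 0 ^ 2 ≠ 1 → χ g = 0) ∧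
        (∀ g : Matrix.SpecialLinearGroup (Fin 2) F, (g : Matrix (Fin 2) (Fin 2) F) 1 0 = 0 → (g : Matrix (Fin 2) (Fin 2) F) 0 0 = 1 → (g : Matrix (Fin 2) (Fin 2) F) 1 1 = 1 → (g : Matrix (Fin 2) (Fin 2) F) 0 1 ≠ 0 → χ g = -1)) ∧
    (∀ χ : Matrix.SpecialLinearGroup (Fin 2) F → ℂ, Cfsg.IsIrrCharacter (Matrix.SpecialLinearGroup (Fin 2) F) χ → χ 1 = (Fintype.card F : ℂ) - 1 →
      ∃ θ : C →* ℂˣ, (∃ c : C, θ c ^ 2 ≠ 1) ∧
        ∀ c : C, (c : Matrix.SpecialLinearGroup (Fin 2) F) ∉ Subgroup.center (Matrix.SpecialLinearGroup (Fin 2) F) → χ c = -((θ c).val + (θ c)⁻¹.val)) := by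
  classical
  have h : NST C := ⟨hC, hcard⟩
  have hreg : ∀ θ : C →* ℂˣ, (∃ c : C, θ c ^ 2 ≠ 1) ↔ θ ≠ θ⁻¹ := by
    intro θ
    rw [ne_eq, hom_self_inv_iff]
    push Not
    rfl
  have hmem : ∀ (θ : C →* ℂˣ) (α : MulChar F ℂ) (c : C),
      (c : Matrix.SpecialLinearGroup (Fin 2) F) ∉ Subgroup.center (Matrix.SpecialLinearGroup (Fin 2) F) →
      Pch C θ α c = -((θ c).val + (θ c)⁻¹.val) := by
    intro θ α c hc
    rw [mem_center_iff_isScal] at hc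
    rw [Pch_mem h θ α c.2 hc]
    have e2 : (⟨(c : Matrix.SpecialLinearGroup (Fin 2) F)⁻¹, inv_mem c.2⟩ : C) = c⁻¹ := rfl
    rw [e2, map_inv]
  constructor
  · intro θ hθ
    rw [hreg] at hθ
    obtain ⟨α, hα⟩ := exists_compat h θ
    refine ⟨Pch C θ α, isIrr_Pch h hα hθ, Pch_apply_one h hα, hmem θ α, ?_, ?_, ?_⟩
    · intro c hc g
      exact Pch_central_mul hα hc c.2 g
    · intro g h01 h10 hne
      rw [eq_dg_of_diag g h01 h10]
      exact Pch_dg_reg h θ α _ (diagUnit_sq_ne g h10 hne)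
    · intro g h10 h00 h11 h01
      have e1 : diagUnit g h10 = 1 := Units.ext (by simpa [diagUnit] using h00)
      rw [eq_bm g h10, e1, Pch_bm_unip h θ α 1 (one_pow 2) h01]
      simp
  · intro χ hχ hdeg
    have h1q : 1 < Fintype.card F := Fintype.one_lt_card
    have e : 2 * χ 1 = ((2 * Fintype.card F - 2 : ℕ) : ℂ) := by
      rw [hdeg, Nat.cast_sub (by omega)]; push_cast; ring
    obtain ⟨k, hk⟩ := hodd
    rcases classification_nat h hχ _ e with ⟨h1, h2⟩ | ⟨h1, h2⟩ | ⟨h1, h2⟩ | ⟨h1, h2⟩ | ⟨h1, h2⟩ | ⟨h1, h2⟩ <;>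
      try (exfalso; omega)
    · -- q = 3, half of a principal series
      have hq : Fintype.card F = 3 := by omega
      obtain ⟨α, hα, hα', hh⟩ := h1
      obtain ⟨θ, hθ⟩ := exists_regular_hom_q3 h hq
      refine ⟨θ, (hreg θ).mpr hθ, ?_⟩
      intro c hc
      rw [mem_center_iff_isScal] at hc
      have e3 := q3_sum_eq_zero h hq hθ c.2 hc
      have e2 : (⟨(c : Matrix.SpecialLinearGroup (Fin 2) F)⁻¹, inv_mem c.2⟩ : C) = c⁻¹ := rfl
      rw [e2, map_inv] at e3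
      rw [hh.2.2.2 c c.2]
      simp only [Pi.smul_apply, smul_eq_mul]
      rw [Rch_noEig α ((h.scal_or_noEig c.2).resolve_left hc)]
      have : ((θ c : ℂˣ) : ℂ) + (((θ c)⁻¹ : ℂˣ) : ℂ) = 0 := e3
      rw [this]; simp
    · obtain ⟨θ, α, hc, hθ, rfl⟩ := h1
      exact ⟨θ, (hreg θ).mpr hθ, hmem θ α⟩

end Cfsg.Agent.S2434
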