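import Mathlib
import Cfsg.Statements.S2435
import Cfsg.Agent.H14.SL2Extra

namespace Cfsg.Agent.S2435

open Cfsg Cfsg.Agent.H14 Cfsg.Agent.CharLib

theorem result {F : Type*} [Field F] [Fintype F] (hodd : Odd (Fintype.card F)) (hq : 5 ≤ Fintype.card F)
    (χ : Matrix.SpecialLinearGroup (Fin 2) F → ℂ) (hχ : Cfsg.IsIrrCharacter (Matrix.SpecialLinearGroup (Fin 2) F) χ) (g : Matrix.SpecialLinearGroup (Fin 2) F) :
    (χ 1 = (((Fintype.card F + 1) / 2 : ℕ) : ℂ) → (g : Matrix (Fin 2) (Fin 2) F) 0 1 = 0 → (g : Matrix (Fin 2) (Fin 2) F) 1 0 = 0 → (g : Matrix (Fin 2) (Fin 2) F) 0 0 ^ 2 ≠ 1 →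
      (IsSquare ((g : Matrix (Fin 2) (Fin 2) F) 0 0) → χ g = 1) ∧ (¬ IsSquare ((g : Matrix (Fin 2) (Fin 2) F) 0 0) → χ g = -1)) ∧
    (χ 1 = (((Fintype.card F - 1) / 2 : ℕ) : ℂ) → (∀ (c : F) (v : Fin 2 → F), v ≠ 0 → (g : Matrix (Fin 2) (Fin 2) F).mulVec v ≠ c • v) →
      (((g ^ ((Fintype.card F + 1) / 2)) : Matrix (Fin 2) (Fin 2) F) = 1 → χ g = -1) ∧ (((g ^ ((Fintype.card F + 1) / 2)) : Matrix (Fin 2) (Fin 2) F) ≠ 1 → χ g = 1)) := by
  classical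
  obtain ⟨C, hC⟩ := exists_NST (F := F)
  have hodd' := hodd
  obtain ⟨k, hk⟩ := hodd
  constructor
  · intro hdeg h01 h10 hne
    have hg := eq_dg_of_diag g h01 h10
    have ha := diagUnit_sq_ne g h10 hne
    have e : 2 * χ 1 = ((2 * ((Fintype.card F + 1) / 2) : ℕ) : ℂ) := by rw [hdeg]; push_cast; ring
    rcases classification_nat hC hχ _ e with ⟨h1, h2⟩ | ⟨h1, h2⟩ | ⟨h1, h2⟩ | ⟨h1, h2⟩ | ⟨h1, h2⟩ | ⟨h1, h2⟩ <;>
      try (exfalso; omega)
    obtain ⟨α, hα, hα', hh⟩ := h1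
    have hval : χ g = α (g.1 0 0) := by
      rw [hg, hh.2.2.1]
      simp only [Pi.smul_apply, smul_eq_mul]
      rw [Rch_dg_reg α _ ha, quad_mulChar_inv hα]
      simp [diagUnit]
      ring
    have h0 : g.1 0 0 ≠ 0 := (diagUnit g h10).ne_zero
    rw [hval]
    exact quad_mulChar_apply hα hα' h0
  · intro hdeg hg
    have hg' : NoEig g := (noEig_iff_mulVec g).mpr hg
    obtain ⟨x, hx, hconj, hxn⟩ := hC.exists_conj' hg'
    have e : 2 * χ 1 = ((2 * ((Fintype.card F - 1) / 2) : ℕ) : ℂ) := by rw [hdeg]; push_cast; ring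
    rcases classification_nat hC hχ _ e with ⟨h1, h2⟩ | ⟨h1, h2⟩ | ⟨h1, h2⟩ | ⟨h1, h2⟩ | ⟨h1, h2⟩ | ⟨h1, h2⟩ <;>
      try (exfalso; omega)
    obtain ⟨θ, α, hc, hθ, hθ', hh⟩ := h1
    have hinv : θ ⟨x⁻¹, inv_mem hx⟩ = θ ⟨x, hx⟩ := by
      have e2 : (⟨x⁻¹, inv_mem hx⟩ : C) = (⟨x, hx⟩ : C)⁻¹ := rfl
      have := DFunLike.congr_fun hθ ⟨x, hx⟩
      rw [MonoidHom.inv_apply] at this
      rw [e2, map_inv, ← this]
    have hval : χ g = - ((θ ⟨x, hx⟩ : ℂˣ) : ℂ) := by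
      rw [isClassFunction_apply_of_isConj (isClassFunction_of_irr hχ) hconj, hh.2.2.2 x hx]
      simp only [Pi.smul_apply, smul_eq_mul]
      rw [Pch_mem hC θ α hx hxn.not_isScal, hinv]
      ring
    have hpow : ∀ m : ℕ, ((g ^ m : Matrix.SpecialLinearGroup (Fin 2) F) : Matrix (Fin 2) (Fin 2) F) = 1 ↔
        (⟨x, hx⟩ : C) ^ m = 1 := by
      intro m
      obtain ⟨c, hc'⟩ := isConj_iff.mp hconj
      have e1 : ((g ^ m : Matrix.SpecialLinearGroup (Fin 2) F) : Matrix (Fin 2) (Fin 2) F) = 1 ↔ g ^ m = 1 := by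
        constructor
        · intro h; exact Subtype.ext h
        · intro h; rw [h]; rfl
      have e2 : (⟨x, hx⟩ : C) ^ m = 1 ↔ x ^ m = 1 := by
        constructor
        · intro h; simpa using congrArg Subtype.val h
        · intro h; apply Subtype.ext; simpa using h
      rw [e1, e2, ← hc', conj_pow]
      constructor
      · intro h; rw [h]; group
      · intro h
        have : g ^ m = c⁻¹ * (c * g ^ m * c⁻¹) * c := by group
        rw [this, h]; group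
    have hq2 := quad_hom_apply hC hodd' hθ hθ' ⟨x, hx⟩
    rw [hval]
    constructor
    · intro h
      rw [hq2.1 ((hpow _).mp h)]; simp
    · intro h
      rw [hq2.2 (fun h' => h ((hpow _).mpr h'))]; simp

end Cfsg.Agent.S2435
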