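import Mathlib
import Cfsg.Statements.S2437
import Cfsg.Agent.H14.SL2BorelClass

namespace Cfsg.Agent.S2437

open Cfsg Cfsg.Agent.H14

theorem result {F : Type*} [Field F] [Fintype F] (hodd : Odd (Fintype.card F)) :
    Nat.card (ConjClasses ((Cfsg.upperTriangularGL 2 F).comap Matrix.SpecialLinearGroup.toGL)) = Fintype.card F + 3 :=
  card_conjClasses_borel (odd_two_ne_zero (by obtain ⟨k, hk⟩ := hodd; omega))

end Cfsg.Agent.S2437
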