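import Mathlib
import Cfsg.Statements.S2438
import Cfsg.Agent.H14.SL2Deg

namespace Cfsg.Agent.S2438

open Cfsg Cfsg.Agent.H14

theorem result {F : Type*} [Field F] [Fintype F] [DecidableEq F] (hodd : Odd (Fintype.card F)) (hq : 5 ≤ Fintype.card F)
    (χ : Matrix.SpecialLinearGroup (Fin 2) F → ℂ) (hχ : Cfsg.IsIrrCharacter (Matrix.SpecialLinearGroup (Fin 2) F) χ) :
    (χ 1 = (Fintype.card F : ℂ) + 1 →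
      (∑ g : Matrix.SpecialLinearGroup (Fin 2) F, if (g : Matrix (Fin 2) (Fin 2) F) 1 0 = 0 ∧ (g : Matrix (Fin 2) (Fin 2) F) 0 0 = 1 ∧ (g : Matrix (Fin 2) (Fin 2) F) 1 1 = 1 then χ g else 0) = 2 * (Fintype.card F : ℂ)) ∧
    (χ 1 = (Fintype.card F : ℂ) →
      (∑ g : Matrix.SpecialLinearGroup (Fin 2) F, if (g : Matrix (Fin 2) (Fin 2) F) 1 0 = 0 ∧ (g : Matrix (Fin 2) (Fin 2) F) 0 0 = 1 ∧ (g : Matrix (Fin 2) (Fin 2) F) 1 1 = 1 then χ g else 0) = (Fintype.card F : ℂ)) ∧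
    (χ 1 = (Fintype.card F : ℂ) - 1 →
      (∑ g : Matrix.SpecialLinearGroup (Fin 2) F, if (g : Matrix (Fin 2) (Fin 2) F) 1 0 = 0 ∧ (g : Matrix (Fin 2) (Fin 2) F) 0 0 = 1 ∧ (g : Matrix (Fin 2) (Fin 2) F) 1 1 = 1 then χ g else 0) = 0) ∧
    (χ 1 = (((Fintype.card F + 1) / 2 : ℕ) : ℂ) →
      (∑ g : Matrix.SpecialLinearGroup (Fin 2) F, if (g : Matrix (Fin 2) (Fin 2) F) 1 0 = 0 ∧ (g : Matrix (Fin 2) (Fin 2) F) 0 0 = 1 ∧ (g : Matrix (Fin 2) (Fin 2) F) 1 1 = 1 then χ g else 0) = (Fintype.card F : ℂ)) ∧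
    (χ 1 = (((Fintype.card F - 1) / 2 : ℕ) : ℂ) →
      (∑ g : Matrix.SpecialLinearGroup (Fin 2) F, if (g : Matrix (Fin 2) (Fin 2) F) 1 0 = 0 ∧ (g : Matrix (Fin 2) (Fin 2) F) 0 0 = 1 ∧ (g : Matrix (Fin 2) (Fin 2) F) 1 1 = 1 then χ g else 0) = 0) := by
  obtain ⟨C, hC⟩ := exists_NST (F := F)
  obtain ⟨k, hk⟩ := hodd
  rw [sum_unipotent_eq_Usum]
  refine ⟨fun hdeg => ?_, fun hdeg => ?_, fun hdeg => ?_, fun hdeg => ?_, fun hdeg => ?_⟩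
  · have e : 2 * χ 1 = ((2 * Fintype.card F + 2 : ℕ) : ℂ) := by rw [hdeg]; push_cast; ring
    rcases classification_nat hC hχ _ e with ⟨h1, h2⟩ | ⟨h1, h2⟩ | ⟨h1, h2⟩ | ⟨h1, h2⟩ | ⟨h1, h2⟩ | ⟨h1, h2⟩ <;>
      try (exfalso; omega)
    obtain ⟨α, _, rfl⟩ := h1
    rw [Usum_Rch]; simp; ring
  · have e : 2 * χ 1 = ((2 * Fintype.card F : ℕ) : ℂ) := by rw [hdeg]; push_cast; ring
    rcases classification_nat hC hχ _ e with ⟨h1, h2⟩ | ⟨h1, h2⟩ | ⟨h1, h2⟩ | ⟨h1, h2⟩ | ⟨h1, h2⟩ | ⟨h1, h2⟩ <;>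
      try (exfalso; omega)
    rw [h1, Usum_Stc]
  · have e : 2 * χ 1 = ((2 * Fintype.card F - 2 : ℕ) : ℂ) := by
      rw [hdeg, Nat.cast_sub (by omega)]; push_cast; ring
    rcases classification_nat hC hχ _ e with ⟨h1, h2⟩ | ⟨h1, h2⟩ | ⟨h1, h2⟩ | ⟨h1, h2⟩ | ⟨h1, h2⟩ | ⟨h1, h2⟩ <;>
      try (exfalso; omega)
    obtain ⟨θ, α, hc, _, rfl⟩ := h1
    rw [Usum_Pch hC hc]
  · have e : 2 * χ 1 = ((2 * ((Fintype.card F + 1) / 2) : ℕ) : ℂ) := by rw [hdeg]; push_cast; ring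
    rcases classification_nat hC hχ _ e with ⟨h1, h2⟩ | ⟨h1, h2⟩ | ⟨h1, h2⟩ | ⟨h1, h2⟩ | ⟨h1, h2⟩ | ⟨h1, h2⟩ <;>
      try (exfalso; omega)
    obtain ⟨α, _, _, hh⟩ := h1
    rw [hh.2.1 1, Usum_smul, Usum_Rch]; simp; ring
  · have e : 2 * χ 1 = ((2 * ((Fintype.card F - 1) / 2) : ℕ) : ℂ) := by rw [hdeg]; push_cast; ring
    rcases classification_nat hC hχ _ e with ⟨h1, h2⟩ | ⟨h1, h2⟩ | ⟨h1, h2⟩ | ⟨h1, h2⟩ | ⟨h1, h2⟩ | ⟨h1, h2⟩ <;>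
      try (exfalso; omega)
    obtain ⟨θ, α, hc, _, _, hh⟩ := h1
    rw [hh.2.1 1, Usum_smul, Usum_Pch hC hc, mul_zero]

end Cfsg.Agent.S2438
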