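import Cfsg.Statements.S2532
import Mathlib
-- import your own Cfsg.Agent.* helpers here

set_option autoImplicit false
open Cfsg

namespace Cfsg.Agent.S2532


section aux
variable {H X : Type*} [Group H] [Finite H] [MulAction H X] [Fintype X] [DecidableEq X]

theorem lemmaA (r : ℕ) (L : Subgroup H) (x : Fin r → X)
    (hst : ∀ i, MulAction.stabilizer H (x i) = L)
    (horb : ∀ i j, x i ∈ MulAction.orbit H (x j) → i = j) :
    ∃ φ : Equiv.Perm (Fin r) →* Equiv.Perm X, Function.Injective φ ∧
      (∀ σ (h : H) (y : X), φ σ (h • y) = h • φ σ y) ∧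
      (∀ σ, Equiv.Perm.sign σ = 1 → Equiv.Perm.sign (φ σ) = 1) := by
  classical
  haveI : Fintype (H ⧸ L) := Fintype.ofFinite _
  let f : (H ⧸ L) × Fin r → X := fun p => Quotient.liftOn' p.1 (fun c => c • x p.2) (by
    intro a b hab
    have h1 : a⁻¹ * b ∈ L := QuotientGroup.leftRel_apply.1 hab
    rw [← hst p.2, MulAction.mem_stabilizer_iff] at h1
    show a • x p.2 = b • x p.2
    conv_lhs => rw [← h1, smul_smul, mul_inv_cancel_left])
  have hf_mk : ∀ (c : H) (i : Fin r), f ((c : H ⧸ L), i) = c • x i := fun c i => rfl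
  have hinj : Function.Injective f := by
    rintro ⟨q, i⟩ ⟨q', i'⟩ h
    induction q using QuotientGroup.induction_on with | _ a => ?_
    induction q' using QuotientGroup.induction_on with | _ b => ?_
    rw [hf_mk, hf_mk] at h
    have h2 : x i = (a⁻¹ * b) • x i' := by rw [mul_smul, ← h, inv_smul_smul]
    have hii : i = i' := horb i i' ⟨a⁻¹ * b, h2.symm⟩
    subst hii
    have h3 : a⁻¹ * b ∈ L := by
      rw [← hst i, MulAction.mem_stabilizer_iff]; exact h2.symm
    rw [QuotientGroup.eq.2 h3]
  have hsm : ∀ (h : H) (q : H ⧸ L) (i : Fin r), h • f (q, i) = f (h • q, i) := by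
    intro h q i
    induction q using QuotientGroup.induction_on with | _ a => ?_
    have : h • (a : H ⧸ L) = ((h * a : H) : H ⧸ L) := rfl
    rw [this, hf_mk, hf_mk, mul_smul]
  let ι : (H ⧸ L) × Fin r ↪ X := ⟨f, hinj⟩
  let P : Equiv.Perm (Fin r) →* Equiv.Perm ((H ⧸ L) × Fin r) :=
    { toFun := fun σ => Equiv.prodCongrRight (fun _ => σ)
      map_one' := by ext ⟨a, b⟩ <;> rfl
      map_mul' := by intro σ τ; ext ⟨a, b⟩ <;> rfl }
  have hP : ∀ σ q i, P σ (q, i) = (q, σ i) := fun σ q i => rfl
  refine ⟨(Equiv.Perm.viaEmbeddingHom ι).comp P, ?_, ?_, ?_⟩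
  · apply (Equiv.Perm.viaEmbeddingHom_injective ι).comp
    intro σ τ h
    ext i
    have := congrArg (fun e : Equiv.Perm ((H ⧸ L) × Fin r) => (e (((1 : H) : H ⧸ L), i)).2) h
    simp only [hP] at this
    rw [this]
  · intro σ h y
    simp only [MonoidHom.comp_apply, Equiv.Perm.viaEmbeddingHom_apply]
    by_cases hy : y ∈ Set.range ι
    · obtain ⟨⟨q, i⟩, rfl⟩ := hy
      have e1 : h • ι (q, i) = ι (h • q, i) := hsm h q i
      rw [e1, Equiv.Perm.viaEmbedding_apply, Equiv.Perm.viaEmbedding_apply, hP, hP]
      exact (hsm h q (σ i)).symm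
    · have hy' : h • y ∉ Set.range ι := by
        rintro ⟨⟨q, i⟩, hq⟩
        apply hy
        refine ⟨(h⁻¹ • q, i), ?_⟩
        have e1 : ι (h⁻¹ • q, i) = h⁻¹ • ι (q, i) := (hsm h⁻¹ q i).symm
        rw [e1, hq, inv_smul_smul]
      rw [Equiv.Perm.viaEmbedding_apply_of_notMem _ _ _ hy,
        Equiv.Perm.viaEmbedding_apply_of_notMem _ _ _ hy']
  · intro σ hσ
    simp only [MonoidHom.comp_apply, Equiv.Perm.viaEmbeddingHom_apply, Equiv.Perm.viaEmbedding,
      Equiv.Perm.sign_extendDomain]
    have : P σ = Equiv.prodCongrRight (fun _ => σ) := rfl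
    rw [this, Equiv.Perm.sign_prodCongrRight]
    simp [hσ]

theorem lemmaB (r : ℕ) (hm : Nat.card H * (2 ^ Nat.card H * r) ≤ Fintype.card X) :
    ∃ (L : Subgroup H) (x : Fin r → X), (∀ i, MulAction.stabilizer H (x i) = L) ∧
      (∀ i j, x i ∈ MulAction.orbit H (x j) → i = j) := by
  classical
  haveI := Fintype.ofFinite H
  haveI : Fintype (MulAction.orbitRel.Quotient H X) := Fintype.ofFinite _
  haveI : Fintype (Subgroup H) := Fintype.ofFinite _
  have hn : 0 < Nat.card H := Nat.card_pos
  have h1 : Fintype.card X ≤ Nat.card H * Fintype.card (MulAction.orbitRel.Quotient H X) := by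
    have := Finset.card_le_mul_card_image (f := fun y : X => (Quotient.mk'' y : MulAction.orbitRel.Quotient H X))
      Finset.univ (Nat.card H) (by
        intro ω _
        induction ω using Quotient.inductionOn' with | _ y => ?_
        have hsub : (Finset.univ.filter fun z : X =>
            (Quotient.mk'' z : MulAction.orbitRel.Quotient H X) = Quotient.mk'' y)
            ⊆ Finset.univ.image (fun h : H => h • y) := by
          intro z hz
          rw [Finset.mem_filter] at hz
          have h2 : z ∈ MulAction.orbit H y := MulAction.orbitRel_apply.1 (Quotient.eq''.1 hz.2)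
          obtain ⟨h, rfl⟩ := h2
          exact Finset.mem_image_of_mem _ (Finset.mem_univ _)
        calc _ ≤ (Finset.univ.image (fun h : H => h • y)).card := Finset.card_le_card hsub
          _ ≤ (Finset.univ : Finset H).card := Finset.card_image_le
          _ = Nat.card H := by rw [Finset.card_univ, Nat.card_eq_fintype_card])
    calc Fintype.card X = (Finset.univ : Finset X).card := rfl
      _ ≤ _ := this
      _ ≤ _ := Nat.mul_le_mul_left _ (Finset.card_le_univ _)
  have h2 : 2 ^ Nat.card H * r ≤ Fintype.card (MulAction.orbitRel.Quotient H X) :=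
    Nat.le_of_mul_le_mul_left (hm.trans h1) hn
  have h3 : Fintype.card (Subgroup H) ≤ 2 ^ Nat.card H := by
    have : Fintype.card (Subgroup H) ≤ Fintype.card (Set H) :=
      Fintype.card_le_of_injective (fun K : Subgroup H => (K : Set H)) SetLike.coe_injective
    rw [Fintype.card_set] at this
    rwa [Nat.card_eq_fintype_card]
  obtain ⟨L, hL⟩ := Fintype.exists_le_card_fiber_of_mul_le_card
    (fun ω : MulAction.orbitRel.Quotient H X => MulAction.stabilizer H (Quotient.out ω))
    (n := r) ((Nat.mul_le_mul_right r h3).trans h2)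
  have h4 : Fintype.card (Fin r) ≤ Fintype.card
      {ω : MulAction.orbitRel.Quotient H X // MulAction.stabilizer H (Quotient.out ω) = L} := by
    rw [Fintype.card_fin, Fintype.card_subtype]
    exact hL
  obtain ⟨e⟩ := Function.Embedding.nonempty_of_card_le h4
  refine ⟨L, fun i => Quotient.out (e i).1, fun i => (e i).2, ?_⟩
  intro i j hij
  apply e.injective
  apply Subtype.ext
  have h5 : (Quotient.mk'' (Quotient.out (e i).1) : MulAction.orbitRel.Quotient H X)
      = Quotient.mk'' (Quotient.out (e j).1) := Quotient.eq''.2 (MulAction.orbitRel_apply.2 hij)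
  rwa [Quotient.out_eq', Quotient.out_eq'] at h5

end aux


/-- There is a function `f` of two natural-number arguments such that, whenever `m ≥ f(n, r)`, every subgroup of order `n` of the alternating group of degree `m` centralizes some subgroup of that alternating group isomorphic to the alternating group of degree `r`. -/
theorem result :
    ∃ f : ℕ → ℕ → ℕ, ∀ (m r : ℕ) (H : Subgroup ↥(alternatingGroup (Fin m))), f (Nat.card H) r ≤ m →
      ∃ K : Subgroup ↥(alternatingGroup (Fin m)), Nonempty (↥K ≃* ↥(alternatingGroup (Fin r))) ∧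
        K ≤ Subgroup.centralizer (H : Set ↥(alternatingGroup (Fin m))) := by
  refine ⟨fun n r => n * (2 ^ n * r), ?_⟩
  intro m r H hm
  obtain ⟨L, x, hst, horb⟩ := lemmaB (H := H) (X := Fin m) r (by simpa using hm)
  obtain ⟨φ, hinj, heq, hsign⟩ := lemmaA r L x hst horb
  let ψ : ↥(alternatingGroup (Fin r)) →* ↥(alternatingGroup (Fin m)) :=
    (φ.comp (alternatingGroup (Fin r)).subtype).codRestrict (alternatingGroup (Fin m)) (by
      intro σ
      rw [Equiv.Perm.mem_alternatingGroup]
      exact hsign _ (Equiv.Perm.mem_alternatingGroup.1 σ.2))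
  have hψ : Function.Injective ψ := by
    intro a b hab
    apply Subtype.ext
    apply hinj
    exact congrArg Subtype.val hab
  refine ⟨ψ.range, ⟨(MonoidHom.ofInjective hψ).symm⟩, ?_⟩
  rintro _ ⟨σ, rfl⟩
  rw [Subgroup.mem_centralizer_iff]
  intro h hh
  apply Subtype.ext
  ext y
  have := heq σ.1 (⟨h, hh⟩ : H) y
  exact congrArg _ this.symm

end Cfsg.Agent.S2532
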