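import Cfsg.Statements.S2540
import Cfsg.Agent.Lib.Helper18.SLGen

set_option autoImplicit false
open Cfsg

namespace Cfsg.Agent.S2540

open Matrix Matrix.SpecialLinearGroup
open scoped commutatorElement

theorem comm_le {S : Type*} [Group S] (H : Subgroup S)
    (hall : ∀ a : S, ∃ h ∈ H, h⁻¹ * a ∈ Subgroup.center S) : commutator S ≤ H := by
  rw [commutator_def, Subgroup.commutator_le]
  intro a _ b _
  obtain ⟨h, hh, hz⟩ := hall a
  obtain ⟨k, hk, hw⟩ := hall b
  obtain ⟨z, hzdef⟩ : ∃ z, z = h⁻¹ * a := ⟨_, rfl⟩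
  obtain ⟨w, hwdef⟩ : ∃ w, w = k⁻¹ * b := ⟨_, rfl⟩
  rw [← hzdef] at hz
  rw [← hwdef] at hw
  have ha : a = h * z := by rw [hzdef]; group
  have hb : b = k * w := by rw [hwdef]; group
  have hz' := Subgroup.mem_center_iff.1 hz
  have hw' := Subgroup.mem_center_iff.1 hw
  have : ⁅a, b⁆ = ⁅h, k⁆ := by
    rw [ha, hb, commutatorElement_def, commutatorElement_def]
    calc h*z*(k*w)*(h*z)⁻¹*(k*w)⁻¹
        = h*(z*k)*w*z⁻¹*h⁻¹*w⁻¹*k⁻¹ := by group
      _ = h*(k*z)*w*z⁻¹*h⁻¹*w⁻¹*k⁻¹ := by rw [hz' k]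
      _ = h*k*(z*w)*z⁻¹*h⁻¹*w⁻¹*k⁻¹ := by group
      _ = h*k*(w*z)*z⁻¹*h⁻¹*w⁻¹*k⁻¹ := by rw [hz' w]
      _ = h*k*(w*h⁻¹)*w⁻¹*k⁻¹ := by group
      _ = h*k*(h⁻¹*w)*w⁻¹*k⁻¹ := by rw [hw' h⁻¹]
      _ = h*k*h⁻¹*k⁻¹ := by group
  rw [this]
  exact H.mul_mem (H.mul_mem (H.mul_mem hh hk) (H.inv_mem hh)) (H.inv_mem hk)

theorem scalar_one {F : Type*} [Field F] {n : ℕ} (t : TransvectionStruct (Fin n) F) (r : F)
    (A Ai : Matrix (Fin n) (Fin n) F) (h1 : Ai * A = 1) (h2 : A * Ai = 1)
    (h : t.toMatrix * A = r • (A * t.toMatrix)) : r = 1 := by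
  obtain ⟨i, j, hij, c⟩ := t
  simp only [TransvectionStruct.toMatrix] at h
  set T := Matrix.transvection i j c with hT
  have hB : Ai * T * A = r • T := by
    rw [mul_assoc, h, mul_smul_comm, ← mul_assoc, h1, one_mul]
  have hN : (T - 1) * (T - 1) = 0 := by
    rw [hT, Matrix.transvection, add_sub_cancel_left, Matrix.single_mul_single_of_ne _ _ _ _ hij.symm]
  have hsq : (r • T - 1) * (r • T - 1) = 0 := by
    have : r • T - 1 = Ai * (T - 1) * A := by
      rw [mul_sub, sub_mul, hB, mul_one, h1]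
    rw [this]
    calc Ai * (T - 1) * A * (Ai * (T - 1) * A) = Ai * (T - 1) * (A * Ai) * (T - 1) * A := by
          simp only [mul_assoc]
      _ = Ai * ((T - 1) * (T - 1)) * A := by rw [h2, mul_one]; simp only [mul_assoc]
      _ = 0 := by rw [hN]; simp
  have hexp : r • T - 1 = (r - 1) • (1 : Matrix (Fin n) (Fin n) F) + Matrix.single i j (r * c) := by
    rw [hT, Matrix.transvection, smul_add, sub_smul, one_smul, Matrix.smul_single, smul_eq_mul]
    abel
  rw [hexp] at hsq
  have hii := congrFun (congrFun hsq i) i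
  rw [add_mul, mul_add, mul_add, Matrix.single_mul_single_of_ne _ _ _ _ hij.symm] at hii
  simp [Matrix.add_apply, hij, hij.symm] at hii
  exact sub_eq_zero.1 hii

/-- abstract part -/
theorem key {F : Type*} [Field F] (n : ℕ)
    (hperf : commutator (SpecialLinearGroup (Fin n) F) = ⊤)
    (hsimple : IsSimpleGroup (Matrix.ProjectiveSpecialLinearGroup (Fin n) F))
    (G : Subgroup (Matrix.GeneralLinearGroup (Fin n) F)) (hG : ∀ s : Matrix.SpecialLinearGroup (Fin n) F, ∀ g ∈ G, (Matrix.SpecialLinearGroup.toGL s) * g * (Matrix.SpecialLinearGroup.toGL s)⁻¹ ∈ G) : (∀ g ∈ G, ∃ c : F, (g : Matrix (Fin n) (Fin n) F) = c • (1 : Matrix (Fin n) (Fin n) F)) ∨ (Matrix.SpecialLinearGroup.toGL : Matrix.SpecialLinearGroup (Fin n) F →* _).range ≤ G := by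
  classical
  set S := SpecialLinearGroup (Fin n) F
  let H : Subgroup S := G.comap toGL
  have hHn : H.Normal := by
    constructor
    intro h hh s
    show toGL (s * h * s⁻¹) ∈ G
    rw [map_mul, map_mul, map_inv]
    exact hG s _ hh
  have hmapn : (H.map (QuotientGroup.mk' (Subgroup.center S))).Normal :=
    hHn.map _ (QuotientGroup.mk'_surjective _)
  rcases hsimple.eq_bot_or_eq_top_of_normal _ hmapn with hb | ht
  · left
    have hHc : H ≤ Subgroup.center S := by
      intro h hh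
      have : QuotientGroup.mk' (Subgroup.center S) h ∈ H.map (QuotientGroup.mk' (Subgroup.center S)) :=
        Subgroup.mem_map_of_mem _ hh
      rw [hb, Subgroup.mem_bot] at this
      exact (QuotientGroup.eq_one_iff h).1 this
    intro g hg
    have hcomm : ∀ t : TransvectionStruct (Fin n) F, Commute t.toMatrix (g : Matrix (Fin n) (Fin n) F) := by
      intro t
      let ts : S := t.toSpecialLinearGroup
      have hc : toGL ts * g * (toGL ts)⁻¹ * g⁻¹ ∈ G := G.mul_mem (hG ts g hg) (G.inv_mem hg)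
      have hdet : ((toGL ts * g * (toGL ts)⁻¹ * g⁻¹ : GL (Fin n) F) : Matrix (Fin n) (Fin n) F).det = 1 := by
        have h1 : Matrix.GeneralLinearGroup.det (toGL ts * g * (toGL ts)⁻¹ * g⁻¹) = 1 := by
          rw [map_mul, map_mul, map_mul, map_inv, map_inv]
          rw [mul_comm (Matrix.GeneralLinearGroup.det (toGL ts))]
          simp
        exact congrArg Units.val h1
      let s : S := ⟨_, hdet⟩
      have hs : toGL s = toGL ts * g * (toGL ts)⁻¹ * g⁻¹ := Units.ext rfl
      have hsH : s ∈ H := by show toGL s ∈ G; rw [hs]; exact hc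
      obtain ⟨r, -, hr⟩ := Matrix.SpecialLinearGroup.mem_center_iff.1 (hHc hsH)
      have hr' : (toGL ts * g : GL (Fin n) F) = toGL s * (g * toGL ts) := by rw [hs]; group
      have hr2 : t.toMatrix * (g : Matrix (Fin n) (Fin n) F) = r • ((g : Matrix (Fin n) (Fin n) F) * t.toMatrix) := by
        have := congrArg Units.val hr'
        simp only [Units.val_mul] at this
        have e1 : ((toGL ts : GL (Fin n) F) : Matrix (Fin n) (Fin n) F) = t.toMatrix := rfl
        have e2 : ((toGL s : GL (Fin n) F) : Matrix (Fin n) (Fin n) F) = Matrix.scalar (Fin n) r := hr.symm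
        rw [e1, e2] at this
        rw [this, Matrix.scalar_apply, ← Matrix.smul_one_eq_diagonal, smul_mul_assoc, one_mul]
      have hr1 := scalar_one t r (g : Matrix (Fin n) (Fin n) F) ((g⁻¹ : GL (Fin n) F) : Matrix (Fin n) (Fin n) F)
        (by rw [← Units.val_mul]; simp) (by rw [← Units.val_mul]; simp) hr2
      rw [hr1, one_smul] at hr2
      exact hr2
    obtain ⟨c, hc⟩ := Matrix.mem_range_scalar_of_commute_transvectionStruct hcomm
    exact ⟨c, by rw [← hc, Matrix.smul_one_eq_diagonal]; rfl⟩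
  · right
    have hall : ∀ a : S, ∃ h ∈ H, h⁻¹ * a ∈ Subgroup.center S := by
      intro a
      have : QuotientGroup.mk' (Subgroup.center S) a ∈ H.map (QuotientGroup.mk' (Subgroup.center S)) := by
        rw [ht]; trivial
      obtain ⟨h, hh, he⟩ := this
      exact ⟨h, hh, QuotientGroup.eq.1 he⟩
    have hle : commutator S ≤ H := comm_le H hall
    rintro _ ⟨s, rfl⟩
    have : s ∈ H := hle (by rw [hperf]; trivial)
    exact this



/-- Let F be a finite field and n ≥ 1, excluding the case n = 2 with #F ≤ 3. A subgroup of GL_n(F) that is normalized by every element of SL_n(F) either consists of scalar matrices or contains SL_n(F). -/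
theorem result {F : Type*} [Field F] [Fintype F] (n : ℕ) (hn : 1 ≤ n) (hex : ¬ (n = 2 ∧ Fintype.card F ≤ 3)) (G : Subgroup (Matrix.GeneralLinearGroup (Fin n) F)) (hG : ∀ s : Matrix.SpecialLinearGroup (Fin n) F, ∀ g ∈ G, (Matrix.SpecialLinearGroup.toGL s) * g * (Matrix.SpecialLinearGroup.toGL s)⁻¹ ∈ G) : (∀ g ∈ G, ∃ c : F, (g : Matrix (Fin n) (Fin n) F) = c • (1 : Matrix (Fin n) (Fin n) F)) ∨ (Matrix.SpecialLinearGroup.toGL : Matrix.SpecialLinearGroup (Fin n) F →* _).range ≤ G := by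
  rcases (by omega : n = 1 ∨ n = 2 ∨ 3 ≤ n) with rfl | rfl | h3
  · left
    intro g _
    refine ⟨(g : Matrix (Fin 1) (Fin 1) F) 0 0, ?_⟩
    ext i j
    fin_cases i; fin_cases j
    simp
  · have h4 : 4 ≤ Nat.card F := by
      rw [Nat.card_eq_fintype_card]
      by_contra h
      exact hex ⟨rfl, by omega⟩
    have hs := Matrix.ProjectiveSpecialLinearGroup.rank_two_simple h4
    have hF : ∃ a : F, a ≠ 0 ∧ a ^ 2 ≠ 1 := by
      obtain ⟨x, hx⟩ : IsCyclic Fˣ := by infer_instance
      refine ⟨x, Units.ne_zero x, fun h ↦ ?_⟩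
      grw [Nat.card_eq_card_units_add_one F, ← orderOf_eq_card_of_forall_mem_zpowers hx,
        orderOf_le_of_pow_eq_one zero_lt_two (Units.ext <| by simpa using h)] at h4
      omega
    obtain ⟨a, ha, ha2⟩ := hF
    exact key 2 (SL2.commutator_eq_top ha ha2) hs G hG
  · exact key n (Cfsg.Agent.Lib.Helper18.SL_commutator_eq_top (by simpa using h3))
      (Cfsg.Agent.Lib.Helper18.PSL_isSimpleGroup (by simpa using h3)) G hG

end Cfsg.Agent.S2540
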