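import Mathlib
import Cfsg.Agent.Lib.Helper18.SLCard
import Cfsg.Agent.Lib.Helper18.SLCard2
import Cfsg.Agent.S0819
import Cfsg.Statements.S2550
-- import your own Cfsg.Agent.* helpers here

set_option autoImplicit false
open Cfsg Cfsg.Agent.Lib.Helper18 Matrix

namespace Cfsg.Agent.S2550

/-- companion matrix of `x^4 + x + 1`. -/
def M0 : Matrix (Fin 4) (Fin 4) (ZMod 2) := !![0,0,0,1; 1,0,0,1; 0,1,0,0; 0,0,1,0]

theorem M0_det : M0.det = 1 := by decide +kernel

def S0 : Matrix.SpecialLinearGroup (Fin 4) (ZMod 2) := ⟨M0, M0_det⟩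

theorem S0_pow15 : S0 ^ 15 = 1 := by decide +kernel
theorem S0_pow5 : S0 ^ 5 ≠ 1 := by decide +kernel
theorem S0_pow3 : S0 ^ 3 ≠ 1 := by decide +kernel

theorem S0_order : orderOf S0 = 15 := by
  refine orderOf_eq_of_pow_and_pow_div_prime (by norm_num) S0_pow15 ?_
  intro p hp hd
  have hp' : p ∣ 3 * 5 := by simpa using hd
  rcases (Nat.Prime.dvd_mul hp).1 hp' with h | h
  · have : p = 3 := (Nat.prime_dvd_prime_iff_eq hp (by norm_num)).1 h
    subst this
    exact S0_pow5
  · have : p = 5 := (Nat.prime_dvd_prime_iff_eq hp (by norm_num)).1 h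
    subst this
    exact S0_pow3


/-- Let F be a field with 2 elements and K a field with 4 elements. PSL_4(F) and PSL_3(K) have the same order (20160) but are not isomorphic. -/
theorem result {F K : Type*} [Field F] [Fintype F] [Field K] [Fintype K] (hF : Fintype.card F = 2) (hK : Fintype.card K = 4) : Nat.card (Matrix.ProjectiveSpecialLinearGroup (Fin 4) F) = Nat.card (Matrix.ProjectiveSpecialLinearGroup (Fin 3) K) ∧ ¬ Nonempty (Matrix.ProjectiveSpecialLinearGroup (Fin 4) F ≃* Matrix.ProjectiveSpecialLinearGroup (Fin 3) K) := by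
  classical
  have c1 : Nat.card (Matrix.ProjectiveSpecialLinearGroup (Fin 4) F) = 20160 := by
    have h1 := card_GL_eq (n := Fin 4) (F := F)
    have h2 := card_SL_eq_center_mul_PSL (F := F) 4 (by norm_num)
    rw [Matrix.card_GL_field, hF] at h1
    rw [hF] at h2
    simp only [Fin.prod_univ_succ, Finset.univ_eq_empty, Finset.prod_empty] at h1
    norm_num at h1 h2
    rw [Nat.card_eq_fintype_card]
    omega
  have c2 : Nat.card (Matrix.ProjectiveSpecialLinearGroup (Fin 3) K) = 20160 := by
    have h1 := card_GL_eq (n := Fin 3) (F := K)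
    have h2 := card_SL_eq_center_mul_PSL (F := K) 3 (by norm_num)
    rw [Matrix.card_GL_field, hK] at h1
    rw [hK] at h2
    simp only [Fin.prod_univ_succ, Finset.univ_eq_empty, Finset.prod_empty] at h1
    norm_num at h1 h2
    rw [Nat.card_eq_fintype_card]
    omega
  refine ⟨by rw [c1, c2], ?_⟩
  rintro ⟨e⟩
  have h2 : (2 : F) = 0 := by
    have := Nat.cast_card_eq_zero F
    rw [hF] at this
    exact_mod_cast this
  have : CharP F 2 := CharTwo.of_one_ne_zero_of_two_eq_zero one_ne_zero h2
  let f : ZMod 2 →+* F := ZMod.castHom (dvd_refl 2) F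
  have hf : Function.Injective (Matrix.SpecialLinearGroup.map (n := Fin 4) f) := by
    intro a b hab
    ext i j
    have := congrArg (fun x : Matrix.SpecialLinearGroup (Fin 4) F => x.1 i j) hab
    exact f.injective this
  have hc : Subgroup.center (Matrix.SpecialLinearGroup (Fin 4) F) = ⊥ := by
    apply Subgroup.eq_bot_of_card_eq
    rw [card_center_SL 4 (by norm_num), hF]
    rfl
  have hmk : Function.Injective (QuotientGroup.mk' (Subgroup.center (Matrix.SpecialLinearGroup (Fin 4) F))) := by
    rw [← MonoidHom.ker_eq_bot_iff, QuotientGroup.ker_mk', hc]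
  have ho : orderOf (e (QuotientGroup.mk' _ (Matrix.SpecialLinearGroup.map (n := Fin 4) f S0))) = 15 := by
    rw [MulEquiv.orderOf_eq, orderOf_injective _ hmk, orderOf_injective _ hf, S0_order]
  exact Cfsg.Agent.S0819.result hK _ ho

end Cfsg.Agent.S2550
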