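import Cfsg.Statements.S2552
import Cfsg.Agent.Lib.Helper29.Transv

set_option autoImplicit false
open Cfsg

namespace Cfsg.Agent.S2552

open Cfsg.Agent.Lib.Helper29


/-- Let F be a finite field and n ≥ 1. For every k, the special linear group SL_n(F) acts transitively on the set of k-dimensional subspaces of F^n: any two subspaces of the same dimension are carried onto each other by some matrix of determinant 1. -/
theorem result {F : Type*} [Field F] [Fintype F] (n : ℕ) (hn : 1 ≤ n) (U₁ U₂ : Submodule F (Fin n → F)) (h : Module.finrank F U₁ = Module.finrank F U₂) : ∃ g : Matrix.SpecialLinearGroup (Fin n) F, U₁.map ((Matrix.SpecialLinearGroup.toLin' g : (Fin n → F) ≃ₗ[F] (Fin n → F)) : (Fin n → F) →ₗ[F] (Fin n → F)) = U₂ := by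
  obtain ⟨t, ht, h2⟩ := exists_mem_glMap_eq (Cfsg.Geo.specialLinear (Fin n) F)
    (fun f v h => tv_mem_specialLinear f v h) U₁ U₂ h
  rw [mem_specialLinear_iff] at ht
  refine ⟨⟨t.val, ht⟩, ?_⟩
  rw [← h2]
  rfl

end Cfsg.Agent.S2552
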