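import Mathlib
import Cfsg.Agent.Lib.Helper18.F2Forms2
import Cfsg.Statements.S2561
-- import your own Cfsg.Agent.* helpers here

set_option autoImplicit false
open Cfsg Cfsg.Agent.Lib.Helper18

namespace Cfsg.Agent.S2561

/-- Fix the non-singular alternating form on the 2m-dimensional space over the field of two elements obtained by polarizing the plus-type form Σ xᵢyᵢ (m ≥ 1). The functions q on the space with q(u + v) = q(u) + q(v) + f(u, v) (the quadratic forms polarizing to f) number 2^(2m); each is equivalent under an invertible linear map either to the plus-type form or to the minus-type form Σ xᵢyᵢ + (z₁² + z₁z₂ + z₂²); and those of plus type number 2^(2m−1) + 2^(m−1), those of minus type 2^(2m−1) − 2^(m−1). -/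
theorem result (m : ℕ) (hm : 1 ≤ m) :
    Nat.card {q : (Fin m ⊕ Fin m → ZMod 2) → ZMod 2 // (∀ u v : (Fin m ⊕ Fin m → ZMod 2), q (u + v) = q u + q v + (Cfsg.quadFormPlus m (ZMod 2) (u + v) - Cfsg.quadFormPlus m (ZMod 2) u - Cfsg.quadFormPlus m (ZMod 2) v))} = 2 ^ (2 * m) ∧
    (∀ q : (Fin m ⊕ Fin m → ZMod 2) → ZMod 2, (∀ u v : (Fin m ⊕ Fin m → ZMod 2), q (u + v) = q u + q v + (Cfsg.quadFormPlus m (ZMod 2) (u + v) - Cfsg.quadFormPlus m (ZMod 2) u - Cfsg.quadFormPlus m (ZMod 2) v)) →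
      (∃ g : (Fin m ⊕ Fin m → ZMod 2) ≃ₗ[ZMod 2] (Fin m ⊕ Fin m → ZMod 2), ∀ v, q v = Cfsg.quadFormPlus m (ZMod 2) (g v)) ∨
      (∃ g : (Fin m ⊕ Fin m → ZMod 2) ≃ₗ[ZMod 2] ((Fin (m - 1) ⊕ Fin (m - 1)) ⊕ Fin 2 → ZMod 2), ∀ v, q v = Cfsg.quadFormMinus (m - 1) (ZMod 2) 1 1 (g v))) ∧
    Nat.card {q : (Fin m ⊕ Fin m → ZMod 2) → ZMod 2 // (∀ u v : (Fin m ⊕ Fin m → ZMod 2), q (u + v) = q u + q v + (Cfsg.quadFormPlus m (ZMod 2) (u + v) - Cfsg.quadFormPlus m (ZMod 2) u - Cfsg.quadFormPlus m (ZMod 2) v)) ∧ ∃ g : (Fin m ⊕ Fin m → ZMod 2) ≃ₗ[ZMod 2] (Fin m ⊕ Fin m → ZMod 2), ∀ v, q v = Cfsg.quadFormPlus m (ZMod 2) (g v)} = 2 ^ (2 * m - 1) + 2 ^ (m - 1) ∧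
    Nat.card {q : (Fin m ⊕ Fin m → ZMod 2) → ZMod 2 // (∀ u v : (Fin m ⊕ Fin m → ZMod 2), q (u + v) = q u + q v + (Cfsg.quadFormPlus m (ZMod 2) (u + v) - Cfsg.quadFormPlus m (ZMod 2) u - Cfsg.quadFormPlus m (ZMod 2) v)) ∧ ∃ g : (Fin m ⊕ Fin m → ZMod 2) ≃ₗ[ZMod 2] ((Fin (m - 1) ⊕ Fin (m - 1)) ⊕ Fin 2 → ZMod 2), ∀ v, q v = Cfsg.quadFormMinus (m - 1) (ZMod 2) 1 1 (g v)} = 2 ^ (2 * m - 1) - 2 ^ (m - 1) := by
  obtain ⟨k, rfl⟩ : ∃ k, m = k + 1 := ⟨m - 1, by omega⟩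
  show Nat.card {q // IsF2Quad (k + 1) q} = 2 ^ (2 * (k + 1)) ∧
    (∀ q, IsF2Quad (k + 1) q → IsF2Plus (k + 1) q ∨ IsF2Minus k q) ∧
    Nat.card {q // IsF2Quad (k + 1) q ∧ IsF2Plus (k + 1) q} = 2 ^ (2 * (k + 1) - 1) + 2 ^ k ∧
    Nat.card {q // IsF2Quad (k + 1) q ∧ IsF2Minus k q} = 2 ^ (2 * (k + 1) - 1) - 2 ^ k
  have e0 : 2 * (k + 1) - 1 = 2 * k + 1 := by omega
  have e1 : 2 ^ (2 * (k + 1)) = 2 * 2 ^ (2 * k + 1) := by ring
  have e2 : 2 ^ (k + 1) = 2 * 2 ^ k := by ring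
  have h3 := f2_two_mul_card_plus (m := k + 1)
  have h4 := f2_two_mul_card_one (m := k + 1)
  rw [e0]
  refine ⟨?_, ?_, ?_, ?_⟩
  · rw [← Nat.card_congr (f2Equiv (k + 1)), Nat.card_fun,
      Nat.card_eq_fintype_card (α := Fin (k + 1) ⊕ Fin (k + 1)), Fintype.card_sum,
      Fintype.card_fin, Nat.card_eq_fintype_card, ZMod.card, two_mul]
  · intro q hq
    obtain ⟨c, hc⟩ := (f2Equiv (k + 1)).surjective ⟨q, hq⟩
    have hq' : q = (f2Equiv (k + 1) c).1 := by rw [hc]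
    rw [hq']
    rcases zmod2_cases (Cfsg.quadFormPlus (k + 1) (ZMod 2) c) with h | h
    · exact Or.inl ((f2_plus_iff c).2 h)
    · exact Or.inr ((f2_minus_iff c).2 h)
  · have : Nat.card {q // IsF2Quad (k + 1) q ∧ IsF2Plus (k + 1) q}
        = Nat.card {c // Cfsg.quadFormPlus (k + 1) (ZMod 2) c = 0} := by
      apply Nat.card_congr
      refine (Equiv.subtypeSubtypeEquivSubtypeInter (IsF2Quad (k + 1)) (IsF2Plus (k + 1))).symm.trans ?_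
      exact ((f2Equiv (k + 1)).subtypeEquiv (fun c => (f2_plus_iff c).symm)).symm
    rw [this]
    omega
  · have : Nat.card {q // IsF2Quad (k + 1) q ∧ IsF2Minus k q}
        = Nat.card {c // Cfsg.quadFormPlus (k + 1) (ZMod 2) c = 1} := by
      apply Nat.card_congr
      refine (Equiv.subtypeSubtypeEquivSubtypeInter (IsF2Quad (k + 1)) (IsF2Minus k)).symm.trans ?_
      exact ((f2Equiv (k + 1)).subtypeEquiv (fun c => (f2_minus_iff c).symm)).symm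
    rw [this]
    omega

end Cfsg.Agent.S2561
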