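import Mathlib
import Cfsg.Agent.Lib.Helper18.PermO2
import Cfsg.Statements.S2563
-- import your own Cfsg.Agent.* helpers here

set_option autoImplicit false
open Cfsg Cfsg.Agent.Lib.Helper18 Matrix

namespace Cfsg.Agent.S2563

/-- For k ≥ 1 the symmetric group of degree 4k + 4 embeds in a full orthogonal group in dimension 4k + 2 over the field of two elements: in the isometry group of the plus-type form Σ xᵢyᵢ when k is odd, and in that of the minus-type form Σ xᵢyᵢ + (z₁² + z₁z₂ + z₂²) when k is even (through its action on even partitions of a (4k+4)-set, with the form 'half the size of a part, modulo 2'). -/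
theorem result (k : ℕ) (hk : 1 ≤ k) :
    (Odd k → ∃ φ : Equiv.Perm (Fin (4 * k + 4)) →* ↥(Cfsg.isometryGroup (ZMod 2) (Cfsg.quadFormPlus (2 * k + 1) (ZMod 2))), Function.Injective φ) ∧
    (Even k → ∃ φ : Equiv.Perm (Fin (4 * k + 4)) →* ↥(Cfsg.isometryGroup (ZMod 2) (Cfsg.quadFormMinus (2 * k) (ZMod 2) 1 1)), Function.Injective φ) := by
  obtain ⟨φ, hφ⟩ := exists_perm_embedding_heart (2 * k + 1) (by omega) ⟨k, rfl⟩
  have key : ∀ N, N = 2 * (2 * k + 1) + 2 → ∃ φ : Equiv.Perm (Fin N) →*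
      Cfsg.isometryGroup (ZMod 2) (⇑(f2Q (heartC (2 * k + 1)))), Function.Injective φ := by
    rintro N rfl
    exact ⟨φ, hφ⟩
  obtain ⟨φ', hφ'⟩ := key (4 * k + 4) (by ring)
  have hc : Cfsg.quadFormPlus (2 * k + 1) (ZMod 2) (heartC (2 * k + 1)) = ((k + 1 : ℕ) : ZMod 2) := by
    rw [quadFormPlus_heartC, show 2 * k + 1 + 1 = 2 * (k + 1) by ring, triF_two_mul]
  have h2 : (2 : ZMod 2) = 0 := by decide
  constructor
  · rintro ⟨j, rfl⟩
    have hc0 : Cfsg.quadFormPlus (2 * (2 * j + 1) + 1) (ZMod 2) (heartC (2 * (2 * j + 1) + 1)) = 0 := by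
      rw [hc]
      push_cast
      linear_combination ((j : ZMod 2) + 1) * h2
    obtain ⟨g, hg⟩ := (f2_plus_iff _).2 hc0
    exact exists_hom_iso_transport _ _ g (fun v => by rw [f2Q_apply, hg]) φ' hφ'
  · rintro ⟨j, rfl⟩
    have hc1 : Cfsg.quadFormPlus (2 * (j + j) + 1) (ZMod 2) (heartC (2 * (j + j) + 1)) = 1 := by
      rw [hc]
      push_cast
      linear_combination (j : ZMod 2) * h2
    obtain ⟨g, hg⟩ := (f2_minus_iff _).2 hc1
    exact exists_hom_iso_transport _ _ g (fun v => by rw [f2Q_apply, hg]) φ' hφ'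

end Cfsg.Agent.S2563
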