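import Mathlib
import Cfsg.Agent.Lib.Helper18.F2Forms
import Cfsg.Statements.S2564
-- import your own Cfsg.Agent.* helpers here

set_option autoImplicit false
open Cfsg Cfsg.Agent.Lib.Helper18

namespace Cfsg.Agent.S2564

/-- On the 2m-dimensional space over the field of two elements (m ≥ 1) let f be the alternating form obtained by polarizing the plus-type form Σ xᵢyᵢ, and let q be any quadratic form polarizing to f. For a vector w, the function q + f(·, w) again polarizes to f, and it is equivalent to q under an invertible linear map (that is, has the same type) if and only if q(w) = 0. -/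
theorem result (m : ℕ) (hm : 1 ≤ m) (q : (Fin m ⊕ Fin m → ZMod 2) → ZMod 2) (hq : (∀ u v : (Fin m ⊕ Fin m → ZMod 2), q (u + v) = q u + q v + (Cfsg.quadFormPlus m (ZMod 2) (u + v) - Cfsg.quadFormPlus m (ZMod 2) u - Cfsg.quadFormPlus m (ZMod 2) v))) (w : (Fin m ⊕ Fin m → ZMod 2)) :
    (∀ u v : (Fin m ⊕ Fin m → ZMod 2), (q (u + v) + (Cfsg.quadFormPlus m (ZMod 2) (u + v + w) - Cfsg.quadFormPlus m (ZMod 2) (u + v) - Cfsg.quadFormPlus m (ZMod 2) w)) =
        (q u + (Cfsg.quadFormPlus m (ZMod 2) (u + w) - Cfsg.quadFormPlus m (ZMod 2) u - Cfsg.quadFormPlus m (ZMod 2) w)) + (q v + (Cfsg.quadFormPlus m (ZMod 2) (v + w) - Cfsg.quadFormPlus m (ZMod 2) v - Cfsg.quadFormPlus m (ZMod 2) w)) +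
        (Cfsg.quadFormPlus m (ZMod 2) (u + v) - Cfsg.quadFormPlus m (ZMod 2) u - Cfsg.quadFormPlus m (ZMod 2) v)) ∧
    ((∃ g : (Fin m ⊕ Fin m → ZMod 2) ≃ₗ[ZMod 2] (Fin m ⊕ Fin m → ZMod 2), ∀ v, q v + (Cfsg.quadFormPlus m (ZMod 2) (v + w) - Cfsg.quadFormPlus m (ZMod 2) v - Cfsg.quadFormPlus m (ZMod 2) w) = q (g v)) ↔ q w = 0) := by
  have hq' : IsF2Quad m q := hq
  refine ⟨fun u v => ?_, ?_⟩
  · show q (u + v) + f2B m (u + v) w = (q u + f2B m u w) + (q v + f2B m v w) + f2B m u v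
    rw [f2B_add_left, hq' u v]
    ring
  · show (∃ g : (Fin m ⊕ Fin m → ZMod 2) ≃ₗ[ZMod 2] (Fin m ⊕ Fin m → ZMod 2),
      ∀ v, q v + f2B m v w = q (g v)) ↔ q w = 0
    constructor
    · rintro ⟨g, hg⟩
      by_contra hw
      have hw1 : q w = 1 := (zmod2_cases (q w)).resolve_left hw
      have h1 := f2_card_shift hq' w 0
      rw [hw1, zero_add] at h1
      have h2 : Nat.card {v // q v + f2B m v w = 0} = Nat.card {u // q u = 0} := by
        apply Nat.card_congr
        exact g.toEquiv.subtypeEquiv (fun v => by rw [hg]; rfl)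
      have h3 := f2_card_add q
      have h4 := f2_two_mul_card_ne hq'
      omega
    · intro hw
      exact ⟨f2T w, fun v => (f2_q_T hq' hw v).symm⟩

end Cfsg.Agent.S2564
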