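import Mathlib
import Cfsg.Agent.Lib.Helper18.Quad4
import Cfsg.Statements.S2566
-- import your own Cfsg.Agent.* helpers here

set_option autoImplicit false
open Cfsg Cfsg.Agent.Lib.Helper18 Matrix

namespace Cfsg.Agent.S2566


/-- 2x2 matrix of a permutation of three points on the sum-zero module. -/
def P2 (σ : Equiv.Perm (Fin 3)) : Matrix (Fin 2) (Fin 2) (ZMod 2) :=
  Matrix.of fun j i => (if σ (Fin.castSucc i) = Fin.castSucc j then 1 else 0) +
    (if σ 2 = Fin.castSucc j then 1 else 0)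

/-- positions -/
def pos : Fin 2 ⊕ Fin 2 → Fin 2 × Fin 2
  | Sum.inl 0 => (0, 0)
  | Sum.inr 0 => (1, 1)
  | Sum.inl 1 => (0, 1)
  | Sum.inr 1 => (1, 0)

def Amat (σ : Equiv.Perm (Fin 3)) : Matrix (Fin 2 ⊕ Fin 2) (Fin 2 ⊕ Fin 2) (ZMod 2) :=
  Matrix.of fun x y => if (pos x).2 = (pos y).2 then P2 σ (pos x).1 (pos y).1 else 0

def Bmat (σ : Equiv.Perm (Fin 3)) : Matrix (Fin 2 ⊕ Fin 2) (Fin 2 ⊕ Fin 2) (ZMod 2) :=
  Matrix.of fun x y => if (pos x).1 = (pos y).1 then P2 σ (pos x).2 (pos y).2 else 0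

def Tmat : Matrix (Fin 2 ⊕ Fin 2) (Fin 2 ⊕ Fin 2) (ZMod 2) :=
  Matrix.of fun x y => if pos x = (pos y).swap then 1 else 0

theorem Amat_mul : ∀ σ τ : Equiv.Perm (Fin 3), Amat (σ * τ) = Amat σ * Amat τ := by decide +kernel
theorem Bmat_mul : ∀ σ τ : Equiv.Perm (Fin 3), Bmat (σ * τ) = Bmat σ * Bmat τ := by decide +kernel
theorem Amat_one : Amat 1 = 1 := by decide +kernel
theorem Bmat_one : Bmat 1 = 1 := by decide +kernel
theorem AB_comm : ∀ σ τ : Equiv.Perm (Fin 3), Amat σ * Bmat τ = Bmat τ * Amat σ := by decide +kernel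
theorem AB_inj : ∀ σ τ : Equiv.Perm (Fin 3), Amat σ * Bmat τ = 1 → σ = 1 ∧ τ = 1 := by decide +kernel
theorem T_sq : Tmat * Tmat = 1 := by decide +kernel
theorem T_conj : ∀ σ : Equiv.Perm (Fin 3), Tmat * Amat σ * Tmat = Bmat σ := by decide +kernel
theorem A_pres : ∀ (σ : Equiv.Perm (Fin 3)) (v : Fin 2 ⊕ Fin 2 → ZMod 2),
    quadFormPlus 2 (ZMod 2) (Amat σ *ᵥ v) = quadFormPlus 2 (ZMod 2) v := by decide +kernel
theorem B_pres : ∀ (σ : Equiv.Perm (Fin 3)) (v : Fin 2 ⊕ Fin 2 → ZMod 2),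
    quadFormPlus 2 (ZMod 2) (Bmat σ *ᵥ v) = quadFormPlus 2 (ZMod 2) v := by decide +kernel
theorem T_pres : ∀ (v : Fin 2 ⊕ Fin 2 → ZMod 2),
    quadFormPlus 2 (ZMod 2) (Tmat *ᵥ v) = quadFormPlus 2 (ZMod 2) v := by decide +kernel


/-- hom to matrices -/
def AHom : Equiv.Perm (Fin 3) →* Matrix (Fin 2 ⊕ Fin 2) (Fin 2 ⊕ Fin 2) (ZMod 2) where
  toFun := Amat
  map_one' := Amat_one
  map_mul' := Amat_mul

def BHom : Equiv.Perm (Fin 3) →* Matrix (Fin 2 ⊕ Fin 2) (Fin 2 ⊕ Fin 2) (ZMod 2) where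
  toFun := Bmat
  map_one' := Bmat_one
  map_mul' := Bmat_mul

noncomputable def φA : Equiv.Perm (Fin 3) →* Cfsg.isometryGroup (ZMod 2) (Cfsg.quadFormPlus 2 (ZMod 2)) :=
  AHom.toHomUnits.codRestrict _ (fun σ u _ => A_pres σ u)

noncomputable def φB : Equiv.Perm (Fin 3) →* Cfsg.isometryGroup (ZMod 2) (Cfsg.quadFormPlus 2 (ZMod 2)) :=
  BHom.toHomUnits.codRestrict _ (fun σ u _ => B_pres σ u)

lemma φA_val (σ : Equiv.Perm (Fin 3)) : ((φA σ).1 : Matrix (Fin 2 ⊕ Fin 2) (Fin 2 ⊕ Fin 2) (ZMod 2)) = Amat σ := rfl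
lemma φB_val (σ : Equiv.Perm (Fin 3)) : ((φB σ).1 : Matrix (Fin 2 ⊕ Fin 2) (Fin 2 ⊕ Fin 2) (ZMod 2)) = Bmat σ := rfl

lemma iso_ext {x y : Cfsg.isometryGroup (ZMod 2) (Cfsg.quadFormPlus 2 (ZMod 2))}
    (h : (x.1 : Matrix (Fin 2 ⊕ Fin 2) (Fin 2 ⊕ Fin 2) (ZMod 2)) = y.1) : x = y :=
  Subtype.ext (Units.ext h)

lemma φ_comm (σ τ : Equiv.Perm (Fin 3)) : Commute (φA σ) (φB τ) :=
  iso_ext (AB_comm σ τ)

/-- the swapping element -/
def gT : Cfsg.isometryGroup (ZMod 2) (Cfsg.quadFormPlus 2 (ZMod 2)) :=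
  ⟨⟨Tmat, Tmat, T_sq, T_sq⟩, fun u _ => T_pres u⟩


/-- The full orthogonal group of the plus-type form x₁y₁ + x₂y₂ in dimension 4 over the field of two elements has order 72 and is isomorphic to the wreath product of the symmetric group of degree 3 by a group of order 2: it has a normal subgroup isomorphic to the direct product of two symmetric groups of degree 3, of index 2, whose two direct factors are interchanged by conjugation by some element. -/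
theorem result :
    Nat.card ↥(Cfsg.isometryGroup (ZMod 2) (Cfsg.quadFormPlus 2 (ZMod 2))) = 72 ∧
    ∃ (A B : Subgroup ↥(Cfsg.isometryGroup (ZMod 2) (Cfsg.quadFormPlus 2 (ZMod 2)))),
      Nonempty (↥A ≃* Equiv.Perm (Fin 3)) ∧ Nonempty (↥B ≃* Equiv.Perm (Fin 3)) ∧ A ⊓ B = ⊥ ∧ (∀ a ∈ A, ∀ b ∈ B, a * b = b * a) ∧
      (A ⊔ B).index = 2 ∧ ∃ g : ↥(Cfsg.isometryGroup (ZMod 2) (Cfsg.quadFormPlus 2 (ZMod 2))), A.map (MulAut.conj g).toMonoidHom = B := by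
  have hcard : Nat.card ↥(Cfsg.isometryGroup (ZMod 2) (Cfsg.quadFormPlus 2 (ZMod 2))) = 72 := by
    rw [card_isometry_plus, ZMod.card]
    simp [Finset.prod_range_succ, oSeq]
  have hinj : Function.Injective (φA.noncommCoprod φB φ_comm) := by
    rw [injective_iff_map_eq_one]
    rintro ⟨σ, τ⟩ h
    have h1 : Amat σ * Bmat τ = 1 := congrArg (fun x => (x.1 : Matrix (Fin 2 ⊕ Fin 2) (Fin 2 ⊕ Fin 2) (ZMod 2))) h
    obtain ⟨rfl, rfl⟩ := AB_inj σ τ h1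
    rfl
  have hAinj : Function.Injective φA := by
    intro σ τ h
    have := @hinj (σ, 1) (τ, 1) (by simp [MonoidHom.noncommCoprod_apply, h])
    exact (Prod.ext_iff.1 this).1
  have hBinj : Function.Injective φB := by
    intro σ τ h
    have := @hinj (1, σ) (1, τ) (by simp [MonoidHom.noncommCoprod_apply, h])
    exact (Prod.ext_iff.1 this).2
  refine ⟨hcard, φA.range, φB.range, ⟨(MonoidHom.ofInjective hAinj).symm⟩,
    ⟨(MonoidHom.ofInjective hBinj).symm⟩, ?_, ?_, ?_, gT, ?_⟩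
  · rw [eq_bot_iff]
    rintro x ⟨⟨σ, rfl⟩, ⟨τ, hτ⟩⟩
    have h1 : φA.noncommCoprod φB φ_comm (σ, τ⁻¹) = 1 := by
      rw [MonoidHom.noncommCoprod_apply]
      show φA σ * φB τ⁻¹ = 1
      rw [map_inv, hτ, mul_inv_cancel]
    have h2 := hinj (h1.trans (map_one _).symm)
    have h3 : σ = 1 := (Prod.ext_iff.1 h2).1
    rw [h3, map_one]
    exact Subgroup.mem_bot.2 rfl
  · rintro a ⟨σ, rfl⟩ b ⟨τ, rfl⟩
    exact φ_comm σ τ
  · rw [← MonoidHom.noncommCoprod_range φA φB φ_comm]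
    have h1 : Nat.card (φA.noncommCoprod φB φ_comm).range = 36 := by
      rw [← Nat.card_congr (MonoidHom.ofInjective hinj).toEquiv, Nat.card_prod,
        Nat.card_eq_fintype_card, Fintype.card_perm, Fintype.card_fin]
      rfl
    have h2 := Subgroup.card_mul_index (φA.noncommCoprod φB φ_comm).range
    rw [h1, hcard] at h2
    omega
  · rw [MonoidHom.map_range]
    congr 1
    ext1 σ
    apply iso_ext
    exact T_conj σ

end Cfsg.Agent.S2566
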