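import Mathlib
import Cfsg.Statements.S2567
-- import your own Cfsg.Agent.* helpers here

set_option autoImplicit false
open Cfsg

namespace Cfsg.Agent.S2567

lemma unique_lift {G : Type*} [Group G] (N : ℕ)
    (hN : ∀ z ∈ Subgroup.center G, z ^ N = 1) (r : ℕ) (hr : r.Prime) (hco : Nat.Coprime r N)
    (x : G ⧸ Subgroup.center G) (hx : orderOf x = r) :
    ∃! g : G, (QuotientGroup.mk g : G ⧸ Subgroup.center G) = x ∧ orderOf g = r := by
  obtain ⟨g₀, rfl⟩ := QuotientGroup.mk_surjective x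
  have hz : g₀ ^ r ∈ Subgroup.center G := by
    rw [← QuotientGroup.eq_one_iff, QuotientGroup.mk_pow, ← hx, pow_orderOf_eq_one]
  -- every central element killed by r is trivial
  have hkill : ∀ z ∈ Subgroup.center G, z ^ r = 1 → z = 1 := by
    intro z hz1 hz2
    have h1 : orderOf z ∣ r := orderOf_dvd_of_pow_eq_one hz2
    have h2 : orderOf z ∣ N := orderOf_dvd_of_pow_eq_one (hN z hz1)
    have h3 : orderOf z ∣ 1 := by
      have := Nat.dvd_gcd h1 h2
      rwa [hco] at this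
    exact orderOf_eq_one_iff.1 (Nat.dvd_one.1 h3)
  -- r-th roots in the centre
  have hroot : ∃ w ∈ Subgroup.center G, w ^ r = g₀ ^ r := by
    have hb := Nat.gcd_eq_gcd_ab r N
    rw [hco] at hb
    refine ⟨(g₀ ^ r) ^ (Nat.gcdA r N), Subgroup.zpow_mem _ hz _, ?_⟩
    have h1 : ((g₀ ^ r) ^ (N : ℤ)) = 1 := by
      rw [zpow_natCast]; exact hN _ hz
    calc ((g₀ ^ r) ^ (Nat.gcdA r N)) ^ r = (g₀ ^ r) ^ ((r : ℤ) * Nat.gcdA r N) := by
          rw [← zpow_natCast, ← zpow_mul, mul_comm]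
      _ = (g₀ ^ r) ^ ((1 : ℤ) - N * Nat.gcdB r N) := by
          congr 1
          push_cast at hb
          linarith
      _ = g₀ ^ r := by
          rw [zpow_sub, zpow_one, zpow_mul, h1, one_zpow, inv_one, mul_one]
  obtain ⟨w, hw, hwr⟩ := hroot
  have hcomm : Commute g₀ w⁻¹ := ((Subgroup.mem_center_iff.1 (inv_mem hw)) g₀)
  refine ⟨g₀ * w⁻¹, ⟨?_, ?_⟩, ?_⟩
  · rw [QuotientGroup.eq]
    simpa using hw
  · have h1 : (g₀ * w⁻¹) ^ r = 1 := by
      rw [hcomm.mul_pow, inv_pow, hwr, mul_inv_cancel]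
    have h2 : orderOf (g₀ * w⁻¹) ∣ r := orderOf_dvd_of_pow_eq_one h1
    rcases (Nat.dvd_prime hr).1 h2 with h | h
    · exfalso
      rw [orderOf_eq_one_iff] at h
      have h3 : (QuotientGroup.mk g₀ : G ⧸ Subgroup.center G) = 1 := by
        rw [QuotientGroup.eq_one_iff]
        have : g₀ = w := by
          rw [mul_inv_eq_one] at h; exact h
        rw [this]; exact hw
      rw [h3, orderOf_one] at hx
      exact hr.one_lt.ne hx
    · exact h
  · rintro g ⟨hg1, hg2⟩
    have h1 : (g₀ * w⁻¹)⁻¹ * g ∈ Subgroup.center G := by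
      have h2 : g₀⁻¹ * g ∈ Subgroup.center G := QuotientGroup.eq.1 hg1.symm
      have : (g₀ * w⁻¹)⁻¹ * g = w * (g₀⁻¹ * g) := by group
      rw [this]
      exact mul_mem hw h2
    have hc : Commute (g₀ * w⁻¹)⁻¹ g := by
      have h3 := Subgroup.mem_center_iff.1 h1 g
      -- g * (a⁻¹ g) = (a⁻¹ g) * g  ⇒ g a⁻¹ = a⁻¹ g
      have h4 : g * (g₀ * w⁻¹)⁻¹ * g = (g₀ * w⁻¹)⁻¹ * g * g := by
        rw [mul_assoc]; exact h3
      exact (mul_right_cancel h4).symm
    have h5 : ((g₀ * w⁻¹)⁻¹ * g) ^ r = 1 := by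
      rw [hc.mul_pow, inv_pow, hcomm.mul_pow, inv_pow, hwr, mul_inv_cancel, inv_one, one_mul, ← hg2,
        pow_orderOf_eq_one]
    have h6 := hkill _ h1 h5
    exact (inv_mul_eq_one.1 h6).symm


/-- Lifting elements of prime order from PGL to GL: let F be a finite field with q elements, r a prime not dividing q − 1, and x an element of order r in GL_n(F) modulo its centre (the scalar matrices). Then x has exactly one preimage in GL_n(F) of order r. -/
theorem result {F : Type*} [Field F] [Fintype F] {q n r : ℕ} (hF : Fintype.card F = q) (hr : r.Prime) (hdiv : ¬ r ∣ q - 1) (x : GL (Fin n) F ⧸ Subgroup.center (GL (Fin n) F)) (hx : orderOf x = r) : ∃! g : GL (Fin n) F, (QuotientGroup.mk g : GL (Fin n) F ⧸ Subgroup.center (GL (Fin n) F)) = x ∧ orderOf g = r := by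
  classical
  refine unique_lift (q - 1) ?_ r hr ((Nat.Prime.coprime_iff_not_dvd hr).2 hdiv) x hx
  intro z hz
  rw [Matrix.GeneralLinearGroup.center_eq_range_scalar] at hz
  obtain ⟨u, rfl⟩ := hz
  rw [← map_pow, ← hF, ← Fintype.card_units, pow_card_eq_one, map_one]

end Cfsg.Agent.S2567
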