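import Mathlib
import Cfsg.Statements.S2568
import Cfsg.Agent.Lib.Helper19.SemisimpleClasses
import Cfsg.Agent.Lib.Helper19.Jordan
-- import your own Cfsg.Agent.* helpers here

set_option autoImplicit false
open Cfsg

namespace Cfsg.Agent.S2568

section aux
open Polynomial Cfsg.Agent.Lib.Helper19

variable {F : Type*} [Field F] {n : ℕ}

theorem charpoly_dvd (M : Matrix (Fin n) (Fin n) F) (r : ℕ) (hM : M ^ r = 1) :
    M.charpoly ∣ (X ^ r - 1 : F[X]) ^ n := by
  have hcomm : Commute (Matrix.scalar (Fin n) (X : F[X])) ((C : F →+* F[X]).mapMatrix M) :=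
    Matrix.scalar_comm _ (Commute.all _) _
  have h1 := hcomm.mul_geom_sum₂ r
  have h2 : (Matrix.scalar (Fin n) (X : F[X])) ^ r - ((C : F →+* F[X]).mapMatrix M) ^ r =
      Matrix.scalar (Fin n) (X ^ r - 1 : F[X]) := by
    rw [← map_pow, ← map_pow, hM, map_one, map_sub, map_one]
  rw [h2] at h1
  have h3 := congrArg Matrix.det h1
  rw [Matrix.det_mul] at h3
  have h4 : (Matrix.scalar (Fin n) (X ^ r - 1 : F[X])).det = (X ^ r - 1 : F[X]) ^ n := by
    rw [Matrix.scalar_apply, Matrix.det_diagonal, Finset.prod_const, Finset.card_univ, Fintype.card_fin]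
  rw [h4] at h3
  exact ⟨_, h3.symm⟩

theorem eq_one_of_nilp (p : ℕ) [Fact p.Prime] [CharP F p] (g : GL (Fin n) F)
    (hg : (orderOf g).Coprime p) (m : ℕ) (hm : ((g : Matrix (Fin n) (Fin n) F) - 1) ^ m = 0) :
    g = 1 := by
  have hp : p.Prime := Fact.out
  have h1 : g ^ p ^ m = 1 := by
    rw [Jordan.gl_pow_char_iff]
    exact pow_eq_zero_of_le (Nat.lt_pow_self hp.one_lt).le hm
  have h2 := orderOf_dvd_of_pow_eq_one h1
  have h3 : orderOf g = 1 := Nat.Coprime.eq_one_of_dvd (hg.pow_right m) h2
  exact orderOf_eq_one_iff.1 h3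

theorem pow_eq_one_of_dvd (p : ℕ) [Fact p.Prime] [CharP F p] (g : GL (Fin n) F)
    (hg : (orderOf g).Coprime p) (r m : ℕ)
    (hm : (g : Matrix (Fin n) (Fin n) F).charpoly ∣ (X ^ r - 1 : F[X]) ^ m) :
    g ^ r = 1 := by
  apply eq_one_of_nilp p (g ^ r) (Nat.Coprime.coprime_dvd_left (orderOf_pow_dvd r) hg) m
  obtain ⟨c, hc⟩ := hm
  have h1 := congrArg (aeval (g : Matrix (Fin n) (Fin n) F)) hc
  rw [map_mul, Matrix.aeval_self_charpoly, zero_mul] at h1
  simpa using h1
theorem nf_prod [DecidableEq F] {ι : Type*} (T : Finset ι) (f : ι → F[X]) (e : ι → ℕ)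
    (hf : ∀ j ∈ T, Irreducible (f j) ∧ (f j).Monic) :
    UniqueFactorizationMonoid.normalizedFactors (∏ j ∈ T, f j ^ e j) =
      ∑ j ∈ T, e j • ({f j} : Multiset F[X]) := by
  classical
  induction T using Finset.induction_on with
  | empty => simp
  | insert a T ha ih =>
    have h1 := hf a (Finset.mem_insert_self a T)
    have h2 : ∀ j ∈ T, Irreducible (f j) ∧ (f j).Monic :=
      fun j hj => hf j (Finset.mem_insert_of_mem hj)
    rw [Finset.prod_insert ha, Finset.sum_insert ha,
      UniqueFactorizationMonoid.normalizedFactors_mul (pow_ne_zero _ h1.1.ne_zero)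
        (Finset.prod_ne_zero_iff.2 (fun j hj => pow_ne_zero _ (h2 j hj).1.ne_zero)), ih h2,
      UniqueFactorizationMonoid.normalizedFactors_pow,
      UniqueFactorizationMonoid.normalizedFactors_irreducible h1.1, h1.2.normalize_eq_self]

theorem prod_inj {ι : Type*} [Fintype ι] (f : ι → F[X]) (hf : ∀ j, Irreducible (f j) ∧ (f j).Monic)
    (hinj : Function.Injective f) (e e' : ι → ℕ) (h : ∏ j, f j ^ e j = ∏ j, f j ^ e' j) :
    e = e' := by
  classical
  have key : ∀ (e : ι → ℕ) (j₀ : ι),
      Multiset.count (f j₀) (UniqueFactorizationMonoid.normalizedFactors (∏ j, f j ^ e j)) = e j₀ := by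
    intro e j₀
    rw [nf_prod _ _ _ (fun j _ => hf j), Multiset.count_sum', Finset.sum_eq_single j₀]
    · rw [Multiset.count_nsmul, Multiset.count_singleton_self, mul_one]
    · intro j _ hj
      rw [Multiset.count_nsmul, Multiset.count_singleton, if_neg (fun h => hj (hinj h).symm), mul_zero]
    · intro h0
      exact absurd (Finset.mem_univ _) h0
  funext j
  rw [← key e j, h, key]

theorem exists_exp (S : Finset F[X]) (χ : F[X]) (hχ : χ.Monic)
    (h : ∀ Q : F[X], Irreducible Q → Q.Monic → Q ∣ χ → Q ∈ S) :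
    ∃ e : F[X] → ℕ, χ = ∏ Q ∈ S, Q ^ e Q := by
  classical
  refine ⟨fun Q => (UniqueFactorizationMonoid.normalizedFactors χ).count Q, ?_⟩
  rw [← Finset.prod_multiset_count_of_subset, UniqueFactorizationMonoid.prod_normalizedFactors_eq hχ.ne_zero,
    hχ.normalize_eq_self]
  intro Q hQ
  rw [Multiset.mem_toFinset] at hQ
  have h1 := UniqueFactorizationMonoid.irreducible_of_normalized_factor Q hQ
  apply h Q h1 _ (UniqueFactorizationMonoid.dvd_of_mem_normalizedFactors hQ)
  rw [← UniqueFactorizationMonoid.normalize_normalized_factor Q hQ]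
  exact Polynomial.monic_normalize h1.ne_zero

/-- the model polynomial -/
noncomputable def poly (S : Finset F[X]) (c : ℕ) (a : S → ℕ) : F[X] :=
  (X - 1) ^ c * ∏ P : S, (P : F[X]) ^ a P

theorem poly_monic (S : Finset F[X]) (hS : ∀ P ∈ S, P.Monic) (c : ℕ) (a : S → ℕ) :
    (poly S c a).Monic := by
  have h1 : (X - 1 : F[X]).Monic := by
    have := monic_X_sub_C (1 : F)
    rwa [C_1] at this
  exact (h1.pow c).mul (monic_prod_of_monic _ _ (fun P _ => (hS P.1 P.2).pow _))

theorem poly_natDegree (S : Finset F[X]) (i : ℕ) (hS : ∀ P ∈ S, P.Monic ∧ P.natDegree = i) (c : ℕ)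
    (a : S → ℕ) : (poly S c a).natDegree = c + (∑ P, a P) * i := by
  have h1 : (X - 1 : F[X]).Monic := by
    have := monic_X_sub_C (1 : F)
    rwa [C_1] at this
  have h2 : (X - 1 : F[X]).natDegree = 1 := by
    have := natDegree_X_sub_C (1 : F)
    rwa [C_1] at this
  rw [poly, Monic.natDegree_mul (h1.pow c) (monic_prod_of_monic _ _ (fun P _ => (hS P.1 P.2).1.pow _)),
    h1.natDegree_pow, h2, mul_one, natDegree_prod_of_monic _ _ (fun P _ => (hS P.1 P.2).1.pow _),
    Finset.sum_mul]
  congr 1
  apply Finset.sum_congr rfl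
  intro P _
  rw [(hS P.1 P.2).1.natDegree_pow, (hS P.1 P.2).2]

theorem poly_dvd (S : Finset F[X]) (R : F[X]) (h1 : (X - 1 : F[X]) ∣ R) (hS : ∀ P ∈ S, P ∣ R) (c : ℕ)
    (a : S → ℕ) : poly S c a ∣ R ^ (c + ∑ P, a P) := by
  rw [pow_add, ← Finset.prod_pow_eq_pow_sum]
  exact mul_dvd_mul (pow_dvd_pow_of_dvd h1 c)
    (Finset.prod_dvd_prod_of_dvd _ _ (fun P _ => pow_dvd_pow_of_dvd (hS P.1 P.2) _))

theorem poly_inj (S : Finset F[X]) (hS : ∀ P ∈ S, Irreducible P ∧ P.Monic ∧ P ≠ X - 1) (c c' : ℕ)
    (a a' : S → ℕ) (h : poly S c a = poly S c' a') : c = c' ∧ a = a' := by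
  have h1 : (X - 1 : F[X]).Monic := by
    have := monic_X_sub_C (1 : F)
    rwa [C_1] at this
  have h2 : Irreducible (X - 1 : F[X]) := by
    have := irreducible_X_sub_C (1 : F)
    rwa [C_1] at this
  have key := prod_inj (ι := Option S) (fun o => o.elim (X - 1 : F[X]) (fun P => (P : F[X])))
    (by
      intro o
      cases o with
      | none => exact ⟨h2, h1⟩
      | some P => exact ⟨(hS P.1 P.2).1, (hS P.1 P.2).2.1⟩)
    (by
      intro o o' hoo
      cases o with
      | none =>
        cases o' with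
        | none => rfl
        | some P => exact absurd hoo.symm (hS P.1 P.2).2.2
      | some P =>
        cases o' with
        | none => exact absurd hoo (hS P.1 P.2).2.2
        | some P' => exact congrArg some (Subtype.ext hoo))
    (fun o => o.elim c a) (fun o => o.elim c' a')
    (by
      rw [Fintype.prod_option, Fintype.prod_option]
      exact h)
  exact ⟨congrFun key none, funext (fun P => congrFun key (some P))⟩

theorem card_X (α : Type*) [Fintype α] (N : ℕ) :
    Nat.card {b : Option α → ℕ // ∑ o, b o = N} = Nat.choose (N + Fintype.card α) (Fintype.card α) := by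
  classical
  rw [← Nat.card_congr (Sym.equivNatSumOfFintype (Option α) N), Nat.card_eq_fintype_card,
    Sym.card_sym_eq_choose, Fintype.card_option]
  have h1 : Fintype.card α + 1 + N - 1 = N + Fintype.card α := by omega
  rw [h1, Nat.choose_symm_add]

theorem card_ne {X : Type*} [Finite X] (x₀ : X) : Nat.card {x : X // x ≠ x₀} = Nat.card X - 1 := by
  classical
  have := Fintype.ofFinite X
  rw [Nat.card_eq_fintype_card, Nat.card_eq_fintype_card]
  exact Set.card_ne_eq x₀

theorem main [Fintype F] (p : ℕ) [Fact p.Prime] [CharP F p] (r i : ℕ) (S : Finset F[X])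
    (hr : r.Prime) (hrp : r ≠ p) (hi : 0 < i)
    (hS : ∀ P ∈ S, Irreducible P ∧ P.Monic ∧ P.natDegree = i ∧ P ∣ X ^ r - 1 ∧ P ≠ X - 1)
    (hall : ∀ Q : F[X], Irreducible Q → Q.Monic → Q ∣ X ^ r - 1 → Q = X - 1 ∨ Q ∈ S) :
    Nat.card {C : ConjClasses (GL (Fin n) F) // ∃ g : GL (Fin n) F, ConjClasses.mk g = C ∧ orderOf g = r}
      = Nat.choose (n / i + S.card) S.card - 1 := by
  classical
  have hp : p.Prime := Fact.out
  have hcop : r.Coprime p := (Nat.coprime_primes hr hp).2 hrp
  have : Fact r.Prime := ⟨hr⟩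
  obtain ⟨N, hN⟩ : ∃ N, N = n / i := ⟨_, rfl⟩
  have hiN : i * N ≤ n := by rw [hN]; exact Nat.mul_div_le n i
  have hX1 : (X - 1 : F[X]) ∣ X ^ r - 1 := by
    have := sub_dvd_pow_sub_pow (X : F[X]) 1 r
    rwa [one_pow] at this
  -- the model polynomial of a parameter
  let chi : (Option S → ℕ) → F[X] := fun b => poly S (n - i * N + i * b none) (fun P => b (some P))
  have hchi_monic : ∀ b, (chi b).Monic := fun b => poly_monic S (fun P hP => (hS P hP).2.1) _ _
  have hchi_deg : ∀ b : Option S → ℕ, ∑ o, b o = N → (chi b).natDegree = n := by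
    intro b hb
    rw [Fintype.sum_option] at hb
    show (poly S _ _).natDegree = n
    rw [poly_natDegree S i (fun P hP => ⟨(hS P hP).2.1, (hS P hP).2.2.1⟩)]
    have e1 : i * N = i * b none + (∑ P : S, b (some P)) * i := by
      rw [← hb, mul_add, mul_comm i (∑ P : S, b (some P))]
    omega
  have hchi_dvd : ∀ b : Option S → ℕ, ∃ m, chi b ∣ (X ^ r - 1 : F[X]) ^ m := fun b =>
    ⟨_, poly_dvd S _ hX1 (fun P hP => (hS P hP).2.2.2.1) _ _⟩
  have hchi_inj : ∀ b b' : Option S → ℕ, chi b = chi b' → b = b' := by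
    intro b b' h
    obtain ⟨h1, h2⟩ := poly_inj S (fun P hP => ⟨(hS P hP).1, (hS P hP).2.1, (hS P hP).2.2.2.2⟩) _ _ _ _ h
    funext o
    cases o with
    | none =>
      have h3 : i * b none = i * b' none := by omega
      exact Nat.eq_of_mul_eq_mul_left hi h3
    | some P => exact congrFun h2 P
  have hchi0 : ∀ b : Option S → ℕ, (chi b).coeff 0 ≠ 0 := by
    intro b h0
    obtain ⟨m, hm⟩ := hchi_dvd b
    rw [coeff_zero_eq_eval_zero] at h0
    have h1 := eval_eq_zero_of_dvd_of_eval_eq_zero hm h0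
    simp [hr.ne_zero] at h1
  have hex : ∀ b : {b : Option S → ℕ // ∑ o, b o = N}, ∃ g : GL (Fin n) F, (orderOf g).Coprime p ∧
      (g : Matrix (Fin n) (Fin n) F).charpoly = chi b.1 := fun b =>
    exists_gl_coprime_charpoly p (chi b.1) (hchi_monic b.1) (hchi_deg b.1 b.2) (hchi0 b.1)
  choose G hG1 hG2 using hex
  have hGr : ∀ b, G b ^ r = 1 := by
    intro b
    obtain ⟨m, hm⟩ := hchi_dvd b.1
    exact pow_eq_one_of_dvd p (G b) (hG1 b) r m (by rw [hG2]; exact hm)
  let x₀ : {b : Option S → ℕ // ∑ o, b o = N} :=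
    ⟨fun o => o.elim N (fun _ => 0), by rw [Fintype.sum_option]; simp⟩
  have hchix₀ : chi x₀.1 = (X - 1) ^ n := by
    show poly S _ _ = _
    rw [poly]
    have e1 : n - i * N + i * N = n := by omega
    show (X - 1 : F[X]) ^ (n - i * N + i * N) * ∏ P : S, (P : F[X]) ^ 0 = _
    rw [e1]
    simp
  have hone : ∀ g : GL (Fin n) F, (orderOf g).Coprime p →
      (g : Matrix (Fin n) (Fin n) F).charpoly = (X - 1) ^ n → g = 1 := by
    intro g hg hc
    apply eq_one_of_nilp p g hg n
    have h1 := Matrix.aeval_self_charpoly (g : Matrix (Fin n) (Fin n) F)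
    rw [hc] at h1
    simpa using h1
  have hfin : Finite {b : Option S → ℕ // ∑ o, b o = N} :=
    Finite.of_equiv _ (Sym.equivNatSumOfFintype (Option S) N)
  rw [← hN, ← Fintype.card_coe S, ← card_X S N, ← card_ne x₀]
  symm
  apply Nat.card_eq_of_bijective
    (fun x : {x : {b : Option S → ℕ // ∑ o, b o = N} // x ≠ x₀} =>
      (⟨ConjClasses.mk (G x.1), G x.1, rfl, by
        apply orderOf_eq_prime (hGr x.1)
        intro h1
        apply x.2
        apply Subtype.ext
        apply hchi_inj
        rw [hchix₀, ← hG2, h1, Units.val_one, Matrix.charpoly_one, Fintype.card_fin]⟩ :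
        {C : ConjClasses (GL (Fin n) F) // ∃ g : GL (Fin n) F, ConjClasses.mk g = C ∧ orderOf g = r}))
  constructor
  · intro x y h
    have h1 : ConjClasses.mk (G x.1) = ConjClasses.mk (G y.1) := congrArg Subtype.val h
    rw [ConjClasses.mk_eq_mk_iff_isConj] at h1
    apply Subtype.ext
    apply Subtype.ext
    apply hchi_inj
    rw [← hG2, ← hG2]
    exact gl_charpoly_of_isConj h1
  · rintro ⟨_, g, rfl, hg⟩
    have hgr : (g : Matrix (Fin n) (Fin n) F) ^ r = 1 := by
      have h1 := pow_orderOf_eq_one g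
      rw [hg] at h1
      have h2 := congrArg Units.val h1
      rwa [Units.val_pow_eq_pow_val, Units.val_one] at h2
    have hd := charpoly_dvd _ r hgr
    have hnot : (X - 1 : F[X]) ∉ S := fun h => (hS _ h).2.2.2.2 rfl
    obtain ⟨e, he⟩ := exists_exp (insert (X - 1 : F[X]) S) _
      (Matrix.charpoly_monic (g : Matrix (Fin n) (Fin n) F)) (by
        intro Q hQ1 hQ2 hQ3
        rw [Finset.mem_insert]
        exact hall Q hQ1 hQ2 (hQ1.prime.dvd_of_dvd_pow (hQ3.trans hd)))
    rw [Finset.prod_insert hnot, ← Finset.prod_coe_sort S] at he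
    have he' : (g : Matrix (Fin n) (Fin n) F).charpoly = poly S (e (X - 1)) (fun P => e P.1) := he
    have hdeg := congrArg natDegree he'
    rw [Matrix.charpoly_natDegree_eq_dim, Fintype.card_fin,
      poly_natDegree S i (fun P hP => ⟨(hS P hP).2.1, (hS P hP).2.2.1⟩)] at hdeg
    obtain ⟨s, hs⟩ : ∃ s, s = ∑ P : S, e P.1 := ⟨_, rfl⟩
    rw [← hs] at hdeg
    have hsN : s ≤ N := by
      rw [hN, Nat.le_div_iff_mul_le hi]
      omega
    let b : {b : Option S → ℕ // ∑ o, b o = N} :=
      ⟨fun o => o.elim (N - s) (fun P => e P.1), by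
        rw [Fintype.sum_option]
        show N - s + ∑ P : S, e P.1 = N
        rw [← hs]
        omega⟩
    have hb : chi b.1 = (g : Matrix (Fin n) (Fin n) F).charpoly := by
      rw [he']
      show poly S (n - i * N + i * (N - s)) (fun P => e P.1) = _
      congr 1
      have e1 : i * (N - s) = i * N - s * i := by rw [Nat.mul_sub, mul_comm i s]
      have e2 : s * i ≤ i * N := by rw [mul_comm s i]; exact Nat.mul_le_mul_left i hsN
      omega
    have hgc : (orderOf g).Coprime p := by rw [hg]; exact hcop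
    have hbne : b ≠ x₀ := by
      intro h
      rw [h, hchix₀] at hb
      have h1 := hone g hgc hb.symm
      rw [h1, orderOf_one] at hg
      exact hr.one_lt.ne hg
    refine ⟨⟨b, hbne⟩, ?_⟩
    apply Subtype.ext
    show ConjClasses.mk (G b) = ConjClasses.mk g
    rw [ConjClasses.mk_eq_mk_iff_isConj]
    exact gl_conj_of_charpoly p _ _ (hG1 b) hgc (by rw [hG2, hb])


end aux

/-- Number of conjugacy classes of elements of a given prime order r, coprime to the characteristic, in GL_n(q): if i is the multiplicative order of q modulo r and t = (r − 1)/i, the classes correspond to the non-zero t-tuples of natural numbers (a_1, …, a_t) with i(a_1 + ⋯ + a_t) ≤ n (a_j is the multiplicity of the j-th Frobenius orbit of nontrivial r-th roots of unity among the eigenvalues), so there are exactly C(⌊n/i⌋ + t, t) − 1 of them. -/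
theorem result {F : Type*} [Field F] [Fintype F] {p q : ℕ} [Fact p.Prime] [CharP F p] (hF : Fintype.card F = q) (n r i t : ℕ) (hr : r.Prime) (hrp : r ≠ p) (hi : i = orderOf (q : ZMod r)) (ht : t * i = r - 1) : Nat.card {C : ConjClasses (GL (Fin n) F) // ∃ g : GL (Fin n) F, ConjClasses.mk g = C ∧ orderOf g = r} = Nat.choose (n / i + t) t - 1 := by
  classical
  have hp : p.Prime := Fact.out
  have : Fact r.Prime := ⟨hr⟩
  obtain ⟨f, -, hf⟩ := FiniteField.card F p
  have hK : Fintype.card F = p ^ (f : ℕ) := hf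
  have hn : p.Coprime r := (Nat.coprime_primes hp hr).2 hrp.symm
  have hord : orderOf (ZMod.unitOfCoprime _ (hn.pow_left (f : ℕ))) = i := by
    rw [hi, ← orderOf_units, ZMod.coe_unitOfCoprime, ← hF, hK]
  have hipos : 0 < i := by
    rw [← hord]
    exact orderOf_pos _
  have hrF : (r : F) ≠ 0 := by
    intro h
    rw [CharP.cast_eq_zero_iff F p r] at h
    exact hrp ((Nat.prime_dvd_prime_iff_eq hp hr).1 h).symm
  have hcyc0 : Polynomial.cyclotomic r F ≠ 0 := Polynomial.cyclotomic_ne_zero r F
  have hcard : (UniqueFactorizationMonoid.normalizedFactors (Polynomial.cyclotomic r F)).toFinset.card = t := by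
    rw [Polynomial.normalizedFactors_cyclotomic_card hK hn, hord, Nat.totient_prime hr, ← ht]
    exact Nat.mul_div_cancel t hipos
  rw [← hcard]
  apply main p r i _ hr hrp hipos
  · intro P hP
    rw [Multiset.mem_toFinset] at hP
    have h1 := UniqueFactorizationMonoid.irreducible_of_normalized_factor P hP
    have h2 := UniqueFactorizationMonoid.dvd_of_mem_normalizedFactors hP
    refine ⟨h1, ?_, ?_, h2.trans (Polynomial.cyclotomic.dvd_X_pow_sub_one r F), ?_⟩
    · rw [← UniqueFactorizationMonoid.normalize_normalized_factor P hP]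
      exact Polynomial.monic_normalize h1.ne_zero
    · rw [Polynomial.natDegree_of_mem_normalizedFactors_cyclotomic hK hn hP, hord]
    · intro h3
      rw [h3] at h2
      have h4 : Polynomial.eval 1 (Polynomial.X - 1 : Polynomial F) = 0 := by simp
      have h5 := Polynomial.eval_eq_zero_of_dvd_of_eval_eq_zero h2 h4
      rw [Polynomial.eval_one_cyclotomic_prime] at h5
      exact hrF h5
  · intro Q hQ1 hQ2 hQ3
    rw [← Polynomial.cyclotomic_prime_mul_X_sub_one F r] at hQ3
    rcases hQ1.prime.dvd_or_dvd hQ3 with h | h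
    · right
      rw [Multiset.mem_toFinset, UniqueFactorizationMonoid.mem_normalizedFactors_iff' hcyc0]
      exact ⟨hQ1, hQ2.normalize_eq_self, h⟩
    · left
      have h1 : (Polynomial.X - 1 : Polynomial F).Monic := by
        have := Polynomial.monic_X_sub_C (1 : F)
        rwa [Polynomial.C_1] at this
      have h2 : Irreducible (Polynomial.X - 1 : Polynomial F) := by
        have := Polynomial.irreducible_X_sub_C (1 : F)
        rwa [Polynomial.C_1] at this
      exact Polynomial.eq_of_monic_of_associated hQ2 h1 (hQ1.associated_of_dvd h2 h)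

end Cfsg.Agent.S2568
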