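import Mathlib
import Cfsg.Statements.S2570
import Cfsg.Agent.Lib.Helper19.Jordan
-- import your own Cfsg.Agent.* helpers here

set_option autoImplicit false
open Cfsg

namespace Cfsg.Agent.S2570

/-- Number of conjugacy classes of elements of order p in GL_n over a finite field of characteristic p: they correspond to the Jordan types, that is, to the partitions of n with all parts at most p other than the partition into ones, so there are (number of partitions of n with parts ≤ p) − 1 of them. -/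
theorem result {F : Type*} [Field F] [Fintype F] {p : ℕ} [Fact p.Prime] [CharP F p] (n : ℕ) : Nat.card {C : ConjClasses (GL (Fin n) F) // ∃ g : GL (Fin n) F, ConjClasses.mk g = C ∧ orderOf g = p} = (Finset.univ.filter (fun μ : Nat.Partition n => ∀ a ∈ μ.parts, a ≤ p)).card - 1 := by
  classical
  have hp : p.Prime := Fact.out
  have h1 : Nat.card {C : ConjClasses (GL (Fin n) F) // ∃ g : GL (Fin n) F, ConjClasses.mk g = C ∧ orderOf g = p} =
      Nat.card {C : ConjClasses (GL (Fin n) F) // ∃ g : GL (Fin n) F, orderOf g = p ∧ ConjClasses.mk g = C} := by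
    apply Nat.card_congr
    apply Equiv.subtypeEquivRight
    intro C
    constructor <;> rintro ⟨g, h1, h2⟩ <;> exact ⟨g, h2, h1⟩
  rw [h1, Cfsg.Agent.Lib.Helper19.Jordan.count (fun g => orderOf g = p)
    (fun μ => (∀ a ∈ μ.parts, a ≤ p) ∧ μ ≠ Cfsg.Agent.Lib.Helper19.Jordan.ones n)]
  · rw [Nat.subtype_card ((Finset.univ.filter (fun μ : Nat.Partition n => ∀ a ∈ μ.parts, a ≤ p)).erase
      (Cfsg.Agent.Lib.Helper19.Jordan.ones n))]
    · rw [Finset.card_erase_of_mem]
      rw [Finset.mem_filter]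
      refine ⟨Finset.mem_univ _, ?_⟩
      intro a ha
      rw [Multiset.eq_of_mem_replicate ha]
      exact hp.one_lt.le
    · intro μ
      rw [Finset.mem_erase, Finset.mem_filter]
      constructor
      · rintro ⟨h2, -, h3⟩
        exact ⟨h3, h2⟩
      · rintro ⟨h3, h2⟩
        exact ⟨h2, Finset.mem_univ _, h3⟩
  · intro g hg
    refine ⟨p ^ 1, ?_⟩
    rw [← Cfsg.Agent.Lib.Helper19.Jordan.gl_pow_char_iff, pow_one, ← hg]
    exact pow_orderOf_eq_one g
  · intro g μ _ hk
    show orderOf g = p ↔ _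
    rw [orderOf_eq_prime_iff]
    have e1 : g ^ p = 1 ↔ ∀ a ∈ μ.parts, a ≤ p := by
      have := Cfsg.Agent.Lib.Helper19.Jordan.gl_pow_char_iff p g 1
      rw [pow_one] at this
      rw [this, Cfsg.Agent.Lib.Helper19.Jordan.pow_eq_zero_iff_kg, hk,
        ← Cfsg.Agent.Lib.Helper19.Jordan.fl_eq_sum_iff, μ.parts_sum]
    have e2 : g = 1 ↔ μ = Cfsg.Agent.Lib.Helper19.Jordan.ones n := by
      rw [← Cfsg.Agent.Lib.Helper19.Jordan.fl_one_iff, ← hk,
        ← Cfsg.Agent.Lib.Helper19.Jordan.pow_eq_zero_iff_kg, pow_one, sub_eq_zero, Units.val_eq_one]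
    rw [e1, Ne, e2]

end Cfsg.Agent.S2570
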