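import Cfsg.Statements.S2571
import Cfsg.Agent.Lib.Helper15.Cyclic

set_option autoImplicit false
open Cfsg

namespace Cfsg.Agent.S2571

open Cfsg.Agent.Lib.Helper15 Module LinearMap Polynomial


/-- Centraliser of a regular unipotent element in GL_n(q): if u is an invertible n × n matrix over the field with q elements, n ≥ 1, with (u − 1)^n = 0 and rank(u − 1) = n − 1 (a single unipotent Jordan block), then its centraliser in GL_n(q) has order (q − 1) q^(n−1). -/
theorem result {F : Type*} [Field F] [Fintype F] {q n : ℕ} (hF : Fintype.card F = q) (hn : 1 ≤ n) (u : GL (Fin n) F) (hnil : ((u : Matrix (Fin n) (Fin n) F) - 1) ^ n = 0) (hreg : ((u : Matrix (Fin n) (Fin n) F) - 1).rank = n - 1) : Nat.card ↥(Subgroup.centralizer ({u} : Set (GL (Fin n) F))) = (q - 1) * q ^ (n - 1) := by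
  set A : Matrix (Fin n) (Fin n) F := (u : Matrix (Fin n) (Fin n) F) with hAdef
  set N : Module.End F (Fin n → F) := Matrix.mulVecLin (A - 1) with hN
  have hfr : finrank F (Fin n → F) = n := by simp
  have hpow : ∀ k, Matrix.mulVecLin ((A - 1) ^ k) = N ^ k := by
    intro k
    have := map_pow (Matrix.toLinAlgEquiv' (R := F) (n := Fin n)) (A - 1) k
    exact this
  have hker : finrank F (ker N) ≤ 1 := by
    have h1 := LinearMap.finrank_range_add_finrank_ker N
    have h2 : finrank F (range N) = n - 1 := hreg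
    rw [hfr] at h1
    omega
  have hnil' : N ^ (finrank F (Fin n → F)) = 0 := by
    rw [hfr, ← hpow, hnil]; simp
  have hKfr : finrank F (ker (N ^ (finrank F (Fin n → F) - 1))) = n - 1 := by
    rw [finrank_ker_pow_eq N hker hnil' _ (by omega), hfr]
  obtain ⟨v, hv⟩ : ∃ v, v ∉ ker (N ^ (finrank F (Fin n → F) - 1)) := by
    by_contra hall
    push Not at hall
    have htop : ker (N ^ (finrank F (Fin n → F) - 1)) = ⊤ := by
      rw [eq_top_iff]; intro x _; exact hall x
    rw [htop, finrank_top, hfr] at hKfr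
    omega
  -- commutation transfer
  have hcomm : ∀ M : Matrix (Fin n) (Fin n) F, M * A = A * M →
      (Matrix.mulVecLin M : Module.End F (Fin n → F)) * N = N * Matrix.mulVecLin M := by
    intro M hM
    rw [hN, Module.End.mul_eq_comp, Module.End.mul_eq_comp, ← Matrix.mulVecLin_mul, ← Matrix.mulVecLin_mul,
      mul_sub, sub_mul, hM, mul_one, one_mul]
  have hcent : ∀ g : GL (Fin n) F, g ∈ Subgroup.centralizer ({u} : Set (GL (Fin n) F)) ↔
      (g : Matrix (Fin n) (Fin n) F) * A = A * (g : Matrix (Fin n) (Fin n) F) := by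
    intro g
    rw [Subgroup.mem_centralizer_singleton_iff]
    constructor
    · intro h
      exact congrArg Units.val h
    · intro h
      exact Units.ext h
  have hinjg : ∀ g : GL (Fin n) F, Function.Injective (Matrix.mulVecLin (g : Matrix (Fin n) (Fin n) F)) := by
    intro g
    exact Matrix.mulVec_injective_of_isUnit g.isUnit
  let Ψ : ↥(Subgroup.centralizer ({u} : Set (GL (Fin n) F))) →
      {w : Fin n → F // w ∉ ker (N ^ (finrank F (Fin n → F) - 1))} :=
    fun g => ⟨Matrix.mulVecLin (g.1 : Matrix (Fin n) (Fin n) F) v,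
      apply_not_mem_of_injective N v hv _ (hcomm _ ((hcent g.1).1 g.2)) (hinjg g.1)⟩
  have hbij : Function.Bijective Ψ := by
    constructor
    · intro g₁ g₂ h
      have h1 : Matrix.mulVecLin (g₁.1 : Matrix (Fin n) (Fin n) F) v = Matrix.mulVecLin (g₂.1 : Matrix (Fin n) (Fin n) F) v :=
        congrArg Subtype.val h
      have h2 : (Matrix.mulVecLin (g₁.1 : Matrix (Fin n) (Fin n) F) - Matrix.mulVecLin (g₂.1 : Matrix (Fin n) (Fin n) F) : Module.End F (Fin n → F)) = 0 := by
        apply eq_zero_of_apply_cyclic N hker hnil' v hv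
        · rw [sub_mul, mul_sub, hcomm _ ((hcent g₁.1).1 g₁.2), hcomm _ ((hcent g₂.1).1 g₂.2)]
        · rw [LinearMap.sub_apply, h1, sub_self]
      have h3 : Matrix.mulVecLin (g₁.1 : Matrix (Fin n) (Fin n) F) = Matrix.mulVecLin (g₂.1 : Matrix (Fin n) (Fin n) F) := sub_eq_zero.1 h2
      apply Subtype.ext
      apply Units.ext
      exact Matrix.toLin'.injective h3
    · rintro ⟨w, hw⟩
      obtain ⟨p, hp⟩ := cyclic_vec N hker hnil' v hv w
      set M : Matrix (Fin n) (Fin n) F := aeval (A - 1) p with hM
      have hMN : Matrix.mulVecLin M = aeval N p := by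
        have := Polynomial.aeval_algHom_apply (Matrix.toLinAlgEquiv' (R := F) (n := Fin n)).toAlgHom (A - 1) p
        exact this.symm
      have hMA : M * A = A * M := by
        have h1 : Commute M (A - 1) := by
          have := (Commute.all p X).map (aeval (A - 1) : F[X] →ₐ[F] Matrix (Fin n) (Fin n) F)
          rwa [aeval_X] at this
        have h2 : M * (A - 1) = (A - 1) * M := h1
        rw [mul_sub, sub_mul, mul_one, one_mul] at h2
        exact sub_left_injective h2
      have hkerM : ker (Matrix.mulVecLin M) = ⊥ := by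
        apply ker_eq_bot_of_cyclic N hker hnil' (by omega) v _ (hcomm M hMA)
        rw [hMN, ← hp]; exact hw
      have hunit : IsUnit M := by
        rw [← Matrix.mulVec_injective_iff_isUnit]
        exact LinearMap.ker_eq_bot.1 hkerM
      refine ⟨⟨hunit.unit, (hcent _).2 hMA⟩, ?_⟩
      apply Subtype.ext
      show Matrix.mulVecLin M v = w
      rw [hMN, ← hp]
  rw [Nat.card_congr (Equiv.ofBijective Ψ hbij), card_compl_submodule, hKfr, hfr, hF]
  obtain ⟨k, rfl⟩ : ∃ k, n = k + 1 := ⟨n - 1, by omega⟩
  simp only [Nat.add_sub_cancel]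
  rw [pow_succ, Nat.sub_mul, one_mul, mul_comm]

end Cfsg.Agent.S2571
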