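import Cfsg.Statements.S2574
import Cfsg.Agent.Lib.Helper15.Nilp

set_option autoImplicit false
open Cfsg

namespace Cfsg.Agent.S2574

open Module LinearMap Matrix Cfsg.Agent.Lib.Helper15

theorem symp_adj {m : ℕ} {F : Type*} [Field F] (A B : Matrix (Fin m ⊕ Fin m) (Fin m ⊕ Fin m) F)
    (hA : Aᵀ * J (Fin m) F * A = J (Fin m) F) (hAB : A * B = 1) (x y : Fin m ⊕ Fin m → F) :
    Cfsg.sympForm m F (A *ᵥ x) y = Cfsg.sympForm m F x (B *ᵥ y) := by
  unfold Cfsg.sympForm
  rw [← Matrix.vecMul_transpose, ← Matrix.dotProduct_mulVec, Matrix.mulVec_mulVec, Matrix.mulVec_mulVec]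
  have : Aᵀ * J (Fin m) F = J (Fin m) F * B := by
    calc Aᵀ * J (Fin m) F = Aᵀ * J (Fin m) F * (A * B) := by rw [hAB, mul_one]
      _ = (Aᵀ * J (Fin m) F * A) * B := by rw [mul_assoc, mul_assoc, mul_assoc]
      _ = _ := by rw [hA]
  rw [this]

theorem symp_adj_pow {m : ℕ} {F : Type*} [Field F] (A B : Matrix (Fin m ⊕ Fin m) (Fin m ⊕ Fin m) F)
    (hA : Aᵀ * J (Fin m) F * A = J (Fin m) F) (hAB : A * B = 1) (j : ℕ) (x y : Fin m ⊕ Fin m → F) :
    Cfsg.sympForm m F (((A - 1) ^ j) *ᵥ x) y = Cfsg.sympForm m F x (((B - 1) ^ j) *ᵥ y) := by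
  induction j generalizing x y with
  | zero => simp
  | succ j ih =>
    rw [pow_succ, ← Matrix.mulVec_mulVec, ih, pow_succ', ← Matrix.mulVec_mulVec]
    generalize ((B - 1) ^ j) *ᵥ y = z
    rw [Matrix.sub_mulVec, Matrix.sub_mulVec, Matrix.one_mulVec, Matrix.one_mulVec]
    have h := symp_adj A B hA hAB x z
    unfold Cfsg.sympForm at h ⊢
    rw [sub_dotProduct, h, Matrix.mulVec_sub, dotProduct_sub]



/-- A regular unipotent element of the symplectic group has totally isotropic small invariant subspaces: over a finite field, if u ∈ Sp_2m(F) satisfies (u − 1)^(2m) = 0 and rank(u − 1) = 2m − 1, and W is a u-invariant subspace with 2 dim W ≤ 2m, then the alternating form vanishes identically on W. -/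
theorem result {F : Type*} [Field F] [Finite F] {m : ℕ} (u : Matrix.symplecticGroup (Fin m) F) (hnil : ((u : Matrix (Fin m ⊕ Fin m) (Fin m ⊕ Fin m) F) - 1) ^ (2 * m) = 0) (hreg : ((u : Matrix (Fin m ⊕ Fin m) (Fin m ⊕ Fin m) F) - 1).rank = 2 * m - 1) (W : Submodule F (Fin m ⊕ Fin m → F)) (hW : ∀ v ∈ W, (u : Matrix (Fin m ⊕ Fin m) (Fin m ⊕ Fin m) F).mulVec v ∈ W) (hdim : 2 * Module.finrank F W ≤ 2 * m) : ∀ v ∈ W, ∀ w ∈ W, Cfsg.sympForm m F v w = 0 := by
  set A : Matrix (Fin m ⊕ Fin m) (Fin m ⊕ Fin m) F := (u : Matrix (Fin m ⊕ Fin m) (Fin m ⊕ Fin m) F) with hAdef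
  set B : Matrix (Fin m ⊕ Fin m) (Fin m ⊕ Fin m) F := ((u⁻¹ : Matrix.symplecticGroup (Fin m) F) : Matrix (Fin m ⊕ Fin m) (Fin m ⊕ Fin m) F) with hBdef
  have hAB : A * B = 1 := by
    have : u * u⁻¹ = 1 := mul_inv_cancel u
    exact congrArg Subtype.val this
  have hBA : B * A = 1 := by
    have : u⁻¹ * u = 1 := inv_mul_cancel u
    exact congrArg Subtype.val this
  have hA : Aᵀ * J (Fin m) F * A = J (Fin m) F := (SymplecticGroup.mem_iff').1 u.2
  have hfr : finrank F (Fin m ⊕ Fin m → F) = 2 * m := by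
    simp [two_mul]
  set N : Module.End F (Fin m ⊕ Fin m → F) := Matrix.mulVecLin (A - 1) with hN
  have hpow : ∀ k, Matrix.mulVecLin ((A - 1) ^ k) = N ^ k := by
    intro k
    have := map_pow (Matrix.toLinAlgEquiv' (R := F) (n := Fin m ⊕ Fin m)) (A - 1) k
    exact this
  have hker : finrank F (ker N) ≤ 1 := by
    have h1 := LinearMap.finrank_range_add_finrank_ker N
    have h2 : finrank F (range N) = 2 * m - 1 := hreg
    rw [hfr] at h1
    omega
  have hnil' : N ^ (finrank F (Fin m ⊕ Fin m → F)) = 0 := by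
    rw [hfr, ← hpow, hnil]; simp
  have hWN : ∀ v ∈ W, N v ∈ W := by
    intro v hv
    have : N v = A.mulVec v - v := by
      simp [hN, Matrix.sub_mulVec]
    rw [this]
    exact W.sub_mem (hW v hv) hv
  have hWeq := invariant_eq_ker_pow N hker hnil' W hWN
  set k := finrank F W with hk
  have hkm : k ≤ m := by omega
  -- ker N^k = range N^(2m-k)
  have hrange : ker (N ^ k) = range (N ^ (2 * m - k)) := by
    symm
    apply Submodule.eq_of_le_of_finrank_eq
    · rintro _ ⟨x, rfl⟩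
      rw [LinearMap.mem_ker, ← Module.End.mul_apply, ← pow_add]
      have : k + (2 * m - k) = finrank F (Fin m ⊕ Fin m → F) := by rw [hfr]; omega
      rw [this, hnil']; rfl
    · have h1 := LinearMap.finrank_range_add_finrank_ker (N ^ (2 * m - k))
      rw [finrank_ker_pow_eq N hker hnil' _ (by rw [hfr]; omega), hfr] at h1
      rw [finrank_ker_pow_eq N hker hnil' _ (by rw [hfr]; omega)]
      omega
  intro v hv w hw
  rw [hWeq, hrange] at hv
  obtain ⟨x, rfl⟩ := hv
  rw [← hpow]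
  show Cfsg.sympForm m F (((A - 1) ^ (2 * m - k)) *ᵥ x) w = 0
  rw [symp_adj_pow A B hA hAB]
  have hB1 : B - 1 = (-B) * (A - 1) := by
    rw [mul_sub, neg_mul, hBA]; simp only [mul_one]; abel
  have hcomm : Commute (-B) (A - 1) := by
    show (-B) * (A - 1) = (A - 1) * (-B)
    rw [mul_sub, sub_mul, neg_mul, mul_neg, hBA, hAB]; simp
  rw [hB1, hcomm.mul_pow, ← Matrix.mulVec_mulVec]
  have hw0 : ((A - 1) ^ (2 * m - k)) *ᵥ w = 0 := by
    rw [hWeq] at hw
    have h1 : (N ^ k) w = 0 := hw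
    have h2 : (N ^ (2 * m - k)) w = 0 := by
      have : 2 * m - k = (2 * m - k - k) + k := by omega
      rw [this, pow_add, Module.End.mul_apply, h1, map_zero]
    rw [← hpow] at h2
    exact h2
  rw [hw0]
  simp [Cfsg.sympForm]

end Cfsg.Agent.S2574
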