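import Cfsg.Statements.S2575
import Mathlib
-- import your own Cfsg.Agent.* helpers here

set_option autoImplicit false
open Cfsg

namespace Cfsg.Agent.S2575


theorem v2_aux (a m : ℕ) (hm : Odd m) : padicValNat 2 (2 ^ a * m) = a := by
  haveI : Fact (Nat.Prime 2) := ⟨Nat.prime_two⟩
  have hm0 : m ≠ 0 := by rintro rfl; simp at hm
  rw [padicValNat.mul (pow_ne_zero _ (by norm_num)) hm0, padicValNat.prime_pow,
    padicValNat.eq_zero_of_not_dvd (by rcases hm with ⟨k, rfl⟩; omega)]
  rfl


/-- Which diagonal involutions of PGL_n(q) lie in PSL_n(q), q odd: for the diagonal matrix t with i entries −1 and n − i entries 1, some non-zero scalar multiple of t has determinant one if and only if i is even or the 2-part of q − 1 exceeds the 2-part of n (that is, −1 is an n-th power in the field exactly in the latter case). -/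
theorem result {F : Type*} [Field F] [Fintype F] {q : ℕ} (hF : Fintype.card F = q) (hq : Odd q) {n : ℕ} (hn : 1 ≤ n) (i : ℕ) (hi : i ≤ n) : (∃ c : F, c ≠ 0 ∧ (c • Matrix.diagonal (fun j : Fin n => if (j : ℕ) < i then (-1 : F) else 1)).det = 1) ↔ (Even i ∨ padicValNat 2 n < padicValNat 2 (q - 1)) := by
  classical
  have hdet : ∀ c : F, (c • Matrix.diagonal (fun j : Fin n => if (j : ℕ) < i then (-1 : F) else 1)).det
      = c ^ n * (-1) ^ i := by
    intro c
    rw [Matrix.det_smul, Matrix.det_diagonal, Fintype.card_fin,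
      Fin.prod_univ_eq_prod_range (fun j : ℕ => if j < i then (-1 : F) else 1) n, Finset.prod_ite]
    have : (Finset.range n).filter (fun j => j < i) = Finset.range i := by
      ext j; simp only [Finset.mem_filter, Finset.mem_range]; omega
    rw [this]
    simp
  simp only [hdet]
  have hne : (-1 : F) ≠ 1 := by
    apply Ring.neg_one_ne_one_of_char_ne_two
    intro h2
    have := FiniteField.even_card_of_char_two h2
    rw [hF] at this
    rcases hq with ⟨k, hk⟩
    omega
  have hq2 : 1 < q := hF ▸ Fintype.one_lt_card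
  obtain ⟨b, l, hl, hql⟩ := Nat.exists_eq_two_pow_mul_odd (n := q - 1) (by omega)
  obtain ⟨a, m, hm, hnm⟩ := Nat.exists_eq_two_pow_mul_odd (n := n) (by omega)
  rw [hql, hnm, v2_aux a m hm, v2_aux b l hl]
  constructor
  · rintro ⟨c, hc0, hc⟩
    by_contra hcon
    push_neg at hcon
    obtain ⟨hi', hba⟩ := hcon
    rw [Nat.not_even_iff_odd] at hi'
    rw [hi'.neg_one_pow] at hc
    have hcn : c ^ (2 ^ a * m) = -1 := by
      have : c ^ (2 ^ a * m) * -1 * -1 = 1 * -1 := by rw [hc]
      simpa using this
    have h1 : c ^ (q - 1) = 1 := by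
      rw [← hF]; exact FiniteField.pow_card_sub_one_eq_one c hc0
    have h2 : (c ^ (2 ^ a * m)) ^ l = 1 := by
      obtain ⟨e, rfl⟩ := Nat.exists_eq_add_of_le hba
      rw [← pow_mul]
      have : 2 ^ (b + e) * m * l = (q - 1) * (2 ^ e * m) := by rw [hql]; ring
      rw [this, pow_mul, h1, one_pow]
    rw [hcn, hl.neg_one_pow] at h2
    exact hne h2
  · rintro (hi' | hab)
    · exact ⟨1, one_ne_zero, by rw [hi'.neg_one_pow]; simp⟩
    · rcases Nat.even_or_odd i with hi' | hi'
      · exact ⟨1, one_ne_zero, by rw [hi'.neg_one_pow]; simp⟩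
      obtain ⟨g, hg⟩ := IsCyclic.exists_generator (α := Fˣ)
      have hog : orderOf g = q - 1 := by
        rw [orderOf_eq_card_of_forall_mem_zpowers hg, Nat.card_eq_fintype_card, Fintype.card_units, hF]
      obtain ⟨e, rfl⟩ : ∃ e, b = a + 1 + e := ⟨b - (a + 1), by omega⟩
      have hl0 : 0 < l := hl.pos
      set u : Fˣ := g ^ (2 ^ e * l) with hu
      have hou : orderOf u = 2 ^ (a + 1) := by
        rw [hu, orderOf_pow_of_dvd (by positivity) (by rw [hog, hql]; exact ⟨2 ^ (a + 1), by ring⟩), hog, hql]
        apply Nat.div_eq_of_eq_mul_left (by positivity)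
        ring
      have hw2 : (u ^ 2 ^ a) ^ 2 = 1 := by
        rw [← pow_mul, ← pow_succ, ← hou, pow_orderOf_eq_one]
      have hw1 : u ^ 2 ^ a ≠ 1 := by
        intro h
        have := orderOf_dvd_of_pow_eq_one h
        rw [hou] at this
        have h3 := Nat.le_of_dvd (by positivity) this
        rw [pow_succ] at h3
        have : 0 < 2 ^ a := by positivity
        omega
      have hw : ((u ^ 2 ^ a : Fˣ) : F) = -1 := by
        have h4 : ((u ^ 2 ^ a : Fˣ) : F) ^ 2 = 1 := by
          rw [← Units.val_pow_eq_pow_val, hw2, Units.val_one]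
        rw [pow_two] at h4
        rcases mul_self_eq_one_iff.1 h4 with h5 | h5
        · exact absurd (Units.ext (by rw [h5, Units.val_one])) hw1
        · exact h5
      refine ⟨(u : F), u.ne_zero, ?_⟩
      rw [hi'.neg_one_pow, pow_mul, ← Units.val_pow_eq_pow_val, hw, hm.neg_one_pow]
      ring

end Cfsg.Agent.S2575
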