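import Cfsg.Statements.S2576


set_option autoImplicit false
open Cfsg

namespace Cfsg.Agent.S2576


theorem val_decomp (n : ℕ) (hn : n ≠ 0) : ∃ s, ¬ 2 ∣ s ∧ n = 2 ^ (padicValNat 2 n) * s := by
  obtain ⟨e, n', h1, h2⟩ := Nat.exists_eq_pow_mul_and_not_dvd hn 2 (by norm_num)
  have h3 : padicValNat 2 n = e := by
    have hn' : n' ≠ 0 := by
      rintro rfl
      simp at h1
    rw [h2, padicValNat.mul (by positivity) hn', padicValNat.prime_pow,
      padicValNat.eq_zero_of_not_dvd h1, add_zero]
  exact ⟨n', h1, by rw [h3]; exact h2⟩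

theorem det_eq {F : Type*} [Field F] (m : ℕ) (μ c : F) :
    (c • Matrix.blockDiagonal (fun _ : Fin m => !![(0 : F), 1; μ, 0])).det = c ^ (2 * m) * (-μ) ^ m := by
  rw [Matrix.det_smul, Matrix.det_blockDiagonal]
  simp [Matrix.det_fin_two_of]


/-- Which involutions of PGL_2m(q) coming from a scalar of the quadratic extension field lie in PSL_2m(q), q odd: let μ generate the Sylow 2-subgroup of the multiplicative group of the field with q elements (μ has order the 2-part of q − 1) and let t be the block-diagonal matrix with m diagonal blocks [[0, 1], [μ, 0]] (so t² is the scalar μ and t is an involution modulo scalars). Then some non-zero scalar multiple of t has determinant one if and only if q ≡ 3 (mod 4) or the 2-part of q − 1 is less than the 2-part of 2m. -/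
theorem result {F : Type*} [Field F] [Fintype F] {q : ℕ} (hF : Fintype.card F = q) (hq : Odd q) {m : ℕ} (hm : 1 ≤ m) (μ : F) (hμ : orderOf μ = 2 ^ padicValNat 2 (q - 1)) : (∃ c : F, c ≠ 0 ∧ (c • Matrix.blockDiagonal (fun _ : Fin m => !![(0 : F), 1; μ, 0])).det = 1) ↔ (q % 4 = 3 ∨ padicValNat 2 (q - 1) < padicValNat 2 (2 * m)) := by
  simp only [det_eq]
  have hq2 : 2 ≤ q := by
    rw [← hF]
    exact Fintype.one_lt_card
  obtain ⟨k, hk⟩ := hq
  have hq10 : q - 1 ≠ 0 := by omega
  obtain ⟨s, hs, hqs⟩ := val_decomp (q - 1) hq10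
  obtain ⟨t, ht, hmt⟩ := val_decomp m (by omega)
  set a := padicValNat 2 (q - 1) with ha
  set v := padicValNat 2 m with hv
  have hv2 : padicValNat 2 (2 * m) = v + 1 := by
    rw [padicValNat.mul (by norm_num) (by omega), padicValNat.self (by norm_num), add_comm]
  rw [hv2]
  have ha1 : 1 ≤ a := by
    by_contra h
    have h0 : a = 0 := by omega
    rw [h0] at hqs
    apply hs
    simp at hqs
    rw [← hqs]
    omega
  have hμa : μ ^ (2 ^ a) = 1 := by
    rw [← hμ]
    exact pow_orderOf_eq_one μ
  constructor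
  · rintro ⟨c, hc, h⟩
    by_cases h3 : q % 4 = 3
    · exact Or.inl h3
    right
    by_contra hlt
    push Not at hlt
    have ha2 : 2 ≤ a := by
      by_contra h2
      have h1 : a = 1 := by omega
      rw [h1] at hqs
      omega
    obtain ⟨d, hd⟩ : ∃ d, a = v + 1 + d := ⟨a - (v + 1), by omega⟩
    obtain ⟨a', ha'⟩ : ∃ a', a = a' + 2 := ⟨a - 2, by omega⟩
    have hc1 : c ^ (q - 1) = 1 := by
      rw [← hF]
      exact FiniteField.pow_card_sub_one_eq_one c hc
    have e1 : (c ^ (2 * m)) ^ (2 ^ d * s) = 1 := by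
      rw [← pow_mul]
      have : 2 * m * (2 ^ d * s) = (q - 1) * t := by
        rw [hqs, hd]
        conv_lhs => rw [hmt]
        ring
      rw [this, pow_mul, hc1, one_pow]
    have e2 : ((-μ) ^ m) ^ (2 ^ d * s) = μ ^ (2 ^ (a' + 1) * (t * s)) := by
      rw [← pow_mul]
      have : m * (2 ^ d * s) = 2 ^ (a' + 1) * (t * s) := by
        have h5 : a' + 1 = v + d := by omega
        rw [h5]
        conv_lhs => rw [hmt]
        ring
      rw [this]
      apply Even.neg_pow
      rw [pow_succ]
      exact ⟨2 ^ a' * (t * s), by ring⟩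
    have e3 : μ ^ (2 ^ (a' + 1) * (t * s)) = 1 := by
      rw [← e2]
      have := congrArg (fun x => x ^ (2 ^ d * s)) h
      simp only [mul_pow, e1, one_mul, one_pow] at this
      exact this
    have e4 := orderOf_dvd_of_pow_eq_one e3
    rw [hμ, ha', show a' + 2 = (a' + 1) + 1 by ring, pow_succ (n := a' + 1)] at e4
    have e5 : 2 ∣ t * s := Nat.dvd_of_mul_dvd_mul_left (by positivity) e4
    rcases (Nat.prime_two.dvd_mul).1 e5 with h | h
    · exact ht h
    · exact hs h
  · rintro (h | h)
    · have h1 : a = 1 := by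
        by_contra h2
        obtain ⟨a', ha'⟩ : ∃ a', a = a' + 2 := ⟨a - 2, by omega⟩
        rw [ha', pow_add] at hqs
        have : q - 1 = 4 * (2 ^ a' * s) := by rw [hqs]; ring
        omega
      rw [h1] at hμa hμ
      have hne : μ ≠ 1 := by
        rintro rfl
        simp at hμ
      have hm1 : μ = -1 := by
        have : (μ - 1) * (μ + 1) = 0 := by
          have h2 : μ ^ 2 = 1 := by simpa using hμa
          linear_combination h2
        rcases mul_eq_zero.1 this with h | h
        · exact absurd (sub_eq_zero.1 h) hne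
        · exact eq_neg_of_add_eq_zero_left h
      exact ⟨1, one_ne_zero, by simp [hm1]⟩
    · refine ⟨1, one_ne_zero, ?_⟩
      obtain ⟨d, hd⟩ : ∃ d, v = a + d := ⟨v - a, by omega⟩
      obtain ⟨a', ha'⟩ : ∃ a', a = a' + 1 := ⟨a - 1, by omega⟩
      have : (-μ) ^ (2 ^ a) = 1 := by
        rw [Even.neg_pow, hμa]
        rw [ha', pow_succ]
        exact ⟨2 ^ a', by ring⟩
      rw [one_pow, one_mul, hmt, hd, pow_add, mul_assoc, pow_mul, this, one_pow]

end Cfsg.Agent.S2576
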