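import Mathlib
import Cfsg.Statements.S2577
import Cfsg.Agent.Lib.Helper19.Jordan
import Cfsg.Agent.Lib.Helper19.SemisimpleClasses
-- import your own Cfsg.Agent.* helpers here

set_option autoImplicit false
open Cfsg

namespace Cfsg.Agent.S2577

open Cfsg.Agent.Lib.Helper19

section lin
variable {F : Type*} [Field F] {V : Type*} [AddCommGroup V] [Module F V]

theorem inv_compl (h2 : (2 : F) ≠ 0) (N : Module.End F V) (hN : N * N = 1) :
    IsCompl (LinearMap.ker (N - 1)) (LinearMap.ker (N + 1)) := by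
  have hNN : ∀ x, N (N x) = x := fun x => LinearMap.congr_fun hN x
  constructor
  · rw [disjoint_iff, eq_bot_iff]
    rintro x ⟨h1, h3⟩
    have h1' : N x - x = 0 := h1
    have h3' : N x + x = 0 := h3
    have h4 : (2 : F) • x = 0 := by
      rw [two_smul]
      have : x + x = (N x + x) - (N x - x) := by abel
      rw [this, h1', h3', sub_zero]
    exact (smul_eq_zero.1 h4).resolve_left h2
  · rw [codisjoint_iff, eq_top_iff]
    intro x _
    rw [Submodule.mem_sup]
    refine ⟨(2 : F)⁻¹ • (x + N x), ?_, (2 : F)⁻¹ • (x - N x), ?_, ?_⟩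
    · rw [LinearMap.mem_ker, map_smul]
      show (2 : F)⁻¹ • (N (x + N x) - (x + N x)) = 0
      rw [map_add, hNN]
      have : N x + x - (x + N x) = 0 := by abel
      rw [this, smul_zero]
    · rw [LinearMap.mem_ker, map_smul]
      show (2 : F)⁻¹ • (N (x - N x) + (x - N x)) = 0
      rw [map_sub, hNN]
      have : N x - x + (x - N x) = 0 := by abel
      rw [this, smul_zero]
    · rw [← smul_add]
      have : x + N x + (x - N x) = (2 : F) • x := by rw [two_smul]; abel
      rw [this, smul_smul, inv_mul_cancel₀ h2, one_smul]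

theorem inv_conj [FiniteDimensional F V] (h2 : (2 : F) ≠ 0) (N₁ N₂ : Module.End F V)
    (h₁ : N₁ * N₁ = 1) (h₂ : N₂ * N₂ = 1)
    (hk : Module.finrank F (LinearMap.ker (N₁ - 1)) = Module.finrank F (LinearMap.ker (N₂ - 1))) :
    ∃ e : V ≃ₗ[F] V, ∀ v, e (N₁ v) = N₂ (e v) := by
  have c₁ := inv_compl h2 N₁ h₁
  have c₂ := inv_compl h2 N₂ h₂
  have hk' : Module.finrank F (LinearMap.ker (N₁ + 1)) = Module.finrank F (LinearMap.ker (N₂ + 1)) := by
    have e1 := Submodule.finrank_add_eq_of_isCompl c₁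
    have e2 := Submodule.finrank_add_eq_of_isCompl c₂
    omega
  have fix : ∀ (N : Module.End F V), ∀ x ∈ LinearMap.ker (N - 1), N x = x := by
    intro N x hx
    have : N x - x = 0 := hx
    exact sub_eq_zero.1 this
  have neg : ∀ (N : Module.End F V), ∀ x ∈ LinearMap.ker (N + 1), N x = -x := by
    intro N x hx
    have : N x + x = 0 := hx
    exact eq_neg_of_add_eq_zero_left this
  have hC : ∀ (N : Module.End F V), ∀ x ∈ LinearMap.ker (N - 1), N x ∈ LinearMap.ker (N - 1) := by
    intro N x hx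
    rw [fix N x hx]
    exact hx
  have hW : ∀ (N : Module.End F V), ∀ x ∈ LinearMap.ker (N + 1), N x ∈ LinearMap.ker (N + 1) := by
    intro N x hx
    rw [neg N x hx]
    exact Submodule.neg_mem _ hx
  apply Jordan.glue N₁ N₂ (hC N₁) (hW N₁) (hC N₂) (hW N₂) c₁ c₂ (LinearEquiv.ofFinrankEq _ _ hk) _
    (LinearEquiv.ofFinrankEq _ _ hk')
  · intro x
    have e1 : (N₁.restrict (hW N₁) : Module.End F _) x = -x := Subtype.ext (neg N₁ x.1 x.2)
    have e2 : ∀ y, (N₂.restrict (hW N₂) : Module.End F _) y = -y := fun y => Subtype.ext (neg N₂ y.1 y.2)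
    rw [e1, e2, map_neg]
  · intro x
    have e1 : (N₁.restrict (hC N₁) : Module.End F _) x = x := Subtype.ext (fix N₁ x.1 x.2)
    have e2 : ∀ y, (N₂.restrict (hC N₂) : Module.End F _) y = y := fun y => Subtype.ext (fix N₂ y.1 y.2)
    rw [e1, e2]

end lin

section gl
universe u
variable {F : Type u} [Field F] {n : ℕ}

theorem isConj_of_intertwine (g h : GL (Fin n) F) (e : (Fin n → F) ≃ₗ[F] (Fin n → F))
    (he : ∀ v, e ((Matrix.toLinAlgEquiv' (g : Matrix (Fin n) (Fin n) F) : Module.End F (Fin n → F)) v) =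
      (Matrix.toLinAlgEquiv' (h : Matrix (Fin n) (Fin n) F) : Module.End F (Fin n → F)) (e v)) :
    IsConj g h := by
  let E : GL (Fin n) F :=
    ⟨LinearMap.toMatrix' (e : (Fin n → F) →ₗ[F] (Fin n → F)),
      LinearMap.toMatrix' (e.symm : (Fin n → F) →ₗ[F] (Fin n → F)),
      by rw [← LinearMap.toMatrix'_comp]; simp, by rw [← LinearMap.toMatrix'_comp]; simp⟩
  have hE : (E : Matrix (Fin n) (Fin n) F) * (g : Matrix (Fin n) (Fin n) F) =
      (h : Matrix (Fin n) (Fin n) F) * (E : Matrix (Fin n) (Fin n) F) := by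
    apply Matrix.toLin'.injective
    rw [Matrix.toLin'_mul, Matrix.toLin'_mul]
    show Matrix.toLin' (LinearMap.toMatrix' (e : (Fin n → F) →ₗ[F] (Fin n → F))) ∘ₗ _ =
      _ ∘ₗ Matrix.toLin' (LinearMap.toMatrix' (e : (Fin n → F) →ₗ[F] (Fin n → F)))
    rw [Matrix.toLin'_toMatrix']
    apply LinearMap.ext
    intro v
    exact he v
  rw [isConj_iff]
  refine ⟨E, ?_⟩
  rw [mul_inv_eq_iff_eq_mul]
  exact Units.ext hE

/-- dimension of the fixed space -/
noncomputable def al (g : GL (Fin n) F) : ℕ := Jordan.kg g 1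

theorem al_eq (g : GL (Fin n) F) : al g = Module.finrank F (LinearMap.ker
    ((Matrix.toLinAlgEquiv' (g : Matrix (Fin n) (Fin n) F) : Module.End F (Fin n → F)) - 1)) := by
  rw [al, Jordan.kg, Jordan.kap, pow_one, map_sub, map_one]

theorem al_conj (g h : GL (Fin n) F) (hc : IsConj g h) : al g = al h := Jordan.kg_of_isConj g h hc 1

theorem al_add_neg (h2 : (2 : F) ≠ 0) (g : GL (Fin n) F) (hg : g * g = 1) : al g + al (-g) = n := by
  have h1 : (Matrix.toLinAlgEquiv' (g : Matrix (Fin n) (Fin n) F) : Module.End F (Fin n → F)) *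
      (Matrix.toLinAlgEquiv' (g : Matrix (Fin n) (Fin n) F)) = 1 := by
    rw [← map_mul, ← Units.val_mul, hg, Units.val_one, map_one]
  have h3 := Submodule.finrank_add_eq_of_isCompl (inv_compl h2 _ h1)
  rw [Module.finrank_fin_fun] at h3
  rw [al_eq, al_eq, Units.val_neg, map_neg]
  have h4 : LinearMap.ker (-(Matrix.toLinAlgEquiv' (g : Matrix (Fin n) (Fin n) F) :
      Module.End F (Fin n → F)) - 1) = LinearMap.ker ((Matrix.toLinAlgEquiv'
        (g : Matrix (Fin n) (Fin n) F) : Module.End F (Fin n → F)) + 1) := by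
    have : -(Matrix.toLinAlgEquiv' (g : Matrix (Fin n) (Fin n) F) :
      Module.End F (Fin n → F)) - 1 = -((Matrix.toLinAlgEquiv'
        (g : Matrix (Fin n) (Fin n) F) : Module.End F (Fin n → F)) + 1) := by abel
    rw [this]
    ext x
    simp only [LinearMap.mem_ker, LinearMap.neg_apply, neg_eq_zero]
  rw [h4]
  exact h3

theorem isConj_of_al (h2 : (2 : F) ≠ 0) (g h : GL (Fin n) F) (hg : g * g = 1) (hh : h * h = 1)
    (ha : al g = al h) : IsConj g h := by
  rw [al_eq, al_eq] at ha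
  obtain ⟨e, he⟩ := inv_conj h2 _ _
    (by rw [← map_mul, ← Units.val_mul, hg, Units.val_one, map_one])
    (by rw [← map_mul, ← Units.val_mul, hh, Units.val_one, map_one]) ha
  exact isConj_of_intertwine g h e he

/-- the diagonal involution with `j` entries `-1` -/
def Dm (F : Type u) [Field F] (n j : ℕ) : Matrix (Fin n) (Fin n) F :=
  Matrix.diagonal (fun i => if i.val < j then -1 else 1)

theorem Dm_sq (j : ℕ) : Dm F n j * Dm F n j = 1 := by
  rw [Dm, Matrix.diagonal_mul_diagonal, ← Matrix.diagonal_one]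
  congr 1
  funext i
  split_ifs <;> simp

/-- the diagonal involution as a unit -/
def D (F : Type u) [Field F] (n j : ℕ) : GL (Fin n) F := ⟨Dm F n j, Dm F n j, Dm_sq j, Dm_sq j⟩

theorem D_sq (j : ℕ) : D F n j * D F n j = 1 := Units.ext (Dm_sq j)

theorem al_D (h2 : (2 : F) ≠ 0) (j : ℕ) (hj : j ≤ n) : al (D F n j) = n - j := by
  classical
  rw [al, Jordan.kg, Jordan.kap, pow_one]
  have h := LinearMap.finrank_range_add_finrank_ker (Dm F n j - 1).mulVecLin
  rw [Module.finrank_fin_fun] at h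
  have h3 : (Dm F n j - 1).rank = j := by
    have e1 : Dm F n j - 1 = Matrix.diagonal (fun i : Fin n => if i.val < j then (-2 : F) else 0) := by
      rw [Dm, ← Matrix.diagonal_one, Matrix.diagonal_sub]
      congr 1
      funext i
      split_ifs
      · norm_num
      · simp
    rw [e1, Matrix.rank_diagonal]
    have e2 : Fintype.card {i : Fin n // (if i.val < j then (-2 : F) else 0) ≠ 0} = Fintype.card (Fin j) := by
      apply Fintype.card_congr
      refine ⟨fun i => ⟨i.1.1, ?_⟩, fun k => ⟨⟨k.1, lt_of_lt_of_le k.2 hj⟩, ?_⟩, fun i => rfl, fun k => rfl⟩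
      · by_contra hcon
        exact i.2 (if_neg hcon)
      · rw [if_pos k.2]
        exact neg_ne_zero.2 h2
    rw [e2, Fintype.card_fin]
  have h4 : (Dm F n j - 1).rank = Module.finrank F (LinearMap.range (Dm F n j - 1).mulVecLin) := rfl
  have h5 : (Matrix.toLinAlgEquiv' (((D F n j : GL (Fin n) F) : Matrix (Fin n) (Fin n) F) - 1) :
      Module.End F (Fin n → F)) = (Dm F n j - 1).mulVecLin := rfl
  rw [h5]
  omega

open Polynomial in
theorem charpoly_of_sq (ν : F) (hν : ¬ IsSquare ν) (M : Matrix (Fin n) (Fin n) F)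
    (hM : M * M = Matrix.scalar (Fin n) ν) :
    ∃ m, n = 2 * m ∧ M.charpoly = (X ^ 2 - C ν) ^ m := by
  have hirr : Irreducible (X ^ 2 - C ν : F[X]) :=
    X_pow_sub_C_irreducible_of_prime Nat.prime_two (fun b hb => hν ⟨b, by rw [← hb, pow_two]⟩)
  have hprod : M.charmatrix * (Matrix.scalar (Fin n) (X : F[X]) + (C : F →+* F[X]).mapMatrix M) =
      Matrix.scalar (Fin n) (X ^ 2 - C ν : F[X]) := by
    have e1 : (C : F →+* F[X]).mapMatrix M * (C : F →+* F[X]).mapMatrix M =
        Matrix.scalar (Fin n) (C ν : F[X]) := by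
      rw [← map_mul, hM]
      ext i j
      simp [Matrix.diagonal_apply]
      split_ifs <;> simp
    have e2 : Matrix.scalar (Fin n) (X : F[X]) * (C : F →+* F[X]).mapMatrix M =
        (C : F →+* F[X]).mapMatrix M * Matrix.scalar (Fin n) (X : F[X]) :=
      Matrix.scalar_comm _ (Commute.all _) _
    rw [Matrix.charmatrix, sub_mul, mul_add, mul_add, e1, e2, map_sub, map_pow, pow_two]
    abel
  have hdvd : M.charpoly ∣ (X ^ 2 - C ν : F[X]) ^ n := by
    have h1 := congrArg Matrix.det hprod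
    rw [Matrix.det_mul] at h1
    have h2 : (Matrix.scalar (Fin n) (X ^ 2 - C ν : F[X])).det = (X ^ 2 - C ν : F[X]) ^ n := by
      rw [Matrix.scalar_apply, Matrix.det_diagonal, Finset.prod_const, Finset.card_univ, Fintype.card_fin]
    rw [h2] at h1
    exact ⟨_, h1.symm⟩
  obtain ⟨m, -, hm⟩ := (dvd_prime_pow hirr.prime n).1 hdvd
  have hmon : (X ^ 2 - C ν : F[X]).Monic := monic_X_pow_sub_C ν (by norm_num)
  have heq : M.charpoly = (X ^ 2 - C ν : F[X]) ^ m :=
    eq_of_monic_of_associated (Matrix.charpoly_monic M) (hmon.pow m) hm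
  refine ⟨m, ?_, heq⟩
  have h3 := congrArg natDegree heq
  rw [Matrix.charpoly_natDegree_eq_dim, Fintype.card_fin, natDegree_pow, natDegree_X_pow_sub_C] at h3
  omega

theorem isConj_of_sq [Fintype F] (p : ℕ) [Fact p.Prime] [CharP F p] (hp2 : p ≠ 2) (ν : Fˣ)
    (hν : ¬ IsSquare (ν : F)) (g h : GL (Fin n) F)
    (hg : g * g = Matrix.GeneralLinearGroup.scalar (Fin n) ν)
    (hh : h * h = Matrix.GeneralLinearGroup.scalar (Fin n) ν) : IsConj g h := by
  classical
  have hp : p.Prime := Fact.out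
  have hord : ∀ x : GL (Fin n) F, x * x = Matrix.GeneralLinearGroup.scalar (Fin n) ν →
      (orderOf x).Coprime p := by
    intro x hx
    have h1 : x ^ (2 * (Fintype.card F - 1)) = 1 := by
      rw [pow_mul, pow_two, hx, ← map_pow, ← Fintype.card_units, pow_card_eq_one, map_one]
    apply Nat.Coprime.coprime_dvd_left (orderOf_dvd_of_pow_eq_one h1)
    apply Nat.Coprime.mul_left
    · exact ((Nat.coprime_primes Nat.prime_two hp).2 (Ne.symm hp2))
    · rw [Nat.coprime_comm, hp.coprime_iff_not_dvd]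
      intro h3
      have h4 := char_dvd_card F p
      have h5 : 0 < Fintype.card F := Fintype.card_pos
      have h6 : p ∣ 1 := by
        have := (Nat.dvd_sub h4 h3)
        rwa [show Fintype.card F - (Fintype.card F - 1) = 1 by omega] at this
      exact hp.one_lt.ne' (Nat.dvd_one.1 h6)
  obtain ⟨m, hm, hc⟩ := charpoly_of_sq (ν : F) hν (g : Matrix (Fin n) (Fin n) F) (congrArg Units.val hg)
  obtain ⟨m', hm', hc'⟩ := charpoly_of_sq (ν : F) hν (h : Matrix (Fin n) (Fin n) F) (congrArg Units.val hh)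
  apply gl_conj_of_charpoly p g h (hord g hg) (hord h hh)
  rw [hc, hc', show m = m' by omega]

theorem exists_sq (ν : Fˣ) (hn : Even n) :
    ∃ g : GL (Fin n) F, g * g = Matrix.GeneralLinearGroup.scalar (Fin n) ν := by
  classical
  obtain ⟨m, hm⟩ := hn
  have hm2 : n = 2 * m := by omega
  subst hm2
  obtain ⟨B, hBdef⟩ : ∃ B : Matrix (Fin 2) (Fin 2) F, B = !![0, 1; (ν : F), 0] := ⟨_, rfl⟩
  have hB : B * B = (ν : F) • (1 : Matrix (Fin 2) (Fin 2) F) := by
    rw [hBdef]
    ext i j
    fin_cases i <;> fin_cases j <;> simp [Matrix.mul_apply, Fin.sum_univ_two]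
  obtain ⟨M0, hM0⟩ : ∃ M0 : Matrix (Fin 2 × Fin m) (Fin 2 × Fin m) F,
    M0 = Matrix.blockDiagonal (fun _ : Fin m => B) := ⟨_, rfl⟩
  have h0 : M0 * M0 = (ν : F) • (1 : Matrix (Fin 2 × Fin m) (Fin 2 × Fin m) F) := by
    rw [hM0, ← Matrix.blockDiagonal_mul, hB, ← Matrix.blockDiagonal_one, ← Matrix.blockDiagonal_smul]
    rfl
  obtain ⟨M, hMdef⟩ : ∃ M : Matrix (Fin (2 * m)) (Fin (2 * m)) F,
    M = Matrix.reindexAlgEquiv F F finProdFinEquiv M0 := ⟨_, rfl⟩
  have hM : M * M = (ν : F) • (1 : Matrix (Fin (2 * m)) (Fin (2 * m)) F) := by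
    rw [hMdef, ← map_mul, h0, map_smul, map_one]
  refine ⟨⟨M, ((ν⁻¹ : Fˣ) : F) • M, ?_, ?_⟩, Units.ext ?_⟩
  · rw [Matrix.mul_smul, hM, smul_smul, Units.inv_mul, one_smul]
  · rw [Matrix.smul_mul, hM, smul_smul, Units.inv_mul, one_smul]
  · show M * M = Matrix.scalar (Fin (2 * m)) (ν : F)
    rw [hM, Matrix.scalar_apply, Matrix.smul_one_eq_diagonal]

theorem scalar_inj (hn : 1 ≤ n) (c c' : Fˣ)
    (h : Matrix.GeneralLinearGroup.scalar (Fin n) c = Matrix.GeneralLinearGroup.scalar (Fin n) c') :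
    c = c' := by
  have h1 := congrArg (fun g : GL (Fin n) F => (g : Matrix (Fin n) (Fin n) F) ⟨0, hn⟩ ⟨0, hn⟩) h
  simp only [Matrix.GeneralLinearGroup.coe_scalar, Matrix.scalar_apply, Matrix.diagonal_apply_eq] at h1
  exact Units.ext h1

theorem sq_rel (hn : 1 ≤ n) (a b x : GL (Fin n) F) (c s t : Fˣ)
    (hb : b = x * a * x⁻¹ * Matrix.GeneralLinearGroup.scalar (Fin n) c)
    (ha : a * a = Matrix.GeneralLinearGroup.scalar (Fin n) s)
    (hbb : b * b = Matrix.GeneralLinearGroup.scalar (Fin n) t) : t = s * c ^ 2 := by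
  apply scalar_inj hn
  have hz : ∀ (u : Fˣ) (y : GL (Fin n) F), Matrix.GeneralLinearGroup.scalar (Fin n) u * y =
      y * Matrix.GeneralLinearGroup.scalar (Fin n) u := Matrix.GeneralLinearGroup.scalar_commute
  rw [← hbb, hb, map_mul, map_pow, pow_two]
  have e1 : x * a * x⁻¹ * (x * a * x⁻¹) = Matrix.GeneralLinearGroup.scalar (Fin n) s := by
    have : x * a * x⁻¹ * (x * a * x⁻¹) = x * (a * a) * x⁻¹ := by group
    rw [this, ha, ← hz, mul_assoc, mul_inv_cancel, mul_one]
  rw [← e1]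
  calc x * a * x⁻¹ * Matrix.GeneralLinearGroup.scalar (Fin n) c *
        (x * a * x⁻¹ * Matrix.GeneralLinearGroup.scalar (Fin n) c)
      = x * a * x⁻¹ * (Matrix.GeneralLinearGroup.scalar (Fin n) c * (x * a * x⁻¹)) *
        Matrix.GeneralLinearGroup.scalar (Fin n) c := by simp only [mul_assoc]
    _ = _ := by rw [hz]; simp only [mul_assoc]

theorem neg_eq (g : GL (Fin n) F) : -g = g * Matrix.GeneralLinearGroup.scalar (Fin n) (-1) := by
  apply Units.ext
  rw [Units.val_neg, Units.val_mul, Matrix.GeneralLinearGroup.coe_scalar, Units.val_neg, Units.val_one,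
    map_neg, map_one, mul_neg, mul_one]

end gl


/-- Number of conjugacy classes of involutions in PGL_n(q) for q odd and n ≥ 2: there are ⌊n/2⌋ classes represented by diagonal matrices with i entries −1 (1 ≤ i ≤ n/2) and, when n is even, one more class represented by a block-diagonal matrix of 2 × 2 blocks [[0, 1], [μ, 0]] with μ a non-square (a matrix squaring to a scalar but having no eigenvalue in the field); in all ⌊n/2⌋ + 1 classes if n is even and ⌊n/2⌋ if n is odd. -/
theorem result {F : Type*} [Field F] [Fintype F] {q : ℕ} (hF : Fintype.card F = q) (hq : Odd q) {n : ℕ} (hn : 2 ≤ n) : Nat.card {C : ConjClasses (GL (Fin n) F ⧸ Subgroup.center (GL (Fin n) F)) // ∃ g : GL (Fin n) F ⧸ Subgroup.center (GL (Fin n) F), ConjClasses.mk g = C ∧ orderOf g = 2} = n / 2 + (if Even n then 1 else 0) := by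
  classical
  obtain ⟨p, hpc⟩ := CharP.exists F
  haveI := hpc
  haveI : Fact p.Prime := ⟨CharP.char_is_prime F p⟩
  have hp2 : p ≠ 2 := by
    rintro rfl
    have := Cfsg.Agent.Lib.Helper19.char_dvd_card F 2
    rw [hF] at this
    exact (Nat.not_even_iff_odd.2 hq) (even_iff_two_dvd.2 this)
  have h2 : (2 : F) ≠ 0 := by
    intro h
    have h3 : ((2 : ℕ) : F) = 0 := by exact_mod_cast h
    rw [CharP.cast_eq_zero_iff F p] at h3
    exact hp2 ((Nat.prime_dvd_prime_iff_eq Fact.out Nat.prime_two).1 h3)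
  have hrc : ringChar F ≠ 2 := by rw [ringChar.eq F p]; exact hp2
  obtain ⟨ν0, hν0⟩ := FiniteField.exists_nonsquare hrc
  have hν00 : ν0 ≠ 0 := by
    rintro rfl
    exact hν0 ⟨0, by simp⟩
  obtain ⟨ν, hν⟩ : ∃ ν : Fˣ, (ν : F) = ν0 := ⟨Units.mk0 ν0 hν00, rfl⟩
  have hνns : ¬ IsSquare (ν : F) := by rw [hν]; exact hν0
  have hn1 : 1 ≤ n := by omega
  have hZ : ∀ g : GL (Fin n) F, g ∈ Subgroup.center (GL (Fin n) F) ↔
      ∃ c : Fˣ, Matrix.GeneralLinearGroup.scalar (Fin n) c = g := by
    intro g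
    rw [Matrix.GeneralLinearGroup.center_eq_range_scalar]
    exact MonoidHom.mem_range
  have hord : ∀ g : GL (Fin n) F,
      orderOf (QuotientGroup.mk g : GL (Fin n) F ⧸ Subgroup.center (GL (Fin n) F)) = 2 ↔
      (∃ c : Fˣ, Matrix.GeneralLinearGroup.scalar (Fin n) c = g * g) ∧
        ¬ ∃ c : Fˣ, Matrix.GeneralLinearGroup.scalar (Fin n) c = g := by
    intro g
    rw [orderOf_eq_prime_iff, ← QuotientGroup.mk_pow, QuotientGroup.eq_one_iff, Ne,
      QuotientGroup.eq_one_iff, hZ, hZ, pow_two]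
  have cls_conj : ∀ g h : GL (Fin n) F, IsConj g h →
      ConjClasses.mk (QuotientGroup.mk g : GL (Fin n) F ⧸ Subgroup.center (GL (Fin n) F)) =
        ConjClasses.mk (QuotientGroup.mk h : GL (Fin n) F ⧸ Subgroup.center (GL (Fin n) F)) := by
    intro g h hgh
    rw [ConjClasses.mk_eq_mk_iff_isConj]
    exact (QuotientGroup.mk' (Subgroup.center (GL (Fin n) F))).map_isConj hgh
  have mk_z : ∀ (g : GL (Fin n) F) (c : Fˣ),
      (QuotientGroup.mk (g * Matrix.GeneralLinearGroup.scalar (Fin n) c) :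
        GL (Fin n) F ⧸ Subgroup.center (GL (Fin n) F)) = QuotientGroup.mk g := by
    intro g c
    rw [eq_comm, QuotientGroup.eq, ← mul_assoc, inv_mul_cancel, one_mul, hZ]
    exact ⟨c, rfl⟩
  have hDnc : ∀ j, 1 ≤ j → j < n → ¬ ∃ c : Fˣ, Matrix.GeneralLinearGroup.scalar (Fin n) c = D F n j := by
    rintro j hj1 hjn ⟨c, hc⟩
    have e1 := congrArg (fun g : GL (Fin n) F => (g : Matrix (Fin n) (Fin n) F) ⟨0, hn1⟩ ⟨0, hn1⟩) hc
    have e2 := congrArg (fun g : GL (Fin n) F => (g : Matrix (Fin n) (Fin n) F) ⟨j, hjn⟩ ⟨j, hjn⟩) hc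
    simp only [Matrix.GeneralLinearGroup.coe_scalar, Matrix.scalar_apply, Matrix.diagonal_apply_eq] at e1 e2
    have e3 : ((D F n j : GL (Fin n) F) : Matrix (Fin n) (Fin n) F) ⟨0, hn1⟩ ⟨0, hn1⟩ = -1 := by
      show Dm F n j _ _ = _
      rw [Dm, Matrix.diagonal_apply_eq, if_pos (show (0 : ℕ) < j by omega)]
    have e4 : ((D F n j : GL (Fin n) F) : Matrix (Fin n) (Fin n) F) ⟨j, hjn⟩ ⟨j, hjn⟩ = 1 := by
      show Dm F n j _ _ = _
      rw [Dm, Matrix.diagonal_apply_eq, if_neg (by simp)]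
    rw [e3] at e1
    rw [e4, e1] at e2
    apply h2
    have : (2 : F) = 1 - (-1) := by norm_num
    rw [this, e2, sub_self]
  have hD1 : ∀ j, D F n j * D F n j = Matrix.GeneralLinearGroup.scalar (Fin n) 1 := by
    intro j
    rw [D_sq, map_one]
  choose gs hgs using (fun he : Even n => exists_sq (F := F) ν he)
  have hgsnc : ∀ he : Even n, ¬ ∃ c : Fˣ, Matrix.GeneralLinearGroup.scalar (Fin n) c = gs he := by
    rintro he ⟨c, hc⟩
    have h3 := hgs he
    rw [← hc, ← map_mul] at h3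
    have h4 := scalar_inj hn1 _ _ h3
    exact hνns ⟨c, by rw [← h4]; rfl⟩
  -- the representatives
  let rep : Fin (n / 2) ⊕ {u : Unit // Even n} → GL (Fin n) F := fun i =>
    match i with
    | Sum.inl k => D F n (k.val + 1)
    | Sum.inr u => gs u.2
  have hrep : ∀ i, orderOf (QuotientGroup.mk (rep i) :
      GL (Fin n) F ⧸ Subgroup.center (GL (Fin n) F)) = 2 := by
    intro i
    rw [hord]
    rcases i with k | u
    · have hk := k.2
      exact ⟨⟨1, (hD1 _).symm⟩, hDnc _ (by omega) (by omega)⟩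
    · exact ⟨⟨ν, (hgs u.2).symm⟩, hgsnc u.2⟩
  have hcard : Nat.card (Fin (n / 2) ⊕ {u : Unit // Even n}) = n / 2 + (if Even n then 1 else 0) := by
    rw [Nat.card_sum, Nat.card_eq_fintype_card, Fintype.card_fin, Nat.card_eq_fintype_card,
      Fintype.card_subtype]
    split_ifs with he <;> simp [he]
  rw [← hcard]
  symm
  apply Nat.card_eq_of_bijective (fun i => (⟨ConjClasses.mk (QuotientGroup.mk (rep i)), _, rfl, hrep i⟩ :
    {C : ConjClasses (GL (Fin n) F ⧸ Subgroup.center (GL (Fin n) F)) //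
      ∃ g : GL (Fin n) F ⧸ Subgroup.center (GL (Fin n) F), ConjClasses.mk g = C ∧ orderOf g = 2}))
  constructor
  · intro i i' hii
    have h3 : ConjClasses.mk (QuotientGroup.mk (rep i) :
        GL (Fin n) F ⧸ Subgroup.center (GL (Fin n) F)) = ConjClasses.mk (QuotientGroup.mk (rep i')) :=
      congrArg Subtype.val hii
    rw [ConjClasses.mk_eq_mk_iff_isConj, isConj_iff] at h3
    obtain ⟨xb, hxb⟩ := h3
    obtain ⟨x, rfl⟩ := QuotientGroup.mk_surjective xb
    rw [← QuotientGroup.mk_inv, ← QuotientGroup.mk_mul, ← QuotientGroup.mk_mul, QuotientGroup.eq, hZ] at hxb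
    obtain ⟨c, hc⟩ := hxb
    have hb : rep i' = x * rep i * x⁻¹ * Matrix.GeneralLinearGroup.scalar (Fin n) c := by
      rw [hc, ← mul_assoc, mul_inv_cancel, one_mul]
    rcases i with k | u <;> rcases i' with l | u'
    · have hk := k.2
      have hl := l.2
      have hb' : D F n (l.val + 1) = x * D F n (k.val + 1) * x⁻¹ *
        Matrix.GeneralLinearGroup.scalar (Fin n) c := hb
      have h4 := sq_rel hn1 _ _ x c 1 1 hb' (hD1 _) (hD1 _)
      rw [one_mul] at h4
      have h5 : (c : F) ^ 2 = 1 := by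
        have := congrArg Units.val h4
        rw [Units.val_pow_eq_pow_val, Units.val_one] at this
        exact this.symm
      have ak := al_D h2 (k.val + 1) (by omega : k.val + 1 ≤ n)
      have alx := al_D h2 (l.val + 1) (by omega : l.val + 1 ≤ n)
      rcases mul_self_eq_one_iff.1 ((pow_two (c : F)).symm.trans h5) with h6 | h6
      · have hc1 : c = 1 := Units.ext h6
        rw [hc1, map_one, mul_one] at hb'
        have h7 : IsConj (D F n (k.val + 1)) (D F n (l.val + 1)) := isConj_iff.2 ⟨x, hb'.symm⟩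
        have h8 := al_conj _ _ h7
        congr 1
        apply Fin.ext
        omega
      · have hc1 : c = -1 := Units.ext h6
        rw [hc1, ← neg_eq] at hb'
        have h7 : IsConj (D F n (k.val + 1)) (-(D F n (l.val + 1))) :=
          isConj_iff.2 ⟨x, by rw [hb', neg_neg]⟩
        have h8 := al_conj _ _ h7
        have h9 := al_add_neg h2 _ (D_sq (F := F) (n := n) (l.val + 1))
        congr 1
        apply Fin.ext
        omega
    · exfalso
      have hb' : gs u'.2 = x * D F n (k.val + 1) * x⁻¹ *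
        Matrix.GeneralLinearGroup.scalar (Fin n) c := hb
      have h4 := sq_rel hn1 _ _ x c 1 ν hb' (hD1 _) (hgs u'.2)
      rw [one_mul] at h4
      exact hνns ⟨c, by rw [h4, pow_two]; rfl⟩
    · exfalso
      have hb' : D F n (l.val + 1) = x * gs u.2 * x⁻¹ *
        Matrix.GeneralLinearGroup.scalar (Fin n) c := hb
      have h4 := sq_rel hn1 _ _ x c ν 1 hb' (hgs u.2) (hD1 _)
      have h5 : ν = c⁻¹ * c⁻¹ := by
        rw [eq_comm, ← mul_inv, ← pow_two, inv_eq_iff_mul_eq_one, mul_comm]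
        exact h4.symm
      exact hνns ⟨((c⁻¹ : Fˣ) : F), by rw [h5]; rfl⟩
    · congr 1
      exact Subtype.ext rfl
  · rintro ⟨_, gb, rfl, hgb⟩
    obtain ⟨g, rfl⟩ := QuotientGroup.mk_surjective gb
    obtain ⟨⟨lam, hlam⟩, hgnc⟩ := (hord g).1 hgb
    have hz : ∀ (u : Fˣ) (y : GL (Fin n) F), Matrix.GeneralLinearGroup.scalar (Fin n) u * y =
      y * Matrix.GeneralLinearGroup.scalar (Fin n) u := Matrix.GeneralLinearGroup.scalar_commute
    have hscale : ∀ c : Fˣ, (g * Matrix.GeneralLinearGroup.scalar (Fin n) c) *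
        (g * Matrix.GeneralLinearGroup.scalar (Fin n) c) =
        Matrix.GeneralLinearGroup.scalar (Fin n) (lam * (c * c)) := by
      intro c
      rw [map_mul, map_mul, hlam]
      calc g * Matrix.GeneralLinearGroup.scalar (Fin n) c * (g * Matrix.GeneralLinearGroup.scalar (Fin n) c)
          = g * (Matrix.GeneralLinearGroup.scalar (Fin n) c * g) *
            Matrix.GeneralLinearGroup.scalar (Fin n) c := by simp only [mul_assoc]
        _ = _ := by rw [hz]; simp only [mul_assoc]
    by_cases hsq : IsSquare (lam : F)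
    · obtain ⟨μ0, hμ0⟩ := hsq
      have hμ00 : μ0 ≠ 0 := by
        rintro rfl
        rw [mul_zero] at hμ0
        exact lam.ne_zero hμ0
      obtain ⟨μ, hμ⟩ : ∃ μ : Fˣ, (μ : F) = μ0 := ⟨Units.mk0 μ0 hμ00, rfl⟩
      have hlamμ : lam = μ * μ := Units.ext (by rw [hμ0, Units.val_mul, hμ])
      obtain ⟨g', hg'⟩ : ∃ g', g' = g * Matrix.GeneralLinearGroup.scalar (Fin n) μ⁻¹ := ⟨_, rfl⟩
      have hg'sq : g' * g' = 1 := by
        rw [hg', hscale, hlamμ, show μ * μ * (μ⁻¹ * μ⁻¹) = 1 by group, map_one]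
      have hmk : (QuotientGroup.mk g' : GL (Fin n) F ⧸ Subgroup.center (GL (Fin n) F)) =
          QuotientGroup.mk g := by rw [hg', mk_z]
      have hg'nc : ¬ ∃ c : Fˣ, Matrix.GeneralLinearGroup.scalar (Fin n) c = g' := by
        rintro ⟨c, hc⟩
        apply hgnc
        refine ⟨c * μ, ?_⟩
        rw [map_mul, hc, hg', mul_assoc, ← map_mul, inv_mul_cancel, map_one, mul_one]
      have hadd := al_add_neg h2 g' hg'sq
      have hne1 : al g' ≠ n := by
        intro h
        have h3 := (Cfsg.Agent.Lib.Helper19.Jordan.pow_eq_zero_iff_kg g' 1).2 h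
        rw [pow_one, sub_eq_zero] at h3
        exact hg'nc ⟨1, by rw [map_one]; exact (Units.ext h3).symm⟩
      have hne2 : al (-g') ≠ n := by
        intro h
        have h3 := (Cfsg.Agent.Lib.Helper19.Jordan.pow_eq_zero_iff_kg (-g') 1).2 h
        rw [pow_one, sub_eq_zero] at h3
        have h4 : -g' = 1 := Units.ext h3
        apply hg'nc
        refine ⟨-1, ?_⟩
        have h5 := neg_eq (1 : GL (Fin n) F)
        rw [one_mul] at h5
        rw [← h5, ← h4, neg_neg]
      by_cases hcase : 2 * (n - al g') ≤ n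
      · refine ⟨Sum.inl ⟨n - al g' - 1, by omega⟩, ?_⟩
        apply Subtype.ext
        show ConjClasses.mk (QuotientGroup.mk (D F n (n - al g' - 1 + 1))) =
          ConjClasses.mk (QuotientGroup.mk g : GL (Fin n) F ⧸ Subgroup.center (GL (Fin n) F))
        rw [← hmk]
        apply cls_conj
        apply isConj_of_al h2 _ _ (D_sq _) hg'sq
        rw [al_D h2 _ (by omega)]
        omega
      · refine ⟨Sum.inl ⟨n - al (-g') - 1, by omega⟩, ?_⟩
        apply Subtype.ext
        show ConjClasses.mk (QuotientGroup.mk (D F n (n - al (-g') - 1 + 1))) =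
          ConjClasses.mk (QuotientGroup.mk g : GL (Fin n) F ⧸ Subgroup.center (GL (Fin n) F))
        have hmk2 : (QuotientGroup.mk (-g') : GL (Fin n) F ⧸ Subgroup.center (GL (Fin n) F)) =
          QuotientGroup.mk g := by rw [neg_eq, mk_z, hmk]
        rw [← hmk2]
        apply cls_conj
        apply isConj_of_al h2 _ _ (D_sq _) (by rw [neg_mul_neg, hg'sq])
        rw [al_D h2 _ (by omega)]
        omega
    · -- non-square
      have hprod : IsSquare ((lam : F) * (ν : F)) := by
        rw [← quadraticChar_one_iff_isSquare (mul_ne_zero lam.ne_zero ν.ne_zero), map_mul,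
          quadraticChar_neg_one_iff_not_isSquare.2 hsq, quadraticChar_neg_one_iff_not_isSquare.2 hνns]
        norm_num
      obtain ⟨s0, hs0⟩ := hprod
      have hs00 : s0 ≠ 0 := by
        rintro rfl
        rw [mul_zero] at hs0
        exact (mul_ne_zero lam.ne_zero ν.ne_zero) hs0
      obtain ⟨s, hs⟩ : ∃ s : Fˣ, (s : F) = s0 := ⟨Units.mk0 s0 hs00, rfl⟩
      have hls : lam * ν = s * s := Units.ext (by rw [Units.val_mul, Units.val_mul, hs0, hs])
      obtain ⟨g', hg'⟩ : ∃ g', g' = g * Matrix.GeneralLinearGroup.scalar (Fin n) (ν * s⁻¹) := ⟨_, rfl⟩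
      have hg'sq : g' * g' = Matrix.GeneralLinearGroup.scalar (Fin n) ν := by
        rw [hg', hscale]
        congr 1
        calc lam * (ν * s⁻¹ * (ν * s⁻¹)) = (lam * ν) * (s⁻¹ * s⁻¹) * ν := by
              simp only [mul_assoc, mul_comm, mul_left_comm]
          _ = ν := by rw [hls, show s * s * (s⁻¹ * s⁻¹) = 1 by group, one_mul]
      have hmk : (QuotientGroup.mk g' : GL (Fin n) F ⧸ Subgroup.center (GL (Fin n) F)) =
          QuotientGroup.mk g := by rw [hg', mk_z]
      obtain ⟨m, hm, -⟩ := charpoly_of_sq (ν : F) hνns (g' : Matrix (Fin n) (Fin n) F)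
        (congrArg Units.val hg'sq)
      have he : Even n := ⟨m, by omega⟩
      refine ⟨Sum.inr ⟨(), he⟩, ?_⟩
      apply Subtype.ext
      show ConjClasses.mk (QuotientGroup.mk (gs he)) =
        ConjClasses.mk (QuotientGroup.mk g : GL (Fin n) F ⧸ Subgroup.center (GL (Fin n) F))
      rw [← hmk]
      apply cls_conj
      exact isConj_of_sq p hp2 ν hνns _ _ (hgs he) hg'sq

end Cfsg.Agent.S2577
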