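import Cfsg.Statements.S2579
import Cfsg.Agent.Lib.Helper15.Adapted

set_option autoImplicit false
open Cfsg

namespace Cfsg.Agent.S2579

open Module Cfsg.Agent.Lib.Helper15


/-- In SL_n(F) with n ≥ 3, over a finite field F, any two transvections (matrices t with t − 1 of rank one and square zero) are conjugate by an element of SL_n(F). -/
theorem result {F : Type*} [Field F] [Finite F] {n : ℕ} (hn : 3 ≤ n) (s t : Matrix.SpecialLinearGroup (Fin n) F) (hs : Cfsg.IsTransvection (s : Matrix (Fin n) (Fin n) F)) (ht : Cfsg.IsTransvection (t : Matrix (Fin n) (Fin n) F)) : IsConj s t := by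
  obtain ⟨k, rfl⟩ : ∃ k, n = (k + 1) + 2 := ⟨n - 3, by omega⟩
  have hV : finrank F (Fin (k + 1 + 2) → F) = (k + 1) + 2 := by simp
  obtain ⟨b, hb1, hb2⟩ := adapted_basis hV ((s : Matrix (Fin (k + 1 + 2)) (Fin (k + 1 + 2)) F) - 1).mulVecLin hs.1
    (by rw [← Matrix.mulVecLin_mul, hs.2]; simp)
  obtain ⟨b', hb1', hb2'⟩ := adapted_basis hV ((t : Matrix (Fin (k + 1 + 2)) (Fin (k + 1 + 2)) F) - 1).mulVecLin ht.1
    (by rw [← Matrix.mulVecLin_mul, ht.2]; simp)
  obtain ⟨g, c, hc, hdet, hg2, hg⟩ := exists_det_one b b' 2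
  have h01 : (0 : Fin (k + 1 + 2)) ≠ 1 := by simp [Fin.ext_iff]
  have h2v : ((2 : Fin (k + 1 + 2)) : ℕ) = 2 := by
    show 2 % (k + 1 + 2) = 2; exact Nat.mod_eq_of_lt (by omega)
  have h1v : ((1 : Fin (k + 1 + 2)) : ℕ) = 1 := by
    show 1 % (k + 1 + 2) = 1; exact Nat.mod_eq_of_lt (by omega)
  have h02 : (0 : Fin (k + 1 + 2)) ≠ 2 := by
    intro h; have := congrArg Fin.val h; rw [h2v] at this; simp at this
  have h12 : (1 : Fin (k + 1 + 2)) ≠ 2 := by
    intro h; have := congrArg Fin.val h; rw [h2v, h1v] at this; simp at this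
  have hcomm : (g : (Fin (k + 1 + 2) → F) →ₗ[F] _) ∘ₗ ((s : Matrix (Fin (k + 1 + 2)) (Fin (k + 1 + 2)) F) - 1).mulVecLin
      = ((t : Matrix (Fin (k + 1 + 2)) (Fin (k + 1 + 2)) F) - 1).mulVecLin ∘ₗ (g : (Fin (k + 1 + 2) → F) →ₗ[F] _) := by
    apply b.ext
    intro i
    simp only [LinearMap.comp_apply, LinearEquiv.coe_coe]
    by_cases hi1 : i = 1
    · subst hi1
      rw [hb1, hg 0 h02, hg 1 h12, hb1']
    · rw [hb2 i hi1, map_zero]
      by_cases hi2 : i = 2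
      · subst hi2
        rw [hg2, map_smul, hb2' 2 hi1, smul_zero]
      · rw [hg i hi2, hb2' i hi1]
  have hmat : LinearMap.toMatrix' (g : (Fin (k + 1 + 2) → F) →ₗ[F] _) * (s : Matrix (Fin (k + 1 + 2)) (Fin (k + 1 + 2)) F)
      = (t : Matrix (Fin (k + 1 + 2)) (Fin (k + 1 + 2)) F) * LinearMap.toMatrix' (g : (Fin (k + 1 + 2) → F) →ₗ[F] _) := by
    have := congrArg LinearMap.toMatrix' hcomm
    rw [LinearMap.toMatrix'_comp, LinearMap.toMatrix'_comp, ← Matrix.toLin'_apply', ← Matrix.toLin'_apply', LinearMap.toMatrix'_toLin', LinearMap.toMatrix'_toLin',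
      mul_sub, sub_mul, mul_one, one_mul] at this
    exact sub_left_injective this
  rw [isConj_iff]
  refine ⟨⟨LinearMap.toMatrix' (g : (Fin (k + 1 + 2) → F) →ₗ[F] _), by rw [LinearMap.det_toMatrix', hdet]⟩, ?_⟩
  apply mul_inv_eq_iff_eq_mul.2
  exact Subtype.ext hmat

end Cfsg.Agent.S2579
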