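import Cfsg.Statements.S2585
-- import your own Cfsg.Agent.* helpers here

set_option autoImplicit false
open Cfsg

namespace Cfsg.Agent.S2585

open Matrix

theorem symp_pres {m : ℕ} {F : Type*} [Field F] (A : Matrix (Fin m ⊕ Fin m) (Fin m ⊕ Fin m) F)
    (hA : Aᵀ * J (Fin m) F * A = J (Fin m) F) (x y : Fin m ⊕ Fin m → F) :
    Cfsg.sympForm m F (A *ᵥ x) (A *ᵥ y) = Cfsg.sympForm m F x y := by
  unfold Cfsg.sympForm
  rw [← Matrix.vecMul_transpose, ← Matrix.dotProduct_mulVec, Matrix.mulVec_mulVec, Matrix.mulVec_mulVec, hA]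



/-- Over a finite field of characteristic two every element of the symplectic group is orthogonal for a suitable quadratic form: for each A in Sp_2m(F) there is a quadratic form Q on F^(2m) whose polar form is the alternating form defining Sp_2m(F) (so Q is non-degenerate) and which A preserves. Equivalently, for m ≥ 1, Sp_2m(F) is the union of the conjugates of its two orthogonal subgroups O⁺_2m(F) and O⁻_2m(F). -/
theorem result {F : Type*} [Field F] [Fintype F] [CharP F 2] {m : ℕ} (A : Matrix.symplecticGroup (Fin m) F) : ∃ Q : QuadraticForm F (Fin m ⊕ Fin m → F), (∀ u v : Fin m ⊕ Fin m → F, QuadraticMap.polar ⇑Q u v = Cfsg.sympForm m F u v) ∧ ∀ v : Fin m ⊕ Fin m → F, Q ((A : Matrix (Fin m ⊕ Fin m) (Fin m ⊕ Fin m) F).mulVec v) = Q v := by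
  have h2 : (2 : F) = 0 := CharP.cast_eq_zero F 2
  have hneg : ∀ x : F, -x = x := by
    intro x
    have : x + x = 0 := by rw [← two_mul, h2, zero_mul]
    exact neg_eq_of_add_eq_zero_left this
  set M : Matrix (Fin m ⊕ Fin m) (Fin m ⊕ Fin m) F := Matrix.fromBlocks 0 1 0 0 with hM
  set C : LinearMap.BilinForm F (Fin m ⊕ Fin m → F) := Matrix.toBilin' M with hC
  set Q₀ : QuadraticForm F (Fin m ⊕ Fin m → F) := C.toQuadraticMap with hQ₀
  have hMJ : M + Mᵀ = J (Fin m) F := by
    rw [hM, Matrix.fromBlocks_transpose, Matrix.fromBlocks_add, Matrix.J]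
    congr 1 <;> simp
    ext i j
    simp [hneg]
  have hpol₀ : ∀ u v, QuadraticMap.polar ⇑Q₀ u v = Cfsg.sympForm m F u v := by
    intro u v
    rw [hQ₀, LinearMap.BilinMap.polar_toQuadraticMap, hC, Matrix.toBilin'_apply', Matrix.toBilin'_apply']
    unfold Cfsg.sympForm
    rw [← hMJ, Matrix.add_mulVec, dotProduct_add]
    congr 1
    rw [Matrix.dotProduct_mulVec, Matrix.mulVec_transpose, dotProduct_comm]
  set A' : Matrix (Fin m ⊕ Fin m) (Fin m ⊕ Fin m) F := (A : Matrix (Fin m ⊕ Fin m) (Fin m ⊕ Fin m) F) with hA'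
  have hA : A'ᵀ * J (Fin m) F * A' = J (Fin m) F := (SymplecticGroup.mem_iff').1 A.2
  -- D
  let D : (Fin m ⊕ Fin m → F) → F := fun v => Q₀ (A' *ᵥ v) - Q₀ v
  have hDadd : ∀ u v, D (u + v) = D u + D v := by
    intro u v
    have h1 := hpol₀ u v
    have h3 := hpol₀ (A' *ᵥ u) (A' *ᵥ v)
    rw [symp_pres A' hA] at h3
    simp only [QuadraticMap.polar] at h1 h3
    simp only [D, Matrix.mulVec_add]
    linear_combination h3 - h1
  have hDsmul : ∀ (c : F) v, D (c • v) = c ^ 2 * D v := by
    intro c v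
    simp only [D, Matrix.mulVec_smul, QuadraticMap.map_smul, smul_eq_mul]
    ring
  let δ : (Fin m ⊕ Fin m → F) →ₗ[F] F :=
    { toFun := fun v => (frobeniusEquiv F 2).symm (D v)
      map_add' := by intro u v; rw [hDadd, map_add]
      map_smul' := by
        intro c v
        rw [hDsmul, map_mul, frobeniusEquiv_symm_pow]; rfl }
  have hδ : ∀ v, δ v ^ 2 = D v := fun v => frobeniusEquiv_symm_pow_p F 2 (D v)
  have hmem : δ ∈ LinearMap.range (Matrix.toLin' (A' - 1)).dualMap := by
    rw [LinearMap.range_dualMap_eq_dualAnnihilator_ker, Submodule.mem_dualAnnihilator]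
    intro v hv
    rw [LinearMap.mem_ker, Matrix.toLin'_apply, Matrix.sub_mulVec, Matrix.one_mulVec, sub_eq_zero] at hv
    have h1 : D v = 0 := by simp only [D, hv, sub_self]
    have h3 := hδ v
    rw [h1] at h3
    exact pow_eq_zero_iff (two_ne_zero) |>.1 h3
  obtain ⟨l, hl⟩ := hmem
  have hl' : ∀ v, l (A' *ᵥ v) = l v + δ v := by
    intro v
    have h3 : l (Matrix.toLin' (A' - 1) v) = δ v := congrArg (fun f => f v) hl
    rw [Matrix.toLin'_apply, Matrix.sub_mulVec, Matrix.one_mulVec, map_sub] at h3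
    rw [← h3]; ring
  refine ⟨Q₀ + QuadraticMap.linMulLin l l, ?_, ?_⟩
  · intro u v
    rw [FunLike.coe_add, QuadraticMap.polar_add, hpol₀]
    simp only [QuadraticMap.polar, QuadraticMap.linMulLin_apply, map_add]
    linear_combination (l u * l v) * h2
  · intro v
    simp only [QuadraticMap.add_apply, QuadraticMap.linMulLin_apply, hl']
    have h1 := hδ v
    simp only [D] at h1
    linear_combination (l v * δ v + Q₀ (A' *ᵥ v) - Q₀ v) * h2 + h1

end Cfsg.Agent.S2585
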