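import Cfsg.Statements.S2592
import Cfsg.Agent.Lib.Helper15.Cyclic

set_option autoImplicit false
open Cfsg

namespace Cfsg.Agent.S2592


open Matrix Module LinearMap Polynomial Cfsg.Agent.Lib.Helper15

section L1
variable {K E : Type*} [Field K] [AddCommGroup E] [Module K E] [FiniteDimensional K E]

theorem finrank_le_of_maps (μ : Module.End K E) (P Q : Submodule K E) (h : ∀ x ∈ P, μ x ∈ Q) :
    finrank K P ≤ finrank K Q + finrank K (ker μ) := by
  have h1 := LinearMap.finrank_range_add_finrank_ker (μ.domRestrict P)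
  have h2 : finrank K (range (μ.domRestrict P)) ≤ finrank K Q := by
    apply Submodule.finrank_mono
    rintro _ ⟨x, rfl⟩
    exact h x.1 x.2
  have h3 : finrank K (ker (μ.domRestrict P)) ≤ finrank K (ker μ) := by
    rw [← Submodule.finrank_map_subtype_eq P (ker (μ.domRestrict P))]
    apply Submodule.finrank_mono
    rintro _ ⟨x, hx, rfl⟩
    exact hx
  omega

theorem finrank_neg_eigen (h2 : (2 : K) ≠ 0) (θ μ : Module.End K E) (hθ : ∀ x, θ (θ x) = x)
    (hanti : ∀ x, θ (μ x) = - μ (θ x)) (hker : finrank K (ker μ) ≤ 1) (m : ℕ) (hE : finrank K E = 2 * m) :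
    finrank K (ker (θ + 1)) = m := by
  set Ep := ker (θ - 1) with hEp
  set Em := ker (θ + 1) with hEm
  have mp : ∀ x, x ∈ Ep ↔ θ x = x := by
    intro x
    rw [hEp, LinearMap.mem_ker, LinearMap.sub_apply, Module.End.one_apply, sub_eq_zero]
  have mm : ∀ x, x ∈ Em ↔ θ x = -x := by
    intro x
    rw [hEm, LinearMap.mem_ker, LinearMap.add_apply, Module.End.one_apply, add_eq_zero_iff_eq_neg]
  have hsum := Submodule.finrank_sup_add_finrank_inf_eq Ep Em
  have hinf : Ep ⊓ Em = ⊥ := by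
    rw [eq_bot_iff]
    rintro x ⟨h1, h3⟩
    have h4 := (mp x).1 h1
    have h5 := (mm x).1 h3
    have h6 : (2 : K) • x = 0 := by
      rw [two_smul]
      nth_rewrite 1 [← h4]
      rw [h5]; simp
    exact (smul_eq_zero.1 h6).resolve_left h2
  have hsup : Ep ⊔ Em = ⊤ := by
    rw [eq_top_iff]
    intro x _
    have hx : x = (2 : K)⁻¹ • (x + θ x) + (2 : K)⁻¹ • (x - θ x) := by
      rw [← smul_add]
      have : x + θ x + (x - θ x) = (2 : K) • x := by rw [two_smul]; abel
      rw [this, smul_smul, inv_mul_cancel₀ h2, one_smul]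
    rw [hx]
    apply Submodule.add_mem_sup
    · apply Submodule.smul_mem
      rw [mp, map_add, hθ, add_comm]
    · apply Submodule.smul_mem
      rw [mm, map_sub, hθ]; abel
  rw [hinf, hsup, finrank_bot, finrank_top, hE] at hsum
  have a1 := finrank_le_of_maps μ Ep Em (by
    intro x hx
    rw [mm, hanti, (mp x).1 hx])
  have a2 := finrank_le_of_maps μ Em Ep (by
    intro x hx
    rw [mp, hanti, (mm x).1 hx, map_neg, neg_neg])
  omega

end L1

section Mat
variable {ι : Type*} [Fintype ι] [DecidableEq ι] {F : Type*} [Field F]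

/-- data of a regular unipotent matrix with a cyclic vector -/
structure Reg (A : Matrix ι ι F) (v : ι → F) : Prop where
  hker : finrank F (ker (Matrix.mulVecLin (A - 1))) ≤ 1
  hnil : (Matrix.mulVecLin (A - 1) : Module.End F (ι → F)) ^ (finrank F (ι → F)) = 0
  hv : v ∉ ker ((Matrix.mulVecLin (A - 1) : Module.End F (ι → F)) ^ (finrank F (ι → F) - 1))
  hpos : 1 ≤ finrank F (ι → F)

variable {A : Matrix ι ι F} {v : ι → F}

theorem comm_lin {X : Matrix ι ι F} (hX : X * A = A * X) :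
    (Matrix.mulVecLin X : Module.End F (ι → F)) * Matrix.mulVecLin (A - 1) = Matrix.mulVecLin (A - 1) * Matrix.mulVecLin X := by
  rw [Module.End.mul_eq_comp, Module.End.mul_eq_comp, ← Matrix.mulVecLin_mul, ← Matrix.mulVecLin_mul,
    mul_sub, sub_mul, hX, mul_one, one_mul]

theorem Reg.eq_zero (h : Reg A v) {X : Matrix ι ι F} (hX : X * A = A * X) (hv : X *ᵥ v = 0) : X = 0 := by
  have := eq_zero_of_apply_cyclic _ h.hker h.hnil v h.hv (Matrix.mulVecLin X) (comm_lin hX) hv
  apply Matrix.toLin'.injective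
  rw [map_zero]
  exact this

theorem Reg.isUnit (h : Reg A v) {X : Matrix ι ι F} (hX : X * A = A * X)
    (hv : X *ᵥ v ∉ ker ((Matrix.mulVecLin (A - 1) : Module.End F (ι → F)) ^ (finrank F (ι → F) - 1))) : IsUnit X := by
  have := ker_eq_bot_of_cyclic _ h.hker h.hnil h.hpos v (Matrix.mulVecLin X) (comm_lin hX) hv
  rw [← Matrix.mulVec_injective_iff_isUnit]
  exact LinearMap.ker_eq_bot.1 this

theorem aeval_comm (p : F[X]) : aeval (A - 1) p * A = A * aeval (A - 1) p := by
  have h1 : Commute (aeval (A - 1) p) (A - 1) := by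
    have := (Commute.all p X).map (aeval (A - 1) : F[X] →ₐ[F] Matrix ι ι F)
    rwa [aeval_X] at this
  have h2 : aeval (A - 1) p * (A - 1) = (A - 1) * aeval (A - 1) p := h1
  rw [mul_sub, sub_mul, mul_one, one_mul] at h2
  exact sub_left_injective h2

theorem Reg.exists_aeval (h : Reg A v) (w : ι → F) : ∃ p : F[X], aeval (A - 1) p *ᵥ v = w := by
  obtain ⟨p, hp⟩ := cyclic_vec _ h.hker h.hnil v h.hv w
  refine ⟨p, ?_⟩
  have hMN : Matrix.mulVecLin (aeval (A - 1) p) = aeval (Matrix.mulVecLin (A - 1) : Module.End F (ι → F)) p := by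
    have := Polynomial.aeval_algHom_apply (Matrix.toLinAlgEquiv' (R := F) (n := ι)).toAlgHom (A - 1) p
    exact this.symm
  rw [hp, ← hMN]; rfl

theorem Reg.eq_aeval (h : Reg A v) {X : Matrix ι ι F} (hX : X * A = A * X) : ∃ p : F[X], X = aeval (A - 1) p := by
  obtain ⟨p, hp⟩ := h.exists_aeval (X *ᵥ v)
  refine ⟨p, ?_⟩
  rw [← sub_eq_zero]
  apply h.eq_zero
  · rw [sub_mul, mul_sub, hX, aeval_comm]
  · rw [Matrix.sub_mulVec, hp, sub_self]

theorem Reg.comm (h : Reg A v) {X Y : Matrix ι ι F} (hX : X * A = A * X) (hY : Y * A = A * Y) : X * Y = Y * X := by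
  obtain ⟨p, rfl⟩ := h.eq_aeval hX
  obtain ⟨r, rfl⟩ := h.eq_aeval hY
  exact (Commute.all p r).map (aeval (A - 1) : F[X] →ₐ[F] Matrix ι ι F)

theorem mem_H_of_comm {X : Matrix ι ι F} (hX : X * A = A * X) (k : ℕ) {w : ι → F}
    (hw : w ∈ ker ((Matrix.mulVecLin (A - 1) : Module.End F (ι → F)) ^ k)) :
    X *ᵥ w ∈ ker ((Matrix.mulVecLin (A - 1) : Module.End F (ι → F)) ^ k) := by
  rw [LinearMap.mem_ker] at hw ⊢
  have := comm_pow' _ (Matrix.mulVecLin X) (comm_lin hX) k w
  rw [hw, map_zero] at this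
  exact this.symm

end Mat

theorem card_split {α : Type*} [Finite α] (P Q : α → Prop) :
    Nat.card {a // P a} = Nat.card {a // P a ∧ Q a} + Nat.card {a // P a ∧ ¬ Q a} := by
  classical
  rw [← Nat.card_sum]
  apply Nat.card_congr
  exact (Equiv.sumCompl (fun a : {a // P a} => Q a.1)).symm.trans
    (Equiv.sumCongr (Equiv.subtypeSubtypeEquivSubtypeInter P Q)
      (Equiv.subtypeSubtypeEquivSubtypeInter P (fun a => ¬ Q a)))

section AL
variable {R : Type*} [CommRing R] [IsLocalRing R] [Finite R]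

theorem cayley_skew (dag : R →+* R) {g i : R} (hg : g * dag g = 1) (hi : (g + 1) * i = 1) :
    dag ((g - 1) * i) = -((g - 1) * i) := by
  have hi' : (dag g + 1) * dag i = 1 := by
    have := congrArg dag hi
    rwa [map_mul, map_add, map_one] at this
  rw [map_mul, map_sub, map_one]
  linear_combination (2 * i * dag i) * hg - (dag g - 1) * dag i * hi - (g - 1) * i * hi'

theorem card_norm_one (h2 : IsUnit (2 : R)) (dag : R →+* R)
    (hskew : ∀ x, dag x = -x → ¬ IsUnit x) :
    Nat.card {g : R // g * dag g = 1} = 2 * Nat.card {x : R // dag x = -x} := by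
  rw [card_split (fun g : R => g * dag g = 1) (fun g => IsUnit (g + 1))]
  have hinv : ∀ g : R, IsUnit (g + 1) → (g + 1) * Ring.inverse (g + 1) = 1 :=
    fun g h => Ring.mul_inverse_cancel _ h
  have e1 : Nat.card {g : R // g * dag g = 1 ∧ IsUnit (g + 1)} = Nat.card {x : R // dag x = -x} := by
    apply Nat.card_congr
    refine Equiv.ofBijective (fun g => ⟨(g.1 - 1) * Ring.inverse (g.1 + 1),
      cayley_skew dag g.2.1 (hinv g.1 g.2.2)⟩) ⟨?_, ?_⟩
    · rintro ⟨g, hg, hgu⟩ ⟨h, hh, hhu⟩ e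
      have e' : (g - 1) * Ring.inverse (g + 1) = (h - 1) * Ring.inverse (h + 1) := congrArg Subtype.val e
      have hi := hinv g hgu
      have hj := hinv h hhu
      set i := Ring.inverse (g + 1)
      set j := Ring.inverse (h + 1)
      have h3 : 2 * (i - j) = 0 := by linear_combination hi - hj - e'
      have h4 : i = j := by
        have := h2.mul_left_cancel (a := 2) (b := i - j) (c := 0) (by rw [h3, mul_zero])
        exact sub_eq_zero.1 this
      apply Subtype.ext
      show g = h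
      rw [← h4] at hj
      linear_combination (h + 1) * hi - (g + 1) * hj
    · rintro ⟨x, hx⟩
      have hxu : IsUnit (1 - x) := IsLocalRing.isUnit_one_sub_self_of_mem_nonunits x (hskew x hx)
      have hk := Ring.mul_inverse_cancel _ hxu
      set k := Ring.inverse (1 - x)
      have hk' : (1 + x) * dag k = 1 := by
        have := congrArg dag hk
        rw [map_mul, map_sub, map_one, hx] at this
        linear_combination this
      have hku : IsUnit k := IsUnit.of_mul_eq_one _ (by rw [mul_comm]; exact hk)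
      have hg1 : (1 + x) * k + 1 = 2 * k := by linear_combination -hk
      have hgu : IsUnit ((1 + x) * k + 1) := by rw [hg1]; exact h2.mul hku
      refine ⟨⟨(1 + x) * k, ?_, hgu⟩, ?_⟩
      · rw [map_mul, map_add, map_one, hx]
        linear_combination (1 + x) * dag k * hk + hk'
      · apply Subtype.ext
        show ((1 + x) * k - 1) * Ring.inverse ((1 + x) * k + 1) = x
        have hi := hinv _ hgu
        set i := Ring.inverse ((1 + x) * k + 1)
        linear_combination x * hi + i * (1 + x) * hk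
  have e2 : Nat.card {g : R // g * dag g = 1 ∧ ¬ IsUnit (g + 1)}
      = Nat.card {g : R // g * dag g = 1 ∧ IsUnit (g + 1)} := by
    apply Nat.card_congr
    refine ⟨fun g => ⟨-g.1, by rw [map_neg]; linear_combination g.2.1, ?_⟩,
      fun g => ⟨-g.1, by rw [map_neg]; linear_combination g.2.1, ?_⟩, ?_, ?_⟩
    · have h3 : IsUnit ((g.1 + 1) + (-g.1 + 1)) := by
        have : (g.1 + 1) + (-g.1 + 1) = 2 := by ring
        rw [this]; exact h2
      exact (IsLocalRing.isUnit_or_isUnit_of_isUnit_add h3).resolve_left g.2.2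
    · intro hu
      have hi := hinv g.1 g.2.2
      have hiu : IsUnit (Ring.inverse (g.1 + 1)) := IsUnit.of_mul_eq_one _ (by rw [mul_comm]; exact hi)
      apply hskew _ (cayley_skew dag g.2.1 hi)
      apply IsUnit.mul _ hiu
      have h5 : g.1 - 1 = -(-g.1 + 1) := by ring
      rw [h5]
      exact hu.neg
    · intro g; apply Subtype.ext; simp
    · intro g; apply Subtype.ext; simp
  rw [e2, e1]; ring

end AL

section Sp
variable {m : ℕ} {F : Type*} [Field F]

/-- the adjoint for the standard symplectic form -/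
def dagM (X : Matrix (Fin m ⊕ Fin m) (Fin m ⊕ Fin m) F) : Matrix (Fin m ⊕ Fin m) (Fin m ⊕ Fin m) F :=
  -(J (Fin m) F * Xᵀ * J (Fin m) F)

theorem dagM_mul (X Y : Matrix (Fin m ⊕ Fin m) (Fin m ⊕ Fin m) F) : dagM (X * Y) = dagM Y * dagM X := by
  unfold dagM
  have hJ := J_squared (Fin m) F
  have : J (Fin m) F * Yᵀ * J (Fin m) F * (J (Fin m) F * Xᵀ * J (Fin m) F)
      = J (Fin m) F * Yᵀ * (J (Fin m) F * J (Fin m) F) * Xᵀ * J (Fin m) F := by
    simp only [Matrix.mul_assoc]
  rw [neg_mul_neg, this, hJ, transpose_mul]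
  simp [Matrix.mul_assoc]

theorem dagM_one : dagM (1 : Matrix (Fin m ⊕ Fin m) (Fin m ⊕ Fin m) F) = 1 := by
  unfold dagM
  rw [transpose_one, mul_one, J_squared, neg_neg]

theorem dagM_add (X Y : Matrix (Fin m ⊕ Fin m) (Fin m ⊕ Fin m) F) : dagM (X + Y) = dagM X + dagM Y := by
  unfold dagM
  rw [transpose_add, mul_add, add_mul, neg_add]

theorem dagM_smul (c : F) (X : Matrix (Fin m ⊕ Fin m) (Fin m ⊕ Fin m) F) : dagM (c • X) = c • dagM X := by
  unfold dagM
  rw [transpose_smul, Matrix.mul_smul, Matrix.smul_mul, smul_neg]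

theorem dagM_neg (X : Matrix (Fin m ⊕ Fin m) (Fin m ⊕ Fin m) F) : dagM (-X) = -dagM X := by
  unfold dagM
  rw [transpose_neg, mul_neg, neg_mul]

theorem dagM_sub (X Y : Matrix (Fin m ⊕ Fin m) (Fin m ⊕ Fin m) F) : dagM (X - Y) = dagM X - dagM Y := by
  rw [sub_eq_add_neg, dagM_add, dagM_neg, sub_eq_add_neg]

theorem dagM_zero : dagM (0 : Matrix (Fin m ⊕ Fin m) (Fin m ⊕ Fin m) F) = 0 := by
  unfold dagM; simp

theorem dagM_dagM (X : Matrix (Fin m ⊕ Fin m) (Fin m ⊕ Fin m) F) : dagM (dagM X) = X := by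
  unfold dagM
  have hJ := J_squared (Fin m) F
  rw [transpose_neg, transpose_mul, transpose_mul, transpose_transpose, J_transpose]
  have : J (Fin m) F * -(-J (Fin m) F * (X * -J (Fin m) F)) * J (Fin m) F
      = -((J (Fin m) F * J (Fin m) F) * X * (J (Fin m) F * J (Fin m) F)) := by
    simp only [Matrix.mul_assoc, neg_mul, mul_neg, neg_neg]
  rw [this, hJ]; simp

theorem mem_sp_iff (g : Matrix (Fin m ⊕ Fin m) (Fin m ⊕ Fin m) F) :
    g ∈ symplecticGroup (Fin m) F ↔ g * dagM g = 1 := by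
  rw [SymplecticGroup.mem_iff]
  have hJ := J_squared (Fin m) F
  have e : g * dagM g = -(g * J (Fin m) F * gᵀ * J (Fin m) F) := by
    unfold dagM; simp only [Matrix.mul_assoc, mul_neg]
  rw [e]
  constructor
  · intro h
    rw [h, hJ, neg_neg]
  · intro h
    have h3 := congrArg (fun Z => Z * J (Fin m) F) h
    simp only [neg_mul, Matrix.mul_assoc, hJ, one_mul, mul_neg, mul_one, neg_neg] at h3
    rw [Matrix.mul_assoc]; exact h3

theorem dag_comm {A X : Matrix (Fin m ⊕ Fin m) (Fin m ⊕ Fin m) F} (hA : A * dagM A = 1) (hX : X * A = A * X) :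
    dagM X * A = A * dagM X := by
  have hA' : dagM A * A = 1 := mul_eq_one_comm.1 hA
  have h1 : dagM A * dagM X = dagM X * dagM A := by rw [← dagM_mul, ← dagM_mul, hX]
  calc dagM X * A = (A * dagM A) * dagM X * A := by rw [hA, one_mul]
    _ = A * (dagM A * dagM X) * A := by simp only [Matrix.mul_assoc]
    _ = A * dagM X * (dagM A * A) := by rw [h1]; simp only [Matrix.mul_assoc]
    _ = A * dagM X := by rw [hA', mul_one]

/-- the centraliser algebra as a submodule -/
def cE (A : Matrix (Fin m ⊕ Fin m) (Fin m ⊕ Fin m) F) : Submodule F (Matrix (Fin m ⊕ Fin m) (Fin m ⊕ Fin m) F) where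
  carrier := {X | X * A = A * X}
  add_mem' := by
    intro X Y hX hY
    show (X + Y) * A = A * (X + Y)
    rw [add_mul, mul_add, hX, hY]
  zero_mem' := by show (0 : Matrix _ _ F) * A = A * 0; simp
  smul_mem' := by
    intro c X hX
    show (c • X) * A = A * (c • X)
    rw [Matrix.smul_mul, Matrix.mul_smul, hX]

theorem add_one_isUnit (h2 : (2 : F) ≠ 0) {A : Matrix (Fin m ⊕ Fin m) (Fin m ⊕ Fin m) F} {v : Fin m ⊕ Fin m → F}
    (hreg : Reg A v) : IsUnit (A + 1) := by
  apply hreg.isUnit (by rw [add_mul, mul_add, one_mul, mul_one])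
  intro hmem
  apply hreg.hv
  have e : (A + 1) *ᵥ v = (2 : F) • v + (A - 1) *ᵥ v := by
    rw [Matrix.add_mulVec, Matrix.sub_mulVec, Matrix.one_mulVec, two_smul]; abel
  have h3 : (A - 1) *ᵥ v ∈ ker ((Matrix.mulVecLin (A - 1) : Module.End F (Fin m ⊕ Fin m → F)) ^
      (finrank F (Fin m ⊕ Fin m → F) - 1)) := by
    rw [LinearMap.mem_ker]
    have : ((Matrix.mulVecLin (A - 1) : Module.End F (Fin m ⊕ Fin m → F)) ^ (finrank F (Fin m ⊕ Fin m → F) - 1))
        ((A - 1) *ᵥ v) = ((Matrix.mulVecLin (A - 1) : Module.End F (Fin m ⊕ Fin m → F)) ^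
          (finrank F (Fin m ⊕ Fin m → F) - 1 + 1)) v := by
      rw [pow_succ, Module.End.mul_apply]; rfl
    rw [this, Nat.sub_add_cancel hreg.hpos, hreg.hnil]; rfl
  rw [e] at hmem
  have h4 := (Submodule.add_mem_iff_left _ h3).1 hmem
  have h5 := Submodule.smul_mem _ (2 : F)⁻¹ h4
  rwa [smul_smul, inv_mul_cancel₀ h2, one_smul] at h5

theorem card_skew [Fintype F] (h2 : (2 : F) ≠ 0) {A : Matrix (Fin m ⊕ Fin m) (Fin m ⊕ Fin m) F}
    {v : Fin m ⊕ Fin m → F} (hreg : Reg A v) (hA : A * dagM A = 1) :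
    Nat.card {X : Matrix (Fin m ⊕ Fin m) (Fin m ⊕ Fin m) F // X * A = A * X ∧ dagM X = -X} = Fintype.card F ^ m := by
  have hA' : dagM A * A = 1 := mul_eq_one_comm.1 hA
  let ev : cE A →ₗ[F] (Fin m ⊕ Fin m → F) :=
    { toFun := fun X => X.1 *ᵥ v
      map_add' := by intro X Y; simp [Matrix.add_mulVec]
      map_smul' := by intro c X; simp [Matrix.smul_mulVec] }
  have hevinj : Function.Injective ev := by
    intro X Y h
    apply Subtype.ext
    rw [← sub_eq_zero]
    apply hreg.eq_zero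
    · rw [sub_mul, mul_sub, X.2, Y.2]
    · rw [Matrix.sub_mulVec]; exact sub_eq_zero.2 h
  have hevsurj : Function.Surjective ev := by
    intro w
    obtain ⟨p, hp⟩ := hreg.exists_aeval w
    exact ⟨⟨aeval (A - 1) p, aeval_comm p⟩, hp⟩
  have hE : finrank F (cE A) = 2 * m := by
    rw [LinearEquiv.finrank_eq (LinearEquiv.ofBijective ev ⟨hevinj, hevsurj⟩), finrank_fintype_fun_eq_card]
    simp; ring
  let dagL : Matrix (Fin m ⊕ Fin m) (Fin m ⊕ Fin m) F →ₗ[F] Matrix (Fin m ⊕ Fin m) (Fin m ⊕ Fin m) F :=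
    { toFun := dagM, map_add' := dagM_add, map_smul' := dagM_smul }
  let θ : Module.End F (cE A) := dagL.restrict (fun X hX => dag_comm hA hX)
  have hMel : (A - dagM A) * A = A * (A - dagM A) := by rw [sub_mul, mul_sub, hA, hA']
  let μ : Module.End F (cE A) := (LinearMap.mulLeft F (A - dagM A)).restrict (fun X hX => by
    show (A - dagM A) * X * A = A * ((A - dagM A) * X)
    rw [Matrix.mul_assoc, show X * A = A * X from hX, ← Matrix.mul_assoc, hMel, Matrix.mul_assoc])
  have hθ : ∀ x, θ (θ x) = x := fun x => Subtype.ext (dagM_dagM x.1)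
  have hanti : ∀ x, θ (μ x) = - μ (θ x) := by
    intro x
    apply Subtype.ext
    show dagM ((A - dagM A) * x.1) = -((A - dagM A) * dagM x.1)
    rw [dagM_mul, dagM_sub, dagM_dagM, hreg.comm (dag_comm hA x.2) (by rw [sub_mul, mul_sub, hA, hA']), ← neg_mul,
      neg_sub]
  have hker : finrank F (ker μ) ≤ 1 := by
    refine le_trans ?_ hreg.hker
    let f : ker μ →ₗ[F] ker (Matrix.mulVecLin (A - 1)) := (ev.comp (ker μ).subtype).codRestrict _ (by
      intro X
      have hX : (A - dagM A) * X.1.1 = 0 := congrArg Subtype.val X.2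
      have h3 : (A + 1) * ((A - 1) * X.1.1) = 0 := by
        have : (A + 1) * ((A - 1) * X.1.1) = A * ((A - dagM A) * X.1.1) := by
          rw [← Matrix.mul_assoc, ← Matrix.mul_assoc, mul_sub A, hA]
          congr 1
          noncomm_ring
        rw [this, hX, mul_zero]
      have h4 : (A - 1) * X.1.1 = 0 := by
        obtain ⟨U, hU⟩ := add_one_isUnit h2 hreg
        have := congrArg (fun Z => (↑U⁻¹ : Matrix _ _ F) * Z) h3
        simp only [mul_zero] at this
        rwa [← hU, ← Matrix.mul_assoc, Units.inv_mul, one_mul] at this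
      rw [LinearMap.mem_ker]
      show (A - 1) *ᵥ (X.1.1 *ᵥ v) = 0
      rw [Matrix.mulVec_mulVec, h4, Matrix.zero_mulVec])
    apply LinearMap.finrank_le_finrank_of_injective (f := f)
    intro X Y h
    apply Subtype.ext
    apply hevinj
    exact congrArg Subtype.val h
  have hfin := finrank_neg_eigen h2 θ μ hθ hanti hker m hE
  have hcard : Nat.card (ker (θ + 1)) = Fintype.card F ^ m := by
    rw [Module.natCard_eq_pow_finrank (K := F), hfin, Nat.card_eq_fintype_card]
  rw [← hcard]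
  apply Nat.card_congr
  refine ⟨fun X => ⟨⟨X.1, X.2.1⟩, ?_⟩, fun X => ⟨X.1.1, X.1.2, ?_⟩, fun X => rfl, fun X => rfl⟩
  · rw [LinearMap.mem_ker]
    apply Subtype.ext
    show dagM X.1 + X.1 = 0
    rw [X.2.2]; simp
  · have := congrArg Subtype.val (LinearMap.mem_ker.1 X.2)
    have h5 : dagM X.1.1 + X.1.1 = 0 := this
    exact eq_neg_of_add_eq_zero_left h5

theorem card_unitary [Fintype F] (h2 : (2 : F) ≠ 0) {A : Matrix (Fin m ⊕ Fin m) (Fin m ⊕ Fin m) F}
    {v : Fin m ⊕ Fin m → F} (hreg : Reg A v) (hA : A * dagM A = 1) :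
    Nat.card {g : Matrix (Fin m ⊕ Fin m) (Fin m ⊕ Fin m) F // g * A = A * g ∧ g * dagM g = 1}
      = 2 * Nat.card {X : Matrix (Fin m ⊕ Fin m) (Fin m ⊕ Fin m) F // X * A = A * X ∧ dagM X = -X} := by
  let RA := Subalgebra.centralizer F ({A} : Set (Matrix (Fin m ⊕ Fin m) (Fin m ⊕ Fin m) F))
  have hmem : ∀ X : Matrix (Fin m ⊕ Fin m) (Fin m ⊕ Fin m) F, X ∈ RA ↔ X * A = A * X := by
    intro X
    rw [Subalgebra.mem_centralizer_iff]
    simp [eq_comm]
  letI : CommRing RA := { (inferInstance : Ring RA) with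
    mul_comm := fun X Y => Subtype.ext (hreg.comm ((hmem _).1 X.2) ((hmem _).1 Y.2)) }
  set H := ker ((Matrix.mulVecLin (A - 1) : Module.End F (Fin m ⊕ Fin m → F)) ^
      (finrank F (Fin m ⊕ Fin m → F) - 1)) with hH
  have hunit : ∀ X : RA, IsUnit X ↔ X.1 *ᵥ v ∉ H := by
    intro X
    constructor
    · intro hu hX
      obtain ⟨Y, hY⟩ := hu.exists_left_inv
      have h3 : Y.1 * X.1 = 1 := congrArg Subtype.val hY
      apply hreg.hv
      have := mem_H_of_comm ((hmem _).1 Y.2) _ hX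
      rwa [Matrix.mulVec_mulVec, h3, Matrix.one_mulVec] at this
    · intro hX
      obtain ⟨U, hU⟩ := hreg.isUnit ((hmem _).1 X.2) hX
      have hXA := (hmem _).1 X.2
      set Y : Matrix (Fin m ⊕ Fin m) (Fin m ⊕ Fin m) F :=
        ((U⁻¹ : (Matrix (Fin m ⊕ Fin m) (Fin m ⊕ Fin m) F)ˣ) : Matrix (Fin m ⊕ Fin m) (Fin m ⊕ Fin m) F) with hY
      have hUY : X.1 * Y = 1 := by rw [← hU, hY, Units.mul_inv]
      have hYU : Y * X.1 = 1 := by rw [← hU, hY, Units.inv_mul]
      have hc : Y * A = A * Y := by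
        calc Y * A = Y * A * (X.1 * Y) := by rw [hUY, mul_one]
          _ = Y * (A * X.1) * Y := by simp only [Matrix.mul_assoc]
          _ = Y * (X.1 * A) * Y := by rw [hXA]
          _ = (Y * X.1) * A * Y := by simp only [Matrix.mul_assoc]
          _ = A * Y := by rw [hYU, one_mul]
      apply IsUnit.of_mul_eq_one (⟨Y, (hmem _).2 hc⟩ : RA)
      apply Subtype.ext
      exact hUY
  haveI : Nontrivial RA := ⟨⟨0, 1, fun h => by
    have h3 : (0 : Matrix (Fin m ⊕ Fin m) (Fin m ⊕ Fin m) F) = 1 := congrArg Subtype.val h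
    apply hreg.hv
    have : v = 0 := by rw [← Matrix.one_mulVec v, ← h3, Matrix.zero_mulVec]
    rw [this]; exact Submodule.zero_mem _⟩⟩
  haveI : IsLocalRing RA := IsLocalRing.of_nonunits_add (by
    intro a b ha hb
    rw [mem_nonunits_iff, hunit, not_not] at ha hb ⊢
    show (a.1 + b.1) *ᵥ v ∈ H
    rw [Matrix.add_mulVec]
    exact Submodule.add_mem _ ha hb)
  let dag : RA →+* RA :=
    { toFun := fun X => ⟨dagM X.1, (hmem _).2 (dag_comm hA ((hmem _).1 X.2))⟩
      map_one' := Subtype.ext dagM_one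
      map_mul' := fun X Y => by
        rw [mul_comm]
        exact Subtype.ext (dagM_mul Y.1 X.1)
      map_zero' := Subtype.ext dagM_zero
      map_add' := fun X Y => Subtype.ext (dagM_add X.1 Y.1) }
  have hdd : ∀ x, dag (dag x) = x := fun x => Subtype.ext (dagM_dagM x.1)
  have hsc : ∀ a : F, a ≠ 0 → IsUnit (algebraMap F RA a) := fun a ha => (IsUnit.mk0 a ha).map (algebraMap F RA)
  have hdsc : ∀ a : F, dag (algebraMap F RA a) = algebraMap F RA a := by
    intro a
    apply Subtype.ext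
    show dagM (algebraMap F (Matrix (Fin m ⊕ Fin m) (Fin m ⊕ Fin m) F) a) = algebraMap F _ a
    rw [Algebra.algebraMap_eq_smul_one, dagM_smul, dagM_one]
  have h2' : IsUnit (2 : RA) := by
    have := hsc 2 h2
    rwa [map_ofNat] at this
  have hskew : ∀ x, dag x = -x → ¬ IsUnit x := by
    intro x hx hxu
    set N : Module.End F (Fin m ⊕ Fin m → F) := Matrix.mulVecLin (A - 1) with hN
    set n := finrank F (Fin m ⊕ Fin m → F) with hn
    have hz : (N ^ (n - 1)) v ≠ 0 := fun h => hreg.hv (LinearMap.mem_ker.2 h)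
    have hzk : ∀ w, (N ^ (n - 1)) w ∈ ker N := by
      intro w
      rw [LinearMap.mem_ker, ← Module.End.mul_apply, ← pow_succ', Nat.sub_add_cancel hreg.hpos, hreg.hnil]; rfl
    have hfr : finrank F (ker N) = 1 := by
      apply le_antisymm hreg.hker
      rw [Nat.one_le_iff_ne_zero]
      intro h0
      have h4 := Submodule.finrank_eq_zero.1 h0
      have h3 := hzk v
      rw [h4, Submodule.mem_bot] at h3
      exact hz h3
    obtain ⟨a, ha⟩ := exists_smul_eq_of_finrank_eq_one hfr (x := ⟨_, hzk v⟩)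
      (by intro h; exact hz (congrArg Subtype.val h)) ⟨_, hzk (x.1 *ᵥ v)⟩
    have ha' : a • (N ^ (n - 1)) v = (N ^ (n - 1)) (x.1 *ᵥ v) := congrArg Subtype.val ha
    set y : RA := x - algebraMap F RA a with hy
    have hyn : ¬ IsUnit y := by
      rw [hunit, not_not]
      show (x.1 - algebraMap F (Matrix (Fin m ⊕ Fin m) (Fin m ⊕ Fin m) F) a) *ᵥ v ∈ H
      rw [Matrix.sub_mulVec, Algebra.algebraMap_eq_smul_one, Matrix.smul_mulVec, Matrix.one_mulVec, hH,
        LinearMap.mem_ker, map_sub, map_smul, ha', sub_self]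
    have hdyn : ¬ IsUnit (dag y) := by
      intro h
      apply hyn
      have := h.map dag
      rwa [hdd] at this
    have hsum : y + dag y = algebraMap F RA (-2 * a) := by
      rw [hy, map_sub, hx, hdsc, map_mul, map_neg, map_ofNat]; ring
    have hns : ¬ IsUnit (y + dag y) := IsLocalRing.nonunits_add hyn hdyn
    have ha0 : a = 0 := by
      by_contra hne
      apply hns
      rw [hsum]
      exact hsc _ (mul_ne_zero (neg_ne_zero.2 h2) hne)
    apply hyn
    rw [hy, ha0, map_zero, sub_zero]; exact hxu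
  have key := card_norm_one (R := RA) h2' dag hskew
  have e1 : Nat.card {g : RA // g * dag g = 1}
      = Nat.card {g : Matrix (Fin m ⊕ Fin m) (Fin m ⊕ Fin m) F // g * A = A * g ∧ g * dagM g = 1} := by
    apply Nat.card_congr
    exact ⟨fun g => ⟨g.1.1, (hmem _).1 g.1.2, congrArg Subtype.val g.2⟩,
      fun g => ⟨⟨g.1, (hmem _).2 g.2.1⟩, Subtype.ext g.2.2⟩, fun g => rfl, fun g => rfl⟩
  have e2 : Nat.card {x : RA // dag x = -x}
      = Nat.card {X : Matrix (Fin m ⊕ Fin m) (Fin m ⊕ Fin m) F // X * A = A * X ∧ dagM X = -X} := by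
    apply Nat.card_congr
    exact ⟨fun g => ⟨g.1.1, (hmem _).1 g.1.2, congrArg Subtype.val g.2⟩,
      fun g => ⟨⟨g.1, (hmem _).2 g.2.1⟩, Subtype.ext g.2.2⟩, fun g => rfl, fun g => rfl⟩
  rw [← e1, ← e2]
  exact key

end Sp


/-- Over a finite field with q elements, q odd, the centraliser in Sp_2m(F) (m ≥ 1) of a regular unipotent element (u − 1 nilpotent of rank 2m − 1) has order 2 q^m. -/
theorem result {F : Type*} [Field F] [Fintype F] {q : ℕ} (hF : Fintype.card F = q) (hq : Odd q) {m : ℕ} (hm : 1 ≤ m) (u : Matrix.symplecticGroup (Fin m) F) (hnil : ((u : Matrix (Fin m ⊕ Fin m) (Fin m ⊕ Fin m) F) - 1) ^ (2 * m) = 0) (hreg : ((u : Matrix (Fin m ⊕ Fin m) (Fin m ⊕ Fin m) F) - 1).rank = 2 * m - 1) : Nat.card ↥(Subgroup.centralizer ({u} : Set ↥(Matrix.symplecticGroup (Fin m) F))) = 2 * q ^ m := by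
  have h2 : (2 : F) ≠ 0 := by
    intro h
    haveI : CharP F 2 := CharTwo.of_one_ne_zero_of_two_eq_zero one_ne_zero h
    have h1 : 2 ∣ Fintype.card F := (CharP.cast_eq_zero_iff F 2 _).1 (Nat.cast_card_eq_zero F)
    rw [hF] at h1
    exact (Nat.not_even_iff_odd.2 hq) (even_iff_two_dvd.2 h1)
  set A : Matrix (Fin m ⊕ Fin m) (Fin m ⊕ Fin m) F := (u : Matrix (Fin m ⊕ Fin m) (Fin m ⊕ Fin m) F) with hAdef
  have hA : A * dagM A = 1 := (mem_sp_iff A).1 u.2
  set N : Module.End F (Fin m ⊕ Fin m → F) := Matrix.mulVecLin (A - 1) with hN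
  have hfr : finrank F (Fin m ⊕ Fin m → F) = 2 * m := by
    rw [finrank_fintype_fun_eq_card]; simp; ring
  have hpow : ∀ k, Matrix.mulVecLin ((A - 1) ^ k) = N ^ k := by
    intro k
    have := map_pow (Matrix.toLinAlgEquiv' (R := F) (n := Fin m ⊕ Fin m)) (A - 1) k
    exact this
  have hker : finrank F (ker N) ≤ 1 := by
    have h1 := LinearMap.finrank_range_add_finrank_ker N
    have h3 : finrank F (range N) = 2 * m - 1 := hreg
    rw [hfr] at h1
    omega
  have hnil' : N ^ (finrank F (Fin m ⊕ Fin m → F)) = 0 := by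
    rw [hfr, ← hpow, hnil]; simp
  have hKfr : finrank F (ker (N ^ (finrank F (Fin m ⊕ Fin m → F) - 1))) = 2 * m - 1 := by
    rw [finrank_ker_pow_eq N hker hnil' _ (by omega), hfr]
  obtain ⟨v, hv⟩ : ∃ v, v ∉ ker (N ^ (finrank F (Fin m ⊕ Fin m → F) - 1)) := by
    by_contra hall
    push Not at hall
    have htop : ker (N ^ (finrank F (Fin m ⊕ Fin m → F) - 1)) = ⊤ := by
      rw [eq_top_iff]; intro x _; exact hall x
    rw [htop, finrank_top, hfr] at hKfr
    omega
  have hR : Reg A v := ⟨hker, hnil', hv, by rw [hfr]; omega⟩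
  have e : Nat.card ↥(Subgroup.centralizer ({u} : Set ↥(Matrix.symplecticGroup (Fin m) F)))
      = Nat.card {g : Matrix (Fin m ⊕ Fin m) (Fin m ⊕ Fin m) F // g * A = A * g ∧ g * dagM g = 1} := by
    apply Nat.card_congr
    refine ⟨fun h => ⟨h.1.1, ?_, (mem_sp_iff _).1 h.1.2⟩,
      fun g => ⟨⟨g.1, (mem_sp_iff _).2 g.2.2⟩, ?_⟩, fun h => rfl, fun g => rfl⟩
    · have := Subgroup.mem_centralizer_singleton_iff.1 h.2
      exact congrArg Subtype.val this
    · rw [Subgroup.mem_centralizer_singleton_iff]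
      exact Subtype.ext g.2.1
  rw [e, card_unitary h2 hR hA, card_skew h2 hR hA, hF]

end Cfsg.Agent.S2592
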