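import Mathlib
import Cfsg.Agent.Lib.Helper18.SpTv
import Cfsg.Agent.S0245
import Cfsg.Statements.S2594
-- import your own Cfsg.Agent.* helpers here

set_option autoImplicit false
open Cfsg Cfsg.Agent.Lib.Helper18 Matrix

namespace Cfsg.Agent.S2594

/-- Over a finite field with q elements, q even, an element t of Sp_2m(F) with rank(t − 1) = 1 (a symplectic transvection) has centraliser in Sp_2m(F) of order q^(2m−1) · |Sp_(2m−2)(q)| = q^(2m−1) · q^((m−1)²) · Π_(i=1)^(m−1) (q^(2i) − 1). -/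
theorem result {F : Type*} [Field F] [Fintype F] [CharP F 2] {q : ℕ} (hF : Fintype.card F = q) {m : ℕ} (hm : 1 ≤ m) (t : Matrix.symplecticGroup (Fin m) F) (ht : ((t : Matrix (Fin m ⊕ Fin m) (Fin m ⊕ Fin m) F) - 1).rank = 1) : Nat.card ↥(Subgroup.centralizer ({t} : Set ↥(Matrix.symplecticGroup (Fin m) F))) = q ^ (2 * m - 1) * (q ^ ((m - 1) ^ 2) * ∏ i : Fin (m - 1), (q ^ (2 * ((i : ℕ) + 1)) - 1)) := by
  classical
  obtain ⟨v, c, hv, hc, rfl⟩ := sp_rank_one_eq_tv t ht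
  have hne : ∀ g : Matrix.symplecticGroup (Fin m) F,
      (g : Matrix (Fin m ⊕ Fin m) (Fin m ⊕ Fin m) F) *ᵥ v ≠ 0 := by
    intro g h0
    apply hv
    rw [← sp_inv_mulVec g v, h0, Matrix.mulVec_zero]
  have hcount := card_eq_card_mul_of_fibers (G := Matrix.symplecticGroup (Fin m) F)
    (X := {w : Fin m ⊕ Fin m → F // w ≠ 0})
    (fun g => ⟨(g : Matrix (Fin m ⊕ Fin m) (Fin m ⊕ Fin m) F) *ᵥ v, hne g⟩)
    (Subgroup.centralizer {Cfsg.Agent.H5Symp.tv v c}) (by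
      rintro ⟨w, hw⟩
      obtain ⟨t, _, ht⟩ := Cfsg.Agent.H5Symp.step1 (W := ⊤) Cfsg.Agent.H5Symp.nondeg_top
        (u := v) (w := w) trivial trivial hv hw
      exact ⟨t, Subtype.ext ht⟩) (by
      intro g g'
      rw [mem_centralizer_tv_iff hv hc, sp_coe_mul_mulVec, Subtype.mk.injEq]
      constructor
      · intro h
        rw [← h, sp_inv_mulVec]
      · intro h
        rw [← h, sp_mulVec_inv, h])
  rw [Cfsg.Agent.S0245.result hF m] at hcount
  have hq : 1 < q := by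
    rw [← hF]
    exact Fintype.one_lt_card
  have hX : Nat.card {w : Fin m ⊕ Fin m → F // w ≠ 0} = q ^ (2 * m) - 1 := by
    rw [Nat.card_eq_fintype_card, Fintype.card_subtype_compl, Fintype.card_subtype_eq,
      Fintype.card_fun, Fintype.card_sum, Fintype.card_fin, hF, two_mul]
  rw [hX] at hcount
  obtain ⟨k, rfl⟩ : ∃ k, m = k + 1 := ⟨m - 1, by omega⟩
  rw [Finset.prod_range_succ] at hcount
  have hpos : 0 < q ^ (2 * (k + 1)) - 1 := by
    have : 1 < q ^ (2 * (k + 1)) := Nat.one_lt_pow (by omega) hq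
    omega
  apply Nat.eq_of_mul_eq_mul_left hpos
  rw [← hcount]
  show _ = (q ^ (2 * (k + 1)) - 1) * (q ^ (2 * (k + 1) - 1) * (q ^ k ^ 2 *
    ∏ i : Fin k, (q ^ (2 * ((i : ℕ) + 1)) - 1)))
  rw [Fin.prod_univ_eq_prod_range (fun i => q ^ (2 * (i + 1)) - 1) k]
  have e : q ^ ((k + 1) ^ 2) = q ^ (2 * (k + 1) - 1) * q ^ (k ^ 2) := by
    rw [← pow_add]
    congr 1
    have : 2 * (k + 1) - 1 = 2 * k + 1 := by omega
    rw [this]
    ring
  rw [e]
  ring

end Cfsg.Agent.S2594
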