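import Cfsg.Statements.S2595
import Cfsg.Agent.Lib.Helper15.NF6

set_option autoImplicit false
open Cfsg

namespace Cfsg.Agent.S2595


open Matrix QuadraticMap Module Cfsg.Agent.Lib.Helper15


/-- Number of conjugacy classes of involutions in the full orthogonal group O⁺_2m(F) of the hyperbolic quadratic form Σ x_i y_i over a finite field of characteristic two (m ≥ 1): one class for each odd s ≤ m and two for each even s with 2 ≤ s ≤ m, where s = rank(t − 1); in all m + ⌊m/2⌋. -/
theorem result {F : Type*} [Field F] [Fintype F] [CharP F 2] {m : ℕ} (hm : 1 ≤ m) : Nat.card {C : ConjClasses ↥(Cfsg.isometryGroup F (Cfsg.quadFormPlus m F)) // ∃ g : ↥(Cfsg.isometryGroup F (Cfsg.quadFormPlus m F)), ConjClasses.mk g = C ∧ orderOf g = 2} = m + m / 2 := by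
  classical
  have := card_invol_classes (plusQ_nondegenerate (F := F) m) (m := m) (ν := m) (by simp; omega)
    (fun i => Pi.single (Sum.inl i) 1) (fun i => Pi.single (Sum.inr i) 1)
    (by intro i j; rw [coe_plusQ, polar_plus]; simp)
    (by intro i j; rw [coe_plusQ, polar_plus]; simp [Pi.single_apply, eq_comm])
    (by intro i; rw [plusQ_apply]; unfold Cfsg.quadFormPlus; simp)
    (by intro U hU; exact plus_ts_le m U (fun u hu => by rw [← plusQ_apply]; exact hU u hu))
  rw [coe_plusQ] at this
  exact this

end Cfsg.Agent.S2595
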