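import Cfsg.Statements.S2597
import Cfsg.Agent.Lib.Helper15.OmegaCls2

set_option autoImplicit false
open Cfsg

namespace Cfsg.Agent.S2597


open Matrix QuadraticMap Module Cfsg.Agent.Lib.Helper15


/-- Number of conjugacy classes of involutions in Ω⁺_2m(F) (the commutator subgroup of the orthogonal group of Σ x_i y_i) over a finite field F of characteristic two, m ≥ 1, excluding the case m = 2 over the field of two elements: the involutions of Ω are those with s = rank(t − 1) even, giving two O-classes for each even s with 2 ≤ s ≤ m, each of which is a single Ω-class except that for m even the class with s = m and v ↦ f(v, tv) identically zero splits in two; in all 2⌊m/2⌋ + 1 classes if m is even and 2⌊m/2⌋ if m is odd. -/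
theorem result {F : Type*} [Field F] [Fintype F] [CharP F 2] {m : ℕ} (hm : 1 ≤ m) (h : Fintype.card F ≠ 2 ∨ m ≠ 2) : Nat.card {C : ConjClasses ↥(Cfsg.Omega F (Cfsg.quadFormPlus m F)) // ∃ g : ↥(Cfsg.Omega F (Cfsg.quadFormPlus m F)), ConjClasses.mk g = C ∧ orderOf g = 2} = 2 * (m / 2) + (if Even m then 1 else 0) := by
  classical
  have hc : Fintype.card (Fin m ⊕ Fin m) = 2 * m := by simp; omega
  have := card_invol_classes_Omega (Q := plusQ m F)
    (fun g => cartan_dieudonne (plusQ m F) (plusQ_nondegenerate m) (by rw [hc]; omega) g)
    (plusQ_nondegenerate (F := F) m) (m := m) (ν := m) hc le_rfl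
    (fun i => Pi.single (Sum.inl i) 1) (fun i => Pi.single (Sum.inr i) 1)
    (by intro i j; rw [coe_plusQ, polar_plus]; simp)
    (by intro i j; rw [coe_plusQ, polar_plus]; simp [Pi.single_apply, eq_comm])
    (by intro i; rw [plusQ_apply]; unfold Cfsg.quadFormPlus; simp)
    (by intro U hU; exact plus_ts_le m U (fun u hu => by rw [← plusQ_apply]; exact hU u hu))
    (plusTS m F) (fun _ => ⟨fun u hu => by rw [plusQ_apply]; exact plusTS_ts m u hu, finrank_plusTS m⟩)
  rw [coe_plusQ] at this
  rw [this]
  simp only [true_and, hm, and_true]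
  omega

end Cfsg.Agent.S2597
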