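import Cfsg.Statements.S2598
import Cfsg.Agent.Lib.Helper15.OmegaCls2
import Cfsg.Agent.Lib.Helper15.CD4

set_option autoImplicit false
open Cfsg

namespace Cfsg.Agent.S2598


open Matrix QuadraticMap Module Cfsg.Agent.Lib.Helper15


/-- Number of conjugacy classes of involutions in Ω⁻_2m(F) (the commutator subgroup of the orthogonal group of an elliptic quadratic form, Σ_(i<m−1) x_i y_i plus an anisotropic binary form) over a finite field F of characteristic two, m ≥ 1: the involutions of Ω are those with s = rank(t − 1) even, one O-class for each even s with 2 ≤ s ≤ m on which v ↦ f(v, tv) is not identically zero and one for each even s with 2 ≤ s < m on which it is zero (f the polar form; in characteristic 2, f(v, tv) = Q(v + tv)), none of which splits in Ω; in all ⌊m/2⌋ + ⌊(m − 1)/2⌋. -/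
theorem result {F : Type*} [Field F] [Fintype F] [CharP F 2] {m : ℕ} (hm : 1 ≤ m) (a b : F) (hab : ∀ z₁ z₂ : F, z₁ ^ 2 + a * z₁ * z₂ + b * z₂ ^ 2 = 0 → z₁ = 0 ∧ z₂ = 0) : Nat.card {C : ConjClasses ↥(Cfsg.Omega F (Cfsg.quadFormMinus (m - 1) F a b)) // ∃ g : ↥(Cfsg.Omega F (Cfsg.quadFormMinus (m - 1) F a b)), ConjClasses.mk g = C ∧ orderOf g = 2} = m / 2 + (m - 1) / 2 := by
  classical
  have hc : Fintype.card ((Fin (m - 1) ⊕ Fin (m - 1)) ⊕ Fin 2) = 2 * m := by simp; omega
  have hnd := minusQ_nondegenerate (F := F) (m - 1) a b hab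
  have hts : ∀ U : Submodule F ((Fin (m - 1) ⊕ Fin (m - 1)) ⊕ Fin 2 → F), (∀ u ∈ U, minusQ (m - 1) F a b u = 0) →
      finrank F U ≤ m - 1 := by
    intro U hU; exact minus_ts_le (m - 1) a b hab U (fun u hu => by rw [← minusQ_apply]; exact hU u hu)
  have H : HCD (minusQ (m - 1) F a b) := by
    intro g
    by_cases hex : Fintype.card F ≠ 2 ∨ Fintype.card ((Fin (m - 1) ⊕ Fin (m - 1)) ⊕ Fin 2) ≠ 4
    · exact cartan_dieudonne _ hnd hex g
    · push Not at hex
      have hm2 : m = 2 := by omega
      apply exists_refl_list_of_isRP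
      apply cartan_dieudonne_two' _ (nd_of_nondegenerate hnd) _ _ (fun x => Q_act g x)
      apply exists_mid_minus _ (nd_of_nondegenerate hnd) (by rw [Nat.card_eq_fintype_card]; exact hex.1)
      intro U hU
      have := hts U hU
      omega
  have := card_invol_classes_Omega (Q := minusQ (m - 1) F a b) H hnd (m := m) (ν := m - 1) hc (by omega)
    (fun i => Pi.single (Sum.inl (Sum.inl i)) 1) (fun i => Pi.single (Sum.inl (Sum.inr i)) 1)
    (by intro i j; rw [coe_minusQ, polar_minus]; simp)
    (by intro i j; rw [coe_minusQ, polar_minus]; simp [Pi.single_apply, eq_comm])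
    (by intro i; rw [minusQ_apply]; unfold Cfsg.quadFormMinus; simp)
    hts ⊥ (fun h => by omega)
  rw [coe_minusQ] at this
  rw [this, if_neg (by omega)]
  rfl

end Cfsg.Agent.S2598
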