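import Mathlib
import Cfsg.Agent.Lib.Helper18.Parabolic
import Cfsg.Statements.S2599
-- import your own Cfsg.Agent.* helpers here

set_option autoImplicit false
open Cfsg Cfsg.Agent.Lib.Helper18 Matrix

namespace Cfsg.Agent.S2599

/-- An irreducible invariant subspace of a semisimple isometry is non-degenerate or totally singular: let Q be a quadratic form on F^n (F finite of characteristic p) with non-degenerate polar form f, x an isometry of Q of order prime to p, and U a non-zero x-invariant subspace containing no x-invariant subspace other than 0 and U. Then U meets its f-orthogonal trivially, or Q vanishes on U, or p = 2, U is a line spanned by a non-singular vector and x fixes U pointwise. -/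
theorem result {F : Type*} [Field F] [Fintype F] {p : ℕ} [Fact p.Prime] [CharP F p] {n : ℕ} (Q : QuadraticForm F (Fin n → F)) (hQ : (QuadraticMap.polarBilin Q).Nondegenerate) (x : ↥(Cfsg.isometryGroup F ⇑Q)) (hx : (orderOf x).Coprime p) (U : Submodule F (Fin n → F)) (hU0 : U ≠ ⊥) (hUx : ∀ u ∈ U, ((x : Matrix.GeneralLinearGroup (Fin n) F) : Matrix (Fin n) (Fin n) F).mulVec u ∈ U) (hirr : ∀ W : Submodule F (Fin n → F), W ≤ U → (∀ w ∈ W, ((x : Matrix.GeneralLinearGroup (Fin n) F) : Matrix (Fin n) (Fin n) F).mulVec w ∈ W) → W = ⊥ ∨ W = U) : U ⊓ LinearMap.BilinForm.orthogonal (QuadraticMap.polarBilin Q) U = ⊥ ∨ (∀ u ∈ U, Q u = 0) ∨ (p = 2 ∧ Module.finrank F U = 1 ∧ (∃ u ∈ U, Q u ≠ 0) ∧ ∀ u ∈ U, ((x : Matrix.GeneralLinearGroup (Fin n) F) : Matrix (Fin n) (Fin n) F).mulVec u = u) := by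
  classical
  obtain ⟨X, hX⟩ : ∃ X : Matrix (Fin n) (Fin n) F, X = ((x : Matrix.GeneralLinearGroup (Fin n) F) : Matrix (Fin n) (Fin n) F) := ⟨_, rfl⟩
  rw [← hX] at hUx hirr ⊢
  have hiso : ∀ v, Q (X *ᵥ v) = Q v := fun v => by rw [hX]; exact x.2 v v
  have hdet : X.det ≠ 0 := by rw [hX]; exact gl_det_ne_zero x.1
  obtain ⟨B, hB⟩ : ∃ B : LinearMap.BilinForm F (Fin n → F), B = QuadraticMap.polarBilin Q := ⟨_, rfl⟩
  rw [← hB]
  have hBdef : ∀ u v, B u v = Q (u + v) - Q u - Q v := fun u v => by rw [hB]; rfl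
  have hBiso : ∀ u v, B (X *ᵥ u) (X *ᵥ v) = B u v := fun u v => by
    rw [hBdef, hBdef, ← Matrix.mulVec_add, hiso, hiso, hiso]
  have hUiff : ∀ v, v ∈ U ↔ X *ᵥ v ∈ U :=
    mem_iff_mulVec_mem_of_finite X hdet (U : Set (Fin n → F)) hUx
  have hsurj : ∀ u ∈ U, ∃ u' ∈ U, X *ᵥ u' = u := by
    intro u hu
    have h1 : X *ᵥ (X⁻¹ *ᵥ u) = u := by
      rw [Matrix.mulVec_mulVec, Matrix.mul_nonsing_inv _ (isUnit_iff_ne_zero.2 hdet), Matrix.one_mulVec]
    exact ⟨X⁻¹ *ᵥ u, (hUiff _).2 (by rw [h1]; exact hu), h1⟩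
  rcases hirr (U ⊓ B.orthogonal U) inf_le_left (by
    rintro w ⟨hw1, hw2⟩
    refine ⟨hUx w hw1, ?_⟩
    rw [SetLike.mem_coe, LinearMap.BilinForm.mem_orthogonal_iff]
    intro u hu
    obtain ⟨u', hu', rfl⟩ := hsurj u hu
    rw [hBiso]
    exact (LinearMap.BilinForm.mem_orthogonal_iff.1 hw2) u' hu') with h | h
  · exact Or.inl h
  right
  have hort : ∀ u ∈ U, ∀ v ∈ U, B u v = 0 := by
    intro u hu v hv
    have : v ∈ U ⊓ B.orthogonal U := by rw [h]; exact hv
    exact (LinearMap.BilinForm.mem_orthogonal_iff.1 this.2) u hu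
  have hadd : ∀ u ∈ U, ∀ v ∈ U, Q (u + v) = Q u + Q v := by
    intro u hu v hv
    have := hort u hu v hv
    rw [hBdef] at this
    linear_combination this
  let W : Submodule F (Fin n → F) :=
    { carrier := {u | u ∈ U ∧ Q u = 0}
      add_mem' := fun {a b} ha hb => ⟨U.add_mem ha.1 hb.1, by rw [hadd a ha.1 b hb.1, ha.2, hb.2, add_zero]⟩
      zero_mem' := ⟨U.zero_mem, map_zero Q⟩
      smul_mem' := fun c a ha => ⟨U.smul_mem c ha.1, by rw [QuadraticMap.map_smul, ha.2, smul_zero]⟩ }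
  have hWmem : ∀ u, u ∈ W ↔ u ∈ U ∧ Q u = 0 := fun u => Iff.rfl
  rcases hirr W (fun u hu => hu.1) (fun w hw => ⟨hUx w hw.1, by rw [hiso]; exact hw.2⟩) with hW | hW
  · right
    have hzero : ∀ u ∈ U, Q u = 0 → u = 0 := by
      intro u hu hq
      have : u ∈ W := ⟨hu, hq⟩
      rw [hW] at this
      exact (Submodule.mem_bot F).1 this
    obtain ⟨u₀, hu₀, hne⟩ := (Submodule.ne_bot_iff U).1 hU0
    have hQu₀ : Q u₀ ≠ 0 := fun hq => hne (hzero u₀ hu₀ hq)
    have h2F : (2 : F) = 0 := by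
      have h1 := hort u₀ hu₀ u₀ hu₀
      rw [hB, QuadraticMap.polarBilin_apply_apply, QuadraticMap.polar_self] at h1
      rcases mul_eq_zero.1 (by simpa using h1 : (2 : F) * Q u₀ = 0) with h3 | h3
      · exact h3
      · exact absurd h3 hQu₀
    have hp2 : p = 2 := by
      have h3 : ((2 : ℕ) : F) = 0 := by exact_mod_cast h2F
      have h4 := (CharP.cast_eq_zero_iff F p 2).1 h3
      exact (Nat.prime_dvd_prime_iff_eq (Fact.out) Nat.prime_two).1 h4
    have hneg : ∀ v, Q (-v) = Q v := fun v => QuadraticMap.map_neg Q v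
    have hdouble : ∀ a : F, a + a = 0 := fun a => by linear_combination a * h2F
    refine ⟨hp2, ?_, ⟨u₀, hu₀, hQu₀⟩, ?_⟩
    · rw [finrank_eq_one_iff_of_nonzero' (⟨u₀, hu₀⟩ : U) (fun hh => hne (congrArg Subtype.val hh))]
      rintro ⟨v, hv⟩
      have hchar : ringChar F = 2 := by
        have : CharP F 2 := hp2 ▸ (inferInstance : CharP F p)
        exact ringChar.eq F 2
      obtain ⟨c, hc⟩ := FiniteField.isSquare_of_char_two hchar (Q v / Q u₀)
      refine ⟨c, Subtype.ext ?_⟩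
      have h5 : Q (v + -(c • u₀)) = 0 := by
        rw [hadd v hv _ (U.neg_mem (U.smul_mem c hu₀)), hneg, QuadraticMap.map_smul, ← hc, smul_eq_mul,
          div_mul_cancel₀ _ hQu₀, hdouble]
      have h6 := hzero _ (U.add_mem hv (U.neg_mem (U.smul_mem c hu₀))) h5
      show c • u₀ = v
      exact (add_neg_eq_zero.1 h6).symm
    · intro u hu
      have h5 : Q (X *ᵥ u + -u) = 0 := by
        rw [hadd _ (hUx u hu) _ (U.neg_mem hu), hneg, hiso, hdouble]
      exact add_neg_eq_zero.1 (hzero _ (U.add_mem (hUx u hu) (U.neg_mem hu)) h5)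
  · left
    intro u hu
    have : u ∈ W := by rw [hW]; exact hu
    exact this.2

end Cfsg.Agent.S2599
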