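import Cfsg.Statements.S2612
import Cfsg.Agent.Lib.Helper15.Levi

set_option autoImplicit false
open Cfsg

namespace Cfsg.Agent.S2612


open Cfsg.Agent.Lib.Helper15 QuadraticMap Matrix

variable {F : Type*} [Field F] {m : ℕ}

theorem Q_sub (i : Fin m) : plusQ m F (eV i - fV i) = -1 :=
  Q_hyp_sub (plusQ m F) (eV i) (fV i) (Q_eV i) (Q_fV i) (polar_eV_fV i)

theorem Q_sub_ne (i : Fin m) : plusQ m F (eV i - fV i) ≠ 0 := by rw [Q_sub]; simp

/-- partial swap -/
def pswap (l : List (Fin m)) (x : Fin m ⊕ Fin m → F) : Fin m ⊕ Fin m → F :=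
  Sum.elim (fun i => if i ∈ l then x (Sum.inr i) else x (Sum.inl i))
    (fun i => if i ∈ l then x (Sum.inl i) else x (Sum.inr i))

theorem act_refl_sub (i : Fin m) (x : Fin m ⊕ Fin m → F) :
    act (plusQ m F) (refl (plusQ m F) (eV i - fV i) (Q_sub_ne i)) x
      = x + (x (Sum.inr i) - x (Sum.inl i)) • (eV i - fV i) := by
  rw [act_refl, Q_sub, polar_sub_left, polar_eV, polar_fV]
  have e1 : ((-1 : F))⁻¹ = -1 := by norm_num
  rw [e1, sub_eq_add_neg, ← neg_smul]
  congr 2
  ring

theorem act_swapList [Fintype F] [DecidableEq F] (l : List (Fin m)) (hl : l.Nodup) (x : Fin m ⊕ Fin m → F) :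
    act (plusQ m F) (((l.map (fun i => (eV i - fV i : Fin m ⊕ Fin m → F))).map (reflT (plusQ m F))).prod) x
      = pswap l x := by
  induction l with
  | nil =>
    simp only [List.map_nil, List.prod_nil, act_one]
    funext j
    rcases j with j | j <;> simp [pswap]
  | cons a l ih =>
    rw [List.nodup_cons] at hl
    rw [List.map_cons, List.map_cons, List.prod_cons, act_mul, ih hl.2, reflT_of _ _ (Q_sub_ne a), act_refl_sub]
    funext j
    rcases j with j | j
    · by_cases hj : j = a
      · subst hj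
        simp [pswap, hl.1, eV, fV]
      · simp [pswap, hj, eV, fV]
    · by_cases hj : j = a
      · subst hj
        simp [pswap, hl.1, eV, fV]
      · simp [pswap, hj, eV, fV]


/-- For the hyperbolic quadratic form Σ x_i y_i on F^(2m) (F finite, m ≥ 1, excluding m = 2 over the field of two elements), Ω⁺_2m(F) (the commutator subgroup of the orthogonal group) contains an element interchanging the two complementary maximal totally singular subspaces {y = 0} and {x = 0} if and only if m is even (dimension divisible by 4). -/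
theorem result {F : Type*} [Field F] [Fintype F] {m : ℕ} (hm : 1 ≤ m) (h : Fintype.card F ≠ 2 ∨ m ≠ 2) : (∃ g : ↥(Cfsg.isometryGroup F (Cfsg.quadFormPlus m F)), g ∈ Cfsg.Omega F (Cfsg.quadFormPlus m F) ∧ (∀ v : Fin m ⊕ Fin m → F, (∀ i, v (Sum.inr i) = 0) → ∀ i, (((g : Matrix.GeneralLinearGroup (Fin m ⊕ Fin m) F) : Matrix (Fin m ⊕ Fin m) (Fin m ⊕ Fin m) F).mulVec v) (Sum.inl i) = 0) ∧ (∀ v : Fin m ⊕ Fin m → F, (∀ i, v (Sum.inl i) = 0) → ∀ i, (((g : Matrix.GeneralLinearGroup (Fin m ⊕ Fin m) F) : Matrix (Fin m ⊕ Fin m) (Fin m ⊕ Fin m) F).mulVec v) (Sum.inr i) = 0)) ↔ Even m := by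
  classical
  rw [← coe_plusQ]
  set vs : List (Fin m ⊕ Fin m → F) := (List.finRange m).map (fun i => (eV i - fV i : Fin m ⊕ Fin m → F)) with hvs
  have hvs0 : ∀ v ∈ vs, plusQ m F v ≠ 0 := by
    intro v hv
    obtain ⟨i, _, rfl⟩ := List.mem_map.1 hv
    exact Q_sub_ne i
  have hlen : vs.length = m := by simp [hvs]
  set s := (vs.map (reflT (plusQ m F))).prod with hs
  have hsact : ∀ x, act (plusQ m F) s x = x ∘ Sum.swap := by
    intro x
    rw [hs, hvs, act_swapList _ (List.nodup_finRange m)]
    funext j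
    rcases j with j | j <;> simp [pswap]
  have hsΩ : s ∈ Cfsg.Omega F ⇑(plusQ m F) ↔ Even m := by
    by_cases h2 : (2 : F) = 0
    · have hchar : CharP F 2 := CharTwo.of_one_ne_zero_of_two_eq_zero one_ne_zero h2
      rw [hs, prod_mem_Omega_iff_two _ (plusQ_nondegenerate m) _ hvs0, hlen]
    · rw [hs, prod_mem_Omega_iff _ h2 (by simp; omega) (plusQ_nondegenerate m) _ hvs0]
      unfold linv
      rw [hlen, Prod.ext_iff]
      simp only [Prod.fst_one, Prod.snd_one]
      rw [neg_one_pow_eq_one_iff_even (by decide), sqs_eq_one_iff]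
      constructor
      · exact fun h => h.1
      · intro he
        refine ⟨he, ?_⟩
        have : (vs.map (fun v => plusQ m F v)).prod = (-1) ^ m := by
          rw [hvs, List.map_map]
          have : ((fun v => plusQ m F v) ∘ fun i : Fin m => (eV i - fV i : Fin m ⊕ Fin m → F)) = fun _ => (-1 : F) := by
            funext i; exact Q_sub i
          rw [this, List.map_const', List.prod_replicate, List.length_finRange]
        rw [this, he.neg_one_pow]
        exact ⟨1, by simp⟩
  constructor
  · rintro ⟨g, hg, h1, h3⟩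
    set G := ((g : Matrix.GeneralLinearGroup (Fin m ⊕ Fin m) F) : Matrix (Fin m ⊕ Fin m) (Fin m ⊕ Fin m) F) with hG
    set B := G.toBlocks₁₂ with hB
    set C := G.toBlocks₂₁ with hC
    have h11 : G.toBlocks₁₁ = 0 := by
      ext i j
      have := h1 (Pi.single (Sum.inl j) 1) (by simp) i
      simpa [Matrix.toBlocks₁₁] using this
    have h22 : G.toBlocks₂₂ = 0 := by
      ext i j
      have := h3 (Pi.single (Sum.inr j) 1) (by simp) i
      simpa [Matrix.toBlocks₂₂] using this
    have hGb : G = Matrix.fromBlocks 0 B C 0 := by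
      rw [← Matrix.fromBlocks_toBlocks G, h11, h22]
    have hgact : ∀ x, act (plusQ m F) g x = Sum.elim (B *ᵥ (x ∘ Sum.inr)) (C *ᵥ (x ∘ Sum.inl)) := by
      intro x
      show G *ᵥ x = _
      rw [hGb, Matrix.fromBlocks_mulVec]
      simp
    have hCB : Bᵀ * C = 1 := by
      apply Matrix.ext_of_mulVec_single
      intro j
      funext i
      have e := polar_act g (fV i) (eV j)
      rw [hgact, hgact, polar_fV, coe_plusQ, polar_plus] at e
      simp only [Sum.elim_inl, Sum.elim_inr] at e
      have z1 : (eV j : Fin m ⊕ Fin m → F) ∘ Sum.inr = 0 := by funext k; simp [eV]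
      have z2 : (fV i : Fin m ⊕ Fin m → F) ∘ Sum.inl = 0 := by funext k; simp [fV]
      have z3 : (eV j : Fin m ⊕ Fin m → F) ∘ Sum.inl = Pi.single j 1 := by
        funext k; simp [eV, Pi.single_apply]
      have z4 : (fV i : Fin m ⊕ Fin m → F) ∘ Sum.inr = Pi.single i 1 := by
        funext k; simp [fV, Pi.single_apply]
      rw [z1, z2, z3, z4] at e
      simp only [Matrix.mulVec_zero, Pi.zero_apply, mul_zero, add_zero] at e
      rw [← Matrix.mulVec_mulVec, Matrix.one_mulVec, Matrix.mulVec_transpose]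
      have e' : (C *ᵥ Pi.single j 1) ᵥ* B = fun i => ∑ k, (B *ᵥ Pi.single i 1) k * (C *ᵥ Pi.single j 1) k := by
        funext i
        simp [Matrix.vecMul, dotProduct, mul_comm]
      rw [e']
      simp only
      rw [e]
      simp [eV, Pi.single_apply, eq_comm]
    have hCB' : C * Bᵀ = 1 := mul_eq_one_comm.1 hCB
    let A : GL (Fin m) F := ⟨C, Bᵀ, hCB', hCB⟩
    have hsg : s * g = levi m F A := by
      apply iso_ext
      intro x
      rw [act_mul, hsact, hgact, act_levi]
      show _ = Sum.elim (C *ᵥ (x ∘ Sum.inl)) ((Bᵀ)ᵀ *ᵥ (x ∘ Sum.inr))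
      rw [Matrix.transpose_transpose]
      funext j
      rcases j with j | j <;> rfl
    by_cases h2 : (2 : F) = 0
    · have hchar : CharP F 2 := CharTwo.of_one_ne_zero_of_two_eq_zero one_ne_zero h2
      rw [← hsΩ]
      have hl : levi m F A ∈ Cfsg.Omega F ⇑(plusQ m F) :=
        (levi_mem_Omega_iff hm h A).2 (FiniteField.isSquare_of_char_two (ringChar.eq F 2) _)
      rw [← hsg] at hl
      exact (Subgroup.mul_mem_cancel_right _ hg).1 hl
    · have hd1 := congrArg (fun y => ((detHom (plusQ m F) y : Fˣ) : F)) hsg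
      simp only [map_mul, Units.val_mul] at hd1
      rw [hom_eq_one_of_mem_commutator (detHom (plusQ m F)) hg, detHom_coe, detHom_coe, hs,
        coe_prod_reflT _ _ hvs0, det_prod_refl _ _ hvs0, hlen, levi_coe, Matrix.det_fromBlocks_zero₂₁,
        Matrix.det_transpose, Matrix.det_nonsing_inv] at hd1
      have hA0 : (A : Matrix (Fin m) (Fin m) F).det ≠ 0 := by
        have := (Matrix.isUnit_iff_isUnit_det _).1 A.isUnit
        exact this.ne_zero
      rw [Ring.inverse_eq_inv', mul_inv_cancel₀ hA0] at hd1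
      by_contra hodd
      rw [Nat.not_even_iff_odd] at hodd
      rw [hodd.neg_one_pow] at hd1
      apply h2
      simp only [Units.val_one, mul_one] at hd1
      linear_combination (-1 : F) * hd1
  · intro he
    refine ⟨s, hsΩ.2 he, ?_, ?_⟩
    · intro v hv i
      have := congrFun (hsact v) (Sum.inl i)
      rw [Function.comp_apply, Sum.swap_inl, hv i] at this
      exact this
    · intro v hv i
      have := congrFun (hsact v) (Sum.inr i)
      rw [Function.comp_apply, Sum.swap_inr, hv i] at this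
      exact this

end Cfsg.Agent.S2612
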