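import Cfsg.Statements.S2614
import Cfsg.Agent.Lib.Helper15.OmegaTools

set_option autoImplicit false
open Cfsg

namespace Cfsg.Agent.S2614

open Matrix QuadraticMap Module Cfsg.Agent.Lib.Helper15


/-- For the form x_0² + Σ x_j y_j on F^(2m+1), F finite with q elements, q odd, and 1 ≤ i ≤ m: the involution of determinant one negating the first i hyperbolic pairs (and fixing x_0 and the other pairs) lies in Ω_(2m+1)(q) (commutator subgroup of the orthogonal group) if and only if q^i ≡ 1 (mod 4); its (−1)-eigenspace is a hyperbolic 2i-space. -/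
theorem result {F : Type*} [Field F] [Fintype F] {q : ℕ} (hF : Fintype.card F = q) (hq : Odd q) {m : ℕ} (i : ℕ) (hi : 1 ≤ i) (him : i ≤ m) : (∃ g : ↥(Cfsg.isometryGroup F (Cfsg.quadFormOdd m F)), g ∈ Cfsg.Omega F (Cfsg.quadFormOdd m F) ∧ ((g : Matrix.GeneralLinearGroup (Unit ⊕ (Fin m ⊕ Fin m)) F) : Matrix (Unit ⊕ (Fin m ⊕ Fin m)) (Unit ⊕ (Fin m ⊕ Fin m)) F) = Matrix.diagonal (fun k : Unit ⊕ (Fin m ⊕ Fin m) => if (Sum.elim (fun _ : Unit => i) (Sum.elim (fun j : Fin m => (j : ℕ)) (fun j : Fin m => (j : ℕ))) k) < i then (-1 : F) else 1)) ↔ q ^ i % 4 = 1 := by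
  rw [← coe_oddQ]
  apply neg_pairs_mem_Omega_iff (oddQ m F) hF hq (by simp; omega) (oddQ_nondegenerate m (two_ne_zero_of_odd hF hq)) i him
    (fun j => Pi.single (Sum.inr (Sum.inl j)) 1) (fun j => Pi.single (Sum.inr (Sum.inr j)) 1)
  · intro j; rw [oddQ_apply]; simp [Cfsg.quadFormOdd]
  · intro j; rw [oddQ_apply]; simp [Cfsg.quadFormOdd]
  · intro j; rw [coe_oddQ, polar_odd]; simp [Pi.single_apply]
  · intro j hj x
    rw [coe_oddQ, polar_odd, polar_odd]
    funext k
    rcases k with u | l | l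
    · have h' : i ≠ j := by omega
      simp [h']
    · by_cases h : l = j
      · subst h; simp [Pi.single_apply]; ring
      · have h' : (l : ℕ) ≠ j := fun h'' => h (Fin.ext h'')
        simp [Pi.single_apply, h, h']
    · by_cases h : l = j
      · subst h; simp [Pi.single_apply]; ring
      · have h' : (l : ℕ) ≠ j := fun h'' => h (Fin.ext h'')
        simp [Pi.single_apply, h, h']

end Cfsg.Agent.S2614
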