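import Cfsg.Statements.S2615
import Cfsg.Agent.Lib.Helper15.OmegaTools

set_option autoImplicit false
open Cfsg

namespace Cfsg.Agent.S2615

open Matrix QuadraticMap Module Cfsg.Agent.Lib.Helper15


/-- For an elliptic form Σ_(j<m−1) x_j y_j + (z₁² + a z₁z₂ + b z₂²) (anisotropic binary part) on F^(2m), F finite with q elements, q odd, and 1 ≤ i ≤ m − 1: the involution negating the first i hyperbolic pairs and fixing the rest lies in Ω⁻_2m(q) (commutator subgroup of the orthogonal group) if and only if q^i ≡ 1 (mod 4). -/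
theorem result {F : Type*} [Field F] [Fintype F] {q : ℕ} (hF : Fintype.card F = q) (hq : Odd q) {m : ℕ} (a b : F) (hab : ∀ z₁ z₂ : F, z₁ ^ 2 + a * z₁ * z₂ + b * z₂ ^ 2 = 0 → z₁ = 0 ∧ z₂ = 0) (i : ℕ) (hi : 1 ≤ i) (him : i + 1 ≤ m) : (∃ g : ↥(Cfsg.isometryGroup F (Cfsg.quadFormMinus (m - 1) F a b)), g ∈ Cfsg.Omega F (Cfsg.quadFormMinus (m - 1) F a b) ∧ ((g : Matrix.GeneralLinearGroup ((Fin (m - 1) ⊕ Fin (m - 1)) ⊕ Fin 2) F) : Matrix ((Fin (m - 1) ⊕ Fin (m - 1)) ⊕ Fin 2) ((Fin (m - 1) ⊕ Fin (m - 1)) ⊕ Fin 2) F) = Matrix.diagonal (fun k : (Fin (m - 1) ⊕ Fin (m - 1)) ⊕ Fin 2 => if (Sum.elim (Sum.elim (fun j : Fin (m - 1) => (j : ℕ)) (fun j : Fin (m - 1) => (j : ℕ))) (fun _ : Fin 2 => i) k) < i then (-1 : F) else 1)) ↔ q ^ i % 4 = 1 := by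
  rw [← coe_minusQ]
  apply neg_pairs_mem_Omega_iff (minusQ (m - 1) F a b) hF hq (by simp) (minusQ_nondegenerate (m - 1) a b hab) i (by omega)
    (fun j => Pi.single (Sum.inl (Sum.inl j)) 1) (fun j => Pi.single (Sum.inl (Sum.inr j)) 1)
  · intro j; rw [minusQ_apply]; simp [Cfsg.quadFormMinus]
  · intro j; rw [minusQ_apply]; simp [Cfsg.quadFormMinus]
  · intro j; rw [coe_minusQ, polar_minus]; simp [Pi.single_apply]
  · intro j hj x
    rw [coe_minusQ, polar_minus, polar_minus]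
    funext k
    rcases k with (l | l) | u
    · by_cases h : l = j
      · subst h; simp [Pi.single_apply]; ring
      · have h' : (l : ℕ) ≠ j := fun h'' => h (Fin.ext h'')
        simp [Pi.single_apply, h, h']
    · by_cases h : l = j
      · subst h; simp [Pi.single_apply]; ring
      · have h' : (l : ℕ) ≠ j := fun h'' => h (Fin.ext h'')
        simp [Pi.single_apply, h, h']
    · have h' : i ≠ j := by omega
      simp [h']

end Cfsg.Agent.S2615
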