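import Cfsg.Statements.S2617
import Cfsg.Agent.Lib.Helper15.WittIdx

set_option autoImplicit false
open Cfsg

namespace Cfsg.Agent.S2617

open Module Cfsg.Agent.Lib.Helper15


/-- The two standard quadratic forms of even dimension 2m over a finite field are not isometric: there is no linear isomorphism carrying the elliptic form Σ_(i<m−1) x_i y_i + z₁² + z₁z₂ + ζ z₂² (t² + t + ζ without roots) to the hyperbolic form Σ_(i<m) x_i y_i (they have different Witt index). -/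
theorem result {F : Type*} [Field F] [Finite F] {m : ℕ} (hm : 1 ≤ m) (ζ : F) (hζ : ∀ t : F, t ^ 2 + t + ζ ≠ 0) (g : (Fin m ⊕ Fin m → F) ≃ₗ[F] ((Fin (m - 1) ⊕ Fin (m - 1)) ⊕ Fin 2 → F)) : ¬ (∀ v : Fin m ⊕ Fin m → F, Cfsg.quadFormMinus (m - 1) F 1 ζ (g v) = Cfsg.quadFormPlus m F v) := by
  intro h
  have hab : ∀ z₁ z₂ : F, z₁ ^ 2 + 1 * z₁ * z₂ + ζ * z₂ ^ 2 = 0 → z₁ = 0 ∧ z₂ = 0 := by
    intro z₁ z₂ hz
    by_cases h2 : z₂ = 0
    · subst h2
      simp at hz
      exact ⟨hz, rfl⟩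
    · exfalso
      apply hζ (z₁ / z₂)
      field_simp
      linear_combination hz
  have h1 := minus_ts_le (m - 1) 1 ζ hab ((plusTS m F).map (g : (Fin m ⊕ Fin m → F) →ₗ[F] _)) (by
    rintro _ ⟨v, hv, rfl⟩
    exact (h v).trans (plusTS_ts m v hv))
  rw [LinearEquiv.finrank_map_eq, finrank_plusTS] at h1
  omega

end Cfsg.Agent.S2617
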