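import Cfsg.Statements.S2618
import Cfsg.Agent.Lib.Helper15.Quad

set_option autoImplicit false
open Cfsg

namespace Cfsg.Agent.S2618

open Module QuadraticMap Cfsg.Agent.Lib.Helper15


/-- Standard (parabolic) basis of a non-degenerate quadratic space of odd dimension 2m + 1 over a finite field (the non-degeneracy of the polar form forces the characteristic to be odd): there is a basis e_i, f_i (i < m), x with Q(e_i) = Q(f_i) = 0, B(e_i, f_j) = δ_ij (B the polar form), the e's pairwise orthogonal and the f's pairwise orthogonal, x orthogonal to all of them and Q(x) ≠ 0. -/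
theorem result {F V : Type*} [Field F] [Finite F] [AddCommGroup V] [Module F V] [FiniteDimensional F V] {m : ℕ} (hV : Module.finrank F V = 2 * m + 1) (Q : QuadraticForm F V) (hQ : (QuadraticMap.polarBilin Q).Nondegenerate) : ∃ b : Module.Basis (Unit ⊕ (Fin m ⊕ Fin m)) F V, Q (b (Sum.inl ())) ≠ 0 ∧ (∀ i, QuadraticMap.polar ⇑Q (b (Sum.inl ())) (b (Sum.inr (Sum.inl i))) = 0 ∧ QuadraticMap.polar ⇑Q (b (Sum.inl ())) (b (Sum.inr (Sum.inr i))) = 0) ∧ (∀ i, Q (b (Sum.inr (Sum.inl i))) = 0 ∧ Q (b (Sum.inr (Sum.inr i))) = 0) ∧ (∀ i j, QuadraticMap.polar ⇑Q (b (Sum.inr (Sum.inl i))) (b (Sum.inr (Sum.inr j))) = if i = j then 1 else 0) ∧ (∀ i j, QuadraticMap.polar ⇑Q (b (Sum.inr (Sum.inl i))) (b (Sum.inr (Sum.inl j))) = 0 ∧ QuadraticMap.polar ⇑Q (b (Sum.inr (Sum.inr i))) (b (Sum.inr (Sum.inr j))) = 0) := by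
  have hnd := nd_of_nondegenerate hQ
  obtain ⟨k, e, f, A, h1, h2, h3, h4, h5, h6, h7⟩ := witt_decomp (2 * m + 1) Q hnd hV
  have hA2 := finrank_le_two_of_anisotropic Q A h5
  have hA1 : finrank F A = 1 := by omega
  obtain rfl : k = m := by omega
  have : Nontrivial A := Module.nontrivial_of_finrank_pos (R := F) (by omega)
  obtain ⟨x, hx⟩ := exists_ne (0 : A)
  have hx0 : (x : V) ≠ 0 := fun h => hx (Subtype.ext h)
  have hQx : Q (x : V) ≠ 0 := fun h => hx0 (h5 x x.2 h)
  have hli1 : LinearIndependent F (fun _ : Unit => (x : V)) := LinearIndependent.of_subsingleton () hx0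
  have hli := li_hyp Q e f h2 h3 (fun _ : Unit => (x : V)) (fun _ i => h4 x x.2 i) hli1
  have hli' : LinearIndependent F (Sum.elim (fun _ : Unit => (x : V)) (Sum.elim e f)) := by
    have := hli.comp Sum.swap Sum.swap_leftInverse.injective
    convert this using 1
    ext (i | i) <;> rfl
  refine ⟨basisOfLinearIndependentOfCardEqFinrank hli' (by simp [hV]; omega), ?_⟩
  simp only [coe_basisOfLinearIndependentOfCardEqFinrank, Sum.elim_inl, Sum.elim_inr]
  refine ⟨hQx, fun i => ?_, h1, h2, h3⟩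
  rw [polar_comm Q _ (e i), polar_comm Q _ (f i)]
  exact h4 x x.2 i

end Cfsg.Agent.S2618
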