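import Cfsg.Statements.S2619
import Cfsg.Agent.Lib.Helper15.Gram

set_option autoImplicit false
open Cfsg

namespace Cfsg.Agent.S2619

open Module QuadraticMap Cfsg.Agent.Lib.Helper15


/-- Over a finite field of characteristic two, given an alternating bilinear form B on a finite-dimensional space, a basis (v_i) and scalars (λ_i), there is exactly one quadratic form whose polar form is B and whose value at each v_i is λ_i. -/
theorem result {F V ι : Type*} [Field F] [Finite F] [CharP F 2] [AddCommGroup V] [Module F V] [Fintype ι] (b : Module.Basis ι F V) (B : LinearMap.BilinForm F V) (hB : B.IsAlt) (c : ι → F) : ∃! Q : QuadraticForm F V, QuadraticMap.polarBilin Q = B ∧ ∀ i, Q (b i) = c i := by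
  classical
  let _ : LinearOrder ι := IsWellOrder.linearOrder WellOrderingRel
  let C : LinearMap.BilinForm F V := b.constr (S := F) fun i =>
    b.constr (S := F) fun j => if i = j then c i else if i < j then B (b i) (b j) else 0
  have hC : ∀ i j, C (b i) (b j) = if i = j then c i else if i < j then B (b i) (b j) else 0 := by
    intro i j
    simp only [C]
    rw [Basis.constr_basis, Basis.constr_basis]
  refine ⟨C.toQuadraticMap, ⟨?_, ?_⟩, ?_⟩
  · apply b.ext
    intro i
    apply b.ext
    intro j
    rw [polarBilin_apply_apply, LinearMap.BilinMap.polar_toQuadraticMap, hC, hC]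
    rcases lt_trichotomy i j with h | h | h
    · simp [h.ne, h.ne', h, h.not_gt]
    · subst h
      simp only [if_true]
      rw [hB (b i), CharTwo.add_self_eq_zero]
    · simp only [h.ne, h.ne', h, h.not_gt, if_false, if_true, zero_add]
      have := hB.neg_eq (b j) (b i)
      rw [← this, CharTwo.neg_eq]
  · intro i
    rw [LinearMap.BilinMap.toQuadraticMap_apply, hC]; simp
  · rintro Q' ⟨h1, h2⟩
    apply quad_ext b
    · intro i
      rw [h2, LinearMap.BilinMap.toQuadraticMap_apply, hC]; simp
    · intro i j
      have e1 : polar Q' (b i) (b j) = B (b i) (b j) := by rw [← h1]; rfl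
      rw [e1, LinearMap.BilinMap.polar_toQuadraticMap, hC, hC]
      rcases lt_trichotomy i j with h | h | h
      · simp [h.ne, h.ne', h, h.not_gt]
      · subst h
        simp only [if_true]
        rw [hB (b i), CharTwo.add_self_eq_zero]
      · simp only [h.ne, h.ne', h, h.not_gt, if_false, if_true, zero_add]
        have := hB.neg_eq (b j) (b i)
        rw [← this, CharTwo.neg_eq]

end Cfsg.Agent.S2619
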