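import Cfsg.Statements.S2620
import Cfsg.Agent.Lib.Helper15.Disc

set_option autoImplicit false
open Cfsg

namespace Cfsg.Agent.S2620

open Module QuadraticMap Cfsg.Agent.Lib.Helper15


/-- Discriminant of the hyperbolic quadratic form Σ_(i<m) x_i y_i over a field with q elements, q odd, m ≥ 1: the determinant of the Gram matrix of its polar form in any basis is a square if and only if m(q − 1)/2 is even (equivalently q^m ≡ 1 (mod 4)). -/
theorem result {F : Type*} [Field F] [Fintype F] {q : ℕ} (hF : Fintype.card F = q) (hq : Odd q) {m : ℕ} (hm : 1 ≤ m) {ι : Type*} [Fintype ι] [DecidableEq ι] (b : Module.Basis ι F (Fin m ⊕ Fin m → F)) : IsSquare (Matrix.of (fun i j : ι => QuadraticMap.polar (Cfsg.quadFormPlus m F) (b i) (b j))).det ↔ Even (m * (q - 1) / 2) := by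
  obtain ⟨d, hd, h⟩ := det_gram_change (plusQ m F) (Pi.basisFun F (Fin m ⊕ Fin m)) b
  rw [gram_plus_std, det_antidiag] at h
  have e : Matrix.of (fun i j : ι => QuadraticMap.polar (Cfsg.quadFormPlus m F) (b i) (b j)) = gram (plusQ m F) b := by
    rw [coe_plusQ]; rfl
  rw [e, h, isSquare_sq_mul_iff hd, isSquare_neg_one_pow_iff hF hq]

end Cfsg.Agent.S2620
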