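import Cfsg.Statements.S2622
-- import your own Cfsg.Agent.* helpers here

set_option autoImplicit false
open Cfsg

namespace Cfsg.Agent.S2622

open Module LinearMap LinearMap.BilinForm

variable {F : Type*} [Field F] [Finite F] [CharP F 2]

theorem exists_sqrt (c : F) : ∃ s : F, s ^ 2 = c :=
  ⟨(frobeniusEquiv F 2).symm c, frobeniusEquiv_symm_pow_p F 2 c⟩

theorem two_eq_zero' : (2 : F) = 0 := CharP.cast_eq_zero F 2

theorem exists_unit_vec {V : Type*} [AddCommGroup V] [Module F V] (B : LinearMap.BilinForm F V)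
    (hna : ∃ v : V, B v v ≠ 0) : ∃ v : V, B v v = 1 := by
  obtain ⟨v, hv⟩ := hna
  obtain ⟨s, hs⟩ := exists_sqrt (B v v)⁻¹
  refine ⟨s • v, ?_⟩
  simp only [map_smul, LinearMap.smul_apply, smul_eq_mul]
  rw [← mul_assoc, ← pow_two, hs, inv_mul_cancel₀ hv]

theorem exists_good_pair {V : Type*} [AddCommGroup V] [Module F V] [FiniteDimensional F V]
    (B : LinearMap.BilinForm F V) (hS : B.IsSymm) (hB : B.Nondegenerate) (hna : ∃ v : V, B v v ≠ 0)
    (hdim : 2 ≤ finrank F V) : ∃ v w : V, B v v = 1 ∧ B v w = 0 ∧ B w w ≠ 0 := by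
  obtain ⟨v, hv⟩ := exists_unit_vec B hna
  have hv0 : B v v ≠ 0 := by rw [hv]; exact one_ne_zero
  set W := B.orthogonal (F ∙ v) with hW
  have hnd := restrict_nondegenerate_orthogonal_spanSingleton B hB hS.isRefl hv0
  have hfr : finrank F W + 1 = finrank F V := by
    rw [← Submodule.finrank_add_eq_of_isCompl (LinearMap.BilinForm.isCompl_span_singleton_orthogonal hv0).symm,
      finrank_span_singleton (ne_zero_of_map hv0)]
  by_cases h : ∃ w : W, B w w ≠ 0
  · obtain ⟨w, hw⟩ := h
    exact ⟨v, w, hv, w.2 v (Submodule.mem_span_singleton_self v), hw⟩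
  · push Not at h
    have hpos : 0 < finrank F W := by omega
    have : Nontrivial W := Module.nontrivial_of_finrank_pos hpos
    obtain ⟨e, he⟩ := exists_ne (0 : W)
    have : ∃ f₀ : W, B e f₀ ≠ 0 := by
      by_contra hcon
      push Not at hcon
      exact he (hnd.1 e hcon)
    obtain ⟨f₀, hf₀⟩ := this
    have hve : B v e = 0 := e.2 v (Submodule.mem_span_singleton_self v)
    have hvf : B v f₀ = 0 := f₀.2 v (Submodule.mem_span_singleton_self v)
    have hev : B e v = 0 := by rw [hS.eq]; exact hve
    have hfv : B f₀ v = 0 := by rw [hS.eq]; exact hvf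
    have hee : B e e = 0 := h e
    have hff : B f₀ f₀ = 0 := h f₀
    have hfe : B f₀ e = B e f₀ := hS.eq _ _
    set c := B (e : V) (f₀ : V) with hc
    have h2 : (2 : F) = 0 := two_eq_zero'
    refine ⟨v + e, c⁻¹ • (f₀ : V) + v, ?_, ?_, ?_⟩
    · simp only [map_add, LinearMap.add_apply, hv, hve, hev, hee]; ring
    · simp only [map_add, LinearMap.add_apply, map_smul, LinearMap.smul_apply, smul_eq_mul, hv, hve, hev, hvf, ← hc]
      have h3 : c⁻¹ * c = 1 := inv_mul_cancel₀ hf₀
      linear_combination h3 + h2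
    · simp only [map_add, LinearMap.add_apply, map_smul, LinearMap.smul_apply, smul_eq_mul, hv, hvf, hfv, hff]
      simp

theorem exists_orthonormal_family (n : ℕ) : ∀ {V : Type*} [AddCommGroup V] [Module F V] [FiniteDimensional F V]
    (_ : finrank F V = n) (B : LinearMap.BilinForm F V) (_ : B.IsSymm) (_ : B.Nondegenerate)
    (_ : ∃ v : V, B v v ≠ 0), ∃ b : Fin n → V, ∀ i j, B (b i) (b j) = if i = j then 1 else 0 := by
  induction n with
  | zero =>
    intro V _ _ _ hV B hS hB hna
    exact ⟨Fin.elim0, fun i => i.elim0⟩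
  | succ n ih =>
    intro V _ _ _ hV B hS hB hna
    rcases Nat.eq_zero_or_pos n with rfl | hn
    · obtain ⟨v, hv⟩ := exists_unit_vec B hna
      refine ⟨fun _ => v, fun i j => ?_⟩
      have hij : i = j := by apply Fin.ext; omega
      rw [hv, if_pos hij]
    · obtain ⟨v, w, hv, hvw, hw⟩ := exists_good_pair B hS hB hna (by omega)
      have hv0 : B v v ≠ 0 := by rw [hv]; exact one_ne_zero
      set W := B.orthogonal (F ∙ v) with hW
      have hnd := restrict_nondegenerate_orthogonal_spanSingleton B hB hS.isRefl hv0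
      have hfr : finrank F W + 1 = finrank F V := by
        rw [← Submodule.finrank_add_eq_of_isCompl (LinearMap.BilinForm.isCompl_span_singleton_orthogonal hv0).symm,
          finrank_span_singleton (ne_zero_of_map hv0)]
      have hwW : w ∈ W := by
        intro x hx
        obtain ⟨c, rfl⟩ := Submodule.mem_span_singleton.1 hx
        rw [map_smul, LinearMap.smul_apply, hvw, smul_zero]
      obtain ⟨b', hb'⟩ := ih (V := W) (by omega) (B.restrict W) (hS.restrict W) hnd ⟨⟨w, hwW⟩, hw⟩
      refine ⟨Fin.cons v (fun i => (b' i : V)), ?_⟩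
      intro i j
      refine Fin.cases ?_ (fun i => ?_) i <;> refine Fin.cases ?_ (fun j => ?_) j
      · simp [hv]
      · simp only [Fin.cons_zero, Fin.cons_succ]
        rw [if_neg (Fin.succ_ne_zero j).symm]
        exact (b' j).2 v (Submodule.mem_span_singleton_self v)
      · simp only [Fin.cons_zero, Fin.cons_succ]
        rw [if_neg (Fin.succ_ne_zero i), hS.eq]
        exact (b' i).2 v (Submodule.mem_span_singleton_self v)
      · simp only [Fin.cons_succ, Fin.succ_inj]
        exact hb' i j



/-- Over a finite field of characteristic two, a non-degenerate symmetric bilinear form that is not alternating (some vector v has B(v, v) ≠ 0) admits an orthonormal basis. -/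
theorem result {F V : Type*} [Field F] [Finite F] [CharP F 2] [AddCommGroup V] [Module F V] [FiniteDimensional F V] {n : ℕ} (hV : Module.finrank F V = n) (B : LinearMap.BilinForm F V) (hS : B.IsSymm) (hB : B.Nondegenerate) (hna : ∃ v : V, B v v ≠ 0) : ∃ b : Module.Basis (Fin n) F V, ∀ i j, B (b i) (b j) = if i = j then 1 else 0 := by
  obtain ⟨b, hb⟩ := exists_orthonormal_family n hV B hS hB hna
  have hli : LinearIndependent F b := by
    apply linearIndependent_of_iIsOrtho (B := B)
    · intro i j hij
      show B (b i) (b j) = 0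
      rw [hb, if_neg hij]
    · intro i
      rw [hb, if_pos rfl]; exact one_ne_zero
  rcases Nat.eq_zero_or_pos n with rfl | hn
  · exact ⟨basisOfFinrankZero hV, fun i => i.elim0⟩
  · have : Nonempty (Fin n) := ⟨⟨0, hn⟩⟩
    refine ⟨basisOfLinearIndependentOfCardEqFinrank hli (by simp [hV]), ?_⟩
    intro i j
    simp only [coe_basisOfLinearIndependentOfCardEqFinrank]
    exact hb i j

end Cfsg.Agent.S2622
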