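import Cfsg.Statements.S2625
import Cfsg.Agent.Lib.Helper15.Disc

set_option autoImplicit false
open Cfsg

namespace Cfsg.Agent.S2625

open Module QuadraticMap Cfsg.Agent.Lib.Helper15


/-- For a quadratic form Q on F^n with non-degenerate polar form, F finite and n odd (so |F| is odd), the multiplier of any similarity is a square: if g is an invertible linear map with Q(g v) = c·Q(v) for all v then c is a square. -/
theorem result {F : Type*} [Field F] [Fintype F] {n : ℕ} (hn : Odd n) (Q : QuadraticForm F (Fin n → F)) (hQ : (QuadraticMap.polarBilin Q).Nondegenerate) (g : (Fin n → F) ≃ₗ[F] (Fin n → F)) (c : F) (hg : ∀ v, Q (g v) = c * Q v) : IsSquare c := by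
  let b := Pi.basisFun F (Fin n)
  have h1 := det_gram_map Q Q (g : (Fin n → F) →ₗ[F] (Fin n → F)) c hg b
  obtain ⟨d, hd, h2⟩ := det_gram_change Q b (b.map g)
  have h3 : (⇑(b.map g) : Fin n → Fin n → F) = (g : (Fin n → F) →ₗ[F] (Fin n → F)) ∘ b := by
    funext i; simp
  rw [h3, h1] at h2
  have hD := det_gram_ne_zero Q hQ b
  have h4 : c ^ n = d ^ 2 := by
    simpa using mul_right_cancel₀ hD h2
  obtain ⟨k, rfl⟩ := hn
  by_cases hc : c = 0
  · subst hc; exact ⟨0, by simp⟩
  · refine ⟨d / c ^ k, ?_⟩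
    have hck : c ^ k ≠ 0 := pow_ne_zero _ hc
    field_simp
    rw [← h4]; ring

end Cfsg.Agent.S2625
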