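import Cfsg.Statements.S2627
import Cfsg.Agent.Lib.Helper15.SumQ

set_option autoImplicit false
open Cfsg

namespace Cfsg.Agent.S2627


open Cfsg.Agent.Lib.Helper15


/-- For an orthogonal direct sum Q = Q₁ ⊕ Q₂ of quadratic forms with non-degenerate polar forms over a finite field, an isometry g₁ of Q₁ extended by the identity on the second summand lies in Ω(Q) (the commutator subgroup of the orthogonal group of Q) if and only if g₁ lies in Ω(Q₁). (Excluded: the field of two elements when the first summand or the whole space has dimension 4, where the commutator subgroup of O⁺₄(2) is smaller than the group usually called Ω.) -/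
theorem result {F : Type*} [Field F] [Fintype F] {k l : ℕ} (h : Fintype.card F ≠ 2 ∨ (k ≠ 4 ∧ k + l ≠ 4)) (Q₁ : QuadraticForm F (Fin k → F)) (Q₂ : QuadraticForm F (Fin l → F)) (h₁ : (QuadraticMap.polarBilin Q₁).Nondegenerate) (h₂ : (QuadraticMap.polarBilin Q₂).Nondegenerate) (g₁ : ↥(Cfsg.isometryGroup F ⇑Q₁)) : (∃ g : ↥(Cfsg.isometryGroup F (fun v : Fin k ⊕ Fin l → F => Q₁ (v ∘ Sum.inl) + Q₂ (v ∘ Sum.inr))), g ∈ Cfsg.Omega F (fun v : Fin k ⊕ Fin l → F => Q₁ (v ∘ Sum.inl) + Q₂ (v ∘ Sum.inr)) ∧ ((g : Matrix.GeneralLinearGroup (Fin k ⊕ Fin l) F) : Matrix (Fin k ⊕ Fin l) (Fin k ⊕ Fin l) F) = Matrix.fromBlocks ((g₁ : Matrix.GeneralLinearGroup (Fin k) F) : Matrix (Fin k) (Fin k) F) 0 0 1) ↔ g₁ ∈ Cfsg.Omega F ⇑Q₁ := by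
  classical
  rw [← coe_sumQ Q₁ Q₂]
  have hQQ := sumQ_nondegenerate Q₁ Q₂ h₁ h₂
  have hex : Fintype.card F ≠ 2 ∨ Fintype.card (Fin k) ≠ 4 := by
    rcases h with h | h
    · exact Or.inl h
    · right; simpa using h.1
  constructor
  · rintro ⟨g, hg, hgM⟩
    have hgb : g = blockIso' Q₁ Q₂ (g₁, 1) := Subtype.ext (Units.ext hgM)
    obtain ⟨vs, hvs, rfl⟩ := cartan_dieudonne Q₁ h₁ hex g₁
    rw [blockIso'_prod_left Q₁ Q₂ vs hvs] at hgb
    have hvs' : ∀ v ∈ vs.map (fun v => (Sum.elim v 0 : Fin k ⊕ Fin l → F)), sumQ Q₁ Q₂ v ≠ 0 := by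
      intro v hv
      obtain ⟨w, hw, rfl⟩ := List.mem_map.1 hv
      rw [sumQ_inl]; exact hvs w hw
    rw [hgb] at hg
    by_cases h2 : (2 : F) = 0
    · have : CharP F 2 := CharTwo.of_one_ne_zero_of_two_eq_zero one_ne_zero h2
      rw [prod_mem_Omega_iff_two _ hQQ _ hvs', List.length_map] at hg
      exact (prod_mem_Omega_iff_two _ h₁ _ hvs).2 hg
    · by_cases hk : 2 ≤ k
      · rw [prod_mem_Omega_iff _ h2 (by simp; omega) hQQ _ hvs'] at hg
        rw [prod_mem_Omega_iff _ h2 (by simpa using hk) h₁ _ hvs, ← hg]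
        unfold linv
        rw [List.length_map, List.map_map]
        congr 4
        funext v
        exact (sumQ_inl Q₁ Q₂ v).symm
      · -- small cases: use the determinant
        have hdet := hom_eq_one_of_mem_commutator (detHom (sumQ Q₁ Q₂)) hg
        have hdet' := congrArg Units.val hdet
        rw [detHom_coe, coe_prod_reflT _ _ hvs', det_prod_refl _ _ hvs', List.length_map,
          ← det_prod_refl Q₁ vs hvs, ← coe_prod_reflT Q₁ vs hvs] at hdet'
        have : (vs.map (reflT Q₁)).prod = 1 := by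
          apply Subtype.ext
          apply Units.ext
          set M := ((((vs.map (reflT Q₁)).prod : Cfsg.isometryGroup F ⇑Q₁) : Matrix.GeneralLinearGroup (Fin k) F) :
            Matrix (Fin k) (Fin k) F) with hM
          show M = 1
          have hk' : k = 0 ∨ k = 1 := by omega
          rcases hk' with rfl | rfl
          · exact Subsingleton.elim _ _
          · ext i j
            rw [Matrix.det_fin_one] at hdet'
            fin_cases i; fin_cases j
            simpa using hdet'
        rw [this]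
        exact Subgroup.one_mem _
  · intro hg
    refine ⟨blockIso' Q₁ Q₂ (g₁, 1), ?_, ?_⟩
    · exact map_mem_commutator ((blockIso' Q₁ Q₂).comp (MonoidHom.inl _ _)) hg
    · rw [blockIso'_coe]; rfl

end Cfsg.Agent.S2627
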