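import Cfsg.Statements.S2628
import Cfsg.Agent.Lib.Helper15.SumQ

set_option autoImplicit false
open Cfsg

namespace Cfsg.Agent.S2628


open Cfsg.Agent.Lib.Helper15
open scoped commutatorElement


/-- For the orthogonal direct sum Q ⊕ Q of two copies of a quadratic form Q with non-degenerate polar form on F^k (F finite), every isometry g of Q acting diagonally, diag(g, g), lies in Ω(Q ⊕ Q), the commutator subgroup of the orthogonal group of Q ⊕ Q. (Excluded: k = 2 over the field of two elements, where Q ⊕ Q is the hyperbolic 4-space whose orthogonal group's commutator subgroup is smaller than the group usually called Ω.) -/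
theorem result {F : Type*} [Field F] [Fintype F] {k : ℕ} (h : Fintype.card F ≠ 2 ∨ k ≠ 2) (Q : QuadraticForm F (Fin k → F)) (hQ : (QuadraticMap.polarBilin Q).Nondegenerate) (g : ↥(Cfsg.isometryGroup F ⇑Q)) : ∃ x : ↥(Cfsg.isometryGroup F (fun v : Fin k ⊕ Fin k → F => Q (v ∘ Sum.inl) + Q (v ∘ Sum.inr))), x ∈ Cfsg.Omega F (fun v : Fin k ⊕ Fin k → F => Q (v ∘ Sum.inl) + Q (v ∘ Sum.inr)) ∧ ((x : Matrix.GeneralLinearGroup (Fin k ⊕ Fin k) F) : Matrix (Fin k ⊕ Fin k) (Fin k ⊕ Fin k) F) = Matrix.fromBlocks ((g : Matrix.GeneralLinearGroup (Fin k) F) : Matrix (Fin k) (Fin k) F) 0 0 ((g : Matrix.GeneralLinearGroup (Fin k) F) : Matrix (Fin k) (Fin k) F) := by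
  classical
  rw [← coe_sumQ Q Q]
  have hQQ := sumQ_nondegenerate Q Q hQ hQ
  have hex : Fintype.card F ≠ 2 ∨ Fintype.card (Fin k ⊕ Fin k) ≠ 4 := by
    rcases h with h | h
    · exact Or.inl h
    · right; simp; omega
  refine ⟨blockIso' Q Q (g, g), ?_, blockIso'_coe Q Q (g, g)⟩
  let s : Cfsg.isometryGroup F ⇑(sumQ Q Q) :=
    ofIsometry (sumQ Q Q) (LinearEquiv.funCongrLeft F F (Equiv.sumComm (Fin k) (Fin k))) (by
      intro v
      rw [sumQ_apply, sumQ_apply, add_comm]
      rfl)
  have hs : ∀ x, act (sumQ Q Q) s x = x ∘ Sum.swap := by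
    intro x
    rw [act_ofIsometry]
    rfl
  set a := blockIso' Q Q (g, 1) with ha
  have hb : blockIso' Q Q (1, g) = s * a * s⁻¹ := by
    rw [eq_mul_inv_iff_mul_eq]
    apply iso_ext
    intro x
    rw [act_mul, act_mul, hs, hs, ha, act_blockIso', act_blockIso', act_one, act_one]
    funext i
    rcases i with i | i <;> rfl
  have hx : blockIso' Q Q (g, g) = (a * a) * ⁅a⁻¹, s⁆ := by
    have : blockIso' Q Q (g, g) = a * blockIso' Q Q (1, g) := by
      rw [ha, ← map_mul]; simp
    rw [this, hb, commutatorElement_def]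
    group
  rw [hx]
  exact Subgroup.mul_mem _ (sq_mem_Omega _ hQQ hex a)
    (Subgroup.commutator_mem_commutator (Subgroup.mem_top _) (Subgroup.mem_top _))

end Cfsg.Agent.S2628
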