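import Cfsg.Statements.S2629
import Cfsg.Agent.Lib.Helper15.ParityMat

set_option autoImplicit false
open Cfsg

namespace Cfsg.Agent.S2629


open Cfsg.Agent.Lib.Helper15


/-- For the hyperbolic form Σ x_i y_i on F^(2m) over a finite field of odd order (m ≥ 1), an isometry g preserves the class of the maximal totally singular subspace U₀ = {y = 0} (that is, m − dim(U₀ ∩ gU₀) is even) if and only if det g = 1: the stabiliser of each of the two classes of maximal totally singular subspaces is SO. -/
theorem result {F : Type*} [Field F] [Fintype F] (h2 : (2 : F) ≠ 0) {m : ℕ} (hm : 1 ≤ m) (g : ↥(Cfsg.isometryGroup F (Cfsg.quadFormPlus m F))) : Even (m - Module.finrank F ↥(LinearMap.ker (LinearMap.funLeft F F (Sum.inr : Fin m → Fin m ⊕ Fin m)) ⊓ (LinearMap.ker (LinearMap.funLeft F F (Sum.inr : Fin m → Fin m ⊕ Fin m))).map (Matrix.mulVecLin ((g : Matrix.GeneralLinearGroup (Fin m ⊕ Fin m) F) : Matrix (Fin m ⊕ Fin m) (Fin m ⊕ Fin m) F)))) ↔ ((g : Matrix.GeneralLinearGroup (Fin m ⊕ Fin m) F) : Matrix (Fin m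 ⊕ Fin m) (Fin m ⊕ Fin m) F).det = 1 := by
  classical
  revert g
  rw [← coe_plusQ]
  intro g
  obtain ⟨vs, hvs, rfl⟩ := cartan_dieudonne (plusQ m F) (plusQ_nondegenerate m) (Or.inl (card_ne_two h2)) g
  have := even_codim_iff (plusQ m F) (plusQ_nondegenerate m) (m := m) (by simp; ring) (plusTS m F)
    (fun u hu => by rw [plusQ_apply]; exact plusTS_ts m u hu) (finrank_plusTS m) vs hvs
  unfold plusTS at this
  rw [this, coe_prod_reflT _ _ hvs, det_prod_refl _ _ hvs]
  constructor
  · intro h; exact h.neg_one_pow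
  · intro h
    by_contra hodd
    rw [Nat.not_even_iff_odd] at hodd
    rw [hodd.neg_one_pow] at h
    apply h2
    linear_combination (-1 : F) * h

end Cfsg.Agent.S2629
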