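import Cfsg.Statements.S2631
import Cfsg.Agent.Lib.Helper15.ParityMat

set_option autoImplicit false
open Cfsg

namespace Cfsg.Agent.S2631


open Cfsg.Agent.Lib.Helper15 QuadraticMap Module in
theorem map_eq_of_le {ι : Type} [Fintype ι] [DecidableEq ι] {F : Type*} [Field F] (Q : QuadraticForm F (ι → F))
    (W : Submodule F (ι → F)) (t : Cfsg.isometryGroup F ⇑Q) (h : ∀ x ∈ W, act Q t x ∈ W) :
    W.map (Matrix.mulVecLin ((t : Matrix.GeneralLinearGroup ι F) : Matrix ι ι F)) = W := by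
  apply Submodule.eq_of_le_of_finrank_le
  · rw [Submodule.map_le_iff_le_comap]
    intro x hx
    exact h x hx
  · have hinj : Function.Injective (Matrix.mulVecLin ((t : Matrix.GeneralLinearGroup ι F) : Matrix ι ι F)) := by
      intro x y hxy
      have : act Q t x = act Q t y := hxy
      rw [← act_inv_act t x, this, act_inv_act]
    exact (LinearEquiv.finrank_eq (Submodule.equivMapOfInjective _ hinj W)).le

open Cfsg.Agent.Lib.Helper15 QuadraticMap Module


/-- For the hyperbolic form Σ x_i y_i on F^(2m) over a finite field (m ≥ 1, excluding m = 2 over the field of two elements), Ω (the commutator subgroup of the orthogonal group) acts transitively on each of the two classes of maximal totally singular subspaces: if U and W are m-dimensional totally singular subspaces with m − dim(U ∩ W) even, some element of Ω carries U to W. -/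
theorem result {F : Type*} [Field F] [Fintype F] {m : ℕ} (hm : 1 ≤ m) (h : Fintype.card F ≠ 2 ∨ m ≠ 2) (U W : Submodule F (Fin m ⊕ Fin m → F)) (hU : Module.finrank F U = m) (hW : Module.finrank F W = m) (hU0 : ∀ u ∈ U, Cfsg.quadFormPlus m F u = 0) (hW0 : ∀ w ∈ W, Cfsg.quadFormPlus m F w = 0) (he : Even (m - Module.finrank F ↥(U ⊓ W))) : ∃ g : ↥(Cfsg.isometryGroup F (Cfsg.quadFormPlus m F)), g ∈ Cfsg.Omega F (Cfsg.quadFormPlus m F) ∧ U.map (Matrix.mulVecLin ((g : Matrix.GeneralLinearGroup (Fin m ⊕ Fin m) F) : Matrix (Fin m ⊕ Fin m) (Fin m ⊕ Fin m) F)) = W := by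
  classical
  rw [← coe_plusQ] at hU0 hW0 ⊢
  set Q := plusQ m F with hQdef
  have hQ : (polarBilin Q).Nondegenerate := plusQ_nondegenerate m
  have hex : Fintype.card F ≠ 2 ∨ Fintype.card (Fin m ⊕ Fin m) ≠ 4 := by
    rcases h with h | h
    · exact Or.inl h
    · right; simp; omega
  have hcard : 2 ≤ Fintype.card (Fin m ⊕ Fin m) := by simp; omega
  let e : U ≃ₗ[F] W := LinearEquiv.ofFinrankEq U W (hU.trans hW.symm)
  obtain ⟨g, hg1, hg2⟩ := Cfsg.Agent.S0750.result Q hQ U W e (fun u => by rw [hU0 _ u.2, hW0 _ (e u).2])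
  set g₀ := ofIsometry Q g hg1 with hg₀
  have hmap : U.map (Matrix.mulVecLin ((g₀ : Matrix.GeneralLinearGroup (Fin m ⊕ Fin m) F) :
      Matrix (Fin m ⊕ Fin m) (Fin m ⊕ Fin m) F)) = W := by
    apply le_antisymm
    · rw [Submodule.map_le_iff_le_comap]
      intro x hx
      show act Q g₀ x ∈ W
      rw [hg₀, act_ofIsometry, hg2 ⟨x, hx⟩]
      exact (e ⟨x, hx⟩).2
    · intro w hw
      refine ⟨(e.symm ⟨w, hw⟩ : Fin m ⊕ Fin m → F), (e.symm ⟨w, hw⟩).2, ?_⟩
      show act Q g₀ _ = w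
      rw [hg₀, act_ofIsometry, hg2, LinearEquiv.apply_symm_apply]
  obtain ⟨vs, hvs, hgvs⟩ := cartan_dieudonne Q hQ hex g₀
  have hlen : Even vs.length := by
    rw [← even_codim_iff Q hQ (m := m) (by simp; ring) U hU0 hU vs hvs, ← hgvs, hmap]
    exact he
  by_cases h2 : (2 : F) = 0
  · have : CharP F 2 := CharTwo.of_one_ne_zero_of_two_eq_zero one_ne_zero h2
    refine ⟨g₀, ?_, hmap⟩
    rw [hgvs, prod_mem_Omega_iff_two Q hQ _ hvs]
    exact hlen
  · have hsp : (spin Q h2 hcard hQ g₀).1 = 1 := by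
      rw [hgvs, spin_prod Q h2 hcard hQ vs hvs]
      exact hlen.neg_one_pow
    rcases Int.units_eq_one_or (spin Q h2 hcard hQ g₀).2 with hb | hb
    · refine ⟨g₀, ?_, hmap⟩
      rw [← spin_ker Q h2 hcard hQ, MonoidHom.mem_ker]
      exact Prod.ext hsp hb
    · have hWne : W ≠ ⊥ := by
        intro hb
        rw [hb, finrank_bot] at hW
        omega
      obtain ⟨e₁, he₁W, he₁⟩ := Submodule.exists_mem_ne_zero_of_ne_bot hWne
      obtain ⟨f₁, hf₁, hef⟩ := exists_hyp_partner Q (nd_of_nondegenerate hQ) e₁ he₁ (hW0 _ he₁W)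
      obtain ⟨ν, hν⟩ := exists_nonsquare' h2
      have hν0 : ν ≠ 0 := by
        rintro rfl
        exact hν ⟨0, by simp⟩
      have hq1 := Q_hyp_sub Q e₁ f₁ (hW0 _ he₁W) hf₁ hef
      have hq2 := Q_hyp_sub_smul Q e₁ f₁ (hW0 _ he₁W) hf₁ hef ν
      have h1 : Q (e₁ - f₁) ≠ 0 := by rw [hq1]; simp
      have h3 : Q (e₁ - ν • f₁) ≠ 0 := by rw [hq2]; simpa using hν0
      have hP2 : W.map (Matrix.mulVecLin (((refl Q (e₁ - f₁) h1 * refl Q (e₁ - ν • f₁) h3 : Cfsg.isometryGroup F ⇑Q) :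
          Matrix.GeneralLinearGroup (Fin m ⊕ Fin m) F) : Matrix (Fin m ⊕ Fin m) (Fin m ⊕ Fin m) F)) = W := by
        apply map_eq_of_le
        intro x hx
        rw [act_dil Q e₁ f₁ (hW0 _ he₁W) hf₁ hef ν hν0, polar_eq_zero_of_ts Q W hW0 he₁W hx]
        simp only [mul_zero, zero_smul, add_zero]
        exact W.add_mem hx (W.smul_mem _ he₁W)
      refine ⟨refl Q (e₁ - f₁) h1 * refl Q (e₁ - ν • f₁) h3 * g₀, ?_, map_mul_eq Q U W W _ g₀ hmap hP2⟩
      rw [← spin_ker Q h2 hcard hQ, MonoidHom.mem_ker, map_mul, map_mul, spin_refl, spin_refl, hq1, hq2]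
      have : sqs (-1 : F) * sqs (-ν) = -1 := by
        rw [← sqs_mul h2 (by simp) (by simpa using hν0)]
        have e1 : (-1 : F) * -ν = ν := by ring
        rw [e1]
        exact if_neg hν
      apply Prod.ext
      · simp [hsp]
      · simp only [Prod.snd_mul, Prod.snd_one]
        rw [this, hb]; rfl

end Cfsg.Agent.S2631
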