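import Cfsg.Statements.S2632
import Cfsg.Agent.Lib.Helper15.Correct

set_option autoImplicit false
open Cfsg

namespace Cfsg.Agent.S2632


open Cfsg.Agent.Lib.Helper15 QuadraticMap Module


/-- Ω is transitive on non-degenerate subspaces of each isometry type: for a quadratic form Q on F^n, n ≥ 3, with non-degenerate polar form (F finite; excluding dimension 4 over the field of two elements), if U and W are subspaces on which the polar form is non-degenerate and there is a Q-preserving linear isomorphism U → W, then some element of Ω (the commutator subgroup of the orthogonal group) carries U to W. (In dimension 2 this fails: Ω can be {±1}, which fixes every line.) -/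
theorem result {F : Type*} [Field F] [Fintype F] {n : ℕ} (hn : 3 ≤ n) (h : Fintype.card F ≠ 2 ∨ n ≠ 4) (Q : QuadraticForm F (Fin n → F)) (hQ : (QuadraticMap.polarBilin Q).Nondegenerate) (U W : Submodule F (Fin n → F)) (hU : U ⊓ LinearMap.BilinForm.orthogonal (QuadraticMap.polarBilin Q) U = ⊥) (hW : W ⊓ LinearMap.BilinForm.orthogonal (QuadraticMap.polarBilin Q) W = ⊥) (e : U ≃ₗ[F] W) (he : ∀ u : U, Q (e u : Fin n → F) = Q (u : Fin n → F)) : ∃ g : ↥(Cfsg.isometryGroup F ⇑Q), g ∈ Cfsg.Omega F ⇑Q ∧ U.map (Matrix.mulVecLin ((g : Matrix.GeneralLinearGroup (Fin n) F) : Matrix (Fin n) (Fin n) F)) = W := by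
  classical
  have hex : Fintype.card F ≠ 2 ∨ Fintype.card (Fin n) ≠ 4 := by simpa using h
  have hcard : 2 ≤ Fintype.card (Fin n) := by simp; omega
  obtain ⟨g, hg1, hg2⟩ := Cfsg.Agent.S0750.result Q hQ U W e he
  set g₀ := ofIsometry Q g hg1 with hg₀
  have hmap : U.map (Matrix.mulVecLin ((g₀ : Matrix.GeneralLinearGroup (Fin n) F) : Matrix (Fin n) (Fin n) F)) = W := by
    apply le_antisymm
    · rw [Submodule.map_le_iff_le_comap]
      intro x hx
      show act Q g₀ x ∈ W
      rw [hg₀, act_ofIsometry, hg2 ⟨x, hx⟩]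
      exact (e ⟨x, hx⟩).2
    · intro w hw
      refine ⟨(e.symm ⟨w, hw⟩ : Fin n → F), (e.symm ⟨w, hw⟩).2, ?_⟩
      show act Q g₀ _ = w
      rw [hg₀, act_ofIsometry, hg2, LinearEquiv.apply_symm_apply]
  set W' := LinearMap.BilinForm.orthogonal (polarBilin Q) W with hW'
  have hrefl : (polarBilin Q).IsRefl := by
    intro x y hxy
    show polar Q y x = 0
    rw [polar_comm]; exact hxy
  have hcompl : IsCompl W W' := (LinearMap.BilinForm.isCompl_orthogonal_iff_disjoint hrefl).2 (disjoint_iff.2 hW)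
  have hfr := Submodule.finrank_add_eq_of_isCompl hcompl
  rw [finrank_fintype_fun_eq_card, Fintype.card_fin] at hfr
  obtain ⟨X, hX2, hXnd, hXW⟩ : ∃ X : Submodule F (Fin n → F), 2 ≤ finrank F X ∧ ND (Q.comp X.subtype) ∧
      ∀ w ∈ X, (w ∈ W ∨ ∀ x ∈ W, polar Q w x = 0) := by
    by_cases h2 : 2 ≤ finrank F W
    · refine ⟨W, h2, ?_, fun w hw => Or.inl hw⟩
      intro x hx
      have : (x : Fin n → F) ∈ W ⊓ W' := by
        refine ⟨x.2, ?_⟩
        intro y hy
        show polar Q y x = 0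
        rw [polar_comm]
        exact hx ⟨y, hy⟩
      rw [hW] at this
      exact Subtype.ext this
    · refine ⟨W', by omega, ?_, fun w hw => Or.inr fun x hx => ?_⟩
      · intro x hx
        apply Subtype.ext
        apply hQ.1
        intro v
        show polar Q x v = 0
        have hv : v ∈ W ⊔ W' := by rw [hcompl.sup_eq_top]; trivial
        obtain ⟨a, ha, b, hb, rfl⟩ := Submodule.mem_sup.1 hv
        rw [polar_add_right]
        have h1 : polar Q x a = 0 := by
          rw [polar_comm]; exact x.2 a ha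
        have h3 : polar Q x b = 0 := hx ⟨b, hb⟩
        rw [h1, h3, add_zero]
      · rw [polar_comm]; exact hw x hx
  obtain ⟨ν, hν0, hν⟩ : ∃ ν : F, ν ≠ 0 ∧ ((2 : F) ≠ 0 → ¬ IsSquare ν) := by
    by_cases h2 : (2 : F) = 0
    · exact ⟨1, one_ne_zero, fun h => absurd h2 h⟩
    · obtain ⟨ν, hν⟩ := exists_nonsquare' h2
      refine ⟨ν, ?_, fun _ => hν⟩
      rintro rfl
      exact hν ⟨0, by simp⟩
  obtain ⟨w₁, hw₁⟩ := exists_represent_nd (Q.comp X.subtype) hXnd hX2 1
  obtain ⟨w₂, hw₂⟩ := exists_represent_nd (Q.comp X.subtype) hXnd hX2 ν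
  have hw₁' : Q (w₁ : Fin n → F) = 1 := hw₁
  have hw₂' : Q (w₂ : Fin n → F) = ν := hw₂
  have h1 : Q (w₁ : Fin n → F) ≠ 0 := by rw [hw₁']; exact one_ne_zero
  have h2 : Q (w₂ : Fin n → F) ≠ 0 := by rw [hw₂']; exact hν0
  have hP1 := map_refl_eq Q W w₁ h1 (hXW _ w₁.2)
  have hP2 := map_refl_eq Q W w₂ h2 (hXW _ w₂.2)
  obtain ⟨t, ht, htg⟩ := exists_correction Q hQ hex hcard
    (fun t => W.map (Matrix.mulVecLin ((t : Matrix.GeneralLinearGroup (Fin n) F) : Matrix (Fin n) (Fin n) F)) = W)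
    (by simp) (fun a b ha hb => map_mul_eq Q W W W a b hb ha) (refl Q w₁ h1) (refl Q w₁ h1 * refl Q w₂ h2)
    hP1 (map_mul_eq Q W W W _ _ hP2 hP1)
    (fun h2 => by rw [spin_refl])
    (fun h2 => by
      rw [map_mul, spin_refl, spin_refl, hw₁', hw₂', (sqs_eq_one_iff _).2 ⟨1, by simp⟩]
      have : sqs ν = -1 := if_neg (hν h2)
      rw [this]; rfl)
    (fun h2 => by
      have : CharP F 2 := CharTwo.of_one_ne_zero_of_two_eq_zero one_ne_zero h2
      exact refl_not_mem_Omega_two Q hQ _ h1) g₀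
  exact ⟨t * g₀, htg, map_mul_eq Q U W W t g₀ hmap ht⟩

end Cfsg.Agent.S2632
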