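import Cfsg.Statements.S2633
import Cfsg.Agent.Lib.Helper15.Correct

set_option autoImplicit false
open Cfsg

namespace Cfsg.Agent.S2633


open Cfsg.Agent.Lib.Helper15 QuadraticMap Module in
theorem map_eq_of_le {ι : Type} [Fintype ι] [DecidableEq ι] {F : Type*} [Field F] (Q : QuadraticForm F (ι → F))
    (W : Submodule F (ι → F)) (t : Cfsg.isometryGroup F ⇑Q) (h : ∀ x ∈ W, act Q t x ∈ W) :
    W.map (Matrix.mulVecLin ((t : Matrix.GeneralLinearGroup ι F) : Matrix ι ι F)) = W := by
  apply Submodule.eq_of_le_of_finrank_le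
  · rw [Submodule.map_le_iff_le_comap]
    intro x hx
    exact h x hx
  · have hinj : Function.Injective (Matrix.mulVecLin ((t : Matrix.GeneralLinearGroup ι F) : Matrix ι ι F)) := by
      intro x y hxy
      have : act Q t x = act Q t y := hxy
      rw [← act_inv_act t x, this, act_inv_act]
    exact (LinearEquiv.finrank_eq (Submodule.equivMapOfInjective _ hinj W)).le

open Cfsg.Agent.Lib.Helper15 QuadraticMap Module


/-- Ω is transitive on totally singular subspaces of each dimension less than half the dimension: for a quadratic form Q on F^n with non-degenerate polar form (F finite; excluding dimension 4 over the field of two elements), if U and W are subspaces of the same dimension k with 2k < n on which Q vanishes, then some element of Ω (the commutator subgroup of the orthogonal group) carries U to W. -/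
theorem result {F : Type*} [Field F] [Fintype F] {n : ℕ} (h : Fintype.card F ≠ 2 ∨ n ≠ 4) (Q : QuadraticForm F (Fin n → F)) (hQ : (QuadraticMap.polarBilin Q).Nondegenerate) (U W : Submodule F (Fin n → F)) {k : ℕ} (hk : 2 * k < n) (hU : Module.finrank F U = k) (hW : Module.finrank F W = k) (hU0 : ∀ u ∈ U, Q u = 0) (hW0 : ∀ w ∈ W, Q w = 0) : ∃ g : ↥(Cfsg.isometryGroup F ⇑Q), g ∈ Cfsg.Omega F ⇑Q ∧ U.map (Matrix.mulVecLin ((g : Matrix.GeneralLinearGroup (Fin n) F) : Matrix (Fin n) (Fin n) F)) = W := by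
  classical
  by_cases hk0 : k = 0
  · subst hk0
    rw [Submodule.finrank_eq_zero] at hU hW
    subst hU hW
    exact ⟨1, Subgroup.one_mem _, by simp⟩
  have hex : Fintype.card F ≠ 2 ∨ Fintype.card (Fin n) ≠ 4 := by simpa using h
  have hcard : 2 ≤ Fintype.card (Fin n) := by simp; omega
  let e : U ≃ₗ[F] W := LinearEquiv.ofFinrankEq U W (hU.trans hW.symm)
  obtain ⟨g, hg1, hg2⟩ := Cfsg.Agent.S0750.result Q hQ U W e (fun u => by rw [hU0 _ u.2, hW0 _ (e u).2])
  set g₀ := ofIsometry Q g hg1 with hg₀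
  have hmap : U.map (Matrix.mulVecLin ((g₀ : Matrix.GeneralLinearGroup (Fin n) F) : Matrix (Fin n) (Fin n) F)) = W := by
    apply le_antisymm
    · rw [Submodule.map_le_iff_le_comap]
      intro x hx
      show act Q g₀ x ∈ W
      rw [hg₀, act_ofIsometry, hg2 ⟨x, hx⟩]
      exact (e ⟨x, hx⟩).2
    · intro w hw
      refine ⟨(e.symm ⟨w, hw⟩ : Fin n → F), (e.symm ⟨w, hw⟩).2, ?_⟩
      show act Q g₀ _ = w
      rw [hg₀, act_ofIsometry, hg2, LinearEquiv.apply_symm_apply]
  have hWp : ∀ x ∈ W, ∀ y ∈ W, polar Q x y = 0 := by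
    intro x hx y hy
    unfold polar
    rw [hW0 _ (W.add_mem hx hy), hW0 x hx, hW0 y hy]; simp
  set W' := LinearMap.BilinForm.orthogonal (polarBilin Q) W with hW'
  have hfr : finrank F W' = n - k := by
    rw [hW', LinearMap.BilinForm.finrank_orthogonal hQ, hW, finrank_fintype_fun_eq_card, Fintype.card_fin]
  obtain ⟨w, hwW, hw⟩ : ∃ w ∈ W', Q w ≠ 0 := by
    by_contra hcon
    push Not at hcon
    have := isotropic_half Q (nd_of_nondegenerate hQ) W' (by
      intro x hx y hy
      unfold polar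
      rw [hcon _ (W'.add_mem hx hy), hcon x hx, hcon y hy]; simp)
    rw [hfr, finrank_fintype_fun_eq_card, Fintype.card_fin] at this
    omega
  have hWne : W ≠ ⊥ := by
    intro hb
    rw [hb, finrank_bot] at hW
    exact hk0 hW.symm
  obtain ⟨e₁, he₁W, he₁⟩ := Submodule.exists_mem_ne_zero_of_ne_bot hWne
  obtain ⟨f₁, hf₁, hef⟩ := exists_hyp_partner Q (nd_of_nondegenerate hQ) e₁ he₁ (hW0 _ he₁W)
  obtain ⟨ν, hν0, hν⟩ : ∃ ν : F, ν ≠ 0 ∧ ((2 : F) ≠ 0 → ¬ IsSquare ν) := by
    by_cases h2 : (2 : F) = 0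
    · exact ⟨1, one_ne_zero, fun h => absurd h2 h⟩
    · obtain ⟨ν, hν⟩ := exists_nonsquare' h2
      refine ⟨ν, ?_, fun _ => hν⟩
      rintro rfl
      exact hν ⟨0, by simp⟩
  have hq1 := Q_hyp_sub Q e₁ f₁ (hW0 _ he₁W) hf₁ hef
  have hq2 := Q_hyp_sub_smul Q e₁ f₁ (hW0 _ he₁W) hf₁ hef ν
  have h1 : Q (e₁ - f₁) ≠ 0 := by rw [hq1]; simp
  have h2 : Q (e₁ - ν • f₁) ≠ 0 := by rw [hq2]; simpa using hν0
  have hP1 := map_refl_eq Q W w hw (Or.inr fun x hx => by rw [polar_comm]; exact hwW x hx)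
  have hP2 : W.map (Matrix.mulVecLin (((refl Q (e₁ - f₁) h1 * refl Q (e₁ - ν • f₁) h2 : Cfsg.isometryGroup F ⇑Q) :
      Matrix.GeneralLinearGroup (Fin n) F) : Matrix (Fin n) (Fin n) F)) = W := by
    apply map_eq_of_le
    intro x hx
    rw [act_dil Q e₁ f₁ (hW0 _ he₁W) hf₁ hef ν hν0, hWp e₁ he₁W x hx]
    simp only [mul_zero, zero_smul, add_zero]
    exact W.add_mem hx (W.smul_mem _ he₁W)
  obtain ⟨t, ht, htg⟩ := exists_correction Q hQ hex hcard
    (fun t => W.map (Matrix.mulVecLin ((t : Matrix.GeneralLinearGroup (Fin n) F) : Matrix (Fin n) (Fin n) F)) = W)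
    (by simp) (fun a b ha hb => map_mul_eq Q W W W a b hb ha) (refl Q w hw)
    (refl Q (e₁ - f₁) h1 * refl Q (e₁ - ν • f₁) h2) hP1 hP2
    (fun h2 => by rw [spin_refl])
    (fun h2 => by
      rw [map_mul, spin_refl, spin_refl, hq1, hq2]
      have : sqs (-1 : F) * sqs (-ν) = -1 := by
        rw [← sqs_mul h2 (by simp) (by simpa using hν0)]
        have e1 : (-1 : F) * -ν = ν := by ring
        rw [e1]
        exact if_neg (hν h2)
      apply Prod.ext
      · rfl
      · exact this)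
    (fun h2 => by
      have : CharP F 2 := CharTwo.of_one_ne_zero_of_two_eq_zero one_ne_zero h2
      exact refl_not_mem_Omega_two Q hQ _ hw) g₀
  exact ⟨t * g₀, htg, map_mul_eq Q U W W t g₀ hmap ht⟩

end Cfsg.Agent.S2633
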