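import Cfsg.Statements.S2634
import Cfsg.Agent.Lib.Helper15.Omega2

set_option autoImplicit false
open Cfsg

namespace Cfsg.Agent.S2634



/-- Over a finite field of characteristic two, Ω (the commutator subgroup of the orthogonal group of a quadratic form Q on F^n with non-degenerate polar form; excluding dimension 4 over the field of two elements) acts transitively on the non-singular 1-spaces: for u, v with Q(u) ≠ 0 and Q(v) ≠ 0 some element of Ω carries the line through u to the line through v. -/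
theorem result {F : Type*} [Field F] [Fintype F] [CharP F 2] {n : ℕ} (h : Fintype.card F ≠ 2 ∨ n ≠ 4) (Q : QuadraticForm F (Fin n → F)) (hQ : (QuadraticMap.polarBilin Q).Nondegenerate) (u v : Fin n → F) (hu : Q u ≠ 0) (hv : Q v ≠ 0) : ∃ g : ↥(Cfsg.isometryGroup F ⇑Q), g ∈ Cfsg.Omega F ⇑Q ∧ (F ∙ ((g : Matrix.GeneralLinearGroup (Fin n) F) : Matrix (Fin n) (Fin n) F).mulVec u) = F ∙ v := by
  classical
  have hex : Fintype.card F ≠ 2 ∨ Fintype.card (Fin n) ≠ 4 := by simpa using h
  obtain ⟨r, hr⟩ := FiniteField.isSquare_of_char_two (ringChar.eq F 2) (Q u / Q v)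
  have hr0 : r ≠ 0 := by
    rintro rfl
    rw [mul_zero, div_eq_zero_iff] at hr
    exact hr.elim hu hv
  have hQr : Q u = Q (r • v) := by
    rw [QuadraticMap.map_smul, smul_eq_mul, ← hr]
    field_simp
  obtain ⟨g, hg⟩ := Cfsg.Agent.Lib.Helper15.exists_act_eq Q hQ u (r • v) hu hQr
  have hspan : (F ∙ (r • v)) = F ∙ v := Submodule.span_singleton_smul_eq hr0.isUnit v
  by_cases hgΩ : g ∈ Cfsg.Omega F ⇑Q
  · exact ⟨g, hgΩ, by
      have : ((g : Matrix.GeneralLinearGroup (Fin n) F) : Matrix (Fin n) (Fin n) F).mulVec u = r • v := hg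
      rw [this, hspan]⟩
  · refine ⟨Cfsg.Agent.Lib.Helper15.refl Q v hv * g, Cfsg.Agent.Lib.Helper15.mul_mem_Omega_two Q hQ hex
      (Cfsg.Agent.Lib.Helper15.refl_not_mem_Omega_two Q hQ v hv) hgΩ, ?_⟩
    have : (((Cfsg.Agent.Lib.Helper15.refl Q v hv * g : ↥(Cfsg.isometryGroup F ⇑Q)) :
        Matrix.GeneralLinearGroup (Fin n) F) : Matrix (Fin n) (Fin n) F).mulVec u = r • v := by
      have e := Cfsg.Agent.Lib.Helper15.act_mul (Cfsg.Agent.Lib.Helper15.refl Q v hv) g u
      rw [hg, Cfsg.Agent.Lib.Helper15.act_refl, QuadraticMap.polar_smul_right,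
        Cfsg.Agent.Lib.Helper15.polar_self_two] at e
      simp only [smul_zero, mul_zero, zero_smul, sub_zero] at e
      exact e
    rw [this, hspan]

end Cfsg.Agent.S2634
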