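import Mathlib
import Cfsg.Statements.S2636
-- import your own Cfsg.Agent.* helpers here

set_option autoImplicit false
open Cfsg

namespace Cfsg.Agent.S2636

/-- Centraliser of a field automorphism in PGL_n: let F be the field with q = q₀^r elements, σ a field automorphism of F of prime order r (so its fixed field has q₀ elements) and n ≥ 1. The invertible matrices g whose entrywise image under σ is a scalar multiple of g — those whose coset modulo scalars is fixed by σ — number (q − 1)/(q₀ − 1) · |GL_n(q₀)|; equivalently the centraliser in PGL_n(q) of the induced automorphism has the order of PGL_n(q₀). -/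
theorem result {F : Type*} [Field F] [Fintype F] {q₀ r n : ℕ} (hr : r.Prime) (hn : 1 ≤ n) (hF : Fintype.card F = q₀ ^ r) (σ : F ≃+* F) (hσ : orderOf σ = r) : Nat.card {g : GL (Fin n) F // ∃ c : F, c ≠ 0 ∧ (g : Matrix (Fin n) (Fin n) F).map σ = c • (g : Matrix (Fin n) (Fin n) F)} = (q₀ ^ r - 1) / (q₀ - 1) * ∏ i : Fin n, (q₀ ^ n - q₀ ^ (i : ℕ)) := by
  classical
  have hr0 : r ≠ 0 := hr.ne_zero
  haveI : Nonempty (Fin n) := ⟨⟨0, by omega⟩⟩
  haveI : Finite (F ≃+* F) :=
    Finite.of_injective (fun e : F ≃+* F => (e : F → F)) DFunLike.coe_injective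
  let G₀ : Subgroup (F ≃+* F) := Subgroup.zpowers σ
  haveI : Fintype G₀ := Fintype.ofFinite _
  let F₀ : Subfield F := FixedPoints.subfield G₀ F
  have hmemF₀ : ∀ x : F, x ∈ F₀ ↔ σ x = x := by
    intro x
    constructor
    · intro h
      exact h ⟨σ, Subgroup.mem_zpowers σ⟩
    · intro h g
      have h1 : G₀ ≤ MulAction.stabilizer (F ≃+* F) x := by
        rw [Subgroup.zpowers_le]
        exact h
      exact h1 g.2
  have hfr : Module.finrank F₀ F = r := by
    rw [FixedPoints.finrank_eq_card G₀ F, ← Nat.card_eq_fintype_card, Nat.card_zpowers, hσ]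
  have hcardF₀ : Nat.card F₀ = q₀ := by
    have h1 : Nat.card F = Nat.card F₀ ^ r := by
      rw [← hfr]; exact Module.natCard_eq_pow_finrank
    rw [Nat.card_eq_fintype_card, hF] at h1
    exact (Nat.pow_left_injective (n := r) hr0 h1).symm
  haveI : Fintype F₀ := Fintype.ofFinite _
  have hcardGL : Nat.card (GL (Fin n) F₀) = ∏ i : Fin n, (q₀ ^ n - q₀ ^ (i : ℕ)) := by
    rw [Matrix.card_GL_field, ← Nat.card_eq_fintype_card, hcardF₀]
  let ι : GL (Fin n) F₀ →* GL (Fin n) F := Matrix.GeneralLinearGroup.map (algebraMap F₀ F)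
  let s : Fˣ →* GL (Fin n) F := Matrix.GeneralLinearGroup.scalar (Fin n)
  let Ψ : Fˣ × GL (Fin n) F₀ →* GL (Fin n) F :=
    MonoidHom.noncommCoprod s ι (fun u A => Matrix.GeneralLinearGroup.scalar_commute u (ι A))
  have hΨ : ∀ (b : Fˣ) (h : GL (Fin n) F₀) (i j : Fin n),
      (Ψ (b, h) : Matrix (Fin n) (Fin n) F) i j = (b : F) * ((h : Matrix (Fin n) (Fin n) F₀) i j : F) := by
    intro b h i j
    show ((s b * ι h : GL (Fin n) F) : Matrix (Fin n) (Fin n) F) i j = _
    rw [Units.val_mul, Matrix.GeneralLinearGroup.coe_scalar, Matrix.scalar_apply,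
      Matrix.diagonal_mul]
    rfl
  -- the set is the range of Ψ
  have hset : ∀ g : GL (Fin n) F, (∃ c : F, c ≠ 0 ∧ (g : Matrix (Fin n) (Fin n) F).map σ =
      c • (g : Matrix (Fin n) (Fin n) F)) ↔ g ∈ Ψ.range := by
    intro g
    constructor
    · rintro ⟨c, hc, hg⟩
      obtain ⟨i₀, j₀, he⟩ : ∃ i₀ j₀, (g : Matrix (Fin n) (Fin n) F) i₀ j₀ ≠ 0 := by
        by_contra hcon
        push Not at hcon
        apply Units.ne_zero g
        ext i j
        exact hcon i j
      obtain ⟨e, hee⟩ : ∃ e, e = (g : Matrix (Fin n) (Fin n) F) i₀ j₀ := ⟨_, rfl⟩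
      rw [← hee] at he
      have hgij : ∀ i j, σ ((g : Matrix (Fin n) (Fin n) F) i j) = c * (g : Matrix (Fin n) (Fin n) F) i j := by
        intro i j
        have := congrFun (congrFun hg i) j
        rwa [Matrix.map_apply, Matrix.smul_apply, smul_eq_mul] at this
      have hσe : σ e = c * e := by rw [hee]; exact hgij i₀ j₀
      have hfix : ∀ i j, e⁻¹ * (g : Matrix (Fin n) (Fin n) F) i j ∈ F₀ := by
        intro i j
        rw [hmemF₀, map_mul, map_inv₀, hσe, hgij]
        field_simp
      let h₀ : Matrix (Fin n) (Fin n) F₀ := fun i j => ⟨e⁻¹ * (g : Matrix (Fin n) (Fin n) F) i j, hfix i j⟩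
      have hmap : (algebraMap F₀ F).mapMatrix h₀ = e⁻¹ • (g : Matrix (Fin n) (Fin n) F) := by
        ext i j
        rfl
      have hdet : h₀.det ≠ 0 := by
        intro h0
        have h1 := RingHom.map_det (algebraMap F₀ F) h₀
        rw [h0, map_zero, hmap, Matrix.det_smul] at h1
        have h2 : (g : Matrix (Fin n) (Fin n) F).det ≠ 0 := by
          have := (Matrix.isUnit_iff_isUnit_det _).1 g.isUnit
          exact this.ne_zero
        exact (mul_ne_zero (pow_ne_zero _ (inv_ne_zero he)) h2) h1.symm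
      refine ⟨(Units.mk0 e he, Matrix.GeneralLinearGroup.mkOfDetNeZero h₀ hdet), ?_⟩
      apply Units.ext
      ext i j
      rw [hΨ]
      show e * (e⁻¹ * (g : Matrix (Fin n) (Fin n) F) i j) = _
      rw [← mul_assoc, mul_inv_cancel₀ he, one_mul]
    · rintro ⟨⟨b, h⟩, rfl⟩
      refine ⟨σ b / b, div_ne_zero ((map_ne_zero σ).2 b.ne_zero) b.ne_zero, ?_⟩
      ext i j
      rw [Matrix.map_apply, Matrix.smul_apply, hΨ, map_mul, (hmemF₀ _).1 (h.val i j).2, smul_eq_mul]
      field_simp
  have hker : Nat.card Ψ.ker = q₀ - 1 := by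
    have hin : ∀ a : F₀ˣ, ((Units.map (algebraMap F₀ F : F₀ →* F) a)⁻¹,
        Matrix.GeneralLinearGroup.scalar (Fin n) a) ∈ Ψ.ker := by
      intro a
      rw [MonoidHom.mem_ker]
      apply Units.ext
      ext i j
      rw [hΨ, Matrix.GeneralLinearGroup.coe_scalar, Matrix.scalar_apply, Matrix.diagonal_apply,
        Units.val_one, Matrix.one_apply]
      by_cases hij : i = j
      · rw [if_pos hij, if_pos hij]
        have : ((Units.map (algebraMap F₀ F : F₀ →* F) a)⁻¹ : Fˣ) * (Units.map (algebraMap F₀ F : F₀ →* F) a) = 1 :=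
          inv_mul_cancel _
        exact congrArg Units.val this
      · rw [if_neg hij, if_neg hij]; simp
    have hbij : Function.Bijective (fun a : F₀ˣ => (⟨_, hin a⟩ : Ψ.ker)) := by
      constructor
      · intro a a' haa
        have h1 := congrArg (fun x : Ψ.ker => x.1.1) haa
        simp only [inv_inj] at h1
        have h2 := congrArg Units.val h1
        apply Units.ext
        exact Subtype.ext h2
      · rintro ⟨⟨b, h⟩, hbh⟩
        rw [MonoidHom.mem_ker] at hbh
        have hent : ∀ i j, (b : F) * ((h : Matrix (Fin n) (Fin n) F₀) i j : F) = if i = j then 1 else 0 := by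
          intro i j
          rw [← hΨ, hbh, Units.val_one, Matrix.one_apply]
        let i₀ : Fin n := ⟨0, by omega⟩
        have ha : (b : F) * ((h : Matrix (Fin n) (Fin n) F₀) i₀ i₀ : F) = 1 := by
          rw [hent, if_pos rfl]
        have ha0 : (h : Matrix (Fin n) (Fin n) F₀) i₀ i₀ ≠ 0 := by
          intro h0
          rw [h0] at ha
          simp at ha
        refine ⟨Units.mk0 _ ha0, ?_⟩
        apply Subtype.ext
        apply Prod.ext
        · show (Units.map (algebraMap F₀ F : F₀ →* F) (Units.mk0 _ ha0))⁻¹ = b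
          rw [inv_eq_iff_mul_eq_one]
          apply Units.ext
          rw [mul_comm]
          exact ha
        · show Matrix.GeneralLinearGroup.scalar (Fin n) (Units.mk0 _ ha0) = h
          apply Units.ext
          ext i j
          rw [Matrix.GeneralLinearGroup.coe_scalar, Matrix.scalar_apply, Matrix.diagonal_apply]
          have hb := b.ne_zero
          by_cases hij : i = j
          · subst hij
            rw [if_pos rfl]
            have h1 := hent i i
            rw [if_pos rfl] at h1
            show ((h : Matrix (Fin n) (Fin n) F₀) i₀ i₀ : F) = _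
            exact mul_left_cancel₀ hb (ha.trans h1.symm)
          · rw [if_neg hij]
            have h1 := hent i j
            rw [if_neg hij] at h1
            have h2 := (mul_eq_zero.1 h1).resolve_left hb
            rw [h2]; rfl
    rw [← Nat.card_congr (Equiv.ofBijective _ hbij), Nat.card_eq_fintype_card, Fintype.card_units,
      ← Nat.card_eq_fintype_card, hcardF₀]
  have hcount : Nat.card Ψ.ker * Nat.card Ψ.range = (q₀ ^ r - 1) * ∏ i : Fin n, (q₀ ^ n - q₀ ^ (i : ℕ)) := by
    rw [← Subgroup.index_ker, Subgroup.card_mul_index, Nat.card_prod, hcardGL, Nat.card_eq_fintype_card,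
      Fintype.card_units, hF]
  have hX : Nat.card {g : GL (Fin n) F // ∃ c : F, c ≠ 0 ∧ (g : Matrix (Fin n) (Fin n) F).map σ =
      c • (g : Matrix (Fin n) (Fin n) F)} = Nat.card Ψ.range :=
    Nat.card_congr (Equiv.subtypeEquivRight hset)
  rw [hX]
  rw [hker] at hcount
  have hq₀ : 2 ≤ q₀ := by
    rw [← hcardF₀]; exact Finite.one_lt_card
  have hdvd : q₀ - 1 ∣ q₀ ^ r - 1 := by
    simpa using Nat.sub_dvd_pow_sub_pow q₀ 1 r
  obtain ⟨m, hm⟩ := hdvd
  rw [hm, Nat.mul_div_cancel_left _ (by omega : 0 < q₀ - 1)]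
  rw [hm, mul_assoc] at hcount
  exact Nat.eq_of_mul_eq_mul_left (by omega : 0 < q₀ - 1) hcount

end Cfsg.Agent.S2636
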