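import Mathlib
import Cfsg.Statements.S2638
-- import your own Cfsg.Agent.* helpers here

set_option autoImplicit false
open Cfsg

namespace Cfsg.Agent.S2638

/-- If an element x of GL_n(q), n ≥ 1, has prime order r and the multiplicative order of q modulo r is n (r is a primitive prime divisor of q^n − 1, so x acts irreducibly), then the centraliser of x in GL_n(q) is cyclic of order q^n − 1 (the multiplicative group of the field with q^n elements, a Singer cycle). -/
theorem result {F : Type*} [Field F] [Fintype F] {p q : ℕ} [Fact p.Prime] [CharP F p] (hF : Fintype.card F = q) {n r : ℕ} (hn : 1 ≤ n) (hr : r.Prime) (hrp : r ≠ p) (hi : orderOf (q : ZMod r) = n) (x : GL (Fin n) F) (hx : orderOf x = r) : IsCyclic ↥(Subgroup.centralizer ({x} : Set (GL (Fin n) F))) ∧ Nat.card ↥(Subgroup.centralizer ({x} : Set (GL (Fin n) F))) = q ^ n - 1 := by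
  classical
  haveI : Fact r.Prime := ⟨hr⟩
  haveI : Nonempty (Fin n) := ⟨⟨0, by omega⟩⟩
  obtain ⟨X, hXdef⟩ : ∃ X : Matrix (Fin n) (Fin n) F, X = x.val := ⟨_, rfl⟩
  have hXr : X ^ r = 1 := by
    have h1 := pow_orderOf_eq_one x
    rw [hx] at h1
    have h2 := congrArg Units.val h1
    rw [Units.val_pow_eq_pow_val, Units.val_one, ← hXdef] at h2
    exact h2
  have hX1 : X ≠ 1 := by
    intro h
    have h1 : x = 1 := Units.ext (by rw [← hXdef, h]; rfl)
    rw [h1, orderOf_one] at hx
    exact hr.one_lt.ne hx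
  have hq2 : 2 ≤ q := by
    rw [← hF]; exact Fintype.one_lt_card
  have hqn : ∀ d : ℕ, q ^ d ≡ 1 [MOD r] → n ∣ d := by
    intro d hd
    rw [← hi]
    apply orderOf_dvd_of_pow_eq_one
    have h1 := (ZMod.natCast_eq_natCast_iff _ _ _).2 hd
    push_cast at h1
    exact h1
  have hqn1 : q ^ n ≡ 1 [MOD r] := by
    apply (ZMod.natCast_eq_natCast_iff _ _ _).1
    push_cast
    rw [← hi]
    exact pow_orderOf_eq_one _
  have hcardW : ∀ W : Submodule F (Fin n → F), Nat.card W = q ^ Module.finrank F W := by
    intro W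
    rw [Module.natCard_eq_pow_finrank (K := F), Nat.card_eq_fintype_card, hF]
  have key : ∀ W : Submodule F (Fin n → F), (∀ w ∈ W, X.mulVec w ∈ W) →
      Nat.card W ≡ Nat.card (W ⊓ LinearMap.ker (Matrix.mulVecLin X - 1) :
        Submodule F (Fin n → F)) [MOD r] := by
    intro W hW
    let f : Function.End W := fun w => ⟨X.mulVec w.1, hW _ w.2⟩
    have hfk : ∀ k : ℕ, ∀ w : W, ((f ^ k) w : Fin n → F) = (X ^ k).mulVec w.1 := by
      intro k
      induction k with
      | zero => intro w; rw [pow_zero, pow_zero, Matrix.one_mulVec]; rfl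
      | succ k ih =>
        intro w
        rw [pow_succ', pow_succ']
        show X.mulVec ((f ^ k) w : Fin n → F) = _
        rw [ih, Matrix.mulVec_mulVec]
    have hf : f ^ r ^ 1 = 1 := by
      rw [pow_one]
      funext w
      apply Subtype.ext
      rw [hfk, hXr, Matrix.one_mulVec]
      rfl
    have h1 := Equiv.Perm.card_fixedPoints_modEq hf
    rw [← Nat.card_eq_fintype_card, ← Nat.card_eq_fintype_card] at h1
    refine h1.trans ?_
    have h2 : Nat.card (Function.fixedPoints f) = Nat.card (W ⊓ LinearMap.ker (Matrix.mulVecLin X - 1) :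
        Submodule F (Fin n → F)) := by
      refine Nat.card_congr ⟨fun w => ⟨w.1.1, ⟨w.1.2, ?_⟩⟩, fun v => ⟨⟨v.1, v.2.1⟩, ?_⟩, ?_, ?_⟩
      · have h3 : f w.1 = w.1 := w.2
        have h4 : X.mulVec w.1.1 = w.1.1 := congrArg Subtype.val h3
        show w.1.1 ∈ LinearMap.ker (Matrix.mulVecLin X - 1)
        rw [LinearMap.mem_ker, LinearMap.sub_apply, Matrix.mulVecLin_apply, h4]
        simp
      · have h3 : v.1 ∈ LinearMap.ker (Matrix.mulVecLin X - 1) := v.2.2
        rw [LinearMap.mem_ker, LinearMap.sub_apply, Matrix.mulVecLin_apply, sub_eq_zero] at h3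
        show f ⟨v.1, v.2.1⟩ = ⟨v.1, v.2.1⟩
        apply Subtype.ext
        exact h3
      · intro w; rfl
      · intro v; rfl
    rw [h2]
  have hfrV : Module.finrank F (Fin n → F) = n := by simp
  -- no fixed vectors
  have hK : LinearMap.ker (Matrix.mulVecLin X - 1) = ⊥ := by
    have h1 := key ⊤ (fun _ _ => Submodule.mem_top)
    rw [top_inf_eq, hcardW, hcardW, finrank_top, hfrV] at h1
    have h2 := hqn _ (h1.symm.trans hqn1)
    have h3 : Module.finrank F (LinearMap.ker (Matrix.mulVecLin X - 1)) ≤ n :=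
      (Submodule.finrank_le _).trans hfrV.le
    rcases Nat.eq_zero_or_pos (Module.finrank F (LinearMap.ker (Matrix.mulVecLin X - 1))) with h4 | h4
    · exact Submodule.finrank_eq_zero.1 h4
    · exfalso
      have h5 : Module.finrank F (LinearMap.ker (Matrix.mulVecLin X - 1)) = n :=
        le_antisymm h3 (Nat.le_of_dvd h4 h2)
      have h6 : LinearMap.ker (Matrix.mulVecLin X - 1) = ⊤ :=
        Submodule.eq_top_of_finrank_eq (by rw [h5, hfrV])
      apply hX1
      rw [LinearMap.ker_eq_top, sub_eq_zero] at h6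
      rw [Matrix.ext_iff_mulVec]
      intro v
      rw [← Matrix.mulVecLin_apply, h6, Matrix.one_mulVec]
      rfl
  have hirr : ∀ W : Submodule F (Fin n → F), (∀ w ∈ W, X.mulVec w ∈ W) → W = ⊥ ∨ W = ⊤ := by
    intro W hW
    have h1 := key W hW
    rw [hK, inf_bot_eq, hcardW, hcardW, finrank_bot, pow_zero] at h1
    have h2 := hqn _ h1
    have h3 : Module.finrank F W ≤ n := (Submodule.finrank_le _).trans hfrV.le
    rcases Nat.eq_zero_or_pos (Module.finrank F W) with h4 | h4
    · exact Or.inl (Submodule.finrank_eq_zero.1 h4)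
    · right
      have h5 : Module.finrank F W = n := le_antisymm h3 (Nat.le_of_dvd h4 h2)
      exact Submodule.eq_top_of_finrank_eq (by rw [h5, hfrV])
  -- the centraliser algebra
  obtain ⟨A, hAdef⟩ : ∃ A : Subalgebra F (Matrix (Fin n) (Fin n) F),
      A = Subalgebra.centralizer F {X} := ⟨_, rfl⟩
  have hmemA : ∀ a : Matrix (Fin n) (Fin n) F, a ∈ A ↔ X * a = a * X := by
    intro a
    rw [hAdef, Subalgebra.mem_centralizer_iff]
    simp
  have hinj : ∀ a : Matrix (Fin n) (Fin n) F, a ∈ A → a ≠ 0 → ∀ v, a.mulVec v = 0 → v = 0 := by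
    intro a ha ha0
    have h1 : ∀ w ∈ LinearMap.ker (Matrix.mulVecLin a), X.mulVec w ∈ LinearMap.ker (Matrix.mulVecLin a) := by
      intro w hw
      rw [LinearMap.mem_ker, Matrix.mulVecLin_apply] at hw ⊢
      rw [Matrix.mulVec_mulVec, ← (hmemA a).1 ha, ← Matrix.mulVec_mulVec, hw, Matrix.mulVec_zero]
    rcases hirr _ h1 with h2 | h2
    · exact Matrix.ker_mulVecLin_eq_bot_iff.1 h2
    · exfalso
      apply ha0
      rw [Matrix.ext_iff_mulVec]
      intro v
      have h3 : v ∈ LinearMap.ker (Matrix.mulVecLin a) := by rw [h2]; exact Submodule.mem_top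
      rw [LinearMap.mem_ker, Matrix.mulVecLin_apply] at h3
      rw [h3, Matrix.zero_mulVec]
  haveI : Nontrivial A := ⟨⟨1, 0, fun h => one_ne_zero (congrArg Subtype.val h)⟩⟩
  haveI : NoZeroDivisors A := by
    constructor
    intro a b hab
    by_cases ha : a = 0
    · exact Or.inl ha
    · right
      have ha' : a.1 ≠ 0 := fun h => ha (Subtype.ext h)
      apply Subtype.ext
      show b.1 = 0
      rw [Matrix.ext_iff_mulVec]
      intro v
      rw [Matrix.zero_mulVec]
      apply hinj a.1 a.2 ha'
      have h1 : a.1 * b.1 = 0 := congrArg Subtype.val hab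
      rw [Matrix.mulVec_mulVec, h1, Matrix.zero_mulVec]
  haveI : IsDomain A := NoZeroDivisors.to_isDomain A
  have hfield : IsField A := Finite.isDomain_to_isField A
  have hmemC : ∀ g : GL (Fin n) F, g ∈ Subgroup.centralizer ({x} : Set (GL (Fin n) F)) ↔ g.val ∈ A := by
    intro g
    rw [Subgroup.mem_centralizer_iff, hmemA, hXdef]
    constructor
    · intro h
      have := h x rfl
      exact congrArg Units.val this
    · intro h y hy
      rw [Set.mem_singleton_iff] at hy
      rw [hy]
      exact Units.ext h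
  let φ : ↥(Subgroup.centralizer ({x} : Set (GL (Fin n) F))) → {a : A // a ≠ 0} :=
    fun g => ⟨⟨g.1.val, (hmemC g.1).1 g.2⟩, fun h => g.1.ne_zero (congrArg Subtype.val h)⟩
  have hφ : Function.Bijective φ := by
    constructor
    · intro g g' h
      apply Subtype.ext
      apply Units.ext
      exact congrArg (fun a : {a : A // a ≠ 0} => a.1.1) h
    · rintro ⟨a, ha⟩
      have ha' : a.1 ≠ 0 := fun h => ha (Subtype.ext h)
      have h1 : Function.Injective a.1.mulVec := by
        intro v w hvw
        have := hinj a.1 a.2 ha' (v - w) (by rw [Matrix.mulVec_sub, hvw, sub_self])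
        exact sub_eq_zero.1 this
      have h2 : IsUnit a.1 := Matrix.mulVec_injective_iff_isUnit.1 h1
      obtain ⟨u, hu⟩ := h2
      refine ⟨⟨u, (hmemC u).2 (by rw [hu]; exact a.2)⟩, ?_⟩
      apply Subtype.ext
      apply Subtype.ext
      exact hu
  have hcardA : Nat.card A = q ^ Module.finrank F A := by
    rw [Module.natCard_eq_pow_finrank (K := F), Nat.card_eq_fintype_card, hF]
  have hcardC : Nat.card ↥(Subgroup.centralizer ({x} : Set (GL (Fin n) F))) = q ^ Module.finrank F A - 1 := by
    rw [Nat.card_congr (Equiv.ofBijective φ hφ), ← hcardA, Nat.card_eq_fintype_card,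
      Fintype.card_subtype_compl, Fintype.card_subtype_eq, Nat.card_eq_fintype_card]
  have hm : Module.finrank F A = n := by
    have h1 : 0 < Nat.card ↥(Subgroup.centralizer ({x} : Set (GL (Fin n) F))) := Nat.card_pos
    have hm0 : 0 < Module.finrank F A := by
      rcases Nat.eq_zero_or_pos (Module.finrank F A) with h | h
      · rw [hcardC, h] at h1; simp at h1
      · exact h
    have h2 : r ∣ q ^ Module.finrank F A - 1 := by
      rw [← hcardC, ← hx]
      have hxC : x ∈ Subgroup.centralizer ({x} : Set (GL (Fin n) F)) := by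
        rw [Subgroup.mem_centralizer_iff]
        intro y hy
        rw [Set.mem_singleton_iff] at hy
        rw [hy]
      have h3 := orderOf_dvd_natCard (⟨x, hxC⟩ : ↥(Subgroup.centralizer ({x} : Set (GL (Fin n) F))))
      rwa [Subgroup.orderOf_mk] at h3
    have h3 : n ∣ Module.finrank F A := by
      apply hqn
      exact ((Nat.modEq_iff_dvd' (Nat.one_le_pow _ _ (by omega))).2 h2).symm
    have h4 : Module.finrank F A ≤ n := by
      let v₀ : Fin n → F := fun _ => 1
      have hv₀ : v₀ ≠ 0 := by
        intro h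
        have := congrFun h ⟨0, by omega⟩
        exact one_ne_zero this
      have h5 : Function.Injective (fun a : A => a.1.mulVec v₀) := by
        intro a b hab
        by_contra hne
        have h6 : (a - b).1 ≠ 0 := fun h => hne (sub_eq_zero.1 (Subtype.ext h))
        apply hv₀
        apply hinj _ (a - b).2 h6
        show (a.1 - b.1).mulVec v₀ = 0
        rw [Matrix.sub_mulVec]
        exact sub_eq_zero.2 hab
      have h6 := Nat.card_le_card_of_injective _ h5
      rw [hcardA, Module.natCard_eq_pow_finrank (K := F) (V := Fin n → F), hfrV,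
        Nat.card_eq_fintype_card, hF] at h6
      exact (Nat.pow_le_pow_iff_right (by omega)).1 h6
    exact le_antisymm h4 (Nat.le_of_dvd hm0 h3)
  refine ⟨?_, by rw [hcardC, hm]⟩
  letI : Field A := hfield.toField
  let f : ↥(Subgroup.centralizer ({x} : Set (GL (Fin n) F))) →* A :=
    { toFun := fun g => ⟨g.1.val, (hmemC g.1).1 g.2⟩
      map_one' := rfl
      map_mul' := fun _ _ => rfl }
  apply isCyclic_of_injective_ringHom f
  intro g g' h
  apply Subtype.ext
  apply Units.ext
  exact congrArg Subtype.val h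

end Cfsg.Agent.S2638
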