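import Mathlib
import Cfsg.Agent.Lib.Helper18.FieldEmb
import Cfsg.Agent.Lib.Helper18.StdForm
import Cfsg.Statements.S2639
-- import your own Cfsg.Agent.* helpers here

set_option autoImplicit false
open Cfsg Cfsg.Agent.Lib.Helper18 Matrix

namespace Cfsg.Agent.S2639

/-- The unitary group embeds in the symplectic group of twice the dimension over the subfield: for a field K with q² elements and a field F with q elements (isomorphic to the subfield of K of order q), there is an injective homomorphism GU_m(q) → Sp_2m(F). -/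
theorem result {K F : Type*} [Field K] [Fintype K] [Field F] [Fintype F] {q : ℕ} (hK : Fintype.card K = q ^ 2) (hF : Fintype.card F = q) (m : ℕ) : ∃ φ : ↥(Cfsg.GU m K q) →* ↥(Matrix.symplecticGroup (Fin m) F), Function.Injective φ := by
  classical
  obtain ⟨i⟩ := exists_ringHom_of_card_sq hF hK
  let _ : Algebra F K := i.toAlgebra
  obtain ⟨ε, hε0, hε⟩ := exists_skew hK
  have hsl : ∀ (c : F) (u v : Fin m → K), Cfsg.hermForm m K q (c • u) v
      = algebraMap F K c * Cfsg.hermForm m K q u v := by
    intro c u v
    rw [← algebraMap_smul K c u, herm_smul_left]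
  have hsr : ∀ (c : F) (u v : Fin m → K), Cfsg.hermForm m K q u (c • v)
      = algebraMap F K c * Cfsg.hermForm m K q u v := by
    intro c u v
    rw [← algebraMap_smul K c v, herm_smul_right, algMap_pow hF]
  let B := trBilin hF hK (Cfsg.hermForm m K q) herm_add_left (herm_add_right hK) hsl hsr ε
  have hB : ∀ u v, B u v = trF hF hK (ε * Cfsg.hermForm m K q u v) := fun u v => rfl
  let ρ : ↥(Cfsg.GU m K q) →* Module.End F (Fin m → K) :=
    (matRep (F := F) (Fin m)).comp ((Units.coeHom _).comp (Cfsg.GU m K q).subtype)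
  apply exists_hom_sp_of_rep B ?_ ?_ m ?_ ρ ?_ ?_
  · intro u
    rw [hB, trF_eq_zero_iff, mul_pow, herm_form_conj hK]
    linear_combination Cfsg.hermForm m K q u u * hε
  · intro u hu
    obtain ⟨k, hk⟩ := Function.ne_iff.mp hu
    obtain ⟨z0, hz0⟩ := exists_trF_eq_one hK
    refine ⟨Pi.single k ((z0 / (ε * u k)) ^ q), ?_⟩
    rw [hB, Ne, trF_eq_zero_iff]
    have h1 : Cfsg.hermForm m K q u (Pi.single k ((z0 / (ε * u k)) ^ q)) = u k * (z0 / (ε * u k)) := by
      unfold Cfsg.hermForm
      rw [Finset.sum_eq_single k]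
      · rw [Pi.single_eq_same, herm_pow_pow hK]
      · intro j _ hj
        rw [Pi.single_eq_of_ne hj, zero_pow (by have := herm_q_pos hK; omega), mul_zero]
      · simp
    have hk' : u k ≠ 0 := hk
    have h2 : ε * (u k * (z0 / (ε * u k))) = z0 := by
      field_simp
    rw [h1, h2, hz0]
    exact one_ne_zero
  · rw [card_fun_big hF hK, Fintype.card_fin]
  · intro g h hgh
    apply Subtype.ext
    apply Units.ext
    exact matRep_injective hgh
  · intro g u v
    rw [hB, hB]
    congr 2
    exact g.2 u v

end Cfsg.Agent.S2639
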