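import Mathlib
import Cfsg.Agent.Lib.Helper18.HermQuad
import Cfsg.Statements.S2641
-- import your own Cfsg.Agent.* helpers here

set_option autoImplicit false
open Cfsg Cfsg.Agent.Lib.Helper18 Matrix

namespace Cfsg.Agent.S2641

/-- For m odd, the unitary group GU_m(q) (over the field with q² elements) embeds in the orthogonal group O⁻_2m(q) of an elliptic form (Σ_(i<m−1) x_i y_i plus an anisotropic binary form) over the field with q elements (there is an injective homomorphism). -/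
theorem result {K F : Type*} [Field K] [Fintype K] [Field F] [Fintype F] {q : ℕ} (hK : Fintype.card K = q ^ 2) (hF : Fintype.card F = q) (m : ℕ) (hm : Odd m) (a b : F) (hab : ∀ z₁ z₂ : F, z₁ ^ 2 + a * z₁ * z₂ + b * z₂ ^ 2 = 0 → z₁ = 0 ∧ z₂ = 0) : ∃ φ : ↥(Cfsg.GU m K q) →* ↥(Cfsg.isometryGroup F (Cfsg.quadFormMinus (m - 1) F a b)), Function.Injective φ := by
  classical
  obtain ⟨i⟩ := exists_ringHom_of_card_sq hF hK
  let _ : Algebra F K := i.toAlgebra
  obtain ⟨θ, hθ⟩ := exists_trF_eq_one hK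
  obtain ⟨k, rfl⟩ : ∃ k, m = k + 1 := by
    obtain ⟨r, hr⟩ := hm
    exact ⟨2 * r, hr⟩
  obtain ⟨e, he⟩ := exists_minus_equiv a b hab (hermQ hF hK (k + 1) θ) k _ (by simp) (by simp)
    (hermQ_good_odd hF hK θ hθ k hm)
  exact exists_hom_iso_of_equiv (hermQ hF hK (k + 1) θ) _ e he (guRep (k + 1))
    (guRep_injective (k + 1)) (guRep_preserve hF hK (k + 1) θ)

end Cfsg.Agent.S2641
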