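import Cfsg.Statements.S2666
-- import your own Cfsg.Agent.* helpers here

set_option autoImplicit false
open Cfsg

namespace Cfsg.Agent.S2666

theorem pow_fixed {X : Type*} [Group X] (σ : MulAut X) (h : X) (hh : σ h = h) (e : ℕ) : (σ ^ e) h = h := by
  induction e with
  | zero => simp
  | succ n ih => rw [pow_succ, MulAut.mul_apply, hh, ih]

theorem norm_eq {X : Type*} [Group X] (σ : MulAut X) (a : X) (d : ℕ) :
    ((List.range d).map (fun i => (σ ^ i) (a * (σ a)⁻¹))).prod = a * ((σ ^ d) a)⁻¹ := by
  induction d with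
  | zero => simp
  | succ n ih =>
    rw [List.range_succ, List.map_append, List.prod_append, ih]
    simp only [List.map_cons, List.map_nil, List.prod_cons, List.prod_nil, mul_one, map_mul, map_inv]
    have : (σ ^ n) (σ a) = (σ ^ (n+1)) a := by
      rw [pow_succ, MulAut.mul_apply]
    rw [this]
    group

theorem comm_pow {X : Type*} [Group X] (σ : MulAut X) (e : ℕ) (a : X) : (σ ^ e) (σ a) = σ ((σ ^ e) a) := by
  rw [← MulAut.mul_apply, ← MulAut.mul_apply, ← pow_succ, ← pow_succ']

theorem x_fixed {X : Type*} [Group X] (σ : MulAut X) (e : ℕ) (a : X)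
    (hg : (σ ^ e) (a * (σ a)⁻¹) = a * (σ a)⁻¹) : σ (((σ ^ e) a)⁻¹ * a) = ((σ ^ e) a)⁻¹ * a := by
  simp only [map_mul, map_inv] at hg ⊢
  rw [comm_pow] at hg
  generalize σ ((σ ^ e) a) = c at *
  generalize (σ ^ e) a = b at *
  generalize σ a = a' at *
  have : c = a' * a⁻¹ * b := by
    have h2 := congrArg (fun z => a' * a⁻¹ * z * c) hg
    group at h2 ⊢
    exact h2.symm
  subst this
  group



/-- Shintani descent, in an abstract form. Let `σ` be an automorphism of a group `X` such that the maps `a ↦ a·σ(a)⁻¹` and `a ↦ a·σᵉ(a)⁻¹` are surjective on `X` (the Lang–Steinberg property, which holds when `X` is a connected algebraic group and `σ` a Steinberg endomorphism), where `e ≥ 1`. Write `G` for the subgroup of fixed points of `σᵉ` and `H` for the subgroup of fixed points of `σ`. The `G`-conjugacy classes in the coset `G σ` of the semidirect product of `G` by `σ` correspond to the orbits of `G` on itself under twisted conjugation `g ↦ k g σ(k)⁻¹`, and the `e`-th power of `g σ` has `G`-part the norm `g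 σ(g) ⋯ σ^(e-1)(g)`. For `g` in `G` and any `a` with `g = a σ(a)⁻¹`, put `x = σᵉ(a)⁻¹ a`. Then: (1) `x` lies in `H`, and `a⁻¹ · (g σ(g) ⋯ σ^(e-1)(g)) · a = x`; (2) for `g, g'` in `G` with such elements `a, b` and `x, x'`, the elements `g, g'` are twisted-conjugate under `G` if and only if `x, x'` are conjugate in `H`; (3) every element of `H` arises as such an `x`. So `g ↦ x` induces a well-defined bijection from the twisted `G`-classes of `G` onto the conjugacy classes of `H` (the Shintani map). -/
theorem result {X : Type*} [Group X] (σ : MulAut X) (e : ℕ) (he : 1 ≤ e)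
    (hL : ∀ g : X, ∃ a : X, g = a * (σ a)⁻¹) (hLe : ∀ g : X, ∃ a : X, g = a * ((σ ^ e) a)⁻¹) :
    (∀ g ∈ (MulEquiv.toMonoidHom (σ ^ e)).eqLocus (MonoidHom.id X), ∀ a : X, g = a * (σ a)⁻¹ →
        ((σ ^ e) a)⁻¹ * a ∈ (MulEquiv.toMonoidHom σ).eqLocus (MonoidHom.id X) ∧
          a⁻¹ * ((List.range e).map (fun i => (σ ^ i) g)).prod * a = ((σ ^ e) a)⁻¹ * a) ∧
    (∀ g ∈ (MulEquiv.toMonoidHom (σ ^ e)).eqLocus (MonoidHom.id X), ∀ g' ∈ (MulEquiv.toMonoidHom (σ ^ e)).eqLocus (MonoidHom.id X), ∀ a b : X,
        g = a * (σ a)⁻¹ → g' = b * (σ b)⁻¹ →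
          ((∃ k ∈ (MulEquiv.toMonoidHom (σ ^ e)).eqLocus (MonoidHom.id X), g' = k * g * (σ k)⁻¹) ↔
            (∃ h ∈ (MulEquiv.toMonoidHom σ).eqLocus (MonoidHom.id X), ((σ ^ e) b)⁻¹ * b = h * (((σ ^ e) a)⁻¹ * a) * h⁻¹))) ∧
    (∀ x ∈ (MulEquiv.toMonoidHom σ).eqLocus (MonoidHom.id X), ∃ g ∈ (MulEquiv.toMonoidHom (σ ^ e)).eqLocus (MonoidHom.id X), ∃ a : X,
        g = a * (σ a)⁻¹ ∧ ((σ ^ e) a)⁻¹ * a = x) := by
  have mem1 : ∀ (τ : MulAut X) (y : X), y ∈ (MulEquiv.toMonoidHom τ).eqLocus (MonoidHom.id X) ↔ τ y = y := fun τ y => Iff.rfl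
  simp only [mem1]
  refine ⟨?_, ?_, ?_⟩
  · intro g hg a ha
    subst ha
    refine ⟨x_fixed σ e a hg, ?_⟩
    rw [norm_eq]
    group
  · intro g hg g' hg' a b ha hb
    subst ha hb
    constructor
    · rintro ⟨k, hk, hkg⟩
      refine ⟨((k * a)⁻¹ * b)⁻¹, ?_, ?_⟩
      · simp only [map_mul, map_inv]
        generalize σ a = a' at *
        generalize σ b = b' at *
        generalize σ k = k' at *
        have : b' = k' * a' * a⁻¹ * k⁻¹ * b := by
          have h2 := congrArg (fun z => k' * a' * a⁻¹ * k⁻¹ * z * b') hkg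
          group at h2 ⊢
          exact h2.symm
        subst this
        group
      · have hc : σ ((k * a)⁻¹ * b) = (k * a)⁻¹ * b := by
          simp only [map_mul, map_inv]
          generalize σ a = a' at *
          generalize σ b = b' at *
          generalize σ k = k' at *
          have : b' = k' * a' * a⁻¹ * k⁻¹ * b := by
            have h2 := congrArg (fun z => k' * a' * a⁻¹ * k⁻¹ * z * b') hkg
            group at h2 ⊢
            exact h2.symm
          subst this
          group
        have hc2 := pow_fixed σ _ hc e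
        simp only [map_mul, map_inv, hk] at hc2
        generalize (σ ^ e) a = a' at *
        generalize (σ ^ e) b = b' at *
        have : b' = k * a' * a⁻¹ * k⁻¹ * b := by
          have h2 := congrArg (fun z => k * a' * z) hc2
          group at h2 ⊢
          exact h2
        subst this
        group
    · rintro ⟨h, hh, hx⟩
      have hh2 := pow_fixed σ _ hh e
      refine ⟨b * h * a⁻¹, ?_, ?_⟩
      · simp only [map_mul, map_inv, hh2]
        generalize (σ ^ e) a = a' at *
        generalize (σ ^ e) b = b' at *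
        have h2 := congrArg (fun z => b' * z * h * a⁻¹) hx
        group at h2 ⊢
        exact h2.symm
      · simp only [map_mul, map_inv, hh]
        group
  · intro x hx
    obtain ⟨c, hc⟩ := hLe x⁻¹
    have hxc : x = (σ ^ e) c * c⁻¹ := by
      have := congrArg (fun z => z⁻¹) hc
      simpa using this
    refine ⟨c⁻¹ * (σ c⁻¹)⁻¹, ?_, c⁻¹, rfl, ?_⟩
    · rw [hxc] at hx
      simp only [map_mul, map_inv, inv_inv] at hx ⊢
      rw [comm_pow]
      generalize σ ((σ ^ e) c) = d at *
      generalize (σ ^ e) c = c'' at *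
      generalize σ c = c' at *
      have : d = c'' * c⁻¹ * c' := by
        have h2 := congrArg (fun z => z * c') hx
        group at h2 ⊢
        exact h2
      subst this
      group
    · rw [hxc]; simp

end Cfsg.Agent.S2666
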