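import Cfsg.Statements.S2667
-- import your own Cfsg.Agent.* helpers here

set_option autoImplicit false
open Cfsg

namespace Cfsg.Agent.S2667

theorem pow_fixed {X : Type*} [Group X] (σ : MulAut X) (h : X) (hh : σ h = h) (e : ℕ) : (σ ^ e) h = h := by
  induction e with
  | zero => simp
  | succ n ih => rw [pow_succ, MulAut.mul_apply, hh, ih]


/-- Shintani descent, in an abstract form. Let `σ` be an automorphism of a group `X` and `e ≥ 1` (no surjectivity of the Lang maps is needed for this part; in the classical setting `X` is a connected algebraic group and `σ` a Steinberg endomorphism). Write `G` for the subgroup of fixed points of `σᵉ` and `H` for the subgroup of fixed points of `σ`. The `G`-conjugacy classes in the coset `G σ` of the semidirect product of `G` by `σ` correspond to the orbits of `G` on itself under twisted conjugation `g ↦ k g σ(k)⁻¹`, and the `e`-th power of `g σ` has `G`-part the norm `g σ(g) ⋯ σ^(e-1)(g)`. For `g` in `G` and any `a` with `g = a σ(a)⁻¹`, put `x = σᵉ(a)⁻¹ a`. Then conjugation by `a⁻¹` carries the twisted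 centralizer `{k ∈ G : k g σ(k)⁻¹ = g}` (the centralizer of `g σ` in `G`) exactly onto the centralizer of `x` in `H`: an element `k` of `X` lies in `G` and satisfies `k g σ(k)⁻¹ = g` if and only if `a⁻¹ k a` lies in `H` and commutes with `x`. In particular the two centralizers are conjugate in `X` and have the same order. -/
theorem result {X : Type*} [Group X] (σ : MulAut X) (e : ℕ) (he : 1 ≤ e)
    (g : X) (hg : g ∈ (MulEquiv.toMonoidHom (σ ^ e)).eqLocus (MonoidHom.id X)) (a : X) (ha : g = a * (σ a)⁻¹) (k : X) :
    (k ∈ (MulEquiv.toMonoidHom (σ ^ e)).eqLocus (MonoidHom.id X) ∧ k * g * (σ k)⁻¹ = g) ↔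
      (a⁻¹ * k * a ∈ (MulEquiv.toMonoidHom σ).eqLocus (MonoidHom.id X) ∧
        (a⁻¹ * k * a) * (((σ ^ e) a)⁻¹ * a) = (((σ ^ e) a)⁻¹ * a) * (a⁻¹ * k * a)) := by
  have mem1 : ∀ (τ : MulAut X) (y : X), y ∈ (MulEquiv.toMonoidHom τ).eqLocus (MonoidHom.id X) ↔ τ y = y := fun τ y => Iff.rfl
  simp only [mem1] at *
  have key : k * g * (σ k)⁻¹ = g ↔ σ (a⁻¹ * k * a) = a⁻¹ * k * a := by
    subst ha
    simp only [map_mul, map_inv]
    generalize σ a = a'
    generalize σ k = k'
    constructor
    · intro h
      have : k' = a' * a⁻¹ * k * a * a'⁻¹ := by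
        have h2 := congrArg (fun z => (a * a'⁻¹)⁻¹ * z * k') h
        group at h2 ⊢
        exact h2.symm
      subst this
      group
    · intro h
      have : k' = a' * a⁻¹ * k * a * a'⁻¹ := by
        have h2 := congrArg (fun z => a' * z * a'⁻¹) h
        group at h2 ⊢
        exact h2
      subst this
      group
  rw [key]
  constructor
  · rintro ⟨hk, hfix⟩
    refine ⟨hfix, ?_⟩
    have h3 := pow_fixed σ _ hfix e
    simp only [map_mul, map_inv, hk] at h3
    generalize (σ ^ e) a = b at *
    have h2 := congrArg (fun z => z * (b⁻¹ * a)) h3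
    group at h2 ⊢
    exact h2.symm
  · rintro ⟨hfix, hc⟩
    refine ⟨?_, hfix⟩
    have h3 := pow_fixed σ _ hfix e
    simp only [map_mul, map_inv] at h3
    generalize (σ ^ e) a = b at *
    generalize (σ ^ e) k = k' at *
    have : k' = b * a⁻¹ * k * a * b⁻¹ := by
      have h2 := congrArg (fun z => b * z * b⁻¹) h3
      group at h2 ⊢
      exact h2
    subst this
    have h2 := congrArg (fun z => b * z * a⁻¹) hc
    group at h2 ⊢
    exact h2

end Cfsg.Agent.S2667
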