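import Cfsg.Statements.S2668
-- import your own Cfsg.Agent.* helpers here

set_option autoImplicit false
open Cfsg

namespace Cfsg.Agent.S2668

theorem pow_fixed {X : Type*} [Group X] (σ : MulAut X) (h : X) (hh : σ h = h) (e : ℕ) : (σ ^ e) h = h := by
  induction e with
  | zero => simp
  | succ n ih => rw [pow_succ, MulAut.mul_apply, hh, ih]

theorem norm_eq {X : Type*} [Group X] (σ : MulAut X) (a : X) (d : ℕ) :
    ((List.range d).map (fun i => (σ ^ i) (a * (σ a)⁻¹))).prod = a * ((σ ^ d) a)⁻¹ := by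
  induction d with
  | zero => simp
  | succ n ih =>
    rw [List.range_succ, List.map_append, List.prod_append, ih]
    simp only [List.map_cons, List.map_nil, List.prod_cons, List.prod_nil, mul_one, map_mul, map_inv]
    have : (σ ^ n) (σ a) = (σ ^ (n+1)) a := by
      rw [pow_succ, MulAut.mul_apply]
    rw [this]
    group

theorem comm_pow {X : Type*} [Group X] (σ : MulAut X) (e : ℕ) (a : X) : (σ ^ e) (σ a) = σ ((σ ^ e) a) := by
  rw [← MulAut.mul_apply, ← MulAut.mul_apply, ← pow_succ, ← pow_succ']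

theorem x_fixed {X : Type*} [Group X] (σ : MulAut X) (e : ℕ) (a : X)
    (hg : (σ ^ e) (a * (σ a)⁻¹) = a * (σ a)⁻¹) : σ (((σ ^ e) a)⁻¹ * a) = ((σ ^ e) a)⁻¹ * a := by
  simp only [map_mul, map_inv] at hg ⊢
  rw [comm_pow] at hg
  generalize σ ((σ ^ e) a) = c at *
  generalize (σ ^ e) a = b at *
  generalize σ a = a' at *
  have : c = a' * a⁻¹ * b := by
    have h2 := congrArg (fun z => a' * a⁻¹ * z * c) hg
    group at h2 ⊢
    exact h2.symm
  subst this
  group



/-- Shintani descent and powers (abstract form). Let `σ` be an automorphism of a group `X`, `e ≥ 1` and `d ≥ 1`, let `g` be fixed by `σᵉ` and let `a` satisfy `g = a σ(a)⁻¹`, so that the Shintani map of `(X, σ, e)` sends the class of `g σ` to the class of `x = σᵉ(a)⁻¹ a`. Put `h = g σ(g) ⋯ σ^(d-1)(g)`, the part in `X` of the `d`-th power `(g σ)^d = h σ^d`. Then `h = a σ^d(a)⁻¹` (so `a` also serves for `h` with respect to `σ^d`), `h` is fixed by `(σ^d)ᵉ`, and `(σ^d)ᵉ(a)⁻¹ a = x^d`: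 the Shintani map of `(X, σ^d, e)` sends the class of `(g σ)^d` to the class of `x^d`. (When `d` divides `e`, the Shintani map of `(X, σ^d, e/d)` sends it to the class of `x` itself, since `(σ^d)^(e/d) = σᵉ`.) -/
theorem result {X : Type*} [Group X] (σ : MulAut X) (e d : ℕ) (he : 1 ≤ e) (hd : 1 ≤ d)
    (g : X) (hg : g ∈ (MulEquiv.toMonoidHom (σ ^ e)).eqLocus (MonoidHom.id X)) (a : X) (ha : g = a * (σ a)⁻¹) :
    ((List.range d).map (fun i => (σ ^ i) g)).prod = a * ((σ ^ d) a)⁻¹ ∧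
      ((List.range d).map (fun i => (σ ^ i) g)).prod ∈ (MulEquiv.toMonoidHom ((σ ^ d) ^ e)).eqLocus (MonoidHom.id X) ∧
      (((σ ^ d) ^ e) a)⁻¹ * a = (((σ ^ e) a)⁻¹ * a) ^ d := by
  have mem1 : ∀ (τ : MulAut X) (y : X), y ∈ (MulEquiv.toMonoidHom τ).eqLocus (MonoidHom.id X) ↔ τ y = y := fun τ y => Iff.rfl
  have hg' : (σ ^ e) g = g := hg
  have hpow : (σ ^ d) ^ e = (σ ^ e) ^ d := by rw [← pow_mul, ← pow_mul, mul_comm]
  refine ⟨by rw [ha]; exact norm_eq σ a d, ?_, ?_⟩
  · apply Subgroup.list_prod_mem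
    intro y hy
    rw [List.mem_map] at hy
    obtain ⟨i, -, rfl⟩ := hy
    rw [mem1, hpow]
    apply pow_fixed
    rw [← MulAut.mul_apply, ← pow_add, add_comm, pow_add, MulAut.mul_apply, hg']
  · rw [hpow]
    have hx : σ (((σ ^ e) a)⁻¹ * a) = ((σ ^ e) a)⁻¹ * a := x_fixed σ e a (ha ▸ hg')
    have hx2 : (σ ^ e) (((σ ^ e) a)⁻¹ * a) = ((σ ^ e) a)⁻¹ * a := pow_fixed σ _ hx e
    generalize σ ^ e = τ at *
    clear hd hpow
    induction d with
    | zero => simp
    | succ n ih =>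
      have h3 : (τ ^ n) ((τ a)⁻¹ * a) = (τ a)⁻¹ * a := pow_fixed τ _ hx2 n
      rw [pow_succ' ((τ a)⁻¹ * a) n, ← ih, pow_succ τ n, MulAut.mul_apply]
      simp only [map_mul, map_inv] at h3
      rw [← h3]
      group

end Cfsg.Agent.S2668
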