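import Cfsg.Statements.S2669
-- import your own Cfsg.Agent.* helpers here

set_option autoImplicit false
open Cfsg

namespace Cfsg.Agent.S2669

theorem card_rel {K L : Type*} (R : K → L → Prop) (P : K → Prop) (S : Type*)
    (hfib : ∀ k, P k → Nonempty ({l // R k l} ≃ S)) (hP : ∀ k l, R k l → P k) :
    Nat.card {p : K × L // R p.1 p.2} = Nat.card {k // P k} * Nat.card S := by
  have e1 : {p : K × L // R p.1 p.2} ≃ Σ k : {k // P k}, {l // R k.1 l} :=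
    { toFun := fun p => ⟨⟨p.1.1, hP _ _ p.2⟩, ⟨p.1.2, p.2⟩⟩
      invFun := fun q => ⟨(q.1.1, q.2.1), q.2.2⟩
      left_inv := fun p => rfl
      right_inv := fun q => rfl }
  have e2 : (Σ k : {k // P k}, {l // R k.1 l}) ≃ Σ _k : {k // P k}, S :=
    Equiv.sigmaCongrRight (fun k => (hfib k.1 k.2).some)
  rw [Nat.card_congr (e1.trans (e2.trans (Equiv.sigmaEquivProd _ _))), Nat.card_prod]

abbrev Fix {X : Type*} [Group X] (ρ : MulAut X) : Subgroup X :=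
  (MulEquiv.toMonoidHom ρ).eqLocus (MonoidHom.id X)

theorem mem_Fix {X : Type*} [Group X] (ρ : MulAut X) (y : X) : y ∈ Fix ρ ↔ ρ y = y := Iff.rfl

theorem lang_of_exists {X : Type*} [Group X] (ρ : MulAut X) (Y : Subgroup X) (hY : ∀ y : X, y ∈ Y ↔ ρ y ∈ Y)
    (c : X) (h : Fix ρ) (hc : c * h ∈ Y) : c * (ρ c)⁻¹ ∈ Y := by
  have h1 : ρ (c * h) ∈ Y := (hY _).1 hc
  have h2 : ρ (h : X) = h := h.2
  rw [map_mul, h2] at h1
  have h3 := Y.mul_mem hc (Y.inv_mem h1)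
  have : c * ↑h * (ρ c * ↑h)⁻¹ = c * (ρ c)⁻¹ := by group
  rwa [this] at h3

theorem fib_equiv {X : Type*} [Group X] (ρ : MulAut X) (Y : Subgroup X)
    (hYL : ∀ y ∈ Y, ∃ a ∈ Y, y = a * (ρ a)⁻¹)
    (c : X) (hc : c * (ρ c)⁻¹ ∈ Y) : Nonempty ({h : Fix ρ // c * h ∈ Y} ≃ ↥(Y ⊓ Fix ρ)) := by
  obtain ⟨y, hy, hcy⟩ := hYL _ hc
  have hfix : ρ (c⁻¹ * y) = c⁻¹ * y := by
    simp only [map_mul, map_inv]
    generalize ρ c = c' at *
    generalize ρ y = y' at *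
    have : y' = c' * c⁻¹ * y := by
      have h2 := congrArg (fun z => c' * c⁻¹ * z * y') hcy
      group at h2 ⊢
      exact h2
    subst this
    group
  refine ⟨{ toFun := fun h => ⟨(c⁻¹ * y)⁻¹ * h, ?_, ?_⟩
            invFun := fun z => ⟨⟨(c⁻¹ * y) * z, ?_⟩, ?_⟩
            left_inv := ?_
            right_inv := ?_ }⟩
  · have := Y.mul_mem (Y.inv_mem hy) h.2
    have e : y⁻¹ * (c * ↑↑h) = (c⁻¹ * y)⁻¹ * ↑↑h := by group
    rwa [e] at this
  · exact (Fix ρ).mul_mem ((Fix ρ).inv_mem hfix) h.1.2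
  · exact (Fix ρ).mul_mem hfix z.2.2
  · have := Y.mul_mem hy z.2.1
    have e : y * ↑z = c * (c⁻¹ * y * ↑z) := by group
    rw [e] at this
    exact this
  · intro h
    ext
    simp only [mul_inv_rev, inv_inv]
    group
  · intro z
    ext
    simp only [mul_inv_rev, inv_inv]
    group

theorem stable_pow {X : Type*} [Group X] (σ : MulAut X) (Y : Subgroup X) (hY : ∀ y : X, y ∈ Y ↔ σ y ∈ Y) (e : ℕ) :
    ∀ y : X, y ∈ Y ↔ (σ ^ e) y ∈ Y := by
  induction e with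
  | zero => simp
  | succ n ih =>
    intro y
    rw [pow_succ', MulAut.mul_apply, ← hY, ← ih]

theorem pow_fixed {X : Type*} [Group X] (σ : MulAut X) (h : X) (hh : σ h = h) (e : ℕ) : (σ ^ e) h = h := by
  induction e with
  | zero => simp
  | succ n ih => rw [pow_succ, MulAut.mul_apply, hh, ih]



/-- Shintani descent preserves numbers of fixed points on coset spaces (abstract form). Let `σ` be an automorphism of a group `X` and `e ≥ 1`; write `G` for the fixed points of `σᵉ` and `H` for the fixed points of `σ`, and assume `G` is finite. Let `Y` be a `σ`-stable subgroup of `X` on which the maps `a ↦ a σ(a)⁻¹` and `a ↦ a σᵉ(a)⁻¹` are surjective (as for a closed connected `σ`-stable subgroup of an algebraic group). Let `g ∈ G`, let `a ∈ X` satisfy `g = a σ(a)⁻¹` and put `x = σᵉ(a)⁻¹ a` (the Shintani image, an element of `H`). The element `g σ` of the semidirect product acts on the cosets of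 `Y ∩ G` in `G` by `k (Y ∩ G) ↦ g σ(k) (Y ∩ G)`, fixing that coset exactly when `k⁻¹ g σ(k) ∈ Y`; and `x` fixes the coset `h (Y ∩ H)` of `H` exactly when `h⁻¹ x h ∈ Y`. Then the two numbers of fixed cosets agree; in cross-multiplied form, `#{k ∈ G : k⁻¹ g σ(k) ∈ Y} · |Y ∩ H| = #{h ∈ H : h⁻¹ x h ∈ Y} · |Y ∩ G|`. -/
theorem result {X : Type*} [Group X] (σ : MulAut X) (e : ℕ) (he : 1 ≤ e)
    [Finite ↥((MulEquiv.toMonoidHom (σ ^ e)).eqLocus (MonoidHom.id X))]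
    (Y : Subgroup X) (hY : ∀ y : X, y ∈ Y ↔ σ y ∈ Y)
    (hYL : ∀ y ∈ Y, ∃ a ∈ Y, y = a * (σ a)⁻¹) (hYLe : ∀ y ∈ Y, ∃ a ∈ Y, y = a * ((σ ^ e) a)⁻¹)
    (g : X) (hg : g ∈ (MulEquiv.toMonoidHom (σ ^ e)).eqLocus (MonoidHom.id X)) (a : X) (ha : g = a * (σ a)⁻¹) :
    Nat.card {k : ↥((MulEquiv.toMonoidHom (σ ^ e)).eqLocus (MonoidHom.id X)) // (k : X)⁻¹ * g * σ k ∈ Y} *
        Nat.card ↥(Y ⊓ (MulEquiv.toMonoidHom σ).eqLocus (MonoidHom.id X)) =
      Nat.card {h : ↥((MulEquiv.toMonoidHom σ).eqLocus (MonoidHom.id X)) // (h : X)⁻¹ * (((σ ^ e) a)⁻¹ * a) * h ∈ Y} *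
        Nat.card ↥(Y ⊓ (MulEquiv.toMonoidHom (σ ^ e)).eqLocus (MonoidHom.id X)) := by
  have hYe := stable_pow σ Y hY e
  have c1 := card_rel (K := Fix (σ ^ e)) (L := Fix σ) (fun k h => ((k : X)⁻¹ * a) * h ∈ Y)
    (fun k => (k : X)⁻¹ * g * σ k ∈ Y) ↥(Y ⊓ Fix σ)
    (by
      intro k hk
      apply fib_equiv σ Y hYL
      have e1 : (k : X)⁻¹ * a * (σ ((k : X)⁻¹ * a))⁻¹ = (k : X)⁻¹ * g * σ k := by
        rw [ha]; simp only [map_mul, map_inv]; group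
      rw [e1]; exact hk)
    (by
      intro k h hkh
      have := lang_of_exists σ Y hY _ h hkh
      have e1 : (k : X)⁻¹ * a * (σ ((k : X)⁻¹ * a))⁻¹ = (k : X)⁻¹ * g * σ k := by
        rw [ha]; simp only [map_mul, map_inv]; group
      rw [e1] at this; exact this)
  have key : ∀ h : Fix σ, ((a * (h : X))⁻¹ * ((σ ^ e) ((a * (h : X))⁻¹))⁻¹ ∈ Y ↔
      (h : X)⁻¹ * (((σ ^ e) a)⁻¹ * a) * h ∈ Y) := by
    intro h
    have hh : (σ ^ e) (h : X) = h := pow_fixed σ _ h.2 e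
    rw [← Y.inv_mem_iff]
    have e1 : ((a * (h : X))⁻¹ * ((σ ^ e) ((a * (h : X))⁻¹))⁻¹)⁻¹ = (h : X)⁻¹ * (((σ ^ e) a)⁻¹ * a) * h := by
      simp only [map_mul, map_inv, hh]; group
    rw [e1]
  have c2 := card_rel (K := Fix σ) (L := Fix (σ ^ e)) (fun h k => (a * (h : X))⁻¹ * k ∈ Y)
    (fun h => (h : X)⁻¹ * (((σ ^ e) a)⁻¹ * a) * h ∈ Y) ↥(Y ⊓ Fix (σ ^ e))
    (by
      intro h hh
      apply fib_equiv (σ ^ e) Y hYLe
      exact (key h).2 hh)
    (by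
      intro h k hkh
      have := lang_of_exists (σ ^ e) Y hYe _ k hkh
      exact (key h).1 this)
  have e3 : {p : Fix (σ ^ e) × Fix σ // ((p.1 : X)⁻¹ * a) * p.2 ∈ Y} ≃
      {p : Fix σ × Fix (σ ^ e) // (a * (p.1 : X))⁻¹ * p.2 ∈ Y} :=
    Equiv.subtypeEquiv (Equiv.prodComm _ _) (by
      rintro ⟨k, h⟩
      simp only [Equiv.prodComm_apply, Prod.swap_prod_mk]
      rw [← Y.inv_mem_iff]
      have : ((k : X)⁻¹ * a * (h : X))⁻¹ = (a * (h : X))⁻¹ * k := by group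
      rw [this])
  rw [← c1, ← c2]
  exact Nat.card_congr e3

end Cfsg.Agent.S2669
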