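import Mathlib
import Cfsg.Statements.S2677
import Cfsg.Agent.Lib.Helper18.Herm3
import Cfsg.Agent.S0277
-- import your own Cfsg.Agent.* helpers here

set_option autoImplicit false
open Cfsg

namespace Cfsg.Agent.S2677

theorem smul_herm {R : Type*} [CommRing R] {n : ℕ} (m : ℕ) (b : R) (A : Matrix (Fin n) (Fin n) R) :
    (b • A).transpose * (b • A).map (· ^ m) = b ^ (m + 1) • (A.transpose * A.map (· ^ m)) := by
  ext i j
  rw [Matrix.mul_apply, Matrix.smul_apply, Matrix.mul_apply, smul_eq_mul, Finset.mul_sum]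
  apply Finset.sum_congr rfl
  intro k _
  rw [Matrix.transpose_apply, Matrix.smul_apply, Matrix.map_apply,
    Matrix.smul_apply, Matrix.transpose_apply, Matrix.map_apply, smul_eq_mul, smul_eq_mul, mul_pow]
  ring

/-- Centraliser of a field automorphism of odd prime order in PGU_n(q): let q = q₀^r with r an odd prime, K the field with q² elements and σ a field automorphism of K of order r (fixed field of order q₀²). The elements g of GU_n(q) whose entrywise image under σ is a scalar multiple of g — those whose coset modulo the q + 1 unitary scalars is fixed by σ — number (q + 1)/(q₀ + 1) · |GU_n(q₀)|; equivalently the centraliser in PGU_n(q) of the induced automorphism has the order of PGU_n(q₀). -/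
theorem result {K : Type*} [Field K] [Fintype K] {q₀ q r n : ℕ} (hr : r.Prime) (hr2 : r ≠ 2) (hn : 1 ≤ n) (hq : q = q₀ ^ r) (hK : Fintype.card K = q ^ 2) (σ : K ≃+* K) (hσ : orderOf σ = r) : (Nat.card {g : ↥(Cfsg.GU n K q) // ∃ c : K, c ≠ 0 ∧ ((g : GL (Fin n) K) : Matrix (Fin n) (Fin n) K).map σ = c • ((g : GL (Fin n) K) : Matrix (Fin n) (Fin n) K)} : ℤ) = ((q + 1) / (q₀ + 1) : ℕ) * ((q₀ : ℤ) ^ (n * (n - 1) / 2) * ∏ i : Fin n, ((q₀ : ℤ) ^ ((i : ℕ) + 1) - (-1) ^ ((i : ℕ) + 1))) := by
  classical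
  have hr0 : r ≠ 0 := hr.ne_zero
  haveI : Nonempty (Fin n) := ⟨⟨0, by omega⟩⟩
  haveI : Finite (K ≃+* K) :=
    Finite.of_injective (fun e : K ≃+* K => (e : K → K)) DFunLike.coe_injective
  let G₀ : Subgroup (K ≃+* K) := Subgroup.zpowers σ
  haveI : Fintype G₀ := Fintype.ofFinite _
  let K₀ : Subfield K := FixedPoints.subfield G₀ K
  have hmemK₀ : ∀ x : K, x ∈ K₀ ↔ σ x = x := by
    intro x
    constructor
    · intro h
      exact h ⟨σ, Subgroup.mem_zpowers σ⟩
    · intro h g
      have h1 : G₀ ≤ MulAction.stabilizer (K ≃+* K) x := by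
        rw [Subgroup.zpowers_le]
        exact h
      exact h1 g.2
  have hfr : Module.finrank K₀ K = r := by
    rw [FixedPoints.finrank_eq_card G₀ K, ← Nat.card_eq_fintype_card, Nat.card_zpowers, hσ]
  have hcardK₀ : Nat.card K₀ = q₀ ^ 2 := by
    have h1 : Nat.card K = Nat.card K₀ ^ r := by
      rw [← hfr]; exact Module.natCard_eq_pow_finrank
    rw [Nat.card_eq_fintype_card, hK, hq, ← pow_mul, mul_comm, pow_mul] at h1
    exact (Nat.pow_left_injective (n := r) hr0 h1).symm
  haveI : Fintype K₀ := Fintype.ofFinite _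
  have hK₀ : Fintype.card K₀ = q₀ ^ 2 := by rw [← Nat.card_eq_fintype_card, hcardK₀]
  have hodd : Odd r := hr.odd_of_ne_two hr2
  have hpow₀ : ∀ a : K₀, a ^ q = a ^ q₀ := by
    intro a
    obtain ⟨k, hk⟩ := hodd
    rw [hq, hk, pow_succ, pow_mul a, pow_mul q₀, ← hK₀, FiniteField.pow_card_pow]
  have hpow : ∀ a : K₀, (a : K) ^ q = (a : K) ^ q₀ := by
    intro a
    exact congrArg Subtype.val (hpow₀ a)
  have hL1 : ∀ (b : K) (A : Matrix (Fin n) (Fin n) K₀),
      (b • A.map (algebraMap K₀ K)).transpose * (b • A.map (algebraMap K₀ K)).map (· ^ q) =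
        b ^ (q + 1) • (A.transpose * A.map (· ^ q₀)).map (algebraMap K₀ K) := by
    intro b A
    ext i j
    rw [Matrix.mul_apply, Matrix.smul_apply, Matrix.map_apply, Matrix.mul_apply, map_sum,
      smul_eq_mul, Finset.mul_sum]
    apply Finset.sum_congr rfl
    intro k _
    rw [Matrix.transpose_apply, Matrix.smul_apply, Matrix.map_apply, Matrix.map_apply,
      Matrix.smul_apply, Matrix.map_apply, Matrix.transpose_apply, Matrix.map_apply, map_mul,
      map_pow, smul_eq_mul, smul_eq_mul, mul_pow]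
    have h1 : (algebraMap K₀ K) (A k j) ^ q = (algebraMap K₀ K) (A k j) ^ q₀ := hpow (A k j)
    rw [h1]
    ring
  have hq₀ : 1 < q₀ := Cfsg.Agent.Lib.Helper18.herm_q_pos hK₀
  let ι : GL (Fin n) K₀ →* GL (Fin n) K := Matrix.GeneralLinearGroup.map (algebraMap K₀ K)
  let s : Kˣ →* GL (Fin n) K := Matrix.GeneralLinearGroup.scalar (Fin n)
  let Ψ' : Kˣ × GL (Fin n) K₀ →* GL (Fin n) K :=
    MonoidHom.noncommCoprod s ι (fun u A => Matrix.GeneralLinearGroup.scalar_commute u (ι A))
  let U : Subgroup Kˣ := (powMonoidHom (q + 1) : Kˣ →* Kˣ).ker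
  let Ψ : U × (Cfsg.GU n K₀ q₀) →* GL (Fin n) K :=
    Ψ'.comp (MonoidHom.prodMap U.subtype (Cfsg.GU n K₀ q₀).subtype)
  have hΨ : ∀ (b : U) (h : Cfsg.GU n K₀ q₀), (Ψ (b, h) : Matrix (Fin n) (Fin n) K) =
      ((b : Kˣ) : K) • (h.1.val).map (algebraMap K₀ K) := by
    intro b h
    ext i j
    show ((s b.1 * ι h.1 : GL (Fin n) K) : Matrix (Fin n) (Fin n) K) i j = _
    rw [Units.val_mul, Matrix.GeneralLinearGroup.coe_scalar, Matrix.scalar_apply,
      Matrix.diagonal_mul]
    rfl
  have hmemU : ∀ b : Kˣ, b ∈ U ↔ (b : K) ^ (q + 1) = 1 := by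
    intro b
    rw [MonoidHom.mem_ker, powMonoidHom_apply, Units.ext_iff, Units.val_pow_eq_pow_val,
      Units.val_one]
  have hpow1 : ∀ a : K₀, (a : K) ^ (q + 1) = ((a ^ (q₀ + 1) : K₀) : K) := by
    intro a
    rw [pow_succ, hpow, ← pow_succ]
    rfl
  have hset : ∀ g : GL (Fin n) K, (g ∈ Cfsg.GU n K q ∧ ∃ c : K, c ≠ 0 ∧
      (g : Matrix (Fin n) (Fin n) K).map σ = c • (g : Matrix (Fin n) (Fin n) K)) ↔ g ∈ Ψ.range := by
    intro g
    constructor
    · rintro ⟨hgU, c, hc, hg⟩
      obtain ⟨i₀, j₀, he⟩ : ∃ i₀ j₀, (g : Matrix (Fin n) (Fin n) K) i₀ j₀ ≠ 0 := by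
        by_contra hcon
        push Not at hcon
        apply Units.ne_zero g
        ext i j
        exact hcon i j
      obtain ⟨e, hee⟩ : ∃ e, e = (g : Matrix (Fin n) (Fin n) K) i₀ j₀ := ⟨_, rfl⟩
      rw [← hee] at he
      have hgij : ∀ i j, σ ((g : Matrix (Fin n) (Fin n) K) i j) = c * (g : Matrix (Fin n) (Fin n) K) i j := by
        intro i j
        have := congrFun (congrFun hg i) j
        rwa [Matrix.map_apply, Matrix.smul_apply, smul_eq_mul] at this
      have hσe : σ e = c * e := by rw [hee]; exact hgij i₀ j₀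
      have hfix : ∀ i j, e⁻¹ * (g : Matrix (Fin n) (Fin n) K) i j ∈ K₀ := by
        intro i j
        rw [hmemK₀, map_mul, map_inv₀, hσe, hgij]
        field_simp
      let h₀ : Matrix (Fin n) (Fin n) K₀ := fun i j => ⟨e⁻¹ * (g : Matrix (Fin n) (Fin n) K) i j, hfix i j⟩
      have hge : (g : Matrix (Fin n) (Fin n) K) = e • h₀.map (algebraMap K₀ K) := by
        ext i j
        show _ = e * (e⁻¹ * (g : Matrix (Fin n) (Fin n) K) i j)
        rw [← mul_assoc, mul_inv_cancel₀ he, one_mul]
      rw [Cfsg.Agent.Lib.Helper18.mem_GU_iff hK, hge, hL1] at hgU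
      obtain ⟨M, hM⟩ : ∃ M, M = h₀.transpose * h₀.map (· ^ q₀) := ⟨_, rfl⟩
      rw [← hM] at hgU
      have hent : ∀ i j, e ^ (q + 1) * (M i j : K) = if i = j then 1 else 0 := by
        intro i j
        have := congrFun (congrFun hgU i) j
        rw [Matrix.one_apply] at this
        exact this
      let i₁ : Fin n := ⟨0, by omega⟩
      obtain ⟨l, hl⟩ : ∃ l, l = M i₁ i₁ := ⟨_, rfl⟩
      have he1 : e ^ (q + 1) ≠ 0 := pow_ne_zero _ he
      have hl1 : e ^ (q + 1) * (l : K) = 1 := by
        rw [hl, hent, if_pos rfl]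
      have hl0 : l ≠ 0 := by
        intro h
        rw [h] at hl1
        simp at hl1
      have hMl : M = l • 1 := by
        ext i j
        rw [Matrix.smul_apply, Matrix.one_apply, smul_eq_mul]
        have h1 := hent i j
        by_cases hij : i = j
        · rw [if_pos hij] at h1 ⊢
          rw [mul_one]
          exact mul_left_cancel₀ he1 (h1.trans hl1.symm)
        · rw [if_neg hij] at h1 ⊢
          rw [mul_zero]
          exact (mul_eq_zero.1 h1).resolve_left he1
      have hlfix : l ^ q₀ = l := by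
        apply Subtype.ext
        show (l : K) ^ q₀ = l
        rw [← hpow, eq_inv_of_mul_eq_one_right hl1, inv_pow,
          Cfsg.Agent.Lib.Helper18.herm_norm_fix hK]
      obtain ⟨a, ha0, ha⟩ := Cfsg.Agent.Lib.Helper18.herm_norm_surj hK₀ l⁻¹
        (by rw [inv_pow, hlfix]) (inv_ne_zero hl0)
      have hh : (a • h₀).transpose * (a • h₀).map (· ^ q₀) = 1 := by
        rw [smul_herm, ← hM, hMl, ha, smul_smul, inv_mul_cancel₀ hl0, one_smul]
      have ha0' : (a : K) ≠ 0 := fun h => ha0 (Subtype.ext h)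
      have hb : (Units.mk0 (e / (a : K)) (div_ne_zero he ha0')) ∈ U := by
        rw [hmemU, Units.val_mk0, div_pow, hpow1, ha]
        show e ^ (q + 1) / (l : K)⁻¹ = 1
        rw [div_inv_eq_mul, hl1]
      refine ⟨(⟨_, hb⟩, ⟨Matrix.GeneralLinearGroup.mkOfDetNeZero (a • h₀)
        (Cfsg.Agent.Lib.Helper18.herm_det_ne_zero hK₀ hh),
        (Cfsg.Agent.Lib.Helper18.mem_GU_iff hK₀ _).2 hh⟩), ?_⟩
      apply Units.ext
      rw [hΨ, hge]
      ext i j
      show (e / (a : K)) * ((a : K) * (h₀ i j : K)) = e * (h₀ i j : K)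
      field_simp
    · rintro ⟨⟨b, h⟩, rfl⟩
      constructor
      · rw [Cfsg.Agent.Lib.Helper18.mem_GU_iff hK, hΨ, hL1,
          (Cfsg.Agent.Lib.Helper18.mem_GU_iff hK₀ h.1).1 h.2, (hmemU b.1).1 b.2, one_smul]
        exact Matrix.map_one _ (map_zero _) (map_one _)
      · refine ⟨σ b.1 / b.1, div_ne_zero ((map_ne_zero σ).2 b.1.ne_zero) b.1.ne_zero, ?_⟩
        rw [hΨ]
        ext i j
        show σ ((b.1 : K) * algebraMap K₀ K (h.1.val i j)) =
          (σ b.1 / b.1) * ((b.1 : K) * algebraMap K₀ K (h.1.val i j))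
        rw [map_mul]
        have h1 : σ (algebraMap K₀ K (h.1.val i j)) = algebraMap K₀ K (h.1.val i j) :=
          (hmemK₀ _).1 (h.1.val i j).2
        rw [h1]
        have := b.1.ne_zero
        field_simp
  have hcardU : Nat.card U = q + 1 := by
    rw [← Cfsg.Agent.Lib.Helper18.herm_card_norm_one hK]
    apply Nat.card_congr
    refine Equiv.ofBijective (fun b : U => (⟨(b.1 : K), (hmemU b.1).1 b.2⟩ : {a : K // a ^ (q + 1) = 1})) ⟨?_, ?_⟩
    · intro b b' h
      apply Subtype.ext
      apply Units.ext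
      exact congrArg Subtype.val h
    · rintro ⟨a, ha⟩
      have ha0 : a ≠ 0 := by
        intro h
        rw [h, zero_pow (by omega)] at ha
        exact zero_ne_one ha
      exact ⟨⟨Units.mk0 a ha0, (hmemU _).2 ha⟩, rfl⟩
  have hker : Nat.card Ψ.ker = q₀ + 1 := by
    have hane : ∀ a : {a : K₀ // a ^ (q₀ + 1) = 1}, a.1 ≠ 0 := by
      intro a h
      have := a.2
      rw [h, zero_pow (by omega)] at this
      exact zero_ne_one this
    let ua : {a : K₀ // a ^ (q₀ + 1) = 1} → K₀ˣ := fun a => Units.mk0 a.1 (hane a)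
    have hU : ∀ a, (Units.map (algebraMap K₀ K : K₀ →* K) (ua a))⁻¹ ∈ U := by
      intro a
      apply inv_mem
      rw [hmemU]
      show ((a.1 : K₀) : K) ^ (q + 1) = 1
      rw [hpow1, a.2]
      rfl
    have hG : ∀ a, Matrix.GeneralLinearGroup.scalar (Fin n) (ua a) ∈ Cfsg.GU n K₀ q₀ := by
      intro a
      rw [Cfsg.Agent.Lib.Helper18.mem_GU_iff hK₀, Matrix.GeneralLinearGroup.coe_scalar]
      have h1 : Matrix.scalar (Fin n) ((ua a : K₀ˣ) : K₀) = a.1 • (1 : Matrix (Fin n) (Fin n) K₀) := by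
        rw [Matrix.smul_one_eq_diagonal]
        rfl
      rw [h1, smul_herm, a.2, one_smul, Matrix.transpose_one, one_mul]
      exact Matrix.map_one _ (zero_pow (by omega)) (one_pow _)
    have hin : ∀ a, ((⟨_, hU a⟩ : U), (⟨_, hG a⟩ : Cfsg.GU n K₀ q₀)) ∈ Ψ.ker := by
      intro a
      rw [MonoidHom.mem_ker]
      apply Units.ext
      rw [hΨ]
      ext i j
      show (((Units.map (algebraMap K₀ K : K₀ →* K) (ua a))⁻¹ : Kˣ) : K) *
        (((Matrix.GeneralLinearGroup.scalar (Fin n) (ua a) : GL (Fin n) K₀) :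
          Matrix (Fin n) (Fin n) K₀) i j : K) = _
      rw [Matrix.GeneralLinearGroup.coe_scalar, Matrix.scalar_apply, Matrix.diagonal_apply,
        Units.val_one, Matrix.one_apply]
      by_cases hij : i = j
      · rw [if_pos hij, if_pos hij]
        have : ((Units.map (algebraMap K₀ K : K₀ →* K) (ua a))⁻¹ : Kˣ) *
            (Units.map (algebraMap K₀ K : K₀ →* K) (ua a)) = 1 := inv_mul_cancel _
        exact congrArg Units.val this
      · rw [if_neg hij, if_neg hij]; simp
    have hbij : Function.Bijective (fun a : {a : K₀ // a ^ (q₀ + 1) = 1} => (⟨_, hin a⟩ : Ψ.ker)) := by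
      constructor
      · intro a a' haa
        have h1 := congrArg (fun x : Ψ.ker => x.1.1.1) haa
        simp only [inv_inj] at h1
        have h2 := congrArg Units.val h1
        apply Subtype.ext
        exact Subtype.ext h2
      · rintro ⟨⟨b, h⟩, hbh⟩
        rw [MonoidHom.mem_ker] at hbh
        have hent : ∀ i j, ((b.1 : Kˣ) : K) * ((h.1 : Matrix (Fin n) (Fin n) K₀) i j : K) =
            if i = j then 1 else 0 := by
          intro i j
          have h1 := congrArg Units.val hbh
          rw [hΨ, Units.val_one] at h1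
          have h2 := congrFun (congrFun h1 i) j
          rw [Matrix.one_apply] at h2
          exact h2
        let i₀ : Fin n := ⟨0, by omega⟩
        have ha : ((b.1 : Kˣ) : K) * ((h.1 : Matrix (Fin n) (Fin n) K₀) i₀ i₀ : K) = 1 := by
          rw [hent, if_pos rfl]
        have ha1 : ((h.1 : Matrix (Fin n) (Fin n) K₀) i₀ i₀) ^ (q₀ + 1) = 1 := by
          apply Subtype.ext
          rw [← hpow1]
          have h1 := congrArg (· ^ (q + 1)) ha
          simp only [mul_pow, one_pow] at h1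
          rw [(hmemU b.1).1 b.2, one_mul] at h1
          exact h1
        refine ⟨⟨_, ha1⟩, ?_⟩
        apply Subtype.ext
        apply Prod.ext
        · apply Subtype.ext
          show (Units.map (algebraMap K₀ K : K₀ →* K) (ua ⟨_, ha1⟩))⁻¹ = b.1
          rw [inv_eq_iff_mul_eq_one]
          apply Units.ext
          rw [mul_comm]
          exact ha
        · apply Subtype.ext
          show Matrix.GeneralLinearGroup.scalar (Fin n) (ua ⟨_, ha1⟩) = h.1
          apply Units.ext
          ext i j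
          rw [Matrix.GeneralLinearGroup.coe_scalar, Matrix.scalar_apply, Matrix.diagonal_apply]
          have hb := b.1.ne_zero
          by_cases hij : i = j
          · subst hij
            rw [if_pos rfl]
            have h1 := hent i i
            rw [if_pos rfl] at h1
            show ((h.1 : Matrix (Fin n) (Fin n) K₀) i₀ i₀ : K) = _
            exact mul_left_cancel₀ hb (ha.trans h1.symm)
          · rw [if_neg hij]
            have h1 := hent i j
            rw [if_neg hij] at h1
            have h2 := (mul_eq_zero.1 h1).resolve_left hb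
            rw [h2]; rfl
    rw [← Nat.card_congr (Equiv.ofBijective _ hbij), Cfsg.Agent.Lib.Helper18.herm_card_norm_one hK₀]
  have hcount : Nat.card Ψ.ker * Nat.card Ψ.range = (q + 1) * Nat.card (Cfsg.GU n K₀ q₀) := by
    rw [← Subgroup.index_ker, Subgroup.card_mul_index, Nat.card_prod, hcardU]
  have hX : Nat.card {g : ↥(Cfsg.GU n K q) // ∃ c : K, c ≠ 0 ∧
      ((g : GL (Fin n) K) : Matrix (Fin n) (Fin n) K).map σ =
        c • ((g : GL (Fin n) K) : Matrix (Fin n) (Fin n) K)} = Nat.card Ψ.range :=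
    Nat.card_congr ((Equiv.subtypeSubtypeEquivSubtypeInter (fun g : GL (Fin n) K => g ∈ Cfsg.GU n K q)
      (fun g : GL (Fin n) K => ∃ c : K, c ≠ 0 ∧ (g : Matrix (Fin n) (Fin n) K).map σ =
        c • (g : Matrix (Fin n) (Fin n) K))).trans (Equiv.subtypeEquivRight hset))
  rw [hX]
  rw [hker] at hcount
  have hdvd : q₀ + 1 ∣ q + 1 := by
    rw [hq]
    simpa using Odd.nat_add_dvd_pow_add_pow q₀ 1 hodd
  obtain ⟨m, hm⟩ := hdvd
  rw [hm, Nat.mul_div_cancel_left _ (by omega : 0 < q₀ + 1)]
  rw [hm, mul_assoc] at hcount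
  have h1 := Nat.eq_of_mul_eq_mul_left (by omega : 0 < q₀ + 1) hcount
  rw [h1, Cfsg.Agent.S0277.result hK₀ n, Finset.prod_range]
  push_cast
  congr 2
  apply Finset.prod_congr rfl
  intro i _
  have h2 : 1 ≤ q₀ ^ ((i : ℕ) + 1) := Nat.one_le_pow _ _ (by omega)
  split_ifs with hi
  · rw [Odd.neg_one_pow (Even.add_one hi)]
    push_cast
    ring
  · rw [Even.neg_one_pow (Nat.not_even_iff_odd.1 hi).add_one]
    push_cast [h2]
    ring

end Cfsg.Agent.S2677
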