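import Mathlib
import Cfsg.Agent.Lib.Helper18.FieldEmb
import Cfsg.Agent.Lib.Helper18.StdForm
import Cfsg.Statements.S2678
-- import your own Cfsg.Agent.* helpers here

set_option autoImplicit false
open Cfsg Cfsg.Agent.Lib.Helper18 Matrix

namespace Cfsg.Agent.S2678

/-- Field-extension embedding of symplectic groups: for a field K with q² elements and a field F with q elements there is an injective homomorphism Sp_2a(K) → Sp_4a(F). -/
theorem result {K F : Type*} [Field K] [Fintype K] [Field F] [Fintype F] {q : ℕ} (hK : Fintype.card K = q ^ 2) (hF : Fintype.card F = q) (a : ℕ) : ∃ φ : ↥(Matrix.symplecticGroup (Fin a) K) →* ↥(Matrix.symplecticGroup (Fin (2 * a)) F), Function.Injective φ := by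
  classical
  obtain ⟨i⟩ := exists_ringHom_of_card_sq hF hK
  let _ : Algebra F K := i.toAlgebra
  have hsl : ∀ (c : F) (u v : Fin a ⊕ Fin a → K), sympB a K (c • u) v
      = algebraMap F K c * sympB a K u v := by
    intro c u v
    rw [← algebraMap_smul K c u, map_smul, LinearMap.smul_apply, smul_eq_mul]
  have hsr : ∀ (c : F) (u v : Fin a ⊕ Fin a → K), sympB a K u (c • v)
      = algebraMap F K c * sympB a K u v := by
    intro c u v
    rw [← algebraMap_smul K c v, map_smul, smul_eq_mul]
  let B := trBilin hF hK (fun u v => sympB a K u v)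
    (fun u u' v => by rw [map_add, LinearMap.add_apply]) (fun u v v' => by rw [map_add]) hsl hsr 1
  have hB : ∀ u v, B u v = trF hF hK (1 * sympB a K u v) := fun u v => rfl
  let ρ : ↥(Matrix.symplecticGroup (Fin a) K) →* Module.End F (Fin a ⊕ Fin a → K) :=
    (matRep (F := F) (Fin a ⊕ Fin a)).comp (Matrix.symplecticGroup (Fin a) K).subtype
  apply exists_hom_sp_of_rep B ?_ ?_ (2 * a) ?_ ρ ?_ ?_
  · intro u
    rw [hB, sympB_isAlt u, mul_zero, map_zero]
  · intro u hu
    obtain ⟨y0, hy0⟩ := sympB_nondeg u hu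
    obtain ⟨z0, hz0⟩ := exists_trF_eq_one hK
    refine ⟨(z0 / sympB a K u y0) • y0, ?_⟩
    rw [hB, Ne, trF_eq_zero_iff, map_smul, smul_eq_mul, one_mul, div_mul_cancel₀ _ hy0, hz0]
    exact one_ne_zero
  · rw [card_fun_big hF hK, Fintype.card_sum, Fintype.card_fin, two_mul a]
  · intro g h hgh
    apply Subtype.ext
    exact matRep_injective hgh
  · intro g u v
    rw [hB, hB]
    congr 2
    exact sympB_mulVec g.1 g.2 u v

end Cfsg.Agent.S2678
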