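import Mathlib
import Cfsg.Agent.Lib.Helper18.MinusPlus
import Cfsg.Agent.Lib.Helper18.StdForm
import Cfsg.Agent.Lib.Helper18.IsoReindex
import Cfsg.Statements.S2679
-- import your own Cfsg.Agent.* helpers here

set_option autoImplicit false
open Cfsg Cfsg.Agent.Lib.Helper18 Matrix

namespace Cfsg.Agent.S2679

/-- An elliptic orthogonal group embeds in the hyperbolic orthogonal group of the same dimension over the quadratic extension: for a field F with q elements and a field K with q² elements there is an injective homomorphism from O⁻_2m(F) (isometries of Σ_(j<m−1) x_j y_j + z₁² + a z₁z₂ + c z₂², binary part anisotropic) to O⁺_2m(K) (isometries of Σ_(j<m) x_j y_j over K). -/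
theorem result {F K : Type*} [Field F] [Fintype F] [Field K] [Fintype K] {q : ℕ} (hF : Fintype.card F = q) (hK : Fintype.card K = q ^ 2) {m : ℕ} (hm : 1 ≤ m) (a c : F) (hac : ∀ z₁ z₂ : F, z₁ ^ 2 + a * z₁ * z₂ + c * z₂ ^ 2 = 0 → z₁ = 0 ∧ z₂ = 0) : ∃ φ : ↥(Cfsg.isometryGroup F (Cfsg.quadFormMinus (m - 1) F a c)) →* ↥(Cfsg.isometryGroup K (Cfsg.quadFormPlus m K)), Function.Injective φ := by
  classical
  obtain ⟨k, rfl⟩ : ∃ k, m = k + 1 := ⟨m - 1, by omega⟩
  show ∃ φ : ↥(Cfsg.isometryGroup F (Cfsg.quadFormMinus k F a c)) →* ↥(Cfsg.isometryGroup K (Cfsg.quadFormPlus (k + 1) K)), Function.Injective φ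
  obtain ⟨i⟩ := exists_ringHom_of_card_sq hF hK
  let _ : Algebra F K := i.toAlgebra
  obtain ⟨t, ht1, ht2⟩ := exists_root_big (K := K) hF hK a c hac
  have hne : t ≠ t ^ q := by
    intro h
    obtain ⟨x, hx⟩ := algMap_surj_fix (F := F) hF hK t h.symm
    have h1 : x + x = a := by
      apply (algebraMap F K).injective
      rw [map_add, hx, ← ht1, ← h]
    have h2 : x * x = c := by
      apply (algebraMap F K).injective
      rw [map_mul, hx, ← ht2, pow_succ, ← h]
    have := hac (-x) 1 (by rw [← h1, ← h2]; ring)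
    exact one_ne_zero this.2
  obtain ⟨e, he⟩ := exists_minus_plus_equiv (k := k) (a := algebraMap F K a)
    (c := algebraMap F K c) t (t ^ q) ht1 (by rw [← ht2, pow_succ']) hne
  let ρ : ↥(Cfsg.isometryGroup F (Cfsg.quadFormMinus k F a c)) →*
      Module.End K ((Fin k ⊕ Fin k) ⊕ Fin 2 → K) :=
    { toFun := fun g => Matrix.mulVecLin ((g.1 : Matrix _ _ F).map (algebraMap F K))
      map_one' := by
        simp
        rfl
      map_mul' := by
        intro g h
        simp only [Subgroup.coe_mul, Units.val_mul, Matrix.map_mul, Matrix.mulVecLin_mul]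
        rfl }
  refine exists_hom_iso_of_equiv (Cfsg.quadFormMinus k K (algebraMap F K a) (algebraMap F K c))
    _ e he ρ ?_ ?_
  · intro g h hgh
    have h1 : (g.1.1 : Matrix _ _ F).map (algebraMap F K)
        = (h.1.1 : Matrix _ _ F).map (algebraMap F K) := by
      have h2 : Matrix.toLin' ((g.1.1 : Matrix _ _ F).map (algebraMap F K))
        = Matrix.toLin' ((h.1.1 : Matrix _ _ F).map (algebraMap F K)) := hgh
      exact Matrix.toLin'.injective h2
    apply Subtype.ext
    apply Units.ext
    ext x y
    apply (algebraMap F K).injective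
    have := congrFun (congrFun h1 x) y
    simpa using this
  · intro g v
    exact quadFormMinus_map_preserve (algebraMap F K) k a c _
      ((mem_isometryGroup_iff _ _).1 g.2) v

end Cfsg.Agent.S2679
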