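import Cfsg.Statements.S2722
import Cfsg.Agent.Lib.Helper15.AutPO4
import Cfsg.Agent.Lib.Helper15.Std

set_option autoImplicit false
open Cfsg

namespace Cfsg.Agent.S2722


open Cfsg.Agent.Lib.Helper15


/-- Let T = PΩ⁺_{2m}(F) with m ≥ 4 and |F| = q odd. Inside Aut(T), the image G̃ of the conformal orthogonal group of the form modulo the image of the special orthogonal group is elementary abelian of order 4. -/
theorem result {F : Type*} [Field F] [Fintype F] (hodd : Odd (Fintype.card F)) {m : ℕ} (hm : 4 ≤ m) :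
    (∃ φ : ↥(Cfsg.pgoAut F (Cfsg.quadFormPlus m F)) →* Multiplicative (ZMod 2 × ZMod 2), Function.Surjective φ ∧ φ.ker = (Cfsg.psoAut F (Cfsg.quadFormPlus m F)).subgroupOf (Cfsg.pgoAut F (Cfsg.quadFormPlus m F))) := by
  have h2 : (2 : F) ≠ 0 := by
    intro h
    have hc : ringChar F = 2 := (CharP.ringChar_of_prime_eq_zero Nat.prime_two (by exact_mod_cast h))
    have := FiniteField.even_card_of_char_two hc
    exact (Nat.not_even_iff_odd.2 hodd) (Nat.even_iff.2 this)
  have := pgo_mod_pso (plusQ m F) h2 (plusQ_nondegenerate m) (by simp; omega) (by simp)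
  rw [coe_plusQ] at this
  exact this

end Cfsg.Agent.S2722
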