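import Cfsg.Statements.S2723
import Cfsg.Agent.Lib.Helper15.AutPO5
import Cfsg.Agent.Lib.Helper15.Std
import Cfsg.Agent.S0790

set_option autoImplicit false
open Cfsg

namespace Cfsg.Agent.S2723


open Cfsg.Agent.Lib.Helper15

theorem pow_mod_four (q m : ℕ) (hq : Odd q) : q ^ m % 4 = 1 ↔ ¬ (Odd m ∧ q % 4 = 3) := by
  have h9 : ∀ k, 9 ^ k % 4 = 1 := fun k => by rw [Nat.pow_mod]; simp
  have hq' : q % 4 = 1 ∨ q % 4 = 3 := by
    obtain ⟨t, rfl⟩ := hq
    omega
  rcases hq' with h | h
  · rw [Nat.pow_mod, h]; simp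
  · rw [Nat.pow_mod, h]
    rcases Nat.even_or_odd m with ⟨k, rfl⟩ | ⟨k, rfl⟩
    · have : 3 ^ (k + k) = 9 ^ k := by rw [← two_mul, pow_mul]; norm_num
      rw [this, h9]
      simp
    · have : 3 ^ (2 * k + 1) = 3 * 9 ^ k := by rw [pow_succ, pow_mul]; norm_num; ring
      rw [this, Nat.mul_mod, h9]
      simp


/-- Let T = PΩ⁺_{2m}(F) with m ≥ 4 and |F| = q odd. The image of the special orthogonal group in Aut(T) contains the inner automorphism group T with index 1 (they coincide) when m is odd and q ≡ 3 (mod 4), and with index 2 otherwise (the index is 2 exactly when the discriminant of the form is a square). -/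
theorem result {F : Type*} [Field F] [Fintype F] (hodd : Odd (Fintype.card F)) {m : ℕ} (hm : 4 ≤ m) :
    ((Odd m ∧ Fintype.card F % 4 = 3) → (Cfsg.Inn (Cfsg.POmega F (Cfsg.quadFormPlus m F))).relIndex (Cfsg.psoAut F (Cfsg.quadFormPlus m F)) = 1) ∧ (¬ (Odd m ∧ Fintype.card F % 4 = 3) → (Cfsg.Inn (Cfsg.POmega F (Cfsg.quadFormPlus m F))).relIndex (Cfsg.psoAut F (Cfsg.quadFormPlus m F)) = 2) := by
  classical
  have h2 : (2 : F) ≠ 0 := by
    intro h
    have hc : ringChar F = 2 := (CharP.ringChar_of_prime_eq_zero Nat.prime_two (by exact_mod_cast h))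
    have := FiniteField.even_card_of_char_two hc
    exact (Nat.not_even_iff_odd.2 hodd) (Nat.even_iff.2 this)
  have := relIndex_inn_pso (plusQ m F) h2 (plusQ_nondegenerate m) (by simp; omega) (by simp)
  rw [negIso_mem_iff, coe_plusQ, Cfsg.Agent.S0790.result rfl hodd m (by omega), pow_mod_four _ _ hodd] at this
  exact ⟨fun h => this.2 (not_not.2 h), this.1⟩

end Cfsg.Agent.S2723
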