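import Cfsg.Statements.S2724
import Cfsg.Agent.Lib.Helper15.AutPO6
import Cfsg.Agent.Lib.Helper15.Std
import Cfsg.Agent.S0790
import Cfsg.Agent.S2723

set_option autoImplicit false
open Cfsg

namespace Cfsg.Agent.S2724


open Cfsg.Agent.Lib.Helper15


/-- Let T = PΩ⁺_{2m}(F) with m ≥ 4 and |F| = q odd. The image G̃ of the conformal orthogonal group in Aut(T), taken modulo the inner automorphism group T, is elementary abelian of order 4 when m is odd and q ≡ 3 (mod 4), and dihedral of order 8 otherwise. -/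
theorem result {F : Type*} [Field F] [Fintype F] (hodd : Odd (Fintype.card F)) {m : ℕ} (hm : 4 ≤ m) :
    ((Odd m ∧ Fintype.card F % 4 = 3) → (∃ φ : ↥(Cfsg.pgoAut F (Cfsg.quadFormPlus m F)) →* Multiplicative (ZMod 2 × ZMod 2), Function.Surjective φ ∧ φ.ker = (Cfsg.Inn (Cfsg.POmega F (Cfsg.quadFormPlus m F))).subgroupOf (Cfsg.pgoAut F (Cfsg.quadFormPlus m F)))) ∧ (¬ (Odd m ∧ Fintype.card F % 4 = 3) → (∃ φ : ↥(Cfsg.pgoAut F (Cfsg.quadFormPlus m F)) →* DihedralGroup 4, Function.Surjective φ ∧ φ.ker = (Cfsg.Inn (Cfsg.POmega F (Cfsg.quadFormPlus m F))).subgroupOf (Cfsg.pgoAut F (Cfsg.quadFormPlus m F)))) := by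
  classical
  have h2 : (2 : F) ≠ 0 := by
    intro h
    have hc : ringChar F = 2 := (CharP.ringChar_of_prime_eq_zero Nat.prime_two (by exact_mod_cast h))
    have := FiniteField.even_card_of_char_two hc
    exact (Nat.not_even_iff_odd.2 hodd) (Nat.even_iff.2 this)
  have hiff : negIso (plusQ m F) ∈ Cfsg.Omega F ⇑(plusQ m F) ↔ ¬ (Odd m ∧ Fintype.card F % 4 = 3) := by
    rw [negIso_mem_iff, coe_plusQ, Cfsg.Agent.S0790.result rfl hodd m (by omega),
      Cfsg.Agent.S2723.pow_mod_four _ _ hodd]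
  have hc : 5 ≤ Fintype.card (Fin m ⊕ Fin m) := by simp; omega
  have he : Even (Fintype.card (Fin m ⊕ Fin m)) := by simp
  constructor
  · intro h
    have hA := pgo_mod_inn_klein (plusQ m F) h2 (plusQ_nondegenerate m) hc he (fun h' => hiff.1 h' h)
    rw [coe_plusQ] at hA
    exact hA
  · intro h
    have hB := pgo_mod_inn_dihedral (plusQ m F) h2 (plusQ_nondegenerate m) hc he (hiff.2 h)
    rw [coe_plusQ] at hB
    exact hB

end Cfsg.Agent.S2724
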