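import Cfsg.Statements.S2725
import Cfsg.Agent.Lib.Helper15.AutPO8
import Cfsg.Agent.S0790
import Cfsg.Agent.S2723

set_option autoImplicit false
open Cfsg

namespace Cfsg.Agent.S2725


open Cfsg.Agent.Lib.Helper15 Matrix QuadraticMap Module

universe u

variable {m : ℕ} {F : Type u} [Field F] [Fintype F] [DecidableEq F]

theorem inndiag_eq (h2 : (2 : F) ≠ 0) (hm : 1 ≤ m) (hc : 1 ≤ Fintype.card (Fin m ⊕ Fin m))
    (hk : Fintype.card (Fin m ⊕ Fin m) = 2 * m) :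
    Cfsg.autSubgroupOf (fun β : Cfsg.POmega F ⇑(plusQ m F) ≃* Cfsg.POmega F ⇑(plusQ m F) =>
      ∃ g : GL (Fin m ⊕ Fin m) F, g ∈ Cfsg.Geo.quadSimilarityGroup (F := F) ⇑(plusQ m F) ∧
        Cfsg.PreservesSingularClasses ⇑(plusQ m F) (g : Matrix (Fin m ⊕ Fin m) (Fin m ⊕ Fin m) F) ∧
        Cfsg.IsInducedBySemilinearPOmega ⇑(plusQ m F) g (RingEquiv.refl F) β)
      = pgozAut (plusQ m F) h2 (plusQ_nondegenerate m) hc m hk := by
  unfold pgozAut
  rw [← autSubgroupOf_eq_map _ _ (GOz_le _ h2 _ hc m hk)]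
  congr 1
  funext β
  apply propext
  constructor
  · rintro ⟨g, hg, hp, hi⟩
    refine ⟨g, ?_, hi⟩
    have := (mem_GOz (plusQ m F) h2 (plusQ_nondegenerate m) hc m hk ⟨g, hg⟩).2
      ((dsign_eq_one_iff _ h2 _ hc m hk _).2 ((preserves_iff h2 hm ⟨g, hg⟩).1 hp))
    exact this
  · rintro ⟨g, hg, hi⟩
    have hg' := GOz_le _ h2 _ hc m hk hg
    refine ⟨g, hg', ?_, hi⟩
    exact (preserves_iff h2 hm ⟨g, hg'⟩).2 ((dsign_eq_one_iff _ h2 _ hc m hk _).1
      ((mem_GOz (plusQ m F) h2 (plusQ_nondegenerate m) hc m hk ⟨g, hg'⟩).1 hg))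

theorem exists_nu (h2 : (2 : F) ≠ 0) : ∃ ν : Fˣ, sqs (ν : F) = -1 := by
  obtain ⟨ν, hν⟩ := exists_nonsquare' (F := F) h2
  have hν0 : ν ≠ 0 := by
    rintro rfl
    exact hν ⟨0, by simp⟩
  refine ⟨Units.mk0 ν hν0, ?_⟩
  rcases Int.units_eq_one_or (sqs ν) with h | h
  · exact absurd ((sqs_eq_one_iff ν).1 h) hν
  · exact h

theorem caseA (h2 : (2 : F) ≠ 0) (hm : 3 ≤ m) (hc : 1 ≤ Fintype.card (Fin m ⊕ Fin m))
    (hk : Fintype.card (Fin m ⊕ Fin m) = 2 * m) (hneg : negIso (plusQ m F) ∉ Cfsg.Omega F ⇑(plusQ m F))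
    (R : Subgroup (MulAut (Cfsg.POmega F ⇑(plusQ m F))))
    (hR : R = pgozAut (plusQ m F) h2 (plusQ_nondegenerate m) hc m hk) :
    ∃ φ : ↥R →* Multiplicative (ZMod 2),
      Function.Surjective φ ∧ φ.ker = (Cfsg.Inn (Cfsg.POmega F ⇑(plusQ m F))).subgroupOf R := by
  subst hR
  have hQ := plusQ_nondegenerate (F := F) m
  let e : ℤˣ ≃* Multiplicative (ZMod 2) := mulEquivOfPrimeCardEq (p := 2) (by simp) (by simp)
  let σ : GOz (plusQ m F) h2 hQ hc m hk →* ℤˣ :=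
    ((sqsHom h2).comp (multHom (plusQ m F) hQ hc)).comp (Subgroup.inclusion (GOz_le _ h2 _ hc m hk))
  apply exists_hom_aut (plusQ m F) hQ (by omega) _ _ (GOz_le _ h2 _ hc m hk) (omegaGL_le_GO _)
    (e.toMonoidHom.comp σ) _ _ _ _ rfl (Inn_eq_map _)
  · apply e.surjective.comp
    intro b
    rcases Int.units_eq_one_or b with rfl | rfl
    · exact ⟨1, map_one _⟩
    · obtain ⟨ν, hν⟩ := exists_nu (F := F) h2
      refine ⟨⟨ddGL m ν, (mem_GOz _ h2 hQ hc m hk (ddGO m ν)).2 (dsign_ddGO h2 (by omega) hc hk ν)⟩, ?_⟩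
      show sqs (mult (plusQ m F) (ddGO m ν) : F) = -1
      rw [mult_ddGO (by omega), hν]
  · intro x
    rw [MonoidHom.comp_apply]
    refine (e.map_eq_one_iff).trans ?_
    refine Iff.trans ?_ (psi1_eq_one_iff_omega (plusQ m F) h2 hQ (by omega) m hk hneg
      (Subgroup.inclusion (GOz_le _ h2 _ hc m hk) x))
    rw [psi1_apply, Prod.mk_eq_one]
    constructor
    · intro h
      exact ⟨(mem_GOz _ h2 hQ hc m hk _).1 x.2, h⟩
    · intro h
      exact h.2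

theorem caseB (h2 : (2 : F) ≠ 0) (hm : 3 ≤ m) (hc : 1 ≤ Fintype.card (Fin m ⊕ Fin m))
    (hk : Fintype.card (Fin m ⊕ Fin m) = 2 * m) (hneg : negIso (plusQ m F) ∈ Cfsg.Omega F ⇑(plusQ m F))
    (hodd : Odd m) (R : Subgroup (MulAut (Cfsg.POmega F ⇑(plusQ m F))))
    (hR : R = pgozAut (plusQ m F) h2 (plusQ_nondegenerate m) hc m hk) :
    ∃ φ : ↥R →* Multiplicative (ZMod 4),
      Function.Surjective φ ∧ φ.ker = (Cfsg.Inn (Cfsg.POmega F ⇑(plusQ m F))).subgroupOf R := by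
  subst hR
  have hQ := plusQ_nondegenerate (F := F) m
  have : ((Cfsg.Inn (Cfsg.POmega F ⇑(plusQ m F))).subgroupOf (pgozAut (plusQ m F) h2 hQ hc m hk)).Normal :=
    (Cfsg.innNormal _).subgroupOf _
  obtain ⟨ν, hν⟩ := exists_nu (F := F) h2
  apply exists_hom_zmod_four _ (relIndex_inn_pgoz (plusQ m F) h2 hQ (by omega) m hk hneg)
    (toR _ h2 hQ hc m hk (ddGO m ν) (dsign_ddGO h2 (by omega) hc hk ν))
  rw [toR_sq_mem_iff, ddGO_sq_mem_iff h2 hm hneg ν hν]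
  exact Nat.not_even_iff_odd.2 hodd

theorem caseC (h2 : (2 : F) ≠ 0) (hm : 3 ≤ m) (hc : 1 ≤ Fintype.card (Fin m ⊕ Fin m))
    (hk : Fintype.card (Fin m ⊕ Fin m) = 2 * m) (hneg : negIso (plusQ m F) ∈ Cfsg.Omega F ⇑(plusQ m F))
    (heven : Even m) (R : Subgroup (MulAut (Cfsg.POmega F ⇑(plusQ m F))))
    (hR : R = pgozAut (plusQ m F) h2 (plusQ_nondegenerate m) hc m hk) :
    ∃ φ : ↥R →* Multiplicative (ZMod 2 × ZMod 2),
      Function.Surjective φ ∧ φ.ker = (Cfsg.Inn (Cfsg.POmega F ⇑(plusQ m F))).subgroupOf R := by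
  subst hR
  have hQ := plusQ_nondegenerate (F := F) m
  have hn : 5 ≤ Fintype.card (Fin m ⊕ Fin m) := by omega
  have hc2 : 2 ≤ Fintype.card (Fin m ⊕ Fin m) := by omega
  have : ((Cfsg.Inn (Cfsg.POmega F ⇑(plusQ m F))).subgroupOf (pgozAut (plusQ m F) h2 hQ hc m hk)).Normal :=
    (Cfsg.innNormal _).subgroupOf _
  obtain ⟨ν, hν⟩ := exists_nu (F := F) h2
  obtain ⟨t, ht⟩ := spin_surjective (plusQ m F) h2 hc2 hQ (1, -1)
  have htdet : ((t : GL (Fin m ⊕ Fin m) F) : Matrix (Fin m ⊕ Fin m) (Fin m ⊕ Fin m) F).det = 1 := by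
    rw [← spin_fst_eq_one_iff (plusQ m F) h2 hc2 hQ, ht]
  have htd : dsign (plusQ m F) h2 hQ hc m hk (isoToGO _ t) = 1 :=
    dsign_of_proj_SO _ h2 hQ hc m hk _ ⟨t, ⟨t.2, Units.ext htdet⟩, by
      rw [isoToGO_coe, mul_inv_cancel]; exact Subgroup.one_mem _⟩
  apply exists_hom_klein _ (relIndex_inn_pgoz (plusQ m F) h2 hQ hn m hk hneg)
    (toR _ h2 hQ hc m hk (ddGO m ν) (dsign_ddGO h2 (by omega) hc hk ν))
    (toR _ h2 hQ hc m hk (isoToGO _ t) htd)
  · rw [toR_mem_iff]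
    intro h
    have := sqs_mult_of_mem_innGO _ hQ hn _ h
    rw [mult_ddGO (by omega), hν] at this
    exact absurd this (by decide)
  · rw [toR_mem_iff, isoToGO_mem_innGO _ hQ hn hneg, ← spin_ker _ h2 hc2 hQ, MonoidHom.mem_ker, ht]
    decide
  · rw [toR_inv_mul_mem_iff]
    intro h
    have := sqs_mult_of_mem_innGO _ hQ hn _ h
    have h1 := map_mul (multHom (plusQ m F) hQ hc) (ddGO m ν)⁻¹ (isoToGO _ t)
    rw [map_inv, multHom_apply, multHom_apply, multHom_apply, mult_ddGO (by omega), mult_isoToGO _ hQ hc,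
      mul_one] at h1
    rw [h1, ← sqsHom_apply h2, map_inv, sqsHom_apply, hν] at this
    exact absurd this (by decide)
  · rw [toR_sq_mem_iff, ddGO_sq_mem_iff h2 hm hneg ν hν]
    exact heven
  · rw [toR_sq_mem_iff, ← map_pow, isoToGO_mem_innGO _ hQ hn hneg, ← spin_ker _ h2 hc2 hQ, MonoidHom.mem_ker,
      map_pow, ht]
    decide


/-- Let T = PΩ⁺_{2m}(F) with m ≥ 4 and |F| = q odd. The inner-diagonal group G = Inndiag(T) (image of the class-preserving similarities) taken modulo the inner automorphism group T is cyclic of order 2 when m is odd and q ≡ 3 (mod 4), cyclic of order 4 when m is odd and q ≡ 1 (mod 4), and elementary abelian of order 4 when m is even. -/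
theorem result {F : Type*} [Field F] [Fintype F] (hodd : Odd (Fintype.card F)) {m : ℕ} (hm : 4 ≤ m) :
    ((Odd m ∧ Fintype.card F % 4 = 3) → (∃ φ : ↥(Cfsg.inndiagPOmegaPlus m F) →* Multiplicative (ZMod 2), Function.Surjective φ ∧ φ.ker = (Cfsg.Inn (Cfsg.POmega F (Cfsg.quadFormPlus m F))).subgroupOf (Cfsg.inndiagPOmegaPlus m F))) ∧ ((Odd m ∧ Fintype.card F % 4 = 1) → (∃ φ : ↥(Cfsg.inndiagPOmegaPlus m F) →* Multiplicative (ZMod 4), Function.Surjective φ ∧ φ.ker = (Cfsg.Inn (Cfsg.POmega F (Cfsg.quadFormPlus m F))).subgroupOf (Cfsg.inndiagPOmegaPlus m F))) ∧ (Even m → (∃ φ : ↥(Cfsg.inndiagPOmegaPlus m F) →* Multiplicative (ZMod 2 × ZMod 2), Function.Surjective φ ∧ φ.ker = (Cfsg.Inn (Cfsg.POmega F (Cfsg.quadFormPlus m F))).subgroupOf (Cfsg.inndiagPOmegaPlus m F))) := by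
  classical
  have h2 : (2 : F) ≠ 0 := by
    intro h
    have hc : ringChar F = 2 := (CharP.ringChar_of_prime_eq_zero Nat.prime_two (by exact_mod_cast h))
    have := FiniteField.even_card_of_char_two hc
    exact (Nat.not_even_iff_odd.2 hodd) (Nat.even_iff.2 this)
  have hiff : negIso (plusQ m F) ∈ Cfsg.Omega F ⇑(plusQ m F) ↔ ¬ (Odd m ∧ Fintype.card F % 4 = 3) := by
    rw [negIso_mem_iff, coe_plusQ, Cfsg.Agent.S0790.result rfl hodd m (by omega),
      Cfsg.Agent.S2723.pow_mod_four _ _ hodd]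
  have hk : Fintype.card (Fin m ⊕ Fin m) = 2 * m := by simp; ring
  have hc : 1 ≤ Fintype.card (Fin m ⊕ Fin m) := by omega
  have heq := inndiag_eq (F := F) h2 (by omega : 1 ≤ m) hc hk
  refine ⟨fun h => ?_, fun h => ?_, fun h => ?_⟩
  · have hA := caseA h2 (by omega) hc hk (fun h' => hiff.1 h' h) _ heq
    rw [coe_plusQ] at hA
    exact hA
  · have hB := caseB h2 (by omega) hc hk (hiff.2 (fun h' => by omega)) h.1 _ heq
    rw [coe_plusQ] at hB
    exact hB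
  · have hC := caseC h2 (by omega) hc hk (hiff.2 (fun h' => (Nat.not_even_iff_odd.2 h'.1) h)) h _ heq
    rw [coe_plusQ] at hC
    exact hC

end Cfsg.Agent.S2725
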