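import Cfsg.Statements.S2727
import Cfsg.Agent.Lib.Helper15.AutPO5
import Cfsg.Agent.Lib.Helper15.Std
import Cfsg.Agent.S0791

set_option autoImplicit false
open Cfsg

namespace Cfsg.Agent.S2727


open Cfsg.Agent.Lib.Helper15

theorem pow_mod_four (q m : ℕ) (hq : Odd q) : q ^ (m + 1) % 4 = 3 ↔ (Even m ∧ q % 4 = 3) := by
  have h9 : ∀ k, 9 ^ k % 4 = 1 := fun k => by rw [Nat.pow_mod]; simp
  have hq' : q % 4 = 1 ∨ q % 4 = 3 := by
    obtain ⟨t, rfl⟩ := hq
    omega
  rcases hq' with h | h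
  · rw [Nat.pow_mod, h]; simp
  · rw [Nat.pow_mod, h]
    rcases Nat.even_or_odd m with ⟨k, rfl⟩ | ⟨k, rfl⟩
    · have : 3 ^ (k + k + 1) = 3 * 9 ^ k := by rw [pow_succ, ← two_mul, pow_mul]; norm_num; ring
      rw [this, Nat.mul_mod, h9]
      simp
    · have : 3 ^ (2 * k + 1 + 1) = 9 ^ (k + 1) := by
        rw [show 2 * k + 1 + 1 = 2 * (k + 1) by ring, pow_mul]; norm_num
      rw [this, h9]
      simp


/-- Let T = PΩ⁻_{2m+2}(F) with m ≥ 3 and |F| = q odd (form with anisotropic binary part). The image of the special orthogonal group in Aut(T) contains the inner automorphism group T with index 2 when m is even and q ≡ 3 (mod 4), and coincides with it otherwise (the index is 2 exactly when the discriminant of the form is a square). -/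
theorem result {F : Type*} [Field F] [Fintype F] (hodd : Odd (Fintype.card F)) {m : ℕ} (hm : 3 ≤ m) (a b : F) (hab : (∀ z₁ z₂ : F, z₁ ^ 2 + a * z₁ * z₂ + b * z₂ ^ 2 = 0 → z₁ = 0 ∧ z₂ = 0)) :
    ((Even m ∧ Fintype.card F % 4 = 3) → (Cfsg.Inn (Cfsg.POmega F (Cfsg.quadFormMinus m F a b))).relIndex (Cfsg.psoAut F (Cfsg.quadFormMinus m F a b)) = 2) ∧ (¬ (Even m ∧ Fintype.card F % 4 = 3) → (Cfsg.Inn (Cfsg.POmega F (Cfsg.quadFormMinus m F a b))).relIndex (Cfsg.psoAut F (Cfsg.quadFormMinus m F a b)) = 1) := by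
  classical
  have h2 : (2 : F) ≠ 0 := by
    intro h
    have hc : ringChar F = 2 := (CharP.ringChar_of_prime_eq_zero Nat.prime_two (by exact_mod_cast h))
    have := FiniteField.even_card_of_char_two hc
    exact (Nat.not_even_iff_odd.2 hodd) (Nat.even_iff.2 this)
  have := relIndex_inn_pso (minusQ m F a b) h2 (minusQ_nondegenerate m a b hab) (by simp; omega) (by simp; exact ⟨m + 1, by ring⟩)
  have h791 := Cfsg.Agent.S0791.result rfl hodd (m + 1) (by omega) a b hab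
  rw [negIso_mem_iff, coe_minusQ, show (∃ g : ↥(Cfsg.isometryGroup F (Cfsg.quadFormMinus m F a b)), g ∈ Cfsg.Omega F (Cfsg.quadFormMinus m F a b) ∧ ((g : Matrix.GeneralLinearGroup ((Fin m ⊕ Fin m) ⊕ Fin 2) F) : Matrix ((Fin m ⊕ Fin m) ⊕ Fin 2) ((Fin m ⊕ Fin m) ⊕ Fin 2) F) = -1) ↔ _ from h791, pow_mod_four _ _ hodd] at this
  exact this

end Cfsg.Agent.S2727
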