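import Cfsg.Statements.S2728
import Cfsg.Agent.Lib.Helper15.AutPO6
import Cfsg.Agent.Lib.Helper15.Std
import Cfsg.Agent.S0791
import Cfsg.Agent.S2727

set_option autoImplicit false
open Cfsg

namespace Cfsg.Agent.S2728


open Cfsg.Agent.Lib.Helper15


/-- Let T = PΩ⁻_{2m+2}(F) with m ≥ 3 and |F| = q odd (form with anisotropic binary part). The image G̃ of the conformal orthogonal group in Aut(T), taken modulo the inner automorphism group T, is dihedral of order 8 when m is even and q ≡ 3 (mod 4), and elementary abelian of order 4 otherwise. -/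
theorem result {F : Type*} [Field F] [Fintype F] (hodd : Odd (Fintype.card F)) {m : ℕ} (hm : 3 ≤ m) (a b : F) (hab : (∀ z₁ z₂ : F, z₁ ^ 2 + a * z₁ * z₂ + b * z₂ ^ 2 = 0 → z₁ = 0 ∧ z₂ = 0)) :
    ((Even m ∧ Fintype.card F % 4 = 3) → (∃ φ : ↥(Cfsg.pgoAut F (Cfsg.quadFormMinus m F a b)) →* DihedralGroup 4, Function.Surjective φ ∧ φ.ker = (Cfsg.Inn (Cfsg.POmega F (Cfsg.quadFormMinus m F a b))).subgroupOf (Cfsg.pgoAut F (Cfsg.quadFormMinus m F a b)))) ∧ (¬ (Even m ∧ Fintype.card F % 4 = 3) → (∃ φ : ↥(Cfsg.pgoAut F (Cfsg.quadFormMinus m F a b)) →* Multiplicative (ZMod 2 × ZMod 2), Function.Surjective φ ∧ φ.ker = (Cfsg.Inn (Cfsg.POmega F (Cfsg.quadFormMinus m F a b))).subgroupOf (Cfsg.pgoAut F (Cfsg.quadFormMinus m F a b)))) := by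
  classical
  have h2 : (2 : F) ≠ 0 := by
    intro h
    have hc : ringChar F = 2 := (CharP.ringChar_of_prime_eq_zero Nat.prime_two (by exact_mod_cast h))
    have := FiniteField.even_card_of_char_two hc
    exact (Nat.not_even_iff_odd.2 hodd) (Nat.even_iff.2 this)
  have h791 := Cfsg.Agent.S0791.result rfl hodd (m + 1) (by omega) a b hab
  have hiff : negIso (minusQ m F a b) ∈ Cfsg.Omega F ⇑(minusQ m F a b) ↔ (Even m ∧ Fintype.card F % 4 = 3) := by
    rw [negIso_mem_iff, coe_minusQ, show (∃ g : ↥(Cfsg.isometryGroup F (Cfsg.quadFormMinus m F a b)), g ∈ Cfsg.Omega F (Cfsg.quadFormMinus m F a b) ∧ ((g : Matrix.GeneralLinearGroup ((Fin m ⊕ Fin m) ⊕ Fin 2) F) : Matrix ((Fin m ⊕ Fin m) ⊕ Fin 2) ((Fin m ⊕ Fin m) ⊕ Fin 2) F) = -1) ↔ _ from h791, Cfsg.Agent.S2727.pow_mod_four _ _ hodd]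
  have hc : 5 ≤ Fintype.card ((Fin m ⊕ Fin m) ⊕ Fin 2) := by simp; omega
  have he : Even (Fintype.card ((Fin m ⊕ Fin m) ⊕ Fin 2)) := by simp; exact ⟨m + 1, by ring⟩
  constructor
  · intro h
    have hB := pgo_mod_inn_dihedral (minusQ m F a b) h2 (minusQ_nondegenerate m a b hab) hc he (hiff.2 h)
    rw [coe_minusQ] at hB
    exact hB
  · intro h
    have hA := pgo_mod_inn_klein (minusQ m F a b) h2 (minusQ_nondegenerate m a b hab) hc he (fun h' => h (hiff.1 h'))
    rw [coe_minusQ] at hA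
    exact hA

end Cfsg.Agent.S2728
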