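import Mathlib
import Cfsg.Agent.Lib.Helper18.SLCard2
import Cfsg.Agent.S0248
import Cfsg.Statements.S2738
-- import your own Cfsg.Agent.* helpers here

set_option autoImplicit false
open Cfsg Cfsg.Agent.Lib.Helper18 Matrix
open scoped commutatorElement

namespace Cfsg.Agent.S2738

lemma comm_of_central {G : Type*} [Group G] (z₁ z₂ k₁ k₂ : G) (h1 : z₁ ∈ Subgroup.center G)
    (h2 : z₂ ∈ Subgroup.center G) :
    (z₁ * k₁) * (z₂ * k₂) * (z₁ * k₁)⁻¹ * (z₂ * k₂)⁻¹ = k₁ * k₂ * k₁⁻¹ * k₂⁻¹ := by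
  have c1 : ∀ x, x * z₁ = z₁ * x := fun x => (Subgroup.mem_center_iff.1 h1 x)
  have c2 : ∀ x, x * z₂ = z₂ * x := fun x => (Subgroup.mem_center_iff.1 h2 x)
  have e1 : (z₁ * k₁) * (z₂ * k₂) = (k₁ * k₂) * (z₂ * z₁) := by
    rw [← c1 k₁, ← c2 k₂, mul_assoc k₁ z₁, ← mul_assoc z₁ k₂, ← c1 k₂]
    simp only [mul_assoc]
    rw [c1 z₂]
  have e2 : (z₁ * k₁)⁻¹ * (z₂ * k₂)⁻¹ = (z₂ * z₁)⁻¹ * (k₁⁻¹ * k₂⁻¹) := by
    rw [← _root_.mul_inv_rev, ← _root_.mul_inv_rev, ← _root_.mul_inv_rev]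
    congr 1
    rw [← c1 k₁, mul_assoc z₂, ← mul_assoc k₂, ← mul_assoc z₂, ← c2 (k₂ * k₁), mul_assoc]
  rw [mul_assoc, e1, e2]
  group


/-- The special linear group SL(3, 4) has centre of order 3 and does not split over it: no subgroup is a complement to the centre (so SL(3, 4) is a non-split central extension of PSL(3, 4) by a group of order 3). -/
theorem result (F : Type*) [Field F] [Fintype F] (hF : Fintype.card F = 4) : Nat.card ↥(Subgroup.center (Matrix.SpecialLinearGroup (Fin 3) F)) = 3 ∧ ¬ ∃ K : Subgroup (Matrix.SpecialLinearGroup (Fin 3) F), Subgroup.IsComplement' (Subgroup.center (Matrix.SpecialLinearGroup (Fin 3) F)) K := by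
  classical
  have hZ : Nat.card ↥(Subgroup.center (Matrix.SpecialLinearGroup (Fin 3) F)) = 3 := by
    rw [card_center_SL 3 (by norm_num), hF]
    rfl
  refine ⟨hZ, ?_⟩
  rintro ⟨K, hK⟩
  have hperf := Cfsg.Agent.S0248.result (F := F) 3 le_rfl
  have hle : commutator (Matrix.SpecialLinearGroup (Fin 3) F) ≤ K := by
    rw [commutator_def, Subgroup.commutator_le]
    intro g₁ _ g₂ _
    obtain ⟨⟨z₁, k₁⟩, h1⟩ := hK.2 g₁
    obtain ⟨⟨z₂, k₂⟩, h2⟩ := hK.2 g₂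
    have h1' : (z₁ : Matrix.SpecialLinearGroup (Fin 3) F) * k₁ = g₁ := h1
    have h2' : (z₂ : Matrix.SpecialLinearGroup (Fin 3) F) * k₂ = g₂ := h2
    rw [← h1', ← h2', commutatorElement_def, comm_of_central _ _ _ _ z₁.2 z₂.2]
    exact K.mul_mem (K.mul_mem (K.mul_mem k₁.2 k₂.2) (K.inv_mem k₁.2)) (K.inv_mem k₂.2)
  have hKtop : K = ⊤ := top_le_iff.1 (hperf ▸ hle)
  have h3 := hK.card_mul_card
  rw [hZ, hKtop, Subgroup.card_top] at h3
  have hpos : 0 < Nat.card (Matrix.SpecialLinearGroup (Fin 3) F) := Nat.card_pos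
  omega

end Cfsg.Agent.S2738
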