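import Mathlib
import Cfsg.Statements.S2739
import Cfsg.Agent.H14.L34

set_option autoImplicit false
open scoped Pointwise
open Cfsg

namespace Cfsg.Agent.S2739

open Cfsg.Agent.H14 in
theorem key (F : Type*) [Field F] [Fintype F] (hF : Fintype.card F = 4) :
    ∃ a : Matrix.ProjectiveSpecialLinearGroup (Fin 3) F,
      ∀ X : Subgroup (Matrix.ProjectiveSpecialLinearGroup (Fin 3) F), Nat.card ↥X = 3 →
        ∃ g : Matrix.ProjectiveSpecialLinearGroup (Fin 3) F,
          MulAut.conj g • X = Subgroup.zpowers a := by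
  classical
  have h2 := two_eq_zero_of_card_four hF
  obtain ⟨w, hw⟩ := exists_omega hF
  have hw1 : w ≠ 1 := by
    rintro rfl
    have : (1 : F) = 0 := by linear_combination hw - h2
    exact one_ne_zero this
  have hcard : Nat.card (Matrix.ProjectiveSpecialLinearGroup (Fin 3) F) = 20160 := by
    have := Cfsg.Agent.S0243.result hF 3 (by norm_num)
    rw [Fin.prod_univ_three] at this
    have g : Nat.gcd 3 (4 - 1) = 3 := by norm_num
    rw [g] at this
    norm_num at this
    rw [Nat.card_eq_fintype_card]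
    omega
  haveI : Finite (Matrix.SpecialLinearGroup (Fin 3) F) :=
    Finite.of_injective Subtype.val Subtype.val_injective
  haveI : Finite (Matrix.ProjectiveSpecialLinearGroup (Fin 3) F) :=
    inferInstanceAs (Finite (_ ⧸ _))
  let a : Matrix.SpecialLinearGroup (Fin 3) F := ⟨mA w, det_mA w hw h2⟩
  let b : Matrix.SpecialLinearGroup (Fin 3) F := ⟨mS, det_mS w hw h2⟩
  let M : Matrix.SpecialLinearGroup (Fin 3) F := ⟨mM w, det_mM w hw h2⟩
  let M' : Matrix.SpecialLinearGroup (Fin 3) F := ⟨mM' w, det_mM' w hw h2⟩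
  let Z : Matrix.SpecialLinearGroup (Fin 3) F := ⟨mZ w, det_mZ w hw h2⟩
  have r1 : M * a = b * M := Subtype.ext (rel1 w hw h2)
  have r2 : M * b = a * a * M := Subtype.ext (rel2 w hw h2)
  have r3 : M' * a = Z * Z * a * b * M' := Subtype.ext (rel3 w hw h2)
  have r4 : M' * b = Z * Z * b * b * a * M' := Subtype.ext (rel4 w hw h2)
  have r7 : b * a = Z * a * b := Subtype.ext (rel7 w hw h2)
  have r8 : a * a * a = 1 := Subtype.ext (rel8 w hw h2)
  have r9 : b * b * b = 1 := Subtype.ext (rel9 w hw h2)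
  have hZ : Z ∈ Subgroup.center (Matrix.SpecialLinearGroup (Fin 3) F) := by
    rw [Subgroup.mem_center_iff]
    intro g
    exact Subtype.ext (mZ_comm w _)
  have hZ1 : Z ≠ 1 := by
    intro h
    have := congrArg (fun x : Matrix.SpecialLinearGroup (Fin 3) F =>
      (x : Matrix (Fin 3) (Fin 3) F) 0 0) h
    apply hw1
    simpa [Z, mZ] using this
  have hnc : a * b ≠ b * a := by
    intro h
    apply hZ1
    rw [r7, mul_assoc] at h
    exact (mul_eq_right.mp h.symm)
  let π : Matrix.SpecialLinearGroup (Fin 3) F →* Matrix.ProjectiveSpecialLinearGroup (Fin 3) F :=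
    QuotientGroup.mk' _
  have hπZ : π Z = 1 := (QuotientGroup.eq_one_iff Z).mpr hZ
  have hπ1 : ∀ x, π x = 1 → x ∈ Subgroup.center (Matrix.SpecialLinearGroup (Fin 3) F) :=
    fun x hx => (QuotientGroup.eq_one_iff x).mp hx
  have hab : π a * π b = π b * π a := by
    rw [← map_mul (f := π) b a, r7, map_mul, map_mul, hπZ, one_mul]
  have ha3 : π a ^ 3 = 1 := by
    rw [← map_pow, pow_succ, pow_two, r8, map_one]
  have hb3 : π b ^ 3 = 1 := by
    rw [← map_pow, pow_succ, pow_two, r9, map_one]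
  have ha1 : π a ≠ 1 := by
    intro h
    apply hnc
    exact ((Subgroup.mem_center_iff.mp (hπ1 a h)) b).symm
  have hba : π b ∉ Subgroup.zpowers (π a) := by
    rintro ⟨k, hk⟩
    apply hnc
    have h1 : π ((a ^ k)⁻¹ * b) = 1 := by
      rw [map_mul, map_inv, map_zpow, ← hk]
      simp
    have h2 := Subgroup.mem_center_iff.mp (hπ1 _ h1) a
    have h3 : b = a ^ k * ((a ^ k)⁻¹ * b) := by group
    have h4 : a * a ^ k = a ^ k * a := by
      rw [← _root_.zpow_one_add, ← _root_.zpow_add_one, add_comm]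
    calc a * b = a * (a ^ k * ((a ^ k)⁻¹ * b)) := by rw [← h3]
      _ = a ^ k * (a * ((a ^ k)⁻¹ * b)) := by rw [← mul_assoc, h4, mul_assoc]
      _ = a ^ k * (((a ^ k)⁻¹ * b) * a) := by rw [h2]
      _ = b * a := by rw [← mul_assoc, ← h3]
  refine ⟨π a, fun X hX => ?_⟩
  apply order3_conj (by rw [hcard]; norm_num) (by rw [hcard]; norm_num) (π a) (π b) (π M) (π M')
    ha3 hb3 hab ha1 hba _ _ _ _ X hX
  · rw [mul_inv_eq_iff_eq_mul, ← map_mul, r1, map_mul]
  · rw [mul_inv_eq_iff_eq_mul, ← map_mul, r2, map_mul, map_mul]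
  · rw [mul_inv_eq_iff_eq_mul, ← map_mul, r3]
    simp only [map_mul, hπZ, one_mul]
  · rw [mul_inv_eq_iff_eq_mul, ← map_mul, r4]
    simp only [map_mul, hπZ, one_mul]

/-- In the projective special linear group PSL(3, 4) all subgroups of order 3 are conjugate. -/
theorem result (F : Type*) [Field F] [Fintype F] (hF : Fintype.card F = 4) (X Y : Subgroup (Matrix.ProjectiveSpecialLinearGroup (Fin 3) F)) (hX : Nat.card ↥X = 3) (hY : Nat.card ↥Y = 3) : ∃ g : Matrix.ProjectiveSpecialLinearGroup (Fin 3) F, MulAut.conj g • X = Y := by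
  obtain ⟨a, ha⟩ := key F hF
  obtain ⟨g, hg⟩ := ha X hX
  obtain ⟨h, hh⟩ := ha Y hY
  refine ⟨h⁻¹ * g, ?_⟩
  rw [map_mul, mul_smul, hg, ← hh, map_inv, inv_smul_smul]

end Cfsg.Agent.S2739
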