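import Cfsg.Statements.S2758
import Mathlib
import Cfsg.Agent.S0206
import Cfsg.Agent.Lib.Helper13.S4Sec
import Cfsg.Agent.Lib.Helper16.MinOver

set_option autoImplicit false
open Cfsg

namespace Cfsg.Agent.S2758

theorem A_to_B {G : Type*} [Group G] [Finite G] {p : ℕ} [Fact p.Prime]
    (h : ∃ (x : G) (P : Subgroup G), (∃ k : ℕ, orderOf x = 2 ^ k) ∧ IsPGroup p ↥P ∧
      x ∈ Subgroup.normalizer (P : Set G) ∧ x ∉ Subgroup.centralizer (P : Set G)) :
    ∃ x y : G, (∃ k : ℕ, orderOf x = 2 ^ k) ∧ (∃ k : ℕ, orderOf y = p ^ k) ∧ y ≠ 1 ∧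
      x * y * x⁻¹ = y⁻¹ := by
  classical
  obtain ⟨x, P, ⟨k, hk⟩, hP, hxN, hxC⟩ := h
  have hex : ∃ j, x ^ (2 ^ j) ∈ Subgroup.centralizer (P : Set G) :=
    ⟨k, by rw [← hk, pow_orderOf_eq_one]; exact one_mem _⟩
  obtain ⟨j, hj⟩ : ∃ j, j = Nat.find hex := ⟨_, rfl⟩
  have hjs : x ^ (2 ^ j) ∈ Subgroup.centralizer (P : Set G) := hj ▸ Nat.find_spec hex
  have hj0 : j ≠ 0 := by
    rintro rfl
    apply hxC
    simpa using hjs
  obtain ⟨i, rfl⟩ : ∃ i, j = i + 1 := ⟨j - 1, by omega⟩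
  have hti : x ^ (2 ^ i) ∉ Subgroup.centralizer (P : Set G) :=
    Nat.find_min hex (by omega)
  obtain ⟨t, ht⟩ : ∃ t, t = x ^ (2 ^ i) := ⟨_, rfl⟩
  rw [← ht] at hti
  have ht2 : t * t ∈ Subgroup.centralizer (P : Set G) := by
    rw [ht, ← pow_add]
    have : 2 ^ i + 2 ^ i = 2 ^ (i + 1) := by ring
    rw [this]
    exact hjs
  have htN : t ∈ Subgroup.normalizer (P : Set G) := ht ▸ pow_mem hxN _
  have hto : ∃ k : ℕ, orderOf t = 2 ^ k := by
    have h1 : orderOf t ∣ 2 ^ k := by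
      rw [← hk, ht]
      exact orderOf_pow_dvd _
    obtain ⟨m, -, hm⟩ := (Nat.dvd_prime_pow Nat.prime_two).mp h1
    exact ⟨m, hm⟩
  rw [Subgroup.mem_centralizer_iff] at hti
  push Not at hti
  obtain ⟨u, hu, hut⟩ := hti
  have htu : t * u * t⁻¹ ∈ P := (Subgroup.mem_normalizer_iff.mp htN u).mp hu
  refine ⟨t, u⁻¹ * (t * u * t⁻¹), hto, ?_, ?_, ?_⟩
  · have hy : u⁻¹ * (t * u * t⁻¹) ∈ P := mul_mem (inv_mem hu) htu
    obtain ⟨m, hm⟩ := hP ⟨_, hy⟩
    have h1 : (u⁻¹ * (t * u * t⁻¹)) ^ p ^ m = 1 := congrArg Subtype.val hm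
    obtain ⟨m', -, hm'⟩ := (Nat.dvd_prime_pow (Fact.out : p.Prime)).mp (orderOf_dvd_of_pow_eq_one h1)
    exact ⟨m', hm'⟩
  · intro h0
    apply hut
    have : t * u * t⁻¹ = u := by
      rw [inv_mul_eq_one] at h0
      exact h0.symm
    calc u * t = (t * u * t⁻¹) * t := by rw [this]
      _ = t * u := by group
  · have h2 := (Subgroup.mem_centralizer_iff.mp ht2) u hu
    have h3 : t * t * u * t⁻¹ * t⁻¹ = u := by
      rw [← h2]; group
    calc t * (u⁻¹ * (t * u * t⁻¹)) * t⁻¹ = (t * u * t⁻¹)⁻¹ * (t * t * u * t⁻¹ * t⁻¹) := by group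
      _ = (t * u * t⁻¹)⁻¹ * u := by rw [h3]
      _ = (u⁻¹ * (t * u * t⁻¹))⁻¹ := by group

theorem B_to_Inv {G : Type*} [Group G] [Finite G] {p : ℕ} [Fact p.Prime] (hp : p ≠ 2)
    (h : ∃ x y : G, (∃ k : ℕ, orderOf x = 2 ^ k) ∧ (∃ k : ℕ, orderOf y = p ^ k) ∧ y ≠ 1 ∧
      x * y * x⁻¹ = y⁻¹) : Cfsg.Involves (DihedralGroup p) G := by
  have hpp : p.Prime := Fact.out
  obtain ⟨x, y, ⟨k, hk⟩, ⟨m, hm⟩, hy1, hxy⟩ := h
  have hm0 : m ≠ 0 := by
    rintro rfl
    rw [pow_zero, orderOf_eq_one_iff] at hm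
    exact hy1 hm
  obtain ⟨m', rfl⟩ : ∃ m', m = m' + 1 := ⟨m - 1, by omega⟩
  obtain ⟨z, hz⟩ : ∃ z, z = y ^ (p ^ m') := ⟨_, rfl⟩
  have hzo : orderOf z = p := by
    rw [hz, orderOf_pow_of_dvd (pow_ne_zero _ hpp.ne_zero) (by rw [hm]; exact pow_dvd_pow _ (by omega)),
      hm, pow_succ, Nat.mul_div_cancel_left _ (pow_pos hpp.pos _)]
  have hxz : x * z * x⁻¹ = z⁻¹ := by
    rw [hz, ← conj_pow, hxy, inv_pow]
  -- the ambient subgroup
  obtain ⟨M, hM⟩ : ∃ M : Subgroup G, M = Subgroup.centralizer {x * x} := ⟨_, rfl⟩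
  have hxM : x ∈ M := by
    rw [hM, Subgroup.mem_centralizer_singleton_iff]
    group
  have hzM : z ∈ M := by
    rw [hM, Subgroup.mem_centralizer_singleton_iff]
    have h1 : x * x * z * x⁻¹ * x⁻¹ = z := by
      calc x * x * z * x⁻¹ * x⁻¹ = x * (x * z * x⁻¹) * x⁻¹ := by group
        _ = x * z⁻¹ * x⁻¹ := by rw [hxz]
        _ = (x * z * x⁻¹)⁻¹ := by group
        _ = z := by rw [hxz, inv_inv]
    calc z * (x * x) = (x * x * z * x⁻¹ * x⁻¹) * (x * x) := by rw [h1]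
      _ = x * x * z := by group
  apply Cfsg.Agent.Lib.Helper13.Involves.of_subgroup (M := M)
  obtain ⟨x', hx'⟩ : ∃ x' : M, x' = ⟨x, hxM⟩ := ⟨_, rfl⟩
  obtain ⟨z', hz'⟩ : ∃ z' : M, z' = ⟨z, hzM⟩ := ⟨_, rfl⟩
  have hcen : ∀ g : M, g * (x' * x') = (x' * x') * g := by
    intro g
    have h1 : (g : G) ∈ Subgroup.centralizer {x * x} := by
      rw [← hM]; exact g.2
    rw [Subgroup.mem_centralizer_singleton_iff] at h1
    apply Subtype.ext
    rw [hx']
    exact h1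
  haveI hN : (Subgroup.zpowers (x' * x')).Normal := by
    refine ⟨fun n hn g => ?_⟩
    obtain ⟨i, rfl⟩ := hn
    have h1 : g * (x' * x') ^ i * g⁻¹ = (x' * x') ^ i := by
      have h2 : Commute g ((x' * x') ^ i) := Commute.zpow_right (hcen g) i
      rw [h2.eq, mul_inv_cancel_right]
    beta_reduce
    rw [h1]
    exact ⟨i, rfl⟩
  apply Cfsg.Agent.Lib.Helper13.Involves.of_quotient (N := Subgroup.zpowers (x' * x'))
  obtain ⟨a, ha⟩ : ∃ a : M ⧸ Subgroup.zpowers (x' * x'), a = (x' : M ⧸ Subgroup.zpowers (x' * x')) :=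
    ⟨_, rfl⟩
  obtain ⟨c, hc⟩ : ∃ c : M ⧸ Subgroup.zpowers (x' * x'), c = (z' : M ⧸ Subgroup.zpowers (x' * x')) :=
    ⟨_, rfl⟩
  have haa : a * a = 1 := by
    rw [ha, ← QuotientGroup.mk_mul, QuotientGroup.eq_one_iff]
    exact Subgroup.mem_zpowers _
  have hac : a * c * a⁻¹ = c⁻¹ := by
    rw [ha, hc, ← QuotientGroup.mk_inv, ← QuotientGroup.mk_mul, ← QuotientGroup.mk_mul,
      ← QuotientGroup.mk_inv]
    congr 1
    apply Subtype.ext
    rw [hx', hz']
    exact hxz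
  have hcp : c ^ p = 1 := by
    rw [hc, ← QuotientGroup.mk_pow]
    have : z' ^ p = 1 := by
      apply Subtype.ext
      rw [hz']
      show z ^ p = 1
      rw [← hzo, pow_orderOf_eq_one]
    rw [this]
    rfl
  have hc1 : c ≠ 1 := by
    intro h0
    rw [hc, QuotientGroup.eq_one_iff] at h0
    obtain ⟨i, hi⟩ := h0
    have h1 : (x * x) ^ i = z := by
      have := congrArg Subtype.val hi
      rw [hx', hz'] at this
      simpa using this
    have h2 : orderOf z ∣ orderOf x := by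
      apply orderOf_dvd_of_mem_zpowers
      rw [← h1]
      exact zpow_mem (mul_mem (Subgroup.mem_zpowers x) (Subgroup.mem_zpowers x)) i
    rw [hzo, hk] at h2
    exact hp ((Nat.prime_dvd_prime_iff_eq hpp Nat.prime_two).mp (hpp.dvd_of_dvd_pow h2))
  have hco : orderOf c = p := orderOf_eq_prime hcp hc1
  have hcc : c * c ≠ 1 := by
    intro h0
    have h1 : orderOf c ∣ 2 := orderOf_dvd_of_pow_eq_one (by rw [pow_two]; exact h0)
    rw [hco] at h1
    exact hp ((Nat.prime_dvd_prime_iff_eq hpp Nat.prime_two).mp h1)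
  have ha1 : a ≠ 1 := by
    rintro h0
    rw [h0, one_mul, inv_one, mul_one] at hac
    apply hcc
    nth_rewrite 1 [hac]
    exact inv_mul_cancel c
  have hao : orderOf a = 2 := orderOf_eq_prime (by rw [pow_two]; exact haa) ha1
  have hainv : a⁻¹ = a := inv_eq_of_mul_eq_one_left haa
  have hbb : (a * c) * (a * c) = 1 := by
    calc (a * c) * (a * c) = (a * c * a⁻¹) * c := by rw [hainv]; group
      _ = 1 := by rw [hac, inv_mul_cancel]
  have hb1 : a * c ≠ 1 := by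
    intro h0
    have h1 : c = a := by
      rw [← hainv]; exact eq_inv_of_mul_eq_one_right h0
    apply hcc
    rw [h1]; exact haa
  have hbo : orderOf (a * c) = 2 := orderOf_eq_prime (by rw [pow_two]; exact hbb) hb1
  have hab : a ≠ a * c := by
    intro h0
    exact hc1 (by simpa using h0.symm)
  obtain ⟨e⟩ := Cfsg.Agent.S0206.result a (a * c) hao hbo hab
  have e1 : a * (a * c) = c := by rw [← mul_assoc, haa, one_mul]
  rw [e1, hco] at e
  exact Cfsg.Agent.Lib.Helper13.involves_iff.mpr ⟨_, e.toMonoidHom, e.surjective⟩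

theorem Inv_to_A {G : Type*} [Group G] [Finite G] {p : ℕ} [Fact p.Prime] (hp : p ≠ 2)
    (h : Cfsg.Involves (DihedralGroup p) G) :
    ∃ (x : G) (P : Subgroup G), (∃ k : ℕ, orderOf x = 2 ^ k) ∧ IsPGroup p ↥P ∧
      x ∈ Subgroup.normalizer (P : Set G) ∧ x ∉ Subgroup.centralizer (P : Set G) := by
  have hpp : p.Prime := Fact.out
  haveI : NeZero p := ⟨hpp.ne_zero⟩
  obtain ⟨K, f, hf⟩ := Cfsg.Agent.Lib.Helper13.involves_iff.mp h
  let C : Subgroup K :=
    { carrier := {k | ∃ i, f k = DihedralGroup.r i}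
      one_mem' := ⟨0, by rw [map_one]; rfl⟩
      mul_mem' := by
        rintro a b ⟨i, hi⟩ ⟨j, hj⟩
        exact ⟨i + j, by rw [map_mul, hi, hj]; rfl⟩
      inv_mem' := by
        rintro a ⟨i, hi⟩
        exact ⟨-i, by rw [map_inv, hi]; rfl⟩ }
  have hCmem : ∀ k : K, k ∈ C ↔ ∃ i, f k = DihedralGroup.r i := fun k => Iff.rfl
  haveI hCn : C.Normal := by
    refine ⟨fun n hn g => ?_⟩
    obtain ⟨i, hi⟩ := hn
    rw [hCmem, map_mul, map_mul, map_inv, hi]
    cases f g with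
    | r j => exact ⟨i, by simp⟩
    | sr j => exact ⟨-i, by simp⟩
  obtain ⟨P⟩ : Nonempty (Sylow p C) := inferInstance
  have hfr := Sylow.normalizer_sup_eq_top P
  obtain ⟨k₀, hk₀⟩ := hf (DihedralGroup.sr 0)
  have hk₀' : k₀ ∈ C ⊔ Subgroup.normalizer
      (((P : Subgroup C).map C.subtype : Subgroup K) : Set K) := by
    rw [sup_comm, hfr]; exact Subgroup.mem_top _
  have hQn : Subgroup.normalizer (((P : Subgroup C).map C.subtype : Subgroup K) : Set K) ≤
      Subgroup.normalizer (C : Set K) := by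
    have h0 : Subgroup.normalizer (C : Set K) = ⊤ := Subgroup.normalizer_eq_top C
    rw [h0]; exact le_top
  rw [Cfsg.Agent.Lib.Helper16.mem_sup_of_le_normalizer hQn] at hk₀'
  obtain ⟨c, ⟨i, hi⟩, n, hn, rfl⟩ := hk₀'
  obtain ⟨j, hj⟩ : ∃ j, f n = DihedralGroup.sr j := by
    rw [map_mul, hi] at hk₀
    refine ⟨i, ?_⟩
    have : f n = (DihedralGroup.r i)⁻¹ * DihedralGroup.sr 0 := by
      rw [← hk₀]; group
    rw [this]
    simp
  -- the 2-part of n
  obtain ⟨a, m, hmodd, ham⟩ := Nat.exists_eq_two_pow_mul_odd (orderOf_pos n).ne'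
  obtain ⟨x, hx⟩ : ∃ x, x = n ^ m := ⟨_, rfl⟩
  have hxo : orderOf x = 2 ^ a := by
    rw [hx, orderOf_pow_of_dvd hmodd.pos.ne' (by rw [ham]; exact Dvd.intro_left _ rfl), ham,
      Nat.mul_div_cancel _ hmodd.pos]
  have hxN : x ∈ Subgroup.normalizer (((P : Subgroup C).map C.subtype : Subgroup K) : Set K) :=
    hx ▸ pow_mem hn m
  have hfx : f x = DihedralGroup.sr j := by
    obtain ⟨t, rfl⟩ := hmodd
    rw [hx, map_pow, hj, pow_succ, pow_mul, pow_two, DihedralGroup.sr_mul_self, one_pow, one_mul]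
  -- an element of P with nontrivial image
  obtain ⟨u, hu, hfu⟩ : ∃ u : C, u ∈ (P : Subgroup C) ∧ f (u : K) ≠ 1 := by
    by_contra hno
    push Not at hno
    have hle : (P : Subgroup C) ≤ (f.comp C.subtype).ker := by
      intro u hu
      rw [MonoidHom.mem_ker]
      exact hno u hu
    have h1 : (f.comp C.subtype).ker.index ∣ (P : Subgroup C).index := Subgroup.index_dvd_of_le hle
    rw [Subgroup.index_ker] at h1
    obtain ⟨k₁, hk₁⟩ := hf (DihedralGroup.r 1)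
    have h2 : DihedralGroup.r (1 : ZMod p) ∈ (f.comp C.subtype).range :=
      ⟨⟨k₁, ⟨1, hk₁⟩⟩, hk₁⟩
    have h3 : orderOf (⟨_, h2⟩ : (f.comp C.subtype).range) ∣ Nat.card (f.comp C.subtype).range :=
      orderOf_dvd_natCard _
    rw [Subgroup.orderOf_mk, DihedralGroup.orderOf_r_one] at h3
    exact P.not_dvd_index (h3.trans h1)
  obtain ⟨l, hl⟩ := u.2
  have hl0 : l ≠ 0 := by
    rintro rfl
    exact hfu hl
  refine ⟨(x : G), ((P : Subgroup C).map C.subtype).map K.subtype, ⟨a, ?_⟩, (P.2.map _).map _, ?_, ?_⟩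
  · rw [Subgroup.orderOf_coe, hxo]
  · rw [Subgroup.mem_normalizer_iff]
    intro g
    constructor
    · rintro ⟨w, hw, rfl⟩
      exact ⟨x * w * x⁻¹, (Subgroup.mem_normalizer_iff.mp hxN w).mp hw, rfl⟩
    · rintro ⟨w, hw, hwg⟩
      refine ⟨x⁻¹ * w * x, ?_, ?_⟩
      · apply (Subgroup.mem_normalizer_iff.mp hxN (x⁻¹ * w * x)).mpr
        have e : x * (x⁻¹ * w * x) * x⁻¹ = w := by group
        rw [e]
        exact hw
      · have h0 : (w : G) = (x : G) * g * (x : G)⁻¹ := hwg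
        show (x : G)⁻¹ * (w : G) * (x : G) = g
        rw [h0]
        group
  · intro hcen
    rw [Subgroup.mem_centralizer_iff] at hcen
    have h1 := hcen ((u : K) : G) ⟨(u : K), ⟨u, hu, rfl⟩, rfl⟩
    have h2 : (u : K) * x = x * (u : K) := Subtype.ext h1
    have h3 := congrArg f h2
    rw [map_mul, map_mul, hl, hfx, DihedralGroup.r_mul_sr, DihedralGroup.sr_mul_r] at h3
    have h4 : j - l = j + l := by
      injection h3
    have h5 : (2 : ZMod p) * l = 0 := by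
      linear_combination -h4
    rcases mul_eq_zero.mp h5 with h6 | h6
    · have h7 : ((2 : ℕ) : ZMod p) = 0 := by exact_mod_cast h6
      rw [ZMod.natCast_eq_zero_iff] at h7
      exact hp ((Nat.prime_dvd_prime_iff_eq hpp Nat.prime_two).mp h7)
    · exact hl0 h6


/-- For an odd prime p and a finite group G the following are equivalent: the dihedral group of order 2p is involved in G; some element of 2-power order normalizes but does not centralize some p-subgroup of G; some element of 2-power order inverts some nonidentity element of p-power order. -/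
theorem result {G : Type*} [Group G] [Finite G] {p : ℕ} [Fact p.Prime] (hp : p ≠ 2) : (Cfsg.Involves (DihedralGroup p) G ↔ ∃ (x : G) (P : Subgroup G), (∃ k : ℕ, orderOf x = 2 ^ k) ∧ IsPGroup p ↥P ∧ x ∈ Subgroup.normalizer (P : Set G) ∧ x ∉ Subgroup.centralizer (P : Set G)) ∧ (Cfsg.Involves (DihedralGroup p) G ↔ ∃ x y : G, (∃ k : ℕ, orderOf x = 2 ^ k) ∧ (∃ k : ℕ, orderOf y = p ^ k) ∧ y ≠ 1 ∧ x * y * x⁻¹ = y⁻¹) := by
  have h1 : Cfsg.Involves (DihedralGroup p) G → ∃ (x : G) (P : Subgroup G),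
      (∃ k : ℕ, orderOf x = 2 ^ k) ∧ IsPGroup p ↥P ∧ x ∈ Subgroup.normalizer (P : Set G) ∧
      x ∉ Subgroup.centralizer (P : Set G) := Inv_to_A hp
  exact ⟨⟨h1, fun h => B_to_Inv hp (A_to_B h)⟩, ⟨fun h => A_to_B (h1 h), B_to_Inv hp⟩⟩

end Cfsg.Agent.S2758
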