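import Cfsg.Statements.S2761
import Cfsg.Agent.H12.Dk20
import Cfsg.Agent.Lib.Helper18.SL2b

set_option autoImplicit false
open Cfsg

namespace Cfsg.Agent.S2761

open Cfsg.Agent.H12.Dk Matrix

/-- the affine action of a `3 × 3` matrix on pairs. -/
def affAct (M : SpecialLinearGroup (Fin 3) (ZMod 2)) (w : ZMod 2 × ZMod 2) : ZMod 2 × ZMod 2 :=
  (M.1 0 0 * w.1 + M.1 0 1 * w.2 + M.1 0 2, M.1 1 0 * w.1 + M.1 1 1 * w.2 + M.1 1 2)

lemma affAct_aff (m : SpecialLinearGroup (Fin 2) (ZMod 2)) (v w : ZMod 2 × ZMod 2) :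
    affAct (aff m v) w = act m w + v := by
  unfold affAct act
  change ((aff m v : Matrix (Fin 3) (Fin 3) (ZMod 2)) 0 0 * w.1 + (aff m v : Matrix (Fin 3) (Fin 3) (ZMod 2)) 0 1 * w.2
    + (aff m v : Matrix (Fin 3) (Fin 3) (ZMod 2)) 0 2,
    (aff m v : Matrix (Fin 3) (Fin 3) (ZMod 2)) 1 0 * w.1 + (aff m v : Matrix (Fin 3) (Fin 3) (ZMod 2)) 1 1 * w.2
    + (aff m v : Matrix (Fin 3) (Fin 3) (ZMod 2)) 1 2) = _
  rw [aff_coe]
  simp
  rfl

lemma act_zero' (m : SpecialLinearGroup (Fin 2) (ZMod 2)) : act m 0 = 0 := by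
  unfold act; simp

lemma aff_inj {m m' : SpecialLinearGroup (Fin 2) (ZMod 2)} {v v' : ZMod 2 × ZMod 2}
    (h : ∀ w, affAct (aff m v) w = affAct (aff m' v') w) : m = m' ∧ v = v' := by
  have h0 := h 0
  rw [affAct_aff, affAct_aff, act_zero', act_zero', zero_add, zero_add] at h0
  subst h0
  refine ⟨act_inj fun w => ?_, rfl⟩
  have := h w
  rw [affAct_aff, affAct_aff] at this
  exact add_right_cancel this

/-- the action as a homomorphism. -/
def affHom : ↥(Cfsg.qd 2) →* Function.End (ZMod 2 × ZMod 2) where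
  toFun M := affAct M.1
  map_one' := by
    funext w
    change affAct (1 : SpecialLinearGroup (Fin 3) (ZMod 2)) w = w
    rw [← aff_one, affAct_aff, act_one, add_zero]
  map_mul' := by
    rintro ⟨M, hM⟩ ⟨N, hN⟩
    obtain ⟨m, v, rfl⟩ := (mem_qd 2 _).mp hM
    obtain ⟨m', v', rfl⟩ := (mem_qd 2 _).mp hN
    funext w
    change affAct (aff m v * aff m' v') w = affAct (aff m v) (affAct (aff m' v') w)
    rw [aff_mul, affAct_aff, affAct_aff, affAct_aff, act_mul, act_add]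
    abel

lemma card_qd : Nat.card ↥(Cfsg.qd 2) = 24 := by
  let e : SpecialLinearGroup (Fin 2) (ZMod 2) × (ZMod 2 × ZMod 2) → ↥(Cfsg.qd 2) :=
    fun x => ⟨aff x.1 x.2, (mem_qd 2 _).mpr ⟨_, _, rfl⟩⟩
  have he : Function.Bijective e := by
    constructor
    · rintro ⟨m, v⟩ ⟨m', v'⟩ h
      have h1 : aff m v = aff m' v' := congrArg Subtype.val h
      obtain ⟨h2, h3⟩ := aff_inj (m := m) (m' := m') (v := v) (v' := v') (fun w => by rw [h1])
      rw [h2, h3]
    · rintro ⟨M, hM⟩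
      obtain ⟨m, v, rfl⟩ := (mem_qd 2 _).mp hM
      exact ⟨(m, v), rfl⟩
  rw [← Nat.card_congr (Equiv.ofBijective e he), Nat.card_prod, Nat.card_prod,
    Cfsg.Agent.Lib.Helper18.card_SL2, Nat.card_eq_fintype_card, ZMod.card]

/-- The group Qd(2), the natural semidirect product of an elementary abelian group of order 4 by SL₂(2) (realised as the affine subgroup of SL₃(2)), is isomorphic to the symmetric group of degree 4. -/
theorem result : Nonempty (↥(Cfsg.qd 2) ≃* Equiv.Perm (Fin 4)) := by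
  let φ : ↥(Cfsg.qd 2) →* Equiv.Perm (ZMod 2 × ZMod 2) := MonoidHom.toHomPerm affHom
  have hφ : ∀ M w, φ M w = affAct M.1 w := fun M w => rfl
  have hinj : Function.Injective φ := by
    rintro ⟨M, hM⟩ ⟨N, hN⟩ h
    obtain ⟨m, v, rfl⟩ := (mem_qd 2 _).mp hM
    obtain ⟨m', v', rfl⟩ := (mem_qd 2 _).mp hN
    obtain ⟨h2, h3⟩ := aff_inj (m := m) (m' := m') (v := v) (v' := v') (fun w => by
      have := congrArg (fun f => f w) h
      simpa only [hφ] using this)
    apply Subtype.ext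
    change aff m v = aff m' v'
    rw [h2, h3]
  have hV : Nat.card (ZMod 2 × ZMod 2) = 4 := by
    rw [Nat.card_prod, Nat.card_eq_fintype_card, ZMod.card]
  have hcardS : Nat.card (Equiv.Perm (ZMod 2 × ZMod 2)) = 24 := by
    rw [Nat.card_eq_fintype_card, Fintype.card_perm, ← Nat.card_eq_fintype_card, hV]
    rfl
  have hbij : Function.Bijective φ :=
    (Nat.bijective_iff_injective_and_card φ).2 ⟨hinj, by rw [card_qd, hcardS]⟩
  have e1 : ↥(Cfsg.qd 2) ≃* Equiv.Perm (ZMod 2 × ZMod 2) := MulEquiv.ofBijective φ hbij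
  have e2 : ZMod 2 × ZMod 2 ≃ Fin 4 := (Finite.equivFinOfCardEq hV)
  exact ⟨e1.trans (Equiv.permCongrHom e2)⟩

end Cfsg.Agent.S2761
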