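import Cfsg.Statements.S2762
import Mathlib
import Cfsg.Agent.H12.Dk20
import Cfsg.Agent.H17.Basic

set_option autoImplicit false
open Cfsg

namespace Cfsg.Agent.S2762

section aux
open Cfsg.Agent.H12.Dk Matrix
variable {F : Type*} [Field F]

def mkQ (m : SpecialLinearGroup (Fin 2) F) (v : F × F) : ↥(Cfsg.qdOver F) :=
  ⟨aff m v, by rw [qdOver_eq]; exact ⟨m, v, rfl⟩⟩

theorem exists_mkQ (M : ↥(Cfsg.qdOver F)) : ∃ m v, M = mkQ m v := by
  have h : (M : SpecialLinearGroup (Fin 3) F) ∈ affSub F := (qdOver_eq (F := F)).le M.2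
  obtain ⟨m, v, hM⟩ := h
  exact ⟨m, v, Subtype.ext hM⟩

theorem act_zero0 (m : SpecialLinearGroup (Fin 2) F) : act m (0 : F × F) = 0 := by
  unfold act
  ext <;> simp

theorem act_neg0 (m : SpecialLinearGroup (Fin 2) F) (v : F × F) : act m (-v) = - act m v := by
  unfold act
  ext <;> simp <;> ring

theorem mkQ_mul (m m' : SpecialLinearGroup (Fin 2) F) (v v' : F × F) :
    mkQ m v * mkQ m' v' = mkQ (m * m') (v + act m v') := Subtype.ext (aff_mul m m' v v')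

theorem mkQ_one : mkQ (1 : SpecialLinearGroup (Fin 2) F) 0 = 1 := Subtype.ext aff_one

theorem mkQ_inv (m : SpecialLinearGroup (Fin 2) F) (v : F × F) :
    (mkQ m v)⁻¹ = mkQ m⁻¹ (-(act m⁻¹ v)) := Subtype.ext (aff_inv m v)

theorem mkQ_entries (m : SpecialLinearGroup (Fin 2) F) (v : F × F) :
    (((mkQ m v : ↥(Cfsg.qdOver F)) : SpecialLinearGroup (Fin 3) F) : Matrix (Fin 3) (Fin 3) F) 0 0 = e00 m ∧
    (((mkQ m v : ↥(Cfsg.qdOver F)) : SpecialLinearGroup (Fin 3) F) : Matrix (Fin 3) (Fin 3) F) 0 1 = e01 m ∧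
    (((mkQ m v : ↥(Cfsg.qdOver F)) : SpecialLinearGroup (Fin 3) F) : Matrix (Fin 3) (Fin 3) F) 1 0 = e10 m ∧
    (((mkQ m v : ↥(Cfsg.qdOver F)) : SpecialLinearGroup (Fin 3) F) : Matrix (Fin 3) (Fin 3) F) 1 1 = e11 m ∧
    (((mkQ m v : ↥(Cfsg.qdOver F)) : SpecialLinearGroup (Fin 3) F) : Matrix (Fin 3) (Fin 3) F) 0 2 = v.1 ∧
    (((mkQ m v : ↥(Cfsg.qdOver F)) : SpecialLinearGroup (Fin 3) F) : Matrix (Fin 3) (Fin 3) F) 1 2 = v.2 := by
  show (aff m v : Matrix (Fin 3) (Fin 3) F) 0 0 = _ ∧ (aff m v : Matrix (Fin 3) (Fin 3) F) 0 1 = _ ∧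
    (aff m v : Matrix (Fin 3) (Fin 3) F) 1 0 = _ ∧ (aff m v : Matrix (Fin 3) (Fin 3) F) 1 1 = _ ∧
    (aff m v : Matrix (Fin 3) (Fin 3) F) 0 2 = _ ∧ (aff m v : Matrix (Fin 3) (Fin 3) F) 1 2 = _
  rw [aff_coe]
  simp

theorem mkQ_inj {m m' : SpecialLinearGroup (Fin 2) F} {v v' : F × F} (h : mkQ m v = mkQ m' v') :
    m = m' ∧ v = v' := by
  obtain ⟨a1, a2, a3, a4, a5, a6⟩ := mkQ_entries m v
  obtain ⟨b1, b2, b3, b4, b5, b6⟩ := mkQ_entries m' v'
  rw [h] at a1 a2 a3 a4 a5 a6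
  refine ⟨sl_ext (a1.symm.trans b1) (a2.symm.trans b2) (a3.symm.trans b3) (a4.symm.trans b4), ?_⟩
  exact Prod.ext (a5.symm.trans b5) (a6.symm.trans b6)

theorem choose_mkQ (m : SpecialLinearGroup (Fin 2) F) (v : F × F) :
    Classical.choose (exists_mkQ (mkQ m v)) = m := by
  obtain ⟨v', hv'⟩ := Classical.choose_spec (exists_mkQ (mkQ m v))
  exact (mkQ_inj hv').1.symm

noncomputable def piQ : ↥(Cfsg.qdOver F) →* SpecialLinearGroup (Fin 2) F where
  toFun M := Classical.choose (exists_mkQ M)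
  map_one' := by rw [← mkQ_one, choose_mkQ]
  map_mul' M M' := by
    obtain ⟨m, v, rfl⟩ := exists_mkQ M
    obtain ⟨m', v', rfl⟩ := exists_mkQ M'
    rw [mkQ_mul, choose_mkQ, choose_mkQ, choose_mkQ]

theorem piQ_mkQ (m : SpecialLinearGroup (Fin 2) F) (v : F × F) : piQ (mkQ m v) = m := choose_mkQ m v

def jQ : SpecialLinearGroup (Fin 2) F →* ↥(Cfsg.qdOver F) where
  toFun m := mkQ m 0
  map_one' := mkQ_one
  map_mul' m m' := by rw [mkQ_mul, act_zero0, add_zero]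

theorem jQ_apply (m : SpecialLinearGroup (Fin 2) F) : jQ m = mkQ m 0 := rfl

theorem jQ_injective : Function.Injective (jQ : SpecialLinearGroup (Fin 2) F →* ↥(Cfsg.qdOver F)) := by
  intro m m' h
  exact (mkQ_inj h).1

theorem trace_two {p : ℕ} [Fact p.Prime] [CharP F p] {m : SpecialLinearGroup (Fin 2) F} {k : ℕ}
    (h : m ^ (p ^ k) = 1) : e00 m + e11 m = 2 := by
  have h1 : (m.1 - 1) ^ (p ^ k) = 0 := by
    rw [sub_pow_char_pow_of_commute _ _ (Commute.one_right _), one_pow]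
    have := Matrix.SpecialLinearGroup.coe_pow m (p ^ k)
    rw [h] at this
    exact sub_eq_zero.mpr (this.symm.trans Matrix.SpecialLinearGroup.coe_one)
  have h2 : (m.1 - 1).det = 0 := by
    have := congrArg Matrix.det h1
    rw [Matrix.det_pow, Matrix.det_zero] at this
    exact pow_eq_zero_iff (pow_ne_zero _ (Fact.out : p.Prime).ne_zero) |>.mp this
  rw [det_fin_two] at h2
  have h3 := sl_det m
  simp only [Matrix.sub_apply, Matrix.one_apply_eq, Matrix.one_apply_ne (show (0 : Fin 2) ≠ 1 by decide),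
    Matrix.one_apply_ne (show (1 : Fin 2) ≠ 0 by decide), sub_zero] at h2
  unfold e00 e01 e10 e11 at *
  linear_combination h3 - h2

theorem pow_mkQ (v : F × F) (k : ℕ) :
    (mkQ (1 : SpecialLinearGroup (Fin 2) F) v) ^ k = mkQ 1 (k • v) := by
  induction k with
  | zero => rw [pow_zero, zero_smul, mkQ_one]
  | succ k ih => rw [pow_succ, ih, mkQ_mul, act_one, mul_one, succ_nsmul]

theorem pCore_eq {p : ℕ} [Fact p.Prime] [CharP F p] :
    Cfsg.pCore p ↥(Cfsg.qdOver F) = (piQ : ↥(Cfsg.qdOver F) →* _).ker := by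
  apply le_antisymm
  · intro x hx
    have hN := Cfsg.Agent.H17.pCore_normal' p ↥(Cfsg.qdOver F)
    have hP := Cfsg.Agent.H17.pCore_isPGroup p ↥(Cfsg.qdOver F)
    have htr : ∀ y ∈ Cfsg.pCore p ↥(Cfsg.qdOver F), e00 (piQ y) + e11 (piQ y) = 2 := by
      intro y hy
      obtain ⟨k, hk⟩ := hP ⟨y, hy⟩
      have hk' : y ^ (p ^ k) = 1 := congrArg Subtype.val hk
      apply trace_two (p := p) (k := k)
      rw [← map_pow, hk', map_one]
    have t1 := htr x hx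
    have t2 := htr (x * x) (Subgroup.mul_mem _ hx hx)
    have t3 := htr (x * (jQ (xx 1) * x * (jQ (xx 1))⁻¹)) (Subgroup.mul_mem _ hx (hN.conj_mem x hx _))
    have t4 := htr (x * (jQ (yy 1) * x * (jQ (yy 1))⁻¹)) (Subgroup.mul_mem _ hx (hN.conj_mem x hx _))
    have hj : ∀ u : SpecialLinearGroup (Fin 2) F, piQ (jQ u) = u := fun u => piQ_mkQ u 0
    simp only [map_mul, map_inv, hj, e00_mul, e01_mul, e10_mul, e11_mul, e00_inv, e01_inv, e10_inv, e11_inv,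
      e00_xx, e01_xx, e10_xx, e11_xx, e00_yy, e01_yy, e10_yy, e11_yy] at t2 t3 t4
    have hd := sl_det (piQ x)
    have hc : e10 (piQ x) = 0 := by
      have : e10 (piQ x) ^ 2 = 0 := by linear_combination t2 - t3
      exact pow_eq_zero_iff (by norm_num) |>.mp this
    have hb : e01 (piQ x) = 0 := by
      have : e01 (piQ x) ^ 2 = 0 := by linear_combination t2 - t4
      exact pow_eq_zero_iff (by norm_num) |>.mp this
    rw [hc, hb] at hd
    have ha : e00 (piQ x) = 1 := by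
      have : (e00 (piQ x) - 1) ^ 2 = 0 := by linear_combination (e00 (piQ x)) * t1 - hd
      have := pow_eq_zero_iff (by norm_num) |>.mp this
      linear_combination this
    have hdd : e11 (piQ x) = 1 := by linear_combination t1 - ha
    rw [MonoidHom.mem_ker]
    exact sl_ext (by rw [ha, e00_one]) (by rw [hb, e01_one]) (by rw [hc, e10_one]) (by rw [hdd, e11_one])
  · apply Cfsg.Agent.H17.le_pCore (MonoidHom.normal_ker _)
    rintro ⟨x, hx⟩
    refine ⟨1, ?_⟩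
    apply Subtype.ext
    show x ^ (p ^ 1) = 1
    obtain ⟨m, v, rfl⟩ := exists_mkQ x
    rw [MonoidHom.mem_ker, piQ_mkQ] at hx
    subst hx
    rw [pow_one, pow_mkQ, ← mkQ_one]
    congr 1
    ext <;> simp [CharP.cast_eq_zero F p]

theorem mem_kerQ (v : F × F) :
    mkQ (1 : SpecialLinearGroup (Fin 2) F) v ∈ (piQ : ↥(Cfsg.qdOver F) →* _).ker := by
  rw [MonoidHom.mem_ker, piQ_mkQ]

theorem exists_kerQ (y : ↥((piQ : ↥(Cfsg.qdOver F) →* _).ker)) :
    ∃ v, y = ⟨mkQ 1 v, mem_kerQ v⟩ := by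
  obtain ⟨M, hM⟩ := y
  obtain ⟨m, v, rfl⟩ := exists_mkQ M
  rw [MonoidHom.mem_ker, piQ_mkQ] at hM
  subst hM
  exact ⟨v, rfl⟩

noncomputable def psiQ : Additive ↥((piQ : ↥(Cfsg.qdOver F) →* _).ker) ≃+ (Fin 2 → F) where
  toFun x := ![(trv (x.toMul.1.1)).1, (trv (x.toMul.1.1)).2]
  invFun w := Additive.ofMul ⟨mkQ 1 (w 0, w 1), mem_kerQ _⟩
  left_inv x := by
    obtain ⟨v, hv⟩ := exists_kerQ x.toMul
    have hx : x = Additive.ofMul ⟨mkQ 1 v, mem_kerQ v⟩ := by rw [← hv]; rfl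
    rw [hx]
    show Additive.ofMul (⟨mkQ 1 ((trv (aff 1 v)).1, (trv (aff 1 v)).2), mem_kerQ _⟩ : ↥((piQ : ↥(Cfsg.qdOver F) →* _).ker)) = Additive.ofMul _
    simp only [trv_aff]
  right_inv w := by
    show ![(trv (aff 1 (w 0, w 1))).1, (trv (aff 1 (w 0, w 1))).2] = w
    rw [trv_aff]
    ext i; fin_cases i <;> rfl
  map_add' x y := by
    obtain ⟨v, hv⟩ := exists_kerQ x.toMul
    obtain ⟨v', hv'⟩ := exists_kerQ y.toMul
    have hxy : (x + y).toMul = ⟨mkQ 1 (v + v'), mem_kerQ _⟩ := by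
      rw [toMul_add, hv, hv']
      apply Subtype.ext
      show mkQ 1 v * mkQ 1 v' = _
      rw [mkQ_mul, act_one, mul_one]
    show ![(trv ((x + y).toMul.1.1)).1, (trv ((x + y).toMul.1.1)).2]
      = ![(trv (x.toMul.1.1)).1, (trv (x.toMul.1.1)).2] + ![(trv (y.toMul.1.1)).1, (trv (y.toMul.1.1)).2]
    rw [hxy, hv, hv']
    show ![(trv (aff 1 (v + v'))).1, (trv (aff 1 (v + v'))).2]
      = ![(trv (aff 1 v)).1, (trv (aff 1 v)).2] + ![(trv (aff 1 v')).1, (trv (aff 1 v')).2]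
    simp only [trv_aff]
    ext i; fin_cases i <;> simp

theorem psiQ_mk (v : F × F) :
    psiQ (Additive.ofMul (⟨mkQ 1 v, mem_kerQ v⟩ : ↥((piQ : ↥(Cfsg.qdOver F) →* _).ker))) = ![v.1, v.2] := by
  show ![(trv (aff 1 v)).1, (trv (aff 1 v)).2] = _
  rw [trv_aff]

end aux


/-- Structure of Qd over a finite field F of characteristic p (the affine subgroup of SL₃(F)): its largest normal p-subgroup is the group of translations (matrices with upper-left block the identity), the block-diagonal matrices form a complement isomorphic to SL₂(F), and the translation subgroup is a natural SL₂(F)-module for that complement. -/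
theorem result {F : Type*} [Field F] [Fintype F] {p : ℕ} [Fact p.Prime] [CharP F p] : (∀ M : ↥(Cfsg.qdOver F), M ∈ Cfsg.pCore p ↥(Cfsg.qdOver F) ↔ ((M : Matrix.SpecialLinearGroup (Fin 3) F) : Matrix (Fin 3) (Fin 3) F) 0 0 = 1 ∧ ((M : Matrix.SpecialLinearGroup (Fin 3) F) : Matrix (Fin 3) (Fin 3) F) 0 1 = 0 ∧ ((M : Matrix.SpecialLinearGroup (Fin 3) F) : Matrix (Fin 3) (Fin 3) F) 1 0 = 0 ∧ ((M : Matrix.SpecialLinearGroup (Fin 3) F) : Matrix (Fin 3) (Fin 3) F) 1 1 = 1) ∧ ∃ K : Subgroup ↥(Cfsg.qdOver F), (∀ M : ↥(Cfsg.qdOver F), M ∈ K ↔ ((M : Matrix.SpecialLinearGroup (Fin 3) F) : Matrix (Fin 3) (Fin 3) F) 0 2 = 0 ∧ ((M : Matrix.SpecialLinearGroup (Fin 3) F) : Matrix (Fin 3) (Fin 3) F) 1 2 = 0) ∧ K ⊓ Cfsg.pCore p ↥(Cfsg.qdOver F) = ⊥ ∧ K ⊔ Cfsg.pCore p ↥(Cfsg.qdOver F) = ⊤ ∧ Nonempty (↥K ≃* Matrix.SpecialLinearGroup (Fin 2) F) ∧ Cfsg.IsNaturalSL2Module F (Cfsg.pCore p ↥(Cfsg.qdOver F)) K := by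
  classical
  rw [pCore_eq (F := F) (p := p)]
  refine ⟨?_, jQ.range, ?_, ?_, ?_, ?_, ?_⟩
  · intro M
    obtain ⟨m, v, rfl⟩ := exists_mkQ M
    obtain ⟨a1, a2, a3, a4, a5, a6⟩ := mkQ_entries m v
    rw [MonoidHom.mem_ker, piQ_mkQ, a1, a2, a3, a4]
    constructor
    · rintro rfl; simp
    · rintro ⟨h1, h2, h3, h4⟩
      exact Cfsg.Agent.H12.Dk.sl_ext (by rw [h1, Cfsg.Agent.H12.Dk.e00_one])
        (by rw [h2, Cfsg.Agent.H12.Dk.e01_one]) (by rw [h3, Cfsg.Agent.H12.Dk.e10_one])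
        (by rw [h4, Cfsg.Agent.H12.Dk.e11_one])
  · intro M
    obtain ⟨m, v, rfl⟩ := exists_mkQ M
    obtain ⟨a1, a2, a3, a4, a5, a6⟩ := mkQ_entries m v
    rw [a5, a6]
    constructor
    · rintro ⟨m', hm'⟩
      have := (mkQ_inj hm').2
      rw [← this]; simp
    · rintro ⟨h1, h2⟩
      refine ⟨m, ?_⟩
      have : v = 0 := Prod.ext h1 h2
      rw [this]; rfl
  · rw [eq_bot_iff]
    rintro x ⟨⟨m, rfl⟩, hx⟩
    replace hx : piQ (jQ m) = 1 := hx
    have : piQ (jQ m) = m := piQ_mkQ m 0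
    rw [this] at hx
    rw [hx, map_one]; exact Subgroup.mem_bot.mpr rfl
  · rw [eq_top_iff]
    intro M _
    obtain ⟨m, v, rfl⟩ := exists_mkQ M
    have h1 : mkQ m v = mkQ 1 v * jQ m := by
      rw [jQ_apply, mkQ_mul, one_mul, Cfsg.Agent.H12.Dk.act_one, add_zero]
    rw [h1]
    exact Subgroup.mul_mem _ (Subgroup.mem_sup_right (mem_kerQ v)) (Subgroup.mem_sup_left ⟨m, rfl⟩)
  · exact ⟨(MonoidHom.ofInjective jQ_injective).symm⟩
  · refine ⟨?_, piQ.comp jQ.range.subtype, psiQ, ?_, ?_, ?_⟩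
    · rw [Subgroup.normalizer_eq_top]; exact le_top
    · intro m
      exact ⟨⟨jQ m, m, rfl⟩, piQ_mkQ m 0⟩
    · ext ⟨x, m, rfl⟩
      rw [MonoidHom.mem_ker, Subgroup.mem_subgroupOf, Subgroup.mem_centralizer_iff]
      show piQ (jQ m) = 1 ↔ ∀ h ∈ ((piQ : ↥(Cfsg.qdOver F) →* _).ker : Set _), h * jQ m = jQ m * h
      rw [show piQ (jQ m) = m from piQ_mkQ m 0]
      constructor
      · rintro rfl h _; rw [map_one, mul_one, one_mul]
      · intro hc
        apply Cfsg.Agent.H12.Dk.act_inj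
        intro v
        have := hc (mkQ 1 v) (mem_kerQ v)
        rw [jQ_apply, mkQ_mul, mkQ_mul] at this
        have h2 := (mkQ_inj this).2
        rw [Cfsg.Agent.H12.Dk.act_one, add_zero, zero_add] at h2
        rw [Cfsg.Agent.H12.Dk.act_one]; exact h2.symm
    · rintro ⟨l, m, rfl⟩ y
      obtain ⟨u, rfl⟩ := exists_kerQ y
      refine ⟨⟨mkQ 1 (Cfsg.Agent.H12.Dk.act m u), mem_kerQ _⟩, ?_, ?_⟩
      · show mkQ 1 (Cfsg.Agent.H12.Dk.act m u) = jQ m * mkQ 1 u * (jQ m)⁻¹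
        rw [jQ_apply, mkQ_inv, mkQ_mul, mkQ_mul, act_zero0, neg_zero, act_zero0, add_zero, zero_add,
          mul_one, mul_inv_cancel]
      · rw [psiQ_mk, psiQ_mk]
        show _ = ((piQ (jQ m) : Matrix.SpecialLinearGroup (Fin 2) F) : Matrix (Fin 2) (Fin 2) F).mulVec _
        rw [show piQ (jQ m) = m from piQ_mkQ m 0]
        ext i
        fin_cases i <;>
          simp [Cfsg.Agent.H12.Dk.act, Cfsg.Agent.H12.Dk.e00, Cfsg.Agent.H12.Dk.e01, Cfsg.Agent.H12.Dk.e10,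
            Cfsg.Agent.H12.Dk.e11, Matrix.mulVec, dotProduct, Fin.sum_univ_two]

end Cfsg.Agent.S2762
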