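import Cfsg.Statements.S2763
import Cfsg.Agent.H12.Zj4

set_option autoImplicit false
open Cfsg
open Cfsg.Agent.H12.Zj

namespace Cfsg.Agent.S2763

/-- In the group Qd(p) (p prime; the natural semidirect product of an elementary abelian group of order p² by SL₂(p)), the normalizer of every nontrivial characteristic subgroup of a Sylow p-subgroup S equals the normalizer of S, which is a proper subgroup; in particular no such characteristic subgroup is normal. -/
theorem result {p : ℕ} [Fact p.Prime] (S : Sylow p ↥(Cfsg.qd p)) (T : Subgroup ↥(S : Subgroup ↥(Cfsg.qd p))) (hT : T ≠ ⊥) (hTc : T.Characteristic) : Subgroup.normalizer ((T.map (S : Subgroup ↥(Cfsg.qd p)).subtype : Subgroup ↥(Cfsg.qd p)) : Set ↥(Cfsg.qd p)) = Subgroup.normalizer ((S : Subgroup ↥(Cfsg.qd p)) : Set ↥(Cfsg.qd p)) ∧ Subgroup.normalizer ((S : Subgroup ↥(Cfsg.qd p)) : Set ↥(Cfsg.qd p)) ≠ ⊤ := by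
  have hfin : Finite ↥(Cfsg.qd p) := inferInstance
  obtain ⟨D, hD⟩ := QdPar.exists_par_of_sylow (QdPar.ofEquiv (MulEquiv.refl ↥(Cfsg.qd p))) S
  generalize (S : Subgroup ↥(Cfsg.qd p)) = S' at *
  subst hD
  exact ⟨D.normalizer_char T hT hTc, D.normalizer_T0_ne_top⟩

end Cfsg.Agent.S2763
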