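import Cfsg.Statements.S2779
import Mathlib
import Cfsg.Agent.H12.Dk20

set_option autoImplicit false
open Cfsg

namespace Cfsg.Agent.S2779

section aux
open Cfsg.Agent.H12.Dk Matrix
open scoped commutatorElement
variable {G : Type*} [Group G] {F : Type*} [Field F]

theorem core [Fintype F] {p n : ℕ} (hF : Fintype.card F = p ^ n) (V L T : Subgroup G)
    (ρ : L →* SpecialLinearGroup (Fin 2) F) (ψ : Additive V ≃+ (Fin 2 → F))
    (hinj : Function.Injective ρ)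
    (hc : ∀ (l : L) (v : V), ∃ w : V, (w : G) = (l : G) * (v : G) * (l : G)⁻¹ ∧
          ψ (Additive.ofMul w) = ((ρ l : SpecialLinearGroup (Fin 2) F) : Matrix (Fin 2) (Fin 2) F).mulVec
            (ψ (Additive.ofMul v)))
    (hTL : T ≤ L)
    (hT : ∀ l : L, (l : G) ∈ T ↔ ∃ t, ρ l = xx t) (hsur : ∀ t, ∃ l : L, ρ l = xx t) :
    ⁅⁅V, T⁆, T⁆ = ⊥ ∧ Nat.card V = p ^ (2 * n) ∧
    Nat.card ↥(V ⊓ Subgroup.centralizer ((T : Subgroup G) : Set G)) = p ^ n ∧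
    ∀ s ∈ T, s ≠ 1 → (V ⊓ Subgroup.centralizer ({s} : Set G)) = (V ⊓ Subgroup.centralizer ((T : Subgroup G) : Set G)) ∧
      ⁅V, T⁆ = (V ⊓ Subgroup.centralizer ((T : Subgroup G) : Set G)) ∧
      ⁅V, Subgroup.zpowers s⁆ = (V ⊓ Subgroup.centralizer ((T : Subgroup G) : Set G)) ∧
      ∀ v ∈ V, v ∉ Subgroup.centralizer (T : Set G) →
        Subgroup.closure {x : G | ∃ t ∈ T, x = v * t * v⁻¹ * t⁻¹} = (V ⊓ Subgroup.centralizer ((T : Subgroup G) : Set G)) := by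
  classical
  obtain ⟨X, hX⟩ : ∃ X : V → F, ∀ v, X v = ψ (Additive.ofMul v) 0 := ⟨_, fun _ => rfl⟩
  obtain ⟨Y, hY⟩ : ∃ Y : V → F, ∀ v, Y v = ψ (Additive.ofMul v) 1 := ⟨_, fun _ => rfl⟩
  have f0 : ∀ v w : V, X v = X w → Y v = Y w → v = w := by
    intro v w h1 h2
    rw [hX, hX] at h1
    rw [hY, hY] at h2
    have : ψ (Additive.ofMul v) = ψ (Additive.ofMul w) := by
      ext i; fin_cases i
      · exact h1
      · exact h2
    exact Additive.ofMul.injective (ψ.injective this)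
  have f1X : ∀ v w : V, X (v * w) = X v + X w := by
    intro v w; rw [hX, hX, hX, ofMul_mul, map_add]; rfl
  have f1Y : ∀ v w : V, Y (v * w) = Y v + Y w := by
    intro v w; rw [hY, hY, hY, ofMul_mul, map_add]; rfl
  have f1X' : ∀ v : V, X v⁻¹ = - X v := by
    intro v; rw [hX, hX, ofMul_inv, map_neg]; rfl
  have f1Y' : ∀ v : V, Y v⁻¹ = - Y v := by
    intro v; rw [hY, hY, ofMul_inv, map_neg]; rfl
  have f2 : ∀ (l : L) (t : F), ρ l = xx t → ∀ v : V, ∃ w : V, (w : G) = (l : G) * v * (l : G)⁻¹ ∧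
      X w = X v + t * Y v ∧ Y w = Y v := by
    intro l t hl v
    obtain ⟨w, hw1, hw2⟩ := hc l v
    refine ⟨w, hw1, ?_, ?_⟩
    · rw [hX, hw2, hl, hX, hY]
      simp [xx, Matrix.mulVec, dotProduct, Fin.sum_univ_two]
    · rw [hY, hw2, hl, hY]
      simp [xx, Matrix.mulVec, dotProduct, Fin.sum_univ_two]
  have f3 : ∀ (l : L) (t : F), ρ l = xx t → ∀ v : V, ∃ c : V, (c : G) = (v : G) * l * (v : G)⁻¹ * (l : G)⁻¹ ∧
      X c = - t * Y v ∧ Y c = 0 := by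
    intro l t hl v
    obtain ⟨w, hw1, hw2, hw3⟩ := f2 l t hl v
    refine ⟨v * w⁻¹, ?_, ?_, ?_⟩
    · show (v : G) * (w : G)⁻¹ = _
      rw [hw1]; group
    · rw [f1X, f1X', hw2]; ring
    · rw [f1Y, f1Y', hw3]; ring
  have f4' : ∀ (l : L) (t : F), ρ l = xx t → t ≠ 0 → ∀ v : V, ((l : G) * v = v * l ↔ Y v = 0) := by
    intro l t hl ht v
    obtain ⟨w, hw1, hw2, hw3⟩ := f2 l t hl v
    constructor
    · intro h
      have : w = v := by
        apply Subtype.ext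
        rw [hw1, h]; group
      rw [this] at hw2
      have : t * Y v = 0 := by linear_combination -hw2
      exact (mul_eq_zero.mp this).resolve_left ht
    · intro h
      have : w = v := f0 w v (by rw [hw2, h]; ring) hw3
      rw [this] at hw1
      calc (l : G) * v = ((l : G) * v * (l : G)⁻¹) * l := by group
        _ = v * l := by rw [← hw1]
  have f4 : ∀ v : V, ((v : G) ∈ Subgroup.centralizer (T : Set G) ↔ Y v = 0) := by
    intro v
    rw [Subgroup.mem_centralizer_iff]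
    constructor
    · intro h
      obtain ⟨l, hl⟩ := hsur 1
      exact (f4' l 1 hl one_ne_zero v).1 (h l ((hT l).2 ⟨1, hl⟩))
    · intro h g hg
      obtain ⟨t, ht⟩ := (hT ⟨g, hTL hg⟩).1 hg
      obtain ⟨w, hw1, hw2, hw3⟩ := f2 ⟨g, hTL hg⟩ t ht v
      have : w = v := f0 w v (by rw [hw2, h]; ring) hw3
      rw [this] at hw1
      calc g * (v : G) = (g * v * g⁻¹) * g := by group
        _ = v * g := by rw [← hw1]
  have f5 : ∀ x y : F, ∃ v : V, X v = x ∧ Y v = y := by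
    intro x y
    refine ⟨Additive.toMul (ψ.symm ![x, y]), ?_, ?_⟩
    · rw [hX, ofMul_toMul, ψ.apply_symm_apply]; rfl
    · rw [hY, ofMul_toMul, ψ.apply_symm_apply]; rfl
  have hle : ⁅V, T⁆ ≤ V ⊓ Subgroup.centralizer (T : Set G) := by
    rw [Subgroup.commutator_le]
    intro v hv g hg
    obtain ⟨t, ht⟩ := (hT ⟨g, hTL hg⟩).1 hg
    obtain ⟨c, hc1, hc2, hc3⟩ := f3 ⟨g, hTL hg⟩ t ht ⟨v, hv⟩
    rw [commutatorElement_def]
    have : v * g * v⁻¹ * g⁻¹ = (c : G) := hc1.symm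
    rw [this]
    exact ⟨c.2, (f4 c).2 hc3⟩
  refine ⟨?_, ?_, ?_, ?_⟩
  · rw [Subgroup.commutator_eq_bot_iff_le_centralizer]
    exact hle.trans inf_le_right
  · rw [Nat.card_congr (Additive.ofMul.trans ψ.toEquiv), Nat.card_eq_fintype_card, Fintype.card_fun,
      Fintype.card_fin, hF, ← pow_mul, mul_comm]
  · have hb : Function.Bijective (fun w : ↥(V ⊓ Subgroup.centralizer (T : Set G)) => X ⟨w.1, w.2.1⟩) := by
      constructor
      · intro w w' h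
        have h1 := (f4 ⟨w.1, w.2.1⟩).1 w.2.2
        have h2 := (f4 ⟨w'.1, w'.2.1⟩).1 w'.2.2
        have := f0 _ _ h (h1.trans h2.symm)
        exact Subtype.ext (congrArg (fun z : ↥V => (z : G)) this)
      · intro x
        obtain ⟨v, hv1, hv2⟩ := f5 x 0
        exact ⟨⟨v.1, v.2, (f4 v).2 hv2⟩, hv1⟩
    rw [Nat.card_congr (Equiv.ofBijective _ hb), Nat.card_eq_fintype_card, hF]
  · intro s hs hs1
    obtain ⟨t, ht⟩ := (hT ⟨s, hTL hs⟩).1 hs
    have ht0 : t ≠ 0 := by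
      rintro rfl
      apply hs1
      have : ρ ⟨s, hTL hs⟩ = ρ 1 := by
        rw [ht, map_one]; apply sl_ext <;> simp
      exact congrArg Subtype.val (hinj this)
    have hge : V ⊓ Subgroup.centralizer (T : Set G) ≤ ⁅V, Subgroup.zpowers s⁆ := by
      rintro w ⟨hwV, hwC⟩
      have hw0 := (f4 ⟨w, hwV⟩).1 hwC
      obtain ⟨v, hv1, hv2⟩ := f5 0 (- X ⟨w, hwV⟩ / t)
      obtain ⟨c, hc1, hc2, hc3⟩ := f3 ⟨s, hTL hs⟩ t ht v
      have : c = ⟨w, hwV⟩ := f0 _ _ (by rw [hc2, hv2]; field_simp) (hc3.trans hw0.symm)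
      have h2 : w = ⁅(v : G), s⁆ := by
        rw [commutatorElement_def]
        have := congrArg Subtype.val this
        rw [hc1] at this
        exact this.symm
      rw [h2]
      exact Subgroup.commutator_mem_commutator v.2 (Subgroup.mem_zpowers s)
    have hmono : ⁅V, Subgroup.zpowers s⁆ ≤ ⁅V, T⁆ :=
      Subgroup.commutator_mono le_rfl (Subgroup.zpowers_le.2 hs)
    refine ⟨?_, le_antisymm hle (hge.trans hmono), le_antisymm (hmono.trans hle) hge, ?_⟩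
    · ext g
      simp only [Subgroup.mem_inf]
      constructor
      · rintro ⟨hgV, hgs⟩
        refine ⟨hgV, (f4 ⟨g, hgV⟩).2 ?_⟩
        rw [Subgroup.mem_centralizer_iff] at hgs
        exact (f4' ⟨s, hTL hs⟩ t ht ht0 ⟨g, hgV⟩).1 (hgs s rfl)
      · rintro ⟨hgV, hgT⟩
        refine ⟨hgV, ?_⟩
        rw [Subgroup.mem_centralizer_iff] at hgT ⊢
        rintro h rfl
        exact hgT h hs
    · intro v hv hvC
      have hy : Y ⟨v, hv⟩ ≠ 0 := fun h => hvC ((f4 ⟨v, hv⟩).2 h)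
      apply le_antisymm
      · rw [Subgroup.closure_le]
        rintro x ⟨g, hg, rfl⟩
        obtain ⟨t', ht'⟩ := (hT ⟨g, hTL hg⟩).1 hg
        obtain ⟨c, hc1, hc2, hc3⟩ := f3 ⟨g, hTL hg⟩ t' ht' ⟨v, hv⟩
        have : v * g * v⁻¹ * g⁻¹ = (c : G) := hc1.symm
        rw [this]
        exact ⟨c.2, (f4 c).2 hc3⟩
      · rintro w ⟨hwV, hwC⟩
        have hw0 := (f4 ⟨w, hwV⟩).1 hwC
        obtain ⟨l, hl⟩ := hsur (- X ⟨w, hwV⟩ / Y ⟨v, hv⟩)
        obtain ⟨c, hc1, hc2, hc3⟩ := f3 l _ hl ⟨v, hv⟩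
        have : c = ⟨w, hwV⟩ := f0 _ _ (by rw [hc2]; field_simp) (hc3.trans hw0.symm)
        apply Subgroup.subset_closure
        refine ⟨l, (hT l).2 ⟨_, hl⟩, ?_⟩
        have := congrArg Subtype.val this
        rw [hc1] at this
        exact this.symm

def xxSub : Subgroup (SpecialLinearGroup (Fin 2) F) where
  carrier := {g | ∃ t, g = xx t}
  mul_mem' := by
    rintro _ _ ⟨s, rfl⟩ ⟨t, rfl⟩
    exact ⟨_, xx_mul s t⟩
  one_mem' := ⟨0, by apply sl_ext <;> simp⟩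
  inv_mem' := by
    rintro _ ⟨s, rfl⟩
    exact ⟨-s, by apply sl_ext <;> simp⟩

theorem smul_eq_mv (A : SpecialLinearGroup (Fin 2) F) (x : Fin 2 → F) :
    A • x = (A : Matrix (Fin 2) (Fin 2) F).mulVec x := rfl

end aux


/-- Let L act on the elementary abelian p-group V (inside a finite group, by conjugation, faithfully) as SL₂(F) on its natural module, F a field with p^n elements, and let S be a Sylow p-subgroup of L. Then [V, S, S] = 1; |V| = p^(2n) and |C_V(S)| = p^n; and for every nonidentity s ∈ S and every v ∈ V outside C_V(S): C_V(s) = C_V(S) = [V, S] = [V, s] = the subgroup generated by the commutators [v, t], t ∈ S. -/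
theorem result {G : Type*} [Group G] [Finite G] {p : ℕ} [Fact p.Prime] {F : Type*} [Field F] [Fintype F] (n : ℕ) (hF : Fintype.card F = p ^ n) (V L : Subgroup G) (hnat : Cfsg.IsNaturalSL2Module F V L) (hf : L ⊓ Subgroup.centralizer (V : Set G) = ⊥) (S : Sylow p ↥L) (T : Subgroup G) (hT : T = ((S : Subgroup ↥L).map L.subtype)) : ⁅⁅V, T⁆, T⁆ = ⊥ ∧ Nat.card V = p ^ (2 * n) ∧ Nat.card ↥(V ⊓ Subgroup.centralizer ((T : Subgroup G) : Set G)) = p ^ n ∧ ∀ s ∈ T, s ≠ 1 → (V ⊓ Subgroup.centralizer ({s} : Set G)) = (V ⊓ Subgroup.centralizer ((T : Subgroup G) : Set G)) ∧ ⁅V, T⁆ = (V ⊓ Subgroup.centralizer ((T : Subgroup G) : Set G)) ∧ ⁅V, Subgroup.zpowers s⁆ = (V ⊓ Subgroup.centralizer ((T : Subgroup G) : Set G)) ∧ ∀ v ∈ V, v ∉ Subgroup.centralizer (T : Set G) → Subgroup.closure {x : G | ∃ t ∈ T, x = v * t * v⁻¹ * t⁻¹} = (V ⊓ Subgroup.centralizer ((T : Subgroup G) : Set G)) := by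
  classical
  obtain ⟨hLV, ρ, ψ, hsurj, hker, hc⟩ := hnat
  have hinj : Function.Injective ρ := by
    rw [← MonoidHom.ker_eq_bot_iff, hker, Subgroup.subgroupOf_eq_bot]
    exact disjoint_iff.2 (by rw [inf_comm]; exact hf)
  have hn : n ≠ 0 := by
    rintro rfl
    have := Fintype.one_lt_card (α := F)
    rw [hF] at this
    simp at this
  have hp0 : (p : F) = 0 := by
    have h1 : ((Fintype.card F : ℕ) : F) = 0 := Nat.cast_card_eq_zero F
    rw [hF, Nat.cast_pow] at h1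
    by_contra h
    exact pow_ne_zero n h h1
  let f : ↥(S : Subgroup ↥L) →* Matrix.SpecialLinearGroup (Fin 2) F := ρ.comp (S : Subgroup ↥L).subtype
  letI : MulAction ↥(S : Subgroup ↥L) (Fin 2 → F) := MulAction.compHom (Fin 2 → F) f
  have hdvd : p ∣ Nat.card (Fin 2 → F) := by
    rw [Nat.card_eq_fintype_card, Fintype.card_fun, Fintype.card_fin, hF]
    exact dvd_pow (dvd_pow_self p hn) (by norm_num)
  obtain ⟨u, hu, hu0⟩ := S.2.exists_fixed_point_of_prime_dvd_card_of_fixed_point (Fin 2 → F) hdvd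
    (a := 0) (fun g => show f g • (0 : Fin 2 → F) = 0 from smul_zero _)
  have hu' : ∀ l : ↥L, l ∈ S → ρ l • u = u := fun l hl => hu ⟨l, hl⟩
  obtain ⟨g₀, hg0, hg1⟩ : ∃ g₀ : Matrix.SpecialLinearGroup (Fin 2) F,
      Cfsg.Agent.H12.Dk.e00 g₀ = u 0 ∧ Cfsg.Agent.H12.Dk.e10 g₀ = u 1 := by
    by_cases ha : u 0 = 0
    · have hb : u 1 ≠ 0 := by
        intro hb
        apply hu0
        ext i
        fin_cases i
        · exact ha.symm
        · exact hb.symm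
      refine ⟨⟨!![0, -(u 1)⁻¹; u 1, 0], by rw [Matrix.det_fin_two]; simp [hb]⟩, ?_, ?_⟩
      · simp [Cfsg.Agent.H12.Dk.e00, ha]
      · simp [Cfsg.Agent.H12.Dk.e10]
    · exact ⟨⟨!![u 0, 0; u 1, (u 0)⁻¹], by rw [Matrix.det_fin_two]; simp [ha]⟩,
        by simp [Cfsg.Agent.H12.Dk.e00], by simp [Cfsg.Agent.H12.Dk.e10]⟩
  let ρ' : ↥L →* Matrix.SpecialLinearGroup (Fin 2) F := (MulAut.conj g₀⁻¹).toMonoidHom.comp ρ
  have hρ' : ∀ l, ρ' l = g₀⁻¹ * ρ l * g₀ := by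
    intro l
    show g₀⁻¹ * ρ l * (g₀⁻¹)⁻¹ = _
    rw [inv_inv]
  let ψ' : Additive ↥V ≃+ (Fin 2 → F) := ψ.trans (DistribMulAction.toAddEquiv (Fin 2 → F) g₀⁻¹)
  have hψ' : ∀ a, ψ' a = g₀⁻¹ • ψ a := fun a => rfl
  have hinj' : Function.Injective ρ' := (MulAut.conj g₀⁻¹).injective.comp hinj
  have hc' : ∀ (l : ↥L) (v : ↥V), ∃ w : ↥V, (w : G) = (l : G) * (v : G) * (l : G)⁻¹ ∧
      ψ' (Additive.ofMul w) = ((ρ' l : Matrix.SpecialLinearGroup (Fin 2) F) : Matrix (Fin 2) (Fin 2) F).mulVec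
        (ψ' (Additive.ofMul v)) := by
    intro l v
    obtain ⟨w, hw1, hw2⟩ := hc l v
    refine ⟨w, hw1, ?_⟩
    rw [← smul_eq_mv, hψ', hψ', hw2, ← smul_eq_mv, hρ', mul_smul, mul_smul, smul_inv_smul]
  have hTL : T ≤ L := by rw [hT]; exact Subgroup.map_subtype_le _
  have hmemT : ∀ l : ↥L, (l : G) ∈ T ↔ l ∈ S := by
    intro l
    rw [hT]
    constructor
    · rintro ⟨x, hx, hxl⟩
      have : x = l := Subtype.ext hxl
      rwa [← this]
    · intro h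
      exact ⟨l, h, rfl⟩
  have hSU : (S : Subgroup ↥L) ≤ (xxSub (F := F)).comap ρ' := by
    intro l hl
    have h1 := hu' l hl
    rw [smul_eq_mv] at h1
    have e0 := congrFun h1 0
    have e1 := congrFun h1 1
    simp only [Matrix.mulVec, dotProduct, Fin.sum_univ_two] at e0 e1
    have e0' : Cfsg.Agent.H12.Dk.e00 (ρ l) * u 0 + Cfsg.Agent.H12.Dk.e01 (ρ l) * u 1 = u 0 := e0
    have e1' : Cfsg.Agent.H12.Dk.e10 (ρ l) * u 0 + Cfsg.Agent.H12.Dk.e11 (ρ l) * u 1 = u 1 := e1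
    have hd := Cfsg.Agent.H12.Dk.sl_det g₀
    rw [hg0, hg1] at hd
    refine ⟨Cfsg.Agent.H12.Dk.e01 (ρ' l), ?_⟩
    rw [Cfsg.Agent.H12.Dk.eq_xx_iff]
    refine ⟨?_, rfl, ?_⟩
    · rw [hρ']
      simp only [Cfsg.Agent.H12.Dk.e00_mul, Cfsg.Agent.H12.Dk.e01_mul, Cfsg.Agent.H12.Dk.e10_mul,
        Cfsg.Agent.H12.Dk.e11_mul, Cfsg.Agent.H12.Dk.e00_inv, Cfsg.Agent.H12.Dk.e01_inv,
        Cfsg.Agent.H12.Dk.e10_inv, Cfsg.Agent.H12.Dk.e11_inv, hg0, hg1]
      linear_combination (Cfsg.Agent.H12.Dk.e11 g₀) * e0' - (Cfsg.Agent.H12.Dk.e01 g₀) * e1' + hd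
    · rw [hρ']
      simp only [Cfsg.Agent.H12.Dk.e00_mul, Cfsg.Agent.H12.Dk.e01_mul, Cfsg.Agent.H12.Dk.e10_mul,
        Cfsg.Agent.H12.Dk.e11_mul, Cfsg.Agent.H12.Dk.e00_inv, Cfsg.Agent.H12.Dk.e01_inv,
        Cfsg.Agent.H12.Dk.e10_inv, Cfsg.Agent.H12.Dk.e11_inv, hg0, hg1]
      linear_combination (- u 1) * e0' + (u 0) * e1'
  have hUp : IsPGroup p ↥((xxSub (F := F)).comap ρ') := by
    rintro ⟨l, t, hl⟩
    refine ⟨1, ?_⟩
    apply Subtype.ext
    show l ^ (p ^ 1) = 1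
    apply hinj'
    rw [pow_one, map_pow, hl, Cfsg.Agent.H12.Dk.xx_pow, hp0, zero_mul, map_one]
    apply Cfsg.Agent.H12.Dk.sl_ext <;> simp
  have hUS : (xxSub (F := F)).comap ρ' = (S : Subgroup ↥L) := S.is_maximal' hUp hSU
  have hT' : ∀ l : ↥L, (l : G) ∈ T ↔ ∃ t, ρ' l = Cfsg.Agent.H12.Dk.xx t := by
    intro l
    rw [hmemT]
    have h1 : l ∈ S ↔ l ∈ (S : Subgroup ↥L) := Iff.rfl
    rw [h1, ← hUS]
    rfl
  have hsur' : ∀ t, ∃ l : ↥L, ρ' l = Cfsg.Agent.H12.Dk.xx t := by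
    intro t
    obtain ⟨l, hl⟩ := hsurj (g₀ * Cfsg.Agent.H12.Dk.xx t * g₀⁻¹)
    refine ⟨l, ?_⟩
    rw [hρ', hl]; group
  exact core hF V L T ρ' ψ' hinj' hc' hTL hT' hsur'

end Cfsg.Agent.S2779
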