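import Mathlib
import Cfsg.Statements.S2780
import Cfsg.Agent.H14.NatSL2

set_option autoImplicit false
open Cfsg

namespace Cfsg.Agent.S2780

/-- Let L act on the elementary abelian p-group V (inside a finite group, faithfully) as SL₂(F) on its natural module, F a field with p^n elements, S a Sylow p-subgroup of L. Then: for every g ∈ L not normalizing S, V is the internal direct product of C_V(S) and C_V(gSg⁻¹); every nonidentity element of L of order prime to p acts on V without nonidentity fixed points; and C_V(S) and V/C_V(S) are irreducible for N_L(S): the only N_L(S)-invariant subgroups of C_V(S) are 1 and C_V(S), and the only N_L(S)-invariant subgroups between C_V(S) and V are those two. -/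
theorem result {G : Type*} [Group G] [Finite G] {p : ℕ} [Fact p.Prime] {F : Type*} [Field F] [Fintype F] (n : ℕ) (hF : Fintype.card F = p ^ n) (V L : Subgroup G) (hnat : Cfsg.IsNaturalSL2Module F V L) (hf : L ⊓ Subgroup.centralizer (V : Set G) = ⊥) (S : Sylow p ↥L) (T : Subgroup G) (hT : T = ((S : Subgroup ↥L).map L.subtype)) : (∀ g ∈ L, g ∉ Subgroup.normalizer (T : Set G) → Cfsg.IsInternalDirectProduct (V ⊓ Subgroup.centralizer ((T : Subgroup G) : Set G)) (V ⊓ Subgroup.centralizer ((T.map (MulAut.conj g).toMonoidHom : Subgroup G) : Set G)) V) ∧ (∀ x ∈ L, x ≠ 1 → (orderOf x).Coprime p → (V ⊓ Subgroup.centralizer ({x} : Set G)) = ⊥) ∧ (∀ U : Subgroup G, U ≤ (V ⊓ Subgroup.centralizer ((T : Subgroup G) : Set G)) → L ⊓ Subgroup.normalizer (T : Set G) ≤ Subgroup.normalizer (U : Set G) → U = ⊥ ∨ U = (V ⊓ Subgroup.centralizer ((T : Subgroup G) : Set G))) ∧ (∀ U : Subgroup G, (V ⊓ Subgroup.centralizer ((T : Subgroup G) : Set G)) ≤ U →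 U ≤ V → L ⊓ Subgroup.normalizer (T : Set G) ≤ Subgroup.normalizer (U : Set G) → U = (V ⊓ Subgroup.centralizer ((T : Subgroup G) : Set G)) ∨ U = V) := by
  classical
  obtain ⟨hLN, ρ, ψ, hsurj, hker, hact⟩ := hnat
  have hn0 : n ≠ 0 := by
    rintro rfl
    have := Fintype.one_lt_card (α := F)
    rw [hF] at this
    simp at this
  haveI hchar : CharP F p := by
    obtain ⟨r, hr⟩ := CharP.exists F
    obtain ⟨m, hrp, hm⟩ := FiniteField.card F r
    have h1 : p ∣ r ^ (m : ℕ) := by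
      rw [← hm, hF]
      exact dvd_pow_self p hn0
    have h2 := (Nat.prime_dvd_prime_iff_eq Fact.out hrp).mp ((Fact.out : p.Prime).dvd_of_dvd_pow h1)
    rw [h2]
    exact hr
  have hinj : Function.Injective ρ := by
    rw [← MonoidHom.ker_eq_bot_iff, hker, Subgroup.subgroupOf_eq_bot, disjoint_iff, inf_comm]
    exact hf
  -- a fixed vector of `S`
  obtain ⟨e, he0, heS⟩ : ∃ e : Fin 2 → F, e ≠ 0 ∧ ∀ l ∈ S,
      (ρ l : Matrix (Fin 2) (Fin 2) F).mulVec e = e := by
    letI : MulAction ↥(S : Subgroup ↥L) (Fin 2 → F) :=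
      MulAction.compHom (Fin 2 → F) (ρ.comp (S : Subgroup ↥L).subtype)
    have hp : p ∣ Nat.card (Fin 2 → F) := by
      rw [Nat.card_eq_fintype_card, Fintype.card_fun, hF, Fintype.card_fin]
      exact dvd_pow (dvd_pow_self p hn0) two_ne_zero
    have h0 : (0 : Fin 2 → F) ∈ MulAction.fixedPoints ↥(S : Subgroup ↥L) (Fin 2 → F) := by
      intro s
      show (ρ (s : ↥L)) • (0 : Fin 2 → F) = 0
      exact smul_zero _
    obtain ⟨b, hb, hb0⟩ := S.2.exists_fixed_point_of_prime_dvd_card_of_fixed_point (Fin 2 → F) hp h0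
    refine ⟨b, hb0.symm, fun l hl => ?_⟩
    have := hb ⟨l, hl⟩
    exact this
  have hS : ∀ l : ↥L, l ∈ S ↔ (ρ l : Matrix (Fin 2) (Fin 2) F).mulVec e = e := by
    obtain ⟨Ue, hUe⟩ : ∃ Ue : Subgroup ↥L, ∀ l, l ∈ Ue ↔
        (ρ l : Matrix (Fin 2) (Fin 2) F).mulVec e = e :=
      ⟨(MulAction.stabilizer (Matrix.SpecialLinearGroup (Fin 2) F) e).comap ρ, fun l => Iff.rfl⟩
    have hPU : IsPGroup p Ue := by
      intro l
      refine ⟨1, ?_⟩
      apply Subtype.ext
      apply hinj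
      have h2 := Cfsg.Agent.H14.NatSL2.sub_one_sq (ρ (l : ↥L)) e he0 ((hUe _).mp l.2)
      have h3 := Cfsg.Agent.H14.pow_char_pow_eq_one_of_sub_one_pow p
        (ρ (l : ↥L) : Matrix (Fin 2) (Fin 2) F) 1 2
        (by rw [pow_one]; exact (Fact.out : p.Prime).two_le) h2
      rw [Subgroup.coe_pow, map_pow, Subgroup.coe_one, map_one]
      apply Subtype.ext
      rw [Matrix.SpecialLinearGroup.coe_pow, h3]
      rfl
    have hle : (S : Subgroup ↥L) ≤ Ue := fun l hl => (hUe l).mpr (heS l hl)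
    have hmax := S.is_maximal' hPU hle
    intro l
    rw [← hUe, hmax]
    rfl
  obtain ⟨g₀, hg₀0, hg₀1⟩ : ∃ g₀ : Matrix.SpecialLinearGroup (Fin 2) F,
      (g₀ : Matrix (Fin 2) (Fin 2) F) 0 0 = e 0 ∧ (g₀ : Matrix (Fin 2) (Fin 2) F) 1 0 = e 1 := by
    by_cases h : e 0 = 0
    · have h1 : e 1 ≠ 0 := by
        intro h1
        apply he0
        funext i
        fin_cases i
        · exact h
        · exact h1
      exact ⟨⟨!![e 0, -(e 1)⁻¹; e 1, 0], by simp [Matrix.det_fin_two, h1]⟩, by simp, by simp⟩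
    · exact ⟨⟨!![e 0, 0; e 1, (e 0)⁻¹], by simp [Matrix.det_fin_two, h]⟩, by simp, by simp⟩
  have hgg : ∀ u : Fin 2 → F, (g₀ : Matrix (Fin 2) (Fin 2) F).mulVec
      (((g₀⁻¹ : Matrix.SpecialLinearGroup (Fin 2) F) : Matrix (Fin 2) (Fin 2) F).mulVec u) = u := by
    intro u
    rw [Matrix.mulVec_mulVec, ← Matrix.SpecialLinearGroup.coe_mul, mul_inv_cancel,
      Matrix.SpecialLinearGroup.coe_one, Matrix.one_mulVec]
  have hgg' : ∀ u : Fin 2 → F, ((g₀⁻¹ : Matrix.SpecialLinearGroup (Fin 2) F) :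
      Matrix (Fin 2) (Fin 2) F).mulVec ((g₀ : Matrix (Fin 2) (Fin 2) F).mulVec u) = u := by
    intro u
    rw [Matrix.mulVec_mulVec, ← Matrix.SpecialLinearGroup.coe_mul, inv_mul_cancel,
      Matrix.SpecialLinearGroup.coe_one, Matrix.one_mulVec]
  have hcol : ∀ A : Matrix (Fin 2) (Fin 2) F, A.mulVec ![1, 0] = ![A 0 0, A 1 0] := by
    intro A
    funext i
    fin_cases i <;> simp [Matrix.mulVec, dotProduct, Fin.sum_univ_two]
  have he : (g₀ : Matrix (Fin 2) (Fin 2) F).mulVec ![1, 0] = e := by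
    rw [hcol, hg₀0, hg₀1]
    funext i
    fin_cases i <;> rfl
  obtain ⟨ρ', hρ'⟩ : ∃ ρ' : ↥L →* Matrix.SpecialLinearGroup (Fin 2) F,
      ∀ l, ρ' l = g₀⁻¹ * ρ l * g₀ :=
    ⟨(MulAut.conj g₀⁻¹).toMonoidHom.comp ρ, fun l => by
      show g₀⁻¹ * ρ l * g₀⁻¹⁻¹ = _
      rw [inv_inv]⟩
  have hρ'mv : ∀ (l : ↥L) (u : Fin 2 → F), (ρ' l : Matrix (Fin 2) (Fin 2) F).mulVec u =
      ((g₀⁻¹ : Matrix.SpecialLinearGroup (Fin 2) F) : Matrix (Fin 2) (Fin 2) F).mulVec
        ((ρ l : Matrix (Fin 2) (Fin 2) F).mulVec ((g₀ : Matrix (Fin 2) (Fin 2) F).mulVec u)) := by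
    intro l u
    rw [hρ', Matrix.SpecialLinearGroup.coe_mul, Matrix.SpecialLinearGroup.coe_mul,
      ← Matrix.mulVec_mulVec, ← Matrix.mulVec_mulVec]
  apply Cfsg.Agent.H14.NatSL2.core (p := p) V L ρ'
    (fun x => ((g₀⁻¹ : Matrix.SpecialLinearGroup (Fin 2) F) : Matrix (Fin 2) (Fin 2) F).mulVec
      (ψ (Additive.ofMul x)))
  · intro a b hab
    rw [hρ', hρ'] at hab
    exact hinj (mul_left_cancel (mul_right_cancel hab))
  · intro y
    obtain ⟨l, hl⟩ := hsurj (g₀ * y * g₀⁻¹)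
    refine ⟨l, ?_⟩
    rw [hρ', hl]
    group
  · intro x y
    show ((g₀⁻¹ : Matrix.SpecialLinearGroup (Fin 2) F) : Matrix (Fin 2) (Fin 2) F).mulVec
      (ψ (Additive.ofMul x + Additive.ofMul y)) = _
    rw [map_add, Matrix.mulVec_add]
  · intro x y hxy
    have h1 := congrArg (fun u => (g₀ : Matrix (Fin 2) (Fin 2) F).mulVec u) hxy
    simp only [hgg] at h1
    exact Additive.ofMul.injective (ψ.injective h1)
  · intro m
    refine ⟨Additive.toMul (ψ.symm ((g₀ : Matrix (Fin 2) (Fin 2) F).mulVec m)), ?_⟩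
    show ((g₀⁻¹ : Matrix.SpecialLinearGroup (Fin 2) F) : Matrix (Fin 2) (Fin 2) F).mulVec
      (ψ (ψ.symm ((g₀ : Matrix (Fin 2) (Fin 2) F).mulVec m))) = m
    rw [AddEquiv.apply_symm_apply, hgg']
  · intro l x
    obtain ⟨w, hw, hw'⟩ := hact l x
    refine ⟨w, hw, ?_⟩
    show ((g₀⁻¹ : Matrix.SpecialLinearGroup (Fin 2) F) : Matrix (Fin 2) (Fin 2) F).mulVec
      (ψ (Additive.ofMul w)) = _
    rw [hw', hρ'mv, hgg]
  · intro t
    rw [hT]
    constructor
    · rintro ⟨l, hl, rfl⟩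
      have h1 := (hS l).mp hl
      have h2 := hρ'mv l ![1, 0]
      rw [he, h1, ← he, hgg', hcol] at h2
      refine ⟨l, rfl, ?_, ?_⟩
      · simpa using congrFun h2 0
      · simpa using congrFun h2 1
    · rintro ⟨l, rfl, h00, h10⟩
      refine ⟨l, (hS l).mpr ?_, rfl⟩
      have h2 := hρ'mv l ![1, 0]
      rw [hcol, h00, h10, he] at h2
      have h3 := congrArg (fun u => (g₀ : Matrix (Fin 2) (Fin 2) F).mulVec u) h2
      simp only [hgg, he] at h3
      exact h3.symm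

end Cfsg.Agent.S2780
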