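import Cfsg.Statements.S2791
import Cfsg.Agent.Fus.Grp
import Cfsg.Agent.Fus.Normal3

set_option autoImplicit false
open Cfsg

namespace Cfsg.Agent.S2791

/-- Let S be a Sylow p-subgroup of the finite group G and A an abelian subgroup of S that is strongly closed in S with respect to G. Then A controls strong fusion in G: for some Sylow p-subgroup T containing A, whenever a subset of T is conjugated into T by an element of G, the same elementwise conjugation is induced by an element of N_G(A). -/
theorem result {G : Type*} [Group G] [Finite G] {p : ℕ} [Fact p.Prime] (S : Sylow p G) (A : Subgroup G) (hA : IsMulCommutative ↥A) (hsc : Cfsg.IsStronglyClosed A (S : Subgroup G)) : Cfsg.ControlsStrongFusion p A := by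
  have hF := Cfsg.FusionSystem.isSaturated_groupFusionSystem S
  have hN : (Cfsg.groupFusionSystem (S : Subgroup G)).IsNormal A := by
    apply (Cfsg.groupFusionSystem (S : Subgroup G)).isNormal_of_abelian_stronglyClosed S.2 hF _ hA
    refine ⟨hsc.1, ?_⟩
    rintro R hR φ ⟨-, hφ, g, hg⟩ x
    have h1 := hφ x
    rw [hg] at h1 ⊢
    exact hsc.2 x (hR x.2) g h1
  refine ⟨S, hsc.1, fun X hX => ⟨hX, fun g hg => ?_⟩⟩
  have hP : Subgroup.closure X ≤ (S : Subgroup G) := (Subgroup.closure_le _).2 hX
  have hval : ∀ y ∈ Subgroup.closure X, g * y * g⁻¹ ∈ (S : Subgroup G) := by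
    have h2 : Subgroup.closure X ≤ (S : Subgroup G).comap (MulAut.conj g).toMonoidHom := by
      rw [Subgroup.closure_le]
      intro a ha
      exact hg ⟨a, ha, rfl⟩
    intro y hy
    exact h2 hy
  have hφ : Cfsg.conjHom (Subgroup.closure X) g ∈
      (Cfsg.groupFusionSystem (S : Subgroup G)).Hom (Subgroup.closure X) :=
    ⟨hP, fun y => hval y y.2, g, fun y => rfl⟩
  obtain ⟨ψ, ⟨-, -, x, hx⟩, hψ1, hψ2⟩ := hN.2 _ _ hφ
  haveI : Finite A := Finite.of_injective _ A.subtype_injective
  refine ⟨x, ?_, fun a ha => ?_⟩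
  · apply Subgroup.mem_normalizer_fintype
    intro n hn
    have h3 : ψ ⟨n, (le_sup_right : A ≤ Subgroup.closure X ⊔ A) hn⟩ ∈
        (A.subgroupOf (Subgroup.closure X ⊔ A)).map ψ :=
      ⟨_, Subgroup.mem_subgroupOf.2 hn, rfl⟩
    rw [hψ2, hx] at h3
    exact h3
  · have h4 := hψ1 ⟨a, Subgroup.subset_closure ha⟩
    rw [hx] at h4
    exact h4.symm

end Cfsg.Agent.S2791
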