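import Cfsg.Statements.S2794
import Cfsg.Agent.S1969
import Cfsg.Agent.H12.Zj1
import Cfsg.Agent.H17.ZJClosed

set_option autoImplicit false
open Cfsg
open Cfsg.Agent.Lib.Helper13

namespace Cfsg.Agent.S2794

/-- For an odd prime p and a finite group G, the group Qd(p) is not involved in G if and only if in every section K/R of G, for every Sylow p-subgroup S* of K/R, the centre of J(S*) (J generated by the abelian subgroups of largest order) controls strong fusion in K/R. -/
theorem result {G : Type*} [Group G] [Finite G] {p : ℕ} [Fact p.Prime] (hp : p ≠ 2) : ¬ Cfsg.Involves ↥(Cfsg.qd p) G ↔ ∀ (K R : Subgroup G) [hR : (R.subgroupOf K).Normal], ∀ T : Sylow p (K ⧸ R.subgroupOf K), Cfsg.ControlsStrongFusion p (Cfsg.centerThompsonAOf (T : Subgroup (K ⧸ R.subgroupOf K))) := by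
  constructor
  · intro h K R hR T
    have h1 := Cfsg.Agent.S1969.result (G := G) (p := p) (WZ 0) (isCharPFunctor_WZ (Or.inl rfl)) (by
      intro K R hR hc T
      rw [inducedFunctor_WZ]
      exact zAb_normal hp (Or.inl rfl) hc (fun P _ hP =>
        Cfsg.Agent.H17.isPStableOn_of_normalizerPStable (Cfsg.Agent.H12.Dk.stable_of_qd_free hp h K R) P hP) T) K R T
    rw [inducedFunctor_WZ] at h1
    rw [centerThompsonAOf_eq]
    exact h1
  · intro h
    exact Cfsg.Agent.H12.Zj.not_involves_of_controls h

end Cfsg.Agent.S2794
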