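import Cfsg.Statements.S3116
import Cfsg.Agent.Tr.MC13
-- import your own Cfsg.Agent.* helpers here

set_option autoImplicit false
open Cfsg

open Cfsg.Agent.Tr

namespace Cfsg.Agent.S3116

/-- The automorphism group of a dihedral 2-group of order at least 8, or of a quasi-dihedral (semidihedral) 2-group of order at least 16, is a 2-group. -/
theorem result {X : Type*} [Group X] [Finite X] (h2 : IsPGroup 2 X)
    (h : (∃ n : ℕ, 4 ≤ n ∧ Nonempty (X ≃* DihedralGroup n)) ∨ Cfsg.IsQuasiDihedral X) : IsPGroup 2 (MulAut X) := by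

  rcases h with ⟨n, hn, ⟨e⟩⟩ | h
  · obtain ⟨k, hk⟩ := IsPGroup.iff_card.1 h2
    rw [Nat.card_congr e.toEquiv, DihedralGroup.nat_card] at hk
    have hdvd : n ∣ 2 ^ k := ⟨2, by rw [← hk]; ring⟩
    obtain ⟨m, -, rfl⟩ := (Nat.dvd_prime_pow Nat.prime_two).1 hdvd
    have hm : 2 ≤ m := by
      by_contra hlt
      have : m = 0 ∨ m = 1 := by omega
      rcases this with rfl | rfl <;> norm_num at hn
    have hD := (MC.dat_dihedral m).of_equiv e
    by_cases hm3 : 3 ≤ m
    · exact hD.isPGroup_aut hm3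
    · obtain rfl : m = 2 := by omega
      apply hD.isPGroup_aut_dih
      rw [← map_pow]
      simp [sq]
  · obtain ⟨m, a, b, hm, hD, -, -⟩ := MC.dat_of_quasiDihedral h
    exact hD.isPGroup_aut hm

end Cfsg.Agent.S3116
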