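import Cfsg.Statements.S3356
import Cfsg.Agent.H20.HalfTrans
-- import your own Cfsg.Agent.* helpers here

set_option autoImplicit false
open Cfsg

namespace Cfsg.Agent.S3356

/-- Let G be a finite 3/2-transitive permutation group: G acts faithfully and transitively on a finite set, the point stabilizers are non-trivial, and for each point a all orbits of G_a on the remaining points have the same size. Suppose G has a regular normal subgroup N and G is not a Frobenius group (some two-point stabilizer is non-trivial). Then N is an elementary abelian p-group for some prime p, and every non-trivial normal subgroup of G contains N (so N is the unique minimal normal subgroup). -/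
theorem result {G Ω : Type*} [Group G] [Finite G]
    [MulAction G Ω] [FaithfulSMul G Ω] [Finite Ω] (htrans : MulAction.IsPretransitive G Ω)
    (hne : ∀ a : Ω, MulAction.stabilizer G a ≠ ⊥)
    (hhalf : ∀ a b c : Ω, b ≠ a → c ≠ a →
      Nat.card (MulAction.orbit (MulAction.stabilizer G a) b) = Nat.card (MulAction.orbit (MulAction.stabilizer G a) c))
    (N : Subgroup G) [hN : N.Normal] (hNt : MulAction.IsPretransitive N Ω) (hNr : ∀ a : Ω, MulAction.stabilizer N a = ⊥)
    (hnotF : ∃ a b : Ω, a ≠ b ∧ MulAction.stabilizer G a ⊓ MulAction.stabilizer G b ≠ ⊥) :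
    (∃ p : ℕ, p.Prime ∧ IsMulCommutative N ∧ ∀ x ∈ N, x ^ p = 1) ∧
    (∀ M : Subgroup G, M.Normal → M ≠ ⊥ → N ≤ M) := by
  classical
  obtain ⟨a, b, hab, hst⟩ := hnotF
  have htrN : ∀ ω : Ω, ∃ n ∈ N, n • a = ω := by
    intro ω
    obtain ⟨n, hn⟩ := hNt.exists_smul_eq a ω
    exact ⟨n.1, n.2, hn⟩
  have hreg : ∀ n ∈ N, n • a = a → n = 1 := by
    intro n hn h
    have h1 : (⟨n, hn⟩ : N) ∈ MulAction.stabilizer N a := h
    rw [hNr a, Subgroup.mem_bot] at h1
    exact congrArg Subtype.val h1
  have hreg2 : ∀ n ∈ N, ∀ n' ∈ N, n • a = n' • a → n = n' := by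
    intro n hn n' hn' h
    have h1 : (n'⁻¹ * n) • a = a := by rw [mul_smul, h, inv_smul_smul]
    have h2 := hreg _ (mul_mem (inv_mem hn') hn) h1
    exact (inv_mul_eq_one.1 h2).symm
  have hkey : ∀ h ∈ MulAction.stabilizer G a, ∀ x ∈ N,
      (h • (x • a) = x • a ↔ h * x = x * h) := by
    intro h hh x hx
    have hha : h • a = a := hh
    have hha' : h⁻¹ • a = a := by rw [inv_smul_eq_iff, hha]
    have e : h • (x • a) = (h * x * h⁻¹) • a := by rw [mul_smul, mul_smul, hha']
    rw [e]
    constructor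
    · intro h1
      have h2 := hreg2 _ (hN.conj_mem x hx h) _ hx h1
      rw [mul_inv_eq_iff_eq_mul] at h2
      exact h2
    · intro h1
      rw [h1]; simp
  have hcard : ∀ x ∈ N, Nat.card ↥(MulAction.stabilizer G a ⊓ Subgroup.centralizer {x})
      * Nat.card (MulAction.orbit (MulAction.stabilizer G a) (x • a))
      = Nat.card (MulAction.stabilizer G a) := by
    intro x hx
    have e : MulAction.stabilizer ↥(MulAction.stabilizer G a) (x • a)
        = (MulAction.stabilizer G a ⊓ Subgroup.centralizer {x}).subgroupOf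
          (MulAction.stabilizer G a) := by
      ext l
      rw [MulAction.mem_stabilizer_iff, Subgroup.mem_subgroupOf, Cfsg.Agent.H20.HalfTrans.mem_R]
      constructor
      · intro h; exact ⟨l.2, (hkey l l.2 x hx).1 h⟩
      · rintro ⟨_, h⟩; exact (hkey l l.2 x hx).2 h
    have h1 := (MulAction.stabilizer ↥(MulAction.stabilizer G a) (x • a)).card_mul_index
    rw [MulAction.index_stabilizer, e, Cfsg.H1.card_subgroupOf_of_le inf_le_left,
      ← Nat.card_coe_set_eq] at h1
    exact h1
  have hc : ∀ x ∈ N, x ≠ 1 → ∀ y ∈ N, y ≠ 1 →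
      Nat.card ↥(MulAction.stabilizer G a ⊓ Subgroup.centralizer {x})
        = Nat.card ↥(MulAction.stabilizer G a ⊓ Subgroup.centralizer {y}) := by
    intro x hx hx1 y hy hy1
    have h1 := hcard x hx
    have h2 := hcard y hy
    have h3 := hhalf a (x • a) (y • a) (fun h => hx1 (hreg x hx h)) (fun h => hy1 (hreg y hy h))
    rw [h3] at h1
    have hpos : 0 < Nat.card (MulAction.orbit (MulAction.stabilizer G a) (y • a)) := by
      apply Nat.pos_of_ne_zero
      intro h0
      rw [h0, mul_zero] at h2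
      exact Nat.card_pos.ne h2
    exact Nat.eq_of_mul_eq_mul_right hpos (h1.trans h2.symm)
  have hG : ∀ g : G, ∃ n ∈ N, ∃ h ∈ MulAction.stabilizer G a, g = n * h := by
    intro g
    obtain ⟨n, hn, hna⟩ := htrN (g • a)
    refine ⟨n, hn, n⁻¹ * g, ?_, by group⟩
    rw [MulAction.mem_stabilizer_iff, mul_smul, ← hna, inv_smul_smul]
  have hfaith : ∀ h ∈ MulAction.stabilizer G a, (∀ n ∈ N, h * n = n * h) → h = 1 := by
    intro h hh hcen
    apply FaithfulSMul.eq_of_smul_eq_smul (α := Ω)
    intro ω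
    obtain ⟨n, hn, rfl⟩ := htrN ω
    have hha : h • a = a := hh
    rw [one_smul, ← mul_smul, hcen n hn, mul_smul, hha]
  obtain ⟨⟨h0, hh0⟩, hh1⟩ := (Subgroup.ne_bot_iff_exists_ne_one).1 hst
  have hh1' : h0 ≠ 1 := fun h => hh1 (Subtype.ext h)
  obtain ⟨x0, hx0, hx0b⟩ := htrN b
  have hx1 : x0 ≠ 1 := by
    rintro rfl
    rw [one_smul] at hx0b
    exact hab hx0b
  have hcomm0 : h0 * x0 = x0 * h0 := by
    apply (hkey h0 hh0.1 x0 hx0).1
    rw [hx0b]
    exact hh0.2
  exact Cfsg.Agent.H20.HalfTrans.main N (MulAction.stabilizer G a) hG hc hfaith h0 x0 hh0.1 hh1'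
    hx0 hx1 hcomm0

end Cfsg.Agent.S3356
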