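import Cfsg.Statements.S3375
import Mathlib

set_option autoImplicit false
open Cfsg

namespace Cfsg.Agent.S3375

/-- Let γ be an automorphism of order 2 of a finite group H. (i) If γ fixes only the identity, then H is abelian and γ inverts every element. (ii) If γ has exactly two fixed points and H has a subgroup of index 2, then H has a γ-invariant abelian subgroup of index 2 on which γ acts by inversion. -/
theorem result {H : Type*} [Group H] [Finite H] (γ : MulAut H) (hγ : orderOf γ = 2) :
    ((∀ h : H, γ h = h → h = 1) → (∀ a b : H, a * b = b * a) ∧ ∀ h : H, γ h = h⁻¹) ∧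
    ((Nat.card {h : H // γ h = h} = 2 ∧ ∃ M : Subgroup H, M.index = 2) →
      ∃ A : Subgroup H, A.index = 2 ∧ IsMulCommutative A ∧ (∀ a ∈ A, γ a ∈ A) ∧ ∀ a ∈ A, γ a = a⁻¹) := by
  classical
  have hinv : Function.Involutive γ := by
    intro h
    have h1 : γ ^ 2 = 1 := by rw [← hγ]; exact pow_orderOf_eq_one γ
    have h2 : (γ ^ 2) h = h := by rw [h1]; rfl
    rw [pow_two] at h2
    exact h2
  refine ⟨?_, ?_⟩
  · intro hfpf
    have hf : MonoidHom.FixedPointFree γ := hfpf
    refine ⟨fun a b => (hf.commute_all_of_involutive hinv a b).eq, fun h => ?_⟩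
    exact congrFun (hf.coe_eq_inv_of_involutive hinv) h
  · rintro ⟨hfix, M, hM⟩
    -- an invariant subgroup of index two
    obtain ⟨M', hM', hM'inv⟩ : ∃ M' : Subgroup H, M'.index = 2 ∧ ∀ a ∈ M', γ a ∈ M' := by
      by_cases hi : ∀ a ∈ M, γ a ∈ M
      · exact ⟨M, hM, hi⟩
      · push Not at hi
        obtain ⟨a, haM, haγ⟩ := hi
        have hmul := fun a b => Subgroup.mul_mem_iff_of_index_two hM (a := a) (b := b)
        refine ⟨{ carrier := {h | h ∈ M ↔ γ h ∈ M}
                  one_mem' := by simp [M.one_mem]
                  mul_mem' := ?_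
                  inv_mem' := ?_ }, ?_, ?_⟩
        · intro x y hx hy
          simp only [Set.mem_setOf_eq] at hx hy ⊢
          rw [map_mul, hmul, hmul, hx, hy]
        · intro x hx
          simp only [Set.mem_setOf_eq] at hx ⊢
          rw [map_inv, M.inv_mem_iff, M.inv_mem_iff, hx]
        · rw [Subgroup.index_eq_two_iff]
          refine ⟨a, fun b => ?_⟩
          simp only [Subgroup.mem_mk, Submonoid.mem_mk, Subsemigroup.mem_mk, Set.mem_setOf_eq]
          rw [map_mul, hmul, hmul]
          simp only [haM, haγ, iff_true, iff_false]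
          by_cases h1 : b ∈ M <;> by_cases h2 : γ b ∈ M <;> simp [h1, h2, Xor']
        · intro x hx
          simp only [Subgroup.mem_mk, Submonoid.mem_mk, Subsemigroup.mem_mk, Set.mem_setOf_eq] at hx ⊢
          rw [hinv x]
          exact hx.symm
    have hiff : ∀ a, a ∈ M' ↔ γ a ∈ M' := by
      intro a
      refine ⟨hM'inv a, fun h => ?_⟩
      have := hM'inv _ h
      rwa [hinv a] at this
    -- fixed point subgroup
    let F : Subgroup H :=
      { carrier := {h | γ h = h}
        one_mem' := map_one γ
        mul_mem' := by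
          intro a b ha hb
          simp only [Set.mem_setOf_eq] at ha hb ⊢
          rw [map_mul, ha, hb]
        inv_mem' := by
          intro a ha
          simp only [Set.mem_setOf_eq] at ha ⊢
          rw [map_inv, ha] }
    have hF : Nat.card F = 2 := hfix
    have hmemM : ∀ h : H, h * (γ h)⁻¹ ∈ M' := by
      intro h
      rw [Subgroup.mul_mem_iff_of_index_two hM', M'.inv_mem_iff]
      exact hiff h
    let φ : H ⧸ F → M' := fun q => Quotient.liftOn' q (fun h => (⟨h * (γ h)⁻¹, hmemM h⟩ : M')) (by
      intro a b hab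
      rw [QuotientGroup.leftRel_apply] at hab
      have h1 : γ (a⁻¹ * b) = a⁻¹ * b := hab
      apply Subtype.ext
      change a * (γ a)⁻¹ = b * (γ b)⁻¹
      rw [map_mul, map_inv] at h1
      have h2 : γ b = γ a * (a⁻¹ * b) := by rw [← h1]; group
      rw [h2]; group)
    have hφ : Function.Bijective φ := by
      rw [Nat.bijective_iff_injective_and_card]
      constructor
      · intro q q'
        induction q using QuotientGroup.induction_on with
        | H a =>
        induction q' using QuotientGroup.induction_on with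
        | H b =>
        intro hab
        have h1 : a * (γ a)⁻¹ = b * (γ b)⁻¹ := congrArg Subtype.val hab
        rw [QuotientGroup.eq]
        change γ (a⁻¹ * b) = a⁻¹ * b
        rw [map_mul, map_inv]
        have h2 : (γ a)⁻¹ = a⁻¹ * (b * (γ b)⁻¹) := by rw [← h1]; group
        rw [h2]; group
      · have e1 := F.card_mul_index
        have e2 := M'.card_mul_index
        rw [hF] at e1
        rw [hM'] at e2
        have : Nat.card (H ⧸ F) = F.index := rfl
        rw [this]
        omega
    have hinvM : ∀ a ∈ M', γ a = a⁻¹ := by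
      intro a ha
      obtain ⟨q, hq⟩ := hφ.2 ⟨a, ha⟩
      induction q using QuotientGroup.induction_on with
      | H h =>
      have h1 : h * (γ h)⁻¹ = a := congrArg Subtype.val hq
      rw [← h1, map_mul, map_inv, hinv h]
      group
    refine ⟨M', hM', ⟨⟨fun a b => ?_⟩⟩, hM'inv, hinvM⟩
    apply Subtype.ext
    change (a : H) * b = b * a
    have h1 := hinvM _ (M'.mul_mem a.2 b.2)
    rw [map_mul, hinvM _ a.2, hinvM _ b.2] at h1
    have h2 : ((a : H)⁻¹ * (b : H)⁻¹)⁻¹ = (((a : H) * b)⁻¹)⁻¹ := by rw [h1]
    rw [mul_inv_rev, inv_inv, inv_inv, inv_inv] at h2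
    exact h2.symm

end Cfsg.Agent.S3375
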