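import Mathlib
import Cfsg.Agent.Lib.Helper18.A5Pres
import Cfsg.Statements.S3377
-- import your own Cfsg.Agent.* helpers here

set_option autoImplicit false
open Cfsg

namespace Cfsg.Agent.S3377

/-- The alternating group of degree 5 has the presentation ⟨x, y | x³ = 1, y⁵ = 1, (xy)² = 1⟩: the group so presented is isomorphic to Alt(5). -/
theorem result :
    Nonempty (PresentedGroup ({FreeGroup.of (0 : Fin 2) ^ 3, FreeGroup.of (1 : Fin 2) ^ 5,
        (FreeGroup.of (0 : Fin 2) * FreeGroup.of 1) ^ 2} : Set (FreeGroup (Fin 2))) ≃* alternatingGroup (Fin 5)) := by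
  exact ⟨MulEquiv.ofBijective Cfsg.Agent.Lib.Helper18.pres235ToA5 Cfsg.Agent.Lib.Helper18.pres235_bijective⟩

end Cfsg.Agent.S3377
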