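import Cfsg.Statements.S3379
import Mathlib
-- import your own Cfsg.Agent.* helpers here

set_option autoImplicit false
open Cfsg

namespace Cfsg.Agent.S3379

/-- Let G be a finite group all of whose Sylow subgroups are cyclic. Then G is generated by two elements x and y of coprime orders n and m with x⁻¹yx = y^r, where gcd(r − 1, m) = 1 and r^n ≡ 1 (mod m). -/
theorem result {G : Type*} [Group G] [Finite G]
    (hZ : ∀ (p : ℕ) [Fact p.Prime] (P : Sylow p G), IsCyclic (P : Subgroup G)) :
    ∃ (x y : G) (n m r : ℕ), Subgroup.closure {x, y} = ⊤ ∧ orderOf x = n ∧ orderOf y = m ∧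
      x⁻¹ * y * x = y ^ r ∧ Nat.Coprime (r - 1) m ∧ Nat.Coprime n m ∧ 1 ≤ r ∧ r ^ n % m = 1 % m := by
  classical
  haveI hG : IsZGroup G := ⟨fun p hp P => by haveI := Fact.mk hp; exact hZ p P⟩
  obtain ⟨H, hH⟩ := Subgroup.exists_right_complement'_of_coprime hG.coprime_commutator_index
  have h1 : Abelianization G ≃* H := hH.symm.QuotientMulEquiv
  haveI hHc : IsCyclic H := isCyclic_of_surjective _ h1.surjective
  haveI hNc : IsCyclic (commutator G) := hG.isCyclic_commutator
  have hcop : (Nat.card (commutator G)).Coprime (Nat.card H) :=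
    Nat.card_congr h1.toEquiv ▸ hG.coprime_commutator_index
  obtain ⟨x', hx'⟩ := hHc.exists_generator
  obtain ⟨y', hy'⟩ := hNc.exists_generator
  set x : G := x'.1 with hx
  set y : G := y'.1 with hy
  have hHx : H = Subgroup.zpowers x := by
    ext g
    constructor
    · intro hg
      obtain ⟨k, hk⟩ := hx' ⟨g, hg⟩
      exact ⟨k, by simpa using congrArg Subtype.val hk⟩
    · rintro ⟨k, rfl⟩
      exact H.zpow_mem x'.2 k
  have hNy : commutator G = Subgroup.zpowers y := by
    ext g
    constructor
    · intro hg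
      obtain ⟨k, hk⟩ := hy' ⟨g, hg⟩
      exact ⟨k, by simpa using congrArg Subtype.val hk⟩
    · rintro ⟨k, rfl⟩
      exact (commutator G).zpow_mem y'.2 k
  have hn : orderOf x = Nat.card H := by rw [hHx, Nat.card_zpowers]
  have hm : orderOf y = Nat.card (commutator G) := by rw [hNy, Nat.card_zpowers]
  have hmpos : 0 < orderOf y := orderOf_pos y
  have hgen : Subgroup.closure {x, y} = ⊤ := by
    rw [eq_top_iff, ← hH.sup_eq_top, sup_le_iff]
    constructor
    · rw [hNy, Subgroup.zpowers_le]
      exact Subgroup.subset_closure (by simp)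
    · rw [hHx, Subgroup.zpowers_le]
      exact Subgroup.subset_closure (by simp)
  -- the exponent r
  have hconj : x⁻¹ * y * x ∈ Subgroup.zpowers y := by
    rw [← hNy]
    have := (inferInstance : (commutator G).Normal).conj_mem y y'.2 x⁻¹
    simpa using this
  rw [← mem_powers_iff_mem_zpowers] at hconj
  obtain ⟨k, hk⟩ := hconj
  set r := k + orderOf y with hr
  have hrel : x⁻¹ * y * x = y ^ r := by
    rw [hr, pow_add, pow_orderOf_eq_one, mul_one]
    exact hk.symm
  have hr1 : 1 ≤ r := by omega
  have hiter : ∀ j : ℕ, (x ^ j)⁻¹ * y * x ^ j = y ^ (r ^ j) := by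
    intro j
    induction j with
    | zero => simp
    | succ j ih =>
      have : (x ^ (j + 1))⁻¹ * y * x ^ (j + 1) = x⁻¹ * ((x ^ j)⁻¹ * y * x ^ j) * x := by
        rw [pow_succ]; group
      rw [this, ih]
      have h2 : x⁻¹ * y ^ (r ^ j) * x = (x⁻¹ * y * x) ^ (r ^ j) := by
        have := conj_pow (a := x⁻¹) (b := y) (i := r ^ j)
        simpa using this.symm
      rw [h2, hrel, ← pow_mul, pow_succ, mul_comm]
  have hrn : r ^ orderOf x % orderOf y = 1 % orderOf y := by
    have h2 := hiter (orderOf x)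
    rw [pow_orderOf_eq_one] at h2
    simp only [inv_one, one_mul, mul_one] at h2
    have h3 : y ^ (r ^ orderOf x) = y ^ 1 := by rw [← h2, pow_one]
    exact pow_eq_pow_iff_modEq.1 h3
  -- the subgroup K
  set K : Subgroup G := Subgroup.zpowers (y ^ (r - 1)) with hK
  haveI hKn : K.Normal := by
    constructor
    intro a ha g
    obtain ⟨i, rfl⟩ := ha
    have hgy : g * y * g⁻¹ ∈ Subgroup.zpowers y := by
      rw [← hNy]
      exact (inferInstance : (commutator G).Normal).conj_mem y y'.2 g
    obtain ⟨j, hj⟩ := hgy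
    have : g * (y ^ (r - 1)) ^ i * g⁻¹ = ((y ^ (r - 1)) ^ i) ^ j := by
      rw [← conj_zpow, ← conj_pow, ← hj]
      rw [← zpow_natCast, ← zpow_natCast, ← zpow_mul, ← zpow_mul, ← zpow_mul, ← zpow_mul]
      congr 1
      ring
    show g * (y ^ (r - 1)) ^ i * g⁻¹ ∈ K
    rw [this]
    exact K.zpow_mem (K.zpow_mem (Subgroup.mem_zpowers _) i) j
  have hcomm : ∀ a b : G ⧸ K, a * b = b * a := by
    have hcl : Subgroup.closure ({(QuotientGroup.mk' K x), (QuotientGroup.mk' K y)} : Set (G ⧸ K)) = ⊤ := by
      have := congrArg (Subgroup.map (QuotientGroup.mk' K)) hgen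
      rw [MonoidHom.map_closure, Subgroup.map_top_of_surjective _ (QuotientGroup.mk'_surjective K),
        Set.image_pair] at this
      exact this
    have hxy : (QuotientGroup.mk' K x) * (QuotientGroup.mk' K y) =
        (QuotientGroup.mk' K y) * (QuotientGroup.mk' K x) := by
      rw [← map_mul, ← map_mul]
      symm
      apply (QuotientGroup.eq).2
      -- (y * x)⁻¹ * (x * y) ∈ K
      have h3 : (y * x)⁻¹ * (x * y) = ((x⁻¹ * y * x)⁻¹ * y) := by group
      rw [h3, hrel]
      have h4 : (y ^ r)⁻¹ * y = (y ^ (r - 1))⁻¹ := by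
        obtain ⟨s, hs⟩ : ∃ s, r = s + 1 := ⟨r - 1, by omega⟩
        rw [hs, Nat.add_sub_cancel, pow_succ]
        group
      rw [h4]
      exact K.inv_mem (Subgroup.mem_zpowers _)
    letI := Subgroup.closureCommGroupOfComm
      (k := ({(QuotientGroup.mk' K x), (QuotientGroup.mk' K y)} : Set (G ⧸ K))) (by
        intro a ha b hb
        simp only [Set.mem_insert_iff, Set.mem_singleton_iff] at ha hb
        rcases ha with rfl | rfl <;> rcases hb with rfl | rfl
        · rfl
        · exact hxy
        · exact hxy.symm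
        · rfl)
    intro a b
    have ha : a ∈ Subgroup.closure ({(QuotientGroup.mk' K x), (QuotientGroup.mk' K y)} : Set (G ⧸ K)) := by
      rw [hcl]; trivial
    have hb : b ∈ Subgroup.closure ({(QuotientGroup.mk' K x), (QuotientGroup.mk' K y)} : Set (G ⧸ K)) := by
      rw [hcl]; trivial
    exact congrArg Subtype.val (mul_comm (⟨a, ha⟩ : Subgroup.closure _) ⟨b, hb⟩)
  have hNK : commutator G ≤ K := by
    rw [commutator_def, Subgroup.commutator_le]
    intro a _ b _
    rw [← QuotientGroup.eq_one_iff, ← QuotientGroup.mk'_apply, map_commutatorElement,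
      commutatorElement_eq_one_iff_mul_comm]
    exact hcomm _ _
  have hKN : K ≤ commutator G := by
    rw [hK, Subgroup.zpowers_le]
    exact (commutator G).pow_mem y'.2 _
  have hKeq : K = commutator G := le_antisymm hKN hNK
  have hord : orderOf (y ^ (r - 1)) = orderOf y := by
    rw [hm, ← hKeq, hK, Nat.card_zpowers]
  have hcop2 : Nat.Coprime (r - 1) (orderOf y) := by
    rw [orderOf_pow] at hord
    have := (Nat.div_eq_self).1 hord
    rcases this with h | h
    · omega
    · rw [Nat.coprime_comm]; exact h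
  refine ⟨x, y, orderOf x, orderOf y, r, hgen, rfl, rfl, hrel, hcop2, ?_, hr1, hrn⟩
  rw [hn, hm]
  exact hcop.symm

end Cfsg.Agent.S3379
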