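import Cfsg.Statements.S3381
import Mathlib
-- import your own Cfsg.Agent.* helpers here

set_option autoImplicit false
open Cfsg

namespace Cfsg.Agent.S3381


section aux
variable {q : ℕ} [Fact q.Prime] {V : Type*} [AddCommGroup V] [Module (ZMod q) V] [Finite V]
  {G : Type*} [Group G] [Finite G] (ρ : G →* (V ≃ₗ[ZMod q] V))

theorem rho_mul (g h : G) (v : V) : ρ (g * h) v = ρ g (ρ h v) := by
  rw [map_mul]; rfl

theorem rho_one (v : V) : ρ 1 v = v := by
  rw [map_one]; rfl

variable {ρ}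

theorem L1 (hstab : ∀ v : V, v ≠ 0 → Nat.card {g : G // ρ g v = v} = 2) {v : V} (hv : v ≠ 0) :
    ∃ t : G, t ≠ 1 ∧ ρ t v = v ∧ t * t = 1 ∧ ∀ g : G, ρ g v = v → g ≠ 1 → g = t := by
  obtain ⟨⟨t, ht⟩, ht1, huniq⟩ :=
    (Nat.card_eq_two_iff' (⟨1, rho_one ρ v⟩ : {g : G // ρ g v = v})).1 (hstab v hv)
  have ht1' : t ≠ 1 := fun h => ht1 (Subtype.ext h)
  have hu : ∀ g : G, ρ g v = v → g ≠ 1 → g = t := by
    intro g hg hg1
    have := huniq ⟨g, hg⟩ (fun h => hg1 (congrArg Subtype.val h))
    exact congrArg Subtype.val this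
  refine ⟨t, ht1', ht, ?_, hu⟩
  by_contra hne
  have h2 : ρ (t * t) v = v := by rw [rho_mul, ht, ht]
  have := hu _ h2 hne
  exact ht1' (by simpa using this)

theorem L2 (hρ : Function.Injective ρ)
    (hstab : ∀ v : V, v ≠ 0 → Nat.card {g : G // ρ g v = v} = 2)
    {c : G} (hc : c ∈ Subgroup.center G) (hcc : c * c = 1) (hc1 : c ≠ 1) {w : V} (hw : w ≠ 0)
    (hcw : ρ c w = w) : False := by
  have hcomm : ∀ g : G, ∀ v : V, ρ g (ρ c v) = ρ c (ρ g v) := by
    intro g v
    rw [← rho_mul, ← rho_mul, (Subgroup.mem_center_iff.1 hc) g]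
  obtain ⟨v0, hv0⟩ : ∃ v0, ρ c v0 ≠ v0 := by
    by_contra hcon
    push_neg at hcon
    apply hc1
    apply hρ
    ext v
    rw [hcon v, rho_one]
  have hv00 : v0 ≠ 0 := by
    rintro rfl
    exact hv0 (map_zero _)
  set u := ρ c v0 - v0 with hu
  have hu0 : u ≠ 0 := sub_ne_zero.2 hv0
  have hcu : ρ c u = -u := by
    rw [hu, map_sub, ← rho_mul, hcc, rho_one]; abel
  obtain ⟨s, hs1, hsv, -, -⟩ := L1 hstab hv00
  have hsu : ρ s u = u := by
    rw [hu, map_sub, hcomm, hsv]
  obtain ⟨t, -, -, -, htu⟩ := L1 hstab hu0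
  by_cases hfix : ρ c u = u
  · have h1 := htu c hfix hc1
    have h2 := htu s hsu hs1
    apply hv0
    rw [h1, ← h2, hsv]
  · have h2ne : (2 : ZMod q) ≠ 0 := by
      intro h2
      apply hfix
      rw [hcu]
      have : u + u = 0 := by rw [← two_smul (ZMod q) u, h2, zero_smul]
      exact (eq_neg_of_add_eq_zero_left this).symm
    have hx0 : w + u ≠ 0 := by
      intro h
      apply hfix
      have : u = -w := (eq_neg_of_add_eq_zero_right h)
      rw [this, map_neg, hcw]
    obtain ⟨g, hg1, hgx, -, -⟩ := L1 hstab hx0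
    have hcx : ρ c (w + u) = w - u := by rw [map_add, hcw, hcu]; abel
    have hgcx : ρ g (w - u) = w - u := by rw [← hcx, hcomm, hgx]
    have hg2w : ρ g ((2 : ZMod q) • w) = (2 : ZMod q) • w := by
      have : (2 : ZMod q) • w = (w + u) + (w - u) := by rw [two_smul]; abel
      rw [this, map_add, hgx, hgcx]
    have hgw : ρ g w = w := by
      rw [map_smul] at hg2w
      exact smul_right_injective V h2ne hg2w
    obtain ⟨t', -, -, -, htw⟩ := L1 hstab hw
    have h1 := htw c hcw hc1
    have h2 := htw g hgw hg1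
    have hgc : g = c := h2.trans h1.symm
    rw [hgc, hcx] at hgx
    apply hfix
    rw [hcu]
    have : -u = u := by
      have h3 : w - u = w + u := hgx
      have h4 : w + -u = w + u := by rw [← sub_eq_add_neg]; exact h3
      exact add_left_cancel h4
    exact this

variable (ρ) in
def Fx (g : G) : Submodule (ZMod q) V := LinearMap.eqLocus (ρ g : V →ₗ[ZMod q] V) LinearMap.id

theorem mem_Fx {g : G} {v : V} : v ∈ Fx ρ g ↔ ρ g v = v := by
  unfold Fx
  rw [LinearMap.mem_eqLocus]
  rfl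

theorem hdisj (hstab : ∀ v : V, v ≠ 0 → Nat.card {g : G // ρ g v = v} = 2) {s t : G} (hs : s ≠ 1)
    (ht : t ≠ 1) (hst : s ≠ t) {v : V} (h1 : ρ s v = v) (h2 : ρ t v = v) : v = 0 := by
  by_contra hv
  obtain ⟨r, -, -, -, hr⟩ := L1 hstab hv
  exact hst ((hr s h1 hs).trans (hr t h2 ht).symm)

theorem add_inj (hstab : ∀ v : V, v ≠ 0 → Nat.card {g : G // ρ g v = v} = 2) {s t : G} (hs : s ≠ 1)
    (ht : t ≠ 1) (hst : s ≠ t) :
    Function.Injective (fun p : Fx ρ s × Fx ρ t => (p.1 : V) + (p.2 : V)) := by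
  rintro ⟨⟨a, ha⟩, ⟨b, hb⟩⟩ ⟨⟨a', ha'⟩, ⟨b', hb'⟩⟩ h
  simp only at h
  have h1 : a - a' = b' - b := by
    rw [sub_eq_sub_iff_add_eq_add, h, add_comm]
  have h2 : a - a' ∈ Fx ρ s := (Fx ρ s).sub_mem ha ha'
  have h3 : a - a' ∈ Fx ρ t := by rw [h1]; exact (Fx ρ t).sub_mem hb' hb
  have h4 : a - a' = 0 := hdisj hstab hs ht hst (mem_Fx.1 h2) (mem_Fx.1 h3)
  have h5 : b' - b = 0 := by rw [← h1, h4]
  rw [sub_eq_zero] at h4 h5
  subst h4
  subst h5
  rfl

theorem card_le (hstab : ∀ v : V, v ≠ 0 → Nat.card {g : G // ρ g v = v} = 2) {s t : G} (hs : s ≠ 1)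
    (ht : t ≠ 1) (hst : s ≠ t) : Nat.card (Fx ρ s) * Nat.card (Fx ρ t) ≤ Nat.card V := by
  rw [← Nat.card_prod]
  exact Nat.card_le_card_of_injective _ (add_inj hstab hs ht hst)

theorem card_eq (hstab : ∀ v : V, v ≠ 0 → Nat.card {g : G // ρ g v = v} = 2) {t z : G} (ht : t ≠ 1)
    (htt : t * t = 1) (htz1 : t * z ≠ 1) (hz1 : z ≠ 1) (hzneg : ∀ v : V, ρ z v = -v)
    (h2ne : (2 : ZMod q) ≠ 0) :
    Nat.card (Fx ρ t) * Nat.card (Fx ρ (t * z)) = Nat.card V := by
  rw [← Nat.card_prod]
  have hne : t ≠ t * z := by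
    intro h
    apply hz1
    have : t * 1 = t * z := by rw [mul_one]; exact h
    exact (mul_left_cancel this).symm
  refine Nat.card_congr (Equiv.ofBijective _ ⟨add_inj hstab ht htz1 hne, ?_⟩)
  intro v
  have h1 : (2 : ZMod q)⁻¹ • (v + ρ t v) ∈ Fx ρ t := by
    rw [mem_Fx, map_smul, map_add, ← rho_mul, htt, rho_one, add_comm]
  have h2 : (2 : ZMod q)⁻¹ • (v - ρ t v) ∈ Fx ρ (t * z) := by
    rw [mem_Fx, map_smul, rho_mul, hzneg, map_neg, map_sub, ← rho_mul, htt, rho_one]
    congr 1
    abel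
  refine ⟨(⟨_, h1⟩, ⟨_, h2⟩), ?_⟩
  simp only
  rw [← smul_add]
  have : v + ρ t v + (v - ρ t v) = (2 : ZMod q) • v := by rw [two_smul]; abel
  rw [this, smul_smul, inv_mul_cancel₀ h2ne, one_smul]

theorem nat_aux {x y N : ℕ} (hN : 0 < N) (hx : x ≤ N) (hy : y ≤ N) (h : x * y = N * N) : x = N := by
  apply le_antisymm hx
  have h1 : N * N ≤ x * N := by rw [← h]; exact Nat.mul_le_mul_left x hy
  exact Nat.le_of_mul_le_mul_right h1 hN

end aux


/-- Let G be a finite group acting faithfully and linearly on a non-trivial finite vector space V over the field with q elements (q prime) so that every non-zero vector has a stabilizer of order 2, and suppose G has a central involution. Then V has q^(2r) elements for some r and G contains exactly q^r + 1 non-central involutions. -/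
theorem result
    (q : ℕ) [Fact q.Prime] {V : Type*} [AddCommGroup V] [Module (ZMod q) V] [Finite V] [Nontrivial V]
    {G : Type*} [Group G] [Finite G] (ρ : G →* (V ≃ₗ[ZMod q] V)) (hρ : Function.Injective ρ)
    (hstab : ∀ v : V, v ≠ 0 → Nat.card {g : G // ρ g v = v} = 2)
    (z : G) (hz : orderOf z = 2) (hzc : z ∈ Subgroup.center G) :
    ∃ r : ℕ, Nat.card V = q ^ (2 * r) ∧
      Nat.card {g : G // orderOf g = 2 ∧ g ∉ Subgroup.center G} = q ^ r + 1 := by
  classical
  haveI := Fintype.ofFinite V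
  haveI := Fintype.ofFinite G
  have hzz : z * z = 1 := by rw [← pow_two, ← hz]; exact pow_orderOf_eq_one z
  have hz1 : z ≠ 1 := by rintro rfl; simp at hz
  have hzfix : ∀ w : V, ρ z w = w → w = 0 := by
    intro w hw; by_contra h0; exact L2 hρ hstab hzc hzz hz1 h0 hw
  have hzneg : ∀ v : V, ρ z v = -v := by
    intro v
    have : ρ z (ρ z v + v) = ρ z v + v := by rw [map_add, ← rho_mul, hzz, rho_one]; abel
    exact eq_neg_of_add_eq_zero_left (hzfix _ this)
  have hneg0 : ∀ w : V, -w = w → w = 0 := fun w hw => hzfix w (by rw [hzneg, hw])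
  have h2ne : (2 : ZMod q) ≠ 0 := by
    obtain ⟨v, hv⟩ := exists_ne (0 : V)
    intro h2
    apply hv
    apply hneg0
    have : v + v = 0 := by rw [← two_smul (ZMod q) v, h2, zero_smul]
    exact (eq_neg_of_add_eq_zero_left this).symm
  have hI1 : ∀ t : G, orderOf t = 2 → t ≠ 1 ∧ t * t = 1 := by
    intro t ht
    refine ⟨by rintro rfl; simp at ht, ?_⟩
    rw [← pow_two, ← ht]; exact pow_orderOf_eq_one t
  have hzcomm : ∀ g : G, g * z = z * g := fun g => (Subgroup.mem_center_iff.1 hzc) g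
  have hIz : ∀ t : G, (orderOf t = 2 ∧ t ∉ Subgroup.center G) →
      (orderOf (t * z) = 2 ∧ t * z ∉ Subgroup.center G) := by
    rintro t ⟨ht, htc⟩
    have hnc : t * z ∉ Subgroup.center G := by
      intro h
      apply htc
      have := (Subgroup.center G).mul_mem h hzc
      rwa [mul_assoc, hzz, mul_one] at this
    refine ⟨?_, hnc⟩
    apply orderOf_eq_prime
    · rw [pow_two]
      calc t * z * (t * z) = t * (z * t) * z := by group
        _ = t * (t * z) * z := by rw [hzcomm t]
        _ = (t * t) * (z * z) := by group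
        _ = 1 := by rw [(hI1 t ht).2, hzz, one_mul]
    · intro h
      exact hnc (h ▸ Subgroup.one_mem _)
  have hτ : ∀ v : V, v ≠ 0 → ∃ t : G, (orderOf t = 2 ∧ t ∉ Subgroup.center G) ∧ ρ t v = v := by
    intro v hv
    obtain ⟨t, ht1, htv, htt, -⟩ := L1 hstab hv
    refine ⟨t, ⟨orderOf_eq_prime (by rw [pow_two, htt]) ht1, ?_⟩, htv⟩
    intro hc
    exact L2 hρ hstab hc htt ht1 hv htv
  have hnz : ∀ t : G, (orderOf t = 2 ∧ t ∉ Subgroup.center G) → ∃ u : V, u ≠ 0 ∧ ρ t u = u := by
    rintro t ⟨ht, htc⟩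
    by_contra hcon
    push_neg at hcon
    apply htc
    have : t = z := by
      apply hρ
      ext v
      rw [hzneg]
      have h1 : ρ t (v + ρ t v) = v + ρ t v := by
        rw [map_add, ← rho_mul, (hI1 t ht).2, rho_one, add_comm]
      have h2 : v + ρ t v = 0 := by
        by_contra h0
        exact hcon _ h0 h1
      exact eq_neg_of_add_eq_zero_right h2
    rw [this]; exact hzc
  have hNpos : 0 < Nat.card V := Nat.card_pos
  have hsq : ∀ t : G, (orderOf t = 2 ∧ t ∉ Subgroup.center G) →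
      Nat.card (Fx ρ t) * Nat.card (Fx ρ t) = Nat.card V := by
    intro t ht
    have htz := hIz t ht
    obtain ⟨ht1, htt⟩ := hI1 t ht.1
    obtain ⟨htz1, -⟩ := hI1 _ htz.1
    obtain ⟨u, hu0, hu⟩ := hnz t ht
    obtain ⟨w, hw0, hw⟩ := hnz _ htz
    have htw : ρ t w = -w := by
      rw [rho_mul, hzneg, map_neg] at hw
      exact neg_eq_iff_eq_neg.1 hw
    have htzu : ρ (t * z) u = -u := by rw [rho_mul, hzneg, map_neg, hu]
    have hx0 : u + w ≠ 0 := by
      intro h
      have h1 : u = -w := eq_neg_of_add_eq_zero_left h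
      apply hw0
      apply hneg0
      have h2 : ρ t (-w) = -w := by rw [← h1]; exact hu
      rw [map_neg, htw, neg_neg] at h2
      exact h2.symm
    obtain ⟨s, hs, hsx⟩ := hτ _ hx0
    have hsz := hIz s hs
    obtain ⟨hs1, hss⟩ := hI1 s hs.1
    obtain ⟨hsz1, -⟩ := hI1 _ hsz.1
    have hst : s ≠ t := by
      rintro rfl
      rw [map_add, hu, htw] at hsx
      exact hw0 (hneg0 w (add_left_cancel hsx))
    have hstz : s ≠ t * z := by
      rintro rfl
      rw [map_add, htzu, hw] at hsx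
      exact hu0 (hneg0 u (add_right_cancel hsx))
    have hszt : s * z ≠ t := by
      intro h
      apply hstz
      rw [← h, mul_assoc, hzz, mul_one]
    have hsztz : s * z ≠ t * z := fun h => hst (mul_right_cancel h)
    have e1 := card_eq hstab ht1 htt htz1 hz1 hzneg h2ne
    have e2 := card_eq hstab hs1 hss hsz1 hz1 hzneg h2ne
    have i1 := card_le hstab hs1 ht1 hst
    have i2 := card_le hstab hs1 htz1 hstz
    have i3 := card_le hstab hsz1 ht1 hszt
    have i4 := card_le hstab hsz1 htz1 hsztz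
    generalize Nat.card (Fx ρ t) = a at *
    generalize Nat.card (Fx ρ (t * z)) = b at *
    generalize Nat.card (Fx ρ s) = c at *
    generalize Nat.card (Fx ρ (s * z)) = d at *
    generalize Nat.card V = N at *
    have f1 : c * a = N := nat_aux hNpos i1 i4 (by
      calc c * a * (d * b) = (a * b) * (c * d) := by ring
        _ = N * N := by rw [e1, e2])
    have f2 : c * b = N := nat_aux hNpos i2 i3 (by
      calc c * b * (d * a) = (a * b) * (c * d) := by ring
        _ = N * N := by rw [e1, e2])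
    have hc : 0 < c := by
      rcases Nat.eq_zero_or_pos c with rfl | h
      · simp at f1; omega
      · exact h
    have hab : a = b := Nat.eq_of_mul_eq_mul_left hc (f1.trans f2.symm)
    rw [← e1, ← hab]
  obtain ⟨v0, hv0⟩ := exists_ne (0 : V)
  obtain ⟨t0, ht0, -⟩ := hτ v0 hv0
  have hA : Nat.card (Fx ρ t0) = q ^ Module.finrank (ZMod q) (Fx ρ t0) := by
    rw [Module.natCard_eq_pow_finrank (K := ZMod q) (V := Fx ρ t0), Nat.card_zmod]
  refine ⟨Module.finrank (ZMod q) (Fx ρ t0), ?_, ?_⟩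
  · rw [← hsq t0 ht0, hA]; ring
  rw [← hA]
  have hall : ∀ t : G, (orderOf t = 2 ∧ t ∉ Subgroup.center G) →
      Nat.card (Fx ρ t) = Nat.card (Fx ρ t0) := by
    intro t ht
    exact Nat.mul_self_inj.1 ((hsq t ht).trans (hsq t0 ht0).symm)
  have hcardS : ∀ t : G, (Finset.univ.filter (fun v : V => ρ t v = v ∧ v ≠ 0)).card
      = Nat.card (Fx ρ t) - 1 := by
    intro t
    have h1 : Finset.univ.filter (fun v : V => ρ t v = v ∧ v ≠ 0)
        = (Finset.univ.filter (fun v : V => ρ t v = v)).erase 0 := by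
      ext v
      simp [and_comm]
    rw [h1, Finset.card_erase_of_mem (by simp), Nat.card_eq_fintype_card]
    congr 1
    symm
    apply Fintype.card_of_subtype
    intro v
    simp [mem_Fx]
  have hunion : Finset.univ.filter (fun v : V => v ≠ 0)
      = (Finset.univ.filter (fun g : G => orderOf g = 2 ∧ g ∉ Subgroup.center G)).biUnion
        (fun t => Finset.univ.filter (fun v : V => ρ t v = v ∧ v ≠ 0)) := by
    ext v
    simp only [Finset.mem_filter, Finset.mem_univ, true_and, Finset.mem_biUnion]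
    constructor
    · intro hv
      obtain ⟨t, ht, htv⟩ := hτ v hv
      exact ⟨t, ht, htv, hv⟩
    · rintro ⟨t, -, -, hv⟩
      exact hv
  have hcount : Nat.card V - 1
      = Nat.card {g : G // orderOf g = 2 ∧ g ∉ Subgroup.center G} * (Nat.card (Fx ρ t0) - 1) := by
    have h1 : (Finset.univ.filter (fun v : V => v ≠ 0)).card = Nat.card V - 1 := by
      rw [Finset.filter_ne', Finset.card_erase_of_mem (Finset.mem_univ _), Finset.card_univ,
        Nat.card_eq_fintype_card]
    rw [← h1, hunion, Finset.card_biUnion, Nat.card_eq_fintype_card, Fintype.card_subtype]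
    · apply Finset.sum_const_nat
      intro t ht
      rw [hcardS t, hall t (by simpa using ht)]
    · intro s hs t ht hst
      replace hs : s ∈ Finset.univ.filter (fun g : G => orderOf g = 2 ∧ g ∉ Subgroup.center G) := hs
      replace ht : t ∈ Finset.univ.filter (fun g : G => orderOf g = 2 ∧ g ∉ Subgroup.center G) := ht
      simp only [Function.onFun]
      rw [Finset.disjoint_left]
      intro v hv1 hv2
      simp only [Finset.mem_filter, Finset.mem_univ, true_and] at hv1 hv2 hs ht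
      exact hv1.2 (hdisj hstab (hI1 s hs.1).1 (hI1 t ht.1).1 hst hv1.1 hv2.1)
  have hsq0 := hsq t0 ht0
  have hN1 : 1 < Nat.card V := Finite.one_lt_card
  generalize Nat.card (Fx ρ t0) = A at *
  generalize Nat.card V = N at *
  generalize Nat.card {g : G // orderOf g = 2 ∧ g ∉ Subgroup.center G} = K at *
  obtain ⟨B, rfl⟩ : ∃ B, A = B + 2 := by
    refine ⟨A - 2, ?_⟩
    rcases A with _ | _ | A
    · simp at hsq0; omega
    · simp at hsq0; omega
    · omega
  have h3 : (B + 3) * (B + 1) = K * (B + 1) := by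
    have : N - 1 = (B + 3) * (B + 1) := by rw [← hsq0]; ring_nf; omega
    rw [← this, hcount]; rfl
  have := Nat.eq_of_mul_eq_mul_right (by omega) h3
  omega

end Cfsg.Agent.S3381
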