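import Cfsg.Statements.S3382
import Cfsg.Agent.H17.Mono4
import Cfsg.Agent.Tr.MC12

set_option autoImplicit false
open Cfsg

namespace Cfsg.Agent.S3382

/-- Let q = 2^m + 1 be a prime other than 5. Then the automorphism group of the group of linear maps of F_q² of the forms (x, y) ↦ (a x, ± a⁻¹ y) and (x, y) ↦ (± a⁻¹ y, a x) with a ≠ 0 is itself a 2-group. -/
theorem result (q m : ℕ) [Fact q.Prime] (hq : q = 2 ^ m + 1) (hq5 : q ≠ 5)
    (T : Subgroup ((Fin 2 → ZMod q) ≃ₗ[ZMod q] (Fin 2 → ZMod q)))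
    (hT : ∀ f, f ∈ T ↔ ∃ a s : ZMod q, a ≠ 0 ∧ (s = 1 ∨ s = -1) ∧
      ((∀ v, f v = ![a * v 0, s * a⁻¹ * v 1]) ∨ (∀ v, f v = ![s * a⁻¹ * v 1, a * v 0]))) :
    IsPGroup 2 (MulAut T) := by
  have hG := Cfsg.Agent.H17.Mono.good_of T hT
  haveI : Finite ((Fin 2 → ZMod q) ≃ₗ[ZMod q] (Fin 2 → ZMod q)) :=
    Finite.of_injective (fun f => (f : (Fin 2 → ZMod q) → (Fin 2 → ZMod q)))
      DFunLike.coe_injective
  have hexp : ∀ a : ZMod q, a ≠ 0 → a ^ 2 ^ m = 1 := by
    intro a ha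
    have := ZMod.pow_card_sub_one_eq_one ha
    have e : q - 1 = 2 ^ m := by rw [hq, Nat.add_sub_cancel]
    rwa [e] at this
  apply Cfsg.Agent.Tr.MC.isPGroup_aut_of_odd
  intro α k hk hα
  have h2 : 3 ≤ q → (2 : ZMod q) ≠ 0 := by
    intro h3 h
    have h4 : ((2 : ℕ) : ZMod q) = 0 := by exact_mod_cast h
    rw [ZMod.natCast_eq_zero_iff] at h4
    have := Nat.le_of_dvd (by norm_num) h4
    omega
  rcases Nat.lt_or_ge m 3 with hm | hm
  · interval_cases m
    · exact Cfsg.Agent.H17.Mono.small2 hG (fun a ha => by simpa using hexp a ha) α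
    · have h3 : 3 ≤ q := by omega
      refine Cfsg.Agent.H17.Mono.small3 hG (fun a ha => by simpa using hexp a ha) ?_ α hk hα
      intro h
      apply h2 h3
      calc (2 : ZMod q) = 1 + 1 := by norm_num
        _ = 1 + (-1) := by rw [h]
        _ = 0 := by ring
    · exact absurd hq (by omega)
  · have h8 : 2 ^ 3 ≤ 2 ^ m := Nat.pow_le_pow_right (by norm_num) hm
    have h3 : 3 ≤ q := by omega
    refine Cfsg.Agent.H17.Mono.big hG (h2 h3) ?_ hexp α hk hα
    intro h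
    have h4 : ((15 : ℕ) : ZMod q) = 0 := by
      have : (2 : ZMod q) ^ 4 - 1 = 0 := by rw [h, sub_self]
      have e : ((15 : ℕ) : ZMod q) = (2 : ZMod q) ^ 4 - 1 := by norm_num
      rw [e, this]
    rw [ZMod.natCast_eq_zero_iff] at h4
    have h5 := Nat.le_of_dvd (by norm_num) h4
    have hm4 : m < 4 := by
      by_contra hc
      have : 2 ^ 4 ≤ 2 ^ m := Nat.pow_le_pow_right (by norm_num) (by omega)
      omega
    have hm3 : m = 3 := by omega
    subst hm3
    subst hq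
    norm_num at h4

end Cfsg.Agent.S3382
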