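import Cfsg.Statements.S3383
import Mathlib
import Cfsg.Agent.H4.FrobThm2

set_option autoImplicit false
open Cfsg

namespace Cfsg.Agent.S3383

open Subgroup Cfsg.Agent.H4

/-- Let H be a Frobenius complement in a finite group L and K the Frobenius kernel (as a subgroup). Then K is characteristic in L, and every normal subgroup of L either contains K or is contained in K. -/
theorem result {L : Type*} [Group L] [Finite L]
    (H : Subgroup L) (hH : Cfsg.IsFrobeniusComplement H)
    (K : Subgroup L) (hK : (K : Set L) = Cfsg.frobeniusKernel H) :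
    K.Characteristic ∧ ∀ N : Subgroup L, N.Normal → K ≤ N ∨ N ≤ K := by
  obtain ⟨K', hKs, hKn, hKc⟩ := frobenius_kernel H hH
  have hKK : K' = K := SetLike.coe_injective (hKs.trans hK.symm)
  subst hKK
  have hdich : ∀ N : Subgroup L, N.Normal → K' ≤ N ∨ N ≤ K' := by
    intro N hN
    exact (frob_normal_le_or_le hH K' hKc N).symm
  refine ⟨?_, hdich⟩
  rw [characteristic_iff_map_eq]
  intro φ
  have hn : (K'.map φ.toMonoidHom).Normal := hKn.map _ φ.surjective
  have hcard : Nat.card (K'.map φ.toMonoidHom) = Nat.card K' :=
    card_map_of_injective φ.injective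
  rcases hdich _ hn with h | h
  · exact (eq_of_le_of_card_ge h hcard.le).symm
  · exact eq_of_le_of_card_ge h hcard.ge

end Cfsg.Agent.S3383
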