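import Mathlib
import Cfsg.Statements.S3419
import Cfsg.Agent.Lib.Helper19.AltSection
-- import your own Cfsg.Agent.* helpers here

set_option autoImplicit false
open Cfsg

namespace Cfsg.Agent.S3419

/-- Let n ≥ 5 and let G be a finite group with the same order and the same set of element orders as the alternating group of degree n. Then G is not solvable. -/
theorem result {G : Type*} [Group G] [Finite G] (n : ℕ) (hn : 5 ≤ n)
    (hcard : Nat.card G = Nat.card ↥(alternatingGroup (Fin n)))
    (hspec : Set.range (orderOf : G → ℕ) = Set.range (orderOf : ↥(alternatingGroup (Fin n)) → ℕ)) :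
    ¬ Group.IsSolvable G := by
  have gen : ∀ p q : ℕ, p.Prime → q.Prime → q < p → p ≤ n → n < 2 * q → 2 < q →
      ¬ Group.IsSolvable G := by
    intro p q hp hq hqp hpn hnq hq2
    have hp2 : 2 < p := by omega
    have hnp : n < 2 * p := by omega
    exact Lib.Helper19.AS.not_solvable_of_pair n hcard hspec hp hq hqp.ne' hp2 hpn hnp hq2
      (by omega) (by omega) (Lib.Helper19.AF.not_dvd_sub_one hq hp hqp.ne hq2 hp2 hnq hpn)
      (Lib.Helper19.AS.h2_of_half n hcard hp hq hqp.ne' hp2 hnp hq2 (by omega) hnq)
  by_cases h11 : 11 ≤ n
  · obtain ⟨p, q, hp, hq, hqp, hpn, hnq⟩ := Lib.Helper19.AS.two_primes_half n h11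
    exact gen p q hp hq hqp hpn hnq (by omega)
  have hcases : n = 5 ∨ n = 6 ∨ n = 7 ∨ n = 8 ∨ n = 9 ∨ n = 10 := by omega
  rcases hcases with rfl | rfl | rfl | rfl | rfl | rfl
  · exact gen 5 3 (by norm_num) (by norm_num) (by norm_num) (by norm_num) (by norm_num)
      (by norm_num)
  · have hc : Nat.card G = 360 := by
      have := Lib.Helper19.AF.two_mul_card_alt 6 (by norm_num)
      rw [← hcard] at this
      simp [Nat.factorial] at this
      omega
    refine Lib.Helper19.AS.not_solvable_of_pair 6 hcard hspec (p := 5) (r := 3) (by norm_num)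
      (by norm_num) (by norm_num) (by norm_num) (by norm_num) (by norm_num) (by norm_num)
      (by norm_num) (by norm_num) (by norm_num) ?_
    intro a ha hd
    rw [hc] at hd
    have ha3 : a < 3 := by
      by_contra hcon
      have : 3 ^ 3 ∣ 360 := (pow_dvd_pow 3 (by omega)).trans hd
      norm_num at this
    interval_cases a <;> norm_num
  · exact gen 7 5 (by norm_num) (by norm_num) (by norm_num) (by norm_num) (by norm_num)
      (by norm_num)
  · exact gen 7 5 (by norm_num) (by norm_num) (by norm_num) (by norm_num) (by norm_num)
      (by norm_num)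
  · exact gen 7 5 (by norm_num) (by norm_num) (by norm_num) (by norm_num) (by norm_num)
      (by norm_num)
  · have hc : Nat.card G = 1814400 := by
      have := Lib.Helper19.AF.two_mul_card_alt 10 (by norm_num)
      rw [← hcard] at this
      simp [Nat.factorial] at this
      omega
    refine Lib.Helper19.AS.not_solvable_of_pair 10 hcard hspec (p := 7) (r := 5) (by norm_num)
      (by norm_num) (by norm_num) (by norm_num) (by norm_num) (by norm_num) (by norm_num)
      (by norm_num) (by norm_num) (by norm_num) ?_
    intro a ha hd
    rw [hc] at hd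
    have ha3 : a < 3 := by
      by_contra hcon
      have : 5 ^ 3 ∣ 1814400 := (pow_dvd_pow 5 (by omega)).trans hd
      norm_num at this
    interval_cases a <;> norm_num

end Cfsg.Agent.S3419
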