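import Mathlib
import Cfsg.Statements.S3420
import Cfsg.Agent.Lib.Helper19.AltSection
-- import your own Cfsg.Agent.* helpers here

set_option autoImplicit false
open Cfsg

namespace Cfsg.Agent.S3420

/-- Let n ≥ 11 and let G be a finite group with the same order and the same set of element orders as the alternating group of degree n. Then G has normal subgroups N < H such that H/N is a non-abelian simple group whose order is divisible by every prime p with n/2 < p ≤ n. -/
theorem result {G : Type*} [Group G] [Finite G] (n : ℕ) (hn : 11 ≤ n)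
    (hcard : Nat.card G = Nat.card ↥(alternatingGroup (Fin n)))
    (hspec : Set.range (orderOf : G → ℕ) = Set.range (orderOf : ↥(alternatingGroup (Fin n)) → ℕ)) :
    ∃ (N H : Subgroup G) (_ : N.Normal), H.Normal ∧ N < H ∧
      IsSimpleGroup (↥H ⧸ N.subgroupOf H) ∧ ¬ IsMulCommutative (↥H ⧸ N.subgroupOf H) ∧
      ∀ p : ℕ, p.Prime → n < 2 * p → p ≤ n → p ∣ Nat.card (↥H ⧸ N.subgroupOf H) := by
  obtain ⟨p, q, hp, hq, hqp, hpn, hnq⟩ := Lib.Helper19.AS.two_primes_half n hn
  have hp2 : 2 < p := by omega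
  have hq2 : 2 < q := by omega
  have hnp : n < 2 * p := by omega
  obtain ⟨N, H, hN, hH, hlt, hsimp, hnc, hpq, hpN⟩ :=
    Lib.Helper19.AS.section_of_pair n hcard hspec hp hq hqp.ne' hp2 hpn hnp hq2 (by omega)
      (by omega) (Lib.Helper19.AF.not_dvd_sub_one hq hp hqp.ne hq2 hp2 hnq hpn)
      (Lib.Helper19.AS.h2_of_half n hcard hp hq hqp.ne' hp2 hnp hq2 (by omega) hnq)
  refine ⟨N, H, hN, hH, hlt, hsimp, hnc, ?_⟩
  intro r hr hnr hrn
  by_cases hrp : r = p
  · rw [hrp]; exact hpq
  have hr2 : 2 < r := by omega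
  exact Lib.Helper19.AS.core n hcard hspec hp hr (Ne.symm hrp) hp2 hpn hnp hr2 hrn (by omega)
    (Lib.Helper19.AF.not_dvd_sub_one hr hp hrp hr2 hp2 hnr hpn)
    (Lib.Helper19.AS.h2_of_half n hcard hp hr (Ne.symm hrp) hp2 hnp hr2 hrn hnr)
    N H hN hH hlt.le hpq hpN

end Cfsg.Agent.S3420
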