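import Cfsg.Statements.S3704
import Cfsg.Agent.S0157
import Cfsg.Agent.CharLib.Ind
import Cfsg.Agent.CharLib.Complete
import Cfsg.Agent.Lib.Helper19.Derange

set_option autoImplicit false
open Cfsg

namespace Cfsg.Agent.S3704

open Cfsg.Agent.CharLib Cfsg.Agent.CharLib.H2
open scoped ComplexConjugate

/-- Let G be a finite group acting faithfully and 2-transitively on a finite set Ω of size n, and let H be a subgroup of index n in G which is not transitive on Ω and fixes no point of Ω. Then H has exactly two orbits on Ω. -/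
theorem result {G Ω : Type*} [Group G] [Finite G] [MulAction G Ω] [FaithfulSMul G Ω] [Finite Ω] (h2 : MulAction.IsMultiplyPretransitive G Ω 2) (H : Subgroup G) (hidx : H.index = Nat.card Ω) (hnt : ¬ MulAction.IsPretransitive H Ω) (hfix : ∀ a : Ω, ∃ h : H, h • a ≠ a) : Nat.card (MulAction.orbitRel.Quotient H Ω) = 2 := by
  classical
  cases nonempty_fintype G
  have : Fintype H := Fintype.ofFinite H
  have htr : MulAction.IsPretransitive G Ω := MulAction.isPretransitive_of_is_two_pretransitive
  -- at least two points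
  have hΩ : 2 ≤ Nat.card Ω := by
    by_contra hlt
    apply hnt
    have h1 : Nat.card Ω ≤ 1 := by omega
    have hs : Subsingleton Ω := Finite.card_le_one_iff_subsingleton.1 h1
    exact ⟨fun x y => ⟨1, Subsingleton.elim _ _⟩⟩
  set t := Nat.card (MulAction.orbitRel.Quotient H Ω) with ht
  set π : G → ℂ := fun g => (Nat.card (MulAction.fixedBy Ω g) : ℂ) with hπ
  set χ : G → ℂ := fun g => (Nat.card (MulAction.fixedBy Ω g) : ℂ) - 1 with hχ
  set one : G → ℂ := fun _ => (1 : ℂ) with hone
  have hχirr : IsIrrCharacter G χ := (Cfsg.Agent.S0157.result Ω hΩ).2 h2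
  have honeirr : IsIrrCharacter G one := isIrrCharacter_one
  have hπchar : IsCharacter G π := isCharacter_fixedBy Ω
  set ρ : G → ℂ := indFun H (fun _ => (1 : ℂ)) with hρ
  have hρchar : IsCharacter G ρ := isCharacter_indFun H (isCharacter_of_irr isIrrCharacter_one)
  have hH0 : (Nat.card H : ℂ) ≠ 0 := card_subgroup_ne_zero H
  -- Step 1
  have s1 : classInner ρ π = (t : ℂ) := by
    rw [hρ, frobenius_reciprocity H _ (isClassFunction_of_char hπchar), classInner]
    have h1 := Cfsg.Agent.Lib.Helper19.burnside_nat H Ω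
    have h3 : ∑ g : H, (1 : ℂ) * conj (π g) = ((∑ g : H, Nat.card (MulAction.fixedBy Ω g) : ℕ) : ℂ) := by
      rw [Nat.cast_sum]
      refine Finset.sum_congr rfl fun g _ => ?_
      simp only [hπ, one_mul, map_natCast]
      rfl
    rw [h3, h1, Nat.cast_mul]
    field_simp
    rfl
  have s2 : classInner ρ one = 1 := by
    rw [hρ, frobenius_reciprocity H _ (isClassFunction_of_irr honeirr)]
    exact classInner_irr_self isIrrCharacter_one
  have s3 : classInner ρ π = classInner ρ χ + classInner ρ one := by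
    rw [← classInner_add_right]
    congr 1
    ext g
    simp [hπ, hχ, hone]
  obtain ⟨m, hm⟩ := isCharacter_iff.1 hρchar
  have s4 : ∀ ψ : IrrCharacter G, classInner ρ ψ = (m ψ : ℂ) := by
    intro ψ
    rw [hm]
    exact classInner_sum_smul_irr (fun χ => (m χ : ℂ)) ψ
  have s4χ := s4 ⟨χ, hχirr⟩
  have s4one := s4 ⟨one, honeirr⟩
  simp only at s4χ s4one
  have hm1 : m ⟨one, honeirr⟩ = 1 := by
    rw [s2] at s4one
    exact_mod_cast s4one.symm
  have ht' : t = m ⟨χ, hχirr⟩ + 1 := by
    rw [s1, s4χ, s2] at s3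
    exact_mod_cast s3
  -- lower bound
  have hlow : 2 ≤ t := by
    by_contra hlt
    apply hnt
    have h1 : t ≤ 1 := by omega
    have hs : Subsingleton (MulAction.orbitRel.Quotient H Ω) := Finite.card_le_one_iff_subsingleton.1 h1
    refine ⟨fun x y => ?_⟩
    have : (Quotient.mk'' y : MulAction.orbitRel.Quotient H Ω) = Quotient.mk'' x := Subsingleton.elim _ _
    exact Quotient.exact' this
  -- upper bound
  have hup : m ⟨χ, hχirr⟩ ≤ 1 := by
    by_cases hc : (⟨χ, hχirr⟩ : IrrCharacter G) = ⟨one, honeirr⟩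
    · rw [hc, hm1]
    · -- degrees
      have hd : ∀ ψ : IrrCharacter G, ∃ n : ℕ, (ψ : G → ℂ) 1 = n := fun ψ =>
        isCharacter_apply_one (isCharacter_of_irr ψ.2)
      choose d hd using hd
      have e1 : ρ 1 = ((∑ ψ : IrrCharacter G, m ψ * d ψ : ℕ) : ℂ) := by
        rw [hm, Finset.sum_apply, Nat.cast_sum]
        refine Finset.sum_congr rfl fun ψ _ => ?_
        rw [Pi.smul_apply, hd, smul_eq_mul, Nat.cast_mul]
      have e2 : ρ 1 = (Nat.card Ω : ℂ) := by
        rw [hρ, indFun_apply_one, hidx, mul_one]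
      have e3 : ∑ ψ : IrrCharacter G, m ψ * d ψ = Nat.card Ω := by
        rw [e1] at e2
        exact_mod_cast e2
      have e4 : ∑ ψ ∈ ({⟨χ, hχirr⟩, ⟨one, honeirr⟩} : Finset (IrrCharacter G)), m ψ * d ψ ≤
          ∑ ψ : IrrCharacter G, m ψ * d ψ :=
        Finset.sum_le_sum_of_subset (Finset.subset_univ _)
      rw [Finset.sum_pair hc, e3, hm1] at e4
      have hfix1 : Nat.card (MulAction.fixedBy Ω (1 : G)) = Nat.card Ω := by
        apply Nat.card_congr
        exact Equiv.subtypeUnivEquiv (fun x => by simp)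
      have e5 : d ⟨one, honeirr⟩ = 1 := by
        have := hd ⟨one, honeirr⟩
        simp only [hone] at this
        exact_mod_cast this.symm
      have e6 : d ⟨χ, hχirr⟩ + 1 = Nat.card Ω := by
        have := hd ⟨χ, hχirr⟩
        simp only [hχ, hfix1] at this
        have h3 : (Nat.card Ω : ℂ) = (d ⟨χ, hχirr⟩ : ℂ) + 1 := by rw [← this]; ring
        exact_mod_cast h3.symm
      rw [e5] at e4
      by_contra hgt
      have h5 : 2 ≤ m ⟨χ, hχirr⟩ := by omega
      have h6 : 2 * d ⟨χ, hχirr⟩ ≤ m ⟨χ, hχirr⟩ * d ⟨χ, hχirr⟩ := Nat.mul_le_mul_right _ h5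
      omega
  omega

end Cfsg.Agent.S3704
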