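import Cfsg.Statements.S3707
-- import your own Cfsg.Agent.* helpers here

set_option autoImplicit false
open Cfsg

namespace Cfsg.Agent.S3707

open scoped Pointwise

/-- Jordan sets. -/
def Jor (G : Type*) {Ω : Type*} [Group G] [MulAction G Ω] (S : Set Ω) : Prop :=
  ∀ x ∈ S, ∀ y ∈ S, ∃ g : G, (∀ z ∉ S, g • z = z) ∧ g • x = y

theorem Jor.smul {G Ω : Type*} [Group G] [MulAction G Ω] {S : Set Ω} (h : Jor G S) (g : G) :
    Jor G (g • S) := by
  intro x hx y hy
  rw [Set.mem_smul_set_iff_inv_smul_mem] at hx hy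
  obtain ⟨k, hk, hkx⟩ := h _ hx _ hy
  refine ⟨g * k * g⁻¹, fun z hz => ?_, ?_⟩
  · rw [Set.mem_smul_set_iff_inv_smul_mem] at hz
    rw [mul_smul, mul_smul, hk _ hz, smul_inv_smul]
  · rw [mul_smul, mul_smul, hkx, smul_inv_smul]

theorem Jor.union {G Ω : Type*} [Group G] [MulAction G Ω] {S T : Set Ω} (hS : Jor G S) (hT : Jor G T)
    (hne : (S ∩ T).Nonempty) : Jor G (S ∪ T) := by
  obtain ⟨c, hcS, hcT⟩ := hne
  have key : ∀ x ∈ S ∪ T, ∃ g : G, (∀ z ∉ S ∪ T, g • z = z) ∧ g • x = c := by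
    intro x hx
    rcases hx with hx | hx
    · obtain ⟨g, hg, hgx⟩ := hS x hx c hcS
      exact ⟨g, fun z hz => hg z (fun h => hz (Or.inl h)), hgx⟩
    · obtain ⟨g, hg, hgx⟩ := hT x hx c hcT
      exact ⟨g, fun z hz => hg z (fun h => hz (Or.inr h)), hgx⟩
  intro x hx y hy
  obtain ⟨g, hg, hgx⟩ := key x hx
  obtain ⟨k, hk, hky⟩ := key y hy
  refine ⟨k⁻¹ * g, fun z hz => ?_, ?_⟩
  · rw [mul_smul, hg z hz, inv_smul_eq_iff, hk z hz]
  · rw [mul_smul, hgx, inv_smul_eq_iff, hky]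

theorem step {G Ω : Type*} [Group G] [MulAction G Ω] [Finite Ω]
    (hprim : MulAction.IsPreprimitive G Ω)
    (h2t : ∀ {a b c d : Ω}, a ≠ b → c ≠ d → ∃ g : G, g • a = c ∧ g • b = d)
    (Γ : Set Ω) (h1 : 1 < Γ.ncard) (h2 : 2 * Γ.ncard ≤ Nat.card Ω) (hΓ : Jor G Γ)
    (S : Set Ω) (hS : Jor G S) (hS2 : 2 ≤ S.ncard) (hSN : S.ncard + 3 ≤ Nat.card Ω)
    (hmax : ∀ T : Set Ω, Jor G T → S.ncard < T.ncard → T.ncard + 2 ≤ Nat.card Ω → False) : False := by
  classical
  have hfin : ∀ T : Set Ω, T.Finite := fun T => T.toFinite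
  have hcompl : ∀ T : Set Ω, T.ncard + Tᶜ.ncard = Nat.card Ω := fun T => Set.ncard_add_ncard_compl T
  have hcardg : ∀ g : G, (g • S).ncard = S.ncard := fun g => Set.ncard_smul_set g S
  -- two points outside T bound the cardinality
  have hout : ∀ (T : Set Ω) (a b : Ω), a ≠ b → a ∉ T → b ∉ T → T.ncard + 2 ≤ Nat.card Ω := by
    intro T a b hab ha hb
    have h3 : ({a, b} : Set Ω) ⊆ Tᶜ := by
      intro z hz
      rcases hz with rfl | hz
      · exact ha
      · rw [Set.mem_singleton_iff] at hz; subst hz; exact hb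
    have h4 := Set.ncard_le_ncard h3 (hfin _)
    rw [Set.ncard_pair hab] at h4
    have := hcompl T
    omega
  -- strict growth
  have hgrow : ∀ (A B : Set Ω), ¬ B ⊆ A → A.ncard < (A ∪ B).ncard := by
    intro A B hBA
    apply Set.ncard_lt_ncard _ (hfin _)
    refine ⟨Set.subset_union_left, fun h => hBA (fun z hz => h (Or.inr hz))⟩
  have hnsub : ∀ g h : G, g • S ≠ h • S → ¬ h • S ⊆ g • S := by
    intro g h hne hsub
    exact hne (Set.eq_of_subset_of_ncard_le hsub (by rw [hcardg, hcardg]) (hfin _)).symm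
  -- S is not a block
  have hnb : ∃ t : G, (t • S ∩ S).Nonempty ∧ t • S ≠ S := by
    by_contra hcon
    push_neg at hcon
    have hB : MulAction.IsBlock G S := MulAction.isBlock_iff_smul_eq_of_nonempty.2 (fun g hg => hcon g hg)
    rcases hprim.isTrivialBlock_of_isBlock hB with h | h
    · have := (Set.ncard_le_one_iff_subsingleton (s := S)).2 h
      omega
    · rw [h, Set.ncard_univ] at hSN
      omega
  -- Claim 1
  have c1 : ∀ g h : G, ∀ a b : Ω, a ≠ b → a ∉ g • S → b ∉ g • S → a ∉ h • S → b ∉ h • S → g • S = h • S := by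
    intro g h a b hab hag hbg hah hbh
    by_contra hne
    by_cases hint : (g • S ∩ h • S).Nonempty
    · have hJ := (hS.smul g).union (hS.smul h) hint
      have hlt := hgrow _ _ (hnsub g h hne)
      rw [hcardg] at hlt
      refine hmax _ hJ hlt (hout _ a b hab ?_ ?_)
      · rintro (h' | h')
        · exact hag h'
        · exact hah h'
      · rintro (h' | h')
        · exact hbg h'
        · exact hbh h'
    · have hdisj : Disjoint (g • S) (h • S) := Set.not_nonempty_iff_eq_empty.1 hint |> Set.disjoint_iff_inter_eq_empty.2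
      have hu : (g • S ∪ h • S).ncard = S.ncard + S.ncard := by
        rw [Set.ncard_union_eq hdisj (hfin _) (hfin _), hcardg, hcardg]
      have hu2 : (g • S ∪ h • S).ncard + 2 ≤ Nat.card Ω := by
        refine hout _ a b hab ?_ ?_
        · rintro (h' | h')
          · exact hag h'
          · exact hah h'
        · rintro (h' | h')
          · exact hbg h'
          · exact hbh h'
      obtain ⟨t, htne, htS⟩ := hnb
      have hJ : Jor G (S ∪ t • S) := hS.union (hS.smul t) (by rwa [Set.inter_comm])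
      have hlt : S.ncard < (S ∪ t • S).ncard := by
        apply hgrow
        have := hnsub 1 t (by rw [one_smul]; exact htS.symm)
        rwa [one_smul] at this
      have hle : (S ∪ t • S).ncard + (S ∩ t • S).ncard = S.ncard + S.ncard := by
        rw [Set.ncard_union_add_ncard_inter S (t • S) (hfin _) (hfin _), hcardg]
      have hpos : 0 < (S ∩ t • S).ncard := by
        rw [Set.ncard_pos (hfin _), Set.inter_comm]; exact htne
      exact hmax _ hJ hlt (by omega)
  -- Claim 2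
  have hScompl : 3 ≤ Sᶜ.ncard := by have := hcompl S; omega
  obtain ⟨c, d, hcd, hcS, hdS⟩ : ∃ c d : Ω, c ≠ d ∧ c ∉ S ∧ d ∉ S := by
    have : 1 < Sᶜ.ncard := by omega
    obtain ⟨c, hc, d, hd, hcd⟩ := (Set.one_lt_ncard (hfin _)).1 this
    exact ⟨c, d, hcd, hc, hd⟩
  have c2 : ∀ a b : Ω, a ≠ b → ∃ g : G, a ∉ g • S ∧ b ∉ g • S := by
    intro a b hab
    obtain ⟨g, hga, hgb⟩ := h2t hcd hab
    refine ⟨g, ?_, ?_⟩
    · rw [Set.mem_smul_set_iff_inv_smul_mem, ← hga, inv_smul_smul]; exact hcS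
    · rw [Set.mem_smul_set_iff_inv_smul_mem, ← hgb, inv_smul_smul]; exact hdS
  -- Claim 3
  have c3 : ∀ g : G, Γ ⊆ g • S ∨ Γ ⊆ (g • S)ᶜ ∨ ∀ a b : Ω, a ∉ g • S → a ∉ Γ → b ∉ g • S → b ∉ Γ → a = b := by
    intro g
    by_cases hsub : Γ ⊆ g • S
    · exact Or.inl hsub
    by_cases hint : (g • S ∩ Γ).Nonempty
    · right; right
      intro a b hag haΓ hbg hbΓ
      by_contra hab
      have hJ := (hS.smul g).union hΓ hint
      have hlt := hgrow _ _ hsub
      rw [hcardg] at hlt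
      refine hmax _ hJ hlt (hout _ a b hab ?_ ?_)
      · rintro (h' | h')
        · exact hag h'
        · exact haΓ h'
      · rintro (h' | h')
        · exact hbg h'
        · exact hbΓ h'
    · right; left
      intro z hz hzg
      exact hint ⟨z, hzg, hz⟩
  -- third point on a line
  have hthird : ∀ (g : G) (a b : Ω), ∃ w : Ω, w ∉ g • S ∧ w ≠ a ∧ w ≠ b := by
    intro g a b
    have h3 : ({a, b} : Set Ω).ncard < ((g • S)ᶜ).ncard := by
      have h4 : ({a, b} : Set Ω).ncard ≤ 2 := by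
        have := Set.ncard_insert_le a ({b} : Set Ω)
        rw [Set.ncard_singleton] at this
        exact this
      have h5 := hcompl (g • S)
      rw [hcardg] at h5
      omega
    obtain ⟨w, hw, hw'⟩ := Set.exists_mem_notMem_of_ncard_lt_ncard h3 (hfin _)
    refine ⟨w, hw, fun h => hw' (by simp [h]), fun h => hw' (by simp [h])⟩
  obtain ⟨x, hx, x', hx', hxx'⟩ := (Set.one_lt_ncard (hfin _)).1 h1
  by_cases hcase : ∃ g : G, x ∉ g • S ∧ Γ ⊆ (g • S)ᶜ
  · obtain ⟨g, hxg, hΓg⟩ := hcase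
    have hne : (g • S).Nonempty := by
      rw [← Set.ncard_pos (hfin _), hcardg]; omega
    obtain ⟨z, hz⟩ := hne
    have hzx : x ≠ z := fun h => hxg (h ▸ hz)
    obtain ⟨h, hxh, hzh⟩ := c2 x z hzx
    have hgh : g • S ≠ h • S := fun e => hzh (e ▸ hz)
    rcases c3 h with h3 | h3 | h3
    · exact hxh (h3 hx)
    · exact hgh (c1 g h x x' hxx' hxg (hΓg hx') hxh (h3 hx'))
    · obtain ⟨w, hwh, hwx, hwz⟩ := hthird h x z
      have hzΓ : z ∉ Γ := fun hzΓ => hΓg hzΓ hz
      have hwΓ : w ∉ Γ := by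
        intro hwΓ
        exact hgh (c1 g h x w (Ne.symm hwx) hxg (hΓg hwΓ) hxh hwh)
      exact hwz (h3 w z hwh hwΓ hzh hzΓ)
  · push_neg at hcase
    have H : ∀ y : Ω, ∃ w : Ω, y ∉ Γ → (∃ g : G, x ∉ g • S ∧ y ∉ g • S ∧ w ∉ g • S) ∧ w ≠ x ∧ w ≠ y := by
      intro y
      by_cases hy : y ∈ Γ
      · exact ⟨y, fun h => absurd hy h⟩
      · have hxy : x ≠ y := fun h => hy (h ▸ hx)
        obtain ⟨g, hxg, hyg⟩ := c2 x y hxy
        obtain ⟨w, hw, hwx, hwy⟩ := hthird g x y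
        exact ⟨w, fun _ => ⟨⟨g, hxg, hyg, hw⟩, hwx, hwy⟩⟩
    choose f hf using H
    have huniq : ∀ g : G, x ∉ g • S → ∀ a b : Ω, a ∉ g • S → a ∉ Γ → b ∉ g • S → b ∉ Γ → a = b := by
      intro g hxg
      rcases c3 g with h3 | h3 | h3
      · exact absurd (h3 hx) hxg
      · exact absurd h3 (hcase g hxg)
      · exact h3
    have hmaps : ∀ y ∈ Γᶜ, f y ∈ Γ \ {x} := by
      intro y hy
      obtain ⟨⟨g, hxg, hyg, hwg⟩, hwx, hwy⟩ := hf y hy
      refine ⟨?_, hwx⟩
      by_contra hfΓ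
      exact hwy (huniq g hxg _ _ hwg hfΓ hyg hy)
    have hinj : Set.InjOn f Γᶜ := by
      intro y hy y' hy' he
      obtain ⟨⟨g, hxg, hyg, hwg⟩, hwx, hwy⟩ := hf y hy
      obtain ⟨⟨g', hxg', hyg', hwg'⟩, hwx', hwy'⟩ := hf y' hy'
      have e : g • S = g' • S := c1 g g' x (f y) (Ne.symm hwx) hxg hwg hxg' (he ▸ hwg')
      exact huniq g hxg _ _ hyg hy (e ▸ hyg') hy'
    have hle := Set.ncard_le_ncard_of_injOn f hmaps hinj (hfin _)
    have h5 : (Γ \ {x}).ncard = Γ.ncard - 1 := Set.ncard_sdiff_singleton_of_mem hx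
    have := hcompl Γ
    omega

/-- Let G be a finite primitive permutation group on Ω of degree n and Γ ⊂ Ω a subset with 1 < #Γ ≤ n/2 such that the pointwise stabilizer of Ω ∖ Γ is transitive on Γ. Then G is 3-transitive on Ω. -/
theorem result {G Ω : Type*} [Group G] [Finite G] [MulAction G Ω] [FaithfulSMul G Ω] [Finite Ω] (hprim : MulAction.IsPreprimitive G Ω) (Γ : Set Ω) (h1 : 1 < Γ.ncard) (h2 : 2 * Γ.ncard ≤ Nat.card Ω) (htr : ∀ x ∈ Γ, ∀ y ∈ Γ, ∃ g : G, (∀ z ∉ Γ, g • z = z) ∧ g • x = y) : MulAction.IsMultiplyPretransitive G Ω 3 := by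
  classical
  have hΓ : Jor G Γ := htr
  have hfin : ∀ T : Set Ω, T.Finite := fun T => T.toFinite
  have hcompl : ∀ T : Set Ω, T.ncard + Tᶜ.ncard = Nat.card Ω := fun T => Set.ncard_add_ncard_compl T
  -- 2-transitivity via Jordan
  have h2t' : MulAction.IsMultiplyPretransitive G Ω 2 := by
    have hc := hcompl Γ
    obtain ⟨n, hn⟩ : ∃ n, Γᶜ.ncard = n + 1 := ⟨Γᶜ.ncard - 1, by omega⟩
    refine hprim.is_two_pretransitive (s := Γᶜ) hn (by omega) ⟨fun x y => ?_⟩
    have hx : (x : Ω) ∈ Γ := by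
      have := x.2
      rw [SubMulAction.mem_ofFixingSubgroup_iff] at this
      simpa using this
    have hy : (y : Ω) ∈ Γ := by
      have := y.2
      rw [SubMulAction.mem_ofFixingSubgroup_iff] at this
      simpa using this
    obtain ⟨g, hg, hgx⟩ := htr x hx y hy
    exact ⟨⟨g, (mem_fixingSubgroup_iff G).2 fun z hz => hg z hz⟩, Subtype.ext hgx⟩
  have h2t : ∀ {a b c d : Ω}, a ≠ b → c ≠ d → ∃ g : G, g • a = c ∧ g • b = d :=
    fun hab hcd => MulAction.is_two_pretransitive_iff.1 h2t' hab hcd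
  -- a Jordan set of size N - 2
  obtain ⟨T, hT, hTN⟩ : ∃ T : Set Ω, Jor G T ∧ T.ncard + 2 = Nat.card Ω := by
    let P : ℕ → Prop := fun k => ∃ T : Set Ω, Jor G T ∧ T.ncard = k ∧ 2 ≤ k ∧ k + 2 ≤ Nat.card Ω
    have hP0 : P Γ.ncard := ⟨Γ, hΓ, rfl, h1, by omega⟩
    have hle0 : Γ.ncard ≤ Nat.card Ω := by omega
    have hspec : P (Nat.findGreatest P (Nat.card Ω)) := Nat.findGreatest_spec hle0 hP0
    obtain ⟨S, hS, hSk, hS2, hSN⟩ := hspec
    by_cases heq : S.ncard + 2 = Nat.card Ω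
    · exact ⟨S, hS, heq⟩
    · exfalso
      refine step hprim h2t Γ h1 h2 hΓ S hS (by omega) (by omega) ?_
      intro T hT hlt hTN
      have hPT : P T.ncard := ⟨T, hT, rfl, by omega, hTN⟩
      have := Nat.le_findGreatest (P := P) (by omega : T.ncard ≤ Nat.card Ω) hPT
      omega
  have hTc : Tᶜ.ncard = 2 := by have := hcompl T; omega
  obtain ⟨α, β, hαβ, hTαβ⟩ := Set.ncard_eq_two.1 hTc
  have hαT : α ∉ T := by
    have : α ∈ Tᶜ := by rw [hTαβ]; simp
    exact this
  have hβT : β ∉ T := by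
    have : β ∈ Tᶜ := by rw [hTαβ]; simp
    exact this
  have hmemT : ∀ z : Ω, z ≠ α → z ≠ β → z ∈ T := by
    intro z hzα hzβ
    by_contra hz
    have : z ∈ Tᶜ := hz
    rw [hTαβ] at this
    rcases this with h | h
    · exact hzα h
    · exact hzβ h
  rw [MulAction.isMultiplyPretransitive_iff]
  intro x y
  have hx01 : x 0 ≠ x 1 := fun h => by simpa using x.injective h
  have hx02 : x 0 ≠ x 2 := fun h => by simpa using x.injective h
  have hx12 : x 1 ≠ x 2 := fun h => by simpa using x.injective h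
  have hy01 : y 0 ≠ y 1 := fun h => by simpa using y.injective h
  have hy02 : y 0 ≠ y 2 := fun h => by simpa using y.injective h
  have hy12 : y 1 ≠ y 2 := fun h => by simpa using y.injective h
  obtain ⟨g1, hg10, hg11⟩ := h2t hx01 hαβ
  obtain ⟨g2, hg20, hg21⟩ := h2t hy01 hαβ
  have hx2T : g1 • x 2 ∈ T := by
    apply hmemT
    · rw [← hg10]; intro h; exact hx02 (MulAction.injective g1 h).symm
    · rw [← hg11]; intro h; exact hx12 (MulAction.injective g1 h).symm
  have hy2T : g2 • y 2 ∈ T := by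
    apply hmemT
    · rw [← hg20]; intro h; exact hy02 (MulAction.injective g2 h).symm
    · rw [← hg21]; intro h; exact hy12 (MulAction.injective g2 h).symm
  obtain ⟨k, hk, hkx⟩ := hT _ hx2T _ hy2T
  refine ⟨g2⁻¹ * k * g1, ?_⟩
  ext i
  rw [Function.Embedding.smul_apply]
  fin_cases i
  · show (g2⁻¹ * k * g1) • x 0 = y 0
    rw [mul_smul, mul_smul, hg10, hk α hαT, inv_smul_eq_iff, hg20]
  · show (g2⁻¹ * k * g1) • x 1 = y 1
    rw [mul_smul, mul_smul, hg11, hk β hβT, inv_smul_eq_iff, hg21]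
  · show (g2⁻¹ * k * g1) • x 2 = y 2
    rw [mul_smul, mul_smul, hkx, inv_smul_smul]

end Cfsg.Agent.S3707
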