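import Cfsg.Statements.S3742
import Cfsg.Agent.S1012

set_option autoImplicit false
open Cfsg

namespace Cfsg.Agent.S3742

open QuaternionGroup

/-- the map determined by the images `u`, `v` of the two generators. -/
def f (u v : QuaternionGroup 2) : QuaternionGroup 2 → QuaternionGroup 2
  | a i => u ^ i.val
  | xa i => v * u ^ i.val

theorem a_eq : ∀ i : ZMod (2 * 2), (a i : QuaternionGroup 2) = (a 1) ^ i.val := by decide +kernel

theorem xa_eq : ∀ i : ZMod (2 * 2), (xa i : QuaternionGroup 2) = xa 0 * (a 1) ^ i.val := by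
  decide +kernel

theorem f_mul : ∀ u v : QuaternionGroup 2, (u ^ 2 ≠ 1 ∧ v ^ 2 ≠ 1 ∧ v ≠ u ∧ v ≠ u⁻¹) →
    ∀ x y, f u v (x * y) = f u v x * f u v y := by decide +kernel

theorem f_inj : ∀ u v : QuaternionGroup 2, (u ^ 2 ≠ 1 ∧ v ^ 2 ≠ 1 ∧ v ≠ u ∧ v ≠ u⁻¹) →
    ∀ x y, f u v x = f u v y → x = y := by decide +kernel

theorem f_six : ∀ u v : QuaternionGroup 2, (u ^ 2 ≠ 1 ∧ v ^ 2 ≠ 1 ∧ v ≠ u ∧ v ≠ u⁻¹) →
    (∀ x, (f u v)^[6] x = x) → (∀ x, (f u v)^[2] x = x) ∨ (∀ x, (f u v)^[3] x = x) := by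
  decide +kernel

theorem card_good : Fintype.card {p : QuaternionGroup 2 × QuaternionGroup 2 //
    p.1 ^ 2 ≠ 1 ∧ p.2 ^ 2 ≠ 1 ∧ p.2 ≠ p.1 ∧ p.2 ≠ p.1⁻¹} = 24 := by decide +kernel

theorem gens : ((a 1 : QuaternionGroup 2) ^ 2 ≠ 1 ∧ (xa 0 : QuaternionGroup 2) ^ 2 ≠ 1 ∧
    (xa 0 : QuaternionGroup 2) ≠ a 1 ∧ (xa 0 : QuaternionGroup 2) ≠ (a 1)⁻¹) := by decide +kernel

theorem good_of_aut (φ : MulAut (QuaternionGroup 2)) :
    (φ (a 1)) ^ 2 ≠ 1 ∧ (φ (xa 0)) ^ 2 ≠ 1 ∧ φ (xa 0) ≠ φ (a 1) ∧ φ (xa 0) ≠ (φ (a 1))⁻¹ := by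
  obtain ⟨h1, h2, h3, h4⟩ := gens
  refine ⟨?_, ?_, ?_, ?_⟩
  · rw [← map_pow]; exact fun h => h1 (φ.injective (h.trans (map_one φ).symm))
  · rw [← map_pow]; exact fun h => h2 (φ.injective (h.trans (map_one φ).symm))
  · exact fun h => h3 (φ.injective h)
  · rw [← map_inv]; exact fun h => h4 (φ.injective h)

theorem aut_eq (φ : MulAut (QuaternionGroup 2)) (x : QuaternionGroup 2) :
    φ x = f (φ (a 1)) (φ (xa 0)) x := by
  cases x with
  | a i =>
    change φ (a i) = φ (a 1) ^ i.val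
    rw [a_eq i, map_pow]
  | xa i =>
    change φ (xa i) = φ (xa 0) * φ (a 1) ^ i.val
    rw [xa_eq i, map_mul, map_pow]

theorem aut_pow_eq (φ : MulAut (QuaternionGroup 2)) (k : ℕ) (x : QuaternionGroup 2) :
    (φ ^ k) x = (f (φ (a 1)) (φ (xa 0)))^[k] x := by
  induction k generalizing x with
  | zero => rfl
  | succ k ih =>
    rw [pow_succ, MulAut.mul_apply, ih, aut_eq φ x, ← Function.iterate_succ_apply]

/-- parametrisation of the automorphisms. -/
noncomputable def par : MulAut (QuaternionGroup 2) ≃ {p : QuaternionGroup 2 × QuaternionGroup 2 //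
    p.1 ^ 2 ≠ 1 ∧ p.2 ^ 2 ≠ 1 ∧ p.2 ≠ p.1 ∧ p.2 ≠ p.1⁻¹} :=
  Equiv.ofBijective (fun φ => ⟨(φ (a 1), φ (xa 0)), good_of_aut φ⟩) (by
    constructor
    · intro φ ψ h
      have h1 : φ (a 1) = ψ (a 1) := congrArg (fun z => z.1.1) h
      have h2 : φ (xa 0) = ψ (xa 0) := congrArg (fun z => z.1.2) h
      ext x
      rw [aut_eq φ x, aut_eq ψ x, h1, h2]
    · rintro ⟨⟨u, v⟩, h⟩
      have hb : Function.Bijective (f u v) :=
        Finite.injective_iff_bijective.1 (fun x y => f_inj u v h x y)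
      refine ⟨MulEquiv.ofBijective (MonoidHom.mk' (f u v) (f_mul u v h)) hb, ?_⟩
      apply Subtype.ext
      change (f u v (a 1), f u v (xa 0)) = (u, v)
      have h1 : f u v (a 1) = u := pow_one u
      have h2 : f u v (xa 0) = v := by
        change v * u ^ 0 = v
        rw [pow_zero, mul_one]
      rw [h1, h2])

/-- The automorphism group of the quaternion group of order 8 is isomorphic to the symmetric group of degree 4. -/
theorem result : Nonempty (MulAut (QuaternionGroup 2) ≃* Equiv.Perm (Fin 4)) := by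
  have hfin : Finite (MulAut (QuaternionGroup 2)) := Finite.of_equiv _ par.symm
  have hcard : Nat.card (MulAut (QuaternionGroup 2)) = 24 := by
    rw [Nat.card_congr par, Nat.card_eq_fintype_card, card_good]
  apply Cfsg.Agent.S1012.result hcard
  intro φ h6
  have h1 : ∀ x, (f (φ (a 1)) (φ (xa 0)))^[6] x = x := by
    intro x
    rw [← aut_pow_eq, ← h6, pow_orderOf_eq_one]; rfl
  rcases f_six _ _ (good_of_aut φ) h1 with h | h
  · have h2 : φ ^ 2 = 1 := by
      ext x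
      rw [aut_pow_eq, h x]; rfl
    have := orderOf_dvd_of_pow_eq_one h2
    rw [h6] at this
    exact absurd this (by decide)
  · have h2 : φ ^ 3 = 1 := by
      ext x
      rw [aut_pow_eq, h x]; rfl
    have := orderOf_dvd_of_pow_eq_one h2
    rw [h6] at this
    exact absurd this (by decide)

end Cfsg.Agent.S3742
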