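import Cfsg.Statements.S3743
import Cfsg.Agent.H20.Radical

set_option autoImplicit false
open Cfsg

namespace Cfsg.Agent.S3743

open Cfsg.Agent.H20 Subgroup

/-- In a finite group G, every subnormal nilpotent subgroup lies in the Fitting subgroup F(G), and, for a set of primes π, every subnormal subgroup all of whose prime divisors lie in π lies in O_π(G). -/
theorem result {G : Type*} [Group G] [Finite G] (A : Subgroup G) (hA : A.IsSubnormal) : (Group.IsNilpotent A → A ≤ Cfsg.fittingSubgroup G) ∧ ∀ π : Set ℕ, (∀ p : ℕ, p.Prime → p ∣ Nat.card A → p ∈ π) → A ≤ Cfsg.piCore π G := by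
  constructor
  · intro hnil
    obtain ⟨N, hN, hAN, hQ⟩ := subnormal_le_normal (fun N : Subgroup G => Group.IsNilpotent N)
      (fun N g hN => by
        have e : N ≃* N.map (MulAut.conj g).toMonoidHom :=
          N.equivMapOfInjective _ (MulAut.conj g).injective
        exact @Group.nilpotent_of_mulEquiv _ _ _ _ hN e)
      (fun M N hM hN h1 h2 => isNilpotent_sup_rel M N hM hN h1 h2) hA hnil
    exact hAN.trans (Cfsg.Agent.Lib.Helper22.le_fittingSubgroup N hN hQ)
  · intro π hπ
    obtain ⟨N, hN, hAN, hQ⟩ := subnormal_le_normal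
      (fun N : Subgroup G => ∀ p : ℕ, p.Prime → p ∣ Nat.card N → p ∈ π)
      (fun N g hN => by
        rw [card_sconj]; exact hN)
      (fun M N hM hN h1 h2 p hp hd => by
        have := hd.trans (card_sup_dvd_rel M N h2)
        rcases (Nat.Prime.dvd_mul hp).1 this with h | h
        · exact hM p hp h
        · exact hN p hp h) hA hπ
    exact hAN.trans (le_sSup ⟨hN, hQ⟩)

end Cfsg.Agent.S3743
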