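import Cfsg.Statements.S3745
import Cfsg.Agent.H20.HallCoprime

set_option autoImplicit false
open Cfsg

namespace Cfsg.Agent.S3745

open Subgroup Cfsg.Agent.H20

/-- Coprime action on a solvable group and Hall subgroups. Let A and G be subgroups of a finite group with A normalizing G, the orders of A and G coprime, and G solvable, and let π be a set of primes. Then (a) G has an A-invariant Hall π-subgroup; (b) any two A-invariant Hall π-subgroups of G are conjugate by an element of C_G(A); (c) every A-invariant π-subgroup of G lies in an A-invariant Hall π-subgroup of G. -/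
theorem result {X : Type*} [Group X] [Finite X] (A G : Subgroup X) (hAG : A ≤ Subgroup.normalizer (G : Set X)) (hcop : (Nat.card A).Coprime (Nat.card G)) (hsolv : Group.IsSolvable G) (π : Set ℕ) : (∃ H : Subgroup X, Cfsg.IsPiHallOf π H G ∧ A ≤ Subgroup.normalizer (H : Set X)) ∧ (∀ H₁ H₂ : Subgroup X, Cfsg.IsPiHallOf π H₁ G → A ≤ Subgroup.normalizer (H₁ : Set X) → Cfsg.IsPiHallOf π H₂ G → A ≤ Subgroup.normalizer (H₂ : Set X) → ∃ c ∈ G ⊓ Subgroup.centralizer (A : Set X), H₂ = H₁.map (MulAut.conj c).toMonoidHom) ∧ (∀ U : Subgroup X, U ≤ G → A ≤ Subgroup.normalizer (U : Set X) → (∀ p : ℕ, p.Prime → p ∣ Nat.card U → p ∈ π) → ∃ H : Subgroup X, Cfsg.IsPiHallOf π H G ∧ A ≤ Subgroup.normalizer (H : Set X) ∧ U ≤ H) := by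
  obtain ⟨m, n, hG, hm, hn⟩ := pi_factor π (Nat.card G) (Nat.card_pos (α := G)).ne'
  have hmn : m.Coprime n := Nat.coprime_of_dvd (fun k hk hk1 => hn k hk (hm k hk hk1))
  have hiff := isPiHallOf_iff_card hG hm hn
  have C : ∀ U : Subgroup X, U ≤ G → A ≤ Subgroup.normalizer (U : Set X) →
      (∀ p : ℕ, p.Prime → p ∣ Nat.card U → p ∈ π) →
      ∃ H : Subgroup X, Cfsg.IsPiHallOf π H G ∧ A ≤ Subgroup.normalizer (H : Set X) ∧ U ≤ H := by
    intro U hUG hAU hU
    obtain ⟨H, h1, h2, h3, h4⟩ := coprime_hall_contain A G U hAG hcop hsolv hG hmn hUG hAU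
      (Nat.coprime_of_dvd (fun k hk hk1 => hn k hk (hU k hk hk1)))
    exact ⟨H, (hiff H).2 ⟨h1, h2⟩, h3, h4⟩
  refine ⟨?_, ?_, C⟩
  · obtain ⟨H, h1, h2, -⟩ := C ⊥ bot_le (by
      intro a _
      rw [mem_normalizer_iff]
      intro x
      simp) (by
      intro p hp hd
      rw [card_bot] at hd
      exact absurd (Nat.dvd_one.1 hd) hp.ne_one)
    exact ⟨H, h1, h2⟩
  · intro H₁ H₂ a1 a2 b1 b2
    obtain ⟨c, hc, e⟩ := coprime_hall_conj A G H₁ H₂ hAG hcop hsolv hG hmn ((hiff H₁).1 a1).1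
      ((hiff H₁).1 a1).2 a2 ((hiff H₂).1 b1).1 ((hiff H₂).1 b1).2 b2
    exact ⟨c, hc, e.symm⟩

end Cfsg.Agent.S3745
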