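import Cfsg.Statements.S3746
import Cfsg.Agent.H20.Quasi

set_option autoImplicit false
open Cfsg

namespace Cfsg.Agent.S3746

open Subgroup Cfsg.Agent.H20
open scoped commutatorElement

/-- Let Z ≤ Z(G) be a central subgroup of a finite group G and E a subgroup of G containing Z whose image E/Z is a component of G/Z (subnormal and quasisimple). Then the derived subgroup [E, E] is a component of G. -/
theorem result {G : Type*} [Group G] [Finite G] (Z : Subgroup G) (hZ : Z ≤ Subgroup.center G) [Z.Normal] (E : Subgroup G) (hZE : Z ≤ E) (hE : Cfsg.IsComponent (E.map (QuotientGroup.mk' Z))) : Cfsg.IsComponent ⁅E, E⁆ := by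
  obtain ⟨hsub, hqs⟩ := hE
  set D := ⁅E, E⁆ with hD
  have hDE : D ≤ E := Subgroup.commutator_le_self E
  have hperf : Group.IsPerfect (E.map (QuotientGroup.mk' Z)) := hqs.1
  have hmap : D.map (QuotientGroup.mk' Z) = E.map (QuotientGroup.mk' Z) := by
    rw [hD, map_commutator]
    exact Subgroup.isPerfect_iff.1 hperf
  -- subnormality
  have hEsub : E.IsSubnormal := by
    have h1 := hsub.comap (QuotientGroup.mk' Z)
    rw [comap_map_eq, QuotientGroup.ker_mk', sup_eq_left.2 hZE] at h1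
    exact h1
  have hDn : (D.subgroupOf E).Normal := by
    have : D.subgroupOf E = _root_.commutator E := by
      apply Subgroup.map_injective E.subtype_injective
      rw [subgroupOf_map_subtype, map_subtype_commutator, inf_eq_left.2 hDE]
    rw [this]; infer_instance
  refine ⟨IsSubnormal.step D E hDE hEsub hDn, ?_⟩
  -- E ≤ D Z
  have hEDZ : E ≤ D ⊔ Z := by
    have h1 : E ≤ (E.map (QuotientGroup.mk' Z)).comap (QuotientGroup.mk' Z) := le_comap_map _ _
    rw [← hmap, comap_map_eq, QuotientGroup.ker_mk'] at h1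
    exact h1
  have hDperf : Group.IsPerfect D := by
    rw [Subgroup.isPerfect_iff]
    apply le_antisymm (Subgroup.commutator_le_self D)
    conv_lhs => rw [hD]
    rw [commutator_le]
    intro x hx y hy
    obtain ⟨d, hd, z, hz, rfl⟩ := mem_sup_of_normal_right.1 (hEDZ hx)
    obtain ⟨d', hd', z', hz', rfl⟩ := mem_sup_of_normal_right.1 (hEDZ hy)
    have hzc := mem_center_iff.1 (hZ hz)
    have hzc' := mem_center_iff.1 (hZ hz')
    have : ⁅d * z, d' * z'⁆ = ⁅d, d'⁆ := by
      rw [commutatorElement_def, commutatorElement_def]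
      have e1 : (d * z)⁻¹ = d⁻¹ * z⁻¹ := by
        rw [mul_inv_rev]
        have := hzc d⁻¹
        rw [eq_comm, ← mul_inv_eq_iff_eq_mul] at this
        calc z⁻¹ * d⁻¹ = z⁻¹ * (z * d⁻¹ * z⁻¹) := by rw [this]
          _ = d⁻¹ * z⁻¹ := by group
      have e2 : (d' * z')⁻¹ = d'⁻¹ * z'⁻¹ := by
        rw [mul_inv_rev]
        have := hzc' d'⁻¹
        rw [eq_comm, ← mul_inv_eq_iff_eq_mul] at this
        calc z'⁻¹ * d'⁻¹ = z'⁻¹ * (z' * d'⁻¹ * z'⁻¹) := by rw [this]
          _ = d'⁻¹ * z'⁻¹ := by group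
      rw [e1, e2]
      calc d * z * (d' * z') * (d⁻¹ * z⁻¹) * (d'⁻¹ * z'⁻¹)
          = d * (z * d') * (z' * d⁻¹) * z⁻¹ * d'⁻¹ * z'⁻¹ := by group
        _ = d * (d' * z) * (d⁻¹ * z') * z⁻¹ * d'⁻¹ * z'⁻¹ := by rw [hzc d', hzc' d⁻¹]
        _ = d * d' * (z * d⁻¹) * (z' * z⁻¹) * d'⁻¹ * z'⁻¹ := by group
        _ = d * d' * (d⁻¹ * z) * (z⁻¹ * z') * d'⁻¹ * z'⁻¹ := by rw [hzc d⁻¹, hzc' z⁻¹]
        _ = d * d' * d⁻¹ * (z' * d'⁻¹) * z'⁻¹ := by group
        _ = d * d' * d⁻¹ * (d'⁻¹ * z') * z'⁻¹ := by rw [hzc' d'⁻¹]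
        _ = d * d' * d⁻¹ * d'⁻¹ := by group
    rw [this]
    exact commutator_mem_commutator hd hd'
  have hqs' : Cfsg.IsQuasisimple (D.map (QuotientGroup.mk' Z)) := by rw [hmap]; exact hqs
  refine isQuasisimple_of_central_surjective hDperf ((QuotientGroup.mk' Z).subgroupMap D)
    (MonoidHom.subgroupMap_surjective _ _) ?_ hqs'
  intro x hx
  rw [MonoidHom.mem_ker] at hx
  have h1 : (QuotientGroup.mk' Z) (x : G) = 1 := congrArg Subtype.val hx
  have h2 : (x : G) ∈ Z := by
    rwa [← MonoidHom.mem_ker, QuotientGroup.ker_mk'] at h1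
  rw [mem_center_iff]
  intro y
  ext
  exact mem_center_iff.1 (hZ h2) y

end Cfsg.Agent.S3746
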