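import Cfsg.Statements.S3747
import Cfsg.Agent.S3743
import Cfsg.Agent.H9.FStar

set_option autoImplicit false
open Cfsg

namespace Cfsg.Agent.S3747

open Subgroup Cfsg.Agent.H20

section aux

variable {G : Type*} [Group G]

open Classical in
/-- pairwise commuting subgroups with trivial centres generate a group with trivial centre. -/
theorem central_eq_one (S : Finset (Subgroup G)) :
    (∀ A ∈ S, ∀ B ∈ S, A ≠ B → ⁅A, B⁆ = ⊥) → (∀ A ∈ S, A ⊓ centralizer (A : Set G) = ⊥) →
    ∀ z ∈ S.sup id, (∀ A ∈ S, z ∈ centralizer (A : Set G)) → z = 1 := by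
  induction S using Finset.induction_on with
  | empty =>
    intro _ _ z hz _
    simpa using hz
  | insert A S hA ih =>
    intro hcomm hcen z hz hzc
    rw [Finset.sup_insert, id] at hz
    have hB : S.sup id ≤ centralizer (A : Set G) := by
      apply Finset.sup_le
      intro B hB
      rw [id, ← commutator_eq_bot_iff_le_centralizer]
      apply hcomm B (Finset.mem_insert_of_mem hB) A (Finset.mem_insert_self _ _)
      rintro rfl
      exact hA hB
    have hBn : S.sup id ≤ normalizer (A : Set G) := hB.trans (centralizer_le_normalizer _)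
    have hz' : z ∈ ((A ⊔ S.sup id : Subgroup G) : Set G) := hz
    rw [coe_mul_of_right_le_normalizer_left A _ hBn] at hz'
    obtain ⟨a, ha, b, hb, rfl⟩ := hz'
    have ha1 : a = 1 := by
      have : a ∈ A ⊓ centralizer (A : Set G) := by
        refine ⟨ha, ?_⟩
        have h1 := hzc A (Finset.mem_insert_self _ _)
        have h2 := hB hb
        have := (centralizer (A : Set G)).mul_mem h1 ((centralizer (A : Set G)).inv_mem h2)
        simpa using this
      rw [hcen A (Finset.mem_insert_self _ _)] at this
      exact this
    subst ha1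
    change 1 * b = 1
    rw [one_mul]
    apply ih (fun A hA B hB => hcomm A (Finset.mem_insert_of_mem hA) B (Finset.mem_insert_of_mem hB))
      (fun A hA => hcen A (Finset.mem_insert_of_mem hA)) b hb
    intro B hB
    have := hzc B (Finset.mem_insert_of_mem hB)
    simpa using this

theorem partA [Finite G] (K : Subgroup G) (hK : Cfsg.IsComponent K) (hZ : Subgroup.center ↥K = ⊥) :
    (Subgroup.normalClosure (K : Set G) ≠ ⊥ ∧ ∀ N : Subgroup G, N.Normal →
      N ≤ Subgroup.normalClosure (K : Set G) → N = ⊥ ∨ N = Subgroup.normalClosure (K : Set G)) := by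
  classical
  have hKne : K ≠ ⊥ := Cfsg.H9.comp_ne_bot hK
  have hKle : K ≤ normalClosure (K : Set G) := le_normalClosure
  refine ⟨fun h => hKne (eq_bot_iff.2 (h ▸ hKle)), ?_⟩
  intro M hM hMN
  rcases Cfsg.H9.component_le_or_comm hK hM.isSubnormal with h | h
  · right
    exact le_antisymm hMN (normalClosure_le_normal h)
  · left
    have := Fintype.ofFinite G
    let S : Finset (Subgroup G) := Finset.univ.image (fun g : G => K.map (MulAut.conj g).toMonoidHom)
    have hScomp : ∀ A ∈ S, Cfsg.IsComponent A := by
      intro A hA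
      obtain ⟨g, _, rfl⟩ := Finset.mem_image.1 hA
      exact Cfsg.H9.isComponent_map_equiv (MulAut.conj g) hK
    have hScard : ∀ A ∈ S, Nat.card A = Nat.card K := by
      intro A hA
      obtain ⟨g, _, rfl⟩ := Finset.mem_image.1 hA
      exact card_sconj K g
    have h1 : ∀ A ∈ S, ∀ B ∈ S, A ≠ B → ⁅A, B⁆ = ⊥ := by
      intro A hA B hB hne
      rcases Cfsg.H9.component_eq_or_comm (hScomp A hA) (hScomp B hB) with h | h
      · exact absurd h hne
      · exact h
    have hK0 : K ⊓ centralizer (K : Set G) = ⊥ := by
      rw [eq_bot_iff]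
      intro x hx
      have : (⟨x, hx.1⟩ : K) ∈ center K := by
        rw [mem_center_iff]
        intro y
        ext
        exact (mem_centralizer_iff.1 hx.2) y y.2
      rw [hZ, mem_bot] at this
      exact congrArg Subtype.val this
    have h2 : ∀ A ∈ S, A ⊓ centralizer (A : Set G) = ⊥ := by
      intro A hA
      obtain ⟨g, _, rfl⟩ := Finset.mem_image.1 hA
      rw [eq_bot_iff]
      intro x hx
      have hx1 : g⁻¹ * x * g ∈ K := (mem_conj_iff _ _ _).1 hx.1
      have hx2 : g⁻¹ * x * g ∈ centralizer (K : Set G) := by
        rw [mem_centralizer_iff]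
        intro k hk
        have := (mem_centralizer_iff.1 hx.2) (g * k * g⁻¹) (conj_mem_conj K g hk)
        calc k * (g⁻¹ * x * g) = g⁻¹ * (g * k * g⁻¹ * x) * g := by group
          _ = g⁻¹ * (x * (g * k * g⁻¹)) * g := by rw [this]
          _ = _ := by group
      have : g⁻¹ * x * g ∈ K ⊓ centralizer (K : Set G) := ⟨hx1, hx2⟩
      rw [hK0, mem_bot] at this
      rw [mem_bot]
      calc x = g * (g⁻¹ * x * g) * g⁻¹ := by group
        _ = 1 := by rw [this]; group
    have hsupn : (S.sup id).Normal := by
      constructor
      intro n hn g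
      have hle : S.sup id ≤ (S.sup id).comap (MulAut.conj g).toMonoidHom := by
        apply Finset.sup_le
        intro A hA
        obtain ⟨x, _, rfl⟩ := Finset.mem_image.1 hA
        rw [id, ← map_le_iff_le_comap, ← sconj_mul]
        exact Finset.le_sup (f := id) (Finset.mem_image.2 ⟨g * x, Finset.mem_univ _, rfl⟩)
      exact hle hn
    have hNle : normalClosure (K : Set G) ≤ S.sup id := by
      apply normalClosure_le_normal
      have : K ≤ S.sup id := by
        have := Finset.le_sup (f := id) (Finset.mem_image.2 ⟨(1 : G), Finset.mem_univ _, rfl⟩ :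
          K.map (MulAut.conj (1:G)).toMonoidHom ∈ S)
        rwa [id, sconj_one] at this
      exact this
    rw [eq_bot_iff]
    intro z hz
    rw [mem_bot]
    apply central_eq_one S h1 h2 z (hNle (hMN hz))
    intro A hA
    obtain ⟨g, _, rfl⟩ := Finset.mem_image.1 hA
    rw [mem_centralizer_iff]
    rintro _ ⟨k, hk, rfl⟩
    have hz' : g⁻¹ * z * g ∈ M := by
      have := hM.conj_mem z hz g⁻¹
      simpa using this
    have hc : K ≤ centralizer (M : Set G) := commutator_eq_bot_iff_le_centralizer.1 h
    have := (mem_centralizer_iff.1 (hc hk)) _ hz'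
    simp only [MulEquiv.coe_toMonoidHom, MulAut.conj_apply]
    calc g * k * g⁻¹ * z = g * (k * (g⁻¹ * z * g)) * g⁻¹ := by group
      _ = g * ((g⁻¹ * z * g) * k) * g⁻¹ := by rw [this]
      _ = _ := by group

theorem partB [Finite G] (hF : Cfsg.fittingSubgroup G = ⊥) :
    sSup {N : Subgroup G | N ≠ ⊥ ∧ N.Normal ∧ ∀ N' : Subgroup G, N'.Normal → N' ≤ N → N' = ⊥ ∨ N' = N}
      = Cfsg.layer G := by
  classical
  have hnil : ∀ A : Subgroup G, A.IsSubnormal → Group.IsNilpotent A → A = ⊥ := by
    intro A hA hn
    have := (Cfsg.Agent.S3743.result A hA).1 hn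
    rwa [hF, le_bot_iff] at this
  apply le_antisymm
  · apply sSup_le
    rintro N ⟨hNne, hNn, hNmin⟩
    -- a minimal nontrivial subnormal subgroup inside `N`
    let T : Set (Subgroup G) := {K | K ≠ ⊥ ∧ K.IsSubnormal ∧ K ≤ N}
    have hTfin : T.Finite := Set.toFinite _
    obtain ⟨K, hKT, hKmin⟩ := hTfin.exists_minimal ⟨N, hNne, hNn.isSubnormal, le_rfl⟩
    obtain ⟨hKne, hKsn, hKN⟩ := hKT
    have hmin : ∀ L : Subgroup G, L ≤ K → K ≤ normalizer (L : Set G) → L = ⊥ ∨ L = K := by
      intro L hL hLn
      by_cases hb : L = ⊥
      · exact Or.inl hb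
      · right
        have : L ∈ T := ⟨hb, Cfsg.H9.subnormal_step hL hLn hKsn, hL.trans hKN⟩
        exact le_antisymm hL (hKmin this hL)
    have hperf : ⁅K, K⁆ = K := by
      have hn : K ≤ normalizer ((⁅K, K⁆ : Subgroup G) : Set G) := by
        have h1 : ((⁅K, K⁆ : Subgroup G).subgroupOf K).Normal := by
          have : (⁅K, K⁆ : Subgroup G).subgroupOf K = _root_.commutator K := by
            apply Subgroup.map_injective K.subtype_injective
            rw [subgroupOf_map_subtype, map_subtype_commutator,
              inf_eq_left.2 (Subgroup.commutator_le_self K)]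
          rw [this]; infer_instance
        exact (normal_subgroupOf_iff_le_normalizer (Subgroup.commutator_le_self K)).1 h1
      rcases hmin _ (Subgroup.commutator_le_self K) hn with h | h
      · exfalso
        apply hKne
        apply hnil K hKsn
        apply Cfsg.H9.isNilpotent_of_commutator_central
        rw [h]; simp
      · exact h
    have hqs : Cfsg.IsQuasisimple K := by
      apply Cfsg.H9.isQuasisimple_subgroup_of hperf hKne
      intro L hL hLn hne t ht s _
      rcases hmin L hL hLn with h | h
      · rw [h, mem_bot] at ht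
        rw [ht]; simp
      · exact absurd h hne
    have hcomp : Cfsg.IsComponent K := ⟨hKsn, hqs⟩
    have h1 : normalClosure (K : Set G) ≤ Cfsg.layer G :=
      normalClosure_le_normal (Cfsg.H9.component_le_layer hcomp)
    have h2 : normalClosure (K : Set G) ≤ N := normalClosure_le_normal hKN
    rcases hNmin _ normalClosure_normal h2 with h | h
    · exact absurd (eq_bot_iff.2 (h ▸ le_normalClosure)) hKne
    · rw [← h]; exact h1
  · apply sSup_le
    intro K hK
    have hZ : center K = ⊥ := by
      have h1 : ((center K).map K.subtype).IsSubnormal :=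
        IsSubnormal.trans' (Normal.isSubnormal inferInstance) hK.1
      have h2 : Group.IsNilpotent ((center K).map K.subtype) := by
        have e : center K ≃* (center K).map K.subtype :=
          (center K).equivMapOfInjective _ K.subtype_injective
        have : Group.IsNilpotent (center K) := by
          open scoped IsMulCommutative in infer_instance
        exact Group.nilpotent_of_mulEquiv e
      have h3 := hnil _ h1 h2
      rwa [Subgroup.map_eq_bot_iff_of_injective _ K.subtype_injective] at h3
    obtain ⟨h1, h2⟩ := partA K hK hZ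
    exact le_normalClosure.trans (le_sSup ⟨h1, normalClosure_normal, h2⟩)

end aux

/-- Let G be a finite group. (a) If K is a component of G with trivial centre, then the normal closure of K in G is a minimal normal subgroup of G. (b) If the Fitting subgroup of G is trivial, then the layer E(G) is generated by the minimal normal subgroups of G. -/
theorem result {G : Type*} [Group G] [Finite G] : (∀ K : Subgroup G, Cfsg.IsComponent K → Subgroup.center ↥K = ⊥ → (Subgroup.normalClosure (K : Set G) ≠ ⊥ ∧ ∀ N : Subgroup G, N.Normal → N ≤ Subgroup.normalClosure (K : Set G) → N = ⊥ ∨ N = Subgroup.normalClosure (K : Set G))) ∧ (Cfsg.fittingSubgroup G = ⊥ → sSup {N : Subgroup G | N ≠ ⊥ ∧ N.Normal ∧ ∀ N' : Subgroup G, N'.Normal → N' ≤ N → N' = ⊥ ∨ N' = N} = Cfsg.layer G) := by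
  exact ⟨partA, partB⟩

end Cfsg.Agent.S3747
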