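import Cfsg.Statements.S3749
import Cfsg.Agent.H20.Primitive
import Cfsg.Agent.H20.PGroup
import Cfsg.Agent.H1.Fit
import Cfsg.Agent.S0023
import Cfsg.Agent.S0024

set_option autoImplicit false
open Cfsg

namespace Cfsg.Agent.S3749

open Subgroup Cfsg.Agent.H20

/-- conjugate of a Sylow subgroup of a normal subgroup by an element of the big group. -/
theorem conjNormal_smul_map {G : Type*} [Group G] (N : Subgroup G) [N.Normal] {q : ℕ}
    (Q : Sylow q N) (m : G) :
    (((MulAut.conjNormal m : MulAut N) • Q : Sylow q N) : Subgroup N).map N.subtype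
      = ((Q : Subgroup N).map N.subtype).map (MulAut.conj m).toMonoidHom := by
  rw [Sylow.pointwise_smul_def]
  ext x
  constructor
  · rintro ⟨y, hy, rfl⟩
    obtain ⟨z, hz, rfl⟩ := hy
    exact ⟨z, ⟨z, hz, rfl⟩, by simp [MulAut.conjNormal_apply]⟩
  · rintro ⟨y, ⟨z, hz, rfl⟩, rfl⟩
    exact ⟨(MulAut.conjNormal m : MulAut N) z, ⟨z, hz, rfl⟩, by simp [MulAut.conjNormal_apply]⟩

/-- Call a proper subgroup M of G primitive when M = N_G(N) for every non-trivial normal subgroup N of M. Let M be a primitive subgroup of the finite group G, p a prime with O_p(M) ≠ 1, and N a normal subgroup of G with M ∩ N = 1. Then p does not divide the order of N; for every prime q there is exactly one Sylow q-subgroup of N normalized by M; and if the order of N has at least two prime divisors then M is not a maximal subgroup of G. -/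
theorem result {G : Type*} [Group G] [Finite G] (M : Subgroup G) (hM : M ≠ ⊤) (hprim : ∀ N : Subgroup G, N ≤ M → M ≤ Subgroup.normalizer (N : Set G) → N ≠ ⊥ → Subgroup.normalizer (N : Set G) = M) {p : ℕ} [Fact p.Prime] (hOp : Cfsg.pCore p ↥M ≠ ⊥) (N : Subgroup G) [N.Normal] (hMN : M ⊓ N = ⊥) : ¬ p ∣ Nat.card N ∧ (∀ q : ℕ, [Fact q.Prime] → ∃! Q : Sylow q ↥N, M ≤ Subgroup.normalizer ((Q : Subgroup ↥N).map N.subtype : Set G)) ∧ ((∃ q r : ℕ, q.Prime ∧ r.Prime ∧ q ≠ r ∧ q ∣ Nat.card N ∧ r ∣ Nat.card N) → ¬ IsCoatom M) := by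
  have hp : p.Prime := Fact.out
  set P := (Cfsg.pCore p ↥M).map M.subtype with hPdef
  have hPM : P ≤ M := by
    rintro _ ⟨x, _, rfl⟩; exact x.2
  have hPp : IsPGroup p P := (Cfsg.H1.pCore_isPGroup p).map _
  have hPne : P ≠ ⊥ := by
    intro h
    apply hOp
    rwa [hPdef, Subgroup.map_eq_bot_iff_of_injective _ M.subtype_injective] at h
  have hPn : M ≤ normalizer (P : Set G) := by
    have h1 : (Cfsg.pCore p ↥M).Normal := Cfsg.H1.pCore_normal p
    have h2 : (P.subgroupOf M).Normal := by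
      have : P.subgroupOf M = Cfsg.pCore p ↥M := by
        rw [hPdef, subgroupOf, comap_map_eq_self_of_injective M.subtype_injective]
      rw [this]; exact h1
    exact (normal_subgroupOf_iff_le_normalizer hPM).1 h2
  have hNP : normalizer (P : Set G) = M := hprim P hPM hPn hPne
  -- (1)
  have h1 : ¬ p ∣ Nat.card N := by
    intro hdvd
    obtain ⟨R, hR⟩ := hPp.exists_le_sylow
    obtain ⟨P', hP'⟩ := exists_sylow_inf_normal R N
    have hRN : (R : Subgroup G) ⊓ N ≠ ⊥ := by
      intro h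
      apply P'.ne_bot_of_dvd_card hdvd
      rw [hP', subgroupOf_eq_bot, disjoint_iff]
      exact h
    set S := P ⊔ ((R : Subgroup G) ⊓ N) with hS
    have hSR : S ≤ R := sup_le hR inf_le_left
    have hSp : IsPGroup p S := R.2.to_le hSR
    have hlt : P < S := by
      refine lt_of_le_of_ne le_sup_left ?_
      intro h
      apply hRN
      have h2 : (R : Subgroup G) ⊓ N ≤ P := by rw [h]; exact le_sup_right
      rw [eq_bot_iff, ← hMN]
      exact le_inf (h2.trans hPM) inf_le_right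
    obtain ⟨x, hxS, hxn, hxP⟩ := exists_mem_normalizer_not_mem hSp hlt
    have hxM : x ∈ M := hNP ▸ hxn
    have hxPN : x ∈ P ⊔ N := (sup_le_sup_left inf_le_right P) hxS
    obtain ⟨u, hu, n, hn, rfl⟩ := mem_sup_of_normal_right.1 hxPN
    have hnM : n ∈ M := by
      have := M.mul_mem (M.inv_mem (hPM hu)) hxM
      simpa using this
    have hn1 : n ∈ M ⊓ N := ⟨hnM, hn⟩
    rw [hMN, mem_bot] at hn1
    apply hxP
    rw [hn1, mul_one]; exact hu
  have hcop : (Nat.card P).Coprime (Nat.card N) := by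
    obtain ⟨k, hk⟩ := IsPGroup.iff_card.1 hPp
    rw [hk]
    exact Nat.Coprime.pow_left k ((Nat.Prime.coprime_iff_not_dvd hp).2 h1)
  have hPN : P ≤ normalizer (N : Set G) := by
    rw [normalizer_eq_top_iff.2 inferInstance]; exact le_top
  have hsolv : Group.IsSolvable P ∨ Group.IsSolvable N := by
    left
    have := hPp.isNilpotent
    infer_instance
  have hCN : ∀ c : N, (c : G) ∈ centralizer (P : Set G) → c = 1 := by
    intro c hc
    have h2 : (c : G) ∈ M ⊓ N := ⟨hNP ▸ (centralizer_le_normalizer _ hc), c.2⟩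
    rw [hMN, mem_bot] at h2
    exact Subtype.ext h2
  -- (2)
  have h2 : ∀ q : ℕ, [Fact q.Prime] → ∃! Q : Sylow q ↥N,
      M ≤ Subgroup.normalizer ((Q : Subgroup ↥N).map N.subtype : Set G) := by
    intro q _
    obtain ⟨Q, hQ⟩ := Cfsg.Agent.S0023.result P N hPN hcop hsolv q
    have huniq : ∀ Q' : Sylow q N, P ≤ normalizer ((Q' : Subgroup N).map N.subtype : Set G) →
        Q' = Q := by
      intro Q' hQ'
      obtain ⟨c, hc, hcQ⟩ := Cfsg.Agent.S0024.result P N hPN hcop hsolv q Q Q' hQ hQ'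
      rw [hCN c hc] at hcQ
      rw [← hcQ]; simp
    refine ⟨Q, ?_, fun Q' hQ' => huniq Q' (hPM.trans hQ')⟩
    intro m hm
    rw [mem_normalizer_iff_conj, ← conjNormal_smul_map]
    congr 2
    apply huniq
    rw [conjNormal_smul_map]
    intro x hx
    rw [mem_normalizer_iff_conj, ← sconj_mul]
    have hx' : m⁻¹ * x * m ∈ P := by
      have h3 := (mem_normalizer_iff_conj _ _).1 (hPn (M.inv_mem hm))
      rw [← h3]
      exact ⟨x, hx, by simp [MulAut.conj_apply]⟩
    have h4 := (mem_normalizer_iff_conj _ _).1 (hQ hx')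
    have h5 : x * m = m * (m⁻¹ * x * m) := by group
    rw [h5, sconj_mul, h4]
  refine ⟨h1, h2, ?_⟩
  rintro ⟨q, r, hq, hr, hqr, hqN, hrN⟩ hco
  have : Fact q.Prime := ⟨hq⟩
  obtain ⟨Q, hQ, -⟩ := h2 q
  set Q1 := (Q : Subgroup N).map N.subtype with hQ1
  have hQ1N : Q1 ≤ N := by
    rintro _ ⟨x, _, rfl⟩; exact x.2
  have hQ1ne : Q1 ≠ ⊥ := by
    intro h
    apply Q.ne_bot_of_dvd_card hqN
    rwa [hQ1, Subgroup.map_eq_bot_iff_of_injective _ N.subtype_injective] at h
  have hlt : M < M ⊔ Q1 := by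
    refine lt_of_le_of_ne le_sup_left ?_
    intro h
    apply hQ1ne
    have h3 : Q1 ≤ M := by rw [h]; exact le_sup_right
    rw [eq_bot_iff, ← hMN]
    exact le_inf h3 hQ1N
  have htop := hco.2 _ hlt
  have hNQ : N ≤ Q1 := by
    intro n hn
    have h3 : n ∈ ((M ⊔ Q1 : Subgroup G) : Set G) := by rw [htop]; trivial
    rw [coe_mul_of_left_le_normalizer_right M Q1 hQ] at h3
    obtain ⟨m, hm, u, hu, rfl⟩ := h3
    have hmN : m ∈ N := by
      have := N.mul_mem hn (N.inv_mem (hQ1N hu))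
      simpa using this
    have hm1 : m ∈ M ⊓ N := ⟨hm, hmN⟩
    rw [hMN, mem_bot] at hm1
    change m * u ∈ Q1
    rw [hm1, one_mul]; exact hu
  have hQ1q : IsPGroup q Q1 := Q.2.map _
  obtain ⟨k, hk⟩ := IsPGroup.iff_card.1 hQ1q
  have h4 : r ∣ q ^ k := by
    rw [← hk]
    exact hrN.trans (Subgroup.card_dvd_of_le hNQ)
  exact hqr ((Nat.prime_dvd_prime_iff_eq hr hq).1 (hr.dvd_of_dvd_pow h4)).symm

end Cfsg.Agent.S3749
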