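import Cfsg.Statements.S3750
import Cfsg.Agent.H20.Primitive
import Cfsg.Agent.H9.FStar

set_option autoImplicit false
open Cfsg

namespace Cfsg.Agent.S3750

open Subgroup Cfsg.Agent.H20

/-- Call a proper subgroup M of G primitive when M = N_G(N) for every non-trivial normal subgroup N of M. Let M be a primitive subgroup of the finite group G and N a normal subgroup of G with M ∩ F*(N) ≠ 1. Then F(G) = 1 and F*(N) = F*(G) = E(G); in particular every minimal normal subgroup of G is contained in N. -/
theorem result {G : Type*} [Group G] [Finite G] (M : Subgroup G) (hM : M ≠ ⊤) (hprim : ∀ N : Subgroup G, N ≤ M → M ≤ Subgroup.normalizer (N : Set G) → N ≠ ⊥ → Subgroup.normalizer (N : Set G) = M) (N : Subgroup G) [N.Normal] (hMF : M ⊓ (Cfsg.generalizedFittingSubgroup ↥N).map N.subtype ≠ ⊥) : Cfsg.fittingSubgroup G = ⊥ ∧ (Cfsg.generalizedFittingSubgroup ↥N).map N.subtype = Cfsg.generalizedFittingSubgroup G ∧ Cfsg.generalizedFittingSubgroup G = Cfsg.layer G ∧ ∀ K : Subgroup G, K.Normal → K ≠ ⊥ → (∀ K' : Subgroup G, K'.Normal → K' ≤ K →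 K' = ⊥ ∨ K' = K) → K ≤ N := by
  have hP : IsPrim M := ⟨hM, hprim⟩
  have hNsn : N.IsSubnormal := Normal.isSubnormal inferInstance
  set Fs := (Cfsg.generalizedFittingSubgroup ↥N).map N.subtype with hFs
  have hFs' : Fs = (Cfsg.layer N).map N.subtype ⊔ (Cfsg.fittingSubgroup G ⊓ N) := by
    rw [hFs, Cfsg.generalizedFittingSubgroup, Subgroup.map_sup, Cfsg.H9.map_fitting_subnormal hNsn]
  have hFsN : Fs ≤ N := by
    rintro _ ⟨x, _, rfl⟩; exact x.2
  have hLn : ((Cfsg.layer N).map N.subtype).Normal := ConjAct.normal_of_characteristic_of_normal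
  have hFsn : Fs.Normal := by
    rw [hFs']; infer_instance
  have hXn : M ≤ normalizer ((M ⊓ Fs : Subgroup G) : Set G) := by
    intro m hm
    rw [mem_normalizer_iff_conj, Subgroup.map_inf_eq _ _ _ (MulAut.conj m).injective,
      (mem_normalizer_iff_conj _ _).1 (le_normalizer hm),
      (mem_normalizer_iff_conj _ _).1 (by rw [normalizer_eq_top_iff.2 hFsn]; trivial)]
  have hXM := hprim _ inf_le_left hXn hMF
  have hC : centralizer (Fs : Set G) = ⊥ := by
    by_contra hne
    apply hP.not_normal_le _ normal_centralizer hne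
    calc centralizer (Fs : Set G) ≤ centralizer ((M ⊓ Fs : Subgroup G) : Set G) :=
          centralizer_le inf_le_right
      _ ≤ normalizer ((M ⊓ Fs : Subgroup G) : Set G) := centralizer_le_normalizer _
      _ = M := hXM
  have hLG : (Cfsg.layer N).map N.subtype ≤ Cfsg.layer G := Cfsg.H9.map_layer_subnormal_le hNsn
  have hF : Cfsg.fittingSubgroup G = ⊥ := by
    by_contra hne
    have hnil : Group.IsNilpotent (Cfsg.fittingSubgroup G) := Cfsg.H9.fitting_isNilpotent
    have hnt : Nontrivial (Cfsg.fittingSubgroup G) := (Subgroup.nontrivial_iff_ne_bot _).2 hne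
    apply Group.IsNilpotent.center_ne_bot (Cfsg.fittingSubgroup G)
    rw [eq_bot_iff]
    intro z hz
    have hzC : (z : G) ∈ centralizer (Fs : Set G) := by
      have h1 : Fs ≤ centralizer {(z : G)} := by
        rw [hFs']
        apply sup_le
        · have h2 := Cfsg.H9.layer_comm_fitting (G := G)
          rw [commutator_eq_bot_iff_le_centralizer] at h2
          intro x hx
          rw [mem_centralizer_singleton_iff]
          exact ((mem_centralizer_iff.1 (h2 (hLG hx))) z z.2).symm
        · intro x hx
          rw [mem_centralizer_singleton_iff]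
          exact congrArg Subtype.val (mem_center_iff.1 hz ⟨x, hx.1⟩)
      rw [mem_centralizer_iff]
      intro x hx
      exact mem_centralizer_singleton_iff.1 (h1 hx)
    rw [hC, mem_bot] at hzC
    rw [mem_bot]
    exact Subtype.ext hzC
  have hgen : Cfsg.generalizedFittingSubgroup G = Cfsg.layer G := by
    rw [Cfsg.generalizedFittingSubgroup, hF, sup_bot_eq]
  have hcentN : centralizer (N : Set G) = ⊥ := by
    rw [eq_bot_iff, ← hC]
    exact centralizer_le hFsN
  refine ⟨hF, ?_, hgen, ?_⟩
  · rw [hgen, hFs', hF, bot_inf_eq, sup_bot_eq]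
    apply le_antisymm hLG
    apply sSup_le
    intro L hL
    rcases Cfsg.H9.component_le_or_comm hL hNsn with h | h
    · have h1 := Cfsg.H9.component_le_layer (Cfsg.H9.isComponent_subgroupOf hL h)
      have h2 := Subgroup.map_mono (f := N.subtype) h1
      rwa [subgroupOf_map_subtype, inf_eq_left.2 h] at h2
    · rw [commutator_eq_bot_iff_le_centralizer, hcentN, le_bot_iff] at h
      exact absurd h (Cfsg.H9.comp_ne_bot hL)
  · intro K hK hKne hKmin
    rcases hKmin (K ⊓ N) inferInstance inf_le_left with h | h
    · exfalso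
      apply hKne
      rw [eq_bot_iff, ← hcentN]
      intro k hk
      rw [mem_centralizer_iff]
      intro n hn
      exact (commute_of_normal_of_disjoint K N hK inferInstance (disjoint_iff.2 h) k n hk hn).symm
    · exact inf_eq_left.1 h

end Cfsg.Agent.S3750
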