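import Cfsg.Statements.S3751
import Cfsg.Agent.H20.PLocal

set_option autoImplicit false
open Cfsg

namespace Cfsg.Agent.S3751

section aux
open Subgroup Cfsg.Agent.H20
variable {G : Type*} [Group G]

theorem map_conj_eq_of_mem_normalizer {H : Subgroup G} {x : G} (hx : x ∈ normalizer (H : Set G)) :
    H.map (MulAut.conj x).toMonoidHom = H := by
  ext y
  rw [mem_map]
  constructor
  · rintro ⟨z, hz, rfl⟩
    exact (mem_normalizer_iff.1 hx z).1 hz
  · intro hy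
    refine ⟨x⁻¹ * y * x, ?_, by simp [MulAut.conj_apply]; group⟩
    apply (mem_normalizer_iff.1 hx (x⁻¹ * y * x)).2
    have : x * (x⁻¹ * y * x) * x⁻¹ = y := by group
    rwa [this]

theorem mem_normalizer_of_map_conj_eq {H : Subgroup G} {x : G}
    (hx : H.map (MulAut.conj x).toMonoidHom = H) : x ∈ normalizer (H : Set G) := by
  rw [mem_normalizer_iff]
  intro h
  constructor
  · intro hh
    rw [← hx]
    exact ⟨h, hh, rfl⟩
  · intro hh
    rw [← hx] at hh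
    obtain ⟨z, hz, hzz⟩ := hh
    have : z = h := (MulAut.conj x).injective hzz
    rwa [← this]

variable [Finite G] {p : ℕ} [Fact p.Prime]

theorem cent_le (hloc : Cfsg.IsOfLocalCharacteristic p G) {M : Subgroup G} (h : IsLoc p M) :
    centralizer (Cfsg.pCore p ↥M : Set ↥M) ≤ Cfsg.pCore p ↥M := by
  obtain ⟨T, hT, hT1, rfl⟩ := h
  exact hloc.2 T hT hT1

/-- the primitive pair property -/
def Good (p : ℕ) (M₁ M₂ : Subgroup G) : Prop :=
  M₁ ≠ M₂ ∧ (∀ A : Subgroup G, A ≠ ⊥ → A ≤ M₁ ⊓ M₂ → (M₁ ≤ Subgroup.normalizer (A : Set G) → M₂ ⊓ Subgroup.normalizer (A : Set G) = M₁ ⊓ M₂) ∧ (M₂ ≤ Subgroup.normalizer (A : Set G) → M₁ ⊓ Subgroup.normalizer (A : Set G) = M₁ ⊓ M₂)) ∧ Subgroup.centralizer (Cfsg.pCore p ↥M₁ : Set ↥M₁) ≤ Cfsg.pCore p ↥M₁ ∧ Subgroup.centralizer (Cfsg.pCore p ↥M₂ : Set ↥M₂) ≤ Cfsg.pCore p ↥M₂ ∧ (Cfsg.pCore p ↥M₁).map M₁.subtype ⊔ (Cfsg.pCore p ↥M₂).map M₂.subtype ≤ M₁ ⊓ M₂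

theorem pair (hloc : Cfsg.IsOfLocalCharacteristic p G) {L1 L2 T : Subgroup G} (h1 : IsMaxLoc p L1)
    (h2 : IsMaxLoc p L2) (hne : L1 ≠ L2) (hT1 : MaxP p T L1) (hT2 : MaxP p T L2) :
    Good p L1 L2 := by
  refine ⟨hne, ?_, cent_le hloc h1.1, cent_le hloc h2.1, ?_⟩
  · intro A hA hAL
    constructor
    · intro hn
      have := h1.normalizer_le_of_normal (inf_centralizer_Op_le (cent_le hloc h1.1)) hA
        (hAL.trans inf_le_left) hn
      rw [le_antisymm this hn, inf_comm]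
    · intro hn
      have := h2.normalizer_le_of_normal (inf_centralizer_Op_le (cent_le hloc h2.1)) hA
        (hAL.trans inf_le_right) hn
      rw [le_antisymm this hn]
  · exact sup_le (hT1.Op_le.trans (le_inf hT1.1 hT2.1)) (hT2.Op_le.trans (le_inf hT1.1 hT2.1))

theorem fin (hloc : Cfsg.IsOfLocalCharacteristic p G) {M1 M2 T : Subgroup G} (h1 : IsMaxLoc p M1)
    (h2 : IsMaxLoc p M2) (hne : M1 ≠ M2) (hT : IsPGroup p T) (hT1 : T ≤ M1) (hT2 : MaxP p T M2) :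
    ∃ L1 L2 : Subgroup G, Good p L1 L2 := by
  by_cases hm : MaxP p T M1
  · exact ⟨M1, M2, pair hloc h1 h2 hne hm hT2⟩
  · obtain ⟨x, hxM, hxN, hxT, hxp⟩ := exists_of_not_maxP hT1 hT hm
    have hx2 : x ∉ M2 := by
      intro hx2
      have := hT2.2.2 _ hxp (sup_le hT2.1 (zpowers_le.2 hx2)) le_sup_left
      apply hxT
      rw [← this]
      exact (le_sup_right : zpowers x ≤ T ⊔ zpowers x) (mem_zpowers x)
    refine ⟨M2, M2.map (MulAut.conj x).toMonoidHom, pair hloc (T := T) h2 (h2.conj x) ?_ hT2 ?_⟩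
    · intro he
      exact hx2 (h2.normalizer_le (mem_normalizer_of_map_conj_eq he.symm))
    · have := hT2.conj x
      rwa [map_conj_eq_of_mem_normalizer hxN] at this

end aux

/-- Two distinct subgroups M₁, M₂ of G form a primitive pair when, for {i, j} = {1, 2}, every non-trivial normal subgroup A of M_i contained in M₁ ∩ M₂ satisfies N_{M_j}(A) = M₁ ∩ M₂; the pair has characteristic p when moreover C_{M_i}(O_p(M_i)) ≤ O_p(M_i) for both i and O_p(M₁)O_p(M₂) ≤ M₁ ∩ M₂. Let G be a finite group, p a prime dividing its order, with O_p(G) = 1 and every p-local subgroup of characteristic p. Then either G has a primitive pair of characteristic p, or every maximal p-local subgroup M of G is strongly p-embedded in G: M is a proper subgroup, p divides its order, and for every g ∉ M the order of M ∩ gMg⁻¹ is prime to p. -/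
theorem result {G : Type*} [Group G] [Finite G] {p : ℕ} [Fact p.Prime] (hloc : Cfsg.IsOfLocalCharacteristic p G) (hOp : Cfsg.pCore p G = ⊥) : (∃ M₁ M₂ : Subgroup G, M₁ ≠ M₂ ∧ (∀ A : Subgroup G, A ≠ ⊥ → A ≤ M₁ ⊓ M₂ → (M₁ ≤ Subgroup.normalizer (A : Set G) → M₂ ⊓ Subgroup.normalizer (A : Set G) = M₁ ⊓ M₂) ∧ (M₂ ≤ Subgroup.normalizer (A : Set G) → M₁ ⊓ Subgroup.normalizer (A : Set G) = M₁ ⊓ M₂)) ∧ Subgroup.centralizer (Cfsg.pCore p ↥M₁ : Set ↥M₁) ≤ Cfsg.pCore p ↥M₁ ∧ Subgroup.centralizer (Cfsg.pCore p ↥M₂ : Set ↥M₂) ≤ Cfsg.pCore p ↥M₂ ∧ (Cfsg.pCore p ↥M₁).map M₁.subtype ⊔ (Cfsg.pCore p ↥M₂).map M₂.subtype ≤ M₁ ⊓ M₂) ∨ (∀ M : Subgroup G, (∃ T : Subgroup G, IsPGroup p T ∧ T ≠ ⊥ ∧ M = Subgroup.normalizer (T : Set G)) → (∀ L : Subgroup G, (∃ T : Subgroup G, IsPGroup p T ∧ T ≠ ⊥ ∧ L = Subgroup.normalizer (T : Set G)) → M ≤ L → L = M) → M ≠ ⊤ ∧ p ∣ Nat.card M ∧ ∀ g : G, g ∉ M → ¬ p ∣ Nat.card ↥(M ⊓ M.map (MulAut.conj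 g).toMonoidHom)) := by
  classical
  by_cases hex : ∃ T M1 M2 : Subgroup G, IsPGroup p T ∧ T ≠ ⊥ ∧ H20.IsMaxLoc p M1 ∧ H20.IsMaxLoc p M2 ∧
      M1 ≠ M2 ∧ T ≤ M1 ∧ T ≤ M2
  · left
    have hfin : ({T : Subgroup G | ∃ M1 M2 : Subgroup G, IsPGroup p T ∧ T ≠ ⊥ ∧ H20.IsMaxLoc p M1 ∧
        H20.IsMaxLoc p M2 ∧ M1 ≠ M2 ∧ T ≤ M1 ∧ T ≤ M2}).Finite := Set.toFinite _
    obtain ⟨T, hTmax⟩ := hfin.exists_maximal hex
    obtain ⟨M1, M2, hT, hT1, h1, h2, hne, hTM1, hTM2⟩ := hTmax.prop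
    have key : ∀ (x : G) (M M' : Subgroup G), H20.IsMaxLoc p M → H20.IsMaxLoc p M' →
        T ⊔ Subgroup.zpowers x ≤ M → T ⊔ Subgroup.zpowers x ≤ M' →
        IsPGroup p (T ⊔ Subgroup.zpowers x : Subgroup G) → x ∉ T → M = M' := by
      intro x M M' hM hM' hle hle' hp hx
      by_contra hMM
      have hmem : (T ⊔ Subgroup.zpowers x) ∈ {T : Subgroup G | ∃ M1 M2 : Subgroup G, IsPGroup p T ∧
          T ≠ ⊥ ∧ H20.IsMaxLoc p M1 ∧ H20.IsMaxLoc p M2 ∧ M1 ≠ M2 ∧ T ≤ M1 ∧ T ≤ M2} := by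
        refine ⟨M, M', hp, ?_, hM, hM', hMM, hle, hle'⟩
        intro h0
        apply hT1
        rw [← le_bot_iff, ← h0]
        exact le_sup_left
      have := hTmax.eq_of_le hmem le_sup_left
      apply hx
      rw [this]
      exact (le_sup_right : Subgroup.zpowers x ≤ T ⊔ Subgroup.zpowers x) (Subgroup.mem_zpowers x)
    obtain ⟨M3, h3, hN3⟩ := H20.IsLoc.exists_le_isMaxLoc (p := p)
      (L := Subgroup.normalizer (T : Set G)) ⟨T, hT, hT1, rfl⟩
    have hor : H20.MaxP p T M1 ∨ H20.MaxP p T M2 := by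
      by_contra hcon
      push Not at hcon
      obtain ⟨x1, hx1M, hx1N, hx1T, hx1p⟩ := H20.exists_of_not_maxP hTM1 hT hcon.1
      obtain ⟨x2, hx2M, hx2N, hx2T, hx2p⟩ := H20.exists_of_not_maxP hTM2 hT hcon.2
      have e1 := key x1 M1 M3 h1 h3 (sup_le hTM1 (Subgroup.zpowers_le.2 hx1M))
        (sup_le (Subgroup.le_normalizer.trans hN3) (Subgroup.zpowers_le.2 (hN3 hx1N))) hx1p hx1T
      have e2 := key x2 M2 M3 h2 h3 (sup_le hTM2 (Subgroup.zpowers_le.2 hx2M))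
        (sup_le (Subgroup.le_normalizer.trans hN3) (Subgroup.zpowers_le.2 (hN3 hx2N))) hx2p hx2T
      exact hne (e1.trans e2.symm)
    rcases hor with hm | hm
    · exact fin hloc h2 h1 hne.symm hT hTM2 hm
    · exact fin hloc h1 h2 hne hT hTM1 hm
  · right
    intro M hM hmax
    have hML : H20.IsMaxLoc p M := ⟨hM, hmax⟩
    obtain ⟨T0, hT0, hT01, hMT⟩ := hM
    have hT0M : T0 ≤ M := hMT ▸ Subgroup.le_normalizer
    refine ⟨?_, ?_, ?_⟩
    · intro htop
      rw [htop] at hMT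
      have hn : T0.Normal := Subgroup.normalizer_eq_top_iff.1 hMT.symm
      have := Cfsg.H1.le_pCore hn hT0
      rw [hOp, le_bot_iff] at this
      exact hT01 this
    · have h1 : p ∣ Nat.card T0 := by
        rcases hT0.card_eq_or_dvd with h | h
        · exact absurd (Subgroup.eq_bot_of_card_eq T0 h) hT01
        · exact h
      exact h1.trans (Subgroup.card_dvd_of_le hT0M)
    · intro g hg hdvd
      obtain ⟨y, hy⟩ := exists_prime_orderOf_dvd_card' p hdvd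
      apply hex
      refine ⟨Subgroup.zpowers (y : G), M, M.map (MulAut.conj g).toMonoidHom, ?_, ?_, hML, hML.conj g,
        ?_, ?_, ?_⟩
      · apply IsPGroup.of_card (n := 1)
        rw [Nat.card_zpowers, Subgroup.orderOf_coe, hy, pow_one]
      · intro h0
        rw [Subgroup.zpowers_eq_bot] at h0
        have : y = 1 := Subtype.ext h0
        rw [this, orderOf_one] at hy
        exact (Fact.out : p.Prime).one_lt.ne hy
      · intro he
        exact hg (hML.normalizer_le (mem_normalizer_of_map_conj_eq he.symm))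
      · exact Subgroup.zpowers_le.2 y.2.1
      · exact Subgroup.zpowers_le.2 y.2.2

end Cfsg.Agent.S3751
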