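import Cfsg.Statements.S3754
import Cfsg.Agent.Lib.Helper13.TwoConj2
import Cfsg.Agent.Lib.Helper13.HHDual
import Cfsg.Agent.H4.PRegClass
import Cfsg.Agent.H20.PSolvHall
import Cfsg.Agent.H1.Small2

set_option autoImplicit false
open Cfsg
open scoped commutatorElement

namespace Cfsg.Agent.S3754

/-- Let M be a finite p-soluble group and A a p-subgroup of M with Φ(A) ≤ O_p(M) but A ≰ O_p(M). Then there is x ∈ O_{p,p'}(M) such that L = ⟨A, xAx⁻¹⟩ satisfies: x ∈ O^p(L) and O^p(L) ≤ O_{p,p'}(M); [O^p(L), A] = O^p(L); A ∩ O_p(L) has index p in A; and [A ∩ O_p(L), L] ≤ O_p(M). Here O^p(L) is the subgroup generated by the p'-elements of L and O_{p,p'}(M) the preimage of O_{p'}(M/O_p(M)). -/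
theorem result {M : Type*} [Group M] [Finite M] {p : ℕ} [Fact p.Prime] (hM : Cfsg.IsPSolvable p M) (A : Subgroup M) (hA : IsPGroup p A) (hΦ : (frattini ↥A).map A.subtype ≤ Cfsg.pCore p M) (hnot : ¬ A ≤ Cfsg.pCore p M) : ∃ x ∈ (Cfsg.pPrimeCore p (M ⧸ Cfsg.pCore p M)).comap (QuotientGroup.mk' (Cfsg.pCore p M)), x ∈ (Cfsg.pResidual p ↥(A ⊔ A.map (MulAut.conj x).toMonoidHom)).map (A ⊔ A.map (MulAut.conj x).toMonoidHom).subtype ∧ (Cfsg.pResidual p ↥(A ⊔ A.map (MulAut.conj x).toMonoidHom)).map (A ⊔ A.map (MulAut.conj x).toMonoidHom).subtype ≤ (Cfsg.pPrimeCore p (M ⧸ Cfsg.pCore p M)).comap (QuotientGroup.mk' (Cfsg.pCore p M)) ∧ ⁅(Cfsg.pResidual p ↥(A ⊔ A.map (MulAut.conj x).toMonoidHom)).map (A ⊔ A.map (MulAut.conj x).toMonoidHom).subtype, A⁆ = (Cfsg.pResidual p ↥(A ⊔ A.map (MulAut.conj x).toMonoidHom)).map (A ⊔ A.map (MulAut.conj x).toMonoidHom).subtype ∧ (A ⊓ (Cfsg.pCore p ↥(A ⊔ A.map (MulAut.conj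 x).toMonoidHom)).map (A ⊔ A.map (MulAut.conj x).toMonoidHom).subtype).relIndex A = p ∧ ⁅A ⊓ (Cfsg.pCore p ↥(A ⊔ A.map (MulAut.conj x).toMonoidHom)).map (A ⊔ A.map (MulAut.conj x).toMonoidHom).subtype, A ⊔ A.map (MulAut.conj x).toMonoidHom⁆ ≤ Cfsg.pCore p M := by
  classical
  have hpp : p.Prime := Fact.out
  have hQp : IsPGroup p (Cfsg.pCore p M) := Cfsg.Agent.Lib.Helper16.pCore_isPGroup
  have hXs : Cfsg.IsPSolvable p (M ⧸ Cfsg.pCore p M) := Cfsg.Agent.H20.isPSolvable_quotient hpp hM _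
  have hXc : Cfsg.pCore p (M ⧸ Cfsg.pCore p M) = ⊥ := Cfsg.Agent.H4.pCore_quotient_pCore p
  have hcent := Cfsg.Agent.Lib.Helper13.centralizer_pPrimeCore_le_of_isPSolvable p hXs hXc
  have hFc : (Nat.card (Cfsg.pPrimeCore p (M ⧸ Cfsg.pCore p M))).Coprime p :=
    Cfsg.Agent.H12.pPrimeCore_coprime p
  have hker : ∀ m : M, QuotientGroup.mk' (Cfsg.pCore p M) m = 1 ↔ m ∈ Cfsg.pCore p M := by
    intro m
    rw [QuotientGroup.mk'_apply, QuotientGroup.eq_one_iff]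
  have hfr := Cfsg.H1.frattini_pgroup_ge p hA
  -- the image of `A` is elementary abelian
  have hcomm : ∀ a ∈ A, ∀ b ∈ A, QuotientGroup.mk' (Cfsg.pCore p M) a * QuotientGroup.mk' (Cfsg.pCore p M) b
      = QuotientGroup.mk' (Cfsg.pCore p M) b * QuotientGroup.mk' (Cfsg.pCore p M) a := by
    intro a ha b hb
    have h1 : ⁅(⟨a, ha⟩ : ↥A), ⟨b, hb⟩⁆ ∈ frattini ↥A :=
      hfr.1 (Subgroup.commutator_mem_commutator (Subgroup.mem_top _) (Subgroup.mem_top _))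
    have h2 : ⁅a, b⁆ ∈ Cfsg.pCore p M := hΦ ⟨_, h1, rfl⟩
    rw [← hker, map_commutatorElement, commutatorElement_eq_one_iff_mul_comm] at h2
    exact h2
  have hE : Cfsg.IsElementaryAbelian p (A.map (QuotientGroup.mk' (Cfsg.pCore p M))) := by
    constructor
    · refine ⟨⟨?_⟩⟩
      rintro ⟨_, a, ha, rfl⟩ ⟨_, b, hb, rfl⟩
      exact Subtype.ext (hcomm a ha b hb)
    · rintro _ ⟨a, ha, rfl⟩
      have h1 := hfr.2 ⟨a, ha⟩
      have h2 : a ^ p ∈ Cfsg.pCore p M := hΦ ⟨_, h1, rfl⟩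
      rw [← map_pow]
      exact (hker _).2 h2
  have hne : A.map (QuotientGroup.mk' (Cfsg.pCore p M)) ≠ ⊥ := by
    intro h
    apply hnot
    rw [Subgroup.map_eq_bot_iff, QuotientGroup.ker_mk'] at h
    exact h
  have hFel : ∀ y ∈ Cfsg.pPrimeCore p (M ⧸ Cfsg.pCore p M), (∃ k : ℕ, y ^ p ^ k = 1) → y = 1 := by
    rintro y hy ⟨k, hk⟩
    have h1 : orderOf y ∣ p ^ k := orderOf_dvd_of_pow_eq_one hk
    have h2 : orderOf y ∣ Nat.card (Cfsg.pPrimeCore p (M ⧸ Cfsg.pCore p M)) := by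
      have := orderOf_dvd_natCard (⟨y, hy⟩ : ↥(Cfsg.pPrimeCore p (M ⧸ Cfsg.pCore p M)))
      rwa [Subgroup.orderOf_mk] at this
    have h3 : orderOf y = 1 := Nat.eq_one_of_dvd_coprimes (Nat.Coprime.pow_right k hFc) h2 h1
    exact orderOf_eq_one_iff.1 h3
  have hnc : ¬ Cfsg.pPrimeCore p (M ⧸ Cfsg.pCore p M) ≤
      Subgroup.centralizer ((A.map (QuotientGroup.mk' (Cfsg.pCore p M)) : Subgroup _) : Set _) := by
    intro h
    apply hne
    rw [eq_bot_iff]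
    intro y hy
    have h1 : y ∈ Cfsg.pPrimeCore p (M ⧸ Cfsg.pCore p M) := hcent (Subgroup.le_centralizer_iff.1 h hy)
    exact hFel y h1 ⟨1, by rw [pow_one]; exact hE.2 y hy⟩
  have hFn : (Cfsg.pPrimeCore p (M ⧸ Cfsg.pCore p M)).Normal := Cfsg.H1.pPrimeCore_normal p
  obtain ⟨B', hB'A, hB'i, hB'c⟩ := Cfsg.Agent.Lib.Helper13.TwoConj.exists_hyperplane p
    (A.map (QuotientGroup.mk' (Cfsg.pCore p M))) (Cfsg.pPrimeCore p (M ⧸ Cfsg.pCore p M)) hE hne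
    (fun h => by
      have := (Nat.Prime.coprime_iff_not_dvd hpp).1 hFc.symm
      exact this h)
    (by rw [Subgroup.normalizer_eq_top]; exact le_top) hnc
  obtain ⟨y, ⟨hyF, hyC⟩, hyA⟩ := SetLike.not_le_iff_exists.1 hB'c
  obtain ⟨x₀, rfl⟩ := QuotientGroup.mk'_surjective _ y
  have hF : ∀ f ∈ (Cfsg.pPrimeCore p (M ⧸ Cfsg.pCore p M)).comap (QuotientGroup.mk' (Cfsg.pCore p M)),
      (∃ k : ℕ, f ^ p ^ k = 1) → f ∈ Cfsg.pCore p M := by
    rintro f hf ⟨k, hk⟩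
    rw [← hker]
    exact hFel _ hf ⟨k, by rw [← map_pow, hk, map_one]⟩
  have hAC : A ≤ (Subgroup.centralizer (B' : Set (M ⧸ Cfsg.pCore p M))).comap
      (QuotientGroup.mk' (Cfsg.pCore p M)) := by
    intro a ha
    rw [Subgroup.mem_comap, Subgroup.mem_centralizer_iff]
    intro b hb
    obtain ⟨b', hb', rfl⟩ := hB'A hb
    exact hcomm b' hb' a ha
  have hx₀ : ¬ IsPGroup p ↥(A ⊔ A.map (MulAut.conj x₀).toMonoidHom) := by
    intro h
    apply hyA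
    rw [Subgroup.mem_centralizer_iff]
    rintro _ ⟨a, ha, rfl⟩
    have h1 : ⁅x₀, a⁆ ∈ A ⊔ A.map (MulAut.conj x₀).toMonoidHom := by
      have e : ⁅x₀, a⁆ = (MulAut.conj x₀).toMonoidHom a * a⁻¹ := by
        simp [commutatorElement_def]
      rw [e]
      exact Subgroup.mul_mem _ (Subgroup.mem_sup_right ⟨a, ha, rfl⟩)
        (Subgroup.mem_sup_left (A.inv_mem ha))
    have h2 : ⁅x₀, a⁆ ∈ (Cfsg.pPrimeCore p (M ⧸ Cfsg.pCore p M)).comap
        (QuotientGroup.mk' (Cfsg.pCore p M)) := by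
      rw [Subgroup.mem_comap, map_commutatorElement]
      have e : ⁅QuotientGroup.mk' (Cfsg.pCore p M) x₀, QuotientGroup.mk' (Cfsg.pCore p M) a⁆ =
          QuotientGroup.mk' (Cfsg.pCore p M) x₀ * (QuotientGroup.mk' (Cfsg.pCore p M) a *
            (QuotientGroup.mk' (Cfsg.pCore p M) x₀)⁻¹ * (QuotientGroup.mk' (Cfsg.pCore p M) a)⁻¹) := by
        simp only [commutatorElement_def]; group
      rw [e]
      exact Subgroup.mul_mem _ hyF (hFn.conj_mem _ (Subgroup.inv_mem _ hyF) _)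
    obtain ⟨k, hk⟩ := h ⟨_, h1⟩
    have h3 := hF _ h2 ⟨k, congrArg Subtype.val hk⟩
    rw [← hker, map_commutatorElement, commutatorElement_eq_one_iff_mul_comm] at h3
    exact h3.symm
  obtain ⟨l, hlF, hlC, hlp, hl, hOpF⟩ := Cfsg.Agent.Lib.Helper13.TwoConj.core1 (Cfsg.pCore p M)
    ((Cfsg.pPrimeCore p (M ⧸ Cfsg.pCore p M)).comap (QuotientGroup.mk' (Cfsg.pCore p M))) A
    ((Subgroup.centralizer (B' : Set (M ⧸ Cfsg.pCore p M))).comap (QuotientGroup.mk' (Cfsg.pCore p M)))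
    hQp hF hA hAC x₀ hyF hyC hx₀
  have hidx : (A ⊓ B'.comap (QuotientGroup.mk' (Cfsg.pCore p M))).relIndex A = p := by
    rw [Subgroup.inf_relIndex_left, Subgroup.relIndex_comap, hB'i]
  have hBC : ⁅A ⊓ B'.comap (QuotientGroup.mk' (Cfsg.pCore p M)),
      (Subgroup.centralizer (B' : Set (M ⧸ Cfsg.pCore p M))).comap
        (QuotientGroup.mk' (Cfsg.pCore p M))⁆ ≤ Cfsg.pCore p M := by
    rw [Subgroup.commutator_le]
    rintro b ⟨-, hb⟩ c hc
    rw [← hker, map_commutatorElement, commutatorElement_eq_one_iff_mul_comm]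
    exact (Subgroup.mem_centralizer_iff.1 hc _ hb)
  have hLC : A ⊔ A.map (MulAut.conj l).toMonoidHom ≤
      (Subgroup.centralizer (B' : Set (M ⧸ Cfsg.pCore p M))).comap
        (QuotientGroup.mk' (Cfsg.pCore p M)) := by
    refine sup_le hAC ?_
    rintro _ ⟨a, ha, rfl⟩
    exact Subgroup.mul_mem _ (Subgroup.mul_mem _ hlC (hAC ha)) (Subgroup.inv_mem _ hlC)
  have h := Cfsg.Agent.Lib.Helper13.TwoConj.core2 (Cfsg.pCore p M) A
    (A ⊓ B'.comap (QuotientGroup.mk' (Cfsg.pCore p M)))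
    ((Subgroup.centralizer (B' : Set (M ⧸ Cfsg.pCore p M))).comap (QuotientGroup.mk' (Cfsg.pCore p M)))
    _ hQp hA inf_le_left hidx hBC l rfl hl hlp hLC
  exact ⟨l, hlF, hl, hOpF, h.1, h.2.1, h.2.2⟩

end Cfsg.Agent.S3754
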