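import Cfsg.Statements.S3755
import Cfsg.Agent.Lib.Helper13.S3Sec
import Cfsg.Agent.H12.Cores

set_option autoImplicit false
open Cfsg

namespace Cfsg.Agent.S3755

/-- Let M and V be subgroups of a finite group with V an elementary abelian 2-group, M normalizing V and acting faithfully on it (M ∩ C(V) = 1), and C_M(O_{2'}(M)) ≤ O_{2'}(M). If some elementary abelian 2-subgroup A of M satisfies |V : C_V(A)| < |A|², then M has a section isomorphic to the symmetric group of degree 3. -/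
theorem result {X : Type*} [Group X] [Finite X] (M V : Subgroup X) (hV : Cfsg.IsElementaryAbelian 2 V) (hMV : M ≤ Subgroup.normalizer (V : Set X)) (hfaith : M ⊓ Subgroup.centralizer (V : Set X) = ⊥) (hcon : Subgroup.centralizer (Cfsg.pPrimeCore 2 ↥M : Set ↥M) ≤ Cfsg.pPrimeCore 2 ↥M) (A : Subgroup X) (hAM : A ≤ M) (hA : Cfsg.IsElementaryAbelian 2 A) (hsmall : (V ⊓ Subgroup.centralizer (A : Set X)).relIndex V < Nat.card A ^ 2) : Cfsg.Involves (Equiv.Perm (Fin 3)) ↥M := by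
  by_contra hS3
  have hn : (Cfsg.pPrimeCore 2 ↥M).Normal := Cfsg.H1.pPrimeCore_normal 2
  have hFM : (Cfsg.pPrimeCore 2 ↥M).map M.subtype ≤ M := Subgroup.map_subtype_le _
  have hMF : M ≤ Subgroup.normalizer (((Cfsg.pPrimeCore 2 ↥M).map M.subtype : Subgroup X) : Set X) := by
    apply Cfsg.Agent.Lib.Helper13.TwoConj.le_normalizer_of_forall'
    rintro l hl _ ⟨w, hw, rfl⟩
    exact ⟨(⟨l, hl⟩ : ↥M) * w * (⟨l, hl⟩ : ↥M)⁻¹, hn.conj_mem w hw _, rfl⟩
  have hFodd : ¬ 2 ∣ Nat.card ((Cfsg.pPrimeCore 2 ↥M).map M.subtype : Subgroup X) := by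
    rw [Subgroup.card_map_of_injective M.subtype_injective]
    have h1 : (Nat.card (Cfsg.pPrimeCore 2 ↥M)).Coprime 2 := Cfsg.Agent.H12.pPrimeCore_coprime 2
    exact (Nat.Prime.coprime_iff_not_dvd Nat.prime_two).1 h1.symm
  have hcon' : M ⊓ Subgroup.centralizer (((Cfsg.pPrimeCore 2 ↥M).map M.subtype : Subgroup X) : Set X) ≤
      (Cfsg.pPrimeCore 2 ↥M).map M.subtype := by
    rintro x ⟨hxM, hxC⟩
    have hxC' : x ∈ Subgroup.centralizer (((Cfsg.pPrimeCore 2 ↥M).map M.subtype : Subgroup X) : Set X) :=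
      hxC
    refine ⟨⟨x, hxM⟩, hcon ?_, rfl⟩
    rw [Subgroup.mem_centralizer_iff]
    intro w hw
    exact Subtype.ext (Subgroup.mem_centralizer_iff.1 hxC' w ⟨w, hw, rfl⟩)
  have h := Cfsg.Agent.Lib.Helper13.S3Sec.main M V _ hV hMV hfaith hFM hMF hFodd hcon' hS3
    (Nat.card A) A rfl hAM hA
  omega

end Cfsg.Agent.S3755
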