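import Cfsg.Statements.S3760
import Cfsg.Agent.H20.Basic

set_option autoImplicit false
open Cfsg

namespace Cfsg.Agent.S3760

open Cfsg.Agent.H20

/-- Let the group G act transitively on a set X, let x ∈ X with stabilizer H = G_x, and let K ≤ H. Then N_G(K) acts transitively on the set of fixed points of K if and only if every G-conjugate of K contained in H is already an H-conjugate of K. -/
theorem result {G : Type*} [Group G] {X : Type*} [MulAction G X] (htrans : ∀ a b : X, ∃ g : G, g • a = b) (x : X) (K : Subgroup G) (hK : K ≤ MulAction.stabilizer G x) : (∀ a b : X, (∀ k ∈ K, k • a = a) → (∀ k ∈ K, k • b = b) → ∃ g ∈ Subgroup.normalizer (K : Set G), g • a = b) ↔ ∀ g : G, K.map (MulAut.conj g).toMonoidHom ≤ MulAction.stabilizer G x → ∃ h ∈ MulAction.stabilizer G x, K.map (MulAut.conj g).toMonoidHom = K.map (MulAut.conj h).toMonoidHom := by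
  constructor
  · intro H g hg
    have h1 : ∀ k ∈ K, k • (g⁻¹ • x) = g⁻¹ • x := by
      intro k hk
      have := hg (conj_mem_conj K g hk)
      rw [MulAction.mem_stabilizer_iff] at this
      calc k • (g⁻¹ • x) = g⁻¹ • ((g * k * g⁻¹) • x) := by simp [smul_smul, mul_assoc]
        _ = g⁻¹ • x := by rw [this]
    have h2 : ∀ k ∈ K, k • x = x := fun k hk => hK hk
    obtain ⟨n, hn, hnx⟩ := H x (g⁻¹ • x) h2 h1
    refine ⟨g * n, ?_, ?_⟩
    · rw [MulAction.mem_stabilizer_iff, mul_smul, hnx, smul_smul, mul_inv_cancel, one_smul]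
    · rw [sconj_mul, (mem_normalizer_iff_conj K n).1 hn]
  · intro H
    have key : ∀ a : X, (∀ k ∈ K, k • a = a) → ∃ n ∈ Subgroup.normalizer (K : Set G), n • x = a := by
      intro a ha
      obtain ⟨g, hg⟩ := htrans a x
      have h1 : K.map (MulAut.conj g).toMonoidHom ≤ MulAction.stabilizer G x := by
        rintro _ ⟨k, hk, rfl⟩
        rw [MulAction.mem_stabilizer_iff]
        simp only [MulEquiv.coe_toMonoidHom, MulAut.conj_apply]
        rw [← hg, smul_smul, inv_mul_cancel_right, mul_smul, ha k hk]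
      obtain ⟨h, hh, heq⟩ := H g h1
      refine ⟨g⁻¹ * h, ?_, ?_⟩
      · rw [mem_normalizer_iff_conj, sconj_mul, ← heq, sconj_inv_conj]
      · rw [mul_smul, MulAction.mem_stabilizer_iff.1 hh, ← hg, smul_smul, inv_mul_cancel, one_smul]
    intro a b ha hb
    obtain ⟨n, hn, hna⟩ := key a ha
    obtain ⟨m, hm, hmb⟩ := key b hb
    refine ⟨m * n⁻¹, mul_mem hm (inv_mem hn), ?_⟩
    rw [← hna, smul_smul, inv_mul_cancel_right, hmb]

end Cfsg.Agent.S3760
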