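import Cfsg.Statements.S3763
import Cfsg.Agent.Tr.ES5

set_option autoImplicit false
open Cfsg

namespace Cfsg.Agent.S3763

open Cfsg.Agent.Tr.E2 in
theorem count' {E : Type*} [Group E] [Finite E] (hE : Cfsg.IsExtraspecial 2 E) (n : ℕ)
    (hn : Nat.card E = 2 ^ (2 * n + 1)) :
    1 ≤ n ∧ (cnt E = 2 ^ (2 * n) + 2 ^ n ∨ cnt E + 2 ^ n = 2 ^ (2 * n)) := by
  obtain ⟨m, hm1, hm, hm'⟩ := extraspecial_count hE
  have e : m = n := by
    have : 2 ^ (2 * m + 1) = 2 ^ (2 * n + 1) := by rw [← hm, hn]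
    have := Nat.pow_right_injective (le_refl 2) this
    omega
  subst e
  exact ⟨hm1, hm'⟩

/-- Let E be an extraspecial 2-group of order 2^(2n+1). Then the largest elementary abelian subgroups of E have order 2^n or 2^(n+1); and two extraspecial 2-groups of the same order whose largest elementary abelian subgroups have the same order are isomorphic. -/
theorem result {E : Type*} [Group E] [Finite E] (hE : Cfsg.IsExtraspecial 2 E) (n : ℕ) (hn : Nat.card E = 2 ^ (2 * n + 1)) : ((Cfsg.PRankLE 2 n E ∧ ¬ Cfsg.PRankLE 2 (n - 1) E) ∨ (Cfsg.PRankLE 2 (n + 1) E ∧ ¬ Cfsg.PRankLE 2 n E)) ∧ ∀ (E' : Type*) [Group E'] [Finite E'], Cfsg.IsExtraspecial 2 E' → Nat.card E' = Nat.card E → (∀ k : ℕ, Cfsg.PRankLE 2 k E ↔ Cfsg.PRankLE 2 k E') → Nonempty (E ≃* E') := by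
  obtain ⟨hn1, hc⟩ := count' hE n hn
  constructor
  · rcases hc with hc | hc
    · exact Or.inr (Cfsg.Agent.Tr.E2.rank_plus hE hn hc)
    · exact Or.inl (Cfsg.Agent.Tr.E2.rank_minus hE hn1 hn hc)
  · intro E' _ _ hE' hcard hrank
    have hn' : Nat.card E' = 2 ^ (2 * n + 1) := hcard.trans hn
    obtain ⟨_, hc'⟩ := count' hE' n hn'
    apply Cfsg.Agent.Tr.E2.extraspecial_iso hE hE' hcard.symm
    rcases hc with hc | hc <;> rcases hc' with hc' | hc'
    · rw [hc, hc']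
    · exact absurd ((hrank n).2 (Cfsg.Agent.Tr.E2.rank_minus hE' hn1 hn' hc').1)
        (Cfsg.Agent.Tr.E2.rank_plus hE hn hc).2
    · exact absurd ((hrank n).1 (Cfsg.Agent.Tr.E2.rank_minus hE hn1 hn hc).1)
        (Cfsg.Agent.Tr.E2.rank_plus hE' hn' hc').2
    · omega

end Cfsg.Agent.S3763
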