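import Cfsg.Statements.S3766
import Cfsg.Agent.H9.Cores
import Cfsg.Agent.Lib.Helper22.Fitting
import Cfsg.Agent.Lib.Helper22.FittingSub

set_option autoImplicit false
open Cfsg

namespace Cfsg.Agent.S3766

open Subgroup Cfsg.Agent.Lib.Helper22

section aux

variable {G : Type*} [Group G]

def Chief (U V : Subgroup G) : Prop :=
  U.Normal ∧ V.Normal ∧ V < U ∧ ∀ W : Subgroup G, W.Normal → V ≤ W → W ≤ U → W = V ∨ W = U

theorem lcs_normal (M : Subgroup G) [hM : M.Normal] (k : ℕ) : (M.lowerCentralSeries k).Normal := by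
  induction k with
  | zero => exact hM
  | succ k ih => rw [Subgroup.lowerCentralSeries_succ]; infer_instance

theorem lcs_mono {M L : Subgroup G} (h : M ≤ L) (k : ℕ) :
    M.lowerCentralSeries k ≤ L.lowerCentralSeries k := by
  induction k with
  | zero => exact h
  | succ k ih => rw [Subgroup.lowerCentralSeries_succ, Subgroup.lowerCentralSeries_succ]; exact commutator_mono ih h

theorem nilpotent_centralizes (M : Subgroup G) [M.Normal] (hM : Group.IsNilpotent M) {U V : Subgroup G}
    (h : Chief U V) : ⁅U, M⁆ ≤ V := by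
  obtain ⟨hU, hV, hlt, hmax⟩ := h
  by_contra hcon
  have hUM : ⁅U, M⁆ ≤ U := commutator_le_left U M
  have hW : ⁅U, M⁆ ⊔ V = U := by
    rcases hmax (⁅U, M⁆ ⊔ V) inferInstance le_sup_right (sup_le hUM hlt.le) with h | h
    · exact absurd (h ▸ le_sup_left) hcon
    · exact h
  have claim : ∀ k, U ≤ M.lowerCentralSeries k ⊔ V := by
    intro k
    induction k with
    | zero =>
      conv_lhs => rw [← hW]
      exact sup_le_sup_right (commutator_le_right U M) V
    | succ k ih =>
      have := lcs_normal M (k + 1)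
      conv_lhs => rw [← hW]
      refine sup_le ?_ le_sup_right
      calc ⁅U, M⁆ ≤ ⁅M.lowerCentralSeries k ⊔ V, M⁆ := commutator_mono ih le_rfl
        _ ≤ M.lowerCentralSeries (k + 1) ⊔ V :=
          sup_commutator_le _ _ _ _ le_sup_left ((commutator_le_left V M).trans le_sup_right)
  obtain ⟨n, hn⟩ := (isNilpotent_iff_lowerCentralSeries M).1 hM
  have := claim n
  rw [hn, bot_sup_eq] at this
  exact absurd this (not_le_of_gt hlt)

theorem exists_chief_below [Finite G] (U : Subgroup G) [hUn : U.Normal] (hU : U ≠ ⊥) :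
    ∃ V, Chief U V := by
  have hfin : ({V : Subgroup G | V.Normal ∧ V < U}).Finite := Set.toFinite _
  obtain ⟨V, hV⟩ := hfin.exists_maximal ⟨⊥, inferInstance, bot_lt_iff_ne_bot.2 hU⟩
  refine ⟨V, hUn, hV.prop.1, hV.prop.2, fun W hW h1 h2 => ?_⟩
  by_cases h : W = U
  · exact Or.inr h
  · exact Or.inl (hV.eq_of_le ⟨hW, lt_of_le_of_ne h2 h⟩ h1).symm

theorem commutator_ne_of_solvable (hG : Group.IsSolvable G) {D : Subgroup G} (hne : D ≠ ⊥) :
    ¬ D ≤ ⁅D, D⁆ := by
  intro h
  have h2 : Group.IsSolvable D := inferInstance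
  have h3 : commutator D = ⊤ := by
    rw [eq_top_iff]
    intro x _
    have := h x.2
    rw [← Subgroup.map_subtype_commutator] at this
    obtain ⟨y, hy, e⟩ := this
    have : y = x := Subtype.ext e
    rwa [← this]
  have h4 : Subsingleton D := by
    by_contra hns
    rw [not_subsingleton_iff_nontrivial] at hns
    exact (Group.IsSolvable.commutator_lt_top_of_nontrivial D).ne h3
  exact hne (Subgroup.eq_bot_of_subsingleton D)

theorem le_of_centralizes [Finite G] (hG : Group.IsSolvable G) (N : Subgroup G) [N.Normal] (n : ℕ) :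
    ∀ D : Subgroup G, Nat.card D = n → D.Normal → D ≤ N →
      (∀ U V, Chief U V → U ≤ Cfsg.fittingSubgroup G ⊓ N → ⁅U, D⁆ ≤ V) →
      D ≤ Cfsg.fittingSubgroup G ⊓ N := by
  induction n using Nat.strong_induction_on with
  | _ n ih =>
  intro D hn hDn hDN hD
  have hFn : (Cfsg.fittingSubgroup G).Normal := fittingSubgroup_normal
  set FN := Cfsg.fittingSubgroup G ⊓ N with hFN
  have hFNn : FN.Normal := inferInstance
  have hFNnil : Group.IsNilpotent FN := by
    obtain ⟨c, hc⟩ := (isNilpotent_iff_lowerCentralSeries _).1 (fittingSubgroup_isNilpotent (G := G))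
    refine (isNilpotent_iff_lowerCentralSeries _).2 ⟨c, ?_⟩
    rw [eq_bot_iff, ← hc]
    exact lcs_mono inf_le_left c
  by_cases hD0 : D = ⊥
  · rw [hD0]; exact bot_le
  have hDD : ⁅D, D⁆ ≤ FN := by
    have hlt : Nat.card (⁅D, D⁆ : Subgroup G) < n := by
      rw [← hn]
      refine lt_of_le_of_ne (Subgroup.card_le_of_le (commutator_le_self D)) (fun hc => ?_)
      have := Subgroup.eq_of_le_of_card_ge (commutator_le_self D) hc.ge
      exact commutator_ne_of_solvable hG hD0 this.ge
    exact ih _ hlt _ rfl inferInstance ((commutator_le_self D).trans hDN)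
      (fun U V hUV hU => (commutator_mono le_rfl (commutator_le_self D)).trans (hD U V hUV hU))
  set L := FN ⊔ D with hL
  have hLn : L.Normal := inferInstance
  have hLL : ⁅L, L⁆ ≤ FN :=
    sup_commutator_le FN FN D L (commutator_le_left FN L)
      (commutator_sup_le FN FN D D (commutator_le_right D FN) hDD)
  have hcent : ∀ U V, Chief U V → U ≤ FN → ⁅U, L⁆ ≤ V := by
    intro U V hUV hU
    have := hUV.2.1
    exact commutator_sup_le V FN D U (nilpotent_centralizes FN hFNnil hUV) (hD U V hUV hU)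
  have claim : ∀ m : ℕ, ∀ U : Subgroup G, Nat.card U = m → U.Normal → U ≤ FN →
      ∃ r : ℕ, ∀ k, L.lowerCentralSeries k ≤ U → L.lowerCentralSeries (k + r) = ⊥ := by
    intro m
    induction m using Nat.strong_induction_on with
    | _ m ihm =>
    intro U hm hUn hU
    by_cases hU0 : U = ⊥
    · exact ⟨0, fun k hk => by rw [add_zero, eq_bot_iff, ← hU0]; exact hk⟩
    · obtain ⟨V, hUV⟩ := exists_chief_below U hU0
      have hlt : Nat.card V < m := by
        rw [← hm]
        refine lt_of_le_of_ne (Subgroup.card_le_of_le hUV.2.2.1.le) (fun hc => ?_)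
        exact hUV.2.2.1.ne (Subgroup.eq_of_le_of_card_ge hUV.2.2.1.le hc.ge)
      obtain ⟨r, hr⟩ := ihm _ hlt V rfl hUV.2.1 (hUV.2.2.1.le.trans hU)
      refine ⟨r + 1, fun k hk => ?_⟩
      have h1 : L.lowerCentralSeries (k + 1) ≤ V := by
        rw [Subgroup.lowerCentralSeries_succ]
        exact (commutator_mono hk le_rfl).trans (hcent U V hUV hU)
      have := hr (k + 1) h1
      rwa [show k + (r + 1) = k + 1 + r by ring]
  obtain ⟨r, hr⟩ := claim _ FN rfl hFNn le_rfl
  have hLnil : Group.IsNilpotent L :=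
    (isNilpotent_iff_lowerCentralSeries _).2 ⟨0 + 1 + r, hr (0 + 1) (by
      rw [Subgroup.lowerCentralSeries_succ, Subgroup.lowerCentralSeries_zero]; exact hLL)⟩
  have h1 : L ≤ Cfsg.fittingSubgroup G := le_fittingSubgroup L hLn hLnil
  have h2 : L ≤ N := sup_le inf_le_right hDN
  exact le_sup_right.trans (le_inf h1 h2)

end aux

/-- Let G be a finite solvable group and N a normal subgroup of G. Call a pair V < U of normal subgroups of G a chief factor of G when no normal subgroup of G lies strictly between them; an element g centralizes the chief factor U/V when u g u⁻¹ g⁻¹ ∈ V for all u ∈ U. Then an element of G lies in the Fitting subgroup F(N) if and only if it lies in N and centralizes every chief factor of G; and also if and only if it lies in N and centralizes every chief factor U/V of G with U ≤ F(N). -/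
theorem result {G : Type*} [Group G] [Finite G] (hG : Group.IsSolvable G) (N : Subgroup G) [N.Normal] (g : G) : (g ∈ (Cfsg.fittingSubgroup ↥N).map N.subtype ↔ g ∈ N ∧ ∀ U V : Subgroup G, (U.Normal ∧ V.Normal ∧ V < U ∧ ∀ W : Subgroup G, W.Normal → V ≤ W → W ≤ U → W = V ∨ W = U) → ∀ u ∈ U, u * g * u⁻¹ * g⁻¹ ∈ V) ∧ (g ∈ (Cfsg.fittingSubgroup ↥N).map N.subtype ↔ g ∈ N ∧ ∀ U V : Subgroup G, (U.Normal ∧ V.Normal ∧ V < U ∧ ∀ W : Subgroup G, W.Normal → V ≤ W → W ≤ U → W = V ∨ W = U) → U ≤ (Cfsg.fittingSubgroup ↥N).map N.subtype → ∀ u ∈ U, u * g * u⁻¹ * g⁻¹ ∈ V) := by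
  have hNsn : N.IsSubnormal := Subgroup.Normal.isSubnormal inferInstance
  rw [Cfsg.H9.map_fitting_subnormal hNsn]
  have hFn : (Cfsg.fittingSubgroup G).Normal := fittingSubgroup_normal
  set FN := Cfsg.fittingSubgroup G ⊓ N with hFN
  have hFNn : FN.Normal := inferInstance
  have hFNnil : Group.IsNilpotent FN := by
    obtain ⟨c, hc⟩ := (isNilpotent_iff_lowerCentralSeries _).1 (fittingSubgroup_isNilpotent (G := G))
    refine (isNilpotent_iff_lowerCentralSeries _).2 ⟨c, ?_⟩
    rw [eq_bot_iff, ← hc]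
    exact lcs_mono inf_le_left c
  have A : g ∈ FN → ∀ U V : Subgroup G, Chief U V → ∀ u ∈ U, u * g * u⁻¹ * g⁻¹ ∈ V := by
    intro hg U V hUV u hu
    exact nilpotent_centralizes FN hFNnil hUV (commutator_mem_commutator hu hg)
  have B : g ∈ N → (∀ U V : Subgroup G, Chief U V → U ≤ FN → ∀ u ∈ U, u * g * u⁻¹ * g⁻¹ ∈ V) →
      g ∈ FN := by
    intro hgN hg
    have hsub : ({g} : Set G) ⊆ normalClosure {g} := subset_normalClosure
    refine le_of_centralizes hG N _ (normalClosure {g}) rfl inferInstance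
      (normalClosure_le_normal (by simpa using hgN)) ?_ (hsub rfl)
    intro U V hUV hU
    have hVn := hUV.2.1
    have hUn := hUV.1
    rw [commutator_comm, commutator_le_iff_map_le_centralizer, map_le_iff_le_comap]
    have hn1 : (U.map (QuotientGroup.mk' V)).Normal :=
      hUn.map _ (QuotientGroup.mk'_surjective V)
    apply normalClosure_le_normal
    intro x hx
    rw [Set.mem_singleton_iff] at hx
    subst hx
    change (QuotientGroup.mk' V) x ∈ centralizer _
    rw [mem_centralizer_iff]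
    rintro _ ⟨u, hu, rfl⟩
    rw [← map_mul, ← map_mul]
    change ((u * x : G) : G ⧸ V) = ((x * u : G) : G ⧸ V)
    rw [QuotientGroup.eq]
    have h1 := hg U V hUV hU u⁻¹ (U.inv_mem hu)
    have h2 := hVn.conj_mem _ h1 x⁻¹
    have e : (u * x)⁻¹ * (x * u) = x⁻¹ * (u⁻¹ * x * u⁻¹⁻¹ * x⁻¹) * x⁻¹⁻¹ := by group
    rw [e]; exact h2
  refine ⟨⟨fun h => ⟨h.2, fun U V hUV => A h U V hUV⟩, fun h => B h.1 (fun U V hUV _ => h.2 U V hUV)⟩,
    ⟨fun h => ⟨h.2, fun U V hUV _ => A h U V hUV⟩, fun h => B h.1 (fun U V hUV hU => h.2 U V hUV hU)⟩⟩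

end Cfsg.Agent.S3766
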