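import Cfsg.Statements.S3768
import Mathlib
import Cfsg.Agent.H4.FrobThm2
import Cfsg.Agent.H1.Frob1

set_option autoImplicit false
open Cfsg

namespace Cfsg.Agent.S3768

open Subgroup Cfsg.Agent.H4

/-- Let G be a finite Frobenius group with Frobenius complement R and Frobenius kernel K (the identity together with the elements in no conjugate of R), and let N be a normal subgroup of G not containing K. Then G/N is a Frobenius group with Frobenius complement RN/N whose Frobenius kernel is the image of K. -/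
theorem result {G : Type*} [Group G] [Finite G] (R : Subgroup G) (hR : Cfsg.IsFrobeniusComplement R) (N : Subgroup G) [N.Normal] (hKN : ¬ Cfsg.frobeniusKernel R ⊆ N) : Cfsg.IsFrobeniusComplement (R.map (QuotientGroup.mk' N)) ∧ Cfsg.frobeniusKernel (R.map (QuotientGroup.mk' N)) = QuotientGroup.mk' N '' Cfsg.frobeniusKernel R := by
  obtain ⟨K, hKs, hKn, hKc⟩ := frobenius_kernel R hR
  have hd : K ⊓ R = ⊥ := hKc.disjoint.eq_bot
  have hKN' : ¬ K ≤ N := by
    intro h
    apply hKN
    rw [← hKs]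
    exact h
  have hNK : N ≤ K := (frob_normal_le_or_le hR K hKc N).resolve_right hKN'
  have hfpf := frob_fpf hR K hd
  set π := QuotientGroup.mk' N with hπ
  have hπs : Function.Surjective π := QuotientGroup.mk'_surjective N
  have hker : ∀ x : G, π x = 1 ↔ x ∈ N := fun x => QuotientGroup.eq_one_iff x
  have hKn' : (K.map π).Normal := hKn.map π hπs
  have hdisj : K.map π ⊓ R.map π = ⊥ := by
    rw [eq_bot_iff]
    rintro _ ⟨⟨k, hk, rfl⟩, ⟨r, hr, hkr⟩⟩
    have h1 : π (k⁻¹ * r) = 1 := by rw [map_mul, map_inv, hkr, inv_mul_cancel]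
    rw [hker] at h1
    have h2 : r ∈ K := by
      have := K.mul_mem hk (hNK h1)
      rwa [mul_inv_cancel_left] at this
    have h3 : r ∈ K ⊓ R := ⟨h2, hr⟩
    rw [hd, mem_bot] at h3
    rw [mem_bot, ← hkr, h3, map_one]
  have hsup : K.map π ⊔ R.map π = ⊤ := by
    rw [← Subgroup.map_sup, hKc.sup_eq_top, ← MonoidHom.range_eq_map, MonoidHom.range_eq_top.mpr hπs]
  have hc : IsComplement' (K.map π) (R.map π) := by
    apply isComplement'_of_disjoint_and_mul_eq_univ (disjoint_iff.mpr hdisj)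
    rw [← normal_mul, hsup, coe_top]
  have hK0 : K.map π ≠ ⊥ := by
    intro h
    apply hKN'
    intro k hk
    rw [← hker]
    have : π k ∈ K.map π := mem_map_of_mem π hk
    rwa [h, mem_bot] at this
  have hR0 : R.map π ≠ ⊥ := by
    intro h
    apply hR.1
    rw [eq_bot_iff]
    intro r hr
    have h1 : π r ∈ R.map π := mem_map_of_mem π hr
    rw [h, mem_bot, hker] at h1
    have h3 : r ∈ K ⊓ R := ⟨hNK h1, hr⟩
    rwa [hd] at h3
  have hF : Cfsg.IsFrobeniusComplement (R.map π) := by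
    rw [Cfsg.H1.frob_iff_fpf (K.map π) (R.map π) hc hK0 hR0]
    rintro _ ⟨r, hr, rfl⟩ hr1
    have hr1' : r ≠ 1 := by
      rintro rfl
      exact hr1 (map_one π)
    rw [eq_bot_iff]
    rintro _ ⟨⟨k, hk, rfl⟩, hcomm⟩
    have hcomm' : π r * π k = π k * π r := (mem_centralizer_singleton_iff.mp hcomm).symm
    have hcN : k⁻¹ * r * k * r⁻¹ ∈ N := by
      rw [← hker, map_mul, map_mul, map_mul, map_inv, map_inv, mul_assoc (π k)⁻¹, hcomm']
      group
    obtain ⟨u, hu, hu'⟩ := Cfsg.Agent.CharLib.H2.frob_exists_conj N R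
      (fun h hh h1 k hk => hfpf h hh h1 k (hNK hk)) hr hr1' hcN
    have h1 : k⁻¹ * r * k = u⁻¹ * r * u := by
      rw [← hu']; group
    have h2 : r * (k * u⁻¹) = (k * u⁻¹) * r := by
      calc r * (k * u⁻¹) = k * (k⁻¹ * r * k) * u⁻¹ := by group
        _ = k * (u⁻¹ * r * u) * u⁻¹ := by rw [h1]
        _ = (k * u⁻¹) * r := by group
    have h3 := hfpf r hr hr1' _ (K.mul_mem hk (K.inv_mem (hNK hu))) h2
    have h4 : k = u := mul_inv_eq_one.mp h3
    rw [mem_bot, hker, h4]
    exact hu
  refine ⟨hF, ?_⟩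
  rw [← coe_eq_frobeniusKernel hF (K.map π) hc, ← hKs, coe_map]

end Cfsg.Agent.S3768
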