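import Cfsg.Statements.S3772
import Mathlib
-- import your own Cfsg.Agent.* helpers here
import Cfsg.Agent.H1.Small2

set_option autoImplicit false
open Cfsg

namespace Cfsg.Agent.S3772


open Subgroup
open scoped commutatorElement

section aux
variable {G : Type*} [Group G]

open Classical in
noncomputable def eps (g : G) : ℤ := if g = 1 then 1 else -1

theorem eps_one : eps (1 : G) = 1 := by simp [eps]
theorem eps_of_ne {g : G} (h : g ≠ 1) : eps g = -1 := by simp [eps, h]

theorem sq_of_card_two {Φ : Subgroup G} (hΦ : Nat.card Φ = 2) {a : G} (ha : a ∈ Φ) : a * a = 1 := by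
  have h := pow_card_eq_one' (G := Φ) (x := ⟨a, ha⟩)
  rw [hΦ] at h
  have h2 := congrArg Subtype.val h
  simpa [pow_two] using h2

theorem eq_of_card_two {Φ : Subgroup G} (hΦ : Nat.card Φ = 2) {a b : G} (ha : a ∈ Φ) (hb : b ∈ Φ)
    (ha1 : a ≠ 1) (hb1 : b ≠ 1) : a = b := by
  obtain ⟨z, hz1, hz⟩ := (Nat.card_eq_two_iff' (1 : Φ)).1 hΦ
  have haz : (⟨a, ha⟩ : Φ) = z := hz _ (by simpa [Subtype.ext_iff] using ha1)
  have hbz : (⟨b, hb⟩ : Φ) = z := hz _ (by simpa [Subtype.ext_iff] using hb1)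
  have := haz.trans hbz.symm
  simpa using this

theorem eps_mul {Φ : Subgroup G} (hΦ : Nat.card Φ = 2) {a b : G} (ha : a ∈ Φ) (hb : b ∈ Φ) :
    eps (a * b) = eps a * eps b := by
  by_cases ha1 : a = 1
  · subst ha1; simp [eps_one]
  by_cases hb1 : b = 1
  · subst hb1; simp [eps_one]
  have hab : a = b := eq_of_card_two hΦ ha hb ha1 hb1
  rw [← hab, sq_of_card_two hΦ ha, eps_one, eps_of_ne ha1]; norm_num

theorem le_center_of_card_two {Φ : Subgroup G} [hn : Φ.Normal] (hΦ : Nat.card Φ = 2) :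
    Φ ≤ center G := by
  intro a ha
  rw [mem_center_iff]
  intro g
  by_cases ha1 : a = 1
  · subst ha1; simp
  have hc : g * a * g⁻¹ ∈ Φ := hn.conj_mem a ha g
  have hc1 : g * a * g⁻¹ ≠ 1 := by
    intro h
    apply ha1
    have : g * a = g := by simpa [mul_inv_eq_one] using h
    simpa using this
  have := eq_of_card_two hΦ hc ha hc1 ha1
  exact mul_inv_eq_iff_eq_mul.1 this

theorem sum_eq_zero_of_neg {H : Type*} [Group H] [Fintype H] (f : H → ℤ) (g0 : H)
    (h : ∀ x, f (g0 * x) = - f x) : ∑ x, f x = 0 := by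
  have h1 : ∑ x, f (g0 * x) = ∑ x, f x := Fintype.sum_equiv (Equiv.mulLeft g0) _ _ (fun x => rfl)
  rw [Finset.sum_congr rfl (fun x _ => h x), Finset.sum_neg_distrib] at h1
  linarith

theorem key [Fintype G] (hG : IsPGroup 2 G) (hΦ : Nat.card (frattini G) = 2) :
    (∑ x : G, eps (x ^ 2)) * (∑ x : G, eps (x ^ 2)) = 0 ∨
    ((∑ x : G, eps (x ^ 2)) * (∑ x : G, eps (x ^ 2)) = (Nat.card G : ℤ) * (Nat.card (center G) : ℤ) ∧
      ∀ w ∈ center G, w ^ 2 = 1) := by
  classical
  haveI : Fact (Nat.Prime 2) := ⟨Nat.prime_two⟩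
  obtain ⟨hcomm, hpow⟩ := Cfsg.H1.frattini_pgroup_ge 2 hG
  have hcen : frattini G ≤ center G := le_center_of_card_two hΦ
  have hc : ∀ x w : G, x⁻¹ * w * x * w⁻¹ ∈ frattini G := by
    intro x w
    have : ⁅x⁻¹, w⁆ ∈ commutator G := commutator_mem_commutator (mem_top _) (mem_top _)
    have h2 := hcomm this
    rwa [commutatorElement_def, inv_inv] at h2
  have hid : ∀ x w : G, eps (x ^ 2) * eps ((x * w) ^ 2) = eps (w ^ 2) * eps (x⁻¹ * w * x * w⁻¹) := by
    intro x w
    rw [← eps_mul hΦ (hpow x) (hpow _), mul_comm, ← eps_mul hΦ (hc x w) (hpow w)]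
    congr 1
    have h4 : x ^ 4 = 1 := by
      have := sq_of_card_two hΦ (hpow x)
      rw [← this]; group
    have : x ^ 2 * (x * w) ^ 2 = x ^ 4 * (x⁻¹ * w * x * w⁻¹ * w ^ 2) := by
      simp only [pow_succ, pow_zero, one_mul]; group
    rw [this, h4, one_mul]
  have hmul : ∀ w x y : G, eps ((x * y)⁻¹ * w * (x * y) * w⁻¹)
      = eps (x⁻¹ * w * x * w⁻¹) * eps (y⁻¹ * w * y * w⁻¹) := by
    intro w x y
    rw [← eps_mul hΦ (hc x w) (hc y w)]
    congr 1
    have h1 := (mem_center_iff.1 (hcen (hc x w))) y⁻¹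
    calc (x * y)⁻¹ * w * (x * y) * w⁻¹ = y⁻¹ * (x⁻¹ * w * x * w⁻¹) * (w * y * w⁻¹) := by group
      _ = (x⁻¹ * w * x * w⁻¹) * y⁻¹ * (w * y * w⁻¹) := by rw [h1]
      _ = _ := by group
  have hinner : ∀ w : G, ∑ x : G, eps (x⁻¹ * w * x * w⁻¹)
      = if w ∈ center G then (Nat.card G : ℤ) else 0 := by
    intro w
    split_ifs with hw
    · have : ∀ x : G, eps (x⁻¹ * w * x * w⁻¹) = 1 := by
        intro x
        have h1 := (mem_center_iff.1 hw) x
        have : x⁻¹ * w * x * w⁻¹ = 1 := by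
          calc x⁻¹ * w * x * w⁻¹ = x⁻¹ * (w * x) * w⁻¹ := by group
            _ = x⁻¹ * (x * w) * w⁻¹ := by rw [h1]
            _ = 1 := by group
        rw [this, eps_one]
      simp [this, Nat.card_eq_fintype_card]
    · rw [mem_center_iff] at hw
      push_neg at hw
      obtain ⟨g, hg⟩ := hw
      apply sum_eq_zero_of_neg _ g
      intro x
      rw [hmul w g x]
      have : g⁻¹ * w * g * w⁻¹ ≠ 1 := by
        intro h
        apply hg
        have h2 : g⁻¹ * w * g = w := by simpa [mul_inv_eq_one] using h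
        calc g * w = g * (g⁻¹ * w * g) := by rw [h2]
          _ = w * g := by group
      rw [eps_of_ne this]; ring
  have hSS : (∑ x : G, eps (x ^ 2)) * (∑ x : G, eps (x ^ 2))
      = (Nat.card G : ℤ) * ∑ w : G, (if w ∈ center G then eps (w ^ 2) else 0) := by
    rw [Finset.sum_mul_sum]
    have h1 : ∀ x : G, ∑ y : G, eps (x ^ 2) * eps (y ^ 2)
        = ∑ w : G, eps (w ^ 2) * eps (x⁻¹ * w * x * w⁻¹) := by
      intro x
      rw [← Fintype.sum_equiv (Equiv.mulLeft x) (fun w => eps (x ^ 2) * eps ((x * w) ^ 2))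
        (fun y => eps (x ^ 2) * eps (y ^ 2)) (fun w => rfl)]
      exact Finset.sum_congr rfl (fun w _ => hid x w)
    rw [Finset.sum_congr rfl (fun x _ => h1 x), Finset.sum_comm, Finset.mul_sum]
    apply Finset.sum_congr rfl
    intro w _
    rw [← Finset.mul_sum, hinner w]
    split_ifs <;> ring
  by_cases hall : ∀ w ∈ center G, w ^ 2 = 1
  · right
    refine ⟨?_, hall⟩
    rw [hSS]
    congr 1
    have : ∀ w : G, (if w ∈ center G then eps (w ^ 2) else 0) = if w ∈ center G then (1 : ℤ) else 0 := by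
      intro w
      split_ifs with hw
      · rw [hall w hw, eps_one]
      · rfl
    rw [Finset.sum_congr rfl (fun w _ => this w), Finset.sum_boole, Nat.card_eq_fintype_card,
      Fintype.card_subtype]
  · left
    push_neg at hall
    obtain ⟨w0, hw0, hw0'⟩ := hall
    rw [hSS]
    have : ∑ w : G, (if w ∈ center G then eps (w ^ 2) else 0) = 0 := by
      apply sum_eq_zero_of_neg _ w0
      intro w
      have hiff : w0 * w ∈ center G ↔ w ∈ center G := (center G).mul_mem_cancel_left hw0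
      by_cases hw : w ∈ center G
      · rw [if_pos (hiff.2 hw), if_pos hw]
        have h1 := (mem_center_iff.1 hw0) w
        have : (w0 * w) ^ 2 = w0 ^ 2 * w ^ 2 := by
          calc (w0 * w) ^ 2 = w0 * (w * w0) * w := by simp only [pow_two]; group
            _ = w0 * (w0 * w) * w := by rw [h1]
            _ = _ := by simp only [pow_two]; group
        rw [this, eps_mul hΦ (hpow _) (hpow _), eps_of_ne hw0']; ring
      · rw [if_neg (fun h => hw (hiff.1 h)), if_neg hw]; simp
    rw [this, mul_zero]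

theorem sum_eps [Fintype G] :
    (∑ x : G, eps (x ^ 2)) = 2 * (Nat.card {x : G // x ^ 2 = 1} : ℤ) - (Nat.card G : ℤ) := by
  classical
  have : ∀ x : G, eps (x ^ 2) = 2 * (if x ^ 2 = 1 then (1 : ℤ) else 0) - 1 := by
    intro x
    unfold eps
    split_ifs <;> norm_num
  rw [Finset.sum_congr rfl (fun x _ => this x), Finset.sum_sub_distrib, ← Finset.mul_sum,
    Finset.sum_boole, Nat.card_eq_fintype_card, Nat.card_eq_fintype_card, Fintype.card_subtype]
  simp

end aux

theorem arith (J d k : ℕ) (hk1 : 1 ≤ k)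
    (h : (2 * (J : ℤ) - 2 ^ (d + 1)) * (2 * (J : ℤ) - 2 ^ (d + 1)) = 2 ^ (d + 1) * 2 ^ k) :
    ∃ t : ℕ, 2 * t + 1 = d + k ∧ (J = 2 ^ d + 2 ^ t ∨ J + 2 ^ t = 2 ^ d) := by
  obtain ⟨k', rfl⟩ : ∃ k', k = k' + 1 := ⟨k - 1, by omega⟩
  have h1 : ((J : ℤ) - 2 ^ d) * ((J : ℤ) - 2 ^ d) = 2 ^ (d + k') := by
    have e1 : (2 : ℤ) ^ (d + 1) = 2 * 2 ^ d := by ring
    have e2 : (2 : ℤ) ^ (k' + 1) = 2 * 2 ^ k' := by ring
    have e3 : (2 : ℤ) ^ (d + k') = 2 ^ d * 2 ^ k' := by ring
    rw [e1, e2] at h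
    rw [e3]
    nlinarith
  have h2 : ((J : ℤ) - 2 ^ d).natAbs * ((J : ℤ) - 2 ^ d).natAbs = 2 ^ (d + k') := by
    zify
    rw [← abs_mul, h1, abs_of_pos (by positivity)]
  obtain ⟨t, -, ht⟩ := (Nat.dvd_prime_pow Nat.prime_two).1 (Dvd.intro _ h2)
  rw [ht, ← pow_add] at h2
  have h3 : t + t = d + k' := Nat.pow_right_injective (le_refl 2) h2
  refine ⟨t, by omega, ?_⟩
  rcases Int.natAbs_eq ((J : ℤ) - 2 ^ d) with h4 | h4
  · left
    rw [ht] at h4
    push_cast at h4
    have : (J : ℤ) = 2 ^ d + 2 ^ t := by linarith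
    exact_mod_cast this
  · right
    rw [ht] at h4
    push_cast at h4
    have : (J : ℤ) + 2 ^ t = 2 ^ d := by linarith
    exact_mod_cast this


/-- Let G be a finite 2-group whose Frattini subgroup Φ(G) has order 2, with |G : Φ(G)| = 2^d, and let j be the number of elements x of G with x² = 1. Then j = 2^d, or j = 2^d + 2^(d−r) or j = 2^d − 2^(d−r) for some positive integer r with 2r ≤ d. Moreover if d = 2r and j is 2^d + 2^r or 2^d − 2^r, then G is extraspecial. -/
theorem result {G : Type*} [Group G] [Finite G] (hG : IsPGroup 2 G) (hΦ : Nat.card (frattini G) = 2) (d : ℕ) (hd : (frattini G).index = 2 ^ d) : (Nat.card {x : G // x ^ 2 = 1} = 2 ^ d ∨ ∃ r : ℕ, 1 ≤ r ∧ 2 * r ≤ d ∧ (Nat.card {x : G // x ^ 2 = 1} = 2 ^ d + 2 ^ (d - r) ∨ Nat.card {x : G // x ^ 2 = 1} + 2 ^ (d - r) = 2 ^ d)) ∧ (∀ r : ℕ, d = 2 * r → (Nat.card {x : G // x ^ 2 = 1} = 2 ^ d + 2 ^ r ∨ Nat.card {x : G // x ^ 2 = 1} + 2 ^ r = 2 ^ d) → Cfsg.IsExtraspecial 2 G) := by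
  classical
  haveI : Fact (Nat.Prime 2) := ⟨Nat.prime_two⟩
  haveI := Fintype.ofFinite G
  have hcardG : Nat.card G = 2 ^ (d + 1) := by
    rw [← (frattini G).card_mul_index, hΦ, hd, pow_succ]; ring
  have hS := sum_eps (G := G)
  have hcenle : frattini G ≤ Subgroup.center G := le_center_of_card_two hΦ
  obtain ⟨k, hk⟩ := (hG.to_subgroup (Subgroup.center G)).exists_card_eq
  have hk1 : 1 ≤ k := by
    have h1 := Subgroup.card_dvd_of_le hcenle
    rw [hΦ, hk] at h1
    rcases Nat.eq_zero_or_pos k with rfl | h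
    · simp at h1
    · exact h
  have hkey := key hG hΦ
  rw [hS, hcardG, hk] at hkey
  push_cast at hkey
  generalize Nat.card {x : G // x ^ 2 = 1} = J at hkey ⊢
  constructor
  · rcases hkey with h0 | ⟨h1, hall⟩
    · left
      have : 2 * (J : ℤ) - 2 ^ (d + 1) = 0 := mul_self_eq_zero.1 h0
      have e1 : (2 : ℤ) ^ (d + 1) = 2 * 2 ^ d := by ring
      have : (J : ℤ) = 2 ^ d := by linarith
      exact_mod_cast this
    · right
      obtain ⟨t, ht, hJ⟩ := arith J d k hk1 h1
      have hkd : k ≤ d := by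
        by_contra hcon
        have hle : 2 ^ k ≤ 2 ^ (d + 1) := by
          rw [← hk, ← hcardG]; exact Subgroup.card_le_card_group _
        have hk2 : k ≤ d + 1 := (Nat.pow_le_pow_iff_right (by norm_num)).1 hle
        have hkeq : k = d + 1 := by omega
        have htop : Subgroup.center G = ⊤ := by
          apply Subgroup.eq_top_of_card_eq
          rw [hk, hcardG, hkeq]
        have hfr : frattini G ≤ ⊥ := by
          apply Cfsg.H1.frattini_pgroup_le 2 ⊥
          · rw [commutator_def, Subgroup.commutator_le]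
            intro a _ b _
            rw [Subgroup.mem_bot, commutatorElement_eq_one_iff_mul_comm]
            have : b ∈ Subgroup.center G := by rw [htop]; trivial
            exact (Subgroup.mem_center_iff.1 this a)
          · intro x
            rw [Subgroup.mem_bot]
            exact hall x (by rw [htop]; trivial)
        rw [le_bot_iff] at hfr
        rw [hfr] at hΦ
        simp at hΦ
      refine ⟨d - t, by omega, by omega, ?_⟩
      have : d - (d - t) = t := by omega
      rw [this]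
      exact hJ
  · intro r hr hJ
    have hk' : k = 1 := by
      rcases hkey with h0 | ⟨h1, -⟩
      · exfalso
        have : 2 * (J : ℤ) - 2 ^ (d + 1) = 0 := mul_self_eq_zero.1 h0
        have e1 : (2 : ℤ) ^ (d + 1) = 2 * 2 ^ d := by ring
        have h2 : (J : ℤ) = 2 ^ d := by linarith
        have h3 : J = 2 ^ d := by exact_mod_cast h2
        have : 0 < 2 ^ r := by positivity
        omega
      · obtain ⟨t, ht, hJ'⟩ := arith J d k hk1 h1
        have hp1 : 0 < 2 ^ t := by positivity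
        have hp2 : 0 < 2 ^ r := by positivity
        have htr : 2 ^ t = 2 ^ r := by omega
        have : t = r := Nat.pow_right_injective (le_refl 2) htr
        omega
    rw [hk', pow_one] at hk
    have hfc : frattini G = Subgroup.center G :=
      Subgroup.eq_of_le_of_card_ge hcenle (by rw [hk, hΦ])
    refine ⟨⟨hG, hfc, ?_⟩, hk⟩
    obtain ⟨hcomm, -⟩ := Cfsg.H1.frattini_pgroup_ge 2 hG
    apply Subgroup.eq_of_le_of_card_ge (hfc ▸ hcomm)
    rw [hk]
    have hne : commutator G ≠ ⊥ := by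
      intro hbot
      have htop : Subgroup.center G = ⊤ := by
        rw [eq_top_iff]
        intro a _
        rw [Subgroup.mem_center_iff]
        intro g
        have : ⁅g, a⁆ ∈ commutator G :=
          Subgroup.commutator_mem_commutator (Subgroup.mem_top _) (Subgroup.mem_top _)
        rw [hbot, Subgroup.mem_bot, commutatorElement_eq_one_iff_mul_comm] at this
        exact this
      have h1 : frattini G = ⊤ := hfc.trans htop
      have h2 : (⊥ : Subgroup G) = ⊤ := frattini_nongenerating (by rw [h1]; simp)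
      rw [h1, ← h2] at hΦ
      simp at hΦ
    have h1 : 1 < Nat.card (commutator G) := by
      rw [Subgroup.one_lt_card_iff_ne_bot]; exact hne
    omega

end Cfsg.Agent.S3772
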