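import Cfsg.Statements.S3774
import Mathlib
-- import your own Cfsg.Agent.* helpers here

set_option autoImplicit false
open Cfsg

namespace Cfsg.Agent.S3774

/-- Let G be a nontrivial finite 2-group whose automorphism group permutes the involutions of G transitively. Then every involution of G is central, so that the involutions together with 1 form the subgroup Ω₁(Z(G)), and if this subgroup has order q then |G| is a power of q. -/
theorem result {G : Type*} [Group G] [Finite G] [Nontrivial G] (hG : IsPGroup 2 G) (htrans : ∀ x y : G, x ≠ 1 → x ^ 2 = 1 → y ≠ 1 → y ^ 2 = 1 → ∃ a : MulAut G, a x = y) : (∀ x : G, x ^ 2 = 1 → x ∈ Subgroup.center G) ∧ ∃ m : ℕ, Nat.card G = Nat.card {z : G // z ^ 2 = 1} ^ m := by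
  classical
  haveI : Fact (Nat.Prime 2) := ⟨Nat.prime_two⟩
  haveI := Fintype.ofFinite G
  -- a central involution
  obtain ⟨z0, hz0c, hz0⟩ : ∃ z0 : G, z0 ∈ Subgroup.center G ∧ orderOf z0 = 2 := by
    haveI := hG.center_nontrivial
    obtain ⟨k, hk⟩ := (hG.to_subgroup (Subgroup.center G)).exists_card_eq
    have h1 : 1 < Nat.card (Subgroup.center G) := Finite.one_lt_card
    have hk0 : k ≠ 0 := by
      rintro rfl
      rw [hk] at h1
      simp at h1
    have hd : 2 ∣ Nat.card (Subgroup.center G) := by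
      rw [hk]; exact dvd_pow_self 2 hk0
    obtain ⟨z, hz⟩ := exists_prime_orderOf_dvd_card' 2 hd
    exact ⟨z.1, z.2, by rw [Subgroup.orderOf_coe]; exact hz⟩
  have hz01 : z0 ≠ 1 := by
    rintro rfl
    rw [orderOf_one] at hz0
    omega
  have hz02 : z0 ^ 2 = 1 := by rw [← hz0]; exact pow_orderOf_eq_one z0
  have hcent : ∀ x : G, x ^ 2 = 1 → x ∈ Subgroup.center G := by
    intro x hx
    by_cases hx1 : x = 1
    · rw [hx1]; exact Subgroup.one_mem _
    obtain ⟨a, rfl⟩ := htrans z0 x hz01 hz02 hx1 hx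
    rw [Subgroup.mem_center_iff] at hz0c ⊢
    intro g
    have := congrArg a (hz0c (a.symm g))
    simpa using this
  refine ⟨hcent, ?_⟩
  -- the subgroup of elements of order ≤ 2
  let Ω : Subgroup G :=
    { carrier := {z | z ^ 2 = 1}
      mul_mem' := by
        intro x y hx hy
        have hc : Commute x y := by
          have := (Subgroup.mem_center_iff.1 (hcent x hx)) y
          exact this.symm
        show (x * y) ^ 2 = 1
        rw [hc.mul_pow, show x ^ 2 = 1 from hx, show y ^ 2 = 1 from hy, one_mul]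
      one_mem' := by simp
      inv_mem' := by
        intro x hx
        show (x⁻¹) ^ 2 = 1
        rw [inv_pow, show x ^ 2 = 1 from hx, inv_one] }
  have hΩcard : Nat.card {z : G // z ^ 2 = 1} = Nat.card Ω := rfl
  obtain ⟨r, hr⟩ := (hG.to_subgroup Ω).exists_card_eq
  obtain ⟨n, hn⟩ := hG.exists_card_eq
  rw [hΩcard, hr, hn]
  set A : Finset G := Finset.univ.filter (fun x => x ≠ 1) with hA
  set B : Finset G := Finset.univ.filter (fun z => z ≠ 1 ∧ z ^ 2 = 1) with hB
  let f : G → G := fun x => x ^ (orderOf x / 2)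
  have hAcard : A.card = 2 ^ n - 1 := by
    rw [hA, Finset.filter_ne', Finset.card_erase_of_mem (Finset.mem_univ _), Finset.card_univ,
      ← Nat.card_eq_fintype_card, hn]
  have hBcard : B.card = 2 ^ r - 1 := by
    have h1 : B = (Finset.univ.filter (fun z : G => z ^ 2 = 1)).erase 1 := by
      ext z
      simp [hB]
    rw [h1, Finset.card_erase_of_mem (by simp), ← hr, ← hΩcard, Nat.card_eq_fintype_card,
      Fintype.card_subtype]
  have hmaps : ∀ x ∈ A, f x ∈ B := by
    intro x hx
    have hx1 : x ≠ 1 := (Finset.mem_filter.1 hx).2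
    obtain ⟨c, hc⟩ := hG.dvd_orderOf hx1
    have hpos : 0 < orderOf x := orderOf_pos x
    have hdiv : orderOf x / 2 = c := by omega
    rw [hB, Finset.mem_filter]
    refine ⟨Finset.mem_univ _, ?_, ?_⟩
    · show x ^ (orderOf x / 2) ≠ 1
      apply pow_ne_one_of_lt_orderOf
      · omega
      · omega
    · show (x ^ (orderOf x / 2)) ^ 2 = 1
      rw [← pow_mul, hdiv, mul_comm, ← hc, pow_orderOf_eq_one]
  have hle : ∀ z ∈ B, ∀ z' ∈ B, (A.filter (fun x => f x = z)).card ≤ (A.filter (fun x => f x = z')).card := by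
    intro z hz z' hz'
    rw [hB, Finset.mem_filter] at hz hz'
    obtain ⟨a, ha⟩ := htrans z z' hz.2.1 hz.2.2 hz'.2.1 hz'.2.2
    apply Finset.card_le_card_of_injOn (fun x => a x)
    · intro x hx
      simp only [Finset.coe_filter, Set.mem_ofPred_eq, hA, Finset.mem_filter, Finset.mem_univ,
        true_and] at hx ⊢
      refine ⟨?_, ?_⟩
      · intro h
        apply hx.1
        exact a.injective (by rw [h, map_one])
      · show (a x) ^ (orderOf (a x) / 2) = z'
        rw [MulEquiv.orderOf_eq, ← map_pow, ← ha]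
        exact congrArg a hx.2
    · intro x _ y _ hxy
      exact a.injective hxy
  have hz0B : z0 ∈ B := by
    rw [hB, Finset.mem_filter]
    exact ⟨Finset.mem_univ _, hz01, hz02⟩
  have hsum := Finset.card_eq_sum_card_fiberwise hmaps
  have hconst : ∑ b ∈ B, (A.filter (fun x => f x = b)).card
      = B.card * (A.filter (fun x => f x = z0)).card := by
    apply Finset.sum_const_nat
    intro b hb
    exact le_antisymm (hle b hb z0 hz0B) (hle z0 hz0B b hb)
  rw [hconst, hAcard, hBcard] at hsum
  have hdvd : 2 ^ r - 1 ∣ 2 ^ n - 1 := ⟨_, hsum⟩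
  have hg := Nat.pow_sub_one_gcd_pow_sub_one 2 r n
  rw [Nat.gcd_eq_left hdvd] at hg
  have h2 : 2 ^ r = 2 ^ (Nat.gcd r n) := by
    have h3 : 0 < 2 ^ r := by positivity
    have h4 : 0 < 2 ^ (Nat.gcd r n) := by positivity
    omega
  have h5 : r = Nat.gcd r n := Nat.pow_right_injective (le_refl 2) h2
  obtain ⟨m, hm⟩ : r ∣ n := by rw [h5]; exact Nat.gcd_dvd_right r n
  exact ⟨m, by rw [← pow_mul, ← hm]⟩

end Cfsg.Agent.S3774
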