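import Cfsg.Statements.S3781
import Cfsg.Agent.Lib.Helper22.Commutator
import Cfsg.Agent.H20.PGroup3

set_option autoImplicit false
open Cfsg

namespace Cfsg.Agent.S3781

section aux
open Subgroup
variable {G : Type*} [Group G]

/-- iterated commutator with the whole group -/
def Cc (A : Subgroup G) : ℕ → Subgroup G
  | 0 => A
  | j + 1 => ⁅Cc A j, ⊤⁆

theorem Cc_normal (A : Subgroup G) [hA : A.Normal] : ∀ j, (Cc A j).Normal
  | 0 => hA
  | j + 1 => by
    have := Cc_normal A j
    exact commutator_normal _ _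

theorem Cc_comm (A : Subgroup G) : ∀ j, Cc ⁅A, ⊤⁆ j = Cc A (j + 1)
  | 0 => rfl
  | j + 1 => by
    show ⁅Cc ⁅A, ⊤⁆ j, ⊤⁆ = ⁅Cc A (j + 1), ⊤⁆
    rw [Cc_comm A j]

theorem Cc_succ_le (A : Subgroup G) [A.Normal] (j : ℕ) : Cc A (j + 1) ≤ Cc A j := by
  have := Cc_normal A j
  exact commutator_le_left _ _

theorem comm_lcs_le (m : ℕ) : ∀ (A : Subgroup G) [A.Normal],
    ⁅A, (⊤ : Subgroup G).lowerCentralSeries m⁆ ≤ Cc A (m + 1) := by
  induction m with
  | zero => intro A _; exact le_rfl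
  | succ m ih =>
    intro A _
    rw [Subgroup.lowerCentralSeries_succ, commutator_comm]
    have := Cc_normal A (m + 2)
    apply Cfsg.Agent.Lib.Helper22.three_subgroups_normal
    · rw [commutator_comm ⊤ A, ← Cc_comm A (m + 1)]
      exact ih ⁅A, ⊤⁆
    · exact commutator_mono (ih A) le_rfl

theorem lcs_normal' (N : Subgroup G) [hN : N.Normal] : ∀ k, (N.lowerCentralSeries k).Normal
  | 0 => hN
  | k + 1 => by
    have := lcs_normal' N k
    rw [Subgroup.lowerCentralSeries_succ]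
    exact commutator_normal _ _

theorem comm_top_lt [Finite G] {p : ℕ} [Fact p.Prime] (hG : IsPGroup p G) {K : Subgroup G} [K.Normal]
    (hK : K ≠ ⊥) : ⁅K, ⊤⁆ < K := by
  refine lt_of_le_of_ne (commutator_le_left _ _) ?_
  intro he
  have : Group.IsNilpotent G := hG.isNilpotent
  obtain ⟨n, hn⟩ := Subgroup.nilpotent_iff_lowerCentralSeries.1 this
  have h1 : ∀ k, K ≤ (⊤ : Subgroup G).lowerCentralSeries k := by
    intro k
    induction k with
    | zero => exact le_top
    | succ k ih =>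
      rw [Subgroup.lowerCentralSeries_succ, ← he]
      exact commutator_mono ih le_rfl
  apply hK
  rw [← le_bot_iff, ← hn]
  exact h1 n

theorem card_Cc [Finite G] {p : ℕ} [Fact p.Prime] (hG : IsPGroup p G) (A : Subgroup G) [A.Normal] :
    ∀ j, Cc A j ≠ ⊥ → p ^ j * Nat.card (Cc A j) ≤ Nat.card A := by
  intro j
  induction j with
  | zero => intro _; simp [Cc]
  | succ j ih =>
    intro hne
    have hj : Cc A j ≠ ⊥ := by
      intro h0
      apply hne
      rw [← le_bot_iff, ← h0]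
      exact Cc_succ_le A j
    have := Cc_normal A j
    have h1 : Cc A (j + 1) < Cc A j := comm_top_lt hG hj
    have h2 := H20.mul_card_le_of_lt' (hG.to_subgroup (Cc A j)) h1
    calc p ^ (j + 1) * Nat.card (Cc A (j + 1)) = p ^ j * (p * Nat.card (Cc A (j + 1))) := by ring
      _ ≤ p ^ j * Nat.card (Cc A j) := Nat.mul_le_mul_left _ h2
      _ ≤ Nat.card A := ih hj

end aux

/-- Let G be a finite p-group and n ≥ 1, and write γ_1(G) = G, γ_{k+1}(G) = [γ_k(G), G], and likewise γ_k(N) for a subgroup N. Let N be a normal subgroup of G contained in γ_n(G). If i > 1 and γ_{i+1}(N) ≠ 1, then |γ_i(N) : γ_{i+1}(N)| ≥ p^n. -/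
theorem result {G : Type*} [Group G] [Finite G] {p : ℕ} [Fact p.Prime] (hG : IsPGroup p G) (n : ℕ) (hn : 1 ≤ n) (N : Subgroup G) [N.Normal] (hN : N ≤ (⊤ : Subgroup G).lowerCentralSeries (n - 1)) (i : ℕ) (hi : 1 < i) (hne : N.lowerCentralSeries i ≠ ⊥) : p ^ n ≤ (N.lowerCentralSeries i).relIndex (N.lowerCentralSeries (i - 1)) := by
  obtain ⟨i, rfl⟩ : ∃ k, i = k + 1 := ⟨i - 1, by omega⟩
  obtain ⟨n, rfl⟩ : ∃ k, n = k + 1 := ⟨n - 1, by omega⟩
  simp only [Nat.add_sub_cancel] at hN ⊢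
  have hAn := lcs_normal' N i
  have hB : N.lowerCentralSeries (i + 1) ≤ Cc (N.lowerCentralSeries i) (n + 1) := by
    rw [Subgroup.lowerCentralSeries_succ]
    exact (Subgroup.commutator_mono le_rfl hN).trans (comm_lcs_le n _)
  have hCne : Cc (N.lowerCentralSeries i) (n + 1) ≠ ⊥ := by
    intro h0
    apply hne
    rw [← le_bot_iff, ← h0]
    exact hB
  have h1 := card_Cc hG (N.lowerCentralSeries i) (n + 1) hCne
  have h2 : Nat.card (N.lowerCentralSeries (i + 1)) ≤ Nat.card (Cc (N.lowerCentralSeries i) (n + 1)) :=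
    Subgroup.card_le_of_le hB
  have h3 := H20.card_mul_relIndex (N.lowerCentralSeries_antitone (Nat.le_succ i))
  have hpos : 0 < Nat.card (N.lowerCentralSeries (i + 1)) := Nat.card_pos
  apply Nat.le_of_mul_le_mul_right _ hpos
  calc p ^ (n + 1) * Nat.card (N.lowerCentralSeries (i + 1))
      ≤ p ^ (n + 1) * Nat.card (Cc (N.lowerCentralSeries i) (n + 1)) := Nat.mul_le_mul_left _ h2
    _ ≤ Nat.card (N.lowerCentralSeries i) := h1
    _ = _ := by rw [← h3]; ring

end Cfsg.Agent.S3781
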