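import Cfsg.Statements.S3778
import Cfsg.Agent.S3781

set_option autoImplicit false
open Cfsg

namespace Cfsg.Agent.S3778

section aux
open Subgroup
variable {G : Type*} [Group G]

/-- two-step centralizers -/
def D (G : Type*) [Group G] (k : ℕ) : Subgroup G where
  carrier := {x | ∀ g ∈ (⊤ : Subgroup G).lowerCentralSeries k,
    g * x * g⁻¹ * x⁻¹ ∈ (⊤ : Subgroup G).lowerCentralSeries (k + 2)}
  one_mem' := by
    intro g _
    simp
  mul_mem' := by
    intro x y hx hy g hg
    have h1 : g * (x * y) * g⁻¹ * (x * y)⁻¹ = (g * x * g⁻¹ * x⁻¹) * (x * (g * y * g⁻¹ * y⁻¹) * x⁻¹) := by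
      group
    rw [h1]
    exact mul_mem (hx g hg)
      ((inferInstance : ((⊤ : Subgroup G).lowerCentralSeries (k + 2)).Normal).conj_mem _ (hy g hg) x)
  inv_mem' := by
    intro x hx g hg
    have h1 : g * x⁻¹ * g⁻¹ * x⁻¹⁻¹ = x⁻¹ * (g * x * g⁻¹ * x⁻¹)⁻¹ * x⁻¹⁻¹ := by group
    rw [h1]
    exact (inferInstance : ((⊤ : Subgroup G).lowerCentralSeries (k + 2)).Normal).conj_mem _
      (inv_mem (hx g hg)) x⁻¹

theorem D_ne_top [Finite G] {p : ℕ} [Fact p.Prime] (hG : IsPGroup p G) {k : ℕ}
    (hk : (⊤ : Subgroup G).lowerCentralSeries (k + 1) ≠ ⊥) : D G k ≠ ⊤ := by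
  intro h
  have h1 : (⊤ : Subgroup G).lowerCentralSeries (k + 1) ≤ (⊤ : Subgroup G).lowerCentralSeries (k + 2) := by
    rw [Subgroup.lowerCentralSeries_succ, commutator_le]
    intro g hg x _
    have hx : x ∈ D G k := h ▸ mem_top x
    exact hx g hg
  have h2 := S3781.comm_top_lt hG hk
  exact absurd h1 (not_le_of_gt h2)

/-- the chain `γ_k C_G(x)` -/
def E (x : G) (k : ℕ) : Subgroup G := (⊤ : Subgroup G).lowerCentralSeries k ⊔ centralizer ({x} : Set G)

theorem E_succ_le (x : G) (k : ℕ) : E x (k + 1) ≤ E x k :=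
  sup_le_sup_right ((⊤ : Subgroup G).lowerCentralSeries_antitone (Nat.le_succ k)) _

theorem E_succ_lt {x : G} {k : ℕ} (hx : x ∉ D G k) : E x (k + 1) < E x k := by
  refine lt_of_le_of_ne (E_succ_le x k) ?_
  intro he
  apply hx
  intro g hg
  have h1 : g ∈ E x (k + 1) := he ▸ ((le_sup_left : _ ≤ E x k) hg)
  have h2 : g ∈ (((⊤ : Subgroup G).lowerCentralSeries (k + 1) ⊔ centralizer ({x} : Set G) : Subgroup G) :
      Set G) := h1
  rw [Subgroup.normal_mul] at h2
  obtain ⟨h, hh, c, hc, rfl⟩ := h2
  have hc' : c * x = x * c := mem_centralizer_singleton_iff.1 hc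
  have h3 : h * c * x * (h * c)⁻¹ * x⁻¹ = h * x * h⁻¹ * x⁻¹ := by
    calc h * c * x * (h * c)⁻¹ * x⁻¹ = h * (c * x) * c⁻¹ * h⁻¹ * x⁻¹ := by group
      _ = h * (x * c) * c⁻¹ * h⁻¹ * x⁻¹ := by rw [hc']
      _ = _ := by group
  rw [h3, Subgroup.lowerCentralSeries_succ]
  exact commutator_mem_commutator hh (mem_top x)

open Classical in
/-- number of two-step centralizers avoiding `x`. -/
noncomputable def f (x : G) (m : ℕ) : ℕ := ∑ k ∈ Finset.range m, (if x ∈ D G k then 0 else 1)

theorem card_E [Finite G] {p : ℕ} [Fact p.Prime] (hG : IsPGroup p G) (x : G) :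
    ∀ m, p ^ f x m * Nat.card (E x m) ≤ Nat.card G := by
  intro m
  induction m with
  | zero =>
    have : E x 0 = ⊤ := by simp [E]
    simp [f, this]
  | succ m ih =>
    by_cases hx : x ∈ D G m
    · have h1 : f x (m + 1) = f x m := by
        unfold f; rw [Finset.sum_range_succ, if_pos hx, add_zero]
      rw [h1]
      exact (Nat.mul_le_mul_left _ (Subgroup.card_le_of_le (E_succ_le x m))).trans ih
    · have h1 : f x (m + 1) = f x m + 1 := by
        unfold f; rw [Finset.sum_range_succ, if_neg hx]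
      rw [h1]
      have h2 := H20.mul_card_le_of_lt' (hG.to_subgroup (E x m)) (E_succ_lt hx)
      calc p ^ (f x m + 1) * Nat.card (E x (m + 1)) = p ^ f x m * (p * Nat.card (E x (m + 1))) := by ring
        _ ≤ p ^ f x m * Nat.card (E x m) := Nat.mul_le_mul_left _ h2
        _ ≤ _ := ih

theorem f_le [Finite G] {p : ℕ} [hp : Fact p.Prime] (hG : IsPGroup p G) {b : ℕ} (x : G)
    (hb : (centralizer ({x} : Set G)).index ≤ p ^ b) (m : ℕ) : f x m ≤ b := by
  have h1 := card_E hG x m
  have h2 : Nat.card (centralizer ({x} : Set G)) ≤ Nat.card (E x m) :=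
    Subgroup.card_le_of_le le_sup_right
  have h3 := (centralizer ({x} : Set G)).card_mul_index
  have hpos : 0 < Nat.card (centralizer ({x} : Set G)) := Nat.card_pos
  have h4 : p ^ f x m ≤ (centralizer ({x} : Set G)).index := by
    apply Nat.le_of_mul_le_mul_right _ hpos
    calc p ^ f x m * Nat.card (centralizer ({x} : Set G)) ≤ p ^ f x m * Nat.card (E x m) :=
          Nat.mul_le_mul_left _ h2
      _ ≤ Nat.card G := h1
      _ = _ := by rw [← h3]; ring
  exact (Nat.pow_le_pow_iff_right hp.out.one_lt).1 (h4.trans hb)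

theorem f_one (m : ℕ) : f (1 : G) m = 0 := by
  unfold f
  apply Finset.sum_eq_zero
  intro k _
  rw [if_pos (one_mem _)]

end aux

/-- If G is a finite p-group in which every conjugacy class has at most p^b elements (every element has centralizer of index at most p^b), then G is abelian when b = 0, and when b ≥ 1 its nilpotency class c satisfies (c − 1)(p − 1) < bp, that is c < bp/(p − 1) + 1, and hence c ≤ 2b. -/
theorem result {G : Type*} [Group G] [Finite G] {p : ℕ} [Fact p.Prime] (hG : IsPGroup p G) (b : ℕ) (hb : ∀ x : G, (Subgroup.centralizer ({x} : Set G)).index ≤ p ^ b) : ∃ c : ℕ, (⊤ : Subgroup G).lowerCentralSeries c = ⊥ ∧ (b ≠ 0 → (c - 1) * (p - 1) < b * p ∧ c ≤ 2 * b) ∧ (b = 0 → c ≤ 1) := by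
  classical
  have hnil : Group.IsNilpotent G := hG.isNilpotent
  have hex := Subgroup.nilpotent_iff_lowerCentralSeries.1 hnil
  refine ⟨Nat.find hex, Nat.find_spec hex, ?_, ?_⟩
  · intro hb0
    obtain ⟨c, hc⟩ : ∃ c, c = Nat.find hex := ⟨_, rfl⟩
    rw [← hc]
    have hmin : ∀ k, k < c → (⊤ : Subgroup G).lowerCentralSeries k ≠ ⊥ := fun k hk =>
      Nat.find_min hex (hc ▸ hk)
    haveI := Fintype.ofFinite G
    have hp1 : 1 ≤ p := (Fact.out : p.Prime).pos
    have hp2 : 2 ≤ p := (Fact.out : p.Prime).two_le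
    have hGpos : 0 < Nat.card G := Nat.card_pos
    -- double counting
    have hcount : ∀ k, k < c - 1 →
        (p - 1) * Nat.card G ≤ p * ∑ x : G, (if x ∈ D G k then 0 else 1) := by
      intro k hk
      have hD : D G k ≠ ⊤ := D_ne_top hG (hmin (k + 1) (by omega))
      have h1 : p * Nat.card (D G k) ≤ Nat.card (⊤ : Subgroup G) :=
        H20.mul_card_le_of_lt' (hG.to_subgroup ⊤) (lt_top_iff_ne_top.2 hD)
      rw [Subgroup.card_top] at h1
      have h2 : ∑ x : G, (if x ∈ D G k then 0 else 1) + Nat.card (D G k) = Nat.card G := by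
        have h3 : ∑ x : G, (if x ∈ D G k then 0 else 1) =
            (Finset.univ.filter (fun x : G => ¬ x ∈ D G k)).card := by
          rw [Finset.card_filter]
          apply Finset.sum_congr rfl
          intro x _
          by_cases hx : x ∈ D G k <;> simp [hx]
        have h4 : Nat.card (D G k) = (Finset.univ.filter (fun x : G => x ∈ D G k)).card := by
          rw [Nat.card_eq_fintype_card, Fintype.card_subtype]
        rw [h3, h4, add_comm, Finset.card_filter_add_card_filter_not, Finset.card_univ,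
          Nat.card_eq_fintype_card]
      obtain ⟨q, rfl⟩ : ∃ q, p = q + 1 := ⟨p - 1, by omega⟩
      simp only [Nat.add_sub_cancel]
      nlinarith
    have hsum : (c - 1) * ((p - 1) * Nat.card G) ≤ p * ∑ x : G, f x (c - 1) := by
      unfold f
      rw [Finset.sum_comm, Finset.mul_sum]
      calc (c - 1) * ((p - 1) * Nat.card G) = ∑ _k ∈ Finset.range (c - 1), (p - 1) * Nat.card G := by
            rw [Finset.sum_const, Finset.card_range, smul_eq_mul]
        _ ≤ _ := Finset.sum_le_sum (fun k hk => hcount k (Finset.mem_range.1 hk))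
    have hupper : ∑ x : G, f x (c - 1) + b ≤ b * Nat.card G := by
      have h1 : ∑ x : G, f x (c - 1) = ∑ x ∈ Finset.univ.erase (1 : G), f x (c - 1) := by
        rw [← Finset.add_sum_erase Finset.univ _ (Finset.mem_univ (1 : G)), f_one, zero_add]
      have h2 : ∑ x ∈ Finset.univ.erase (1 : G), f x (c - 1) ≤ ∑ _x ∈ Finset.univ.erase (1 : G), b :=
        Finset.sum_le_sum (fun x _ => f_le hG x (hb x) _)
      rw [Finset.sum_const, Finset.card_erase_of_mem (Finset.mem_univ _), Finset.card_univ,
        smul_eq_mul, ← Nat.card_eq_fintype_card] at h2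
      rw [h1]
      calc ∑ x ∈ Finset.univ.erase (1 : G), f x (c - 1) + b ≤ (Nat.card G - 1) * b + b :=
            Nat.add_le_add_right h2 _
        _ = b * Nat.card G := by
            obtain ⟨n, hn⟩ : ∃ n, Nat.card G = n + 1 := ⟨Nat.card G - 1, by omega⟩
            rw [hn]; simp; ring
    have hmain : (c - 1) * (p - 1) < b * p := by
      have h1 : (c - 1) * (p - 1) * Nat.card G < b * p * Nat.card G := by
        calc (c - 1) * (p - 1) * Nat.card G = (c - 1) * ((p - 1) * Nat.card G) := by ring
          _ ≤ p * ∑ x : G, f x (c - 1) := hsum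
          _ < p * (∑ x : G, f x (c - 1) + b) := by
              apply Nat.mul_lt_mul_of_pos_left _ (by omega)
              omega
          _ ≤ p * (b * Nat.card G) := Nat.mul_le_mul_left _ hupper
          _ = _ := by ring
      exact Nat.lt_of_mul_lt_mul_right h1
    refine ⟨hmain, ?_⟩
    by_contra hcon
    push Not at hcon
    obtain ⟨q, rfl⟩ : ∃ q, p = q + 2 := ⟨p - 2, by omega⟩
    obtain ⟨d, rfl⟩ : ∃ d, c = 2 * b + 1 + d := ⟨c - (2 * b + 1), by omega⟩
    have e1 : 2 * b + 1 + d - 1 = 2 * b + d := by omega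
    have e2 : q + 2 - 1 = q + 1 := by omega
    rw [e1, e2] at hmain
    nlinarith
  · intro hb0
    have habel : (⊤ : Subgroup G).lowerCentralSeries 1 = ⊥ := by
      rw [Subgroup.lowerCentralSeries_succ, Subgroup.lowerCentralSeries_zero,
        Subgroup.commutator_eq_bot_iff_le_centralizer]
      intro x _
      rw [Subgroup.mem_centralizer_iff]
      intro y _
      have h1 := hb x
      rw [hb0, pow_zero] at h1
      have h2 : (Subgroup.centralizer ({x} : Set G)).index = 1 := by
        have : (Subgroup.centralizer ({x} : Set G)).index ≠ 0 := Subgroup.index_ne_zero_of_finite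
        omega
      rw [Subgroup.index_eq_one] at h2
      have h3 : y ∈ Subgroup.centralizer ({x} : Set G) := h2 ▸ Subgroup.mem_top y
      exact Subgroup.mem_centralizer_singleton_iff.1 h3
    exact Nat.find_min' hex habel

end Cfsg.Agent.S3778
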