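import Cfsg.Statements.S3780
import Cfsg.Agent.H20.PGroup3

set_option autoImplicit false
open Cfsg

namespace Cfsg.Agent.S3780

open Subgroup Cfsg.Agent.H20

section aux

theorem card_ker_pow_le {B : Type*} [AddCommGroup B] [Finite B] (f : B →+ B) (k : ℕ) :
    Nat.card {x : B // (f^[k]) x = 0} ≤ Nat.card {x : B // f x = 0} ^ k := by
  induction k with
  | zero =>
    simp only [Function.iterate_zero, id_eq, pow_zero]
    have : Subsingleton {x : B // x = 0} := ⟨fun a b => Subtype.ext (a.2.trans b.2.symm)⟩
    exact Finite.card_le_one_iff_subsingleton.2 this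
  | succ k ih =>
    -- the iterate as a homomorphism
    let F : B →+ B := (show AddMonoid.End B from f) ^ k
    have hF : ∀ x, F x = (f^[k]) x := fun x => by
      change ((show AddMonoid.End B from f) ^ k) x = _
      rw [AddMonoid.End.coe_pow]
      rfl
    let K : AddSubgroup B := (f.comp F).ker
    have hK : ∀ x, x ∈ K ↔ (f^[k+1]) x = 0 := fun x => by
      rw [Function.iterate_succ_apply', ← hF]; exact AddMonoidHom.mem_ker
    let g : K →+ f.ker := (F.comp K.subtype).codRestrict f.ker (fun x => by
      have := x.2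
      exact this)
    have h1 : Nat.card K = Nat.card g.ker * Nat.card g.range := by
      rw [← AddSubgroup.index_ker, AddSubgroup.card_mul_index]
    have h2 : Nat.card g.range ≤ Nat.card {x : B // f x = 0} :=
      Nat.card_le_card_of_injective (fun y => (⟨y.1.1, y.1.2⟩ : {x : B // f x = 0}))
        (fun a b hab => Subtype.ext (Subtype.ext (congrArg (fun t => t.1) hab)))
    have h3 : Nat.card g.ker ≤ Nat.card {x : B // (f^[k]) x = 0} :=
      Nat.card_le_card_of_injective (fun y => (⟨y.1.1, by
          have h4 : g y.1 = 0 := y.2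
          have h5 : F y.1.1 = 0 := congrArg Subtype.val h4
          rw [← hF]; exact h5⟩ : {x : B // (f^[k]) x = 0}))
        (fun a b hab => Subtype.ext (Subtype.ext (congrArg (fun t => t.1) hab)))
    have h6 : Nat.card {x : B // (f^[k+1]) x = 0} = Nat.card K :=
      Nat.card_congr (Equiv.subtypeEquivRight (fun x => (hK x).symm))
    rw [h6, h1, pow_succ]
    exact Nat.mul_le_mul (h3.trans ih) h2

theorem exists_gen {V : Type*} [CommGroup V] [Finite V] {p : ℕ} [Fact p.Prime] (hV : IsPGroup p V)
    (m : ℕ) : ∀ H : Subgroup V, Nat.card V - Nat.card H = m →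
    ∃ S : Finset V, H ⊔ closure (S : Set V) = ⊤ ∧ p ^ S.card * Nat.card H ≤ Nat.card V := by
  classical
  induction m using Nat.strong_induction_on with
  | _ m ih =>
  intro H hm
  by_cases hH : H = ⊤
  · refine ⟨∅, by simp [hH], ?_⟩
    rw [hH]; simp
  · obtain ⟨x, -, hx⟩ := SetLike.exists_of_lt (lt_top_iff_ne_top.2 hH)
    have hlt : H < H ⊔ zpowers x := by
      refine lt_of_le_of_ne le_sup_left (fun e => hx ?_)
      rw [e]; exact mem_sup_right (mem_zpowers x)
    have h1 : p * Nat.card H ≤ Nat.card (H ⊔ zpowers x : Subgroup V) :=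
      mul_card_le_of_lt' (hV.to_subgroup _) hlt
    have h2 : Nat.card (H ⊔ zpowers x : Subgroup V) ≤ Nat.card V := Subgroup.card_le_card_group _
    have h0 : 0 < Nat.card H := Nat.card_pos
    have hp2 : 2 ≤ p := (Fact.out : p.Prime).two_le
    have h3 : Nat.card H < Nat.card (H ⊔ zpowers x : Subgroup V) := by nlinarith
    obtain ⟨S, hS1, hS2⟩ := ih (Nat.card V - Nat.card (H ⊔ zpowers x : Subgroup V)) (by omega) _ rfl
    refine ⟨insert x S, ?_, ?_⟩
    · rw [Finset.coe_insert, Set.insert_eq, Subgroup.closure_union, ← zpowers_eq_closure, ← sup_assoc]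
      exact hS1
    · calc p ^ (insert x S).card * Nat.card H ≤ p ^ (S.card + 1) * Nat.card H :=
            Nat.mul_le_mul_right _ (Nat.pow_le_pow_right (by omega) (Finset.card_insert_le x S))
        _ = p ^ S.card * (p * Nat.card H) := by ring
        _ ≤ p ^ S.card * Nat.card (H ⊔ zpowers x : Subgroup V) := Nat.mul_le_mul_left _ h1
        _ ≤ Nat.card V := hS2

theorem eq_top_of_sup_pow {V : Type*} [CommGroup V] [Finite V] {p : ℕ} [Fact p.Prime]
    (hV : IsPGroup p V) (H : Subgroup V) (h : (powMonoidHom p : V →* V).range ⊔ H = ⊤) : H = ⊤ := by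
  have hsurj : Function.Surjective (powMonoidHom p : V ⧸ H →* V ⧸ H) := by
    intro q
    obtain ⟨v, rfl⟩ := QuotientGroup.mk_surjective q
    have hv : v ∈ (powMonoidHom p : V →* V).range ⊔ H := by rw [h]; trivial
    obtain ⟨_, ⟨w, rfl⟩, y, hy, rfl⟩ := mem_sup.1 hv
    refine ⟨(w : V ⧸ H), ?_⟩
    simp only [powMonoidHom_apply, QuotientGroup.mk_mul]
    rw [(QuotientGroup.eq_one_iff y).2 hy, mul_one]
    rfl
  have hinj : Function.Injective (powMonoidHom p : V ⧸ H →* V ⧸ H) :=
    Finite.injective_iff_surjective.2 hsurj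
  have hone : ∀ k : ℕ, ∀ q : V ⧸ H, q ^ p ^ k = 1 → q = 1 := by
    intro k
    induction k with
    | zero => intro q hq; simpa using hq
    | succ k ih =>
      intro q hq
      apply ih
      apply hinj
      simp only [powMonoidHom_apply, one_pow]
      rw [← pow_mul, ← pow_succ]; exact hq
  rw [eq_top_iff]
  intro v _
  obtain ⟨k, hk⟩ := hV v
  rw [← QuotientGroup.eq_one_iff]
  apply hone k
  rw [← QuotientGroup.mk_pow, hk]; rfl

end aux

/-- Let V be a finite abelian p-group and α an automorphism of V of order p whose fixed-point subgroup has order p^n. Then V can be generated by pn elements: some subset of V with at most pn elements generates V. -/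
theorem result {V : Type*} [CommGroup V] [Finite V] {p : ℕ} [Fact p.Prime] (hV : IsPGroup p V) (α : MulAut V) (hα : orderOf α = p) (n : ℕ) (hfix : Nat.card {v : V // α v = v} = p ^ n) : ∃ S : Finset V, S.card ≤ p * n ∧ Subgroup.closure (S : Set V) = ⊤ := by
  have hp : p.Prime := Fact.out
  set P : V →* V := powMonoidHom p with hP
  obtain ⟨S, hS1, hS2⟩ := exists_gen hV _ P.range rfl
  refine ⟨S, ?_, eq_top_of_sup_pow hV _ hS1⟩
  have h1 : Nat.card V = Nat.card P.ker * Nat.card P.range := by
    rw [← Subgroup.index_ker, Subgroup.card_mul_index]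
  have h2 : p ^ S.card ≤ Nat.card P.ker := by
    rw [h1] at hS2
    exact Nat.le_of_mul_le_mul_right hS2 Nat.card_pos
  -- the additive endomorphism ring
  let a : AddMonoid.End (Additive V) := MonoidHom.toAdditive α.toMonoidHom
  have ha : ∀ k : ℕ, ∀ x : Additive V, (a ^ k) x = Additive.ofMul ((α ^ k) x.toMul) := by
    intro k
    induction k with
    | zero => intro x; simp
    | succ k ih =>
      intro x
      rw [pow_succ', pow_succ']
      change a ((a ^ k) x) = _
      rw [ih]
      rfl
  have hap : a ^ p = 1 := by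
    ext x
    rw [ha, ← hα, pow_orderOf_eq_one]
    rfl
  set f : AddMonoid.End (Additive V) := a - 1 with hf
  obtain ⟨r, hr⟩ := (Commute.one_right f).exists_add_pow_prime_eq hp
  have haf : f + 1 = a := by rw [hf]; abel
  rw [haf, hap, one_pow] at hr
  have hfp : f ^ p = - ((p : AddMonoid.End (Additive V)) * f * 1 * r) := by
    have : f ^ p + (p : AddMonoid.End (Additive V)) * f * 1 * r = 0 := by
      have h3 : (1 : AddMonoid.End (Additive V)) + (f ^ p + (p : AddMonoid.End (Additive V)) * f * 1 * r) = 1 + 0 := by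
        rw [add_zero]; conv_rhs => rw [hr]
        abel
      exact add_left_cancel h3
    exact eq_neg_of_add_eq_zero_left this
  obtain ⟨f', hf'⟩ : ∃ f' : Additive V →+ Additive V, f' = f := ⟨f, rfl⟩
  have h3 : Nat.card P.ker ≤ Nat.card {x : Additive V // (f'^[p]) x = 0} := by
    refine Nat.card_le_card_of_injective (fun y => ⟨Additive.ofMul y.1, ?_⟩) ?_
    · have hy : y.1 ^ p = 1 := y.2
      have e : (f'^[p]) (Additive.ofMul y.1) = (f ^ p) (Additive.ofMul y.1) := by
        rw [AddMonoid.End.coe_pow, hf']
        rfl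
      rw [e, hfp, mul_assoc, mul_assoc]
      have h4 : ((p : AddMonoid.End (Additive V)) * (f * (1 * r))) (Additive.ofMul y.1) =
          (f * (1 * r)) (p • Additive.ofMul y.1) := by
        change (p : AddMonoid.End (Additive V)) ((f * (1 * r)) (Additive.ofMul y.1)) = _
        rw [AddMonoid.End.natCast_apply, map_nsmul]
      change - (((p : AddMonoid.End (Additive V)) * (f * (1 * r))) (Additive.ofMul y.1)) = 0
      rw [h4, ← ofMul_pow, hy]
      simp
    · intro y z hyz
      apply Subtype.ext
      exact congrArg (fun t => Additive.toMul t.1) hyz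
  have h4 := card_ker_pow_le f' p
  have h5 : Nat.card {x : Additive V // f' x = 0} = p ^ n := by
    rw [← hfix]
    refine Nat.card_congr (Equiv.subtypeEquiv Additive.toMul (fun x => ?_))
    rw [hf']
    change a x - x = 0 ↔ _
    rw [sub_eq_zero]
    exact Iff.rfl
  rw [h5, ← pow_mul] at h4
  have h6 : p ^ S.card ≤ p ^ (n * p) := h2.trans (h3.trans h4)
  rw [mul_comm]
  exact (Nat.pow_le_pow_iff_right hp.one_lt).1 h6

end Cfsg.Agent.S3780
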