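import Cfsg.Statements.S3783
import Cfsg.Agent.H20.HHAb
-- import your own Cfsg.Agent.* helpers here

set_option autoImplicit false
open Cfsg

namespace Cfsg.Agent.S3783

/-- Let G be a finite p-soluble group in which, for every prime q ≠ p, the Sylow q-subgroups are abelian. If the Sylow p-subgroups of G have exponent dividing p^n, then G has p-length at most n. -/
theorem result {G : Type*} [Group G] [Finite G] {p : ℕ} [Fact p.Prime] (hG : Cfsg.IsPSolvable p G) (hab : ∀ (q : ℕ) [Fact q.Prime], q ≠ p → ∀ Q : Sylow q G, IsMulCommutative (Q : Subgroup G)) (n : ℕ) (hexp : ∀ (P : Sylow p G), ∀ x ∈ (P : Subgroup G), x ^ p ^ n = 1) : Cfsg.PLengthLE p n G := by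
  rw [Cfsg.Agent.H20.pLengthLE_iff_PL]
  apply Cfsg.Agent.H20.hh_main n G hG
  · intro q hq hqp Q hQ a ha b hb
    have : Fact q.Prime := ⟨hq⟩
    obtain ⟨S, hS⟩ := hQ.exists_le_sylow
    exact Cfsg.Agent.H20.comm_of_mem (hab q hqp S) (hS ha) (hS hb)
  · intro g hg
    obtain ⟨k, hk⟩ := hg
    have h1 : IsPGroup p (Subgroup.zpowers g) := by
      apply IsPGroup.of_card (n := (Nat.factorization (orderOf g)) p)
      rw [Nat.card_zpowers]
      obtain ⟨m, -, hm⟩ := (Nat.dvd_prime_pow Fact.out).1 (orderOf_dvd_of_pow_eq_one hk)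
      rw [hm, Nat.Prime.factorization_pow Fact.out]
      simp
    obtain ⟨P, hP⟩ := h1.exists_le_sylow
    exact hexp P g (hP (Subgroup.mem_zpowers g))

end Cfsg.Agent.S3783
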