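import Cfsg.Statements.S3784
import Mathlib

set_option autoImplicit false
open Cfsg

namespace Cfsg.Agent.S3784

theorem odd_pow_modEq {x M n : ℕ} (h : x ^ 2 ≡ 1 [MOD M]) (hn : Odd n) : x ^ n ≡ x [MOD M] := by
  obtain ⟨k, rfl⟩ := hn
  rw [pow_succ, pow_mul]
  have := (h.pow k).mul_right x
  simpa using this

/-- if `q + 1 = 2 ^ c` and `q ^ b + 1 = 2 ^ a` with `b` odd then `b = 1` -/
theorem aux1 {q a b c : ℕ} (hq : 2 ≤ q) (hc : q + 1 = 2 ^ c) (h : q ^ b + 1 = 2 ^ a) (hb : Odd b) : b = 1 := by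
  have hc1 : 1 ≤ c := by
    rcases c with _ | c
    · simp at hc; omega
    · omega
  have hsq : q ^ 2 ≡ 1 [MOD 2 ^ (c + 1)] := by
    have h1 : q ^ 2 + 2 ^ (c + 1) = 1 + 2 ^ (c + 1) * 2 ^ (c - 1) := by
      have h2 : 2 ^ (c + 1) * 2 ^ (c - 1) = (q + 1) ^ 2 := by
        rw [hc, ← pow_add, ← pow_mul]; congr 1; omega
      have h3 : 2 ^ (c + 1) = 2 * (q + 1) := by rw [hc, pow_succ]; ring
      rw [h2, h3]; ring
    have h4 : q ^ 2 + 2 ^ (c + 1) ≡ 1 + 2 ^ (c + 1) * 2 ^ (c - 1) [MOD 2 ^ (c + 1)] := by rw [h1]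
    have h5 : q ^ 2 + 2 ^ (c + 1) ≡ q ^ 2 [MOD 2 ^ (c + 1)] := by simp [Nat.ModEq]
    have h6 : 1 + 2 ^ (c + 1) * 2 ^ (c - 1) ≡ 1 [MOD 2 ^ (c + 1)] := by simp [Nat.ModEq]
    exact h5.symm.trans (h4.trans h6)
  have h7 := (odd_pow_modEq hsq hb).add_right 1
  rw [h, hc] at h7
  have hac : a ≤ c := by
    by_contra hlt
    push Not at hlt
    have h8 : 2 ^ (c + 1) ∣ 2 ^ a := pow_dvd_pow 2 hlt
    have h9 : 2 ^ (c + 1) ∣ 2 ^ c := (Nat.modEq_zero_iff_dvd.1 (h7.symm.trans (Nat.modEq_zero_iff_dvd.2 h8)))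
    have := Nat.le_of_dvd (by positivity) h9
    have h10 : 2 ^ c < 2 ^ (c + 1) := Nat.pow_lt_pow_right (by norm_num) (by omega)
    omega
  have h11 : 2 ^ a ≤ 2 ^ c := Nat.pow_le_pow_right (by norm_num) hac
  have h12 : q ^ b ≤ q ^ 1 := by rw [pow_one]; omega
  have h13 : b ≤ 1 := (Nat.pow_le_pow_iff_right (by omega)).1 h12
  obtain ⟨k, rfl⟩ := hb
  omega

/-- if `p = 2 ^ c + 1` and `p ^ a = 2 ^ b + 1` with `a` odd then `a = 1` -/
theorem aux2 {p a b c : ℕ} (hc1 : 1 ≤ c) (hc : p = 2 ^ c + 1) (h : p ^ a = 2 ^ b + 1) (ha : Odd a) : a = 1 := by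
  have hp : 2 ≤ p := by
    have : 1 ≤ 2 ^ c := Nat.one_le_two_pow
    omega
  have hsq : p ^ 2 ≡ 1 [MOD 2 ^ (c + 1)] := by
    have h1 : p ^ 2 = 1 + 2 ^ (c + 1) * (2 ^ (c - 1) + 1) := by
      have h2 : 2 ^ (c + 1) * 2 ^ (c - 1) = (2 ^ c) ^ 2 := by
        rw [← pow_add, ← pow_mul]; congr 1; omega
      rw [mul_add, h2, hc, pow_succ 2 c]; ring
    rw [h1]; simp [Nat.ModEq]
  have h7 := odd_pow_modEq hsq ha
  rw [h, hc] at h7
  have h7' : 2 ^ b ≡ 2 ^ c [MOD 2 ^ (c + 1)] := Nat.ModEq.add_right_cancel' 1 h7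
  have hbc : b ≤ c := by
    by_contra hlt
    push Not at hlt
    have h8 : 2 ^ (c + 1) ∣ 2 ^ b := pow_dvd_pow 2 hlt
    have h9 : 2 ^ (c + 1) ∣ 2 ^ c := (Nat.modEq_zero_iff_dvd.1 (h7'.symm.trans (Nat.modEq_zero_iff_dvd.2 h8)))
    have := Nat.le_of_dvd (by positivity) h9
    have h10 : 2 ^ c < 2 ^ (c + 1) := Nat.pow_lt_pow_right (by norm_num) (by omega)
    omega
  have h11 : 2 ^ b ≤ 2 ^ c := Nat.pow_le_pow_right (by norm_num) hbc
  have h12 : p ^ a ≤ p ^ 1 := by rw [pow_one]; omega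
  have h13 : a ≤ 1 := (Nat.pow_le_pow_iff_right (by omega)).1 h12
  obtain ⟨k, rfl⟩ := ha
  omega

/-- Let p, q be primes and a, b positive integers with p^a = q^b + 1. Then either p = 2, b = 1, a is prime and q = 2^a − 1; or q = 2, a = 1, b is a power of 2 and p = 2^b + 1; or p^a = 9 and q^b = 8. -/
theorem result (p q a b : ℕ) (hp : p.Prime) (hq : q.Prime) (ha : 1 ≤ a) (hb : 1 ≤ b) (h : p ^ a = q ^ b + 1) : (p = 2 ∧ b = 1 ∧ a.Prime ∧ q + 1 = 2 ^ a) ∨ (q = 2 ∧ a = 1 ∧ (∃ m : ℕ, b = 2 ^ m) ∧ p = 2 ^ b + 1) ∨ (p ^ a = 9 ∧ q ^ b = 8) := by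
  have ha0 : a ≠ 0 := by omega
  have hb0 : b ≠ 0 := by omega
  rcases hp.eq_two_or_odd' with rfl | hpodd
  · -- p = 2
    left
    have hqodd : Odd q := by
      rcases hq.eq_two_or_odd' with rfl | hqo
      · exfalso
        have h1 : Even (2 ^ a) := (Nat.even_pow.2 ⟨even_two, ha0⟩)
        have h2 : Even (2 ^ b) := (Nat.even_pow.2 ⟨even_two, hb0⟩)
        rw [h] at h1
        exact (Nat.not_even_iff_odd.2 (h2.add_one)) h1
      · exact hqo
    have hb1 : b = 1 := by
      rcases Nat.even_or_odd b with hbe | hbo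
      · exfalso
        obtain ⟨c, rfl⟩ := hbe
        have hqc : Odd (q ^ c) := hqodd.pow
        obtain ⟨k, hk⟩ := hqc
        have h1 : q ^ (c + c) = 4 * (k * k + k) + 1 := by rw [pow_add, hk]; ring
        rw [h1] at h
        have hqc2 : 2 ≤ q ^ c := by
          calc 2 ≤ q := hq.two_le
            _ = q ^ 1 := (pow_one q).symm
            _ ≤ q ^ c := Nat.pow_le_pow_right hq.pos (by omega)
        have hk1 : 1 ≤ k := by omega
        have hm : 1 ≤ k * k + k := by nlinarith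
        generalize k * k + k = m at h hm
        rcases a with _ | _ | a
        · omega
        · simp at h; omega
        · rw [pow_succ, pow_succ] at h; omega
      · have hdvd : q + 1 ∣ 2 ^ a := by
          have := hbo.nat_add_dvd_pow_add_pow q 1
          rwa [one_pow, ← h] at this
        obtain ⟨c, _, hc⟩ := (Nat.dvd_prime_pow Nat.prime_two).1 hdvd
        exact aux1 hq.two_le hc h.symm hbo
    subst hb1
    rw [pow_one] at h
    refine ⟨rfl, rfl, ?_, h.symm⟩
    have hP : (2 ^ a - 1).Prime := by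
      have : 2 ^ a - 1 = q := by omega
      rwa [this]
    have ha1 : a ≠ 1 := by
      rintro rfl
      have := hq.two_le
      omega
    exact (Nat.prime_of_pow_sub_one_prime ha1 hP).2
  · -- p odd, hence q = 2
    right
    have hq2 : q = 2 := by
      rcases hq.eq_two_or_odd' with rfl | hqo
      · rfl
      · exfalso
        have h1 : Odd (p ^ a) := hpodd.pow
        have h2 : Odd (q ^ b) := hqo.pow
        rw [h] at h1
        exact (Nat.not_odd_iff_even.2 h2.add_one) h1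
    subst hq2
    rcases Nat.even_or_odd a with hae | hao
    · right
      obtain ⟨c, rfl⟩ := hae
      have hc0 : c ≠ 0 := by omega
      obtain ⟨x, hx⟩ : ∃ x, x = p ^ c := ⟨_, rfl⟩
      have hx2 : 2 ≤ x := by
        rw [hx]
        calc 2 ≤ p := hp.two_le
          _ = p ^ 1 := (pow_one p).symm
          _ ≤ p ^ c := Nat.pow_le_pow_right hp.pos (by omega)
      have hprod : (x - 1) * (x + 1) = 2 ^ b := by
        have : p ^ (c + c) = x * x := by rw [pow_add, hx]
        rw [this] at h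
        obtain ⟨y, hy⟩ : ∃ y, x = y + 1 := ⟨x - 1, by omega⟩
        rw [hy] at h ⊢
        simp only [Nat.add_sub_cancel]
        have : (y + 1) * (y + 1) = y * (y + 1 + 1) + 1 := by ring
        omega
      obtain ⟨i, _, hi⟩ := (Nat.dvd_prime_pow Nat.prime_two).1 (Dvd.intro _ hprod)
      obtain ⟨j, _, hj⟩ := (Nat.dvd_prime_pow Nat.prime_two).1 (Dvd.intro_left _ hprod)
      have hij : 2 ^ j = 2 ^ i + 2 := by omega
      have hi1 : i = 1 := by
        rcases i with _ | _ | i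
        · exfalso
          rcases j with _ | _ | j
          · simp at hij
          · simp at hij
          · rw [pow_succ, pow_succ] at hij; omega
        · rfl
        · exfalso
          rcases j with _ | _ | j
          · simp at hij
          · simp at hij
          · rw [pow_succ, pow_succ, pow_succ 2 (i+1), pow_succ 2 i] at hij; omega
      subst hi1
      have hx3 : x = 3 := by omega
      have h9 : p ^ (c + c) = 9 := by rw [pow_add, ← hx, hx3]; norm_num
      exact ⟨h9, by omega⟩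
    · left
      have hdvd : p - 1 ∣ 2 ^ b := by
        have := Nat.sub_one_dvd_pow_sub_one p a
        rwa [h, Nat.add_sub_cancel] at this
      obtain ⟨c, _, hc⟩ := (Nat.dvd_prime_pow Nat.prime_two).1 hdvd
      have hp2 := hp.two_le
      have hc' : p = 2 ^ c + 1 := by omega
      have hc1 : 1 ≤ c := by
        rcases c with _ | c
        · exfalso
          simp at hc'
          subst hc'
          exact (Nat.not_odd_iff_even.2 even_two) hpodd
        · omega
      have ha1 : a = 1 := aux2 hc1 hc' h hao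
      subst ha1
      rw [pow_one] at h
      refine ⟨rfl, rfl, ?_, h⟩
      exact Nat.pow_of_pow_add_prime (by norm_num) hb0 (h ▸ hp)

end Cfsg.Agent.S3784
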