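import Cfsg.Statements.S3785
import Cfsg.Agent.H20.Primary
import Cfsg.Agent.Lib.Helper27.CoprimeAut2

set_option autoImplicit false
open Cfsg

namespace Cfsg.Agent.S3785

open Subgroup Cfsg.Agent.H20

/-- Let G be a finite solvable group whose Fitting subgroup F(G) has odd order. If an element g of G commutes with every element of prime order of F(G), then g ∈ F(G). -/
theorem result {G : Type*} [Group G] [Finite G] (hG : Group.IsSolvable G) (hodd : Odd (Nat.card (Cfsg.fittingSubgroup G))) (g : G) (hg : ∀ x ∈ Cfsg.fittingSubgroup G, (orderOf x).Prime → g * x = x * g) : g ∈ Cfsg.fittingSubgroup G := by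
  classical
  set F := Cfsg.fittingSubgroup G with hF
  have hFn : F.Normal := Cfsg.Agent.Lib.Helper22.fittingSubgroup_normal
  have hord : ∀ s t : G, orderOf (t * s * t⁻¹) = orderOf s := fun s t => by
    have := (MulAut.conj t).orderOf_eq s
    simpa using this
  let Ω : Set G := {x | x ∈ F ∧ (orderOf x).Prime}
  have hΩ : ∀ s ∈ Ω, ∀ t : G, t * s * t⁻¹ ∈ Ω := by
    rintro s ⟨h1, h2⟩ t
    exact ⟨hFn.conj_mem s h1 t, by rw [hord]; exact h2⟩
  set C := centralizer Ω with hC
  have hgC : g ∈ C := mem_centralizer_iff.2 (fun x hx => (hg x hx.1 hx.2).symm)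
  have hOF : ∀ p : ℕ, p.Prime → Cfsg.pCore p G ≤ F := by
    intro p hp
    rw [hF, Cfsg.H1.fitting_eq_iSup_pCore]
    exact le_iSup (fun q : Nat.Primes => Cfsg.pCore (q : ℕ) G) ⟨p, hp⟩
  -- Lemma L
  have L : ∀ p : ℕ, p.Prime → ∀ x ∈ C, (orderOf x).Coprime p →
      x ∈ centralizer (Cfsg.pCore p G : Set G) := by
    intro p hp x hx hco
    haveI : Fact p.Prime := ⟨hp⟩
    have hOn := Cfsg.H1.pCore_normal (G := G) p
    rw [mem_centralizer_iff]
    intro y hy
    by_cases hp2 : p = 2
    · have h1 : Odd (orderOf y) := by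
        have h2 : orderOf y ∣ Nat.card F := by
          have := orderOf_dvd_natCard (⟨y, hOF p hp hy⟩ : F)
          rwa [Subgroup.orderOf_mk] at this
        exact Odd.of_dvd_nat hodd h2
      obtain ⟨k, hk⟩ := (Cfsg.H1.pCore_isPGroup (G := G) p) ⟨y, hy⟩
      have hk' : y ^ p ^ k = 1 := congrArg Subtype.val hk
      obtain ⟨j, -, hj⟩ := (Nat.dvd_prime_pow hp).1 (orderOf_dvd_of_pow_eq_one hk')
      have hj0 : j = 0 := by
        by_contra hj0
        rw [hj, hp2] at h1
        exact (Nat.not_even_iff_odd.2 h1) (Even.pow_of_ne_zero even_two hj0)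
      rw [hj0, pow_zero, orderOf_eq_one_iff] at hj
      rw [hj]; simp
    · have key := Cfsg.Agent.Lib.Helper27.fixes_of_fixes_small (p := p) (k := orderOf x) (e := p)
        hco (Or.inl ⟨hp2, rfl⟩) (MulAut.conj x) (Cfsg.pCore p G) (Cfsg.H1.pCore_isPGroup p)
        (fun y hy => hOn.conj_mem y hy x)
        (fun y _ => by rw [← map_pow, pow_orderOf_eq_one]; simp)
        (fun y hy hyp => by
          by_cases hy1 : y = 1
          · rw [hy1]; simp
          · have h1 : y ∈ Ω := ⟨hOF p hp hy, by rw [orderOf_eq_prime hyp hy1]; exact hp⟩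
            have h2 := (mem_centralizer_iff.1 hx) y h1
            rw [MulAut.conj_apply, ← h2]; group) y hy
      rw [MulAut.conj_apply] at key
      calc y * x = (x * y * x⁻¹) * x := by rw [key]
        _ = x * y := by group
  have main : ∀ q : ℕ, q.Prime → ∀ c ∈ C, (∃ a : ℕ, c ^ q ^ a = 1) → c ∈ F := by
    intro q hq c hc hca
    haveI : Fact q.Prime := ⟨hq⟩
    let Y : Set G := {y | ∃ p : ℕ, p.Prime ∧ p ≠ q ∧ y ∈ Cfsg.pCore p G}
    have hY : ∀ s ∈ Ω ∪ Y, ∀ t : G, t * s * t⁻¹ ∈ Ω ∪ Y := by
      rintro s (hs | ⟨p, hp, hpq, hs⟩) t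
      · exact Or.inl (hΩ s hs t)
      · exact Or.inr ⟨p, hp, hpq, (Cfsg.H1.pCore_normal (G := G) p).conj_mem s hs t⟩
    set K := centralizer (Ω ∪ Y) with hK
    have hKn : K.Normal := normal_centralizer_of_invariant _ hY
    have hKC : K ≤ C := centralizer_le Set.subset_union_left
    have hKY : ∀ k ∈ K, ∀ p : ℕ, p.Prime → p ≠ q → ∀ y ∈ Cfsg.pCore p G, y * k = k * y :=
      fun k hk p hp hpq y hy => (mem_centralizer_iff.1 hk) y (Or.inr ⟨p, hp, hpq, hy⟩)
    have hcK : c ∈ K := by
      rw [hK, mem_centralizer_iff]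
      rintro s (hs | ⟨p, hp, hpq, hs⟩)
      · exact (mem_centralizer_iff.1 hc) s hs
      · obtain ⟨a, ha⟩ := hca
        obtain ⟨j, -, hj⟩ := (Nat.dvd_prime_pow hq).1 (orderOf_dvd_of_pow_eq_one ha)
        have hco : (orderOf c).Coprime p := by
          rw [hj]; exact Nat.Coprime.pow_left _ ((Nat.coprime_primes hq hp).2 (Ne.symm hpq))
        exact (mem_centralizer_iff.1 (L p hp c hc hco)) s hs
    have hcen : ∀ x ∈ K, (orderOf x).Coprime q → ∀ k ∈ K, k * x = x * k := by
      intro x hx hco k hk
      have hxF : x ∈ F := by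
        apply Cfsg.H1.centralizer_fitting_le
        have h1 : Cfsg.fittingSubgroup G ≤ centralizer ({x} : Set G) := by
          rw [Cfsg.H1.fitting_eq_iSup_pCore]
          apply iSup_le
          intro p y hy
          rw [mem_centralizer_singleton_iff]
          by_cases hpq : (p : ℕ) = q
          · rw [hpq] at hy
            exact (mem_centralizer_iff.1 (L q hq x (hKC hx) hco)) y hy
          · exact hKY x hx p p.2 hpq y hy
        rw [mem_centralizer_iff]
        intro y hy
        exact mem_centralizer_singleton_iff.1 (h1 hy)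
      have h2 : x ∈ centralizer ({k} : Set G) := by
        apply mem_of_primary_mem _ x (isOfFinOrder_of_finite x)
        intro p hp z hz hza
        haveI : Fact p.Prime := ⟨hp⟩
        have hzF : z ∈ F := (zpowers_le.2 hxF) hz
        rw [mem_centralizer_singleton_iff]
        by_cases hpq : p = q
        · obtain ⟨a, ha⟩ := hza
          have h3 : orderOf z ∣ q ^ a := by rw [← hpq]; exact orderOf_dvd_of_pow_eq_one ha
          have h4 : orderOf z ∣ orderOf x := orderOf_dvd_of_mem_zpowers hz
          have h5 : orderOf z = 1 :=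
            Nat.eq_one_of_dvd_coprimes (Nat.Coprime.pow_right a hco) h4 h3
          rw [orderOf_eq_one_iff] at h5
          rw [h5]; simp
        · exact hKY k hk p hp hpq z (mem_pCore_of_mem_fitting hzF hza)
      exact (mem_centralizer_singleton_iff.1 h2).symm
    have hKnil : Group.IsNilpotent K := by
      apply Group.of_quotient_center_nilpotent
      have hpg : IsPGroup q (K ⧸ center K) := by
        intro xbar
        obtain ⟨x, rfl⟩ := QuotientGroup.mk_surjective xbar
        obtain ⟨a, s, hs, e⟩ := Nat.exists_eq_pow_mul_and_not_dvd (orderOf_pos x.1).ne' q hq.ne_one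
        refine ⟨a, ?_⟩
        rw [← QuotientGroup.mk_pow, QuotientGroup.eq_one_iff, mem_center_iff]
        intro k
        ext
        have h1 : orderOf (x.1 ^ q ^ a) ∣ s := by
          apply orderOf_dvd_of_pow_eq_one
          rw [← pow_mul, ← e, pow_orderOf_eq_one]
        have h2 : (orderOf (x.1 ^ q ^ a)).Coprime q :=
          Nat.Coprime.coprime_dvd_left h1 ((Nat.Prime.coprime_iff_not_dvd hq).2 hs).symm
        exact hcen (x.1 ^ q ^ a) (K.pow_mem x.2 _) h2 k.1 k.2
      exact hpg.isNilpotent
    exact Cfsg.Agent.Lib.Helper22.le_fittingSubgroup K hKn hKnil hcK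
  exact mem_of_primary_mem F g (isOfFinOrder_of_finite g)
    (fun q hq z hz ha => main q hq z ((zpowers_le.2 hgC) hz) ha)

end Cfsg.Agent.S3785
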