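import Cfsg.Statements.S3790
import Cfsg.Agent.H20.PLen
import Cfsg.Agent.H20.PGroup

set_option autoImplicit false
open Cfsg

namespace Cfsg.Agent.S3790

open Subgroup Cfsg.Agent.H20

section aux

variable {G : Type*} [Group G]

theorem relIndex_ne_zero' [Finite G] {M T : Subgroup G} (h : M ≤ T) : M.relIndex T ≠ 0 := by
  intro h0
  have := card_mul_relIndex h
  rw [h0, mul_zero] at this
  exact (Nat.card_pos (α := T)).ne this

theorem main [Finite G] {p : ℕ} (hp : p.Prime) : ∀ (r : ℕ) (q l : Fin r → ℕ),
    (∀ i, (q i).Prime ∧ q i ≠ p) → ∀ (M T : Subgroup G), M.Normal → T.Normal → M ≤ T →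
    (∀ s : ℕ, s.Prime → s ∣ M.relIndex T → s ≠ p → ∃ i, q i = s) →
    (∀ i, PL (q i) (l i) M T) → PL p (∏ i, (1 + l i)) M T := by
  intro r
  induction r with
  | zero =>
    intro q l _ M T hM hT hMT hcov _
    rw [Finset.univ_eq_empty, Finset.prod_empty]
    refine ⟨M, T, hM, hT, le_rfl, hMT, by rw [relIndex_self]; exact Nat.coprime_one_left p,
      ⟨_, Nat.eq_prime_pow_of_unique_prime_dvd (relIndex_ne_zero' hMT) ?_⟩,
      ⟨le_rfl, by rw [relIndex_self]; exact Nat.coprime_one_left p⟩⟩
    intro d hd hdd
    by_contra hne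
    obtain ⟨i, -⟩ := hcov d hd hdd hne
    exact i.elim0
  | succ r ih =>
    intro q l hq M T hM hT hMT hcov hPL
    rw [Fin.prod_univ_succ]
    have hq0 := (hq 0).1
    -- covering by the remaining primes
    have cov' : ∀ M' T' : Subgroup G, (M'.relIndex T').Coprime (q 0) →
        (∀ s : ℕ, s.Prime → s ∣ M'.relIndex T' → s ≠ p → ∃ i, q i = s) →
        ∀ s : ℕ, s.Prime → s ∣ M'.relIndex T' → s ≠ p → ∃ i : Fin r, q i.succ = s := by
      intro M' T' hc hcov' s hs hsd hsp
      obtain ⟨i, hi⟩ := hcov' s hs hsd hsp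
      induction i using Fin.cases with
      | zero =>
        exfalso
        rw [← hi] at hsd
        exact hq0.one_lt.ne' (Nat.eq_one_of_dvd_coprimes hc hsd dvd_rfl)
      | succ j => exact ⟨j, hi⟩
    have inner : ∀ k : ℕ, ∀ M T : Subgroup G, M.Normal → T.Normal →
        (∀ s : ℕ, s.Prime → s ∣ M.relIndex T → s ≠ p → ∃ i, q i = s) → PL (q 0) k M T →
        (∀ i : Fin r, PL (q i.succ) (l i.succ) M T) →
        PL p ((1 + k) * ∏ i : Fin r, (1 + l i.succ)) M T := by
      intro k
      induction k with
      | zero =>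
        intro M T hM hT hcov h0 hrest
        rw [Nat.add_zero, one_mul]
        exact ih (fun i => q i.succ) (fun i => l i.succ) (fun i => hq i.succ) M T hM hT h0.1
          (cov' M T h0.2 hcov) hrest
      | succ k ihk =>
        rintro M T hM hT hcov ⟨A, B, hA, hB, h1, h2, h3, ⟨j, h4⟩, h5⟩ hrest
        have hBT : B ≤ T := h5.le
        have hAT : A ≤ T := h2.trans hBT
        have s1 : PL p (∏ i : Fin r, (1 + l i.succ)) M A := by
          apply ih (fun i => q i.succ) (fun i => l i.succ) (fun i => hq i.succ) M A hM hA h1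
          · apply cov' M A h3
            intro s hs hsd hsp
            exact hcov s hs (hsd.trans
              (Cfsg.Agent.Lib.Helper23.relIndex_dvd_relIndex_of_normal M hAT)) hsp
          · intro i
            have := PL.inf (hq i.succ).1 A (hrest i)
            rwa [inf_eq_left.2 h1, inf_eq_right.2 hAT] at this
        have s2 : PL p 0 A B := by
          refine ⟨h2, ?_⟩
          rw [h4]
          exact Nat.Coprime.pow_left j ((Nat.coprime_primes hq0 hp).2 (hq 0).2)
        have s3 : PL p ((1 + k) * ∏ i : Fin r, (1 + l i.succ)) B T := by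
          apply ihk B T hB hT _ h5
          · intro i
            have := PL.sup (hq i.succ).1 B (hrest i)
            rwa [sup_eq_right.2 (h1.trans h2), sup_eq_left.2 hBT] at this
          · intro s hs hsd hsp
            exact hcov s hs (hsd.trans (relIndex_dvd_of_le_left T (h1.trans h2))) hsp
        have := (s1.concat s2).concat s3
        rwa [show (∏ i : Fin r, (1 + l i.succ)) + 0 + (1 + k) * ∏ i : Fin r, (1 + l i.succ) =
          (1 + (k + 1)) * ∏ i : Fin r, (1 + l i.succ) by ring] at this
    exact inner (l 0) M T hM hT hcov (hPL 0) (fun i => hPL i.succ)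

end aux

/-- Let G be a finite solvable group and p a prime. Suppose p₁, …, p_r are distinct primes, all different from p, that include every prime dividing the order of G other than p, and that G has p_i-length at most l_i for each i. Then G has p-length at most the product of the numbers 1 + l_i. -/
theorem result {G : Type*} [Group G] [Finite G] (hG : Group.IsSolvable G) (p : ℕ) [Fact p.Prime] (r : ℕ) (q : Fin r → ℕ) (hq : ∀ i, (q i).Prime ∧ q i ≠ p) (hinj : Function.Injective q) (hcover : ∀ s : ℕ, s.Prime → s ∣ Nat.card G → s ≠ p → ∃ i, q i = s) (l : Fin r → ℕ) (hl : ∀ i, Cfsg.PLengthLE (q i) (l i) G) : Cfsg.PLengthLE p (Finset.univ.prod fun i => 1 + l i) G := by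
  rw [pLengthLE_iff_PL]
  apply main Fact.out r q l hq ⊥ ⊤ inferInstance inferInstance bot_le
  · intro s hs hsd hsp
    rw [relIndex_bot_left, card_top] at hsd
    exact hcover s hs hsd hsp
  · intro i
    have : Fact (q i).Prime := ⟨(hq i).1⟩
    exact (pLengthLE_iff_PL (l i)).1 (hl i)

end Cfsg.Agent.S3790
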