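import Cfsg.Statements.S3791
import Cfsg.Agent.H20.PLen

set_option autoImplicit false
open Cfsg

namespace Cfsg.Agent.S3791

open Subgroup Cfsg.Agent.H20

section aux

variable {G : Type*} [Group G]

/-- internal derived series -/
def ds (H : Subgroup G) : ℕ → Subgroup G
  | 0 => H
  | n + 1 => ⁅ds H n, ds H n⁆

theorem ds_mono {H K : Subgroup G} (h : H ≤ K) (n : ℕ) : ds H n ≤ ds K n := by
  induction n with
  | zero => exact h
  | succ n ih => exact commutator_mono ih ih

theorem ds_map {G' : Type*} [Group G'] (f : G →* G') (H : Subgroup G) (n : ℕ) :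
    (ds H n).map f = ds (H.map f) n := by
  induction n with
  | zero => rfl
  | succ n ih =>
    change (⁅ds H n, ds H n⁆ : Subgroup G).map f = ⁅ds (H.map f) n, ds (H.map f) n⁆
    rw [map_commutator, ih]

theorem ds_subtype (H : Subgroup G) (n : ℕ) : (derivedSeries H n).map H.subtype = ds H n := by
  induction n with
  | zero =>
    change (⊤ : Subgroup H).map H.subtype = H
    rw [← MonoidHom.range_eq_map, range_subtype]
  | succ n ih =>
    change (⁅derivedSeries H n, derivedSeries H n⁆ : Subgroup H).map H.subtype = ⁅ds H n, ds H n⁆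
    rw [map_commutator, ih]

theorem derivedSeries_add' (a b : ℕ) : derivedSeries G (a + b) = ds (derivedSeries G a) b := by
  induction b with
  | zero => rfl
  | succ b ih =>
    change ⁅derivedSeries G (a + b), derivedSeries G (a + b)⁆ = ⁅ds _ b, ds _ b⁆
    rw [ih]

theorem ds_le_of_pow [Finite G] {p : ℕ} [Fact p.Prime] (P : Sylow p G) {d : ℕ}
    (hd : derivedSeries (P : Subgroup G) d = ⊥) (A B : Subgroup G) (hA : A.Normal) (hB : B.Normal)
    (h : ∃ j : ℕ, A.relIndex B = p ^ j) : ds B d ≤ A := by
  obtain ⟨j, h⟩ := h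
  have hf := QuotientGroup.mk'_surjective A
  have hBp : IsPGroup p (B.map (QuotientGroup.mk' A)) :=
    IsPGroup.of_card (n := j) (by rw [← relIndex_ker, QuotientGroup.ker_mk']; exact h)
  have hBn : (B.map (QuotientGroup.mk' A)).Normal := Normal.map hB _ hf
  have hle : B.map (QuotientGroup.mk' A) ≤ (P.mapSurjective hf : Sylow p (G ⧸ A)) :=
    hBp.le_sylow_of_normal _
  have h1 : ds (B.map (QuotientGroup.mk' A)) d ≤ ds ((P : Subgroup G).map (QuotientGroup.mk' A)) d :=
    ds_mono hle d
  rw [← ds_map, ← ds_map, ← ds_subtype (P : Subgroup G), hd, Subgroup.map_bot, Subgroup.map_bot,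
    le_bot_iff, Subgroup.map_eq_bot_iff, QuotientGroup.ker_mk'] at h1
  exact h1

theorem sum_swap {r : ℕ} (f g : Fin r → ℕ) (i : Fin r) (h : ∀ j, j ≠ i → f j = g j) :
    ∑ j, f j + g i = ∑ j, g j + f i := by
  have e1 := Finset.add_sum_erase Finset.univ f (Finset.mem_univ i)
  have e2 := Finset.add_sum_erase Finset.univ g (Finset.mem_univ i)
  have e3 : ∑ x ∈ Finset.univ.erase i, f x = ∑ x ∈ Finset.univ.erase i, g x :=
    Finset.sum_congr rfl (fun j hj => h j (Finset.ne_of_mem_erase hj))
  omega

theorem main [Finite G] (r : ℕ) (q : Fin r → ℕ) (hq : ∀ i, (q i).Prime) (d : Fin r → ℕ)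
    (hd : ∀ i, ∀ A B : Subgroup G, A.Normal → B.Normal → (∃ j : ℕ, A.relIndex B = q i ^ j) →
      ds B (d i) ≤ A) :
    ∀ (t : ℕ) (l : Fin r → ℕ), ∑ i, l i = t → ∀ M : Subgroup G, M.Normal →
      (∀ s : ℕ, s.Prime → s ∣ M.index → ∃ i, q i = s) → (∀ i, PL (q i) (l i) M ⊤) →
      derivedSeries G (∑ i, d i * l i) ≤ M := by
  intro t
  induction t using Nat.strong_induction_on with
  | _ t ih =>
  intro l hl M hM hcov hPL
  have step : ∀ i, ∃ A : Subgroup G, M ≤ A ∧ (M.relIndex A).Coprime (q i) ∧
      derivedSeries G (∑ i, d i * l i) ≤ A := by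
    intro i
    have hi := hPL i
    rcases hli : l i with _ | k
    · rw [hli] at hi
      exact ⟨⊤, le_top, hi.2, le_top⟩
    · rw [hli] at hi
      obtain ⟨A, B, hA, hB, h1, h2, h3, h4, h5⟩ := hi
      set l' := Function.update l i k with hl'
      have hl'i : l' i = k := Function.update_self i k l
      have hl'j : ∀ j, j ≠ i → l' j = l j := fun j hj => Function.update_of_ne hj k l
      have e1 := sum_swap l l' i (fun j hj => (hl'j j hj).symm)
      rw [hl'i, hli] at e1
      have e2 := sum_swap (fun j => d j * l j) (fun j => d j * l' j) i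
        (fun j hj => by simp only [hl'j j hj])
      simp only [hl'i, hli] at e2
      have e3 : ∑ j, d j * l j = ∑ j, d j * l' j + d i := by
        have : d i * (k + 1) = d i * k + d i := by ring
        omega
      have hIH := ih (∑ j, l' j) (by omega) l' rfl B hB
        (fun s hs hsd => hcov s hs (hsd.trans (index_dvd_of_le (h1.trans h2))))
        (fun j => by
          by_cases hj : j = i
          · subst hj; rw [hl'i]; exact h5
          · rw [hl'j j hj]
            have := PL.sup (hq j) B (hPL j)
            rwa [sup_eq_right.2 (h1.trans h2), top_sup_eq] at this)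
      refine ⟨A, h1, h3, ?_⟩
      rw [e3, derivedSeries_add']
      exact (ds_mono hIH (d i)).trans (hd i A B hA hB h4)
  choose A hA1 hA2 hA3 using step
  set D := derivedSeries G (∑ i, d i * l i) with hD
  have hW : M.relIndex (D ⊔ M) = 1 := by
    by_contra hne
    obtain ⟨s, hs, hsd⟩ := Nat.exists_prime_and_dvd hne
    obtain ⟨i, hi⟩ := hcov s hs (hsd.trans (relIndex_dvd_index_of_normal M _))
    have h1 : M.relIndex (D ⊔ M) ∣ M.relIndex (A i) :=
      Cfsg.Agent.Lib.Helper23.relIndex_dvd_relIndex_of_normal M (sup_le (hA3 i) (hA1 i))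
    have := Nat.eq_one_of_dvd_coprimes (hA2 i) (hsd.trans h1) (hi ▸ dvd_rfl)
    exact hs.one_lt.ne' this
  rw [relIndex_eq_one] at hW
  exact le_sup_left.trans hW

end aux

/-- The Hall–Higman bound on derived length: let G be a finite solvable group, let p₁, …, p_r be distinct primes that include every prime dividing the order of G, and suppose that for each i the Sylow p_i-subgroups of G have derived length at most d_i and G has p_i-length at most l_i. Then G has derived length at most Σ d_i l_i. -/
theorem result {G : Type*} [Group G] [Finite G] (hG : Group.IsSolvable G) (r : ℕ) (q : Fin r → ℕ) (hq : ∀ i, (q i).Prime) (hinj : Function.Injective q) (hcover : ∀ s : ℕ, s.Prime → s ∣ Nat.card G → ∃ i, q i = s) (d l : Fin r → ℕ) (hd : ∀ i, ∀ P : Subgroup G, (haveI := Fact.mk (hq i); ∃ S : Sylow (q i) G, (S : Subgroup G) = P) → derivedSeries ↥P (d i) = ⊥) (hl : ∀ i, Cfsg.PLengthLE (q i) (l i) G) : derivedSeries G (Finset.univ.sum fun i => d i * l i) = ⊥ := by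
  rw [eq_bot_iff]
  apply main r q hq d _ _ l rfl ⊥ inferInstance
  · intro s hs hsd
    rw [index_bot] at hsd
    exact hcover s hs hsd
  · intro i
    have : Fact (q i).Prime := ⟨hq i⟩
    exact (pLengthLE_iff_PL (l i)).1 (hl i)
  · intro i A B hA hB h
    have : Fact (q i).Prime := ⟨hq i⟩
    obtain ⟨P⟩ : Nonempty (Sylow (q i) G) := inferInstance
    exact ds_le_of_pow P (hd i P ⟨P, rfl⟩) A B hA hB h

end Cfsg.Agent.S3791
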