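import Cfsg.Statements.S3794
import Cfsg.Agent.H20.Fpf4
-- import your own Cfsg.Agent.* helpers here

set_option autoImplicit false
open Cfsg

namespace Cfsg.Agent.S3794

/-- Let G be a finite solvable group with an automorphism σ satisfying σ⁴ = 1 and fixing only the identity. Then the derived subgroup G' is nilpotent. -/
theorem result {G : Type*} [Group G] [Finite G] (hG : Group.IsSolvable G) (σ : MulAut G) (hσ : σ ^ 4 = 1) (hfpf : ∀ g : G, σ g = g → g = 1) : Group.IsNilpotent (commutator G) := by
  classical
  let φ : Subgroup.zpowers σ →* MulAut G := (Subgroup.zpowers σ).subtype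
  let Γ := G ⋊[φ] (Subgroup.zpowers σ)
  have : Finite Γ := Finite.of_equiv _ (SemidirectProduct.equivProd).symm
  let K : Subgroup Γ := (SemidirectProduct.inl : G →* Γ).range
  have hKn : K.Normal := by
    have : K = (SemidirectProduct.rightHom : Γ →* Subgroup.zpowers σ).ker :=
      SemidirectProduct.range_inl_eq_ker_rightHom
    rw [this]; infer_instance
  have hKs : Group.IsSolvable K :=
    Group.isSolvable_of_surjective (MonoidHom.rangeRestrict_surjective (SemidirectProduct.inl : G →* Γ))
  let s : Subgroup.zpowers σ := ⟨σ, Subgroup.mem_zpowers σ⟩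
  let a : Γ := SemidirectProduct.inr s
  have ha : a ^ 4 = 1 := by
    change (SemidirectProduct.inr s : Γ) ^ 4 = 1
    rw [← map_pow]
    have : s ^ 4 = 1 := Subtype.ext hσ
    rw [this, map_one]
  have hfix : ∀ g ∈ K, a * g * a⁻¹ = g → g = 1 := by
    rintro _ ⟨g, rfl⟩ h
    have h1 := SemidirectProduct.inl_aut (φ := φ) s g
    have h2 : (SemidirectProduct.inl (φ s g) : Γ) = SemidirectProduct.inl g := by
      rw [h1, map_inv]; exact h
    have h3 : σ g = g := SemidirectProduct.inl_injective h2
    rw [hfpf g h3, map_one]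
  have hmain := Cfsg.Agent.H20.commutator_le_fitting_of_fpf4 K hKs a ha hfix
  have hnil : Group.IsNilpotent (Cfsg.fittingSubgroup Γ) := Cfsg.Agent.Lib.Helper22.fittingSubgroup_isNilpotent
  have hmem : ∀ c : commutator G, (SemidirectProduct.inl (c : G) : Γ) ∈ Cfsg.fittingSubgroup Γ := by
    intro c
    apply hmain
    have h1 : (⁅K, K⁆ : Subgroup Γ) = (commutator G).map (SemidirectProduct.inl : G →* Γ) := by
      rw [commutator_def, Subgroup.map_commutator, ← MonoidHom.range_eq_map]
    rw [h1]
    exact ⟨c, c.2, rfl⟩
  let j : commutator G →* Cfsg.fittingSubgroup Γ :=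
    ((SemidirectProduct.inl : G →* Γ).comp (commutator G).subtype).codRestrict _ hmem
  have hj : j.ker ≤ Subgroup.center (commutator G) := by
    intro c hc
    have h1 : (SemidirectProduct.inl (c : G) : Γ) = 1 := congrArg Subtype.val (MonoidHom.mem_ker.1 hc)
    have h2 : (c : G) = 1 := SemidirectProduct.inl_injective (by rw [h1, map_one])
    have h3 : c = 1 := Subtype.ext h2
    rw [h3]
    exact one_mem _
  exact Subgroup.isNilpotent_of_ker_le_center j hj

end Cfsg.Agent.S3794
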