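import Cfsg.Statements.S3799
import Cfsg.Agent.Tr.Heis

set_option autoImplicit false
open Cfsg

namespace Cfsg.Agent.S3799

open Matrix

variable {F : Type*} [CommRing F] {n : ℕ}

/-- the vector `(0, a, c)` -/
def al (a : Fin n → F) (c : F) : Fin (n + 2) → F :=
  Fin.cons (α := fun _ => F) 0 (Fin.snoc (α := fun _ => F) a c)

theorem al_zero (a : Fin n → F) (c : F) : al a c 0 = 0 := rfl

theorem al_mid (a : Fin n → F) (c : F) (i : Fin n) : al a c i.castSucc.succ = a i := by
  simp [al]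

theorem al_last (a : Fin n → F) (c : F) : al a c (Fin.last (n + 1)) = c := by
  rw [← Fin.succ_last]
  simp [al]

theorem al_add (a a' : Fin n → F) (c c' : F) : al (a + a') (c + c') = al a c + al a' c' := by
  funext i
  refine Fin.cases ?_ (fun j => ?_) i
  · simp [al_zero]
  · refine Fin.lastCases ?_ (fun k => ?_) j
    · rw [Fin.succ_last]; simp [al_last]
    · simp [al_mid]

theorem al_single (d : F) :
    al (0 : Fin n → F) d = d • (Pi.single (Fin.last (n + 1)) 1 : Fin (n + 2) → F) := by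
  funext i
  refine Fin.cases ?_ (fun j => ?_) i
  · simp [al_zero, Pi.single_apply, Fin.ext_iff]
  · refine Fin.lastCases ?_ (fun k => ?_) j
    · rw [Fin.succ_last]; simp [al_last]
    · have : k.castSucc.succ ≠ Fin.last (n + 1) := by
        intro h
        have := congrArg Fin.val h
        simp at this
        omega
      simp [al_mid, Pi.single_apply, this]

theorem al_dot (a b : Fin n → F) (c : F) : al a c ⬝ᵥ al b 0 = a ⬝ᵥ b := by
  simp only [dotProduct]
  rw [Fin.sum_univ_succ, Fin.sum_univ_castSucc]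
  simp only [al_zero, al_mid, Fin.succ_last, al_last]
  simp

/-- the nilpotent part -/
def Nn (a b : Fin n → F) (c : F) : Matrix (Fin (n + 2)) (Fin (n + 2)) F :=
  vecMulVec (Pi.single 0 1) (al a c) + vecMulVec (al b 0) (Pi.single (Fin.last (n + 1)) 1)

theorem Nn_mul (a b : Fin n → F) (c : F) (a' b' : Fin n → F) (c' : F) :
    Nn a b c * Nn a' b' c' = Nn 0 0 (a ⬝ᵥ b') := by
  have h0 : al (0 : Fin n → F) (0 : F) = 0 := by
    rw [al_single]; simp
  have hl : (Fin.last (n + 1)) ≠ 0 := by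
    intro h
    have := congrArg Fin.val h
    simp at this
  unfold Nn
  rw [add_mul, mul_add, mul_add, vecMulVec_mul_vecMulVec, vecMulVec_mul_vecMulVec,
    vecMulVec_mul_vecMulVec, vecMulVec_mul_vecMulVec, al_dot, dotProduct_single, al_zero,
    single_dotProduct, single_dotProduct, al_last, Pi.single_eq_of_ne hl, h0, al_single]
  simp

theorem Nn_add (a b : Fin n → F) (c : F) (a' b' : Fin n → F) (c' : F) :
    Nn (a + a') (b + b') (c + c') = Nn a b c + Nn a' b' c' := by
  unfold Nn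
  have : al (b + b') (0 : F) = al b 0 + al b' 0 := by
    rw [← al_add, add_zero]
  rw [al_add, this, vecMulVec_add, add_vecMulVec]
  abel

theorem Nn_inj (a b : Fin n → F) (c : F) (a' b' : Fin n → F) (c' : F)
    (h : Nn a b c = Nn a' b' c') : a = a' ∧ b = b' ∧ c = c' := by
  have hl : (Fin.last (n + 1)) ≠ 0 := by
    intro h
    have := congrArg Fin.val h
    simp at this
  have hk : ∀ k : Fin n, k.castSucc.succ ≠ Fin.last (n + 1) := by
    intro k h
    have := congrArg Fin.val h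
    simp at this
    omega
  refine ⟨?_, ?_, ?_⟩
  · funext i
    have := congrFun (congrFun h 0) i.castSucc.succ
    simpa [Nn, vecMulVec_apply, al_zero, al_mid, Pi.single_apply, hk] using this
  · funext i
    have := congrFun (congrFun h i.castSucc.succ) (Fin.last (n + 1))
    simpa [Nn, vecMulVec_apply, al_zero, al_mid, al_last, Pi.single_apply, Fin.succ_ne_zero] using this
  · have := congrFun (congrFun h 0) (Fin.last (n + 1))
    simpa [Nn, vecMulVec_apply, al_zero, al_mid, al_last, Pi.single_apply] using this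

theorem one_add_mul (a b : Fin n → F) (c : F) (a' b' : Fin n → F) (c' : F) :
    (1 + Nn a b c) * (1 + Nn a' b' c') = 1 + Nn (a + a') (b + b') (c + c' + a ⬝ᵥ b') := by
  have h : Nn (a + a') (b + b') (c + c' + a ⬝ᵥ b') = Nn a b c + Nn a' b' c' + Nn 0 0 (a ⬝ᵥ b') := by
    rw [← Nn_add, ← Nn_add, add_zero, add_zero]
  rw [h, ← Nn_mul a b c a' b' c']
  noncomm_ring

theorem Nn_zero : Nn (0 : Fin n → F) 0 0 = 0 := by
  have h0 : al (0 : Fin n → F) (0 : F) = 0 := by
    rw [al_single]; simp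
  simp [Nn, h0]

/-- the unit -/
def Mu (a b : Fin n → F) (c : F) : Matrix.GeneralLinearGroup (Fin (n + 2)) F :=
  ⟨1 + Nn a b c, 1 + Nn (-a) (-b) (-c + a ⬝ᵥ b), by
    rw [one_add_mul]
    simp [Nn_zero], by
    rw [one_add_mul]
    simp [Nn_zero]⟩

theorem Mu_mul (a b : Fin n → F) (c : F) (a' b' : Fin n → F) (c' : F) :
    Mu a b c * Mu a' b' c' = Mu (a + a') (b + b') (c + c' + a ⬝ᵥ b') := by
  apply Units.ext
  exact one_add_mul a b c a' b' c'

theorem Mu_inj (a b : Fin n → F) (c : F) (a' b' : Fin n → F) (c' : F)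
    (h : Mu a b c = Mu a' b' c') : a = a' ∧ b = b' ∧ c = c' := by
  have h1 : (1 : Matrix (Fin (n + 2)) (Fin (n + 2)) F) + Nn a b c = 1 + Nn a' b' c' :=
    congrArg Units.val h
  exact Nn_inj _ _ _ _ _ _ (add_left_cancel h1)

theorem Mu_inv (a b : Fin n → F) (c : F) : (Mu a b c)⁻¹ = Mu (-a) (-b) (-c + a ⬝ᵥ b) := by
  apply Units.ext
  rfl

/-- the Heisenberg subgroup -/
def HE (F : Type*) [CommRing F] (n : ℕ) : Subgroup (Matrix.GeneralLinearGroup (Fin (n + 2)) F) where
  carrier := {x | ∃ a b c, x = Mu a b c}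
  mul_mem' := by
    rintro _ _ ⟨a, b, c, rfl⟩ ⟨a', b', c', rfl⟩
    exact ⟨_, _, _, Mu_mul _ _ _ _ _ _⟩
  one_mem' := ⟨0, 0, 0, by
    apply Units.ext
    show (1 : Matrix (Fin (n + 2)) (Fin (n + 2)) F) = 1 + Nn 0 0 0
    rw [Nn_zero, add_zero]⟩
  inv_mem' := by
    rintro _ ⟨a, b, c, rfl⟩
    exact ⟨_, _, _, Mu_inv a b c⟩

/-- For every odd prime p and every n ≥ 1 there is an extraspecial p-group of order p^(1+2n) and exponent p; concretely, the general linear group of degree n + 2 over the field with p elements contains such a subgroup. -/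
theorem result (p : ℕ) [Fact p.Prime] (hp : p ≠ 2) (n : ℕ) (hn : 1 ≤ n) : ∃ E : Subgroup (Matrix.GeneralLinearGroup (Fin (n + 2)) (ZMod p)), Cfsg.IsExtraspecial p ↥E ∧ Nat.card E = p ^ (1 + 2 * n) ∧ ∀ x ∈ E, x ^ p = 1 := by
  obtain ⟨h1, h2, h3⟩ := Cfsg.Tr.Heis.main (E := ↥(HE (ZMod p) n)) hp hn
    (fun a b c => ⟨Mu a b c, a, b, c, rfl⟩)
    (fun a b c a' b' c' => Subtype.ext (Mu_mul a b c a' b' c'))
    (fun a b c a' b' c' h => Mu_inj a b c a' b' c' (Subtype.ext_iff.1 h))
    (by
      rintro ⟨x, a, b, c, rfl⟩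
      exact ⟨a, b, c, rfl⟩)
  refine ⟨HE (ZMod p) n, h1, h2, ?_⟩
  intro x hx
  have := h3 ⟨x, hx⟩
  exact congrArg Subtype.val this

end Cfsg.Agent.S3799
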