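import Cfsg.Statements.S3800
import Cfsg.Agent.H20.PGroup

set_option autoImplicit false
open Cfsg

namespace Cfsg.Agent.S3800

open Cfsg.Agent.H20

theorem result {G : Type*} [Group G] [Finite G] {p : ℕ} [Fact p.Prime] (N : Subgroup G) [N.Normal] (hN : (Nat.card N).Coprime p) (P : Subgroup G) (hP : IsPGroup p P) : Subgroup.normalizer ((P.map (QuotientGroup.mk' N)) : Set (G ⧸ N)) = (Subgroup.normalizer (P : Set G)).map (QuotientGroup.mk' N) ∧ Subgroup.centralizer ((P.map (QuotientGroup.mk' N)) : Set (G ⧸ N)) = (Subgroup.centralizer (P : Set G)).map (QuotientGroup.mk' N) := by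
  have hp : p.Prime := Fact.out
  have hPN : P ⊓ N = ⊥ := inf_eq_bot_of_isPGroup_of_coprime hP hN
  have hidx : ¬ p ∣ P.relIndex (P ⊔ N) := by
    rw [← relIndex_inf_normal, hPN, Subgroup.relIndex_bot_left]
    intro h
    exact (Nat.Prime.coprime_iff_not_dvd hp).1 hN.symm h
  have hnorm : Subgroup.normalizer ((P.map (QuotientGroup.mk' N)) : Set (G ⧸ N)) ≤ (Subgroup.normalizer (P : Set G)).map (QuotientGroup.mk' N) := by
    intro x hx
    obtain ⟨g, rfl⟩ := QuotientGroup.mk'_surjective N x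
    -- P^g ≤ P ⊔ N
    have h1 : P.map (MulAut.conj g).toMonoidHom ≤ P ⊔ N := by
      rintro _ ⟨a, ha, rfl⟩
      have h2 : QuotientGroup.mk' N (g * a * g⁻¹) ∈ P.map (QuotientGroup.mk' N) := by
        rw [map_mul, map_mul, map_inv]
        exact (Subgroup.mem_normalizer_iff.1 hx _).1 (Subgroup.mem_map_of_mem _ ha)
      obtain ⟨b, hb, hbe⟩ := h2
      rw [QuotientGroup.mk'_apply, QuotientGroup.mk'_apply, QuotientGroup.eq] at hbe
      have : g * a * g⁻¹ = b * (b⁻¹ * (g * a * g⁻¹)) := by group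
      simp only [MulEquiv.coe_toMonoidHom, MulAut.conj_apply]
      rw [this]
      exact mul_mem (Subgroup.mem_sup_left hb) (Subgroup.mem_sup_right hbe)
    obtain ⟨m, hm, hme⟩ := conj_in_of_relIndex hP le_sup_left h1 hidx (card_sconj P g)
    have hn := inv_mul_mem_normalizer hme
    rw [← SetLike.mem_coe, Subgroup.mul_normal] at hm
    obtain ⟨a, ha, n, hn', rfl⟩ := hm
    refine ⟨a * ((a * n)⁻¹ * g), mul_mem (Subgroup.le_normalizer ha) hn, ?_⟩
    rw [QuotientGroup.mk'_apply, QuotientGroup.mk'_apply, QuotientGroup.eq]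
    have : (a * ((a * n)⁻¹ * g))⁻¹ * g = g⁻¹ * (a * n * a⁻¹) * (g⁻¹)⁻¹ := by group
    rw [this]
    exact ‹N.Normal›.conj_mem _ (‹N.Normal›.conj_mem n hn' _) _
  constructor
  · exact le_antisymm hnorm (Subgroup.le_normalizer_map _)
  · apply le_antisymm
    · intro x hx
      have hxn : x ∈ Subgroup.normalizer ((P.map (QuotientGroup.mk' N)) : Set (G ⧸ N)) :=
        Subgroup.centralizer_le_normalizer _ hx
      obtain ⟨h, hh, rfl⟩ := hnorm hxn
      refine ⟨h, ?_, rfl⟩
      rw [SetLike.mem_coe, Subgroup.mem_centralizer_iff]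
      rw [SetLike.mem_coe] at hh
      intro a ha
      have h1 : a * h * a⁻¹ * h⁻¹ ∈ P := by
        have : a * h * a⁻¹ * h⁻¹ = a * (h * a⁻¹ * h⁻¹) := by group
        rw [this]
        exact mul_mem ha ((Subgroup.mem_normalizer_iff.1 hh _).1 (inv_mem ha))
      have h2 : a * h * a⁻¹ * h⁻¹ ∈ N := by
        rw [← QuotientGroup.eq_one_iff]
        have h3 := (Subgroup.mem_centralizer_iff.1 hx) (QuotientGroup.mk' N a) (Subgroup.mem_map_of_mem _ ha)
        simp only [QuotientGroup.mk'_apply] at h3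
        simp only [QuotientGroup.mk_mul, QuotientGroup.mk_inv]
        rw [h3]; group
      have h4 : a * h * a⁻¹ * h⁻¹ ∈ P ⊓ N := ⟨h1, h2⟩
      rw [hPN, Subgroup.mem_bot] at h4
      calc a * h = (a * h * a⁻¹ * h⁻¹) * (h * a) := by group
        _ = h * a := by rw [h4, one_mul]
    · have := Subgroup.map_centralizer_le_centralizer_image (P : Set G) (QuotientGroup.mk' N)
      simpa using this

end Cfsg.Agent.S3800
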