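import Cfsg.Statements.S3979
import Cfsg.Agent.H21Schur

set_option autoImplicit false
open Cfsg

namespace Cfsg.Agent.S3979

/-- A finite cyclic group has trivial Schur multiplier: every finite stem extension of it is an isomorphism, said through `HasCyclicSchurMultiplier G 1`. -/
theorem result {G : Type*} [Group G] [Finite G] [IsCyclic G] : Cfsg.HasCyclicSchurMultiplier G 1 := by
  apply Cfsg.Agent.H21.hasCyclicSchurMultiplier_one_of
  intro Γ _ _ σ hσ
  obtain ⟨hs, hc, hd⟩ := hσ
  have hcomm : ∀ a b : Γ, a * b = b * a := commutative_of_cyclic_center_quotient σ hc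
  have : commutator Γ = ⊥ := by
    rw [commutator_eq_bot_iff_center_eq_top, eq_top_iff]
    intro x _
    rw [Subgroup.mem_center_iff]
    intro g
    exact hcomm g x
  rw [this] at hd
  exact le_bot_iff.mp hd

end Cfsg.Agent.S3979
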