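import Cfsg.Statements.S3950
import Mathlib
import Cfsg.Agent.Lib.Helper21.BilinExt
import Cfsg.Agent.Lib.Helper21.TwoChars
import Cfsg.Agent.S3979

set_option autoImplicit false
open Cfsg

namespace Cfsg.Agent.S3950

/-- A finite abelian group has trivial Schur multiplier if and only if it is cyclic. -/
theorem result {G : Type*} [CommGroup G] [Finite G] : Cfsg.HasCyclicSchurMultiplier G 1 ↔ IsCyclic G := by
  constructor
  · intro h
    by_contra hG
    obtain ⟨p, hp, f₁, f₂, g, k, h1, h2, h3⟩ := Cfsg.Agent.Lib.Helper21.exists_two_chars hG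
    haveI : Fact p.Prime := ⟨hp⟩
    have hst := Cfsg.Agent.Lib.Helper21.mulCocycle_isStem p f₁ f₂ g k h1 h2 h3
    set β := Cfsg.Agent.Lib.Helper21.mulCocycle f₁ f₂ with hβ
    let σ : Cfsg.Agent.Lib.Helper21.BilinExt β →* G :=
      (MulEquiv.multiplicativeAdditive (H := G)).toMonoidHom.comp (Cfsg.Agent.Lib.Helper21.BilinExt.proj β)
    have hker : σ.ker = (Cfsg.Agent.Lib.Helper21.BilinExt.proj β).ker := by
      ext x
      simp only [σ, MonoidHom.mem_ker, MonoidHom.comp_apply]
      exact (MulEquiv.multiplicativeAdditive (H := G)).map_eq_one_iff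
    have hσ : Cfsg.IsStemExtension σ := by
      refine ⟨?_, ?_, ?_⟩
      · exact (MulEquiv.multiplicativeAdditive (H := G)).surjective.comp hst.1
      · rw [hker]; exact hst.2.1
      · rw [hker]; exact hst.2.2
    obtain ⟨π, hπ⟩ := h.2 _ σ hσ
    have hx : (⟨0, 1⟩ : Cfsg.Agent.Lib.Helper21.BilinExt β) ∈ σ.ker := by
      rw [hker]; rfl
    obtain ⟨y, hy⟩ := hπ ⟨_, hx⟩
    have hy1 : y = 1 := Subsingleton.elim _ _
    rw [hy1, map_one] at hy
    have h4 := congrArg (fun z : σ.ker => (z : Cfsg.Agent.Lib.Helper21.BilinExt β).c) hy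
    simp only at h4
    exact zero_ne_one h4
  · intro h
    exact Cfsg.Agent.S3979.result

end Cfsg.Agent.S3950
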