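import Cfsg.Statements.S3951
import Mathlib
import Cfsg.Agent.Lib.Helper21.BilinExt
import Cfsg.Agent.Lib.Helper21.StemAb

set_option autoImplicit false
open Cfsg

namespace Cfsg.Agent.S3951

theorem closure_gen (m n : ℕ) [NeZero m] [NeZero n] :
    Subgroup.closure ({Multiplicative.ofAdd ((1, 0) : ZMod m × ZMod n),
      Multiplicative.ofAdd ((0, 1) : ZMod m × ZMod n)} : Set (Multiplicative (ZMod m × ZMod n))) = ⊤ := by
  rw [eq_top_iff]
  intro x _
  obtain ⟨⟨a, b⟩, rfl⟩ := Multiplicative.ofAdd.surjective x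
  have : (Multiplicative.ofAdd ((a, b) : ZMod m × ZMod n)) =
      (Multiplicative.ofAdd ((1, 0) : ZMod m × ZMod n)) ^ a.val *
      (Multiplicative.ofAdd ((0, 1) : ZMod m × ZMod n)) ^ b.val := by
    rw [← ofAdd_nsmul, ← ofAdd_nsmul, ← ofAdd_add]
    congr 1
    ext <;> simp
  rw [this]
  exact Subgroup.mul_mem _ (Subgroup.pow_mem _ (Subgroup.subset_closure (by simp)) _)
    (Subgroup.pow_mem _ (Subgroup.subset_closure (by simp)) _)


/-- For positive integers `m` and `n` with `n` dividing `m`, the Schur multiplier of the abelian group `ZMod m × ZMod n` (written multiplicatively) is cyclic of order `n`. In particular the elementary abelian group of order `p ^ 2` has multiplier of order `p`. -/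
theorem result (m n : ℕ) [NeZero m] [NeZero n] (hnm : n ∣ m) : Cfsg.HasCyclicSchurMultiplier (Multiplicative (ZMod m × ZMod n)) n := by
  let f₁ : ZMod m × ZMod n →+ ZMod n :=
    (ZMod.castHom hnm (ZMod n)).toAddMonoidHom.comp (AddMonoidHom.fst (ZMod m) (ZMod n))
  let f₂ : ZMod m × ZMod n →+ ZMod n := AddMonoidHom.snd (ZMod m) (ZMod n)
  refine ⟨⟨Cfsg.Agent.Lib.Helper21.BilinExt (Cfsg.Agent.Lib.Helper21.mulCocycle f₁ f₂), inferInstance,
    inferInstance, Cfsg.Agent.Lib.Helper21.BilinExt.proj _, ?_, ?_⟩, ?_⟩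
  · apply Cfsg.Agent.Lib.Helper21.mulCocycle_isStem n f₁ f₂ (1, 0) (0, 1)
    · change (ZMod.castHom hnm (ZMod n)) 1 = 1
      exact map_one _
    · simp [f₂]
    · simp [f₂]
  · exact ⟨Cfsg.Agent.Lib.Helper21.BilinExt.kerEquiv _⟩
  · intro Γ _ _ σ hσ
    obtain ⟨A, hA⟩ := hσ.1 (Multiplicative.ofAdd ((1, 0) : ZMod m × ZMod n))
    obtain ⟨B, hB⟩ := hσ.1 (Multiplicative.ofAdd ((0, 1) : ZMod m × ZMod n))
    obtain ⟨c, hcn, hker⟩ := Cfsg.Agent.Lib.Helper21.abelian_two_gen_ker σ hσ A B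
      (by rw [hA, hB]; exact closure_gen m n) n (by
        rw [hB, ← ofAdd_nsmul]
        have : n • ((0, 1) : ZMod m × ZMod n) = 0 := by ext <;> simp
        rw [this]; rfl)
    exact Cfsg.Agent.Lib.Helper21.exists_surjective_of_le_zpowers σ.ker c n hcn hker

end Cfsg.Agent.S3951
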