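import Cfsg.Statements.S3956
import Mathlib
import Cfsg.Agent.Lib.Helper21.SchurProj2

set_option autoImplicit false
universe u v
open Cfsg

namespace Cfsg.Agent.S3956

/-- Let `σ : Γ →* Q` be a finite stem extension of the finite group `Q` such that every homomorphism from `Q` to the quotient of `GL n ℂ` by its centre, for every `n`, lifts along `σ` to a homomorphism `Γ →* GL n ℂ`. Then `σ` is a Schur covering group of `Q`: for every finite stem extension `τ : Δ →* Q` with `Δ` in the same universe as `Q`, the kernel of `τ` is a homomorphic image of the kernel of `σ`. -/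
theorem result {Q : Type u} [Group Q] [Finite Q] {Γ : Type v} [Group Γ] [Finite Γ] (σ : Γ →* Q) (hσ : Cfsg.IsStemExtension σ) (hlift : ∀ (n : ℕ) (γ : Q →* (GL (Fin n) ℂ ⧸ Subgroup.center (GL (Fin n) ℂ))), ∃ ρ : Γ →* GL (Fin n) ℂ, (QuotientGroup.mk' (Subgroup.center (GL (Fin n) ℂ))).comp ρ = γ.comp σ) (Δ : Type u) [Group Δ] [Finite Δ] (τ : Δ →* Q) (hτ : Cfsg.IsStemExtension τ) : ∃ π : σ.ker →* τ.ker, Function.Surjective π := by
  have hφ : Function.Surjective (Cfsg.Agent.Lib.Helper21.Schur.std Q) :=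
    Cfsg.Agent.Lib.Helper21.Schur.std_surjective Q
  have hbs := Cfsg.Agent.Lib.Helper21.Schur.bar_surjective _ hφ
  obtain ⟨θ, hθ⟩ := Cfsg.Agent.Lib.Helper21.Schur.exists_lift (Cfsg.Agent.Lib.Helper21.Schur.std Q)
    (MonoidHom.id Q) σ hσ.1 hσ.2.1
  rw [MonoidHom.id_comp] at hθ
  obtain ⟨θ', hθ'⟩ := Cfsg.Agent.Lib.Helper21.Schur.exists_lift (Cfsg.Agent.Lib.Helper21.Schur.std Q)
    (MonoidHom.id Q) τ hτ.1 hτ.2.1
  rw [MonoidHom.id_comp] at hθ'
  have hinj := Cfsg.Agent.Lib.Helper21.Schur.multToKer_injective_of_lifting _ hφ σ hlift θ hθ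
  have hsur := Cfsg.Agent.Lib.Helper21.Schur.multToKer_surjective _ hbs σ hσ θ hθ
  have hsur' := Cfsg.Agent.Lib.Helper21.Schur.multToKer_surjective _ hbs τ hτ θ' hθ'
  exact ⟨(Cfsg.Agent.Lib.Helper21.Schur.multToKer _ τ θ' hθ').comp
    (MulEquiv.ofBijective _ ⟨hinj, hsur⟩).symm.toMonoidHom,
    hsur'.comp (MulEquiv.ofBijective _ ⟨hinj, hsur⟩).symm.surjective⟩

end Cfsg.Agent.S3956
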