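import Cfsg.Statements.S3957
import Mathlib
import Cfsg.Agent.Lib.Helper21.SchurMain

set_option autoImplicit false
universe u v
open Cfsg

namespace Cfsg.Agent.S3957

/-- Let `Q` be a finite group with Schur multiplier `A` and let `τ : Δ →* Q` be a finite stem extension, `Δ` in the universe of `Q`. Then there is a finite stem extension `σ : Γ →* Q` with kernel isomorphic to `A` (a Schur covering group) and a surjective homomorphism `β : Γ →* Δ` with `τ ∘ β = σ`. -/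
theorem result {Q : Type u} [Group Q] [Finite Q] {A : Type v} [CommGroup A] (hA : Cfsg.HasSchurMultiplier Q A) {Δ : Type u} [Group Δ] [Finite Δ] (τ : Δ →* Q) (hτ : Cfsg.IsStemExtension τ) : ∃ (Γ : Type u) (_ : Group Γ) (_ : Finite Γ) (σ : Γ →* Q), Cfsg.IsStemExtension σ ∧ Nonempty (σ.ker ≃* A) ∧ ∃ β : Γ →* Δ, Function.Surjective β ∧ τ.comp β = σ := by
  set φ := Cfsg.Agent.Lib.Helper21.Schur.std Q with hφdef
  have hφ : Function.Surjective φ := Cfsg.Agent.Lib.Helper21.Schur.std_surjective Q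
  obtain ⟨eA⟩ := Cfsg.Agent.Lib.Helper21.Schur.mulEquiv_mult_of_hasSchurMultiplier φ hφ hA
  obtain ⟨θ, hθ⟩ := Cfsg.Agent.Lib.Helper21.Schur.exists_lift φ (MonoidHom.id Q) τ hτ.1 hτ.2.1
  rw [MonoidHom.id_comp] at hθ
  have hbs := Cfsg.Agent.Lib.Helper21.Schur.bar_surjective φ hφ
  have hθs := Cfsg.Agent.Lib.Helper21.Schur.surjective_of_stem _ hbs τ hτ θ hθ
  have hτθ : ∀ x, τ (θ x) = Cfsg.Agent.Lib.Helper21.Schur.bar φ x := fun x => DFunLike.congr_fun hθ x
  have hN : θ.ker ≤ (Cfsg.Agent.Lib.Helper21.Schur.bar φ).ker := by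
    intro x hx
    rw [MonoidHom.mem_ker, ← hτθ, MonoidHom.mem_ker.mp hx, map_one]
  have hNT : θ.ker ⊔ Cfsg.Agent.Lib.Helper21.Schur.Mult (Cfsg.Agent.Lib.Helper21.Schur.bar φ) =
      (Cfsg.Agent.Lib.Helper21.Schur.bar φ).ker := by
    apply le_antisymm
    · exact sup_le hN inf_le_left
    · intro z hz
      have h1 : θ z ∈ τ.ker := by rw [MonoidHom.mem_ker, hτθ]; exact hz
      obtain ⟨t, ht, htz⟩ := Cfsg.Agent.Lib.Helper21.Schur.exists_mult_of_mem_ker _ hbs τ hτ θ hθ _ h1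
      have h2 : z = (z * t⁻¹) * t := by group
      rw [h2]
      apply Subgroup.mul_mem
      · apply Subgroup.mem_sup_left
        rw [MonoidHom.mem_ker, map_mul, map_inv, htz, mul_inv_cancel]
      · exact Subgroup.mem_sup_right ht
  obtain ⟨S, hSn, hS, hSN, hstem, ⟨e⟩, hfin⟩ :=
    Cfsg.Agent.Lib.Helper21.Schur.exists_cover φ hφ θ.ker hN hNT
  refine ⟨_, inferInstance, hfin, Cfsg.Agent.Lib.Helper21.Schur.quotLift _ S hS, hstem,
    ⟨e.trans eA.symm⟩, QuotientGroup.lift S θ hSN, ?_, ?_⟩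
  · intro d
    obtain ⟨h, rfl⟩ := hθs d
    exact ⟨QuotientGroup.mk h, rfl⟩
  · apply MonoidHom.ext
    intro c
    obtain ⟨h, rfl⟩ := QuotientGroup.mk_surjective c
    exact hτθ h

end Cfsg.Agent.S3957
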