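import Cfsg.Statements.S3958
import Mathlib
import Cfsg.Agent.Lib.Helper21.SchurAux

set_option autoImplicit false
universe u v
open Cfsg

namespace Cfsg.Agent.S3958

/-- Let `σ : Γ →* Q` be a finite stem extension of the finite group `Q` with `Γ` of trivial Schur multiplier. Then `σ` is a Schur covering group of `Q`: for every finite stem extension `τ : Δ →* Q` with `Δ` in the same universe as `Q`, the kernel of `τ` is a homomorphic image of the kernel of `σ`. -/
theorem result {Q : Type u} [Group Q] [Finite Q] {Γ : Type v} [Group Γ] [Finite Γ] (σ : Γ →* Q) (hσ : Cfsg.IsStemExtension σ) (hΓ : Cfsg.HasCyclicSchurMultiplier Γ 1) (Δ : Type u) [Group Δ] [Finite Δ] (τ : Δ →* Q) (hτ : Cfsg.IsStemExtension τ) : ∃ π : σ.ker →* τ.ker, Function.Surjective π := by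
  set φ := Cfsg.Agent.Lib.Helper21.Schur.std Γ with hφdef
  have hφ : Function.Surjective φ := Cfsg.Agent.Lib.Helper21.Schur.std_surjective Γ
  obtain ⟨eA⟩ := Cfsg.Agent.Lib.Helper21.Schur.mulEquiv_mult_of_hasSchurMultiplier φ hφ hΓ
  have hbs := Cfsg.Agent.Lib.Helper21.Schur.bar_surjective φ hφ
  set b := Cfsg.Agent.Lib.Helper21.Schur.bar φ with hb
  have htriv : ∀ t ∈ Cfsg.Agent.Lib.Helper21.Schur.Mult b, t = 1 := by
    intro t ht
    have h1 : eA.symm ⟨t, ht⟩ = eA.symm 1 := Subsingleton.elim (α := Multiplicative (ZMod 1)) _ _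
    have h2 := eA.symm.injective h1
    exact congrArg Subtype.val h2
  obtain ⟨β, hβ⟩ := Cfsg.Agent.Lib.Helper21.Schur.exists_lift φ σ τ hτ.1 hτ.2.1
  set π := σ.comp b with hπ
  have hπs : Function.Surjective π := hσ.1.comp hbs
  have hsurj := Cfsg.Agent.Lib.Helper21.Schur.multToKer_surjective π hπs τ hτ β hβ
  let e : Cfsg.Agent.Lib.Helper21.Schur.Mult π →* σ.ker :=
    (b.comp (Cfsg.Agent.Lib.Helper21.Schur.Mult π).subtype).codRestrict σ.ker (fun t => t.2.1)
  have hebij : Function.Bijective e := by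
    constructor
    · rw [injective_iff_map_eq_one]
      intro t ht
      have h1 : b t.1 = 1 := congrArg Subtype.val ht
      exact Subtype.ext (htriv t.1 ⟨h1, t.2.2⟩)
    · rintro ⟨z, hz⟩
      have h1 : z ∈ (commutator _).map b := by
        rw [Cfsg.Agent.Lib.Helper21.Schur.map_commutator_of_surjective b hbs]
        exact hσ.2.2 hz
      obtain ⟨h, hh, rfl⟩ := h1
      exact ⟨⟨h, hz, hh⟩, rfl⟩
  exact ⟨(Cfsg.Agent.Lib.Helper21.Schur.multToKer π τ β hβ).comp
    (MulEquiv.ofBijective e hebij).symm.toMonoidHom,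
    hsurj.comp (MulEquiv.ofBijective e hebij).symm.surjective⟩

end Cfsg.Agent.S3958
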