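import Cfsg.Statements.S3960
import Mathlib
import Cfsg.Agent.Lib.Helper21.CentralExt

set_option autoImplicit false
universe u
open Cfsg

namespace Cfsg.Agent.S3960

/-- A finite perfect group `Q` has a universal central extension: a finite perfect group `G` in the universe of `Q` and a surjective homomorphism `π : G →* Q` with central kernel such that for every group `X` in that universe and every surjective homomorphism `ξ : X →* Q` with central kernel there is exactly one homomorphism `η : G →* X` with `ξ ∘ η = π`. -/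
theorem result {Q : Type u} [Group Q] [Finite Q] (hQ : Group.IsPerfect Q) : ∃ (G : Type u) (_ : Group G) (_ : Finite G) (π : G →* Q), Group.IsPerfect G ∧ Function.Surjective π ∧ π.ker ≤ Subgroup.center G ∧ ∀ (X : Type u) [Group X] (ξ : X →* Q), Function.Surjective ξ → ξ.ker ≤ Subgroup.center X → ∃! η : G →* X, ξ.comp η = π := by
  let S : Set ℕ := {n | ∃ (G : Type u) (_ : Group G) (_ : Finite G) (σ : G →* Q),
    Cfsg.IsStemExtension σ ∧ Nat.card G = n}
  let B : ℕ := (Finset.range (Nat.card Q * Nat.card Q + 1)).sup Subgroup.cardCommutatorBound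
  have hSB : ∀ n ∈ S, n ≤ B := by
    rintro n ⟨G, _, _, σ, hσ, rfl⟩
    have hG := Cfsg.Agent.Lib.Helper21.isPerfect_of_stem σ hσ hQ
    have h1 := Subgroup.card_commutator_le_of_finite_commutatorSet G
    rw [hG.commutator_eq_top, Subgroup.card_top] at h1
    refine h1.trans ?_
    apply Finset.le_sup (f := Subgroup.cardCommutatorBound)
    rw [Finset.mem_range, Nat.lt_succ_iff]
    exact Cfsg.Agent.Lib.Helper21.card_commutatorSet_le_of_central σ hσ.1 hσ.2.1
  have hSfin : S.Finite := (Set.finite_Iic B).subset hSB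
  have hSne : S.Nonempty := by
    refine ⟨Nat.card Q, Q, inferInstance, inferInstance, MonoidHom.id Q, ⟨Function.surjective_id, ?_, ?_⟩, rfl⟩
    · rw [MonoidHom.ker_id]; exact bot_le
    · rw [MonoidHom.ker_id]; exact bot_le
  obtain ⟨n, ⟨G, iG, iF, σ, hσ, hn⟩, hmax⟩ := Set.exists_max_image S id hSfin hSne
  have hG := Cfsg.Agent.Lib.Helper21.isPerfect_of_stem σ hσ hQ
  have hM : ∀ (Γ : Type u) [Group Γ] [Finite Γ] (τ : Γ →* G), Cfsg.IsStemExtension τ → τ.ker = ⊥ := by
    intro Γ _ _ τ hτ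
    have hcomp := Cfsg.Agent.Lib.Helper21.isStem_comp τ σ hτ hσ.1 hσ.2.1 hG
    have hle : Nat.card Γ ≤ n := hmax _ ⟨Γ, inferInstance, inferInstance, σ.comp τ, hcomp, rfl⟩
    have hge : Nat.card G ≤ Nat.card Γ := Nat.card_le_card_of_surjective τ hτ.1
    have hbij := (Nat.bijective_iff_surjective_and_card τ).mpr ⟨hτ.1, by omega⟩
    exact (MonoidHom.ker_eq_bot_iff τ).mpr hbij.1
  refine ⟨G, iG, iF, σ, hG, hσ.1, hσ.2.1, ?_⟩
  intro X _ ξ hξ hξk
  obtain ⟨η, hη⟩ := Cfsg.Agent.Lib.Helper21.exists_lift_of_trivial_multiplier hG σ hM X ξ hξ hξk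
  refine ⟨η, hη, ?_⟩
  intro η' hη'
  apply Cfsg.Agent.Lib.Helper21.hom_eq_of_perfect hG
  intro g
  apply hξk
  have h1 : ξ (η g) = σ g := DFunLike.congr_fun hη g
  have h2 : ξ (η' g) = σ g := DFunLike.congr_fun hη' g
  rw [MonoidHom.mem_ker, map_mul, map_inv, h1, h2, mul_inv_cancel]

end Cfsg.Agent.S3960
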