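import Cfsg.Statements.S3963
import Mathlib
import Cfsg.Agent.H21Schur
import Cfsg.Agent.Lib.Helper21.StemInv

set_option autoImplicit false
open Cfsg

namespace Cfsg.Agent.S3963

open QuaternionGroup in
theorem closure_gen (n : ℕ) [NeZero n] :
    Subgroup.closure ({a 1, xa 0} : Set (QuaternionGroup n)) = ⊤ := by
  rw [eq_top_iff]
  have ha : ∀ i : ZMod (2 * n), a i ∈ Subgroup.closure ({a 1, xa 0} : Set (QuaternionGroup n)) := by
    intro i
    have : (a 1 : QuaternionGroup n) ^ i.val = a i := by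
      rw [a_one_pow, ZMod.natCast_zmod_val]
    rw [← this]
    exact Subgroup.pow_mem _ (Subgroup.subset_closure (by simp)) _
  rintro (i | i) _
  · exact ha i
  · have : (xa i : QuaternionGroup n) = xa 0 * a i := by rw [xa_mul_a, zero_add]
    rw [this]
    exact Subgroup.mul_mem _ (Subgroup.subset_closure (by simp)) (ha i)


/-- For every `n ≥ 1` the dicyclic (generalized quaternion) group of order `4 n` has trivial Schur multiplier. -/
theorem result (n : ℕ) [NeZero n] : Cfsg.HasCyclicSchurMultiplier (QuaternionGroup n) 1 := by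
  apply Cfsg.Agent.H21.hasCyclicSchurMultiplier_one_of
  intro Γ _ _ σ hσ
  obtain ⟨hs, hc, hd⟩ := hσ
  obtain ⟨A, hA⟩ := hs (QuaternionGroup.a 1)
  obtain ⟨X, hX⟩ := hs (QuaternionGroup.xa 0)
  have hinv : σ X * σ A * (σ X)⁻¹ = (σ A)⁻¹ := by
    rw [hA, hX, mul_inv_eq_iff_eq_mul, eq_inv_mul_iff_mul_eq]
    simp
  have hgen : Subgroup.closure ({σ A, σ X} : Set (QuaternionGroup n)) = ⊤ := by
    rw [hA, hX]; exact closure_gen n
  have hw0 : (A ^ n)⁻¹ * (X * X) ∈ Subgroup.center Γ := by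
    apply hc
    rw [MonoidHom.mem_ker]
    simp only [map_mul, map_inv, map_pow, hA, hX]
    rw [QuaternionGroup.a_one_pow, QuaternionGroup.xa_mul_xa]
    simp
  have hcomm : Commute X (A ^ n) := by
    have h1 : A ^ n = (X * X) * ((A ^ n)⁻¹ * (X * X))⁻¹ := by group
    rw [h1]
    apply Commute.mul_right ((Commute.refl X).mul_right (Commute.refl X))
    apply Commute.inv_right
    exact (Subgroup.mem_center_iff.mp hw0 X)
  have hcn := Cfsg.Agent.Lib.Helper21.inv_c_pow σ hc A X hinv n hcomm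
  rw [eq_bot_iff]
  intro w hw
  obtain ⟨k, hk, hdvd⟩ := Cfsg.Agent.Lib.Helper21.inv_ker_elt σ hc A X hinv hgen hd w hw
  rw [hA, QuaternionGroup.orderOf_a_one] at hdvd
  have hnk : n ∣ k := Nat.dvd_of_mul_dvd_mul_left (by norm_num) hdvd
  obtain ⟨j, rfl⟩ := hnk
  rw [Subgroup.mem_bot, hk, pow_mul, hcn, one_pow]

end Cfsg.Agent.S3963
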