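import Cfsg.Statements.S3964
import Mathlib
import Cfsg.Agent.H21Schur
import Cfsg.Agent.Lib.Helper21.StemDihedral

set_option autoImplicit false
open Cfsg

namespace Cfsg.Agent.S3964

/-- For odd `n` the dihedral group of order `2 n` has trivial Schur multiplier. -/
theorem result (n : ℕ) (hn : Odd n) : Cfsg.HasCyclicSchurMultiplier (DihedralGroup n) 1 := by
  haveI : NeZero n := ⟨by rintro rfl; simp at hn⟩
  apply Cfsg.Agent.H21.hasCyclicSchurMultiplier_one_of
  intro Γ _ _ σ hσ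
  obtain ⟨c, hcn, hker⟩ := Cfsg.Agent.Lib.Helper21.dihedral_stem_ker n σ hσ
  rw [eq_bot_iff]
  intro w hw
  obtain ⟨k, hk, hdvd⟩ := hker w hw
  have hnk : n ∣ k := (Nat.Coprime.dvd_mul_left (Nat.coprime_two_right.mpr hn)).mp hdvd
  obtain ⟨j, rfl⟩ := hnk
  rw [Subgroup.mem_bot, hk, pow_mul, hcn, one_pow]

end Cfsg.Agent.S3964
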