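import Cfsg.Statements.S3965
import Mathlib
import Cfsg.Agent.Lib.Helper21.QuatToDih
import Cfsg.Agent.Lib.Helper21.StemDihedral

set_option autoImplicit false
open Cfsg

namespace Cfsg.Agent.S3965

/-- For even `n ≥ 2` the dihedral group of order `2 n` has Schur multiplier cyclic of order `2`. -/
theorem result (n : ℕ) [NeZero n] (hn : Even n) : Cfsg.HasCyclicSchurMultiplier (DihedralGroup n) 2 := by
  refine ⟨⟨QuaternionGroup n, inferInstance, inferInstance, Cfsg.Agent.Lib.Helper21.quatToDih n,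
    Cfsg.Agent.Lib.Helper21.quatToDih_isStem n hn, ?_⟩, ?_⟩
  · haveI : Fact (Nat.Prime 2) := ⟨Nat.prime_two⟩
    exact ⟨mulEquivOfPrimeCardEq (p := 2) (Cfsg.Agent.Lib.Helper21.card_ker_quatToDih n) (by simp)⟩
  · intro Γ _ _ σ hσ
    obtain ⟨c, hcn, hker⟩ := Cfsg.Agent.Lib.Helper21.dihedral_stem_ker n σ hσ
    obtain ⟨m, hm⟩ := hn
    apply Cfsg.Agent.Lib.Helper21.exists_surjective_of_le_zpowers σ.ker (c ^ m) 2
    · rw [← pow_mul, mul_two, ← hm, hcn]
    · intro w hw
      obtain ⟨k, hk, hdvd⟩ := hker w hw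
      have hmk : m ∣ k := by
        rw [hm, ← two_mul] at hdvd
        exact Nat.dvd_of_mul_dvd_mul_left (by norm_num) hdvd
      obtain ⟨j, rfl⟩ := hmk
      rw [hk, pow_mul]
      exact Subgroup.pow_mem _ (Subgroup.mem_zpowers _) _

end Cfsg.Agent.S3965
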