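import Cfsg.Statements.S3976
import Mathlib
import Cfsg.Agent.Lib.Helper21.Wielandt

set_option autoImplicit false
open Cfsg
open Pointwise

namespace Cfsg.Agent.S3976

/-- Let `p` be a prime and `G` a group of order `p ^ m`. For every `s ≤ m` the number of normal subgroups of `G` of order `p ^ s` is congruent to `1` modulo `p`. -/
theorem result {G : Type*} [Group G] [Finite G] (p m s : ℕ) (hp : p.Prime) (hG : Nat.card G = p ^ m) (hs : s ≤ m) : Nat.card {H : Subgroup G // H.Normal ∧ Nat.card H = p ^ s} ≡ 1 [MOD p] := by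
  haveI : Fact p.Prime := ⟨hp⟩
  have hGp : IsPGroup p G := IsPGroup.of_card hG
  have hGp' : IsPGroup p (ConjAct G) := hGp.of_equiv ConjAct.toConjAct
  have h1 := Cfsg.Agent.Lib.Helper21.card_subgroups_prime_pow_modEq_one (G := G) p s
    (by rw [hG]; exact pow_dvd_pow p hs)
  let Y : SubMulAction (ConjAct G) (Subgroup G) :=
    { carrier := {H | Nat.card H = p ^ s}
      smul_mem' := by
        intro g H hH
        show Nat.card (g • H : Subgroup G) = p ^ s
        rw [← Nat.card_congr (Subgroup.equivSMul g H).toEquiv]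
        exact hH }
  haveI : Finite Y := Finite.of_equiv {H : Subgroup G // Nat.card H = p ^ s} (Equiv.refl _)
  have h2 := hGp'.card_modEq_card_fixedPoints Y
  have h3 : Nat.card Y = Nat.card {H : Subgroup G // Nat.card H = p ^ s} := rfl
  have h4 : Nat.card (MulAction.fixedPoints (ConjAct G) Y) =
      Nat.card {H : Subgroup G // H.Normal ∧ Nat.card H = p ^ s} := by
    apply Nat.card_congr
    refine ⟨fun H => ⟨H.1.1, ?_, H.1.2⟩, fun H => ⟨⟨H.1, H.2.2⟩, ?_⟩, ?_, ?_⟩
    · constructor
      intro n hn g
      have hfix : ConjAct.toConjAct g • H.1 = H.1 := H.2 (ConjAct.toConjAct g)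
      have hfix' : ConjAct.toConjAct g • (H.1.1 : Subgroup G) = H.1.1 := congrArg Subtype.val hfix
      have := Subgroup.smul_mem_pointwise_smul n (ConjAct.toConjAct g) H.1.1 hn
      rw [hfix', ConjAct.toConjAct_smul] at this
      exact this
    · intro g
      exact Subtype.ext (H.2.1.conjAct g)
    · intro H; rfl
    · intro H; rfl
  rw [← h4]
  exact (h2.symm.trans (h3 ▸ h1))

end Cfsg.Agent.S3976
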