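import Cfsg.Statements.S3978
import Mathlib
import Cfsg.Agent.Lib.Helper21.SchurProj2
import Cfsg.Agent.Lib.Helper21.GLCenter
import Cfsg.Agent.H21Schur
import Cfsg.Agent.S3956

set_option autoImplicit false
open Cfsg

namespace Cfsg.Agent.S3978

/-- A finite group `Q` has trivial Schur multiplier if and only if, for every `n`, every homomorphism from `Q` to the projective general linear group (the quotient of `GL n ℂ` by its centre) lifts to a homomorphism into `GL n ℂ`. -/
theorem result {Q : Type*} [Group Q] [Finite Q] : Cfsg.HasCyclicSchurMultiplier Q 1 ↔ ∀ (n : ℕ) (γ : Q →* (GL (Fin n) ℂ ⧸ Subgroup.center (GL (Fin n) ℂ))), ∃ ρ : Q →* GL (Fin n) ℂ, (QuotientGroup.mk' (Subgroup.center (GL (Fin n) ℂ))).comp ρ = γ := by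
  have hid : Cfsg.IsStemExtension (MonoidHom.id Q) := by
    refine ⟨Function.surjective_id, ?_, ?_⟩
    · rw [MonoidHom.ker_id]; exact bot_le
    · rw [MonoidHom.ker_id]; exact bot_le
  constructor
  · intro h n γ
    have hk : Nonempty ((MonoidHom.id Q).ker ≃* Multiplicative (ZMod 1)) := by
      rw [MonoidHom.ker_id]
      exact ⟨MulEquiv.ofUnique⟩
    obtain ⟨ρ, hρ⟩ := Cfsg.Agent.Lib.Helper21.Schur.exists_lift_of_cover h (MonoidHom.id Q) hid hk
      (Cfsg.Agent.Lib.Helper21.Schur.center_GL_divisible n) γ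
    exact ⟨ρ, by rw [hρ, MonoidHom.comp_id]⟩
  · intro h
    apply Cfsg.Agent.H21.hasCyclicSchurMultiplier_one_of
    intro Γ _ _ τ hτ
    obtain ⟨π, hπ⟩ := Cfsg.Agent.S3956.result (MonoidHom.id Q) hid (by
      intro n γ
      obtain ⟨ρ, hρ⟩ := h n γ
      exact ⟨ρ, by rw [hρ, MonoidHom.comp_id]⟩) Γ τ hτ
    rw [eq_bot_iff]
    intro x hx
    obtain ⟨a, ha⟩ := hπ ⟨x, hx⟩
    have ha1 : a = 1 := by
      apply Subtype.ext
      exact a.2
    rw [ha1, map_one] at ha
    rw [Subgroup.mem_bot]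
    exact (congrArg Subtype.val ha).symm

end Cfsg.Agent.S3978
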