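import Cfsg.Statements.S3992
import Cfsg.Agent.Lib.Helper16.PClosed
import Cfsg.Agent.Lib.Helper16.MinOver
import Cfsg.Agent.Lib.Helper16.Frat
import Cfsg.Agent.H1.Small2
import Cfsg.Agent.S0033
import Cfsg.Agent.S0041
import Cfsg.Agent.H17.UniqueP

set_option autoImplicit false
open Cfsg

namespace Cfsg.Agent.S3992

open Cfsg.Agent.Lib.Helper16
open scoped commutatorElement

universe u

theorem eppo_prime_eq {X : Type*} [Group X] (h : ∀ g : X, g ≠ 1 → IsPrimePow (orderOf g)) {x y : X} {p q : ℕ}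
    (hp : p.Prime) (hq : q.Prime) (hx : orderOf x = p) (hy : orderOf y = q) (hc : Commute x y) : p = q := by
  by_contra hne
  have hcop : Nat.Coprime (orderOf x) (orderOf y) := by
    rw [hx, hy]; exact (Nat.coprime_primes hp hq).2 hne
  have ho := hc.orderOf_mul_eq_mul_orderOf_of_coprime hcop
  have h1 : x * y ≠ 1 := by
    intro h1
    rw [h1, orderOf_one, hx, hy] at ho
    have := hp.two_le
    have := hq.two_le
    nlinarith
  have hpp := h _ h1
  rw [ho, hx, hy] at hpp
  obtain ⟨r, k, hr, hk, hrk⟩ := hpp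
  have hr' := hr.nat_prime
  have h1 : p ∣ r ^ k := hrk ▸ Dvd.intro _ rfl
  have h2 : q ∣ r ^ k := hrk ▸ Dvd.intro_left _ rfl
  have e1 := (Nat.prime_dvd_prime_iff_eq hp hr').1 (hp.dvd_of_dvd_pow h1)
  have e2 := (Nat.prime_dvd_prime_iff_eq hq hr').1 (hq.dvd_of_dvd_pow h2)
  exact hne (e1.trans e2.symm)

theorem eppo_dvd_eq {X : Type*} [Group X] [Finite X] (h : ∀ g : X, g ≠ 1 → IsPrimePow (orderOf g))
    {x y : X} {p t : ℕ} (hp : p.Prime) (ht : t.Prime) (hx : p ∣ orderOf x) (hy : t ∣ orderOf y)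
    (hc : Commute x y) : p = t :=
  eppo_prime_eq h hp ht (orderOf_pow_orderOf_div (orderOf_pos x).ne' hx)
    (orderOf_pow_orderOf_div (orderOf_pos y).ne' hy) ((hc.pow_left _).pow_right _)

theorem eppo_commute_pow {X : Type*} [Group X] [Finite X] (h : ∀ g : X, g ≠ 1 → IsPrimePow (orderOf g))
    {z x : X} {t : ℕ} (ht : t.Prime) (hz : t ∣ orderOf z) (hc : Commute x z) : ∃ k, orderOf x = t ^ k := by
  by_cases hx : x = 1
  · exact ⟨0, by simp [hx]⟩
  obtain ⟨r, k, hr, hk, hrk⟩ := h x hx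
  have hr' := hr.nat_prime
  have hdvd : r ∣ orderOf x := by rw [← hrk]; exact dvd_pow_self r hk.ne'
  have := eppo_dvd_eq h hr' ht hdvd hz hc
  exact ⟨k, by rw [← hrk, this]⟩

theorem dvd_orderOf_of_isPGroup {X : Type*} [Group X] {p : ℕ} (hp : p.Prime) {H : Subgroup X}
    (hH : IsPGroup p H) {v : X} (hv : v ∈ H) (h1 : v ≠ 1) : p ∣ orderOf v := by
  obtain ⟨k, hk⟩ := hH ⟨v, hv⟩
  have hk' : v ^ (p ^ k) = 1 := by simpa using congrArg Subtype.val hk
  obtain ⟨j, -, hj⟩ := (Nat.dvd_prime_pow hp).1 (orderOf_dvd_of_pow_eq_one hk')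
  rcases j with _ | j
  · simp at hj; exact absurd hj h1
  · rw [hj]; exact dvd_pow_self p (Nat.succ_ne_zero j)

theorem eppo_subgroup {X : Type*} [Group X] (h : ∀ g : X, g ≠ 1 → IsPrimePow (orderOf g)) (H : Subgroup X) :
    ∀ g : H, g ≠ 1 → IsPrimePow (orderOf g) := by
  intro g hg
  rw [← Subgroup.orderOf_coe]
  exact h _ (fun h1 => hg (Subtype.ext h1))

theorem commute_of_nilpotent {X : Type*} [Group X] [Finite X] (hn : Group.IsNilpotent X) {x y : X} {p q : ℕ}
    (hp : p.Prime) (hq : q.Prime) (hne : p ≠ q) (hx : orderOf x = p) (hy : orderOf y = q) : Commute x y := by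
  haveI := Fact.mk hp
  haveI := Fact.mk hq
  have hnorm := (Group.isNilpotent_of_finite_tfae (G := X)).out 0 3
  have hN := hnorm.1 hn
  have h1 : IsPGroup p (Subgroup.zpowers x) := IsPGroup.of_card (n := 1) (by rw [Nat.card_zpowers, hx, pow_one])
  have h2 : IsPGroup q (Subgroup.zpowers y) := IsPGroup.of_card (n := 1) (by rw [Nat.card_zpowers, hy, pow_one])
  obtain ⟨P, hP⟩ := h1.exists_le_sylow
  obtain ⟨Q, hQ⟩ := h2.exists_le_sylow
  exact Subgroup.commute_of_normal_of_disjoint _ _ (hN p inferInstance P) (hN q inferInstance Q)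
    (IsPGroup.disjoint_of_ne p q hne _ _ P.2 Q.2) x y (hP (Subgroup.mem_zpowers x)) (hQ (Subgroup.mem_zpowers y))

theorem isPGroup_of_primes {X : Type*} [Group X] [Finite X] {p : ℕ} (hp : p.Prime)
    (h : ∀ q : ℕ, q.Prime → q ∣ Nat.card X → q = p) : IsPGroup p X := by
  have := Nat.eq_prime_pow_of_unique_prime_dvd (n := Nat.card X) (p := p) Nat.card_pos.ne'
    (fun {d} hd hdv => h d hd hdv)
  exact IsPGroup.of_card this

theorem solvable_of_isPGroup {X : Type*} [Group X] [Finite X] {p : ℕ} (hp : p.Prime) (h : IsPGroup p X) :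
    Group.IsSolvable X := by
  haveI := Fact.mk hp
  haveI := h.isNilpotent
  infer_instance

theorem eppo_solvable_aux (n : ℕ) : ∀ (S : Type u) [Group S] [Finite S], Nat.card S = n → Group.IsSolvable S →
    (∀ g : S, g ≠ 1 → IsPrimePow (orderOf g)) → (Nat.card S).primeFactors.card ≤ 2 := by
  induction n using Nat.strong_induction_on with
  | _ n ih =>
  intro S _ _ hn hsol hpp
  by_cases hS : Subsingleton S
  · rw [Nat.card_eq_one_iff_unique.2 ⟨hS, ⟨1⟩⟩]; simp
  haveI : Nontrivial S := not_subsingleton_iff_nontrivial.1 hS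
  have hlt := Group.IsSolvable.commutator_lt_top_of_nontrivial S
  obtain ⟨M, hM, hle⟩ := exists_coatom_ge hlt.ne
  haveI hMn : M.Normal := normal_of_commutator_le hle
  have hv := Cfsg.H1.index_prime_of_normal_coatom M hM
  set v := M.index with hvdef
  have hcard : Nat.card S = Nat.card M * v := (M.card_mul_index).symm
  have hMlt : Nat.card M < n := by
    rw [← hn, hcard]
    have := hv.two_le
    have : 0 < Nat.card M := Nat.card_pos
    nlinarith
  have ihM := ih _ hMlt M rfl inferInstance (eppo_subgroup hpp M)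
  have hpf : (Nat.card S).primeFactors = (Nat.card M).primeFactors ∪ {v} := by
    rw [hcard, Nat.primeFactors_mul Nat.card_pos.ne' hv.pos.ne', hv.primeFactors]
  by_cases hvM : v ∣ Nat.card M
  · have : (Nat.card S).primeFactors = (Nat.card M).primeFactors := by
      rw [hpf]
      apply Finset.union_eq_left.2
      intro a ha
      rw [Finset.mem_singleton] at ha
      rw [ha]
      exact Nat.mem_primeFactors.2 ⟨hv, hvM, Nat.card_pos.ne'⟩
    rw [this]; exact ihM
  by_cases h1 : (Nat.card M).primeFactors.card ≤ 1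
  · rw [hpf]
    calc _ ≤ (Nat.card M).primeFactors.card + ({v} : Finset ℕ).card := Finset.card_union_le _ _
      _ ≤ 2 := by rw [Finset.card_singleton]; omega
  exfalso
  push Not at h1
  obtain ⟨p, hp, q, hq, hpq⟩ := Finset.one_lt_card.1 h1
  have hp' := Nat.mem_primeFactors.1 hp
  have hq' := Nat.mem_primeFactors.1 hq
  haveI := Fact.mk hv
  haveI := Fact.mk hp'.1
  haveI := Fact.mk hq'.1
  obtain ⟨y, hy⟩ := exists_prime_orderOf_dvd_card' (G := S) v (by rw [hcard]; exact Dvd.intro_left _ rfl)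
  obtain ⟨a, ha⟩ := exists_prime_orderOf_dvd_card' (G := M) p hp'.2.1
  obtain ⟨b, hb⟩ := exists_prime_orderOf_dvd_card' (G := M) q hq'.2.1
  let φ : M ≃* M := MulAut.conjNormal y
  have hfpf : MonoidHom.FixedPointFree (φ : M →* M) := by
    intro m hm
    by_contra hm1
    have hm' : y * (m : S) * y⁻¹ = m := by
      have := congrArg Subtype.val hm
      simpa [φ] using this
    have hc : Commute (m : S) y := by
      show (m : S) * y = y * m
      calc (m : S) * y = (y * m * y⁻¹) * y := by rw [hm']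
        _ = y * m := by group
    obtain ⟨k, hk⟩ := eppo_commute_pow hpp hv (by rw [hy]) hc
    have hk0 : k ≠ 0 := by
      rintro rfl
      rw [pow_zero, orderOf_eq_one_iff] at hk
      exact hm1 (Subtype.ext hk)
    apply hvM
    have h3 : v ∣ orderOf (m : S) := by rw [hk]; exact dvd_pow_self v hk0
    rw [Subgroup.orderOf_coe] at h3
    exact h3.trans (orderOf_dvd_natCard m)
  have hord : orderOf φ = v := by
    apply orderOf_eq_prime
    · show (MulAut.conjNormal y : MulAut M) ^ v = 1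
      rw [← map_pow, ← hy, pow_orderOf_eq_one, map_one]
    · intro h1
      have : a = 1 := hfpf a (by rw [h1]; rfl)
      rw [this, orderOf_one] at ha
      exact hp'.1.one_lt.ne ha
  have hnil := Cfsg.Agent.S0033.result φ hfpf v hv hord
  exact hpq (eppo_prime_eq (eppo_subgroup hpp M) hp'.1 hq'.1 ha hb
    (commute_of_nilpotent hnil hp'.1 hq'.1 hpq ha hb))

theorem comm_ne_self {X : Type*} [Group X] (A : Subgroup X) (hs : Group.IsSolvable A) (hA : A ≠ ⊥) :
    ⁅A, A⁆ ≠ A := by
  intro h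
  haveI : Nontrivial A := (Subgroup.nontrivial_iff_ne_bot A).2 hA
  have h1 := Group.IsSolvable.commutator_lt_top_of_nontrivial A
  apply h1.ne
  apply Subgroup.map_injective A.subtype_injective
  rw [commutator_def, Subgroup.map_commutator, ← MonoidHom.range_eq_map, Subgroup.range_subtype, h]

theorem solvable_of_normalizes_zpowers {G : Type*} [Group G] [Finite G]
    (hpp : ∀ g : G, g ≠ 1 → IsPrimePow (orderOf g)) {z : G} {t : ℕ} (ht : t.Prime) (hz : orderOf z = t)
    (N : Subgroup G) (hN : ∀ n ∈ N, n * z * n⁻¹ ∈ Subgroup.zpowers z) : Group.IsSolvable N := by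
  have hcomm : ∀ n ∈ N, ∀ m ∈ N, Commute ⁅n, m⁆ z := by
    intro n hn m hm
    obtain ⟨i, hi⟩ := Subgroup.mem_zpowers_iff.1 (hN n hn)
    obtain ⟨j, hj⟩ := Subgroup.mem_zpowers_iff.1 (hN m hm)
    obtain ⟨k, hk⟩ := Subgroup.mem_zpowers_iff.1 (hN (m * n)⁻¹ (N.inv_mem (N.mul_mem hm hn)))
    have h1 : (n * m) * z * (n * m)⁻¹ = (m * n) * z * (m * n)⁻¹ := by
      have e1 : (n * m) * z * (n * m)⁻¹ = n * (m * z * m⁻¹) * n⁻¹ := by group
      have e2 : (m * n) * z * (m * n)⁻¹ = m * (n * z * n⁻¹) * m⁻¹ := by group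
      rw [e1, e2, ← hj, ← hi, ← conj_zpow, ← conj_zpow, ← hj, ← hi, ← zpow_mul, ← zpow_mul, mul_comm]
    have h2 : ⁅n, m⁆ * z * ⁅n, m⁆⁻¹ = z := by
      have e1 : ⁅n, m⁆ * z * ⁅n, m⁆⁻¹ = (n * m) * ((m * n)⁻¹ * z * (m * n)⁻¹⁻¹) * (n * m)⁻¹ := by
        rw [commutatorElement_def]; group
      rw [e1, ← hk, ← conj_zpow, h1, conj_zpow, hk]
      group
    show ⁅n, m⁆ * z = z * ⁅n, m⁆
    calc ⁅n, m⁆ * z = (⁅n, m⁆ * z * ⁅n, m⁆⁻¹) * ⁅n, m⁆ := by group
      _ = z * ⁅n, m⁆ := by rw [h2]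
  have hle : commutator N ≤ (Subgroup.centralizer {z}).subgroupOf N := by
    rw [commutator_def, Subgroup.commutator_le]
    intro a _ b _
    rw [Subgroup.mem_subgroupOf, Subgroup.mem_centralizer_singleton_iff]
    exact (hcomm a a.2 b b.2).eq
  have hp : IsPGroup t (commutator N) := by
    intro c
    have hc := hle c.2
    rw [Subgroup.mem_subgroupOf, Subgroup.mem_centralizer_singleton_iff] at hc
    obtain ⟨k, hk⟩ := eppo_commute_pow hpp ht (by rw [hz]) (show Commute ((c : N) : G) z from hc)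
    refine ⟨k, ?_⟩
    apply Subtype.ext
    apply Subtype.ext
    simp only [Subgroup.coe_pow, Subgroup.coe_one]
    rw [← hk]
    exact pow_orderOf_eq_one _
  haveI := solvable_of_isPGroup ht hp
  exact Group.isSolvable_of_ker_le_range (commutator N).subtype (Abelianization.of)
    (by rw [Abelianization.ker_of, Subgroup.range_subtype])

theorem partA {G : Type*} [Group G] [Finite G] (hns : ¬ Group.IsSolvable G)
    (hpp : ∀ g : G, g ≠ 1 → IsPrimePow (orderOf g))
    (R : Subgroup G) [R.Normal] (hRs : Group.IsSolvable ↥R) : ∃ p : ℕ, p.Prime ∧ IsPGroup p ↥R := by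
  by_cases hR1 : R = ⊥
  · subst hR1
    exact ⟨2, Nat.prime_two, IsPGroup.of_bot⟩
  obtain ⟨A, ⟨hAn, hA1, hAR⟩, hAmin⟩ :=
    (Set.toFinite {N : Subgroup G | N.Normal ∧ N ≠ ⊥ ∧ N ≤ R}).exists_minimal ⟨R, inferInstance, hR1, le_refl _⟩
  have hAs : Group.IsSolvable A := Group.isSolvable_of_isSolvable_injective (Subgroup.inclusion_injective hAR)
  have hcomm : ⁅A, A⁆ = ⊥ := by
    by_contra h
    have h1 : A ≤ ⁅A, A⁆ := hAmin ⟨Subgroup.commutator_normal A A, h, (Subgroup.commutator_le_left A A).trans hAR⟩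
      (Subgroup.commutator_le_left A A)
    exact comm_ne_self A hAs hA1 (le_antisymm (Subgroup.commutator_le_left A A) h1)
  have hAc : ∀ a ∈ A, ∀ b ∈ A, Commute a b := by
    intro a ha b hb
    have := Subgroup.commutator_eq_bot_iff_le_centralizer.1 hcomm
    exact (Subgroup.mem_centralizer_iff.1 (this hb) a ha)
  obtain ⟨⟨a₀, ha₀⟩, ha₀1⟩ := (Subgroup.ne_bot_iff_exists_ne_one).1 hA1
  have ha₀1' : a₀ ≠ 1 := fun h => ha₀1 (Subtype.ext h)
  obtain ⟨p, hp, hpa⟩ := Nat.exists_prime_and_dvd (n := orderOf a₀) (by rwa [Ne, orderOf_eq_one_iff])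
  have hAp : IsPGroup p A := by
    rintro ⟨b, hb⟩
    obtain ⟨k, hk⟩ := eppo_commute_pow hpp hp hpa (hAc b hb a₀ ha₀)
    refine ⟨k, Subtype.ext ?_⟩
    simp only [Subgroup.coe_pow, Subgroup.coe_one]
    rw [← hk]
    exact pow_orderOf_eq_one b
  refine ⟨p, hp, ?_⟩
  by_contra hnot
  have : ∃ t : ℕ, t.Prime ∧ t ∣ Nat.card R ∧ t ≠ p := by
    by_contra hcon
    push Not at hcon
    exact hnot (isPGroup_of_primes hp hcon)
  obtain ⟨t, ht, htR, htp⟩ := this
  haveI := Fact.mk ht
  obtain ⟨Q, hQ⟩ := exists_isSyl t R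
  have hQp := hQ.isPGroup
  have hQ1 : Q ≠ ⊥ := by
    intro h
    have hc := hQ.card
    rw [h, Subgroup.card_bot] at hc
    have hpos := ht.factorization_pos_of_dvd Nat.card_pos.ne' htR
    have := Nat.one_lt_pow hpos.ne' ht.one_lt
    omega
  haveI : Nontrivial Q := (Subgroup.nontrivial_iff_ne_bot Q).2 hQ1
  haveI := hQp.center_nontrivial
  obtain ⟨w, hw⟩ := exists_ne (1 : Subgroup.center ↥Q)
  have hw1 : ((w : ↥Q) : G) ≠ 1 := fun h => hw (Subtype.ext (Subtype.ext h))
  have hwc : ∀ x ∈ Q, Commute ((w : ↥Q) : G) x := by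
    intro x hx
    have := Subgroup.mem_center_iff.1 w.2 ⟨x, hx⟩
    exact (congrArg Subtype.val this).symm
  have hwt := dvd_orderOf_of_isPGroup ht hQp (w : ↥Q).2 hw1
  set z : G := ((w : ↥Q) : G) ^ (orderOf ((w : ↥Q) : G) / t) with hzdef
  have hz : orderOf z = t := orderOf_pow_orderOf_div (orderOf_pos _).ne' hwt
  have hzQ : z ∈ Q := Q.pow_mem (w : ↥Q).2 _
  have hzc : ∀ x ∈ Q, Commute z x := fun x hx => (hwc x hx).pow_left _
  have hfpf : ∀ e ∈ Q, e ≠ 1 → A ⊓ Subgroup.centralizer {e} = ⊥ := by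
    intro e he he1
    rw [eq_bot_iff]
    rintro v ⟨hvA, hvc⟩
    rw [Subgroup.mem_bot]
    by_contra hv1
    have hvc' := Subgroup.mem_centralizer_singleton_iff.1 hvc
    exact htp (eppo_dvd_eq hpp ht hp (dvd_orderOf_of_isPGroup ht hQp he he1)
      (dvd_orderOf_of_isPGroup hp hAp hvA hv1) (show Commute e v from hvc'.symm))
  have hkey : ∀ n ∈ Subgroup.normalizer (Q : Set G), n * z * n⁻¹ ∈ Subgroup.zpowers z := by
    intro n hn
    have hyQ : n * z * n⁻¹ ∈ Q := by
      have := conj_mem_cj (g := n) hzQ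
      rwa [cj_eq_self_iff.2 hn] at this
    have hyo : orderOf (n * z * n⁻¹) = t := by
      rw [← hz]
      exact (MulAut.conj n).orderOf_eq z
    set y := n * z * n⁻¹ with hy
    have hcom : ∀ a ∈ ({z, y} : Set G), ∀ b ∈ ({z, y} : Set G), a * b = b * a := by
      intro a ha b hb
      rcases ha with rfl | ha <;> rcases hb with rfl | hb
      · rfl
      · rw [Set.mem_singleton_iff] at hb; rw [hb]; exact hzc y hyQ
      · rw [Set.mem_singleton_iff] at ha; rw [ha]; exact (hzc y hyQ).symm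
      · rw [Set.mem_singleton_iff] at ha hb; rw [ha, hb]
    have hEQ : Subgroup.closure ({z, y} : Set G) ≤ Q := by
      rw [Subgroup.closure_le]
      intro a ha
      rcases ha with rfl | ha
      · exact hzQ
      · rw [Set.mem_singleton_iff] at ha; rw [ha]; exact hyQ
    have hEc : IsMulCommutative (Subgroup.closure ({z, y} : Set G)) :=
      Subgroup.isMulCommutative_closure hcom
    haveI : IsMulCommutative A := ⟨⟨fun a b => Subtype.ext (hAc a a.2 b b.2)⟩⟩
    have hcyc := Cfsg.Agent.S0041.result (Subgroup.closure ({z, y} : Set G)) A hA1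
      (by rw [Subgroup.normalizer_eq_top]; exact le_top)
      (fun e he he1 => hfpf e (hEQ he) he1) (Or.inl hEc)
    have huop := Cfsg.Agent.H17.uop_of_isCyclic (p := t) hcyc
    have hzE : z ∈ Subgroup.closure ({z, y} : Set G) := Subgroup.subset_closure (by simp)
    have hyE : y ∈ Subgroup.closure ({z, y} : Set G) := Subgroup.subset_closure (by simp)
    have := huop ⟨z, hzE⟩ ⟨y, hyE⟩ (by rw [← Subgroup.orderOf_coe]; exact hz)
      (by rw [← Subgroup.orderOf_coe]; exact hyo)
    obtain ⟨k, hk⟩ := Subgroup.mem_zpowers_iff.1 this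
    exact Subgroup.mem_zpowers_iff.2 ⟨k, by simpa using congrArg Subtype.val hk⟩
  haveI hNsol := solvable_of_normalizes_zpowers hpp ht hz (Subgroup.normalizer (Q : Set G)) hkey
  have hsurj : Function.Surjective ((QuotientGroup.mk' R).comp (Subgroup.normalizer (Q : Set G)).subtype) := by
    intro x
    obtain ⟨g, rfl⟩ := QuotientGroup.mk'_surjective R x
    obtain ⟨n, hn, hng⟩ := frattini_arg (M := ⊤) hQ (by rw [Subgroup.normalizer_eq_top]) (Subgroup.mem_top g)
    refine ⟨⟨n * g, hng⟩, ?_⟩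
    show QuotientGroup.mk' R (n * g) = QuotientGroup.mk' R g
    have h1 : QuotientGroup.mk' R n = 1 := (QuotientGroup.eq_one_iff n).2 hn
    rw [map_mul, h1, one_mul]
  have : Group.IsSolvable (G ⧸ R) := Group.isSolvable_of_surjective hsurj
  exact hns ((Group.isSolvable_iff_subgroup_quotient R).2 ⟨hRs, this⟩)

theorem partB {X : Type*} [Group X] [Finite X] (hpp : ∀ g : X, g ≠ 1 → IsPrimePow (orderOf g)) [Nontrivial X]
    (hrad : ∀ N : Subgroup X, N.Normal → Group.IsSolvable N → N = ⊥) :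
    ∃ M : Subgroup X, M.Normal ∧ IsSimpleGroup M ∧ ¬ IsMulCommutative M ∧
      ∀ N : Subgroup X, N.Normal → N ≠ ⊥ → M ≤ N := by
  obtain ⟨M, ⟨hMn, hM1⟩, hMmin⟩ :=
    (Set.toFinite {N : Subgroup X | N.Normal ∧ N ≠ ⊥}).exists_minimal ⟨⊤, inferInstance, top_ne_bot⟩
  have hMns : ¬ Group.IsSolvable M := fun h => hM1 (hrad M hMn h)
  have hNP : ∀ s : ℕ, s.Prime → ∃ x ∈ M, ∃ q : ℕ, q.Prime ∧ q ≠ s ∧ orderOf x = q := by
    intro s hs
    by_contra hcon
    push Not at hcon
    apply hMns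
    apply solvable_of_isPGroup hs
    apply isPGroup_of_primes hs
    intro q hq hqd
    by_contra hne
    haveI := Fact.mk hq
    obtain ⟨x, hx⟩ := exists_prime_orderOf_dvd_card' (G := M) q hqd
    exact hcon x x.2 q hq hne (by rw [Subgroup.orderOf_coe]; exact hx)
  have hclaim1 : ∀ N : Subgroup X, N.Normal → N ≠ ⊥ → M ≤ N := by
    intro N hN hN1
    by_contra hle
    have hinf : M ⊓ N = ⊥ := by
      by_contra h
      exact hle ((hMmin ⟨Subgroup.normal_inf_normal M N, h⟩ inf_le_left).trans inf_le_right)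
    obtain ⟨⟨y, hyN⟩, hy1⟩ := (Subgroup.ne_bot_iff_exists_ne_one).1 hN1
    have hy1' : y ≠ 1 := fun h => hy1 (Subtype.ext h)
    obtain ⟨s, hs, hsd⟩ := Nat.exists_prime_and_dvd (n := orderOf y) (by rwa [Ne, orderOf_eq_one_iff])
    obtain ⟨x, hxM, q, hq, hqs, hxo⟩ := hNP s hs
    have hc : Commute x y :=
      Subgroup.commute_of_normal_of_disjoint M N hMn hN (disjoint_iff.2 hinf) x y hxM hyN
    exact hqs (eppo_dvd_eq hpp hq hs (by rw [hxo]) hsd hc)
  obtain ⟨S, ⟨hSM, hSn, hS1⟩, hSmin⟩ :=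
    (Set.toFinite {S : Subgroup X | S ≤ M ∧ M ≤ Subgroup.normalizer (S : Set X) ∧ S ≠ ⊥}).exists_minimal
      ⟨M, le_refl _, Subgroup.le_normalizer, hM1⟩
  have hcjM : ∀ h : X, S.map (MulAut.conj h).toMonoidHom ≤ M := by
    intro h
    calc S.map (MulAut.conj h).toMonoidHom ≤ M.map (MulAut.conj h).toMonoidHom := cj_le_cj.2 hSM
      _ = M := cj_eq_self_of_normal h hMn
  have hcjn : ∀ h : X, M ≤ Subgroup.normalizer ((S.map (MulAut.conj h).toMonoidHom : Subgroup X) : Set X) := by
    intro h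
    rw [normalizer_cj]
    calc M = M.map (MulAut.conj h).toMonoidHom := (cj_eq_self_of_normal h hMn).symm
      _ ≤ _ := cj_le_cj.2 hSn
  have hSeq : S = M := by
    by_contra hne
    have hnn : ¬ S.Normal := fun h => hne (le_antisymm hSM (hMmin ⟨h, hS1⟩ hSM))
    have : ∃ g : X, S.map (MulAut.conj g).toMonoidHom ≠ S := by
      by_contra hcon
      push Not at hcon
      apply hnn
      exact Subgroup.normalizer_eq_top_iff.1 (eq_top_iff.2 (fun g _ => cj_eq_self_iff.1 (hcon g)))
    obtain ⟨g, hg⟩ := this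
    have hTM := hcjM g
    have hTn := hcjn g
    set T := S.map (MulAut.conj g).toMonoidHom with hT
    have hT1 : T ≠ ⊥ := by rw [hT, Ne, cj_eq_bot_iff]; exact hS1
    have hinf : S ⊓ T = ⊥ := by
      by_contra h
      have hle : S ≤ S ⊓ T := by
        refine hSmin ⟨inf_le_left.trans hSM, ?_, h⟩ inf_le_left
        intro m hm
        rw [← cj_eq_self_iff, cj_inf, cj_eq_self_iff.2 (hSn hm), cj_eq_self_iff.2 (hTn hm)]
      have hST : S ≤ T := hle.trans inf_le_right
      exact hg (Subgroup.eq_of_le_of_card_ge hST (by rw [hT, card_cj])).symm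
    have hcomm : ∀ x ∈ S, ∀ y ∈ T, Commute x y := by
      intro x hx y hy
      rw [← commutatorElement_eq_one_iff_commute, ← Subgroup.mem_bot, ← hinf, commutatorElement_def]
      constructor
      · have h1 : y * x⁻¹ * y⁻¹ ∈ S := by
          have := conj_mem_cj (g := y) (S.inv_mem hx)
          rwa [cj_eq_self_iff.2 (hSn (hTM hy))] at this
        have e : x * y * x⁻¹ * y⁻¹ = x * (y * x⁻¹ * y⁻¹) := by group
        rw [e]
        exact S.mul_mem hx h1
      · have h1 : x * y * x⁻¹ ∈ T := by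
          have := conj_mem_cj (g := x) hy
          rwa [cj_eq_self_iff.2 (hTn (hSM hx))] at this
        exact T.mul_mem h1 (T.inv_mem hy)
    obtain ⟨⟨y₀, hy₀⟩, hy₀1⟩ := (Subgroup.ne_bot_iff_exists_ne_one).1 hT1
    have hy₀1' : y₀ ≠ 1 := fun h => hy₀1 (Subtype.ext h)
    obtain ⟨p, hp, hpd⟩ := Nat.exists_prime_and_dvd (n := orderOf y₀) (by rwa [Ne, orderOf_eq_one_iff])
    have hSp : IsPGroup p S := by
      rintro ⟨b, hb⟩
      obtain ⟨k, hk⟩ := eppo_commute_pow hpp hp hpd (hcomm b hb y₀ hy₀)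
      refine ⟨k, Subtype.ext ?_⟩
      simp only [Subgroup.coe_pow, Subgroup.coe_one]
      rw [← hk]
      exact pow_orderOf_eq_one b
    haveI := Fact.mk hp
    obtain ⟨P, hP⟩ := exists_isSyl p M
    have hcjP : ∀ h : X, S.map (MulAut.conj h).toMonoidHom ≤ P := by
      intro h
      obtain ⟨m, hm, hle⟩ := hP.exists_conj_le (isPGroup_cj h hSp) (hcjM h)
      rwa [cj_eq_self_iff.2 (hcjn h hm)] at hle
    have hncP : Subgroup.normalClosure (S : Set X) ≤ P := by
      unfold Subgroup.normalClosure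
      rw [Subgroup.closure_le]
      intro x hx
      obtain ⟨a, ha, hax⟩ := Group.mem_conjugatesOfSet_iff.1 hx
      obtain ⟨c, hc⟩ := isConj_iff.1 hax
      rw [← hc]
      exact hcjP c (conj_mem_cj ha)
    have hMnc : M ≤ Subgroup.normalClosure (S : Set X) := by
      refine hMmin ⟨Subgroup.normalClosure_normal, ?_⟩ (Subgroup.normalClosure_le_normal hSM)
      intro h
      apply hS1
      rw [eq_bot_iff, ← h]
      exact Subgroup.le_normalClosure
    exact hMns (solvable_of_isPGroup hp (hP.isPGroup.to_le (hMnc.trans hncP)))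
  have hsimple : IsSimpleGroup M := by
    haveI : Nontrivial M := (Subgroup.nontrivial_iff_ne_bot M).2 hM1
    refine ⟨fun S₀ hS₀ => ?_⟩
    by_contra hcon
    push Not at hcon
    obtain ⟨h1, h2⟩ := hcon
    have hle : ∀ m ∈ M, (S₀.map M.subtype).map (MulAut.conj m).toMonoidHom ≤ S₀.map M.subtype := by
      rintro m hm _ ⟨_, ⟨s, hs, rfl⟩, rfl⟩
      exact ⟨⟨m, hm⟩ * s * ⟨m, hm⟩⁻¹, hS₀.conj_mem s hs _, by simp⟩
    have hmem : S₀.map M.subtype ≤ M ∧ M ≤ Subgroup.normalizer ((S₀.map M.subtype : Subgroup X) : Set X) ∧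
        S₀.map M.subtype ≠ ⊥ := by
      refine ⟨Subgroup.map_subtype_le _, ?_, ?_⟩
      · intro m hm
        rw [← cj_eq_self_iff]
        exact Subgroup.eq_of_le_of_card_ge (hle m hm) (by rw [card_cj])
      · intro h
        exact h1 ((Subgroup.map_eq_bot_iff_of_injective _ M.subtype_injective).1 h)
    have h3 := hSmin hmem (by rw [hSeq]; exact Subgroup.map_subtype_le _)
    apply h2
    rw [eq_top_iff]
    intro x _
    have hx : (x : X) ∈ S := by rw [hSeq]; exact x.2
    obtain ⟨y, hy, hyx⟩ := Subgroup.mem_map.1 (h3 hx)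
    have : y = x := Subtype.ext hyx
    rwa [← this]
  exact ⟨M, hMn, hsimple, fun h => hMns (Group.isSolvable_of_comm (fun a b => h.is_comm.comm a b)), hclaim1⟩


/-- Let G be a finite non-solvable group in which every element has prime-power order, and let R be its largest solvable normal subgroup. Then R is a p-group for some prime p; G/R has a non-abelian simple normal subgroup contained in every nontrivial normal subgroup of G/R (its unique minimal normal subgroup); and the order of every solvable subgroup of G has at most two prime divisors. -/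
theorem result {G : Type*} [Group G] [Finite G] (hns : ¬ Group.IsSolvable G) (hpp : ∀ g : G, g ≠ 1 → IsPrimePow (orderOf g))
    (R : Subgroup G) [R.Normal] (hRs : Group.IsSolvable ↥R) (hRmax : ∀ N : Subgroup G, N.Normal → Group.IsSolvable ↥N → N ≤ R) :
    (∃ p : ℕ, p.Prime ∧ IsPGroup p ↥R) ∧
      (∃ M : Subgroup (G ⧸ R), M.Normal ∧ IsSimpleGroup ↥M ∧ ¬ IsMulCommutative ↥M ∧
        ∀ N : Subgroup (G ⧸ R), N.Normal → N ≠ ⊥ → M ≤ N) ∧
      ∀ H : Subgroup G, Group.IsSolvable ↥H → (Nat.card ↥H).primeFactors.card ≤ 2 := by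
  refine ⟨partA hns hpp R hRs, ?_, fun H hH => eppo_solvable_aux _ H rfl hH (eppo_subgroup hpp H)⟩
  have hppq : ∀ g : G ⧸ R, g ≠ 1 → IsPrimePow (orderOf g) := by
    intro x hx
    obtain ⟨g, rfl⟩ := QuotientGroup.mk'_surjective R x
    have hg : g ≠ 1 := by
      rintro rfl
      exact hx (map_one _)
    obtain ⟨r, k, hr, hk, hrk⟩ := hpp g hg
    have hd : orderOf (QuotientGroup.mk' R g) ∣ r ^ k := by
      rw [hrk]
      exact orderOf_map_dvd _ g
    obtain ⟨j, -, hj⟩ := (Nat.dvd_prime_pow hr.nat_prime).1 hd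
    refine ⟨r, j, hr, ?_, hj.symm⟩
    rcases j with _ | j
    · rw [pow_zero, orderOf_eq_one_iff] at hj
      exact absurd hj hx
    · exact Nat.succ_pos j
  haveI : Nontrivial (G ⧸ R) := by
    by_contra h
    rw [not_nontrivial_iff_subsingleton] at h
    exact hns ((Group.isSolvable_iff_subgroup_quotient R).2 ⟨hRs, inferInstance⟩)
  apply partB hppq
  intro N hN hNs
  have hRN : R ≤ N.comap (QuotientGroup.mk' R) := by
    intro x hx
    rw [Subgroup.mem_comap]
    have h1 : QuotientGroup.mk' R x = 1 := (QuotientGroup.eq_one_iff x).2 hx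
    rw [h1]
    exact N.one_mem
  have hsol : Group.IsSolvable (N.comap (QuotientGroup.mk' R)) := by
    refine Group.isSolvable_of_ker_le_range (Subgroup.inclusion hRN) ((QuotientGroup.mk' R).subgroupComap N) ?_
    intro x hx
    rw [MonoidHom.mem_ker] at hx
    have h1 : QuotientGroup.mk' R (x : G) = 1 := congrArg Subtype.val hx
    have h2 : (x : G) ∈ R := (QuotientGroup.eq_one_iff (x : G)).1 h1
    exact ⟨⟨x, h2⟩, Subtype.ext rfl⟩
  have hle := hRmax _ (hN.comap _) hsol
  rw [eq_bot_iff]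
  intro x hx
  obtain ⟨g, rfl⟩ := QuotientGroup.mk'_surjective R x
  rw [Subgroup.mem_bot]
  exact (QuotientGroup.eq_one_iff g).2 (hle (Subgroup.mem_comap.2 hx))

end Cfsg.Agent.S3992
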