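import Cfsg.Statements.S3994
import Mathlib
import Cfsg.Agent.Lib.Helper21.Frobenius

set_option autoImplicit false
open Cfsg

namespace Cfsg.Agent.S3994

/-- Let G be a finite group and n a positive integer. The number of elements of G whose order is divisible by n is either 0 or divisible by the largest divisor of the order of G that is coprime to n. -/
theorem result {G : Type*} [Group G] [Finite G] (n : ℕ) (hn : 0 < n) :
    Nat.card {g : G // n ∣ orderOf g} = 0 ∨
      (Nat.card G / Nat.gcd (Nat.card G) (n ^ Nat.card G)) ∣ Nat.card {g : G // n ∣ orderOf g} := by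
  right
  set N := Nat.card G with hN
  have hN0 : N ≠ 0 := Nat.card_pos.ne'
  set q := Nat.gcd N (n ^ N) with hq
  set m := N / q with hm
  have hqN : q ∣ N := Nat.gcd_dvd_left _ _
  have hqm : q * m = N := Nat.mul_div_cancel' hqN
  have hnm : Nat.Coprime n m := by
    apply Nat.coprime_of_dvd
    intro r hr hrn hrm
    set v := N.factorization r with hv
    have h1 : r ^ v ∣ N := Nat.ordProj_dvd N r
    have hvN : v ≤ N := (Nat.factorization_lt r hN0).le
    have h2 : r ^ v ∣ n ^ N := (pow_dvd_pow r hvN).trans (pow_dvd_pow_of_dvd hrn N)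
    have h3 : r ^ v ∣ q := Nat.dvd_gcd h1 h2
    have h4 : r ^ (v + 1) ∣ N := by
      rw [← hqm, pow_succ]
      exact Nat.mul_dvd_mul h3 hrm
    exact Nat.pow_succ_factorization_not_dvd hN0 hr h4
  have hcop : Nat.Coprime q m :=
    Nat.Coprime.coprime_dvd_left (Nat.gcd_dvd_right _ _) (Nat.Coprime.pow_left N hnm)
  obtain ⟨a, b, hab⟩ := Cfsg.Agent.Lib.Helper21.exists_splitExp hcop
  have hall : ∀ x : G, x ^ (q * m) = 1 := by
    intro x
    rw [hqm, hN]
    exact pow_card_eq_one'
  have hE : ∀ x : G, n ∣ orderOf x ↔ (x ^ (q * m) = 1 ∧ ((x ^ a) ^ q = 1 ∧ n ∣ orderOf (x ^ a))) := by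
    intro x
    constructor
    · intro h
      refine ⟨hall x, hab.pow_a_pow_q (hall x), ?_⟩
      have h4 := hab.pow_a_mul_pow_b (hall x)
      have hcomm : Commute (x ^ a) (x ^ b) := (Commute.refl x).pow_pow a b
      have h5 : x ^ (orderOf (x ^ a) * m) = 1 := by
        generalize hk : orderOf (x ^ a) = k
        have hk' : (x ^ a) ^ k = 1 := by rw [← hk]; exact pow_orderOf_eq_one _
        conv_lhs => rw [← h4]
        rw [hcomm.mul_pow, pow_mul, hk', one_pow, mul_comm, pow_mul,
          hab.pow_b_pow_m (hall x), one_pow, one_mul]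
      have h6 : n ∣ orderOf (x ^ a) * m := h.trans (orderOf_dvd_of_pow_eq_one h5)
      exact hnm.dvd_of_dvd_mul_right h6
    · rintro ⟨_, _, h⟩
      exact h.trans (orderOf_pow_dvd a)
  rw [Nat.card_congr (Equiv.subtypeEquivRight hE)]
  apply hab.dvd_card (Dvd.intro_left _ hqm) (fun y => y ^ q = 1 ∧ n ∣ orderOf y)
  · rintro g y ⟨h1, h2⟩
    refine ⟨by rw [conj_pow, h1]; simp, ?_⟩
    have : g * y * g⁻¹ = MulAut.conj g y := rfl
    rw [this, MulEquiv.orderOf_eq]
    exact h2
  · intro y hy
    exact hy.1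
  · intro y _
    exact Cfsg.Agent.Lib.Helper21.frobenius_gcd m

end Cfsg.Agent.S3994
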