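import Cfsg.Statements.S3997
import Mathlib
import Cfsg.Agent.Lib.Helper21.Basic

set_option autoImplicit false
open Cfsg

namespace Cfsg.Agent.S3997

/-- Let G and H be finite groups with the same order type: for every m they have the same number of elements of order m. If G is nilpotent then so is H. -/
theorem result {G H : Type*} [Group G] [Finite G] [Group H] [Finite H] (hT : (∀ m : ℕ, Nat.card {g : G // orderOf g = m} = Nat.card {h : H // orderOf h = m})) (hG : Group.IsNilpotent G) :
    Group.IsNilpotent H := by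
  obtain ⟨e, he⟩ := Cfsg.Agent.Lib.Helper21.exists_orderOf_equiv hT
  apply ((Group.isNilpotent_of_finite_tfae (G := H)).out 0 3).mpr
  intro p hp Q
  have hnorm := ((Group.isNilpotent_of_finite_tfae (G := G)).out 0 3).mp hG
  obtain ⟨P⟩ : Nonempty (Sylow p G) := inferInstance
  have hPn : (P : Subgroup G).Normal := hnorm p hp P
  have hcardGH : Nat.card G = Nat.card H := Nat.card_congr e
  have hPQ : Nat.card (P : Subgroup G) = Nat.card (Q : Subgroup H) := by
    rw [Sylow.card_eq_multiplicity, Sylow.card_eq_multiplicity, hcardGH]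
  -- the p-elements of G are exactly P
  have hPset : ∀ g : G, g ∈ (P : Subgroup G) ↔ ∃ k : ℕ, orderOf g = p ^ k := fun g =>
    ⟨fun h => Cfsg.Agent.Lib.Helper21.orderOf_of_mem_sylow P h,
      fun ⟨k, hk⟩ => Cfsg.Agent.Lib.Helper21.mem_sylow_of_normal P hPn hk⟩
  have hc1 : Nat.card (P : Subgroup G) = Nat.card {h : H // ∃ k : ℕ, orderOf h = p ^ k} := by
    apply Nat.card_congr
    apply e.subtypeEquiv
    intro g
    rw [he g]
    exact hPset g
  have hsub : ((Q : Subgroup H) : Set H) ⊆ {h : H | ∃ k : ℕ, orderOf h = p ^ k} := fun h hh =>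
    Cfsg.Agent.Lib.Helper21.orderOf_of_mem_sylow Q hh
  have heq : ((Q : Subgroup H) : Set H) = {h : H | ∃ k : ℕ, orderOf h = p ^ k} := by
    apply Set.eq_of_subset_of_ncard_le hsub
    have h1 : ({h : H | ∃ k : ℕ, orderOf h = p ^ k} : Set H).ncard = Nat.card {h : H // ∃ k : ℕ, orderOf h = p ^ k} := rfl
    have h2 : (((Q : Subgroup H) : Set H)).ncard = Nat.card (Q : Subgroup H) := rfl
    rw [h1, h2, ← hc1, hPQ]
  apply Cfsg.Agent.Lib.Helper21.sylow_normal_of_forall_mem
  intro g hg
  have : g ∈ ((Q : Subgroup H) : Set H) := by rw [heq]; exact hg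
  exact this

end Cfsg.Agent.S3997
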