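import Cfsg.Statements.S4001
import Cfsg.Agent.Lib.Helper16.Frob

set_option autoImplicit false
open Cfsg

namespace Cfsg.Agent.S4001

open Cfsg.Agent.Lib.Helper16
open scoped commutatorElement Pointwise

theorem exists_D {G : Type*} [Group G] [Finite G] (H K : Subgroup G) [hHn : H.Normal] [K.Normal] (hHK : H ≤ K)
    (C₁ : Subgroup ↥K) (hC₁ : IsFrobeniusComplement C₁) (hk₁ : frobeniusKernel C₁ = (H.subgroupOf K : Set ↥K))
    (C₂ : Subgroup (G ⧸ H)) (hC₂ : IsFrobeniusComplement C₂)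
    (hk₂ : frobeniusKernel C₂ = (K.map (QuotientGroup.mk' H) : Set (G ⧸ H)))
    (hC₂c : ∀ c ∈ C₂, ∀ d ∈ C₂, c * d = d * c) :
    ∃ D : Subgroup G, (∀ a ∈ D, ∀ b ∈ D, a * b = b * a) ∧ Nat.card D = Nat.card C₂ ∧
      ∀ p : ℕ, p.Prime → p ∣ Nat.card H → ¬ p ∣ Nat.card (K.map (QuotientGroup.mk' H)) →
        ∃ v ∈ H, orderOf v = p ∧ ∀ d ∈ D, Commute v d := by
  obtain ⟨hn1, hcomp1, hnil1, hN1, hfpf1, hcop1, hcent1⟩ := frob_data C₁ (H.subgroupOf K) hC₁ hk₁
  set C : Subgroup G := C₁.map K.subtype with hCdef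
  have hCK : C ≤ K := Subgroup.map_subtype_le _
  have hmemC : ∀ {x : G} (hx : x ∈ K), x ∈ C ↔ (⟨x, hx⟩ : K) ∈ C₁ := by
    intro x hx
    constructor
    · rintro ⟨c, hc, hcx⟩
      have : c = ⟨x, hx⟩ := Subtype.ext hcx
      rwa [← this]
    · intro h
      exact ⟨⟨x, hx⟩, h, rfl⟩
  have hCH : ∀ x ∈ C, x ∈ H → x = 1 := by
    intro x hxC hxH
    have hxK := hCK hxC
    have : (⟨x, hxK⟩ : K) ∈ H.subgroupOf K ⊓ C₁ := ⟨Subgroup.mem_subgroupOf.2 hxH, (hmemC hxK).1 hxC⟩
    rw [hcomp1.disjoint.eq_bot, Subgroup.mem_bot] at this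
    exact congrArg Subtype.val this
  have hfix : ∀ c ∈ C, c ≠ 1 → ∀ h ∈ H, h * c = c * h → h = 1 := by
    intro c hc hc1 h hh hcomm
    have hcK := hCK hc
    have := hfpf1 ⟨c, hcK⟩ ((hmemC hcK).1 hc) (fun h1 => hc1 (congrArg Subtype.val h1))
    have hmem : (⟨h, hHK hh⟩ : K) ∈ H.subgroupOf K ⊓ Subgroup.centralizer {(⟨c, hcK⟩ : K)} :=
      ⟨Subgroup.mem_subgroupOf.2 hh, Subgroup.mem_centralizer_singleton_iff.2 (Subtype.ext hcomm)⟩
    rw [this, Subgroup.mem_bot] at hmem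
    exact congrArg Subtype.val hmem
  obtain ⟨c₀', hc₀'⟩ := (Subgroup.ne_bot_iff_exists_ne_one).1 hC₁.1
  set c₀ : G := ((c₀' : K) : G) with hc₀def
  have hc₀C : c₀ ∈ C := ⟨c₀', c₀'.2, rfl⟩
  have hc₀1 : c₀ ≠ 1 := fun h => hc₀' (Subtype.ext (Subtype.ext h))
  set M := Subgroup.normalizer (C : Set G) with hM
  have hCM : C ≤ M := Subgroup.le_normalizer
  have hHM : ∀ x ∈ H, x ∈ M → x = 1 := by
    intro x hxH hxM
    have h1 : x * c₀ * x⁻¹ ∈ C := by
      have := conj_mem_cj (g := x) hc₀C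
      rwa [cj_eq_self_iff.2 hxM] at this
    have h2 : x * c₀ * x⁻¹ * c₀⁻¹ ∈ C := C.mul_mem h1 (C.inv_mem hc₀C)
    have h3 : x * c₀ * x⁻¹ * c₀⁻¹ ∈ H := by
      have : c₀ * x⁻¹ * c₀⁻¹ ∈ H := hHn.conj_mem _ (H.inv_mem hxH) _
      have e : x * c₀ * x⁻¹ * c₀⁻¹ = x * (c₀ * x⁻¹ * c₀⁻¹) := by group
      rw [e]
      exact H.mul_mem hxH this
    have h4 := hCH _ h2 h3
    apply hfix c₀ hc₀C hc₀1 x hxH
    calc x * c₀ = (x * c₀ * x⁻¹ * c₀⁻¹) * (c₀ * x) := by group
      _ = c₀ * x := by rw [h4, one_mul]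
  have hcover : ∀ g : G, ∃ h ∈ H, h * g ∈ M := by
    intro g
    let α : K ≃* K := MulAut.conjNormal g
    have hC₁' := IsFrobeniusComplement_map_equiv α hC₁
    obtain ⟨k, hk⟩ := Cfsg.Agent.S0038.result C₁ (C₁.map α.toMonoidHom) hC₁ hC₁'
    have hkg : (k : G) * g ∈ M := by
      rw [hM, ← cj_eq_self_iff]
      apply Subgroup.eq_of_le_of_card_ge _ (by rw [card_cj])
      rintro _ ⟨_, ⟨c, hc, rfl⟩, rfl⟩
      have h1 : k * α c * k⁻¹ ∈ C₁ := by
        have : α c ∈ C₁.map α.toMonoidHom := Subgroup.mem_map_of_mem _ hc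
        have h2 := Subgroup.smul_mem_pointwise_smul _ (MulAut.conj k) _ this
        rw [hk] at h2
        simpa [MulAut.smul_def] using h2
      refine ⟨k * α c * k⁻¹, h1, ?_⟩
      simp [α, mul_assoc]
    have : k ∈ C₁ ⊔ H.subgroupOf K := by rw [hcomp1.symm.sup_eq_top]; exact Subgroup.mem_top _
    obtain ⟨c, hc, h, hh, hch⟩ := Subgroup.mem_sup_of_normal_right.1 this
    refine ⟨(h : G), Subgroup.mem_subgroupOf.1 hh, ?_⟩
    have hcM : ((c : K) : G) ∈ M := hCM ⟨c, hc, rfl⟩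
    have e : (h : G) * g = ((c : K) : G)⁻¹ * ((k : G) * g) := by
      rw [← hch]
      simp only [Subgroup.coe_mul]
      group
    rw [e]
    exact M.mul_mem (M.inv_mem hcM) hkg
  let μ : M →* G ⧸ H := (QuotientGroup.mk' H).comp M.subtype
  have hμinj : Function.Injective μ := by
    rw [injective_iff_map_eq_one]
    intro x hx
    have h2 : (x : G) ∈ H := (QuotientGroup.eq_one_iff _).1 hx
    exact Subtype.ext (hHM _ h2 x.2)
  have hμsurj : Function.Surjective μ := by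
    intro x
    obtain ⟨g, rfl⟩ := QuotientGroup.mk'_surjective H x
    obtain ⟨h, hh, hhg⟩ := hcover g
    refine ⟨⟨h * g, hhg⟩, ?_⟩
    show QuotientGroup.mk' H (h * g) = _
    have h1 : QuotientGroup.mk' H h = 1 := (QuotientGroup.eq_one_iff h).2 hh
    rw [map_mul, h1, one_mul]
  let eM : M ≃* G ⧸ H := MulEquiv.ofBijective μ ⟨hμinj, hμsurj⟩
  set D' : Subgroup M := C₂.map eM.symm.toMonoidHom with hD'
  have hD'F : IsFrobeniusComplement D' := IsFrobeniusComplement_map_equiv eM.symm hC₂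
  have hmemD' : ∀ x : M, x ∈ D' ↔ μ x ∈ C₂ := by
    intro x
    constructor
    · rintro ⟨c, hc, rfl⟩
      show eM (eM.symm c) ∈ C₂
      rw [eM.apply_symm_apply]
      exact hc
    · intro h
      exact ⟨μ x, h, eM.symm_apply_apply x⟩
  refine ⟨D'.map M.subtype, ?_, ?_, ?_⟩
  · rintro _ ⟨a, ha, rfl⟩ _ ⟨b, hb, rfl⟩
    have : a * b = b * a := hμinj (by
      rw [map_mul, map_mul]
      exact hC₂c _ ((hmemD' a).1 ha) _ ((hmemD' b).1 hb))
    exact congrArg Subtype.val this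
  · rw [Subgroup.card_map_of_injective M.subtype_injective, hD',
      Subgroup.card_map_of_injective eM.symm.injective]
  intro p hp hpH hpb
  haveI := Fact.mk hp
  let P₀ : Sylow p H := default
  have hnilH : Group.IsNilpotent H :=
    Group.nilpotent_of_surjective (Subgroup.subgroupOfEquivOfLe hHK).toMonoidHom
      (Subgroup.subgroupOfEquivOfLe hHK).surjective
  have htf := (Group.isNilpotent_of_finite_tfae (G := H)).out 0 3
  have hP₀n : (P₀ : Subgroup H).Normal := htf.1 hnilH p inferInstance P₀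
  haveI := P₀.characteristic_of_normal hP₀n
  set P : Subgroup G := (P₀ : Subgroup H).map H.subtype with hP
  haveI hPn : P.Normal := ConjAct.normal_of_characteristic_of_normal
  have hPp : IsPGroup p P := P₀.2.map _
  have hPH : P ≤ H := Subgroup.map_subtype_le _
  have hP1 : P ≠ ⊥ := by
    intro h
    exact P₀.ne_bot_of_dvd_card hpH ((Subgroup.map_eq_bot_iff_of_injective _ H.subtype_injective).1 h)
  set V : Subgroup G := P ⊓ Subgroup.centralizer (P : Set G) with hV
  haveI hVn : V.Normal := Subgroup.normal_inf_normal _ _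
  have hVc : IsMulCommutative V :=
    ⟨⟨fun a b => Subtype.ext ((Subgroup.mem_centralizer_iff.1 a.2.2 b b.2.1).symm)⟩⟩
  have hV1 : V ≠ ⊥ := by
    haveI : Nontrivial P := (Subgroup.nontrivial_iff_ne_bot P).2 hP1
    haveI := hPp.center_nontrivial
    obtain ⟨w, hw⟩ := exists_ne (1 : Subgroup.center P)
    intro h
    have : ((w : P) : G) ∈ V := by
      refine ⟨(w : P).2, Subgroup.mem_centralizer_iff.2 (fun x hx => ?_)⟩
      have := Subgroup.mem_center_iff.1 w.2 ⟨x, hx⟩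
      exact congrArg Subtype.val this
    rw [h, Subgroup.mem_bot] at this
    exact hw (Subtype.ext (Subtype.ext this))
  have hVp : IsPGroup p V := hPp.to_le inf_le_left
  have hcop : (Nat.card V).Coprime (Nat.card (frobeniusKernel D')) := by
    have h1 : Nat.card (frobeniusKernel D') = Nat.card (K.map (QuotientGroup.mk' H)) := by
      rw [(Cfsg.Agent.S0034.result D' hD'F).1]
      have h2 : D'.index = C₂.index := Subgroup.index_map_equiv C₂ eM.symm
      rw [h2, ← (Cfsg.Agent.S0034.result C₂ hC₂).1, hk₂]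
      rfl
    rw [h1]
    obtain ⟨n, hn⟩ := IsPGroup.iff_card.1 hVp
    rw [hn]
    exact Nat.Coprime.pow_left n ((Nat.Prime.coprime_iff_not_dvd hp).2 hpb)
  have hc₀ker : (⟨c₀, hCM hc₀C⟩ : M) ∈ frobeniusKernel D' := by
    right
    intro a ha
    rw [mem_conj_smul, hmemD'] at ha
    have hker : QuotientGroup.mk' H c₀ ∈ frobeniusKernel C₂ := by
      rw [hk₂]
      exact Subgroup.mem_map_of_mem _ (hCK hc₀C)
    rcases hker with h1 | h2
    · exact hc₀1 (hCH c₀ hc₀C ((QuotientGroup.eq_one_iff c₀).1 h1))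
    · apply h2 (μ a)
      rw [mem_conj_smul]
      rw [map_mul, map_mul, map_inv] at ha
      exact ha
  have hCK' : V ⊓ Subgroup.centralizer (Subtype.val '' frobeniusKernel D' : Set G) = ⊥ := by
    rw [eq_bot_iff]
    rintro v ⟨hvV, hvc⟩
    rw [Subgroup.mem_bot]
    have := Subgroup.mem_centralizer_iff.1 hvc c₀ ⟨⟨c₀, hCM hc₀C⟩, hc₀ker, rfl⟩
    exact hfix c₀ hc₀C hc₀1 v (hPH hvV.1) this.symm
  have hres := Cfsg.Agent.S0666.result V M hVc hV1 (by rw [Subgroup.normalizer_eq_top]; exact le_top)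
    D' hD'F hcop hCK'
  obtain ⟨⟨v, hv⟩, hv1⟩ := (Subgroup.ne_bot_iff_exists_ne_one).1 hres
  have hv1' : v ≠ 1 := fun h => hv1 (Subtype.ext h)
  have hpv := dvd_orderOf_of_isPGroup' hp hVp hv.1 hv1'
  refine ⟨v ^ (orderOf v / p), H.pow_mem (hPH hv.1.1) _, orderOf_pow_orderOf_div (orderOf_pos v).ne' hpv, ?_⟩
  intro d hd
  have := Subgroup.mem_centralizer_iff.1 hv.2 d hd
  exact (show Commute v d from this.symm).pow_left _


/-- Let G be a 2-Frobenius group: it has normal subgroups H < K with K a Frobenius group with kernel H and G/H a Frobenius group with kernel K/H. Then G is solvable; K/H has odd order coprime to the order of H and to the order of G/K (it is the image of an odd-order Hall subgroup); G/K is cyclic; and the prime graph of G has exactly two connected components, both complete: for distinct primes p, q dividing the order of G, G has an element of order pq exactly when p and q either both divide the order of K/H or both do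 not. -/
theorem result {G : Type*} [Group G] [Finite G] (H K : Subgroup G) [H.Normal] [K.Normal] (hlt : H < K)
    (hK : ∃ C : Subgroup ↥K, Cfsg.IsFrobeniusComplement C ∧ Cfsg.frobeniusKernel C = (H.subgroupOf K : Set ↥K))
    (hGH : ∃ C : Subgroup (G ⧸ H), Cfsg.IsFrobeniusComplement C ∧ Cfsg.frobeniusKernel C = (K.map (QuotientGroup.mk' H) : Set (G ⧸ H))) :
    Group.IsSolvable G ∧ Odd (Nat.card (↥K ⧸ H.subgroupOf K)) ∧
      Nat.Coprime (Nat.card (↥K ⧸ H.subgroupOf K)) (Nat.card ↥H * Nat.card (G ⧸ K)) ∧ IsCyclic (G ⧸ K) ∧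
      ∀ p q : ℕ, p.Prime → q.Prime → p ≠ q → p ∣ Nat.card G → q ∣ Nat.card G →
        ((∃ g : G, orderOf g = p * q) ↔ (p ∣ Nat.card (↥K ⧸ H.subgroupOf K) ↔ q ∣ Nat.card (↥K ⧸ H.subgroupOf K))) := by
  obtain ⟨C₁, hC₁, hk₁⟩ := hK
  obtain ⟨C₂, hC₂, hk₂⟩ := hGH
  obtain ⟨hn1, hcomp1, hnil1, hN1, hfpf1, hcop1, hcent1⟩ := frob_data C₁ (H.subgroupOf K) hC₁ hk₁
  obtain ⟨hn2, hcomp2, hnil2, hN2, hfpf2, hcop2, hcent2⟩ := frob_data C₂ (K.map (QuotientGroup.mk' H)) hC₂ hk₂
  have hHK : H ≤ K := hlt.le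
  set B := K.map (QuotientGroup.mk' H) with hB
  let ψ : C₁ →* B := ((QuotientGroup.mk' H).comp (K.subtype.comp C₁.subtype)).codRestrict B
     (fun c => Subgroup.mem_map_of_mem _ c.1.2)
  have hψinj : Function.Injective ψ := by
    rw [injective_iff_map_eq_one]
    intro c hc
    have h1 : QuotientGroup.mk' H ((c : K) : G) = 1 := congrArg Subtype.val hc
    have h2 : ((c : K) : G) ∈ H := (QuotientGroup.eq_one_iff _).1 h1
    have h3 : (c : K) ∈ H.subgroupOf K ⊓ C₁ := ⟨Subgroup.mem_subgroupOf.2 h2, c.2⟩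
    rw [hcomp1.disjoint.eq_bot, Subgroup.mem_bot] at h3
    exact Subtype.ext h3
  have hψsurj : Function.Surjective ψ := by
    rintro ⟨b, hb⟩
    obtain ⟨k, hk, rfl⟩ := Subgroup.mem_map.1 hb
    have : (⟨k, hk⟩ : K) ∈ H.subgroupOf K ⊔ C₁ := by rw [hcomp1.sup_eq_top]; exact Subgroup.mem_top _
    obtain ⟨n, hn, c, hc, hnc⟩ := Subgroup.mem_sup_of_normal_left.1 this
    refine ⟨⟨c, hc⟩, Subtype.ext ?_⟩
    show QuotientGroup.mk' H ((c : K) : G) = QuotientGroup.mk' H k
    have h1 : QuotientGroup.mk' H ((n : K) : G) = 1 :=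
      (QuotientGroup.eq_one_iff _).2 (Subgroup.mem_subgroupOf.1 hn)
    have h2 : k = (n : G) * (c : G) := by
      have := congrArg Subtype.val hnc
      exact this.symm
    rw [h2, map_mul, h1, one_mul]
  let e : C₁ ≃* B := MulEquiv.ofBijective ψ ⟨hψinj, hψsurj⟩
  have hcardC₁ : Nat.card C₁ = Nat.card B := Nat.card_congr e.toEquiv
  -- an element of prime order in C₂
  have hC₂card : Nat.card C₂ ≠ 1 := by
    intro h
    exact hC₂.1 ((Subgroup.card_eq_one).1 h)
  obtain ⟨r, hr, hrd⟩ := Nat.exists_prime_and_dvd hC₂card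
  haveI := Fact.mk hr
  obtain ⟨y₀, hy₀⟩ := exists_prime_orderOf_dvd_card' (G := C₂) r hrd
  have hy₀1 : (y₀ : G ⧸ H) ≠ 1 := by
    intro h
    have : y₀ = 1 := Subtype.ext h
    rw [this, orderOf_one] at hy₀
    exact hr.one_lt.ne hy₀
  obtain ⟨hBcyc, hBodd⟩ := cyclic_odd_of_compl_kernel (H.subgroupOf K) C₁ hcomp1 hN1 hfpf1 B hN2
    (y₀ : G ⧸ H) r hr (by rw [Subgroup.orderOf_coe]; exact hy₀) (hfpf2 _ y₀.2 hy₀1) e
  have hb : Nat.card (↥K ⧸ H.subgroupOf K) = Nat.card B := by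
    have h1 := Subgroup.card_eq_card_quotient_mul_card_subgroup (H.subgroupOf K)
    have h2 := hcomp1.card_mul_card
    rw [← hcardC₁]
    have h3 : 0 < Nat.card (H.subgroupOf K) := Nat.card_pos
    have : Nat.card (↥K ⧸ H.subgroupOf K) * Nat.card (H.subgroupOf K)
        = Nat.card C₁ * Nat.card (H.subgroupOf K) := by rw [← h1, ← h2, mul_comm]
    exact Nat.eq_of_mul_eq_mul_right h3 this
  -- C₂ is abelian
  obtain ⟨β, hβ⟩ := hBcyc.exists_generator
  have hβ1 : (β : G ⧸ H) ≠ 1 := by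
    intro h
    apply hN2
    rw [eq_bot_iff]
    intro x hx
    obtain ⟨i, hi⟩ := Subgroup.mem_zpowers_iff.1 (hβ ⟨x, hx⟩)
    have : (β : G ⧸ H) ^ i = x := by simpa using congrArg Subtype.val hi
    rw [Subgroup.mem_bot, ← this, h, one_zpow]
  have hnz : ∀ n ∈ C₂, n * (β : G ⧸ H) * n⁻¹ ∈ Subgroup.zpowers (β : G ⧸ H) := by
    intro n _
    have h1 : n * (β : G ⧸ H) * n⁻¹ ∈ B := hn2.conj_mem _ β.2 n
    obtain ⟨i, hi⟩ := Subgroup.mem_zpowers_iff.1 (hβ ⟨_, h1⟩)
    exact Subgroup.mem_zpowers_iff.2 ⟨i, by simpa using congrArg Subtype.val hi⟩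
  have hC₂c : ∀ c ∈ C₂, ∀ d ∈ C₂, c * d = d * c := by
    intro c hc d hd
    rw [← commutatorElement_eq_one_iff_mul_comm]
    by_contra hne
    have h1 := commute_commutator_of_normalizes_zpowers C₂ hnz c hc d hd
    have h2 : ⁅c, d⁆ ∈ C₂ := by
      rw [commutatorElement_def]
      exact C₂.mul_mem (C₂.mul_mem (C₂.mul_mem hc hd) (C₂.inv_mem hc)) (C₂.inv_mem hd)
    have h3 := hfpf2 _ h2 hne
    have h4 : (β : G ⧸ H) ∈ B ⊓ Subgroup.centralizer {⁅c, d⁆} :=
      ⟨β.2, Subgroup.mem_centralizer_singleton_iff.2 h1.eq.symm⟩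
    rw [h3, Subgroup.mem_bot] at h4
    exact hβ1 h4
  haveI hBc : IsMulCommutative B := ⟨⟨fun a b => mul_comm_of_isCyclic hBcyc a b⟩⟩
  have hC₂c' : IsMulCommutative C₂ := ⟨⟨fun a b => Subtype.ext (hC₂c a a.2 b b.2)⟩⟩
  haveI hC₂cyc : IsCyclic C₂ := Cfsg.Agent.S0041.result C₂ B hN2
    (by rw [Subgroup.normalizer_eq_top]; exact le_top) hfpf2 (Or.inl hC₂c')
  -- the map to G ⧸ K
  let π : G ⧸ H →* G ⧸ K := QuotientGroup.map H K (MonoidHom.id G) hHK
  have hπmk : ∀ g : G, π (QuotientGroup.mk' H g) = QuotientGroup.mk' K g := fun g => rfl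
  have hπB : ∀ n ∈ B, π n = 1 := by
    intro n hn
    obtain ⟨k, hk, rfl⟩ := Subgroup.mem_map.1 hn
    rw [hπmk]
    exact (QuotientGroup.eq_one_iff k).2 hk
  have hfsurj : Function.Surjective (π.comp C₂.subtype) := by
    intro x
    obtain ⟨g, rfl⟩ := QuotientGroup.mk'_surjective K x
    have : QuotientGroup.mk' H g ∈ B ⊔ C₂ := by rw [hcomp2.sup_eq_top]; exact Subgroup.mem_top _
    obtain ⟨n, hn, c, hc, hnc⟩ := Subgroup.mem_sup_of_normal_left.1 this
    refine ⟨⟨c, hc⟩, ?_⟩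
    show π c = _
    rw [← hπmk, ← hnc, map_mul, hπB n hn, one_mul]
  have hGKcyc : IsCyclic (G ⧸ K) := isCyclic_of_surjective _ hfsurj
  have hdvd : Nat.card (G ⧸ K) ∣ Nat.card C₂ := Subgroup.card_dvd_of_surjective _ hfsurj
  have hcardH : Nat.card (H.subgroupOf K) = Nat.card H :=
    Nat.card_congr (Subgroup.subgroupOfEquivOfLe hHK).toEquiv
  have hcopH : (Nat.card B).Coprime (Nat.card H) := by
    rw [← hcardC₁, ← hcardH]
    exact hcop1.symm
  have hcopK : (Nat.card B).Coprime (Nat.card (G ⧸ K)) := Nat.Coprime.coprime_dvd_right hdvd hcop2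
  have hnilH : Group.IsNilpotent H :=
    Group.nilpotent_of_surjective (Subgroup.subgroupOfEquivOfLe hHK).toMonoidHom
      (Subgroup.subgroupOfEquivOfLe hHK).surjective
  have hsol : Group.IsSolvable G := by
    haveI : Group.IsSolvable H := inferInstance
    haveI : Group.IsSolvable B := solvable_of_isCyclic hBcyc
    haveI : Group.IsSolvable (G ⧸ K) := solvable_of_isCyclic hGKcyc
    haveI : Group.IsSolvable (G ⧸ H) := by
      refine Group.isSolvable_of_ker_le_range B.subtype π ?_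
      intro x hx
      obtain ⟨g, rfl⟩ := QuotientGroup.mk'_surjective H x
      rw [MonoidHom.mem_ker, hπmk] at hx
      rw [Subgroup.range_subtype]
      exact Subgroup.mem_map_of_mem _ ((QuotientGroup.eq_one_iff g).1 hx)
    exact (Group.isSolvable_iff_subgroup_quotient H).2 ⟨inferInstance, inferInstance⟩
  rw [hb]
  refine ⟨hsol, hBodd, Nat.Coprime.mul_right hcopH hcopK, hGKcyc, ?_⟩
  have hcardG : Nat.card G = Nat.card H * Nat.card B * Nat.card (G ⧸ K) := by
    rw [Subgroup.card_eq_card_quotient_mul_card_subgroup K, ← hcomp1.card_mul_card, hcardH, hcardC₁]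
    ring
  have hnd : ∀ {a c s : ℕ}, Nat.Coprime a c → s.Prime → s ∣ a → ¬ s ∣ c := by
    intro a c s hac hs h1 h2
    exact hs.one_lt.ne' (Nat.eq_one_of_dvd_coprimes hac h1 h2)
  have hfwd : ∀ p q : ℕ, p.Prime → q.Prime → p ≠ q → (∃ g : G, orderOf g = p * q) →
      p ∣ Nat.card B → q ∣ Nat.card B := by
    rintro p q hp hq hne ⟨g, hg⟩ hpb
    by_contra hqb
    have hxo : orderOf (g ^ q) = p := by
      rw [orderOf_pow_of_dvd hq.pos.ne' (by rw [hg]; exact Dvd.intro_left _ rfl), hg,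
        Nat.mul_div_cancel _ hq.pos]
    have hyo : orderOf (g ^ p) = q := by
      rw [orderOf_pow_of_dvd hp.pos.ne' (by rw [hg]; exact Dvd.intro _ rfl), hg,
        Nat.mul_div_cancel_left _ hp.pos]
    have hc : Commute (g ^ q) (g ^ p) := (Commute.refl g).pow_pow _ _
    set x := g ^ q with hx
    set y := g ^ p with hy
    have hxK : x ∈ K := by
      rw [← QuotientGroup.eq_one_iff, ← orderOf_eq_one_iff]
      have h1 : orderOf (x : G ⧸ K) ∣ p := by
        rw [← hxo]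
        exact orderOf_map_dvd (QuotientGroup.mk' K) x
      have h2 : orderOf (x : G ⧸ K) ∣ Nat.card (G ⧸ K) := orderOf_dvd_natCard _
      rcases (Nat.dvd_prime hp).1 h1 with h | h
      · exact h
      · rw [h] at h2
        exact absurd h2 (hnd hcopK hp hpb)
    have hxH : x ∉ H := by
      intro h
      have := Subgroup.orderOf_dvd_natCard H h
      rw [hxo] at this
      exact hnd hcopH hp hpb this
    have hxbB : QuotientGroup.mk' H x ∈ B := Subgroup.mem_map_of_mem _ hxK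
    have hxb1 : QuotientGroup.mk' H x ≠ 1 := fun h => hxH ((QuotientGroup.eq_one_iff x).1 h)
    have hyb : QuotientGroup.mk' H y ∈ B := by
      apply hcent2 _ hxbB hxb1
      rw [Subgroup.mem_centralizer_singleton_iff, ← map_mul, ← map_mul, hc.eq]
    have hyK : y ∈ K := by
      obtain ⟨k, hk, hky⟩ := Subgroup.mem_map.1 hyb
      have h1 : k⁻¹ * y ∈ H := QuotientGroup.eq.1 hky
      have e : y = k * (k⁻¹ * y) := by group
      rw [e]
      exact K.mul_mem hk (hHK h1)
    have hy1 : y ≠ 1 := by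
      intro h
      rw [h, orderOf_one] at hyo
      exact hq.one_lt.ne hyo
    have hyH : (⟨y, hyK⟩ : K) ∈ H.subgroupOf K := by
      rw [← QuotientGroup.eq_one_iff, ← orderOf_eq_one_iff]
      have h1 : orderOf (((⟨y, hyK⟩ : K) : K ⧸ H.subgroupOf K)) ∣ q := by
        have h0 : orderOf (⟨y, hyK⟩ : K) = q := by rw [← Subgroup.orderOf_coe]; exact hyo
        rw [← h0]
        exact orderOf_map_dvd (QuotientGroup.mk' (H.subgroupOf K)) _
      have h2 : orderOf (((⟨y, hyK⟩ : K) : K ⧸ H.subgroupOf K)) ∣ Nat.card B := by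
        rw [← hb]
        exact orderOf_dvd_natCard _
      rcases (Nat.dvd_prime hq).1 h1 with h | h
      · exact h
      · rw [h] at h2
        exact absurd h2 hqb
    have hxx : (⟨x, hxK⟩ : K) ∈ H.subgroupOf K := by
      apply hcent1 _ hyH (fun h => hy1 (congrArg Subtype.val h))
      rw [Subgroup.mem_centralizer_singleton_iff]
      exact Subtype.ext hc.eq
    exact hxH (Subgroup.mem_subgroupOf.1 hxx)
  obtain ⟨D, hDc, hDcard, hDv⟩ := exists_D H K hHK C₁ hC₁ hk₁ C₂ hC₂ hk₂ hC₂c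
  have hqD : ∀ q : ℕ, q.Prime → q ∣ Nat.card (G ⧸ K) → ∃ d ∈ D, orderOf d = q := by
    intro q hq hqd
    haveI := Fact.mk hq
    obtain ⟨d, hd⟩ := exists_prime_orderOf_dvd_card' (G := D) q (by rw [hDcard]; exact hqd.trans hdvd)
    exact ⟨d, d.2, by rw [Subgroup.orderOf_coe]; exact hd⟩
  have hqH : ∀ q : ℕ, q.Prime → q ∣ Nat.card H → ∃ d : H, orderOf d = q := by
    intro q hq hqd
    haveI := Fact.mk hq
    exact exists_prime_orderOf_dvd_card' (G := H) q hqd
  intro p q hp hq hne hpG hqG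
  constructor
  · intro hg
    constructor
    · exact hfwd p q hp hq hne hg
    · obtain ⟨g, hg⟩ := hg
      exact hfwd q p hq hp hne.symm ⟨g, by rw [hg, mul_comm]⟩
  · intro hiff
    by_cases hpb : p ∣ Nat.card B
    · have hqb := hiff.1 hpb
      haveI := Fact.mk hp
      haveI := Fact.mk hq
      obtain ⟨a, ha⟩ := exists_prime_orderOf_dvd_card' (G := C₁) p (by rw [hcardC₁]; exact hpb)
      obtain ⟨b, hb'⟩ := exists_prime_orderOf_dvd_card' (G := C₁) q (by rw [hcardC₁]; exact hqb)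
      have hcab : Commute a b := by
        apply e.injective
        rw [map_mul, map_mul]
        exact mul_comm_of_isCyclic hBcyc _ _
      refine ⟨(((a * b : C₁) : K) : G), ?_⟩
      rw [Subgroup.orderOf_coe, Subgroup.orderOf_coe]
      exact orderOf_mul_primes hp hq hne ha hb' hcab
    · have hqb : ¬ q ∣ Nat.card B := fun h => hpb (hiff.2 h)
      have hp' : p ∣ Nat.card H ∨ p ∣ Nat.card (G ⧸ K) := by
        rw [hcardG] at hpG
        rcases (Nat.Prime.dvd_mul hp).1 hpG with h | h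
        · rcases (Nat.Prime.dvd_mul hp).1 h with h | h
          · exact Or.inl h
          · exact absurd h hpb
        · exact Or.inr h
      have hq' : q ∣ Nat.card H ∨ q ∣ Nat.card (G ⧸ K) := by
        rw [hcardG] at hqG
        rcases (Nat.Prime.dvd_mul hq).1 hqG with h | h
        · rcases (Nat.Prime.dvd_mul hq).1 h with h | h
          · exact Or.inl h
          · exact absurd h hqb
        · exact Or.inr h
      rcases hp' with hp' | hp' <;> rcases hq' with hq' | hq'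
      · obtain ⟨a, ha⟩ := hqH p hp hp'
        obtain ⟨b, hb'⟩ := hqH q hq hq'
        refine ⟨((a * b : H) : G), ?_⟩
        rw [Subgroup.orderOf_coe]
        exact orderOf_mul_primes hp hq hne ha hb' (commute_of_nilpotent' hnilH hp hq hne ha hb')
      · obtain ⟨v, -, hvo, hvc⟩ := hDv p hp hp' hpb
        obtain ⟨d, hd, hdo⟩ := hqD q hq hq'
        exact ⟨v * d, orderOf_mul_primes hp hq hne hvo hdo (hvc d hd)⟩
      · obtain ⟨v, -, hvo, hvc⟩ := hDv q hq hq' hqb
        obtain ⟨d, hd, hdo⟩ := hqD p hp hp'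
        exact ⟨d * v, orderOf_mul_primes hp hq hne hdo hvo (hvc d hd).symm⟩
      · obtain ⟨d, hd, hdo⟩ := hqD p hp hp'
        obtain ⟨d', hd', hdo'⟩ := hqD q hq hq'
        exact ⟨d * d', orderOf_mul_primes hp hq hne hdo hdo' (hDc d hd d' hd')⟩

end Cfsg.Agent.S4001
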