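import Mathlib
import Cfsg.Statements.S4002
import Cfsg.Agent.Lib.Helper19.ThreePrimes2
-- import your own Cfsg.Agent.* helpers here

set_option autoImplicit false
open Cfsg

namespace Cfsg.Agent.S4002

/-- If the set of element orders of a finite group G is {1, 2, …, n} with n ≥ 7, then G is not solvable. -/
theorem result {G : Type*} [Group G] [Finite G] (n : ℕ) (hn : 7 ≤ n) (h : Set.range (orderOf : G → ℕ) = {k : ℕ | 1 ≤ k ∧ k ≤ n}) : ¬ Group.IsSolvable G := by
  intro hsol
  -- three primes with pairwise products exceeding n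
  obtain ⟨p, q, r, hp, hq, hr, hpq, hqr, hrn, hbig⟩ : ∃ p q r : ℕ, p.Prime ∧ q.Prime ∧ r.Prime ∧
      p < q ∧ q < r ∧ r ≤ n ∧ n < p * q := by
    by_cases h15 : n < 15
    · exact ⟨3, 5, 7, by norm_num, by norm_num, by norm_num, by norm_num, by norm_num, hn, by omega⟩
    by_cases h35 : n < 35
    · exact ⟨5, 7, 11, by norm_num, by norm_num, by norm_num, by norm_num, by norm_num, by omega,
        by omega⟩
    obtain ⟨r, hr, hr1, hr2⟩ := Nat.exists_prime_lt_and_le_two_mul (n / 2) (by omega)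
    obtain ⟨q, hq, hq1, hq2⟩ := Nat.exists_prime_lt_and_le_two_mul (n / 2 / 2) (by omega)
    obtain ⟨p, hp, hp1, hp2⟩ := Nat.exists_prime_lt_and_le_two_mul (n / 2 / 2 / 2) (by omega)
    refine ⟨p, q, r, hp, hq, hr, by omega, by omega, by omega, ?_⟩
    have h1 : n < 8 * p := by omega
    have h2 : n < 4 * q := by omega
    have h3 : 35 ≤ n := by omega
    by_contra hcon
    have h4 : p * q ≤ n := by omega
    have h5 : n * n < (8 * p) * (4 * q) := Nat.mul_lt_mul'' h1 h2
    nlinarith
  have hdvd : ∀ k : ℕ, 1 ≤ k → k ≤ n → k ∣ Nat.card G := by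
    intro k hk1 hk2
    have : k ∈ Set.range (orderOf : G → ℕ) := by rw [h]; exact ⟨hk1, hk2⟩
    obtain ⟨g, rfl⟩ := this
    exact orderOf_dvd_natCard g
  have hno : ∀ k : ℕ, n < k → ¬ ∃ x : G, orderOf x = k := by
    rintro k hk ⟨x, hx⟩
    have : orderOf x ∈ {k : ℕ | 1 ≤ k ∧ k ≤ n} := by rw [← h]; exact ⟨x, rfl⟩
    have h2 : orderOf x ≤ n := this.2
    omega
  have hsolT : Group.IsSolvable (⊤ : Subgroup G) := inferInstance
  have hcT : Nat.card (⊤ : Subgroup G) = Nat.card G := Subgroup.card_top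
  have hpr : p * q < p * r := Nat.mul_lt_mul_of_pos_left hqr hp.pos
  have hqr2 : p * q < q * r := by
    rw [mul_comm p q]
    exact Nat.mul_lt_mul_of_pos_left (by omega) hq.pos
  rcases Lib.Helper19.solv_two_primes (⊤ : Subgroup G) hsolT p q r hp hq hr (by omega) (by omega)
    (by omega) (by rw [hcT]; exact hdvd p hp.one_lt.le (by omega))
    (by rw [hcT]; exact hdvd q hq.one_lt.le (by omega)) (hdvd r hr.one_lt.le hrn) with h1 | h1 | h1
  · exact hno _ hbig h1
  · exact hno _ (by omega) h1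
  · exact hno _ (by omega) h1

end Cfsg.Agent.S4002
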