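import Cfsg.Statements.S4005
import Mathlib
import Cfsg.Agent.Lib.Helper21.Spec123

set_option autoImplicit false
open Cfsg

namespace Cfsg.Agent.S4005

/-- A finite group whose set of element orders is exactly {1, 2, 3} has either a normal elementary abelian 3-subgroup of index 2 or a normal elementary abelian 2-subgroup of index 3. -/
theorem result {G : Type*} [Group G] [Finite G] (h : Set.range (orderOf : G → ℕ) = {k : ℕ | 1 ≤ k ∧ k ≤ 3}) :
    (∃ N : Subgroup G, N.Normal ∧ Cfsg.IsElementaryAbelian 3 N ∧ N.index = 2) ∨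
      (∃ N : Subgroup G, N.Normal ∧ Cfsg.IsElementaryAbelian 2 N ∧ N.index = 3) := by
  have ho : Cfsg.Agent.Lib.Helper21.Ord123 G := by
    intro g
    have h1 : orderOf g ∈ Set.range (orderOf : G → ℕ) := ⟨g, rfl⟩
    rw [h] at h1
    obtain ⟨h2, h3⟩ := h1
    omega
  obtain ⟨t, ht⟩ : (2 : ℕ) ∈ Set.range (orderOf : G → ℕ) := by rw [h]; exact ⟨by norm_num, by norm_num⟩
  obtain ⟨c, hc⟩ : (3 : ℕ) ∈ Set.range (orderOf : G → ℕ) := by rw [h]; exact ⟨by norm_num, by norm_num⟩
  by_cases hA : Cfsg.pCore 3 G = ⊥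
  · exact Or.inr (ho.caseB t c ht hc hA)
  · exact Or.inl (ho.caseA t ht hA)

end Cfsg.Agent.S4005
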