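import Cfsg.Statements.S4200
import Mathlib

set_option autoImplicit false
open Cfsg

namespace Cfsg.Agent.S4200

/-- Let Y be a subgroup of the finite group X, of index m. Then the numbers of conjugacy classes satisfy k(Y) ≤ m·k(X) and k(X) ≤ m·k(Y), and the second inequality is strict unless Y is normal in X. -/
theorem result {X : Type*} [Group X] [Finite X] (Y : Subgroup X) : Nat.card (ConjClasses Y) ≤ Y.index * Nat.card (ConjClasses X) ∧ Nat.card (ConjClasses X) ≤ Y.index * Nat.card (ConjClasses Y) ∧ (¬ Y.Normal → Nat.card (ConjClasses X) < Y.index * Nat.card (ConjClasses Y)) := by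
  classical
  haveI : Fintype X := Fintype.ofFinite X
  haveI : Fintype Y := Fintype.ofFinite Y
  set m := Y.index with hm
  have hXY : Nat.card X = m * Nat.card Y := by rw [hm, mul_comm]; exact Y.card_mul_index.symm
  have hYpos : 0 < Nat.card Y := Nat.card_pos
  -- comparison of a subgroup with its intersection with `Y`
  have L1 : ∀ C : Subgroup X, Nat.card C ≤ m * Nat.card (Y ⊓ C : Subgroup X) ∧
      (Nat.card C = m * Nat.card (Y ⊓ C : Subgroup X) → ∀ g : X, ∃ c ∈ C, ∃ u ∈ Y, g = c * u) := by
    intro C
    let ψ : C ⧸ Y.subgroupOf C → X ⧸ Y := fun q => Quotient.liftOn' q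
      (fun c => (QuotientGroup.mk (c : X) : X ⧸ Y)) (by
        intro a b hab
        rw [QuotientGroup.leftRel_apply] at hab
        exact QuotientGroup.eq.2 hab)
    have hψ : Function.Injective ψ := by
      intro q1 q2
      induction q1 using QuotientGroup.induction_on with
      | H a =>
        induction q2 using QuotientGroup.induction_on with
        | H b =>
          intro h
          have h' : (QuotientGroup.mk (a : X) : X ⧸ Y) = QuotientGroup.mk (b : X) := h
          have h'' : ((a : X))⁻¹ * (b : X) ∈ Y := QuotientGroup.eq.1 h'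
          exact QuotientGroup.eq.2 h''
    have h1 : Nat.card C = Nat.card (C ⧸ Y.subgroupOf C) * Nat.card (Y.subgroupOf C) :=
      Subgroup.card_eq_card_quotient_mul_card_subgroup _
    have h2 : Nat.card (Y.subgroupOf C) = Nat.card (Y ⊓ C : Subgroup X) := by
      rw [← Subgroup.inf_subgroupOf_right]
      exact Nat.card_congr (Subgroup.subgroupOfEquivOfLe inf_le_right).toEquiv
    have h3 : Nat.card (C ⧸ Y.subgroupOf C) ≤ m := Nat.card_le_card_of_injective ψ hψ
    refine ⟨by rw [h1, h2]; exact Nat.mul_le_mul_right _ h3, ?_⟩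
    intro heq g
    rw [h1, h2] at heq
    have h4 : Nat.card (C ⧸ Y.subgroupOf C) = Nat.card (X ⧸ Y) :=
      Nat.eq_of_mul_eq_mul_right Nat.card_pos heq
    have hsurj : Function.Surjective ψ :=
      ((Nat.bijective_iff_injective_and_card ψ).2 ⟨hψ, h4⟩).2
    obtain ⟨q, hq⟩ := hsurj (QuotientGroup.mk g)
    induction q using QuotientGroup.induction_on with
    | H c =>
      have h' : (QuotientGroup.mk (c : X) : X ⧸ Y) = QuotientGroup.mk g := hq
      refine ⟨c, c.2, (c : X)⁻¹ * g, QuotientGroup.eq.1 h', by group⟩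
  -- the three sets of commuting pairs
  have hA : Nat.card {p : X × X // Commute p.1 p.2} =
      ∑ x : X, Nat.card (Subgroup.centralizer ({x} : Set X)) := by
    rw [Nat.card_congr (Equiv.subtypeProdEquivSigmaSubtype (fun a b : X => Commute a b)),
      Nat.card_sigma]
    apply Finset.sum_congr rfl
    intro x _
    apply Nat.card_congr
    exact Equiv.subtypeEquivRight (fun z => by
      rw [Subgroup.mem_centralizer_singleton_iff]
      exact ⟨fun h => h.symm, fun h => h.symm⟩)
  have hB1 : Nat.card {p : X × Y // Commute p.1 (p.2 : X)} =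
      ∑ x : X, Nat.card (Y ⊓ Subgroup.centralizer ({x} : Set X) : Subgroup X) := by
    rw [Nat.card_congr (Equiv.subtypeProdEquivSigmaSubtype (fun (a : X) (b : Y) => Commute a (b : X))),
      Nat.card_sigma]
    apply Finset.sum_congr rfl
    intro x _
    apply Nat.card_congr
    refine
      { toFun := fun z => ⟨z.1.1, Subgroup.mem_inf.mpr ⟨z.1.2, by
          rw [Subgroup.mem_centralizer_singleton_iff]; exact z.2.symm⟩⟩
        invFun := fun z => ⟨⟨z.1, (Subgroup.mem_inf.mp z.2).1⟩, by
          have := (Subgroup.mem_inf.mp z.2).2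
          rw [Subgroup.mem_centralizer_singleton_iff] at this
          exact this.symm⟩
        left_inv := fun z => rfl
        right_inv := fun z => rfl }
  have hB2 : Nat.card {p : X × Y // Commute p.1 (p.2 : X)} =
      ∑ y : Y, Nat.card (Subgroup.centralizer ({(y : X)} : Set X)) := by
    have e : {p : X × Y // Commute p.1 (p.2 : X)} ≃ {p : Y × X // Commute (p.1 : X) p.2} :=
      { toFun := fun p => ⟨(p.1.2, p.1.1), p.2.symm⟩
        invFun := fun p => ⟨(p.1.2, p.1.1), p.2.symm⟩
        left_inv := fun p => rfl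
        right_inv := fun p => rfl }
    rw [Nat.card_congr e,
      Nat.card_congr (Equiv.subtypeProdEquivSigmaSubtype (fun (a : Y) (b : X) => Commute (a : X) b)),
      Nat.card_sigma]
    apply Finset.sum_congr rfl
    intro y _
    apply Nat.card_congr
    exact Equiv.subtypeEquivRight (fun z => by
      rw [Subgroup.mem_centralizer_singleton_iff]
      exact ⟨fun h => h.symm, fun h => h.symm⟩)
  have hC : Nat.card {p : Y × Y // Commute p.1 p.2} =
      ∑ y : Y, Nat.card (Y ⊓ Subgroup.centralizer ({(y : X)} : Set X) : Subgroup X) := by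
    rw [Nat.card_congr (Equiv.subtypeProdEquivSigmaSubtype (fun a b : Y => Commute a b)),
      Nat.card_sigma]
    apply Finset.sum_congr rfl
    intro y _
    apply Nat.card_congr
    refine
      { toFun := fun z => ⟨z.1.1, Subgroup.mem_inf.mpr ⟨z.1.2, by
          rw [Subgroup.mem_centralizer_singleton_iff]
          exact (congrArg Subtype.val z.2.eq).symm⟩⟩
        invFun := fun z => ⟨⟨z.1, (Subgroup.mem_inf.mp z.2).1⟩, by
          have := (Subgroup.mem_inf.mp z.2).2
          rw [Subgroup.mem_centralizer_singleton_iff] at this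
          exact Subtype.ext this.symm⟩
        left_inv := fun z => rfl
        right_inv := fun z => rfl }
  have hkX := card_comm_eq_card_conjClasses_mul_card X
  have hkY := card_comm_eq_card_conjClasses_mul_card Y
  have hAB : Nat.card {p : X × X // Commute p.1 p.2} ≤
      m * Nat.card {p : X × Y // Commute p.1 (p.2 : X)} := by
    rw [hA, hB1, Finset.mul_sum]
    exact Finset.sum_le_sum (fun x _ => (L1 _).1)
  have hBC : Nat.card {p : X × Y // Commute p.1 (p.2 : X)} ≤
      m * Nat.card {p : Y × Y // Commute p.1 p.2} := by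
    rw [hB2, hC, Finset.mul_sum]
    exact Finset.sum_le_sum (fun y _ => (L1 _).1)
  refine ⟨?_, ?_, ?_⟩
  · have hinj : Nat.card {p : Y × Y // Commute p.1 p.2} ≤ Nat.card {p : X × X // Commute p.1 p.2} := by
      apply Nat.card_le_card_of_injective
        (fun p : {p : Y × Y // Commute p.1 p.2} =>
          (⟨((p.1.1 : X), (p.1.2 : X)), congrArg Subtype.val p.2.eq⟩ : {p : X × X // Commute p.1 p.2}))
      intro p q h
      have h1 := congrArg Subtype.val h
      apply Subtype.ext
      apply Prod.ext
      · exact Subtype.ext (congrArg Prod.fst h1)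
      · exact Subtype.ext (congrArg Prod.snd h1)
    rw [hkX, hkY, hXY] at hinj
    apply Nat.le_of_mul_le_mul_right _ hYpos
    calc Nat.card (ConjClasses Y) * Nat.card Y ≤ Nat.card (ConjClasses X) * (m * Nat.card Y) := hinj
      _ = m * Nat.card (ConjClasses X) * Nat.card Y := by ring
  · have h1 := hAB.trans (Nat.mul_le_mul_left m hBC)
    rw [hkX, hkY, hXY] at h1
    have hmpos : 0 < m := Nat.pos_of_ne_zero Subgroup.index_ne_zero_of_finite
    apply Nat.le_of_mul_le_mul_right _ (Nat.mul_pos hmpos hYpos)
    calc Nat.card (ConjClasses X) * (m * Nat.card Y)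
        ≤ m * (m * (Nat.card (ConjClasses Y) * Nat.card Y)) := h1
      _ = m * Nat.card (ConjClasses Y) * (m * Nat.card Y) := by ring
  · intro hn
    have hex : ∃ y ∈ Y, ∃ g : X, g * y * g⁻¹ ∉ Y := by
      by_contra hcon
      push Not at hcon
      exact hn ⟨fun y hy g => hcon y hy g⟩
    obtain ⟨y, hy, g, hg⟩ := hex
    have hlt : Nat.card {p : X × Y // Commute p.1 (p.2 : X)} <
        m * Nat.card {p : Y × Y // Commute p.1 p.2} := by
      rw [hB2, hC, Finset.mul_sum]
      apply Finset.sum_lt_sum (fun y _ => (L1 _).1)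
      refine ⟨⟨y, hy⟩, Finset.mem_univ _, ?_⟩
      apply lt_of_le_of_ne (L1 _).1
      intro heq
      obtain ⟨c, hc, u, hu, hgcu⟩ := (L1 _).2 heq g⁻¹
      apply hg
      have hg' : g = u⁻¹ * c⁻¹ := by
        rw [← inv_inv g, hgcu]; group
      rw [Subgroup.mem_centralizer_singleton_iff] at hc
      have h3 : c⁻¹ * y * c = y := by
        have : c * y = y * c := hc
        rw [mul_assoc, ← this]; group
      have h4 : g * y * g⁻¹ = u⁻¹ * (c⁻¹ * y * c) * u := by rw [hg']; group
      rw [h4, h3]
      exact Y.mul_mem (Y.mul_mem (Y.inv_mem hu) hy) hu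
    have hmpos : 0 < m := Nat.pos_of_ne_zero Subgroup.index_ne_zero_of_finite
    have h1 := lt_of_le_of_lt hAB (Nat.mul_lt_mul_of_pos_left hlt hmpos)
    rw [hkX, hkY, hXY] at h1
    apply Nat.lt_of_mul_lt_mul_right (a := m * Nat.card Y)
    calc Nat.card (ConjClasses X) * (m * Nat.card Y)
        < m * (m * (Nat.card (ConjClasses Y) * Nat.card Y)) := h1
      _ = m * Nat.card (ConjClasses Y) * (m * Nat.card Y) := by ring

end Cfsg.Agent.S4200
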