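import Cfsg.Statements.S4203
import Cfsg.Agent.Lib.Helper22.MaxIndex

set_option autoImplicit false
open Cfsg

namespace Cfsg.Agent.S4203

open Subgroup Cfsg.Agent.Lib.Helper22

universe u

theorem aux (n : ℕ) : ∀ (G : Type u) [Group G] [Finite G], Nat.card G = n →
    (∀ M : Subgroup G, IsCoatom M → ∃ p : ℕ, p.Prime ∧ (M.index = p ∨ M.index = p ^ 2)) →
    Group.IsSolvable G := by
  induction n using Nat.strong_induction_on with
  | _ n ih =>
  intro G _ _ hn h
  by_cases h1 : Nat.card G = 1
  · have : Subsingleton G := (Nat.card_eq_one_iff_unique.mp h1).1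
    infer_instance
  -- the largest prime divisor
  have hne : (Nat.card G).primeFactors.Nonempty := by
    rw [Nat.nonempty_primeFactors]
    have := Nat.card_pos (α := G)
    omega
  obtain ⟨p, hpmem, hpmax⟩ := (Nat.card G).primeFactors.exists_max_image id hne
  have hp : p.Prime := Nat.prime_of_mem_primeFactors hpmem
  have hpd : p ∣ Nat.card G := Nat.dvd_of_mem_primeFactors hpmem
  haveI : Fact p.Prime := ⟨hp⟩
  have hmax : ∀ q : ℕ, q.Prime → q ∣ Nat.card G → q ≤ p := fun q hq hqd =>
    hpmax q (Nat.mem_primeFactors.mpr ⟨hq, hqd, Nat.card_pos.ne'⟩)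
  obtain ⟨P⟩ : Nonempty (Sylow p G) := inferInstance
  by_cases hPn : (P : Subgroup G).Normal
  · -- quotient
    have hPnt : (P : Subgroup G) ≠ ⊥ := P.ne_bot_of_dvd_card hpd
    have hcard : Nat.card (G ⧸ (P : Subgroup G)) < n := by
      rw [← hn, ← index_eq_card, ← (P : Subgroup G).card_mul_index]
      have h2 : 1 < Nat.card (P : Subgroup G) := by
        rw [Subgroup.one_lt_card_iff_ne_bot]; exact hPnt
      have h3 : 0 < (P : Subgroup G).index := Nat.pos_of_ne_zero (P : Subgroup G).index_ne_zero_of_finite
      nlinarith
    have hq : Group.IsSolvable (G ⧸ (P : Subgroup G)) := by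
      refine ih _ hcard (G ⧸ (P : Subgroup G)) rfl ?_
      intro M hM
      have := h _ (isCoatom_comap_mk' (P : Subgroup G) hM)
      rwa [index_comap_of_surjective _ (QuotientGroup.mk'_surjective _)] at this
    have hPs : Group.IsSolvable (P : Subgroup G) := by
      haveI := P.isPGroup'.isNilpotent
      infer_instance
    exact Group.isSolvable_of_ker_le_range (P : Subgroup G).subtype (QuotientGroup.mk' (P : Subgroup G))
      (by rw [QuotientGroup.ker_mk', range_subtype])
  · have hN : normalizer ((P : Subgroup G) : Set G) ≠ ⊤ := fun hh => hPn (normalizer_eq_top_iff.mp hh)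
    obtain ⟨M, hM, hNM⟩ := (eq_top_or_exists_le_coatom _).resolve_left hN
    have hmod := index_modEq_one_of_normalizer_le P (M := M) (by simpa using hNM)
    obtain ⟨q, hq, hidx⟩ := h M hM
    have hqd : q ∣ Nat.card G := by
      have h1 : q ∣ M.index := by
        rcases hidx with h | h <;> rw [h]
        exact dvd_pow_self _ two_ne_zero
      exact h1.trans (index_dvd_card M)
    have hqp : q ≤ p := hmax q hq hqd
    have hq2 := hq.two_le
    have hmod' : p ∣ M.index - 1 := (Nat.modEq_iff_dvd' (by
      have := Nat.pos_of_ne_zero M.index_ne_zero_of_finite; omega)).mp hmod.symm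
    have key : q = 2 ∧ p = 3 := by
      rcases hidx with h | h
      · rw [h] at hmod'
        have := Nat.le_of_dvd (by omega) hmod'
        omega
      · rw [h] at hmod'
        have e : q ^ 2 - 1 = (q - 1) * (q + 1) := by
          obtain ⟨k, rfl⟩ : ∃ k, q = k + 1 := ⟨q - 1, by omega⟩
          simp only [Nat.add_sub_cancel]
          have : (k + 1) ^ 2 = k * (k + 1 + 1) + 1 := by ring
          omega
        rw [e] at hmod'
        rcases (Nat.Prime.dvd_mul hp).mp hmod' with h' | h'
        · have := Nat.le_of_dvd (by omega) h'
          omega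
        · have h5 := Nat.le_of_dvd (by omega) h'
          have hne : q ≠ p := by
            rintro rfl
            have : q ∣ 1 := (Nat.dvd_add_right (dvd_refl q)).mp h'
            have := Nat.le_of_dvd one_pos this
            omega
          have hpq : p = q + 1 := by omega
          rcases hq.eq_two_or_odd' with h6 | h6
          · omega
          · rcases hp.eq_two_or_odd' with h7 | h7
            · omega
            · exfalso
              rw [hpq] at h7
              exact (Nat.not_even_iff_odd.mpr h7) h6.add_one
    obtain ⟨-, rfl⟩ := key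
    -- |G| = 2^a 3^b
    have hcard : Nat.card G = 2 ^ (Nat.card G).factorization 2 * 3 ^ (Nat.card G).factorization 3 := by
      conv_lhs => rw [← Nat.prod_factorization_pow_eq_self (Nat.card_pos (α := G)).ne']
      have hsub : (Nat.card G).factorization.support ⊆ {2, 3} := by
        intro r hr
        rw [Nat.support_factorization] at hr
        have hr1 := Nat.prime_of_mem_primeFactors hr
        have hr2 := hmax r hr1 (Nat.dvd_of_mem_primeFactors hr)
        have := hr1.two_le
        simp only [Finset.mem_insert, Finset.mem_singleton]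
        omega
      rw [Finsupp.prod_of_support_subset _ hsub _ (by intro i _; simp)]
      rw [Finset.prod_pair (by norm_num)]
    exact Cfsg.Agent.S0144.result 2 3 _ _ Nat.prime_two Nat.prime_three hcard

/-- A finite group in which every maximal subgroup has index a prime or the square of a prime is solvable. -/
theorem result {G : Type*} [Group G] [Finite G] (h : ∀ M : Subgroup G, IsCoatom M → ∃ p : ℕ, p.Prime ∧ (M.index = p ∨ M.index = p ^ 2)) : Group.IsSolvable G :=
  aux _ G rfl h

end Cfsg.Agent.S4203
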