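import Cfsg.Statements.S4205
-- import your own Cfsg.Agent.* helpers here

set_option autoImplicit false
open Cfsg
open scoped commutatorElement

namespace Cfsg.Agent.S4205

/-- In a finite group whose upper central series reaches the whole group at step `c` (nilpotent of class at most `c`), starting from any subgroup and taking normalizers `c` times reaches the whole group. -/
theorem result {G : Type*} [Group G] [Finite G] (c : ℕ) (hG : Subgroup.upperCentralSeries G c = ⊤) (H : Subgroup G) : (fun K : Subgroup G => Subgroup.normalizer (K : Set G))^[c] H = ⊤ := by
  have key : ∀ i : ℕ, Subgroup.upperCentralSeries G i ≤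
      (fun K : Subgroup G => Subgroup.normalizer (K : Set G))^[i] H := by
    intro i
    induction i with
    | zero => simp
    | succ i ih =>
      rw [Function.iterate_succ_apply']
      intro x hx
      rw [Subgroup.mem_upperCentralSeries_succ_iff] at hx
      rw [Subgroup.mem_normalizer_iff]
      intro h
      have h1 := ih (hx h)
      constructor
      · intro hh
        have := Subgroup.mul_mem _ h1 hh
        have e : ⁅x, h⁆ * h = x * h * x⁻¹ := by rw [commutatorElement_def]; group
        rwa [e] at this
      · intro hh
        have := Subgroup.mul_mem _ (Subgroup.inv_mem _ h1) hh
        have e : ⁅x, h⁆⁻¹ * (x * h * x⁻¹) = h := by rw [commutatorElement_def]; group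
        rwa [e] at this
  rw [eq_top_iff, ← hG]
  exact key c

end Cfsg.Agent.S4205
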