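import Cfsg.Statements.S4207
import Cfsg.Agent.Lib.Helper22.AutBound

set_option autoImplicit false
open Cfsg

namespace Cfsg.Agent.S4207

open Cfsg.Agent.Lib.Helper22

/-- Let `P` be a group of order `p^n` whose Frattini subgroup has index `p^r`. Then any group of automorphisms of `P` each of which induces the identity on the Frattini quotient has order dividing `p^(r(n-r))`; in particular it is a `p`-group. -/
theorem result {P : Type*} [Group P] [Finite P] {p n r : ℕ} [Fact p.Prime] (hP : Nat.card P = p ^ n) (hr : (frattini P).index = p ^ r) (A : Subgroup (MulAut P)) (hA : ∀ α ∈ A, ∀ x : P, α x * x⁻¹ ∈ frattini P) : Nat.card A ∣ p ^ (r * (n - r)) := by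
  have hp : p.Prime := Fact.out
  set Φ := frattini P with hΦ
  have hQ : Nat.card (P ⧸ Φ) = p ^ r := by rw [← Subgroup.index_eq_card, hr]
  obtain ⟨xb, hxb⟩ := exists_generators_of_card_eq_prime_pow hQ
  let x : Fin r → P := fun i => (xb i).out
  have hx : ∀ i, QuotientGroup.mk' Φ (x i) = xb i := fun i => Quotient.out_eq' (xb i)
  let Y : Set (Fin r → P) := {f | ∀ i, f i * (x i)⁻¹ ∈ Φ}
  have hgen : ∀ f ∈ Y, Subgroup.closure (Set.range f) = ⊤ := by
    intro f hf
    apply frattini_nongenerating
    have h1 : (Subgroup.closure (Set.range f)).map (QuotientGroup.mk' Φ) = ⊤ := by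
      rw [MonoidHom.map_closure, ← hxb]
      congr 1
      ext z
      constructor
      · rintro ⟨_, ⟨i, rfl⟩, rfl⟩
        refine ⟨i, ?_⟩
        rw [← hx i]
        symm
        have := hf i
        rw [← QuotientGroup.eq_one_iff, QuotientGroup.mk_mul, QuotientGroup.mk_inv, mul_inv_eq_one] at this
        exact this
      · rintro ⟨i, rfl⟩
        refine ⟨f i, ⟨i, rfl⟩, ?_⟩
        rw [← hx i]
        have := hf i
        rw [← QuotientGroup.eq_one_iff, QuotientGroup.mk_mul, QuotientGroup.mk_inv, mul_inv_eq_one] at this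
        exact this
    have h2 := Subgroup.comap_map_eq (QuotientGroup.mk' Φ) (Subgroup.closure (Set.range f))
    rw [h1, Subgroup.comap_top, QuotientGroup.ker_mk'] at h2
    exact h2.symm
  have hdvd : Nat.card A ∣ Nat.card Y := by
    apply card_dvd_of_free_on_set Y
    · intro a f hf i
      have h1 := hA a.1 a.2 (f i)
      have h2 := hf i
      have : (a • f) i * (x i)⁻¹ = (a.1 (f i) * (f i)⁻¹) * (f i * (x i)⁻¹) := by
        simp only [mul_assoc, inv_mul_cancel_left]
        rfl
      rw [this]
      exact Φ.mul_mem h1 h2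
    · intro a f hf haf
      have := mulAut_eq_one_of_fix_generators f (hgen f hf) a.1 (fun i => congrFun haf i)
      exact Subtype.ext this
  have hcardY : Nat.card Y = Nat.card Φ ^ r := by
    have e : Y ≃ (Fin r → Φ) :=
      { toFun := fun f i => ⟨f.1 i * (x i)⁻¹, f.2 i⟩
        invFun := fun g => ⟨fun i => (g i : P) * x i, fun i => by simp⟩
        left_inv := fun f => by ext i; simp
        right_inv := fun g => by ext i; simp }
    rw [Nat.card_congr e, Nat.card_fun, Nat.card_fin]
  have hrn : r ≤ n := by
    have : p ^ r ∣ p ^ n := by rw [← hr, ← hP]; exact Subgroup.index_dvd_card _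
    exact (Nat.pow_dvd_pow_iff_le_right hp.one_lt).mp this
  have hcardΦ : Nat.card Φ = p ^ (n - r) := by
    have h1 := Φ.card_mul_index
    rw [hr, hP] at h1
    have h2 : p ^ n = p ^ (n - r) * p ^ r := by rw [← pow_add]; congr 1; omega
    rw [h2] at h1
    exact Nat.eq_of_mul_eq_mul_right (pow_pos hp.pos r) h1
  rw [hcardY, hcardΦ, ← pow_mul, mul_comm] at hdvd
  exact hdvd

end Cfsg.Agent.S4207
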