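import Cfsg.Statements.S4208
import Cfsg.Agent.Lib.Helper22.AutBound2
import Cfsg.Agent.S0012

set_option autoImplicit false
open Cfsg

namespace Cfsg.Agent.S4208

open Cfsg.Agent.Lib.Helper22
open scoped commutatorElement

/-- Let `P` be a group of order `p^n` whose Frattini subgroup has index `p^r`. Then the order of the automorphism group of `P` divides `p^(r(n-r)) · (p^r - 1)(p^r - p) ⋯ (p^r - p^(r-1))`. -/
theorem result {P : Type*} [Group P] [Finite P] {p n r : ℕ} [Fact p.Prime] (hP : Nat.card P = p ^ n) (hr : (frattini P).index = p ^ r) : Nat.card (MulAut P) ∣ p ^ (r * (n - r)) * ∏ i ∈ Finset.range r, (p ^ r - p ^ i) := by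
  have hp : p.Prime := Fact.out
  set Φ := frattini P with hΦ
  have hPG : IsPGroup p P := IsPGroup.of_card hP
  obtain ⟨hcomm, hpow⟩ := Cfsg.Agent.S0012.result p hPG
  have hQ : Nat.card (P ⧸ Φ) = p ^ r := by rw [← Subgroup.index_eq_card, hr]
  let instQ : CommGroup (P ⧸ Φ) :=
    { (inferInstance : Group (P ⧸ Φ)) with
      mul_comm := by
        intro a b
        obtain ⟨a, rfl⟩ := QuotientGroup.mk_surjective a
        obtain ⟨b, rfl⟩ := QuotientGroup.mk_surjective b
        rw [← QuotientGroup.mk_mul, ← QuotientGroup.mk_mul, QuotientGroup.eq]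
        apply hcomm
        have : (a * b)⁻¹ * (b * a) = ⁅b⁻¹, a⁻¹⁆ := by
          rw [commutatorElement_def]; group
        rw [this]
        exact Subgroup.commutator_mem_commutator (Subgroup.mem_top _) (Subgroup.mem_top _) }
  have hexp : ∀ x : P ⧸ Φ, x ^ p = 1 := by
    intro x
    obtain ⟨x, rfl⟩ := QuotientGroup.mk_surjective x
    rw [← QuotientGroup.mk_pow, QuotientGroup.eq_one_iff]
    exact hpow x
  have hcardQ := @card_generating_tuples (P ⧸ Φ) instQ p r _ hQ hexp
  let Y : Set (Fin r → P) := {f | Subgroup.closure (Set.range f) = ⊤}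
  have hgen : ∀ f : Fin r → P, Subgroup.closure (Set.range f) = ⊤ ↔
      Subgroup.closure (Set.range fun i => (QuotientGroup.mk (f i) : P ⧸ Φ)) = ⊤ := by
    intro f
    have h0 : (Subgroup.closure (Set.range f)).map (QuotientGroup.mk' Φ) =
        Subgroup.closure (Set.range fun i => (QuotientGroup.mk (f i) : P ⧸ Φ)) := by
      rw [MonoidHom.map_closure, ← Set.range_comp]
      rfl
    constructor
    · intro h
      rw [← h0, h, ← MonoidHom.range_eq_map, MonoidHom.range_eq_top.mpr (QuotientGroup.mk'_surjective Φ)]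
    · intro h
      apply frattini_nongenerating
      have h2 := Subgroup.comap_map_eq (QuotientGroup.mk' Φ) (Subgroup.closure (Set.range f))
      rw [h0, h, Subgroup.comap_top, QuotientGroup.ker_mk'] at h2
      exact h2.symm
  have hdvd : Nat.card (MulAut P) ∣ Nat.card Y := by
    apply card_dvd_of_free_on_set Y
    · intro a f hf
      show Subgroup.closure (Set.range (a • f)) = ⊤
      have h1 : Set.range (a • f) = a.toMonoidHom '' Set.range f := by
        rw [← Set.range_comp]; rfl
      have hf' : Subgroup.closure (Set.range f) = ⊤ := hf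
      rw [h1, ← MonoidHom.map_closure, hf', ← MonoidHom.range_eq_map]
      exact MonoidHom.range_eq_top.mpr a.surjective
    · intro a f hf haf
      exact mulAut_eq_one_of_fix_generators f hf a (fun i => congrFun haf i)
  have hcardY : Nat.card Y = Nat.card {g : Fin r → P ⧸ Φ // Subgroup.closure (Set.range g) = ⊤} * Nat.card Φ ^ r := by
    have hmk : ∀ (q : P ⧸ Φ) (z : Φ), (QuotientGroup.mk (q.out * (z : P)) : P ⧸ Φ) = q := by
      intro q z
      rw [QuotientGroup.mk_mul, (QuotientGroup.eq_one_iff (z : P)).mpr z.2, mul_one]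
      exact Quotient.out_eq' q
    have e : Y ≃ {g : Fin r → P ⧸ Φ // Subgroup.closure (Set.range g) = ⊤} × (Fin r → Φ) :=
      { toFun := fun f => (⟨fun i => QuotientGroup.mk (f.1 i), (hgen f.1).mp f.2⟩,
          fun i => ⟨(QuotientGroup.mk (f.1 i) : P ⧸ Φ).out⁻¹ * f.1 i, by
            rw [← QuotientGroup.eq]; exact Quotient.out_eq' _⟩)
        invFun := fun g => ⟨fun i => (g.1.1 i).out * (g.2 i : P), by
          show Subgroup.closure _ = ⊤
          rw [hgen]
          simp only [hmk]
          exact g.1.2⟩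
        left_inv := fun f => by ext i; simp
        right_inv := fun g => by
          refine Prod.ext (Subtype.ext (funext fun i => hmk _ _)) (funext fun i => Subtype.ext ?_)
          simp only [hmk, inv_mul_cancel_left] }
    rw [Nat.card_congr e, Nat.card_prod, Nat.card_fun, Nat.card_fin]
  have hrn : r ≤ n := by
    have : p ^ r ∣ p ^ n := by rw [← hr, ← hP]; exact Subgroup.index_dvd_card _
    exact (Nat.pow_dvd_pow_iff_le_right hp.one_lt).mp this
  have hcardΦ : Nat.card Φ = p ^ (n - r) := by
    have h1 := Φ.card_mul_index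
    rw [hr, hP] at h1
    have h2 : p ^ n = p ^ (n - r) * p ^ r := by rw [← pow_add]; congr 1; omega
    rw [h2] at h1
    exact Nat.eq_of_mul_eq_mul_right (pow_pos hp.pos r) h1
  rw [hcardY, hcardΦ, ← pow_mul, mul_comm (n - r) r, mul_comm] at hdvd
  rw [← hcardQ]
  exact hdvd

end Cfsg.Agent.S4208
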