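import Cfsg.Statements.S4212
import Cfsg.Agent.Lib.Helper22.FrobClass
import Cfsg.Agent.Lib.Helper22.Basic

set_option autoImplicit false
open Cfsg

namespace Cfsg.Agent.S4212

open Subgroup Cfsg.Agent.Lib.Helper22

theorem hmul {G : Type*} [Group G] [Finite G] (c : G) :
    Nat.card {y : G // IsConj c y} * Nat.card (centralizer ({c} : Set G)) = Nat.card G := by
  rw [← index_centralizer_eq_card_conj, mul_comm]
  exact (centralizer ({c} : Set G)).card_mul_index

theorem isConj_pow {G : Type*} [Group G] {x y : G} (h : IsConj x y) (b : ℕ) :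
    IsConj (x ^ b) (y ^ b) := by
  obtain ⟨g, rfl⟩ := isConj_iff.mp h
  rw [conj_pow]
  exact isConj_iff.mpr ⟨g, rfl⟩

theorem card_conj_dvd {G : Type*} [Group G] [Finite G] {c y : G} (b : ℕ) (h : IsConj c (y ^ b)) :
    Nat.card {z : G // IsConj c z} ∣ Nat.card {z : G // IsConj y z} := by
  have h1 : Nat.card {z : G // IsConj c z} = Nat.card {z : G // IsConj (y ^ b) z} :=
    Nat.card_congr (Equiv.subtypeEquivRight fun z => ⟨fun hz => h.symm.trans hz, fun hz => h.trans hz⟩)
  rw [h1, ← index_centralizer_eq_card_conj, ← index_centralizer_eq_card_conj]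
  exact index_dvd_of_le (centralizer_singleton_le_pow y b)

theorem claim {G : Type*} [Group G] [Finite G] (a b : ℕ)
    (iha : ∀ c : G, Nat.gcd (Nat.card {y : G // IsConj c y} * a) (Nat.card G) ∣
      Nat.card {x : G // IsConj c (x ^ a)}) (c : G) :
    Nat.gcd (Nat.card {y : G // IsConj c y} * a) (Nat.card G) ∣
      Nat.card {x : G // IsConj c (x ^ (a * b))} := by
  classical
  haveI : Fintype (ConjClasses G) := Fintype.ofFinite _
  let π : {x : G // IsConj c (x ^ (a * b))} → ConjClasses G := fun x => ConjClasses.mk (x.1 ^ a)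
  rw [← Nat.card_congr (Equiv.sigmaFiberEquiv π), Nat.card_sigma]
  apply Finset.dvd_sum
  intro D _
  obtain ⟨y, rfl⟩ := ConjClasses.exists_rep D
  by_cases hy : IsConj c (y ^ b)
  · have e : {x // π x = ConjClasses.mk y} ≃ {x : G // IsConj y (x ^ a)} :=
      { toFun := fun x => ⟨x.1.1, (ConjClasses.mk_eq_mk_iff_isConj.mp x.2).symm⟩
        invFun := fun x => ⟨⟨x.1, by
          rw [pow_mul]; exact hy.trans (isConj_pow x.2 b)⟩,
          ConjClasses.mk_eq_mk_iff_isConj.mpr x.2.symm⟩
        left_inv := fun x => rfl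
        right_inv := fun x => rfl }
    rw [Nat.card_congr e]
    refine dvd_trans ?_ (iha y)
    exact Nat.gcd_dvd_gcd_of_dvd_left _ (Nat.mul_dvd_mul_right (card_conj_dvd b hy) a)
  · have : IsEmpty {x // π x = ConjClasses.mk y} := by
      constructor
      rintro ⟨⟨x, hx⟩, hxy⟩
      apply hy
      have h1 : IsConj (x ^ a) y := ConjClasses.mk_eq_mk_iff_isConj.mp hxy
      have h2 := isConj_pow h1 b
      rw [← pow_mul] at h2
      exact hx.trans h2
    simp

/-- Let `G` be a finite group of order `g`, `c` an element whose conjugacy class has `h` elements, and `n` a natural number. Then the number of elements `x` of `G` with `x^n` conjugate to `c` is a multiple of `gcd(hn, g)`. -/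
theorem result {G : Type*} [Group G] [Finite G] (c : G) (n : ℕ) : Nat.gcd (Nat.card {y : G // IsConj c y} * n) (Nat.card G) ∣ Nat.card {x : G // IsConj c (x ^ n)} := by
  revert c
  induction n using Nat.recOnPrimeCoprime with
  | zero =>
    intro c
    rw [mul_zero, Nat.gcd_zero_left]
    by_cases hc : c = 1
    · subst hc
      have : Nat.card {x : G // IsConj (1 : G) (x ^ 0)} = Nat.card G :=
        Nat.card_congr (Equiv.subtypeUnivEquiv fun x => by simp)
      rw [this]
    · have : IsEmpty {x : G // IsConj c (x ^ 0)} := by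
        constructor
        rintro ⟨x, hx⟩
        rw [pow_zero, isConj_one_left] at hx
        exact hc hx
      have h0 : Nat.card {x : G // IsConj c (x ^ 0)} = 0 := Nat.card_of_isEmpty
      rw [h0]
      exact dvd_zero _
  | prime_pow p k hp =>
    intro c
    rw [card_pow_conj]
    by_cases hpc : p ∣ orderOf c
    · exact (Nat.gcd_dvd_left _ _).trans (Nat.mul_dvd_mul_left _ (prime_pow_dvd_card_roots hp c hpc))
    · have hcop : (p ^ k).Coprime (orderOf c) :=
        Nat.Coprime.pow_left _ ((Nat.Prime.coprime_iff_not_dvd hp).mpr hpc)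
      rw [card_roots_of_coprime c hcop, ← hmul c, Nat.gcd_mul_left]
      exact Nat.mul_dvd_mul_left _ (Cfsg.Agent.Lib.Helper21.frobenius_gcd _)
  | coprime a b _ _ hab iha ihb =>
    intro c
    have h1 := claim a b iha c
    have h2 := claim b a ihb c
    rw [mul_comm b a] at h2
    rw [card_pow_conj] at h1 h2 ⊢
    rw [← hmul c, Nat.gcd_mul_left] at h1 h2 ⊢
    have hpos : 0 < Nat.card {y : G // IsConj c y} :=
      Nat.card_pos_iff.mpr ⟨⟨⟨c, IsConj.refl c⟩⟩, inferInstance⟩
    have h1' := Nat.dvd_of_mul_dvd_mul_left hpos h1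
    have h2' := Nat.dvd_of_mul_dvd_mul_left hpos h2
    apply Nat.mul_dvd_mul_left
    rw [Nat.gcd_comm, Nat.Coprime.gcd_mul _ hab, Nat.gcd_comm _ a, Nat.gcd_comm _ b]
    apply Nat.Coprime.mul_dvd_of_dvd_of_dvd _ h1' h2'
    exact (hab.coprime_dvd_left (Nat.gcd_dvd_left _ _)).coprime_dvd_right (Nat.gcd_dvd_left _ _)

end Cfsg.Agent.S4212
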