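import Cfsg.Statements.S4213
import Cfsg.Agent.S0043
import Cfsg.Agent.S3993
import Cfsg.Agent.H4.MinNormal

set_option autoImplicit false
open Cfsg

namespace Cfsg.Agent.S4213

open Subgroup

universe u

theorem ncard_preimage_mk {G : Type*} [Group G] (K : Subgroup G) (t : Set (G ⧸ K)) :
    ((QuotientGroup.mk : G → G ⧸ K) ⁻¹' t).ncard = Nat.card K * t.ncard := by
  rw [← Nat.card_coe_set_eq, Nat.card_congr (QuotientGroup.preimageMkEquivSubgroupProdSet K t),
    Nat.card_prod, Nat.card_coe_set_eq]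

theorem aux (N : ℕ) : ∀ (G : Type u) [Group G] [Finite G] [Group.IsSolvable G], Nat.card G = N →
    ∀ n : ℕ, n ∣ N → ({x : G | x ^ n = 1} : Set G).ncard = n →
    ∃ H : Subgroup G, H.Normal ∧ (H : Set G) = {x : G | x ^ n = 1} := by
  induction N using Nat.strong_induction_on with
  | _ N ih =>
  intro G _ _ _ hN n hn hcount
  by_cases htriv : (⊤ : Subgroup G) = ⊥
  · refine ⟨⊤, inferInstance, ?_⟩
    ext x
    have hx : x ∈ (⊤ : Subgroup G) := mem_top x
    rw [htriv, mem_bot] at hx
    simp [hx]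
  have hN0 : 0 < N := hN ▸ Nat.card_pos
  have hn0 : 0 < n := Nat.pos_of_dvd_of_pos hn hN0
  obtain ⟨K, hKn, hK1, -, hKmin⟩ := Cfsg.Agent.H4.exists_minimal_normal_le
    (inferInstance : (⊤ : Subgroup G).Normal) htriv
  obtain ⟨-, p, hp, hKp⟩ := Cfsg.Agent.S0043.result K hK1 hKmin
  haveI : Fact p.Prime := ⟨hp⟩
  have hKpg : IsPGroup p K := by
    intro k
    refine ⟨1, ?_⟩
    apply Subtype.ext
    simpa using hKp k k.2
  obtain ⟨i, hi⟩ := IsPGroup.iff_card.mp hKpg
  have hi0 : i ≠ 0 := by
    rintro rfl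
    rw [pow_zero, card_eq_one] at hi
    exact hK1 hi
  have hpK : p ∣ Nat.card K := by rw [hi]; exact dvd_pow_self p hi0
  have hcardmul : Nat.card K * Nat.card (G ⧸ K) = N := by
    rw [← hN, ← index_eq_card]; exact K.card_mul_index
  have hK2 : 1 < Nat.card K := by rw [one_lt_card_iff_ne_bot]; exact hK1
  have hQpos : 0 < Nat.card (G ⧸ K) := Nat.card_pos
  have hlt : Nat.card (G ⧸ K) < N := by rw [← hcardmul]; nlinarith
  have hKpow : ∀ x ∈ K, x ^ Nat.card K = 1 := by
    intro x hx
    have := pow_card_eq_one' (x := (⟨x, hx⟩ : K))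
    exact congrArg Subtype.val this
  by_cases hpn : p ∣ n
  · -- Case B
    set nb := Nat.gcd (n / p) (Nat.card (G ⧸ K)) with hnb
    set Sb : Set (G ⧸ K) := {y | y ^ nb = 1} with hSb
    have h1 : nb ∣ Sb.ncard := Cfsg.Agent.S3993.result nb (Nat.gcd_dvd_right _ _)
    have hSbpos : 0 < Sb.ncard := by
      rw [Set.ncard_pos]
      exact ⟨1, by simp [hSb]⟩
    have h1' : nb ≤ Sb.ncard := Nat.le_of_dvd hSbpos h1
    have hnbp : nb * p ∣ n := by
      obtain ⟨c, hc⟩ := hpn
      have : n / p = c := by rw [hc]; exact Nat.mul_div_cancel_left c hp.pos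
      have h2 : nb ∣ c := this ▸ Nat.gcd_dvd_left _ _
      rw [hc, mul_comm]
      exact Nat.mul_dvd_mul_left p h2
    have hsub : (QuotientGroup.mk : G → G ⧸ K) ⁻¹' Sb ⊆ {x : G | x ^ n = 1} := by
      intro x hx
      have hx' : (QuotientGroup.mk x : G ⧸ K) ^ nb = 1 := hx
      rw [← QuotientGroup.mk_pow, QuotientGroup.eq_one_iff] at hx'
      have h3 := hKp _ hx'
      rw [← pow_mul] at h3
      obtain ⟨c, hc⟩ := hnbp
      show x ^ n = 1
      rw [hc, pow_mul, h3, one_pow]
    have h3 : Nat.card K * Sb.ncard ≤ n := by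
      rw [← ncard_preimage_mk, ← hcount]
      exact Set.ncard_le_ncard hsub (Set.toFinite _)
    have h4 : n ∣ Nat.card K * nb := by
      rw [hnb, ← Nat.gcd_mul_left, hcardmul]
      apply Nat.dvd_gcd _ hn
      obtain ⟨c, hc⟩ := hpn
      obtain ⟨k', hk'⟩ := hpK
      have : n / p = c := by rw [hc]; exact Nat.mul_div_cancel_left c hp.pos
      rw [this, hk', hc]
      exact ⟨k', by ring⟩
    have hnbpos : 0 < nb := Nat.gcd_pos_of_pos_right _ hQpos
    have h5 : n ≤ Nat.card K * nb := Nat.le_of_dvd (by positivity) h4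
    have h6 : Nat.card K * nb ≤ Nat.card K * Sb.ncard := Nat.mul_le_mul_left _ h1'
    have h7 : Sb.ncard = nb := by
      have : Nat.card K * Sb.ncard = Nat.card K * nb := by omega
      exact Nat.eq_of_mul_eq_mul_left (by omega) this
    have h8 : (QuotientGroup.mk : G → G ⧸ K) ⁻¹' Sb = {x : G | x ^ n = 1} := by
      apply Set.eq_of_subset_of_ncard_le hsub _ (Set.toFinite _)
      rw [ncard_preimage_mk, hcount]
      omega
    obtain ⟨Hb, hHbn, hHb⟩ := ih _ hlt (G ⧸ K) rfl nb (Nat.gcd_dvd_right _ _) h7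
    refine ⟨Hb.comap (QuotientGroup.mk' K), inferInstance, ?_⟩
    rw [← h8, coe_comap, hHb]
    rfl
  · -- Case A
    have hcop : Nat.Coprime n (Nat.card K) := by
      rw [hi]
      exact Nat.Coprime.pow_right _ ((Nat.Prime.coprime_iff_not_dvd hp).mpr hpn).symm
    have hnQ : n ∣ Nat.card (G ⧸ K) := by
      rw [← hcardmul] at hn
      exact hcop.dvd_of_dvd_mul_left hn
    set Sb : Set (G ⧸ K) := {y | y ^ n = 1} with hSb
    have h1 : n ∣ Sb.ncard := Cfsg.Agent.S3993.result n hnQ
    have hSbpos : 0 < Sb.ncard := by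
      rw [Set.ncard_pos]
      exact ⟨1, by simp [hSb]⟩
    have hsurj : Sb ⊆ (QuotientGroup.mk : G → G ⧸ K) '' {x : G | x ^ n = 1} := by
      intro y hy
      have hy' : y ^ n = 1 := hy
      obtain ⟨x, rfl⟩ := QuotientGroup.mk_surjective y
      have hord : (Nat.card K).Coprime (orderOf (QuotientGroup.mk x : G ⧸ K)) :=
        (hcop.symm).coprime_dvd_right (orderOf_dvd_of_pow_eq_one hy')
      obtain ⟨m, hm⟩ := exists_pow_eq_self_of_coprime hord
      refine ⟨(x ^ Nat.card K) ^ m, ?_, ?_⟩
      · show ((x ^ Nat.card K) ^ m) ^ n = 1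
        rw [← QuotientGroup.mk_pow, QuotientGroup.eq_one_iff] at hy'
        have := hKpow _ hy'
        calc ((x ^ Nat.card K) ^ m) ^ n = ((x ^ n) ^ Nat.card K) ^ m := by
              simp only [← pow_mul]; congr 1; ring
          _ = 1 := by rw [this, one_pow]
      · rw [QuotientGroup.mk_pow, QuotientGroup.mk_pow]; exact hm
    have h2 : Sb.ncard ≤ n := by
      calc Sb.ncard ≤ ((QuotientGroup.mk : G → G ⧸ K) '' {x : G | x ^ n = 1}).ncard :=
            Set.ncard_le_ncard hsurj (Set.toFinite _)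
        _ ≤ ({x : G | x ^ n = 1} : Set G).ncard := Set.ncard_image_le (Set.toFinite _)
        _ = n := hcount
    have h3 : Sb.ncard = n := le_antisymm h2 (Nat.le_of_dvd hSbpos h1)
    obtain ⟨Hb, hHbn, hHb⟩ := ih _ hlt (G ⧸ K) rfl n hnQ h3
    set H := Hb.comap (QuotientGroup.mk' K) with hH
    have hKH : K ≤ H := by
      intro x hx
      rw [hH, mem_comap]
      have : QuotientGroup.mk' K x = 1 := by simpa using hx
      rw [this]; exact one_mem _
    have hcardH : Nat.card H = Nat.card K * n := by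
      have : (H : Set G) = (QuotientGroup.mk : G → G ⧸ K) ⁻¹' Sb := by
        rw [hH, coe_comap, hHb]; rfl
      rw [← h3, ← ncard_preimage_mk, ← this]
      rfl
    haveI : (K.subgroupOf H).Normal := inferInstance
    have hcardK' : Nat.card (K.subgroupOf H) = Nat.card K :=
      Nat.card_congr (subgroupOfEquivOfLe hKH).toEquiv
    have hidx : (K.subgroupOf H).index = n := by
      have := (K.subgroupOf H).card_mul_index
      rw [hcardK', hcardH] at this
      exact Nat.eq_of_mul_eq_mul_left (by omega) this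
    obtain ⟨L', hL'⟩ := exists_right_complement'_of_coprime (N := K.subgroupOf H)
      (by rw [hcardK', hidx]; exact hcop.symm)
    have hcardL' : Nat.card L' = n := by
      have := hL'.card_mul_card
      rw [hcardK', hcardH] at this
      exact Nat.eq_of_mul_eq_mul_left (by omega) this
    set L := L'.map H.subtype with hL
    have hcardL : Nat.card L = n := by
      rw [hL, card_map_of_injective H.subtype_injective, hcardL']
    have hLsub : (L : Set G) ⊆ {x : G | x ^ n = 1} := by
      intro x hx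
      have := pow_card_eq_one' (x := (⟨x, hx⟩ : L))
      rw [hcardL] at this
      exact congrArg Subtype.val this
    have hLeq : (L : Set G) = {x : G | x ^ n = 1} := by
      apply Set.eq_of_subset_of_ncard_le hLsub _ (Set.toFinite _)
      rw [hcount]
      exact hcardL.ge
    refine ⟨L, ⟨fun x hx g => ?_⟩, hLeq⟩
    have hx' : x ∈ (L : Set G) := hx
    rw [hLeq] at hx'
    have hx2 : x ^ n = 1 := hx'
    show g * x * g⁻¹ ∈ (L : Set G)
    rw [hLeq]
    show (g * x * g⁻¹) ^ n = 1
    rw [conj_pow, hx2]; group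

/-- If `G` is a finite solvable group and `n` divides the order of `G` and exactly `n` elements `x` of `G` satisfy `x^n = 1`, then these elements form a normal subgroup. -/
theorem result {G : Type*} [Group G] [Finite G] [Group.IsSolvable G] (n : ℕ) (hn : n ∣ Nat.card G) (hcount : Nat.card {x : G // x ^ n = 1} = n) : ∃ H : Subgroup G, H.Normal ∧ (H : Set G) = {x : G | x ^ n = 1} :=
  aux _ G rfl n hn hcount

end Cfsg.Agent.S4213
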