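import Cfsg.Statements.S4217
import Cfsg.Agent.Lib.Helper22.GaschutzSplit

set_option autoImplicit false
open Cfsg

namespace Cfsg.Agent.S4217

/-- Let `A` be an abelian normal subgroup of the finite group `G`. Then `A` has a complement in `G` if and only if, for every prime `p` dividing the index of `A`, there are a Sylow `p`-subgroup `S` of `G/A` and a subgroup `K` of `G` with `K ∩ A = 1` and `KA` equal to the preimage of `S` (that is, `A` has a complement in the preimage of a Sylow `p`-subgroup of `G/A`). -/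
theorem result {G : Type*} [Group G] [Finite G] (A : Subgroup G) [A.Normal] (hA : IsMulCommutative A) : (∃ K : Subgroup G, K.IsComplement' A) ↔ ∀ p : ℕ, p.Prime → p ∣ A.index → ∃ (S : Sylow p (G ⧸ A)) (K : Subgroup G), K ⊓ A = ⊥ ∧ K ⊔ A = (S : Subgroup (G ⧸ A)).comap (QuotientGroup.mk' A) := by
  constructor
  · rintro ⟨K, hK⟩ p hp _
    haveI : Fact p.Prime := ⟨hp⟩
    have hsurj : Function.Surjective ((QuotientGroup.mk' A).comp K.subtype) := by
      intro x
      obtain ⟨g, rfl⟩ := QuotientGroup.mk'_surjective A x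
      have h1 : g ∈ K ⊔ A := by rw [hK.sup_eq_top]; exact Subgroup.mem_top g
      rw [← SetLike.mem_coe, Subgroup.mul_normal] at h1
      obtain ⟨k, hk, a, ha, rfl⟩ := Set.mem_mul.mp h1
      refine ⟨⟨k, hk⟩, ?_⟩
      show QuotientGroup.mk' A k = QuotientGroup.mk' A (k * a)
      have h2 : QuotientGroup.mk' A a = 1 := (QuotientGroup.eq_one_iff a).mpr ha
      rw [map_mul, h2, mul_one]
    obtain ⟨P⟩ : Nonempty (Sylow p K) := inferInstance
    refine ⟨P.mapSurjective hsurj, (P : Subgroup K).map K.subtype, ?_, ?_⟩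
    · rw [eq_bot_iff, ← hK.disjoint.eq_bot]
      exact inf_le_inf_right _ (Subgroup.map_subtype_le _)
    · rw [Sylow.coe_mapSurjective, ← Subgroup.map_map, Subgroup.comap_map_eq,
        QuotientGroup.ker_mk']
  · intro h
    have hyp : Cfsg.Agent.Lib.Helper22.SplitHyp A := by
      intro p hp
      haveI : Fact p.Prime := ⟨hp⟩
      by_cases hpA : p ∣ A.index
      · obtain ⟨S, K, hK1, hK2⟩ := h p hp hpA
        refine ⟨K, hK1, ?_⟩
        rw [hK2, Subgroup.index_comap_of_surjective _ (QuotientGroup.mk'_surjective A)]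
        exact S.not_dvd_index
      · exact ⟨⊥, by simp, by simpa using hpA⟩
    obtain ⟨H, hH1, hH2⟩ :=
      Cfsg.Agent.Lib.Helper22.exists_complement_of_splitHyp _ A hA rfl hyp
    refine ⟨H, Subgroup.isComplement'_of_disjoint_and_mul_eq_univ (disjoint_iff.mpr hH1) ?_⟩
    rw [Set.eq_univ_iff_forall]
    intro g
    obtain ⟨h, hh, a, ha, rfl⟩ := hH2 g
    exact Set.mul_mem_mul hh ha

end Cfsg.Agent.S4217
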