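import Cfsg.Statements.S4218
import Cfsg.Agent.Lib.Helper22.FrattiniFaithful
import Cfsg.Agent.Lib.Helper23.PSolv
import Cfsg.Agent.H20.PSolvHall
import Cfsg.Agent.S0012

set_option autoImplicit false
open Cfsg Cfsg.Agent.Lib.Helper22 Cfsg.Agent.H12 Subgroup

namespace Cfsg.Agent.S4218

open scoped commutatorElement

/-- Let `G` be a finite `p`-solvable group, `N₀ = O_{p'}(G)`, `P₁ = O_{p',p}(G)`, and let `F ≤ P₁` be the preimage of the Frattini subgroup of `P₁/N₀`. Then an element `g` of `G` induces the identity on `P₁/F` by conjugation (that is, `g x g⁻¹ x⁻¹ ∈ F` for all `x ∈ P₁`) if and only if `g ∈ P₁`: the group `G/P₁` acts faithfully on `P₁/F`. -/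
theorem result {G : Type*} [Group G] [Finite G] {p : ℕ} [Fact p.Prime] (hG : Cfsg.IsPSolvable p G) (g : G) : (∀ x ∈ Cfsg.pPrimePCore p G, g * x * g⁻¹ * x⁻¹ ∈ ((frattini (↥(Cfsg.pPrimePCore p G) ⧸ (Cfsg.pPrimeCore p G).subgroupOf (Cfsg.pPrimePCore p G))).comap (QuotientGroup.mk' ((Cfsg.pPrimeCore p G).subgroupOf (Cfsg.pPrimePCore p G)))).map (Cfsg.pPrimePCore p G).subtype) ↔ g ∈ Cfsg.pPrimePCore p G := by
  have hp : p.Prime := Fact.out
  set N₀ := pPrimeCore p G with hN₀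
  set P₁ := pPrimePCore p G with hP₁
  set π := QuotientGroup.mk' N₀ with hπ
  have hπs : Function.Surjective π := QuotientGroup.mk'_surjective N₀
  set R := pCore p (G ⧸ N₀) with hR
  have hmemP : ∀ x : G, x ∈ P₁ ↔ π x ∈ R := fun x => Iff.rfl
  have hRp : IsPGroup p R := pCore_isPGroup p _
  set Φ : Subgroup (G ⧸ N₀) := (frattini R).map R.subtype with hΦ
  -- the map `P₁ → R`
  let ψ : P₁ →* R := (π.comp P₁.subtype).codRestrict R (fun x => x.2)
  have hψ : ∀ x : P₁, ((ψ x : R) : G ⧸ N₀) = π (x : G) := fun x => rfl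
  have hψs : Function.Surjective ψ := by
    rintro ⟨r, hr⟩
    obtain ⟨x, rfl⟩ := hπs r
    exact ⟨⟨x, hr⟩, rfl⟩
  have hker : N₀.subgroupOf P₁ = ψ.ker := by
    ext x
    rw [mem_subgroupOf, MonoidHom.mem_ker]
    constructor
    · intro hx
      apply Subtype.ext
      rw [hψ]
      exact (QuotientGroup.eq_one_iff (x : G)).mpr hx
    · intro hx
      have h1 : π (x : G) = 1 := by rw [← hψ, hx]; rfl
      exact (QuotientGroup.eq_one_iff (x : G)).mp h1
  let e : (P₁ ⧸ N₀.subgroupOf P₁) ≃* R :=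
    (QuotientGroup.quotientMulEquivOfEq hker).trans
      (QuotientGroup.quotientKerEquivOfSurjective ψ hψs)
  have he : ∀ x : P₁, e (QuotientGroup.mk' (N₀.subgroupOf P₁) x) = ψ x := fun x => rfl
  have hF : ∀ x : G, x ∈ ((frattini (↥P₁ ⧸ N₀.subgroupOf P₁)).comap
      (QuotientGroup.mk' (N₀.subgroupOf P₁))).map P₁.subtype ↔ π x ∈ Φ := by
    intro x
    rw [frattini_eq_comap_equiv e]
    constructor
    · rintro ⟨y, hy, rfl⟩
      have h1 : ψ y ∈ frattini R := hy
      exact ⟨ψ y, h1, rfl⟩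
    · rintro ⟨r, hr, hrx⟩
      have hx : x ∈ P₁ := by
        rw [hmemP, ← hrx]; exact r.2
      refine ⟨⟨x, hx⟩, ?_, rfl⟩
      have h1 : ψ ⟨x, hx⟩ = r := Subtype.ext hrx.symm
      show ψ ⟨x, hx⟩ ∈ frattini R
      rw [h1]; exact hr
  have hC : centralizer (R : Set (G ⧸ N₀)) ≤ R :=
    Cfsg.Agent.Lib.Helper23.centralizer_pCore_le_of_isPSolvable p
      (Cfsg.Agent.H20.isPSolvable_quotient hp hG N₀) (pPrimeCore_quotient_eq_bot p)
  constructor
  · intro h
    rw [hmemP]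
    apply mem_pCore_of_trivial_on_frattini p hC
    intro xb hxb
    obtain ⟨x, rfl⟩ := hπs xb
    have h1 := (hF _).mp (h x hxb)
    rw [map_mul, map_mul, map_mul, map_inv, map_inv] at h1
    exact h1
  · intro hg x hx
    rw [hF]
    have h1 : ⁅(⟨π g, hg⟩ : R), ⟨π x, hx⟩⁆ ∈ frattini R :=
      (Cfsg.Agent.S0012.result p hRp).1
        (by rw [_root_.commutator_def]; exact commutator_mem_commutator (mem_top _) (mem_top _))
    refine ⟨_, h1, ?_⟩
    rw [commutatorElement_def]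
    simp

end Cfsg.Agent.S4218
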