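import Cfsg.Statements.S4219
import Cfsg.Agent.Lib.Helper16.Basic

set_option autoImplicit false
open Cfsg

namespace Cfsg.Agent.S4219

open Cfsg.Agent.Lib.Helper16


/-- Let a finite group `G` act `t`-fold transitively on a finite set, let `H` be the stabilizer of `t` distinct points and `P` a Sylow `p`-subgroup of `H`. Then the normalizer of `P` in `G` is `t`-fold transitive on the fixed points of `P`: any `t` distinct fixed points of `P` can be carried to any other `t` distinct fixed points of `P` by an element normalizing `P`. -/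
theorem result {G : Type*} [Group G] [Finite G] {α : Type*} [Fintype α] [MulAction G α] {t : ℕ} (hG : MulAction.IsMultiplyPretransitive G α t) (x : Fin t ↪ α) {p : ℕ} [Fact p.Prime] (P : Sylow p (MulAction.stabilizer G x)) (a b : Fin t ↪ α) (ha : ∀ i, a i ∈ MulAction.fixedPoints ((P : Subgroup (MulAction.stabilizer G x)).map (MulAction.stabilizer G x).subtype) α) (hb : ∀ i, b i ∈ MulAction.fixedPoints ((P : Subgroup (MulAction.stabilizer G x)).map (MulAction.stabilizer G x).subtype) α) : ∃ g ∈ Subgroup.normalizer ((((P : Subgroup (MulAction.stabilizer G x)).map (MulAction.stabilizer G x).subtype) : Subgroup G) : Set G), g • a = b := by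
  have hsyl : IsSyl p ((P : Subgroup (MulAction.stabilizer G x)).map (MulAction.stabilizer G x).subtype)
    (MulAction.stabilizer G x) := isSyl_mk P
  generalize (P : Subgroup (MulAction.stabilizer G x)).map (MulAction.stabilizer G x).subtype = P'
    at hsyl ha hb ⊢
  have key : ∀ c : Fin t ↪ α, (∀ i, c i ∈ MulAction.fixedPoints P' α) →
      ∃ g ∈ Subgroup.normalizer (P' : Set G), g • x = c := by
    intro c hc
    obtain ⟨h, hh⟩ := hG.exists_smul_eq x c
    have hle : P'.map (MulAut.conj h⁻¹).toMonoidHom ≤ MulAction.stabilizer G x := by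
      rintro _ ⟨u, hu, rfl⟩
      show (h⁻¹ * u * h⁻¹⁻¹) • x = x
      rw [inv_inv, mul_smul, mul_smul, hh]
      have : u • c = c := by
        ext i
        rw [Function.Embedding.smul_apply]
        exact hc i ⟨u, hu⟩
      rw [this, ← hh, inv_smul_smul]
    obtain ⟨k, hk, hkle⟩ := hsyl.exists_conj_le (isPGroup_cj h⁻¹ hsyl.isPGroup) hle
    rw [cj_cj] at hkle
    have heq : P'.map (MulAut.conj (k * h⁻¹)).toMonoidHom = P' :=
      Subgroup.eq_of_le_of_card_ge hkle (by rw [card_cj])
    refine ⟨(k * h⁻¹)⁻¹, Subgroup.inv_mem _ (cj_eq_self_iff.1 heq), ?_⟩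
    rw [mul_inv_rev, inv_inv, mul_smul]
    have : k⁻¹ • x = x := (Subgroup.inv_mem (MulAction.stabilizer G x) hk)
    rw [this, hh]
  obtain ⟨g₁, hg₁, h1⟩ := key a ha
  obtain ⟨g₂, hg₂, h2⟩ := key b hb
  refine ⟨g₂ * g₁⁻¹, Subgroup.mul_mem _ hg₂ (Subgroup.inv_mem _ hg₁), ?_⟩
  rw [mul_smul, ← h1, inv_smul_smul, h2]

end Cfsg.Agent.S4219
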