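import Cfsg.Statements.S4227
import Cfsg.Agent.H20.HHAb
import Cfsg.Agent.S0144
import Cfsg.Agent.Lib.Helper10.PSolvOfSolv
import Cfsg.Agent.H1.PLength
-- import your own Cfsg.Agent.* helpers here

set_option autoImplicit false
open Cfsg

namespace Cfsg.Agent.S4227


open Subgroup Cfsg.Agent.H20

theorem comm_of_sq {G : Type*} [Group G] {a b : G} (ha : a ^ 2 = 1) (hb : b ^ 2 = 1) (hab : (a * b) ^ 2 = 1) :
    a * b = b * a := by
  have h1 : a⁻¹ = a := inv_eq_of_mul_eq_one_left (by rw [← sq]; exact ha)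
  have h2 : b⁻¹ = b := inv_eq_of_mul_eq_one_left (by rw [← sq]; exact hb)
  have h3 : (a * b)⁻¹ = a * b := inv_eq_of_mul_eq_one_left (by rw [← sq]; exact hab)
  rw [← h3, mul_inv_rev, h1, h2]

theorem pow_of_six {G : Type*} [Group G] (h : ∀ x : G, x ^ 6 = 1) {q r s : ℕ} (hrs : 6 = r * s)
    (hq : Nat.Coprime q s) (z : G) (k : ℕ) (hz : z ^ q ^ k = 1) : z ^ r = 1 := by
  have h1 := pow_gcd_eq_one.2 ⟨h z, hz⟩
  have h2 : Nat.gcd 6 (q ^ k) ∣ r := by
    have h3 : Nat.gcd 6 (q ^ k) ∣ r * s := hrs ▸ Nat.gcd_dvd_left 6 (q ^ k)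
    have h4 : Nat.Coprime (Nat.gcd 6 (q ^ k)) s :=
      Nat.Coprime.coprime_dvd_left (Nat.gcd_dvd_right 6 (q ^ k)) (hq.pow_left k)
    exact h4.dvd_of_dvd_mul_right h3
  obtain ⟨c, hc⟩ := h2
  rw [hc, pow_mul, h1, one_pow]

theorem solvable_of_six {G : Type*} [Group G] [Finite G] (h : ∀ x : G, x ^ 6 = 1) : Group.IsSolvable G := by
  obtain ⟨a, m, hm, ham⟩ := Nat.exists_eq_pow_mul_and_not_dvd (Nat.card_pos (α := G)).ne' 2 (by norm_num)
  have hm0 : m ≠ 0 := by rintro rfl; exact hm (dvd_zero 2)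
  obtain ⟨b, m', hm', hbm⟩ := Nat.exists_eq_pow_mul_and_not_dvd hm0 3 (by norm_num)
  have hm1 : m' = 1 := by
    by_contra hne
    obtain ⟨q, hq, hqd⟩ := Nat.exists_prime_and_dvd hne
    have : Fact q.Prime := ⟨hq⟩
    have hqG : q ∣ Nat.card G := by
      rw [ham, hbm]
      exact Dvd.dvd.mul_left (Dvd.dvd.mul_left hqd _) _
    obtain ⟨x, hx⟩ := exists_prime_orderOf_dvd_card' q hqG
    have h6 : q ∣ 6 := hx ▸ orderOf_dvd_of_pow_eq_one (h x)
    have h7 : q ∣ 2 * 3 := by norm_num; exact h6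
    rcases (Nat.Prime.dvd_mul hq).1 h7 with h8 | h8
    · have := (Nat.prime_dvd_prime_iff_eq hq Nat.prime_two).1 h8
      subst this
      exact hm (hbm ▸ Dvd.dvd.mul_left hqd _)
    · have := (Nat.prime_dvd_prime_iff_eq hq Nat.prime_three).1 h8
      subst this
      exact hm' hqd
  exact Cfsg.Agent.S0144.result 2 3 a b Nat.prime_two Nat.prime_three (by rw [ham, hbm, hm1, mul_one])
/-- A finite group in which every element has order dividing `6` has `2`-length at most `1` and `3`-length at most `1`. -/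
theorem result {G : Type*} [Group G] [Finite G] (h : ∀ x : G, x ^ 6 = 1) : Cfsg.PLengthLE 2 1 G ∧ Cfsg.PLengthLE 3 1 G := by
  have hsolv : Group.IsSolvable G := solvable_of_six h
  constructor
  · have : Fact (Nat.Prime 2) := ⟨Nat.prime_two⟩
    rw [pLengthLE_iff_PL]
    obtain ⟨P⟩ : Nonempty (Sylow 2 G) := inferInstance
    have hsq : ∀ z ∈ (P : Subgroup G), z ^ 2 = 1 := by
      intro z hz
      obtain ⟨k, hk⟩ := P.2 ⟨z, hz⟩
      exact pow_of_six h (q := 2) (r := 2) (s := 3) rfl (by norm_num) z k (congrArg Subtype.val hk)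
    have hPc : IsMulCommutative (P : Subgroup G) :=
      isMulCommutative_of_comm (fun a ha b hb => comm_of_sq (hsq a ha) (hsq b hb) (hsq _ (mul_mem ha hb)))
    have hn := Cfsg.H1.abelian_sylow_p_length_one 2 P hPc
    refine ⟨Cfsg.pPrimeCore 2 G, (P : Subgroup G) ⊔ Cfsg.pPrimeCore 2 G, inferInstance, hn, bot_le, le_sup_right,
      ?_, ?_, le_top, ?_⟩
    · rw [relIndex_bot_left]; exact Cfsg.H1.pPrimeCore_coprime 2
    · rw [relIndex_sup_right]
      exact P.2.index _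
    · rw [relIndex_top_right]
      have h1 : ((P : Subgroup G) ⊔ Cfsg.pPrimeCore 2 G).index ∣ (P : Subgroup G).index :=
        index_dvd_of_le le_sup_left
      have h2 : ¬ 2 ∣ (P : Subgroup G).index := P.not_dvd_index
      exact ((Nat.Prime.coprime_iff_not_dvd Nat.prime_two).2 (fun h3 => h2 (h3.trans h1))).symm
  · have : Fact (Nat.Prime 3) := ⟨Nat.prime_three⟩
    rw [pLengthLE_iff_PL]
    apply hh_main 1 G (Cfsg.Agent.Lib.Helper10.isPSolvable_of_isSolvable 3 Nat.prime_three)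
    · intro q hq hq3 Q hQ a ha b hb
      have hsq : ∀ z ∈ Q, z ^ 2 = 1 := by
        intro z hz
        obtain ⟨k, hk⟩ := hQ ⟨z, hz⟩
        exact pow_of_six h (q := q) (r := 2) (s := 3) rfl ((Nat.coprime_primes hq Nat.prime_three).2 hq3) z k
          (congrArg Subtype.val hk)
      exact comm_of_sq (hsq a ha) (hsq b hb) (hsq _ (mul_mem ha hb))
    · rintro g ⟨k, hk⟩
      rw [pow_one]
      exact pow_of_six h (q := 3) (r := 3) (s := 2) rfl (by norm_num) g k hk

end Cfsg.Agent.S4227
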