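import Cfsg.Statements.S4275
import Mathlib

set_option autoImplicit false
open Cfsg

namespace Cfsg.Agent.S4275

/-- Let G be a transitive group of permutations of a finite set Ω, let o ∈ Ω, and let α be an automorphism of G. Then α is induced by conjugation by a permutation of Ω normalizing G if and only if the image under α of the stabilizer of o fixes some point of Ω. -/
theorem result {Ω : Type*} [Fintype Ω] (G : Subgroup (Equiv.Perm Ω)) (htr : MulAction.IsPretransitive G Ω) (o : Ω) (α : G ≃* G) : (∃ σ : Equiv.Perm Ω, σ ∈ Subgroup.normalizer (G : Set (Equiv.Perm Ω)) ∧ ∀ g : G, ((α g : G) : Equiv.Perm Ω) = σ * (g : Equiv.Perm Ω) * σ⁻¹) ↔ ∃ ω : Ω, ∀ g ∈ (MulAction.stabilizer G o).map α.toMonoidHom, g • ω = ω := by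
  classical
  constructor
  · rintro ⟨σ, -, hσ⟩
    refine ⟨σ o, ?_⟩
    rintro _ ⟨h, hh, rfl⟩
    have hh' : (h : Equiv.Perm Ω) o = o := hh
    change ((α h : G) : Equiv.Perm Ω) (σ o) = σ o
    rw [hσ h]
    simp [hh']
  · rintro ⟨ω, hω⟩
    have hex : ∀ y : Ω, ∃ g : G, g • o = y := fun y => MulAction.exists_smul_eq G o y
    choose γ hγ using hex
    have key : ∀ g : G, α (γ (g • o)) • ω = α g • ω := by
      intro g
      have h1 : (γ (g • o))⁻¹ * g ∈ MulAction.stabilizer G o := by
        rw [MulAction.mem_stabilizer_iff, mul_smul, inv_smul_eq_iff, hγ]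
      have h2 := hω (α ((γ (g • o))⁻¹ * g)) ⟨_, h1, rfl⟩
      rw [map_mul, map_inv, mul_smul, inv_smul_eq_iff] at h2
      exact h2.symm
    have hsurj : Function.Surjective (fun y : Ω => α (γ y) • ω) := by
      intro y
      obtain ⟨g', hg'⟩ := MulAction.exists_smul_eq G ω y
      refine ⟨α.symm g' • o, ?_⟩
      change α (γ (α.symm g' • o)) • ω = y
      rw [key, MulEquiv.apply_symm_apply, hg']
    let σ : Equiv.Perm Ω := Equiv.ofBijective _ (Finite.surjective_iff_bijective.mp hsurj)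
    have hσ : ∀ g : G, σ (g • o) = α g • ω := key
    have hconj : ∀ g : G, ((α g : G) : Equiv.Perm Ω) = σ * (g : Equiv.Perm Ω) * σ⁻¹ := by
      intro g
      rw [eq_mul_inv_iff_mul_eq]
      ext z
      obtain ⟨h, rfl⟩ := MulAction.exists_smul_eq G o z
      change ((α g : G) : Equiv.Perm Ω) (σ (h • o)) = σ ((g : Equiv.Perm Ω) (h • o))
      have e1 : (g : Equiv.Perm Ω) (h • o) = (g * h) • o := by
        rw [mul_smul]; rfl
      rw [e1, hσ, hσ, map_mul, mul_smul]
      rfl
    refine ⟨σ, ?_, hconj⟩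
    rw [Subgroup.mem_normalizer_iff]
    intro h
    constructor
    · intro hh
      rw [← hconj ⟨h, hh⟩]
      exact (α ⟨h, hh⟩).2
    · intro hh
      have h1 := hconj (α.symm ⟨_, hh⟩)
      rw [MulEquiv.apply_symm_apply] at h1
      have h2 : h = ((α.symm ⟨_, hh⟩ : G) : Equiv.Perm Ω) := by
        have h3 : σ * h * σ⁻¹ = σ * ((α.symm ⟨_, hh⟩ : G) : Equiv.Perm Ω) * σ⁻¹ := h1
        exact mul_left_cancel (mul_right_cancel h3)
      rw [h2]
      exact (α.symm ⟨_, hh⟩).2

end Cfsg.Agent.S4275
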