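import Cfsg.Statements.S4283
import Mathlib
-- import your own Cfsg.Agent.* helpers here
import Cfsg.Agent.Lib.Helper22.FrobKernel

set_option autoImplicit false
open Cfsg

namespace Cfsg.Agent.S4283


open Cfsg.Agent.Lib.Helper22
open scoped Pointwise


/-- Let G be a finite group with centre Z and let K, H be abelian subgroups of G containing Z such that G/Z is a Frobenius group with complement H/Z and kernel K/Z. Then the conjugacy class sizes of G are exactly 1, [G : K] and [G : H], and these two indices are coprime. (This is the converse half of the characterization of finite groups whose conjugacy class sizes are exactly 1, m and n with m and n coprime.) -/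
theorem result {G : Type*} [Group G] [Finite G] (K H : Subgroup G) (hZK : Subgroup.center G ≤ K) (hZH : Subgroup.center G ≤ H) (hK : IsMulCommutative K) (hH : IsMulCommutative H) (hFrob : Cfsg.IsFrobeniusComplement (H.map (QuotientGroup.mk' (Subgroup.center G)))) (hker : Cfsg.frobeniusKernel (H.map (QuotientGroup.mk' (Subgroup.center G))) = (K.map (QuotientGroup.mk' (Subgroup.center G)) : Set (G ⧸ Subgroup.center G))) : Set.range (fun x : G => (Subgroup.centralizer ({x} : Set G)).index) = ({1, K.index, H.index} : Set ℕ) ∧ K.index.Coprime H.index := by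
  classical
  set Z := Subgroup.center G with hZ
  set π := QuotientGroup.mk' Z with hπ
  have hmem : ∀ (L : Subgroup G), Z ≤ L → ∀ x, π x ∈ L.map π ↔ x ∈ L := by
    intro L hL x
    constructor
    · rintro ⟨h, hh, hx⟩
      have : h⁻¹ * x ∈ Z := by
        rw [← QuotientGroup.eq]; exact hx
      have h2 := L.mul_mem hh (hL this)
      simpa using h2
    · intro hx; exact ⟨x, hx, rfl⟩
  have hπ1 : ∀ x, π x = 1 ↔ x ∈ Z := fun x => QuotientGroup.eq_one_iff x
  obtain ⟨hHbot, hHtop, hTI⟩ := (isFrobeniusComplement_iff _).1 hFrob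
  have T1 : ∀ u x : G, u ∉ H → x ∈ H → u⁻¹ * x * u ∈ H → x ∈ Z := by
    intro u x hu hx hux
    rw [← hπ1]
    apply hTI (π u) (π x)
    · rwa [hmem H hZH]
    · rwa [hmem H hZH]
    · rw [← map_inv, ← map_mul, ← map_mul, hmem H hZH]; exact hux
  have T2 : ∀ x, x ∈ K ↔ x ∈ Z ∨ ∀ g, g⁻¹ * x * g ∉ H := by
    intro x
    rw [← hmem K hZK, ← SetLike.mem_coe, ← hker, mem_frobeniusKernel_iff, hπ1]
    apply or_congr Iff.rfl
    constructor
    · intro h g hg
      apply h (π g)
      rw [← map_inv, ← map_mul, ← map_mul, hmem H hZH]; exact hg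
    · intro h g
      obtain ⟨g, rfl⟩ := QuotientGroup.mk'_surjective Z g
      rw [← map_inv, ← map_mul, ← map_mul, hmem H hZH]; exact h g
  have hconjZ : ∀ c g : G, c ∉ Z → g⁻¹ * c * g ∉ Z := by
    intro c g hc h
    apply hc
    have := (inferInstance : Z.Normal).conj_mem _ h g
    simpa [mul_assoc] using this
  have hA : ∀ x ∈ Z, (Subgroup.centralizer ({x} : Set G)).index = 1 := by
    intro x hx
    rw [Subgroup.index_eq_one, Subgroup.centralizer_eq_top_iff_subset]
    intro y hy
    rw [Set.mem_singleton_iff] at hy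
    rw [hy]; exact hx
  have hB : ∀ x ∈ K, x ∉ Z → Subgroup.centralizer ({x} : Set G) = K := by
    intro x hxK hxZ
    apply le_antisymm
    · intro c hc
      rw [Subgroup.mem_centralizer_singleton_iff] at hc
      by_contra hcK
      rw [T2] at hcK
      push_neg at hcK
      obtain ⟨hcZ, g, hg⟩ := hcK
      have hx2 := ((T2 x).1 hxK).resolve_left hxZ g
      apply hconjZ c g hcZ
      apply T1 (g⁻¹ * x * g) (g⁻¹ * c * g) hx2 hg
      have : (g⁻¹ * x * g)⁻¹ * (g⁻¹ * c * g) * (g⁻¹ * x * g) = g⁻¹ * (x⁻¹ * (c * x)) * g := by group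
      rw [this, hc, inv_mul_cancel_left]; exact hg
    · intro c hc
      rw [Subgroup.mem_centralizer_singleton_iff]
      have := hK.is_comm.comm ⟨c, hc⟩ ⟨x, hxK⟩
      exact congrArg Subtype.val this
  have hC0 : ∀ x ∈ H, x ∉ Z → Subgroup.centralizer ({x} : Set G) = H := by
    intro x hxH hxZ
    apply le_antisymm
    · intro c hc
      rw [Subgroup.mem_centralizer_singleton_iff] at hc
      by_contra hcH
      apply hxZ
      apply T1 c x hcH hxH
      have : c⁻¹ * x * c = x := by rw [mul_assoc, ← hc, inv_mul_cancel_left]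
      rw [this]; exact hxH
    · intro c hc
      rw [Subgroup.mem_centralizer_singleton_iff]
      have := hH.is_comm.comm ⟨c, hc⟩ ⟨x, hxH⟩
      exact congrArg Subtype.val this
  have hC : ∀ x, x ∉ K → (Subgroup.centralizer ({x} : Set G)).index = H.index := by
    intro x hxK
    have h := hxK
    rw [T2] at h
    push_neg at h
    obtain ⟨hxZ, g, hg⟩ := h
    have h1 := hC0 _ hg (hconjZ x g hxZ)
    have h2 : Subgroup.centralizer ({x} : Set G) = H.map ((MulAut.conj g : G ≃* G) : G →* G) := by
      ext c
      have h3 : c ∈ H.map ((MulAut.conj g : G ≃* G) : G →* G) ↔ g⁻¹ * c * g ∈ H := by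
        constructor
        · rintro ⟨h, hh, rfl⟩
          simpa [mul_assoc] using hh
        · intro h
          exact ⟨_, h, by simp [mul_assoc]⟩
      rw [h3, ← h1, Subgroup.mem_centralizer_singleton_iff, Subgroup.mem_centralizer_singleton_iff]
      constructor
      · intro h
        have : g⁻¹ * x * g * (g⁻¹ * c * g) = g⁻¹ * (x * c) * g := by group
        rw [this, ← h]; group
      · intro h
        have : x * c = g * (g⁻¹ * x * g * (g⁻¹ * c * g)) * g⁻¹ := by group
        rw [this, ← h]; group
    rw [h2, Subgroup.index_map_equiv]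
  have hker' : π.ker = Z := QuotientGroup.ker_mk' Z
  have hiK : (K.map π).index = K.index :=
    Subgroup.index_map_eq K (QuotientGroup.mk'_surjective Z) (by rw [hker']; exact hZK)
  have hiH : (H.map π).index = H.index :=
    Subgroup.index_map_eq H (QuotientGroup.mk'_surjective Z) (by rw [hker']; exact hZH)
  have hcK : Nat.card (K.map π) = H.index := by
    rw [← hiH, ← card_frobeniusKernel hFrob, hker]
    rfl
  have hHi : H.index ≠ 1 := by
    rw [← hiH, Ne, Subgroup.index_eq_one]; exact hHtop
  obtain ⟨k0, hk0K, hk0Z⟩ : ∃ x ∈ K, x ∉ Z := by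
    by_contra hcon
    push_neg at hcon
    apply hHi
    rw [← hcK]
    have : K.map π = ⊥ := by
      rw [eq_bot_iff]
      rintro _ ⟨x, hx, rfl⟩
      rw [Subgroup.mem_bot, hπ1]; exact hcon x hx
    rw [this]; simp
  obtain ⟨h0, hh0H, hh0Z⟩ : ∃ x ∈ H, x ∉ Z := by
    by_contra hcon
    push_neg at hcon
    apply hHbot
    rw [eq_bot_iff]
    rintro _ ⟨x, hx, rfl⟩
    rw [Subgroup.mem_bot, hπ1]; exact hcon x hx
  constructor
  · ext n
    simp only [Set.mem_range, Set.mem_insert_iff, Set.mem_singleton_iff]
    constructor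
    · rintro ⟨x, rfl⟩
      by_cases hxZ : x ∈ Z
      · left; exact hA x hxZ
      by_cases hxK : x ∈ K
      · right; left; rw [hB x hxK hxZ]
      · right; right; exact hC x hxK
    · rintro (rfl | rfl | rfl)
      · exact ⟨1, hA 1 Z.one_mem⟩
      · exact ⟨k0, by rw [hB k0 hk0K hk0Z]⟩
      · exact ⟨h0, by rw [hC0 h0 hh0H hh0Z]⟩
  · have h1 := (K.map π).card_mul_index
    have h2 := (H.map π).card_mul_index
    rw [hcK, hiK] at h1
    rw [hiH] at h2
    have hpos : 0 < H.index := Nat.pos_of_ne_zero Subgroup.index_ne_zero_of_finite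
    have h3 : K.index = Nat.card (H.map π) := by
      have : H.index * K.index = H.index * Nat.card (H.map π) := by rw [h1, ← h2, mul_comm]
      exact Nat.eq_of_mul_eq_mul_left hpos this
    have h4 := IsFrobeniusComplement.card_dvd_index_sub_one hFrob
    rw [hiH, ← h3] at h4
    have h5 : Nat.gcd K.index H.index ∣ 1 := by
      have h6 : Nat.gcd K.index H.index ∣ H.index - 1 := (Nat.gcd_dvd_left _ _).trans h4
      have h7 : Nat.gcd K.index H.index ∣ H.index := Nat.gcd_dvd_right _ _
      have := (Nat.dvd_sub h7 h6)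
      have h8 : H.index - (H.index - 1) = 1 := by omega
      rwa [h8] at this
    exact Nat.dvd_one.1 h5

end Cfsg.Agent.S4283
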