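import Cfsg.Statements.S4293
import Cfsg.Agent.Lib.Helper22.SemiFrobAdd

set_option autoImplicit false
open Cfsg Cfsg.Agent.Lib.Helper22

namespace Cfsg.Agent.S4293

theorem fg_adjoin {D : Type*} [DivisionRing D] (H : Subgroup Dˣ) [Finite H] :
    (Subalgebra.toSubmodule
      (Algebra.adjoin ℤ ((fun h : Dˣ => (h : D)) '' (H : Set Dˣ)))).FG := by
  set s : Set D := (fun h : Dˣ => (h : D)) '' (H : Set Dˣ) with hs
  have h1 : Subalgebra.toSubmodule (Algebra.adjoin ℤ s) = Submodule.span ℤ s := by
    apply Algebra.adjoin_eq_span_of_subset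
    have h2 : Submonoid.closure s = H.toSubmonoid.map (Units.coeHom D) := by
      have h3 : s = ((H.toSubmonoid.map (Units.coeHom D) : Submonoid D) : Set D) := rfl
      rw [h3, Submonoid.closure_eq]
    rw [h2]
    exact Submodule.subset_span
  rw [h1]
  exact Submodule.fg_span ((Set.toFinite (H : Set Dˣ)).image _)

theorem core {D : Type*} [DivisionRing D] (H : Subgroup Dˣ) [Finite H] (hH : H ≠ ⊥) (p : ℕ)
    (hp : p.Prime) (hpH : ¬ p ∣ Nat.card H)
    (hinv : ∀ w ∈ Algebra.adjoin ℤ ((fun h : Dˣ => (h : D)) '' (H : Set Dˣ)), w * (p : D) ≠ 1) :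
    ∃ (L : Type) (_ : Group L) (_ : Finite L) (C : Subgroup L),
      Cfsg.IsFrobeniusComplement C ∧ Nonempty (H ≃* C) := by
  set s : Set D := (fun h : Dˣ => (h : D)) '' (H : Set Dˣ) with hs
  set S : Subalgebra ℤ D := Algebra.adjoin ℤ s with hS
  let I : Ideal S := Ideal.span {(p : S)}
  let f : H →* S :=
    { toFun := fun h => ⟨((h : Dˣ) : D), Algebra.subset_adjoin ⟨h, h.2, rfl⟩⟩
      map_one' := by
        apply Subtype.ext
        simp
      map_mul' := fun a b => by
        apply Subtype.ext
        simp }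
  have hfinj : Function.Injective f := by
    intro a b hab
    apply Subtype.ext
    apply Units.ext
    exact congrArg (fun z : S => (z : D)) hab
  letI : DistribMulAction H (S ⧸ I) := DistribMulAction.compHom (S ⧸ I) f
  have hsmul : ∀ (h : H) (v : S ⧸ I), h • v = f h • v := fun _ _ => rfl
  haveI : Nontrivial H := (Subgroup.nontrivial_iff_ne_bot H).mpr hH
  -- finite generation
  have hfg : (Subalgebra.toSubmodule S).FG := fg_adjoin H
  haveI : Module.Finite ℤ S := Module.Finite.iff_fg.mpr hfg
  haveI : Module.Finite ℤ (S ⧸ I) :=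
    Module.Finite.of_surjective (I.mkQ.toAddMonoidHom.toIntLinearMap) (Submodule.mkQ_surjective I)
  have hpV : ∀ v : S ⧸ I, p • v = 0 := by
    intro v
    obtain ⟨x, rfl⟩ := Submodule.mkQ_surjective I v
    rw [← map_nsmul, Submodule.mkQ_apply, Submodule.Quotient.mk_eq_zero, nsmul_eq_mul,
      Nat.cast_comm]
    exact Ideal.mul_mem_left I x (Ideal.mem_span_singleton_self _)
  haveI : Finite (S ⧸ I) := by
    apply Module.finite_of_fg_torsion
    intro v
    refine ⟨⟨(p : ℤ), mem_nonZeroDivisors_of_ne_zero (by exact_mod_cast hp.ne_zero)⟩, ?_⟩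
    show (p : ℤ) • v = 0
    rw [natCast_zsmul]
    exact hpV v
  haveI : Nontrivial (S ⧸ I) := by
    refine ⟨⟨I.mkQ 1, 0, ?_⟩⟩
    rw [Submodule.mkQ_apply, Ne, Submodule.Quotient.mk_eq_zero, Ideal.mem_span_singleton']
    rintro ⟨a, ha⟩
    apply hinv a a.2
    have := congrArg (fun z : S => (z : D)) ha
    simpa using this
  obtain ⟨L, i1, i2, C, hC, hHC, -⟩ := exists_frobeniusComplement_of_fpf_add (H := H) (V := S ⧸ I) (by
    intro h hh v hv
    rw [hsmul] at hv
    have hsum : ∑ i ∈ Finset.range (orderOf h), (f h) ^ i = 0 := by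
      have h1 := geom_sum_mul (f h) (orderOf h)
      rw [← map_pow, pow_orderOf_eq_one, map_one, sub_self] at h1
      rcases mul_eq_zero.mp h1 with h2 | h2
      · exact h2
      · exfalso
        apply hh
        apply hfinj
        rw [map_one]
        exact sub_eq_zero.mp h2
    have hpow : ∀ i : ℕ, (f h) ^ i • v = v := by
      intro i
      induction i with
      | zero => simp
      | succ i ih => rw [pow_succ, mul_smul, hv, ih]
    have hn : orderOf h • v = 0 := by
      have h1 : (∑ i ∈ Finset.range (orderOf h), (f h) ^ i) • v = orderOf h • v := by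
        rw [Finset.sum_smul, Finset.sum_congr rfl (fun i _ => hpow i), Finset.sum_const,
          Finset.card_range]
      rw [← h1, hsum, zero_smul]
    have h1 : addOrderOf v ∣ Nat.gcd (orderOf h) p :=
      Nat.dvd_gcd (addOrderOf_dvd_of_nsmul_eq_zero hn) (addOrderOf_dvd_of_nsmul_eq_zero (hpV v))
    have h2 : Nat.gcd (orderOf h) p = 1 := by
      apply Nat.Coprime.symm
      rw [hp.coprime_iff_not_dvd]
      exact fun h3 => hpH (h3.trans (orderOf_dvd_natCard h))
    rw [h2, Nat.dvd_one] at h1
    exact AddMonoid.addOrderOf_eq_one_iff.mp h1)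
  exact ⟨L, i1, i2, C, hC, hHC⟩

/-- A nontrivial finite subgroup of the multiplicative group of a division ring occurs as a Frobenius complement of some finite Frobenius group. -/
theorem result {D : Type*} [DivisionRing D] (H : Subgroup Dˣ) [Finite H] (hH : H ≠ ⊥) :
    ∃ (L : Type) (_ : Group L) (_ : Finite L) (C : Subgroup L), Cfsg.IsFrobeniusComplement C ∧ Nonempty (H ≃* C) := by
  obtain ⟨c, hc⟩ := CharP.exists D
  rcases CharP.char_is_prime_or_zero D c with hcp | rfl
  · -- positive characteristic
    haveI : Fact c.Prime := ⟨hcp⟩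
    apply core H hH c hcp
    · intro hdvd
      obtain ⟨x, hx⟩ := exists_prime_orderOf_dvd_card' c hdvd
      have h1 : (((x : Dˣ) : D) - 1) ^ c = 0 := by
        rw [sub_pow_char_of_commute c (Commute.one_right _), one_pow, sub_eq_zero]
        have h2 : x ^ c = 1 := hx ▸ pow_orderOf_eq_one x
        have h3 := congrArg (fun z : H => ((z : Dˣ) : D)) h2
        simpa using h3
      have h4 : ((x : Dˣ) : D) = 1 := sub_eq_zero.mp (pow_eq_zero_iff hcp.ne_zero |>.mp h1)
      have h5 : x = 1 := by
        apply Subtype.ext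
        apply Units.ext
        exact h4
      rw [h5, orderOf_one] at hx
      exact hcp.one_lt.ne hx
    · intro w _ hw
      rw [CharP.cast_eq_zero, mul_zero] at hw
      exact zero_ne_one hw
  · -- characteristic zero
    haveI : CharZero D := CharP.charP_to_charZero D
    obtain ⟨p, hpge, hp⟩ := Nat.exists_infinite_primes (Nat.card H + 1)
    apply core H hH p hp
    · intro hdvd
      have := Nat.le_of_dvd Nat.card_pos hdvd
      omega
    · intro w hw hwp
      set S : Subalgebra ℤ D := Algebra.adjoin ℤ ((fun h : Dˣ => (h : D)) '' (H : Set Dˣ)) with hS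
      obtain ⟨r, hr1, hr2⟩ := Submodule.exists_sub_one_mem_and_smul_eq_zero_of_fg_of_le_smul
        (Ideal.span {(p : ℤ)}) (Subalgebra.toSubmodule S) (fg_adjoin H) (by
          intro x hx
          have h1 : x = (p : ℤ) • (x * w) := by
            rw [zsmul_eq_mul, Int.cast_natCast, Nat.cast_comm, mul_assoc, hwp, mul_one]
          rw [h1]
          exact Submodule.smul_mem_smul (Ideal.mem_span_singleton_self _) (S.mul_mem hx hw))
      have h2 := hr2 1 S.one_mem
      rw [zsmul_eq_mul, mul_one, Int.cast_eq_zero] at h2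
      rw [h2, Ideal.mem_span_singleton, zero_sub, dvd_neg] at hr1
      have h3 : p ∣ 1 := by exact_mod_cast hr1
      exact hp.one_lt.ne' (Nat.dvd_one.mp h3)

end Cfsg.Agent.S4293
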