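import Cfsg.Statements.S4295
import Cfsg.Agent.Lib.Helper22.QuatFrob
import Cfsg.Agent.Lib.Helper22.QuatLift
import Cfsg.Agent.Lib.Helper22.SemiFrobAdd

set_option autoImplicit false
open Cfsg Cfsg.Agent.Lib.Helper22

namespace Cfsg.Agent.S4295

open QuaternionGroup in
/-- the quaternion group of order 8 acts on an abelian group of order `m` with the central
involution acting as inversion. -/
def QAct (m : ℕ) : Prop :=
  ∃ (V : Type) (_ : AddCommGroup V) (_ : Finite V) (_ : DistribMulAction (QuaternionGroup 2) V),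
    (∀ v : V, (a 2 : QuaternionGroup 2) • v = -v) ∧ Nat.card V = m

theorem qAct_one : QAct 1 :=
  ⟨PUnit, inferInstance, inferInstance, inferInstance, fun _ => rfl, by simp⟩

theorem qAct_mul {m₁ m₂ : ℕ} (h₁ : QAct m₁) (h₂ : QAct m₂) : QAct (m₁ * m₂) := by
  obtain ⟨V₁, i1, i2, i3, h1, c1⟩ := h₁
  obtain ⟨V₂, j1, j2, j3, h2, c2⟩ := h₂
  refine ⟨V₁ × V₂, inferInstance, inferInstance, inferInstance, ?_, ?_⟩
  · rintro ⟨v, w⟩
    rw [Prod.smul_mk, h1, h2]
    rfl
  · rw [Nat.card_prod, c1, c2]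

open QuaternionGroup in
theorem exists_hom_units {E : Type*} [Ring E] (α ξ : E) (hα : α * α = -1) (hξ : ξ * ξ = -1)
    (hαξ : α * ξ = -(ξ * α)) :
    ∃ Φ : QuaternionGroup 2 →* Eˣ, ((Φ (a 2) : Eˣ) : E) = -1 := by
  let A : Eˣ := ⟨α, -α, by rw [mul_neg, hα, neg_neg], by rw [neg_mul, hα, neg_neg]⟩
  let X : Eˣ := ⟨ξ, -ξ, by rw [mul_neg, hξ, neg_neg], by rw [neg_mul, hξ, neg_neg]⟩
  have hA : A ^ (2 * 2) = 1 := by
    apply Units.ext
    show α ^ (2 * 2) = 1
    rw [pow_mul, pow_two α, hα]
    simp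
  have hX : X * X = A ^ 2 := by
    apply Units.ext
    show ξ * ξ = α ^ 2
    rw [pow_two, hα, hξ]
  have hAX : A * X = X * A⁻¹ := by
    apply Units.ext
    show α * ξ = ξ * -α
    rw [hαξ, mul_neg]
  refine ⟨quatLift A X hA hX hAX, ?_⟩
  have h1 := quatLift_a A X hA hX hAX 2
  have h2 : ((2 : ℕ) : ZMod (2 * 2)) = 2 := by norm_cast
  rw [h2] at h1
  rw [h1]
  show α ^ 2 = -1
  rw [pow_two, hα]

theorem qAct_prime_sq (p : ℕ) [Fact p.Prime] : QAct (p * p) := by
  obtain ⟨a, b, hab⟩ := ZMod.sq_add_sq p (-1)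
  let V := ZMod p × ZMod p
  let α : Module.End (ZMod p) V :=
    (a • LinearMap.fst (ZMod p) (ZMod p) (ZMod p) + b • LinearMap.snd (ZMod p) (ZMod p) (ZMod p)).prod
      (b • LinearMap.fst (ZMod p) (ZMod p) (ZMod p) - a • LinearMap.snd (ZMod p) (ZMod p) (ZMod p))
  let ξ : Module.End (ZMod p) V :=
    (-LinearMap.snd (ZMod p) (ZMod p) (ZMod p)).prod (LinearMap.fst (ZMod p) (ZMod p) (ZMod p))
  have hα : α * α = -1 := by
    apply LinearMap.ext
    rintro ⟨x, y⟩
    apply Prod.ext
    · show a * (a * x + b * y) + b * (b * x - a * y) = -x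
      linear_combination x * hab
    · show b * (a * x + b * y) - a * (b * x - a * y) = -y
      linear_combination y * hab
  have hξ : ξ * ξ = -1 := by
    apply LinearMap.ext
    rintro ⟨x, y⟩
    rfl
  have hαξ : α * ξ = -(ξ * α) := by
    apply LinearMap.ext
    rintro ⟨x, y⟩
    apply Prod.ext
    · show a * (-y) + b * x = - -(b * x - a * y)
      ring
    · show b * (-y) - a * x = -(a * x + b * y)
      ring
  obtain ⟨Φ, hΦ⟩ := exists_hom_units α ξ hα hξ hαξ
  refine ⟨V, inferInstance, inferInstance, DistribMulAction.compHom V Φ, ?_, ?_⟩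
  · intro v
    show ((Φ (QuaternionGroup.a 2) : (Module.End (ZMod p) V)ˣ) : Module.End (ZMod p) V) v = -v
    rw [hΦ]
    rfl
  · show Nat.card (ZMod p × ZMod p) = p * p
    rw [Nat.card_prod, Nat.card_zmod]

theorem qAct_sq_of_odd (k : ℕ) : Odd k → QAct (k * k) := by
  induction k using Nat.recOnMul with
  | zero => intro h; exact absurd h (by decide)
  | one => intro _; exact qAct_one
  | prime p hp =>
    intro _
    haveI : Fact p.Prime := ⟨hp⟩
    exact qAct_prime_sq p
  | mul a b iha ihb =>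
    intro h
    have h1 := Nat.odd_mul.mp h
    have := qAct_mul (iha h1.1) (ihb h1.2)
    rwa [mul_mul_mul_comm] at this

theorem quat_cases : ∀ g : QuaternionGroup 2, g ≠ 1 →
    g = QuaternionGroup.a 2 ∨ g * g = QuaternionGroup.a 2 := by
  decide

/-- For a natural number m the following are equivalent: (a) some finite group has a Frobenius complement isomorphic to the quaternion group of order 8 whose Frobenius kernel (the identity together with the elements lying in no conjugate of the complement) has exactly m elements; (b) m is an odd perfect square greater than 1. -/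
theorem result (m : ℕ) :
    (∃ (L : Type) (_ : Group L) (_ : Finite L) (H : Subgroup L), Cfsg.IsFrobeniusComplement H ∧
        Nonempty (H ≃* QuaternionGroup 2) ∧ Nat.card (Cfsg.frobeniusKernel H) = m) ↔
    (Odd m ∧ IsSquare m ∧ 1 < m) := by
  constructor
  · rintro ⟨L, i1, i2, H, hF, ⟨e⟩, hm⟩
    have h1 := odd_isSquare_of_quaternion_embedding H hF 1 one_pos
      (H.subtype.comp e.symm.toMonoidHom)
      (fun x y hxy => e.symm.injective (Subtype.ext hxy)) (fun g => (e.symm g).2)
    rw [hm] at h1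
    refine ⟨h1.1, h1.2, ?_⟩
    rw [← hm, card_frobeniusKernel hF]
    have h2 : H.index ≠ 1 := fun h => hF.2.1 (Subgroup.index_eq_one.mp h)
    have h3 : H.index ≠ 0 := Subgroup.index_ne_zero_of_finite
    omega
  · rintro ⟨hodd, ⟨k, rfl⟩, hlt⟩
    obtain ⟨V, j1, j2, j3, hz, hc⟩ := qAct_sq_of_odd k (Nat.odd_mul.mp hodd).1
    haveI : Nontrivial V := by
      rw [← Finite.one_lt_card_iff_nontrivial, hc]
      exact hlt
    haveI : Nontrivial (QuaternionGroup 2) := ⟨⟨QuaternionGroup.a 2, 1, by decide⟩⟩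
    obtain ⟨L, i1, i2, C, hC, ⟨e⟩, hcard⟩ :=
      exists_frobeniusComplement_of_fpf_add (H := QuaternionGroup 2) (V := V) (by
        intro g hg v hv
        have h1 : (QuaternionGroup.a 2 : QuaternionGroup 2) • v = v := by
          rcases quat_cases g hg with h | h
          · rw [← h]; exact hv
          · rw [← h, mul_smul, hv, hv]
        rw [hz] at h1
        have h2 : 2 • v = 0 := by
          rw [two_nsmul]
          nth_rewrite 1 [← h1]
          exact neg_add_cancel v
        have h3 : addOrderOf v ∣ Nat.gcd 2 (k * k) :=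
          Nat.dvd_gcd (addOrderOf_dvd_of_nsmul_eq_zero h2) (hc ▸ addOrderOf_dvd_natCard v)
        have h4 : Nat.gcd 2 (k * k) = 1 := (Nat.coprime_two_left).mpr hodd
        rw [h4, Nat.dvd_one] at h3
        exact AddMonoid.addOrderOf_eq_one_iff.mp h3)
    exact ⟨L, i1, i2, C, hC, ⟨e.symm⟩, hcard.trans hc⟩

end Cfsg.Agent.S4295
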