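import Cfsg.Statements.S4296
import Cfsg.Agent.Lib.Helper22.QuatFrob
import Cfsg.Agent.S0040

set_option autoImplicit false
open Cfsg Cfsg.Agent.Lib.Helper22

namespace Cfsg.Agent.S4296

/-- Let H be a Frobenius complement in a finite group, and suppose some Sylow subgroup of H is not cyclic. Then the number of elements of the Frobenius kernel (the identity together with the elements lying in no conjugate of H) is an odd perfect square. -/
theorem result {L : Type*} [Group L] [Finite L] (H : Subgroup L) (hF : Cfsg.IsFrobeniusComplement H)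
    (hZ : ∃ (p : ℕ) (_ : Fact p.Prime) (P : Sylow p H), ¬ IsCyclic P) :
    Odd (Nat.card (Cfsg.frobeniusKernel H)) ∧ IsSquare (Nat.card (Cfsg.frobeniusKernel H)) := by
  obtain ⟨p, hp, P, hP⟩ := hZ
  obtain ⟨N, hNk, hNn, hc⟩ := Cfsg.Agent.S0035.result H hF
  haveI := hNn
  have hN1 : N ≠ ⊥ := by
    intro h
    have h1 := hc.index_eq_card
    rw [h, Subgroup.card_bot, Subgroup.index_eq_one] at h1
    exact hF.2.1 h1
  have hfpf := (Cfsg.Agent.S0039.result N H hc hN1 hF.1).mp hF
  rcases Cfsg.Agent.S0040.result N H hc hN1 hfpf p P with h | ⟨n, ⟨e⟩⟩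
  · exact absurd h hP
  · rcases Nat.eq_zero_or_pos n with rfl | hn
    · exfalso
      apply hP
      haveI := QuaternionGroup.quaternionGroup_one_isCyclic
      rw [pow_zero] at e
      exact isCyclic_of_surjective e.symm e.symm.surjective
    · obtain ⟨m, rfl⟩ : ∃ m, n = m + 1 := ⟨n - 1, by omega⟩
      have h2 : 2 ^ (m + 1) = 2 * 2 ^ m := by rw [pow_succ, mul_comm]
      rw [h2] at e
      exact odd_isSquare_of_quaternion_embedding H hF (2 ^ m) (by positivity)
        ((H.subtype.comp (P : Subgroup H).subtype).comp e.symm.toMonoidHom)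
        (fun x y hxy => e.symm.injective (Subtype.ext (Subtype.ext hxy)))
        (fun g => ((e.symm g : P) : H).2)

end Cfsg.Agent.S4296
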