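import Cfsg.Statements.S4297
import Cfsg.Agent.Lib.Helper22.QuatLift
import Cfsg.Agent.Lib.Helper22.SemiFrobAdd

set_option autoImplicit false
open Cfsg Cfsg.Agent.Lib.Helper22

namespace Cfsg.Agent.S4297

/-- For every n ≥ 2 the dicyclic group of order 4n (generated by an element a of order 2n and an element x with x² = aⁿ and x a x⁻¹ = a⁻¹) occurs as a Frobenius complement of some finite Frobenius group. -/
theorem result (n : ℕ) (hn : 2 ≤ n) :
    ∃ (L : Type) (_ : Group L) (_ : Finite L) (H : Subgroup L), Cfsg.IsFrobeniusComplement H ∧ Nonempty (H ≃* QuaternionGroup n) := by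
  obtain ⟨p, hp, hpgt, hpmod⟩ := Nat.exists_prime_gt_modEq_one (k := 2 * n) 2 (by omega)
  haveI : Fact p.Prime := ⟨hp⟩
  have hdvd : 2 * n ∣ p - 1 := (Nat.modEq_iff_dvd' hp.one_lt.le).mp hpmod.symm
  -- an element of order 2n
  obtain ⟨g, hg⟩ := IsCyclic.exists_generator (α := (ZMod p)ˣ)
  have hgo : orderOf g = p - 1 := by
    rw [orderOf_eq_card_of_forall_mem_zpowers hg, Nat.card_eq_fintype_card, ZMod.card_units]
  obtain ⟨c, hc⟩ := hdvd
  have hc0 : c ≠ 0 := by
    rintro rfl
    have := hp.one_lt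
    omega
  obtain ⟨u, hu⟩ : ∃ u : (ZMod p)ˣ, orderOf u = 2 * n := by
    refine ⟨g ^ c, ?_⟩
    rw [orderOf_pow_of_dvd hc0 (by rw [hgo, hc]; exact Dvd.intro_left _ rfl), hgo, hc]
    exact Nat.mul_div_cancel _ (Nat.pos_of_ne_zero hc0)
  set ζ : ZMod p := (u : ZMod p) with hζ
  have hζ0 : ζ ≠ 0 := u.ne_zero
  have hpow1 : ∀ k : ℕ, ζ ^ k = 1 → 2 * n ∣ k := by
    intro k hk
    rw [← hu]
    apply orderOf_dvd_of_pow_eq_one
    apply Units.ext
    rw [Units.val_pow_eq_pow_val]
    exact hk
  have hζ2n : ζ ^ (2 * n) = 1 := by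
    have := congrArg Units.val (hu ▸ pow_orderOf_eq_one u)
    rwa [Units.val_pow_eq_pow_val] at this
  have hζn : ζ ^ n = -1 := by
    have h1 : ζ ^ n * ζ ^ n = 1 := by rw [← pow_add, ← two_mul, hζ2n]
    rcases mul_self_eq_one_iff.mp h1 with h | h
    · have := Nat.le_of_dvd (by omega) (hpow1 n h)
      omega
    · exact h
  let V := ZMod p × ZMod p
  let α : Module.End (ZMod p) V :=
    (ζ • LinearMap.fst (ZMod p) (ZMod p) (ZMod p)).prod (ζ⁻¹ • LinearMap.snd (ZMod p) (ZMod p) (ZMod p))
  let α' : Module.End (ZMod p) V :=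
    (ζ⁻¹ • LinearMap.fst (ZMod p) (ZMod p) (ZMod p)).prod (ζ • LinearMap.snd (ZMod p) (ZMod p) (ZMod p))
  let ξ : Module.End (ZMod p) V :=
    (-LinearMap.snd (ZMod p) (ZMod p) (ZMod p)).prod (LinearMap.fst (ZMod p) (ZMod p) (ZMod p))
  have hαα' : α * α' = 1 := by
    apply LinearMap.ext
    rintro ⟨x, y⟩
    apply Prod.ext
    · show ζ * (ζ⁻¹ * x) = x
      field_simp
    · show ζ⁻¹ * (ζ * y) = y
      field_simp
  have hα'α : α' * α = 1 := by
    apply LinearMap.ext
    rintro ⟨x, y⟩
    apply Prod.ext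
    · show ζ⁻¹ * (ζ * x) = x
      field_simp
    · show ζ * (ζ⁻¹ * y) = y
      field_simp
  have hξ : ξ * ξ = -1 := by
    apply LinearMap.ext
    rintro ⟨x, y⟩
    rfl
  have hαpow : ∀ (k : ℕ) (x y : ZMod p), (α ^ k) (x, y) = (ζ ^ k * x, ζ⁻¹ ^ k * y) := by
    intro k
    induction k with
    | zero => intro x y; simp
    | succ k ih =>
      intro x y
      rw [pow_succ]
      show (α ^ k) (ζ * x, ζ⁻¹ * y) = _
      rw [ih]
      apply Prod.ext
      · show ζ ^ k * (ζ * x) = ζ ^ (k + 1) * x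
        ring
      · show ζ⁻¹ ^ k * (ζ⁻¹ * y) = ζ⁻¹ ^ (k + 1) * y
        ring
  let A : (Module.End (ZMod p) V)ˣ := ⟨α, α', hαα', hα'α⟩
  let ξ' : Module.End (ZMod p) V :=
    (LinearMap.snd (ZMod p) (ZMod p) (ZMod p)).prod (-LinearMap.fst (ZMod p) (ZMod p) (ZMod p))
  have hξξ' : ξ * ξ' = 1 := by
    apply LinearMap.ext
    rintro ⟨x, y⟩
    apply Prod.ext
    · show - -x = x
      rw [neg_neg]
    · rfl
  have hξ'ξ : ξ' * ξ = 1 := by
    apply LinearMap.ext
    rintro ⟨x, y⟩
    apply Prod.ext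
    · rfl
    · show - -y = y
      rw [neg_neg]
  let X : (Module.End (ZMod p) V)ˣ := ⟨ξ, ξ', hξξ', hξ'ξ⟩
  have hA : A ^ (2 * n) = 1 := by
    apply Units.ext
    apply LinearMap.ext
    rintro ⟨x, y⟩
    show (α ^ (2 * n)) (x, y) = (x, y)
    rw [hαpow, inv_pow, hζ2n]
    simp
  have hX : X * X = A ^ n := by
    apply Units.ext
    apply LinearMap.ext
    rintro ⟨x, y⟩
    show (ξ * ξ) (x, y) = (α ^ n) (x, y)
    rw [hαpow, inv_pow, hζn, hξ]
    apply Prod.ext
    · show -x = -1 * x
      ring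
    · show -y = (-1)⁻¹ * y
      rw [inv_neg_one]
      ring
  have hAX : A * X = X * A⁻¹ := by
    apply Units.ext
    apply LinearMap.ext
    rintro ⟨x, y⟩
    apply Prod.ext
    · show ζ * (-y) = -(ζ * y)
      ring
    · rfl
  let Φ := quatLift A X hA hX hAX
  letI : DistribMulAction (QuaternionGroup n) V := DistribMulAction.compHom V Φ
  have hsm : ∀ (g : QuaternionGroup n) (v : V),
      g • v = ((Φ g : (Module.End (ZMod p) V)ˣ) : Module.End (ZMod p) V) v := fun _ _ => rfl
  haveI : NeZero n := ⟨by omega⟩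
  haveI : Nontrivial (QuaternionGroup n) := inferInstance
  haveI : Nontrivial V := inferInstance
  have h2 : (2 : ZMod p) ≠ 0 := by
    intro h
    have h3 : ((2 : ℕ) : ZMod p) = 0 := by exact_mod_cast h
    rw [ZMod.natCast_eq_zero_iff] at h3
    have := Nat.le_of_dvd (by omega) h3
    omega
  obtain ⟨L, i1, i2, C, hC, ⟨e⟩, -⟩ :=
    exists_frobeniusComplement_of_fpf_add (H := QuaternionGroup n) (V := V) (by
      rintro (i | i) hg ⟨x, y⟩ hv
      · have hi : i ≠ 0 := by
          rintro rfl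
          exact hg QuaternionGroup.a_zero
        have hval : ((i.val : ℕ) : ZMod (2 * n)) = i := ZMod.natCast_zmod_val i
        rw [hsm, ← hval, show Φ (QuaternionGroup.a ((i.val : ℕ) : ZMod (2 * n))) = A ^ i.val from
          quatLift_a A X hA hX hAX i.val] at hv
        have hv' : (α ^ i.val) (x, y) = (x, y) := hv
        rw [hαpow] at hv'
        have hne : ζ ^ i.val ≠ 1 := by
          intro h
          have h3 := hpow1 _ h
          have h4 : i.val < 2 * n := ZMod.val_lt i
          have h5 : i.val = 0 := Nat.eq_zero_of_dvd_of_lt h3 h4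
          exact hi ((ZMod.val_eq_zero i).mp h5)
        have hne' : ζ⁻¹ ^ i.val ≠ 1 := by
          rw [inv_pow]
          intro h
          exact hne (inv_eq_one.mp h)
        have e1 : ζ ^ i.val * x = x := congrArg Prod.fst hv'
        have e2 : ζ⁻¹ ^ i.val * y = y := congrArg Prod.snd hv'
        have hx : x = 0 := by
          have : (ζ ^ i.val - 1) * x = 0 := by linear_combination e1
          exact (mul_eq_zero.mp this).resolve_left (sub_ne_zero.mpr hne)
        have hy : y = 0 := by
          have : (ζ⁻¹ ^ i.val - 1) * y = 0 := by linear_combination e2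
          exact (mul_eq_zero.mp this).resolve_left (sub_ne_zero.mpr hne')
        rw [hx, hy]
        rfl
      · have h3 : (QuaternionGroup.xa i * QuaternionGroup.xa i : QuaternionGroup n) • ((x, y) : V)
            = (x, y) := by rw [mul_smul, hv, hv]
        rw [QuaternionGroup.xa_mul_xa, add_sub_cancel_right, hsm,
          show Φ (QuaternionGroup.a ((n : ℕ) : ZMod (2 * n))) = A ^ n from
            quatLift_a A X hA hX hAX n] at h3
        have h4 : (α ^ n) (x, y) = (x, y) := h3
        rw [hαpow, inv_pow, hζn, inv_neg_one] at h4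
        have e1 : -1 * x = x := congrArg Prod.fst h4
        have e2 : -1 * y = y := congrArg Prod.snd h4
        have hx : x = 0 := by
          have : 2 * x = 0 := by linear_combination -e1
          exact (mul_eq_zero.mp this).resolve_left h2
        have hy : y = 0 := by
          have : 2 * y = 0 := by linear_combination -e2
          exact (mul_eq_zero.mp this).resolve_left h2
        rw [hx, hy]
        rfl)
  exact ⟨L, i1, i2, C, hC, ⟨e.symm⟩⟩

end Cfsg.Agent.S4297
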