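import Cfsg.Statements.S4298
import Cfsg.Agent.Tr.FrobSL

set_option autoImplicit false
open Cfsg

namespace Cfsg.Agent.S4298

/-- table of a faithful fixed-point-free representation `SL₂(3) → SL₂(5)`: the entry at index
`((a*3+b)*3+c)*3+d` is `((A*5+B)*5+C)*5+D`. -/
def tbl : List ℕ := [0,0,0,0,0,0,0,0,0,0,0,0,0,0,0,105,369,431,0,0,0,45,349,411,0,0,0,0,126,0,0,183,0,0,471,0,0,163,0,0,0,60,557,0,0,0,491,0,537,0,0,0,0,377,0,0,504,0,0,309,0,0,597,0,0,289,0,253,0,243,0,0,0,0,617,223,0,0,0,90,0]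

def code (a b c d : ZMod 3) : ℕ := tbl.getD (((a.val * 3 + b.val) * 3 + c.val) * 3 + d.val) 0

def E00 (a b c d : ZMod 3) : ZMod 5 := ((code a b c d / 125 % 5 : ℕ) : ZMod 5)
def E01 (a b c d : ZMod 3) : ZMod 5 := ((code a b c d / 25 % 5 : ℕ) : ZMod 5)
def E10 (a b c d : ZMod 3) : ZMod 5 := ((code a b c d / 5 % 5 : ℕ) : ZMod 5)
def E11 (a b c d : ZMod 3) : ZMod 5 := ((code a b c d % 5 : ℕ) : ZMod 5)

set_option maxRecDepth 100000 in
theorem hdet : ∀ a b c d : ZMod 3, a * d - b * c = 1 →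
    E00 a b c d * E11 a b c d - E01 a b c d * E10 a b c d = 1 := by decide +kernel

set_option maxRecDepth 100000 in
theorem hmul : ∀ a b c d : ZMod 3, a * d - b * c = 1 → ∀ a' b' c' d' : ZMod 3, a' * d' - b' * c' = 1 →
      E00 (a * a' + b * c') (a * b' + b * d') (c * a' + d * c') (c * b' + d * d') =
        E00 a b c d * E00 a' b' c' d' + E01 a b c d * E10 a' b' c' d' ∧
      E01 (a * a' + b * c') (a * b' + b * d') (c * a' + d * c') (c * b' + d * d') =
        E00 a b c d * E01 a' b' c' d' + E01 a b c d * E11 a' b' c' d' ∧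
      E10 (a * a' + b * c') (a * b' + b * d') (c * a' + d * c') (c * b' + d * d') =
        E10 a b c d * E00 a' b' c' d' + E11 a b c d * E10 a' b' c' d' ∧
      E11 (a * a' + b * c') (a * b' + b * d') (c * a' + d * c') (c * b' + d * d') =
        E10 a b c d * E01 a' b' c' d' + E11 a b c d * E11 a' b' c' d' := by decide +kernel

set_option maxRecDepth 100000 in
theorem hfpf : ∀ a b c d : ZMod 3, a * d - b * c = 1 → E00 a b c d + E11 a b c d = 2 →
      a = 1 ∧ b = 0 ∧ c = 0 ∧ d = 1 := by decide +kernel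

/-- The group SL(2,3) of order 24 (the binary tetrahedral group) occurs as a Frobenius complement of some finite Frobenius group. -/
theorem result :
    ∃ (L : Type) (_ : Group L) (_ : Finite L) (H : Subgroup L), Cfsg.IsFrobeniusComplement H ∧ Nonempty (H ≃* Matrix.SpecialLinearGroup (Fin 2) (ZMod 3)) := by
  haveI : Fact (Nat.Prime 3) := ⟨by norm_num⟩
  haveI : Fact (Nat.Prime 5) := ⟨by norm_num⟩
  exact Cfsg.Agent.Tr.FrobSL.frob_of_table E00 E01 E10 E11 hdet hmul hfpf

end Cfsg.Agent.S4298
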