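import Cfsg.Statements.S4300
import Mathlib

set_option autoImplicit false
open Cfsg

namespace Cfsg.Agent.S4300

/-- Let G act faithfully and primitively on a set X, and suppose the stabilizer of some point is a simple group. Then either G is simple, or G has a normal subgroup, neither trivial nor the whole group, that acts regularly on X (transitively with trivial point stabilizers). -/
theorem result {G : Type*} [Group G] {X : Type*} [MulAction G X] [FaithfulSMul G X]
    (hprim : MulAction.IsPreprimitive G X) (x : X) (hsimple : IsSimpleGroup (MulAction.stabilizer G x)) :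
    IsSimpleGroup G ∨ ∃ N : Subgroup G, N.Normal ∧ N ≠ ⊥ ∧ N ≠ ⊤ ∧
      MulAction.IsPretransitive N X ∧ ∀ y : X, MulAction.stabilizer N y = ⊥ := by
  classical
  haveI := hprim
  by_cases hs : IsSimpleGroup G
  · exact Or.inl hs
  right
  set H := MulAction.stabilizer G x with hH
  haveI : Nontrivial H := hsimple.toNontrivial
  haveI : Nontrivial G := by
    obtain ⟨a, b, hab⟩ := exists_pair_ne H
    exact ⟨⟨a, b, fun h => hab (Subtype.ext h)⟩⟩
  have hex : ∃ N : Subgroup G, N.Normal ∧ N ≠ ⊥ ∧ N ≠ ⊤ := by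
    by_contra hcon
    push Not at hcon
    apply hs
    refine ⟨fun N hN => ?_⟩
    by_cases h1 : N = ⊥
    · exact Or.inl h1
    · exact Or.inr (hcon N hN h1)
  obtain ⟨N, hN, hN1, hN2⟩ := hex
  haveI := hN
  have htr : MulAction.IsPretransitive N X := by
    apply MulAction.IsQuasiPreprimitive.isPretransitive_of_normal (G := G)
    intro hfix
    apply hN1
    rw [eq_bot_iff]
    intro n hn
    rw [Subgroup.mem_bot]
    apply FaithfulSMul.eq_of_smul_eq_smul (α := X)
    intro y
    have hy : y ∈ MulAction.fixedPoints N X := by rw [hfix]; trivial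
    rw [one_smul]
    exact hy ⟨n, hn⟩
  -- `N ∩ H` is normal in `H`
  have hNH : (N.subgroupOf H) = ⊥ ∨ (N.subgroupOf H) = ⊤ :=
    hsimple.eq_bot_or_eq_top_of_normal _ inferInstance
  have hNH' : N.subgroupOf H = ⊥ := by
    rcases hNH with h | h
    · exact h
    · exfalso
      apply hN2
      have hHN : H ≤ N := Subgroup.subgroupOf_eq_top.1 h
      rw [eq_top_iff]
      intro g _
      obtain ⟨n, hn⟩ := MulAction.exists_smul_eq N x (g • x)
      have h1 : (n : G)⁻¹ * g ∈ H := by
        rw [hH, MulAction.mem_stabilizer_iff, mul_smul, ← hn]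
        exact inv_smul_smul (n : G) x
      have h2 : g = n * ((n : G)⁻¹ * g) := by group
      rw [h2]
      exact N.mul_mem n.2 (hHN h1)
  refine ⟨N, hN, hN1, hN2, htr, ?_⟩
  intro y
  rw [eq_bot_iff]
  intro n hn
  rw [Subgroup.mem_bot]
  obtain ⟨g, hg⟩ := MulAction.exists_smul_eq G x y
  have hn' : (n : G) • y = y := hn
  have h1 : g⁻¹ * n * g ∈ H := by
    rw [hH, MulAction.mem_stabilizer_iff, mul_smul, mul_smul, hg, hn', ← hg, inv_smul_smul]
  have h2 : g⁻¹ * n * g ∈ N := by
    have := hN.conj_mem n n.2 g⁻¹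
    simpa using this
  have h3 : (⟨g⁻¹ * n * g, h1⟩ : H) ∈ N.subgroupOf H := h2
  rw [hNH', Subgroup.mem_bot] at h3
  have h4 : g⁻¹ * n * g = 1 := congrArg Subtype.val h3
  have h5 : (n : G) = 1 := by
    have : (n : G) = g * (g⁻¹ * n * g) * g⁻¹ := by group
    rw [this, h4]; group
  exact Subtype.ext h5

end Cfsg.Agent.S4300
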