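import Cfsg.Statements.S4301
import Mathlib
-- import your own Cfsg.Agent.* helpers here

set_option autoImplicit false
open Cfsg

namespace Cfsg.Agent.S4301

theorem lift_emb {X : Type*} {k : ℕ} (u : Fin (k + 1) ↪ Option X) (h0 : u 0 = none) :
    ∃ a : Fin k ↪ X, ∀ i : Fin k, u i.succ = some (a i) := by
  have hex : ∀ i : Fin k, ∃ z, u i.succ = some z := by
    intro i
    cases hh : u i.succ with
    | none => exact absurd (u.injective (hh.trans h0.symm)) (Fin.succ_ne_zero i)
    | some z => exact ⟨z, rfl⟩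
  choose a ha using hex
  refine ⟨⟨a, ?_⟩, ha⟩
  intro i j hij
  have : u i.succ = u j.succ := by rw [ha, ha, hij]
  exact Fin.succ_injective _ (u.injective this)


/-- One-point extension of a multiply transitive group. Let X be a set and G a group of permutations of Option X (the set X with one extra point ∗ = none) all of whose elements fix ∗, such that G is k-transitive on the points of X for some k ≥ 2, X having at least k points. Suppose a permutation h of Option X and an element g of G satisfy: h interchanges ∗ with a point x of X and fixes a point y of X; g interchanges x and y; (g h)³ and h² lie in G; and for every f in G fixing x, the product h f h lies in G and fixes x. Then an element of the group generated by G and h fixes ∗ exactly when it lies in G, and that group acts (k+1)-transitively on Option X. -/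
theorem result {X : Type*} (G : Subgroup (Equiv.Perm (Option X))) (hfix : ∀ f ∈ G, f none = none)
    (k : ℕ) (hk : 2 ≤ k) (hkX : Nonempty (Fin k ↪ X))
    (htrans : ∀ a b : Fin k ↪ X, ∃ f ∈ G, ∀ i, f (some (a i)) = some (b i))
    (h g : Equiv.Perm (Option X)) (hg : g ∈ G) (x y : X)
    (h1 : h none = some x) (h2 : h (some x) = none) (h3 : h (some y) = some y)
    (h4 : g (some x) = some y) (h5 : g (some y) = some x)
    (h6 : (g * h) ^ 3 ∈ G) (h7 : h ^ 2 ∈ G)
    (h8 : ∀ f ∈ G, f (some x) = some x → h * f * h ∈ G ∧ (h * f * h) (some x) = some x) :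
    (∀ f ∈ Subgroup.closure ((G : Set (Equiv.Perm (Option X))) ∪ {h}), f none = none ↔ f ∈ G) ∧
      MulAction.IsMultiplyPretransitive (Subgroup.closure ((G : Set (Equiv.Perm (Option X))) ∪ {h})) (Option X) (k + 1) := by
  classical
  have ias : ∀ (f : Equiv.Perm (Option X)) (z : Option X), f⁻¹ (f z) = z :=
    fun f z => Equiv.Perm.inv_eq_iff_eq.mpr rfl
  have hxy : x ≠ y := by
    rintro rfl
    rw [h2] at h3
    exact absurd h3 (by simp)
  obtain ⟨e⟩ := hkX
  -- embeddings with prescribed first two values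
  have hemb : ∀ u1 u2 : X, u1 ≠ u2 → ∃ a : Fin k ↪ X, a ⟨0, by omega⟩ = u1 ∧ a ⟨1, by omega⟩ = u2 := by
    intro u1 u2 hu
    set π1 := Equiv.swap (e ⟨0, by omega⟩) u1 with hπ1
    set w := π1 (e ⟨1, by omega⟩) with hw
    have hw1 : w ≠ u1 := by
      intro h
      have h' : π1 (e ⟨1, by omega⟩) = π1 (e ⟨0, by omega⟩) := by
        rw [← hw, h, hπ1, Equiv.swap_apply_left]
      have := e.injective (π1.injective h')
      simp at this
    refine ⟨(e.trans π1.toEmbedding).trans (Equiv.swap w u2).toEmbedding, ?_, ?_⟩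
    · show Equiv.swap w u2 (π1 (e ⟨0, by omega⟩)) = u1
      rw [hπ1, Equiv.swap_apply_left, Equiv.swap_apply_of_ne_of_ne hw1.symm hu]
    · show Equiv.swap w u2 (π1 (e ⟨1, by omega⟩)) = u2
      rw [← hw, Equiv.swap_apply_left]
  have T2 : ∀ u1 u2 v1 v2 : X, u1 ≠ u2 → v1 ≠ v2 →
      ∃ f ∈ G, f (some u1) = some v1 ∧ f (some u2) = some v2 := by
    intro u1 u2 v1 v2 hu hv
    obtain ⟨a, ha0, ha1⟩ := hemb u1 u2 hu
    obtain ⟨b, hb0, hb1⟩ := hemb v1 v2 hv
    obtain ⟨f, hf, hfi⟩ := htrans a b
    refine ⟨f, hf, ?_, ?_⟩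
    · rw [← ha0, ← hb0]; exact hfi _
    · rw [← ha1, ← hb1]; exact hfi _
  have T1 : ∀ u v : X, ∃ f ∈ G, f (some u) = some v := by
    intro u v
    by_cases huv : u = v
    · exact ⟨1, G.one_mem, by rw [huv]; rfl⟩
    · obtain ⟨f, hf, h, -⟩ := T2 u v v u huv (Ne.symm huv)
      exact ⟨f, hf, h⟩
  have K : ∀ f ∈ G, h * f * h ∈ G ∨ ∃ a ∈ G, ∃ b ∈ G, h * f * h = a * h * b := by
    intro f hf
    by_cases hfx : f (some x) = some x
    · exact Or.inl (h8 f hf hfx).1
    · right
      obtain ⟨x', hx'⟩ : ∃ x', f (some x) = some x' := by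
        cases hh : f (some x) with
        | none =>
          have := f.injective (hh.trans (hfix f hf).symm)
          exact absurd this (by simp)
        | some z => exact ⟨z, rfl⟩
      have hne : x ≠ x' := by
        rintro rfl
        exact hfx hx'
      obtain ⟨a, ha, hax, hay⟩ := T2 x y x x' hxy hne
      set b := (a * g)⁻¹ * f with hb
      have hbG : b ∈ G := G.mul_mem (G.inv_mem (G.mul_mem ha hg)) hf
      have hbx : b (some x) = some x := by
        rw [hb, Equiv.Perm.mul_apply, hx', ← hay, ← h4]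
        exact ias (a * g) (some x)
      have hfab : f = a * g * b := by rw [hb]; group
      refine ⟨h * a * h * (h ^ 2)⁻¹ * g⁻¹ * (g * h) ^ 3 * (h ^ 2)⁻¹, ?_, g⁻¹ * (h ^ 2)⁻¹ * (h * b * h), ?_, ?_⟩
      · exact G.mul_mem (G.mul_mem (G.mul_mem (G.mul_mem (h8 a ha hax).1 (G.inv_mem h7)) (G.inv_mem hg)) h6) (G.inv_mem h7)
      · exact G.mul_mem (G.mul_mem (G.inv_mem hg) (G.inv_mem h7)) (h8 b hbG hbx).1
      · have e3 : (g * h) ^ 3 = g * h * (g * h) * (g * h) := by rw [pow_succ, pow_two]
        rw [hfab, e3]; group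
  let D : Subgroup (Equiv.Perm (Option X)) :=
    { carrier := {f | f ∈ G ∨ ∃ a ∈ G, ∃ b ∈ G, f = a * h * b}
      mul_mem' := by
        rintro f1 f2 (hf1 | ⟨a, ha, b, hb, rfl⟩) (hf2 | ⟨a', ha', b', hb', rfl⟩)
        · exact Or.inl (G.mul_mem hf1 hf2)
        · exact Or.inr ⟨f1 * a', G.mul_mem hf1 ha', b', hb', by group⟩
        · exact Or.inr ⟨a, ha, b * f2, G.mul_mem hb hf2, by group⟩
        · rcases K (b * a') (G.mul_mem hb ha') with hk | ⟨c, hc, d, hd, hk⟩
          · left
            have : a * h * b * (a' * h * b') = a * (h * (b * a') * h) * b' := by group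
            rw [this]
            exact G.mul_mem (G.mul_mem ha hk) hb'
          · right
            refine ⟨a * c, G.mul_mem ha hc, d * b', G.mul_mem hd hb', ?_⟩
            have : a * h * b * (a' * h * b') = a * (h * (b * a') * h) * b' := by group
            rw [this, hk]; group
      one_mem' := Or.inl G.one_mem
      inv_mem' := by
        rintro f (hf | ⟨a, ha, b, hb, rfl⟩)
        · exact Or.inl (G.inv_mem hf)
        · exact Or.inr ⟨b⁻¹ * (h ^ 2)⁻¹, G.mul_mem (G.inv_mem hb) (G.inv_mem h7), a⁻¹, G.inv_mem ha, by group⟩ }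
  have hclD : ∀ f ∈ Subgroup.closure ((G : Set (Equiv.Perm (Option X))) ∪ {h}),
      f ∈ G ∨ ∃ a ∈ G, ∃ b ∈ G, f = a * h * b := by
    have : Subgroup.closure ((G : Set (Equiv.Perm (Option X))) ∪ {h}) ≤ D := by
      rw [Subgroup.closure_le]
      rintro f (hf | hf)
      · exact Or.inl hf
      · rw [Set.mem_singleton_iff] at hf
        exact Or.inr ⟨1, G.one_mem, 1, G.one_mem, by rw [hf]; group⟩
    exact fun f hf => this hf
  have hGcl : ∀ f ∈ G, f ∈ Subgroup.closure ((G : Set (Equiv.Perm (Option X))) ∪ {h}) :=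
    fun f hf => Subgroup.subset_closure (Or.inl hf)
  have hhcl : h ∈ Subgroup.closure ((G : Set (Equiv.Perm (Option X))) ∪ {h}) :=
    Subgroup.subset_closure (Or.inr rfl)
  constructor
  · intro f hf
    refine ⟨fun hn => ?_, hfix f⟩
    rcases hclD f hf with h' | ⟨a, ha, b, hb, rfl⟩
    · exact h'
    · exfalso
      rw [Equiv.Perm.mul_apply, Equiv.Perm.mul_apply, hfix b hb, h1] at hn
      have := a.injective (hn.trans (hfix a ha).symm)
      exact absurd this (by simp)
  · have stepA : ∀ w : Option X, ∃ γ ∈ Subgroup.closure ((G : Set (Equiv.Perm (Option X))) ∪ {h}), γ w = none := by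
      intro w
      cases w with
      | none => exact ⟨1, Subgroup.one_mem _, rfl⟩
      | some u =>
        obtain ⟨f, hf, hfu⟩ := T1 u x
        exact ⟨h * f, Subgroup.mul_mem _ hhcl (hGcl f hf), by rw [Equiv.Perm.mul_apply, hfu, h2]⟩
    have stepB : ∀ u v : Fin (k + 1) ↪ Option X, u 0 = none → v 0 = none →
        ∃ f ∈ G, ∀ i, f (u i) = v i := by
      intro u v hu hv
      obtain ⟨a, ha⟩ := lift_emb u hu
      obtain ⟨b, hb⟩ := lift_emb v hv
      obtain ⟨f, hf, hfi⟩ := htrans a b
      refine ⟨f, hf, fun i => ?_⟩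
      refine Fin.cases ?_ (fun j => ?_) i
      · rw [hu, hv]; exact hfix f hf
      · rw [ha, hb]; exact hfi j
    refine ⟨fun u v => ?_⟩
    obtain ⟨γ1, hγ1, e1⟩ := stepA (u 0)
    obtain ⟨γ2, hγ2, e2⟩ := stepA (v 0)
    obtain ⟨f, hf, hfi⟩ := stepB (u.trans γ1.toEmbedding) (v.trans γ2.toEmbedding) e1 e2
    refine ⟨⟨γ2⁻¹ * f * γ1, Subgroup.mul_mem _ (Subgroup.mul_mem _ (Subgroup.inv_mem _ hγ2) (hGcl f hf)) hγ1⟩, ?_⟩
    ext i : 1
    show (γ2⁻¹ * f * γ1) (u i) = v i
    have := hfi i
    simp only [Function.Embedding.trans_apply, Equiv.coe_toEmbedding] at this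
    rw [Equiv.Perm.mul_apply, Equiv.Perm.mul_apply, this]
    exact ias γ2 (v i)

end Cfsg.Agent.S4301
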