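import Cfsg.Statements.S4421

set_option autoImplicit false
open Cfsg

namespace Cfsg.Agent.S4421

theorem map_conj_mul {G : Type*} [Group G] (K : Subgroup G) (a b : G) :
    K.map (MulAut.conj (a * b)).toMonoidHom = (K.map (MulAut.conj b).toMonoidHom).map (MulAut.conj a).toMonoidHom := by
  rw [Subgroup.map_map]
  congr 1
  ext x
  simp [mul_assoc]

theorem map_conj_one {G : Type*} [Group G] (K : Subgroup G) :
    K.map (MulAut.conj (1 : G)).toMonoidHom = K := by
  ext x
  simp

theorem mem_nz {G : Type*} [Group G] (K : Subgroup G) (g : G) :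
    g ∈ Subgroup.normalizer (K : Set G) ↔ K.map (MulAut.conj g).toMonoidHom = K :=
  Subgroup.mem_normalizer_iff_map_conj_eq

/-- A factorization of a normalizer from two-step control of fusion. Let `G` be a finite group and `A ≤ S ≤ H` subgroups of `G` such that: (i) `S` controls the `G`-fusion of `A` in the sense that every `G`-conjugate of `A` lying in `S` is an `S`-conjugate of `A`; (ii) `H` controls the `G`-fusion of `S` in the same sense; (iii) every conjugate of `S` by an element of the normalizer of `A` lies in `H`. Then `N_G(A) = N_H(A) · (N_G(S) ∩ N_G(A))`: every element of the normalizer of `A` is a product of an element of `H` normalizing `A` and an element normalizing both `S` and `A`. -/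
theorem result {G : Type*} [Group G] [Finite G] (A S H : Subgroup G)
    (hAS : A ≤ S) (hSH : S ≤ H)
    (h1 : ∀ g : G, A.map (MulAut.conj g).toMonoidHom ≤ S → ∃ s ∈ S, A.map (MulAut.conj g).toMonoidHom = A.map (MulAut.conj s).toMonoidHom)
    (h2 : ∀ g : G, S.map (MulAut.conj g).toMonoidHom ≤ H → ∃ y ∈ H, S.map (MulAut.conj g).toMonoidHom = S.map (MulAut.conj y).toMonoidHom)
    (h3 : ∀ x ∈ Subgroup.normalizer (A : Set G), S.map (MulAut.conj x).toMonoidHom ≤ H) :
    ∀ x ∈ Subgroup.normalizer (A : Set G), ∃ y ∈ H ⊓ Subgroup.normalizer (A : Set G),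
      ∃ z ∈ Subgroup.normalizer (S : Set G) ⊓ Subgroup.normalizer (A : Set G), x = y * z := by
  intro x hx
  obtain ⟨y0, hy0H, hy0⟩ := h2 x (h3 x hx)
  have hxA : A.map (MulAut.conj x).toMonoidHom = A := (mem_nz A x).1 hx
  -- w = y0⁻¹ x normalizes S
  have hw : y0⁻¹ * x ∈ Subgroup.normalizer (S : Set G) := by
    rw [mem_nz, map_conj_mul, hy0, ← map_conj_mul, inv_mul_cancel, map_conj_one]
  have hA1 : A.map (MulAut.conj y0⁻¹).toMonoidHom ≤ S := by
    have : A.map (MulAut.conj x).toMonoidHom ≤ S.map (MulAut.conj y0).toMonoidHom := by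
      rw [← hy0]; exact Subgroup.map_mono hAS
    rw [hxA] at this
    have h := Subgroup.map_mono (f := (MulAut.conj y0⁻¹).toMonoidHom) this
    rw [← map_conj_mul, inv_mul_cancel, map_conj_one] at h
    exact h
  obtain ⟨s, hsS, hs⟩ := h1 _ hA1
  have hyA : y0 * s ∈ Subgroup.normalizer (A : Set G) := by
    rw [mem_nz, map_conj_mul, ← hs, ← map_conj_mul, mul_inv_cancel, map_conj_one]
  refine ⟨y0 * s, ⟨H.mul_mem hy0H (hSH hsS), hyA⟩, (y0 * s)⁻¹ * x, ⟨?_, ?_⟩, by group⟩
  · have : (y0 * s)⁻¹ * x = s⁻¹ * (y0⁻¹ * x) := by group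
    rw [this]
    exact Subgroup.mul_mem _ (Subgroup.inv_mem _ (Subgroup.le_normalizer hsS)) hw
  · exact Subgroup.mul_mem _ (Subgroup.inv_mem _ hyA) hx

end Cfsg.Agent.S4421
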