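import Cfsg.Statements.S4422

set_option autoImplicit false
open Cfsg

namespace Cfsg.Agent.S4422

theorem aux_prod (e : ℕ) : ∀ m : ℕ, m ≠ 0 → (∀ r : ℕ, r.Prime → r ∣ m → r ≡ 1 [MOD e]) → m ≡ 1 [MOD e] := by
  intro m
  induction m using Nat.recOnMul with
  | zero => intro h; exact absurd rfl h
  | one => intro _ _; rfl
  | prime p hp => intro _ h; exact h p hp dvd_rfl
  | mul a b iha ihb =>
    intro hab h
    have ha : a ≠ 0 := left_ne_zero_of_mul hab
    have hb : b ≠ 0 := right_ne_zero_of_mul hab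
    have h1 := iha ha (fun r hr hra => h r hr (hra.mul_right b))
    have h2 := ihb hb (fun r hr hrb => h r hr (hrb.mul_left a))
    simpa using h1.mul h2

/-- Primitive divisors of `q^e - 1` are congruent to 1 modulo `e`. Let `q ≥ 2` and `e ≥ 1` be natural numbers and let `m` be a divisor of `q^e - 1` that is coprime to `q^i - 1` for every `1 ≤ i < e` (so `m` divides the primitive part of `q^e - 1`, the largest such divisor). Then `m ≡ 1 (mod e)`. -/
theorem result (q e m : ℕ) (hq : 2 ≤ q) (he : 1 ≤ e)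
    (hm : m ∣ q ^ e - 1) (hcop : ∀ i : ℕ, 1 ≤ i → i < e → Nat.Coprime m (q ^ i - 1)) :
    m % e = 1 % e := by
  have hqe : 1 < q ^ e := Nat.one_lt_pow (by omega) (by omega)
  have hm0 : m ≠ 0 := by
    rintro rfl
    have := Nat.eq_zero_of_zero_dvd hm
    omega
  refine aux_prod e m hm0 ?_
  intro r hr hrm
  have : Fact r.Prime := ⟨hr⟩
  have hrq : r ∣ q ^ e - 1 := hrm.trans hm
  -- q as unit in ZMod r
  have hq1 : (q : ZMod r) ^ e = 1 := by
    have : ((q ^ e - 1 : ℕ) : ZMod r) = 0 := (ZMod.natCast_eq_zero_iff _ _).2 hrq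
    rw [Nat.cast_sub hqe.le] at this
    push_cast at this
    exact sub_eq_zero.1 this
  have hq0 : (q : ZMod r) ≠ 0 := by
    intro h
    rw [h, zero_pow (by omega)] at hq1
    exact zero_ne_one hq1
  have hord : orderOf (q : ZMod r) = e := by
    have hd : orderOf (q : ZMod r) ∣ e := orderOf_dvd_of_pow_eq_one hq1
    have hpos : 0 < orderOf (q : ZMod r) := Nat.pos_of_dvd_of_pos hd (by omega)
    by_contra hne
    have hlt : orderOf (q : ZMod r) < e := lt_of_le_of_ne (Nat.le_of_dvd (by omega) hd) hne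
    have hc := hcop _ hpos hlt
    have h1 : (q : ZMod r) ^ orderOf (q : ZMod r) = 1 := pow_orderOf_eq_one _
    have h2 : r ∣ q ^ orderOf (q : ZMod r) - 1 := by
      rw [← ZMod.natCast_eq_zero_iff, Nat.cast_sub (Nat.one_le_pow _ _ (by omega))]
      push_cast
      rw [h1]; simp
    have := Nat.dvd_gcd hrm h2
    rw [hc] at this
    exact hr.one_lt.ne' (Nat.dvd_one.1 this)
  have hdiv : e ∣ r - 1 := by
    rw [← hord]
    exact ZMod.orderOf_dvd_card_sub_one hq0
  have : 1 ≡ r [MOD e] := (Nat.modEq_iff_dvd' hr.one_lt.le).2 hdiv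
  exact this.symm

end Cfsg.Agent.S4422
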