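import Cfsg.Statements.S4424
import Cfsg.Agent.Lib.Helper23.Trunc4

set_option autoImplicit false
open Cfsg

namespace Cfsg.Agent.S4424

open Cfsg Cfsg.Agent.CharLib Cfsg.Agent.Lib.Helper23 Cfsg.Agent.Lib.Helper23.Trunc

/-- Let χ be an irreducible character of the finite group G lying in the p-block B (relative to a maximal ideal M of the algebraic integers containing p), and let p^a be the p-part of the order of G. Then the class function that equals p^a · χ on the p-regular elements and vanishes on the p-singular elements is an integer combination of the irreducible characters in B: there are integers a_ψ, zero for ψ outside B, with that function equal to Σ a_ψ ψ. -/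
theorem result {G : Type*} [Group G] [Finite G] (p : ℕ) [Fact p.Prime] (M : Ideal Cfsg.AlgInt) (hM : Cfsg.IsPModular p M) (B : Set (Cfsg.IrrCharacter G)) (hB : Cfsg.IsPBlock M B) (χ : Cfsg.IrrCharacter G) (hχ : χ ∈ B) : ∃ a : Cfsg.IrrCharacter G → ℤ, (∀ ψ, ψ ∉ B → a ψ = 0) ∧ (fun x : G => if p ∣ orderOf x then (0 : ℂ) else ((p ^ (Nat.card G).factorization p : ℕ) : ℂ) * (χ : G → ℂ) x) = fun x => ∑ᶠ ψ : Cfsg.IrrCharacter G, (a ψ : ℂ) * (ψ : G → ℂ) x := by
  have hp : p.Prime := Fact.out
  cases nonempty_fintype G
  have hz : ∀ ν : IrrCharacter G, ∃ z : ℤ,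
      classInner (trunc p ((p : ℂ) ^ (Nat.card G).factorization p) (χ : G → ℂ)) (ν : G → ℂ) = z := fun ν =>
    exists_int_classInner_trunc hp χ ν _ (by omega)
  choose z hz using hz
  refine ⟨z, ?_, ?_⟩
  · intro ψ hψ
    have h1 := classInner_trunc_eq_zero hM hB ((p : ℂ) ^ (Nat.card G).factorization p) hχ hψ
    rw [hz ψ] at h1
    exact_mod_cast h1
  · have e : (fun x : G => if p ∣ orderOf x then (0 : ℂ) else ((p ^ (Nat.card G).factorization p : ℕ) : ℂ) * (χ : G → ℂ) x) = trunc p ((p : ℂ) ^ (Nat.card G).factorization p) (χ : G → ℂ) := by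
      funext x
      rw [trunc_apply]
      push_cast
      rfl
    rw [e]
    conv_lhs => rw [classFunction_eq_sum (isClassFunction_trunc p _ (isClassFunction_of_irr χ.2))]
    funext x
    rw [finsum_eq_sum_of_fintype, Finset.sum_apply]
    apply Finset.sum_congr rfl
    intro ψ _
    rw [Pi.smul_apply, hz ψ, smul_eq_mul]

end Cfsg.Agent.S4424
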