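import Cfsg.Statements.S4425
import Cfsg.Agent.Lib.Helper23.Trunc2

set_option autoImplicit false
open Cfsg

namespace Cfsg.Agent.S4425

open Cfsg Cfsg.Agent.Lib.Helper23 Cfsg.Agent.Lib.Helper23.Trunc

/-- Let χ be an irreducible character of the finite group G, p a prime, p^a the p-part of the order of G and p^b the p-part of the degree χ(1). Let χ̃ be the class function equal to p^a · χ on p-regular elements and zero on p-singular elements. Then p^(−b) · χ̃ is a generalized character of G, while p^(−(b+1)) · χ̃ is not. -/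
theorem result {G : Type*} [Group G] [Finite G] (p : ℕ) [Fact p.Prime] (χ : Cfsg.IrrCharacter G) : Cfsg.IsGeneralizedCharacter G (fun x : G => if p ∣ orderOf x then (0 : ℂ) else ((p ^ ((Nat.card G).factorization p - (Cfsg.charDegree (χ : G → ℂ)).factorization p) : ℕ) : ℂ) * (χ : G → ℂ) x) ∧ ¬ Cfsg.IsGeneralizedCharacter G (fun x : G => if p ∣ orderOf x then (0 : ℂ) else ((p ^ (Nat.card G).factorization p : ℕ) : ℂ) / ((p ^ ((Cfsg.charDegree (χ : G → ℂ)).factorization p + 1) : ℕ) : ℂ) * (χ : G → ℂ) x) := by
  have hp : p.Prime := Fact.out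
  constructor
  · have h := isGeneralizedCharacter_trunc hp χ
      ((Nat.card G).factorization p - (Cfsg.charDegree (χ : G → ℂ)).factorization p) (by omega)
    have e : (fun x : G => if p ∣ orderOf x then (0 : ℂ) else ((p ^ ((Nat.card G).factorization p - (Cfsg.charDegree (χ : G → ℂ)).factorization p) : ℕ) : ℂ) * (χ : G → ℂ) x) = trunc p ((p : ℂ) ^ ((Nat.card G).factorization p - (Cfsg.charDegree (χ : G → ℂ)).factorization p)) (χ : G → ℂ) := by
      funext x
      rw [trunc_apply]
      push_cast
      rfl
    rw [e]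
    exact h
  · have h := not_isGeneralizedCharacter_trunc hp χ
    have e : (fun x : G => if p ∣ orderOf x then (0 : ℂ) else ((p ^ (Nat.card G).factorization p : ℕ) : ℂ) / ((p ^ ((Cfsg.charDegree (χ : G → ℂ)).factorization p + 1) : ℕ) : ℂ) * (χ : G → ℂ) x) = trunc p ((p : ℂ) ^ (Nat.card G).factorization p /
      (p : ℂ) ^ ((charDegree (χ : G → ℂ)).factorization p + 1)) (χ : G → ℂ) := by
      funext x
      rw [trunc_apply]
      push_cast
      rfl
    rw [e]
    exact h

end Cfsg.Agent.S4425
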