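import Cfsg.Statements.S4426
import Cfsg.Agent.Lib.Helper23.Trunc4

set_option autoImplicit false
open Cfsg

namespace Cfsg.Agent.S4426

open Cfsg Cfsg.Agent.CharLib Cfsg.Agent.BlockLib Cfsg.Agent.Lib.Helper23 Cfsg.Agent.Lib.Helper23.Trunc Cfsg.Agent.Lib.Helper23.MinMax
open scoped ComplexConjugate

theorem h23_Q_iff {G : Type*} [Group G] [Fintype G] (p : ℕ) [Fact p.Prime] (M : Ideal Cfsg.AlgInt)
    (hM : Cfsg.IsPModular p M) (χ ξ : Cfsg.IrrCharacter G) :
    (∃ n : ℤ, classInner (trunc p ((p : ℂ) ^ (Nat.card G).factorization p) (χ : G → ℂ)) (ξ : G → ℂ) = (n : ℂ)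
      ∧ n ≠ 0 ∧ padicValInt p n = (Cfsg.charDegree (ξ : G → ℂ)).factorization p) ↔
    ¬ MemLocalIdeal M (omega (ξ : G → ℂ) (cf p (χ : G → ℂ))) := by
  have hp : p.Prime := Fact.out
  have hMp := isPrime_of_isPModular hM
  have htop := ne_top_of_isPModular hM
  have hp0 : (p : ℂ) ≠ 0 := by exact_mod_cast hp.ne_zero
  obtain ⟨z, hz⟩ := exists_int_classInner_trunc hp χ ξ ((Nat.card G).factorization p) (by omega)
  set a := (Nat.card G).factorization p with ha
  set m := Nat.card G / p ^ a with hm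
  have hGm : Nat.card G = p ^ a * m := (Nat.ordProj_mul_ordCompl_eq_self (Nat.card G) p).symm
  have hpm : ¬ p ∣ m := Nat.not_dvd_ordCompl hp Nat.card_pos.ne'
  set T := omega (ξ : G → ℂ) (cf p (χ : G → ℂ)) with hT
  have hTR : MemLocalRing M T := memLocalRing_omega_cf hM ξ χ
  set D := charDegree (ξ : G → ℂ) with hD
  have hD0 : D ≠ 0 := (charDegree_pos_irr ξ).ne'
  have hrel : (z : ℂ) * m = D * T := by
    have h1 := card_mul_int_eq χ ξ a hz
    rw [hGm] at h1
    push_cast at h1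
    have hpa : (p : ℂ) ^ a ≠ 0 := pow_ne_zero _ hp0
    apply mul_left_cancel₀ hpa
    linear_combination h1
  -- sign
  obtain ⟨ε, hε, hεz⟩ : ∃ ε : ℂ, (ε = 1 ∨ ε = -1) ∧ ((z.natAbs : ℕ) : ℂ) = ε * z := by
    rcases Int.natAbs_eq z with h | h
    · refine ⟨1, Or.inl rfl, ?_⟩
      rw [one_mul]
      conv_rhs => rw [h]
      simp
    · refine ⟨-1, Or.inr rfl, ?_⟩
      rw [neg_one_mul]
      conv_rhs => rw [h]
      simp
  have hrel' : ((z.natAbs : ℕ) : ℂ) * m = D * (ε * T) := by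
    rw [hεz]; linear_combination ε * hrel
  have hid : MemLocalIdeal M (ε * T) ↔ MemLocalIdeal M T := by
    rcases hε with rfl | rfl
    · rw [one_mul]
    · rw [neg_one_mul]
      exact ⟨fun h => by simpa using memLocalIdeal_neg h, memLocalIdeal_neg⟩
  have hring : MemLocalRing M (ε * T) := by
    rcases hε with rfl | rfl
    · rw [one_mul]; exact hTR
    · rw [neg_one_mul]; exact memLocalRing_neg hTR
  constructor
  · rintro ⟨n, hn, hn0, hval⟩
    have hnz : n = z := by
      rw [hz] at hn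
      exact_mod_cast hn.symm
    subst hnz
    rw [← hid]
    apply not_memLocalIdeal_of_factorization_eq hM hpm hD0 hrel' (Int.natAbs_ne_zero.2 hn0)
    rw [Nat.factorization_def _ hp]
    exact hval
  · intro hT'
    rw [← hid] at hT'
    obtain ⟨h1, h2⟩ := factorization_eq_of_unit hM hpm hD0 hrel' hring hT'
    refine ⟨z, hz, Int.natAbs_ne_zero.1 h1, ?_⟩
    rw [Nat.factorization_def _ hp] at h2
    exact h2

/-- Let χ be an irreducible character in the p-block B of the finite group G (relative to a maximal ideal M of the algebraic integers containing p), let p^a be the p-part of the order of G, and let χ̃ be the class function equal to p^a · χ on p-regular elements and zero elsewhere. For ξ ∈ B the inner product [χ̃, ξ] is an integer. The following are equivalent: (a) χ has height zero in B; (b) for some ξ ∈ B the integer [χ̃, ξ] is nonzero and the exact power of p dividing it equals the exact power of p dividing ξ(1); (c) the same holds for every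 ξ ∈ B. -/
theorem result {G : Type*} [Group G] [Fintype G] (p : ℕ) [Fact p.Prime] (M : Ideal Cfsg.AlgInt) (hM : Cfsg.IsPModular p M) (B : Set (Cfsg.IrrCharacter G)) (hB : Cfsg.IsPBlock M B) (χ : Cfsg.IrrCharacter G) (hχ : χ ∈ B) : (Cfsg.blockHeight p B (χ : G → ℂ) = 0 ↔ ∃ ξ ∈ B, ∃ n : ℤ, Cfsg.classInner (fun x : G => if p ∣ orderOf x then (0 : ℂ) else ((p ^ (Nat.card G).factorization p : ℕ) : ℂ) * (χ : G → ℂ) x) (ξ : G → ℂ) = (n : ℂ) ∧ n ≠ 0 ∧ padicValInt p n = (Cfsg.charDegree (ξ : G → ℂ)).factorization p) ∧ (Cfsg.blockHeight p B (χ : G → ℂ) = 0 ↔ ∀ ξ ∈ B, ∃ n : ℤ, Cfsg.classInner (fun x : G => if p ∣ orderOf x then (0 : ℂ) else ((p ^ (Nat.card G).factorization p : ℕ) : ℂ) * (χ : G → ℂ) x) (ξ : G → ℂ) = (n : ℂ) ∧ n ≠ 0 ∧ padicValInt p n = (Cfsg.charDegree (ξ : G → ℂ)).factorization p) := by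
  have hp : p.Prime := Fact.out
  have hMp := isPrime_of_isPModular hM
  have htop := ne_top_of_isPModular hM
  have hp0 : (p : ℂ) ≠ 0 := by exact_mod_cast hp.ne_zero
  have e : (fun x : G => if p ∣ orderOf x then (0 : ℂ) else ((p ^ (Nat.card G).factorization p : ℕ) : ℂ) * (χ : G → ℂ) x) = trunc p ((p : ℂ) ^ (Nat.card G).factorization p) (χ : G → ℂ) := by
    funext x
    rw [trunc_apply]
    push_cast
    rfl
  rw [e]
  simp only [h23_Q_iff p M hM χ]
  have hheight : Cfsg.blockHeight p B (χ : G → ℂ) =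
      (charDegree (χ : G → ℂ)).factorization p - minExp p B := rfl
  have hmin := minExp_le (p := p) hχ
  have hac : Cfsg.blockHeight p B (χ : G → ℂ) = 0 →
      ∀ ξ ∈ B, ¬ MemLocalIdeal M (omega (ξ : G → ℂ) (cf p (χ : G → ℂ))) := by
    intro h ξ hξ
    exact not_memLocalIdeal_omega_cf hM hB hχ (by omega) hξ
  have hba : (∃ ξ ∈ B, ¬ MemLocalIdeal M (omega (ξ : G → ℂ) (cf p (χ : G → ℂ)))) →
      Cfsg.blockHeight p B (χ : G → ℂ) = 0 := by
    rintro ⟨ξ, hξ, hT⟩
    obtain ⟨χ₀, hχ₀, h0⟩ := exists_minExp (p := p) ⟨χ, hχ⟩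
    have hT0 : ¬ MemLocalIdeal M (omega (χ₀ : G → ℂ) (cf p (χ : G → ℂ))) := by
      intro h
      apply hT
      have := memLocalIdeal_add (omega_cf_congr hM hB hξ hχ₀ χ) h
      simpa using this
    obtain ⟨n, hn, hn0, hval⟩ := (h23_Q_iff p M hM χ χ₀).2 hT0
    set a := (Nat.card G).factorization p with ha
    set b := (charDegree (χ : G → ℂ)).factorization p with hb
    have hba : b ≤ a := (Nat.factorization_le_iff_dvd (charDegree_pos_irr χ).ne' Nat.card_pos.ne').2
      (charDegree_dvd_card χ) p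
    obtain ⟨z', hz'⟩ := exists_int_classInner_trunc hp χ χ₀ (a - b) (by omega)
    have h1 : (p : ℂ) ^ a = (p : ℂ) ^ b * (p : ℂ) ^ (a - b) := by
      rw [← pow_add]; congr 1; omega
    rw [h1, trunc_smul, classInner_smul_left, hz'] at hn
    have h2 : n = (p : ℤ) ^ b * z' := by exact_mod_cast hn.symm
    have h3 : (p : ℤ) ^ b ∣ n := ⟨z', h2⟩
    have h4 := (padicValInt_dvd_iff b n).1 h3
    rcases h4 with h4 | h4
    · exact absurd h4 hn0
    · rw [hheight]
      omega
  refine ⟨⟨fun h => ⟨χ, hχ, hac h χ hχ⟩, hba⟩, ⟨hac, fun h => hba ⟨χ, hχ, h χ hχ⟩⟩⟩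

end Cfsg.Agent.S4426
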