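import Cfsg.Statements.S4428
import Cfsg.Agent.Lib.Helper23.Subsect2

set_option autoImplicit false
open Cfsg

namespace Cfsg.Agent.S4428

open Cfsg Cfsg.Agent.CharLib Cfsg.Agent.BlockLib Cfsg.Agent.Lib.Helper23 Cfsg.Agent.Lib.Helper23.MinMax Cfsg.Agent.Lib.Helper23.Trunc Cfsg.Agent.Lib.Helper23.Subsect
open scoped ComplexConjugate

/-- Let χ be an irreducible character of height zero in the p-block B of the finite group G (relative to a maximal ideal M of the algebraic integers containing p). Let x be a p-element of G with centralizer C, and let b be a block of C that induces B. Form the class function ϑ(c) = χ(x c) on C and its b-part (the sum over ψ ∈ b of the inner product of ϑ with ψ, times ψ). Then the b-part of ϑ does not vanish identically on the p-regular elements of C. (Compare the second main Theorem, which gives vanishing when b does not induce B.) -/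
theorem result {G : Type*} [Group G] [Finite G] (p : ℕ) [Fact p.Prime] (M : Ideal Cfsg.AlgInt) (hM : Cfsg.IsPModular p M) (B : Set (Cfsg.IrrCharacter G)) (hB : Cfsg.IsPBlock M B) (χ : Cfsg.IrrCharacter G) (hχ : χ ∈ B) (h0 : Cfsg.blockHeight p B (χ : G → ℂ) = 0) (x : G) (hx : ∃ k : ℕ, orderOf x = p ^ k) (b : Set (Cfsg.IrrCharacter (Subgroup.centralizer ({x} : Set G)))) (hb : Cfsg.IsInducedBlock M (Subgroup.centralizer ({x} : Set G)) b B) : ∃ y : Subgroup.centralizer ({x} : Set G), ¬ p ∣ orderOf y ∧ Cfsg.blockPart b (fun c : Subgroup.centralizer ({x} : Set G) => (χ : G → ℂ) (x * (c : G))) y ≠ 0 := by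
  classical
  cases nonempty_fintype G
  have htop := ne_top_of_isPModular hM
  obtain ⟨k, hk⟩ := hx
  have hh : (charDegree (χ : G → ℂ)).factorization p = minExp p B := by
    have h1 := minExp_le (p := p) hχ
    have h2 : (charDegree (χ : G → ℂ)).factorization p - minExp p B = 0 := h0
    omega
  obtain ⟨ξ, hξ⟩ := nonempty_of_isPBlock htop hb.1
  have hz : ∀ h ∈ Subgroup.centralizer ({x} : Set G), x * h = h * x := fun h hh =>
    (Subgroup.mem_centralizer_singleton_iff.1 hh).symm
  have hunit := Tnum_unit hM hb hξ hχ hh hz (k := k) (by rw [← hk, pow_orderOf_eq_one])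
  by_contra hcon
  push Not at hcon
  apply hunit
  have hmul := Tnum_mul hM hb.1 hξ χ hz
  have hzero : classInner (trunc p 1 (ξ : Subgroup.centralizer ({x} : Set G) → ℂ))
      (blockPart b (fun c : Subgroup.centralizer ({x} : Set G) => (χ : G → ℂ) (x * c))) = 0 := by
    rw [classInner]
    apply mul_eq_zero_of_right
    apply Finset.sum_eq_zero
    intro y _
    rw [trunc_apply]
    split_ifs with hy
    · rw [zero_mul]
    · rw [hcon y hy, map_zero, mul_zero]
  rw [hzero, mul_zero] at hmul
  rcases mul_eq_zero.1 hmul with h | h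
  · rw [h]; exact memLocalIdeal_zero htop
  · exact absurd h (irr_apply_one_ne_zero ξ)

end Cfsg.Agent.S4428
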