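import Cfsg.Statements.S4430
import Cfsg.Agent.H25.IndBlock3

set_option autoImplicit false
open Cfsg

namespace Cfsg.Agent.S4430

/-- Let H be a subgroup of the finite group G, b a block of H whose induced block B₀ in G is defined (relative to a maximal ideal M of the algebraic integers containing p), and ξ ∈ b. For a block B of G let n_B be the value at 1 of the B-part of the induced character ξ^G (a natural number: the sum over χ ∈ B of the multiplicity of χ in ξ^G times χ(1)). Then for B = B₀ the exact power of p dividing n_B equals the exact power of p dividing ξ^G(1), while for every other block B either n_B = 0 or n_B is divisible by a strictly higher power of p than ξ^G(1). -/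
theorem result {G : Type*} [Group G] [Fintype G] (p : ℕ) [Fact p.Prime] (M : Ideal Cfsg.AlgInt) (hM : Cfsg.IsPModular p M) (H : Subgroup G) [Fintype H] (b : Set (Cfsg.IrrCharacter H)) (B₀ : Set (Cfsg.IrrCharacter G)) (hind : Cfsg.IsInducedBlock M H b B₀) (ξ : Cfsg.IrrCharacter H) (hξ : ξ ∈ b) : (∃ n : ℕ, Cfsg.blockPart B₀ (Cfsg.indFun H (ξ : H → ℂ)) 1 = (n : ℂ) ∧ n ≠ 0 ∧ n.factorization p = (Cfsg.charDegree (Cfsg.indFun H (ξ : H → ℂ))).factorization p) ∧ ∀ B : Set (Cfsg.IrrCharacter G), Cfsg.IsPBlock M B → B ≠ B₀ → ∃ n : ℕ, Cfsg.blockPart B (Cfsg.indFun H (ξ : H → ℂ)) 1 = (n : ℂ) ∧ (n = 0 ∨ (Cfsg.charDegree (Cfsg.indFun H (ξ : H → ℂ))).factorization p < n.factorization p) := by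
  classical
  open Cfsg.Agent.BlockLib Cfsg.Agent.CharLib Cfsg.Agent.CharLib.H2 Cfsg.Agent.H25
    Cfsg.Agent.Lib.Helper23 in
  have hP : M.IsPrime := isPrime_of_isPModular hM
  have hne := ne_top_of_isPModular hM
  have hp := hM.1
  obtain ⟨hb, hB₀, hcong⟩ := hind
  set θ := indFun H (ξ : H → ℂ) with hθdef
  have hθ : IsCharacter G θ := isCharacter_indFun H (isCharacter_of_irr ξ.2)
  obtain ⟨m, hm, hm2⟩ := exists_mult hθ
  obtain ⟨χ₀, hχ₀⟩ := pb_nonempty hB₀
  have hsb : SameBlock M θ (χ₀ : G → ℂ) := by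
    intro g
    rw [hθdef, ← inducedCentralChar_eq_centralChar]
    exact hcong ξ hξ χ₀ hχ₀ g
  set D := charDegree θ with hD
  have hDc : (D : ℂ) = θ 1 := charDegree_cast hθ
  have hθ1 : θ 1 ≠ 0 := by
    rw [hθdef, indFun_apply_one]
    exact mul_ne_zero (by exact_mod_cast (Subgroup.index_ne_zero_of_finite : H.index ≠ 0))
      (irr_apply_one_ne_zero ξ)
  have hD0 : D ≠ 0 := by
    intro h0
    rw [h0] at hDc
    exact hθ1 (by rw [← hDc]; simp)
  -- the degree of the block part
  have hpart : ∀ B : Set (IrrCharacter G), blockPart B θ 1 =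
      ((∑ χ ∈ Finset.univ.filter (· ∈ B), m χ * charDegree (χ : G → ℂ) : ℕ) : ℂ) := by
    intro B
    rw [blockPart, finsum_mem_eq_finite_toFinset_sum _ (Set.toFinite B)]
    push_cast
    refine Finset.sum_congr (by ext; simp) fun χ _ => ?_
    rw [charDegree_cast_irr, ← hm2]
    congr!
  have hom : ∀ B : Set (IrrCharacter G),
      ((∑ χ ∈ Finset.univ.filter (· ∈ B), m χ * charDegree (χ : G → ℂ) : ℕ) : ℂ) =
        (D : ℂ) * omega θ (idemSet B) := by
    intro B
    rw [hDc, omega, mul_div_cancel₀ _ hθ1]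
    have h6 : ∀ g, idemSet B g * θ g =
        ∑ χ : IrrCharacter G, (m χ : ℂ) * (idemSet B g * (χ : G → ℂ) g) := by
      intro g
      rw [hm, Finset.sum_apply, Finset.mul_sum]
      refine Finset.sum_congr rfl fun χ _ => ?_
      simp only [Pi.smul_apply, smul_eq_mul]
      ring
    rw [Finset.sum_congr rfl fun g _ => h6 g, Finset.sum_comm, Finset.sum_filter]
    push_cast
    refine Finset.sum_congr rfl fun χ _ => ?_
    rw [← Finset.mul_sum]
    have h7 := omega_idemSet B χ
    rw [omega, div_eq_iff (irr_apply_one_ne_zero χ)] at h7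
    rw [h7, charDegree_cast_irr]
    split_ifs <;> simp
  have hcg : ∀ B : Set (IrrCharacter G), IsPBlock M B →
      MemLocalIdeal M (omega θ (idemSet B) - omega (χ₀ : G → ℂ) (idemSet B)) := by
    intro B hB
    exact memLocalIdeal_omega_sub (isClassFunction_indFun H (ξ : H → ℂ))
      (isClassFunction_of_irr χ₀.2) hsb (isClassFunction_idemSet B) (pb_rVal hB)
  constructor
  · refine ⟨_, hpart B₀, ?_⟩
    have h1 := hcg B₀ hB₀
    rw [omega_idemSet, if_pos hχ₀] at h1
    have hT : MemLocalRing M (omega θ (idemSet B₀)) := by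
      have := memLocalRing_add (memLocalRing_of_memLocalIdeal h1) (memLocalRing_one hne)
      simpa using this
    have hT' : ¬ MemLocalIdeal M (omega θ (idemSet B₀)) := by
      intro h2
      apply not_memLocalIdeal_one (M := M)
      have := memLocalIdeal_sub h2 h1
      simpa using this
    exact Trunc.factorization_eq_of_unit hM (m := 1) (fun h => hp.one_lt.ne' (Nat.dvd_one.mp h)) hD0
      (by rw [Nat.cast_one, mul_one]; exact hom B₀) hT hT'
  · intro B hB hBne
    refine ⟨_, hpart B, ?_⟩
    have h1 := hcg B hB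
    have hχ₀B : χ₀ ∉ B := fun hmem =>
      Set.disjoint_left.mp (pb_disjoint_of_ne hB hB₀ hBne) hmem hχ₀
    rw [omega_idemSet, if_neg hχ₀B, sub_zero] at h1
    set n := ∑ χ ∈ Finset.univ.filter (· ∈ B), m χ * charDegree (χ : G → ℂ) with hn
    have hrel := hom B
    by_cases hn0 : n = 0
    · exact Or.inl hn0
    · right
      by_contra hle
      push Not at hle
      set c := n.factorization p with hc
      have h2 : p ^ c ∣ D := (Nat.pow_dvd_pow p hle).trans (Nat.ordProj_dvd D p)
      obtain ⟨D', hD'⟩ := h2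
      have h3 : n = p ^ c * (n / p ^ c) := (Nat.ordProj_mul_ordCompl_eq_self n p).symm
      have h4 : ¬ p ∣ n / p ^ c := Nat.not_dvd_ordCompl hp hn0
      apply h4
      rw [← memLocalIdeal_natCast_iff hM]
      have hpc : ((p ^ c : ℕ) : ℂ) ≠ 0 := by exact_mod_cast (pow_pos hp.pos c).ne'
      have h5 : ((n / p ^ c : ℕ) : ℂ) = (D' : ℂ) * omega θ (idemSet B) := by
        apply mul_left_cancel₀ hpc
        rw [← Nat.cast_mul, ← h3, hrel, hD']
        push_cast
        ring
      rw [h5]
      exact memLocalIdeal_mul_left (memLocalRing_natCast hne _) h1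

end Cfsg.Agent.S4430
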