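import Cfsg.Statements.S4433
import Cfsg.Agent.H25.QuotDefect
import Cfsg.Agent.S0929
import Cfsg.Agent.S0959
import Cfsg.Agent.H25.IndBlock
import Cfsg.Agent.Lib.Helper23.MinMax2

set_option autoImplicit false
open Cfsg

namespace Cfsg.Agent.S4433

/-- Let N be a normal subgroup of the finite group G and write Ḡ = G/N; fix a maximal ideal M of the algebraic integers containing p. Let B̄ be a block of Ḡ contained in the block B of G, in the sense that the inflation of every member of B̄ lies in B, and let D̄ be a defect group of B̄. Then B has a defect group P whose image in Ḡ contains D̄. -/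
theorem result {G : Type*} [Group G] [Finite G] (p : ℕ) [Fact p.Prime] (M : Ideal Cfsg.AlgInt) (hM : Cfsg.IsPModular p M) (N : Subgroup G) [N.Normal] (Bbar : Set (Cfsg.IrrCharacter (G ⧸ N))) (hBbar : Cfsg.IsPBlock M Bbar) (B : Set (Cfsg.IrrCharacter G)) (hB : Cfsg.IsPBlock M B) (hsub : ∀ χ ∈ Bbar, ∀ ψ : Cfsg.IrrCharacter G, (ψ : G → ℂ) = (χ : G ⧸ N → ℂ) ∘ QuotientGroup.mk → ψ ∈ B) (Dbar : Subgroup (G ⧸ N)) (hDbar : Cfsg.IsDefectGroup p M Bbar Dbar) : ∃ P : Subgroup G, Cfsg.IsDefectGroup p M B P ∧ Dbar ≤ P.map (QuotientGroup.mk' N) := by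
  classical
  cases nonempty_fintype G
  have hPr := Cfsg.Agent.BlockLib.isPrime_of_isPModular hM
  have htop := Cfsg.Agent.BlockLib.ne_top_of_isPModular hM
  have : Fintype (ConjClasses G) := Fintype.ofFinite _
  obtain ⟨χbar, hχbar⟩ := Cfsg.Agent.BlockLib.pb_nonempty hBbar
  let χ : Cfsg.IrrCharacter G := ⟨(χbar : G ⧸ N → ℂ) ∘ QuotientGroup.mk,
    Cfsg.Agent.CharLib.isIrrCharacter_comp_of_surjective χbar.2 (QuotientGroup.mk' N)
      (QuotientGroup.mk'_surjective N)⟩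
  have hχ : χ ∈ B := hsub χbar hχbar χ rfl
  have hsum := Cfsg.Agent.Lib.Helper23.MinMax.sum_classes_blockCoeff B χ
  rw [if_pos hχ] at hsum
  obtain ⟨C, hC⟩ : ∃ C : ConjClasses G, ¬ Cfsg.MemLocalIdeal M
      (Cfsg.blockCoeff B (Quotient.out C) * Cfsg.centralChar (χ : G → ℂ) (Quotient.out C)) := by
    by_contra hno
    push Not at hno
    apply Cfsg.Agent.BlockLib.not_memLocalIdeal_one (M := M)
    rw [← hsum]
    exact Cfsg.Agent.BlockLib.memLocalIdeal_sum _ _ (fun C _ => hno C)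
  obtain ⟨x, hx⟩ : ∃ x : G, x = Quotient.out C := ⟨_, rfl⟩
  rw [← hx] at hC
  have ha : ¬ Cfsg.MemLocalIdeal M (Cfsg.blockCoeff B x) := fun h =>
    hC (Cfsg.Agent.BlockLib.memLocalIdeal_mul_right h (Cfsg.Agent.H25.memLocalRing_centralChar χ x))
  have hω : ¬ Cfsg.MemLocalIdeal M (Cfsg.centralChar ((χbar : G ⧸ N → ℂ) ∘ QuotientGroup.mk) x) :=
    fun h => hC (Cfsg.Agent.BlockLib.memLocalIdeal_mul_left
      (Cfsg.Agent.BlockLib.memLocalRing_blockCoeff hB x) h)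
  rw [Cfsg.Agent.H25.QuotDefect.centralChar_inflation] at hω
  have hm : ¬ p ∣ (Subgroup.centralizer ({x} : Set G)).relIndex
      ((Subgroup.centralizer ({(x : G ⧸ N)} : Set (G ⧸ N))).comap (QuotientGroup.mk' N)) :=
    fun h => hω (Cfsg.Agent.BlockLib.memLocalIdeal_mul_right
      ((Cfsg.Agent.BlockLib.memLocalIdeal_natCast_iff hM _).2 h)
      (Cfsg.Agent.H25.memLocalRing_centralChar χbar _))
  have hωbar : ¬ Cfsg.MemLocalIdeal M (Cfsg.centralChar (χbar : G ⧸ N → ℂ) (x : G ⧸ N)) :=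
    fun h => hω (Cfsg.Agent.BlockLib.memLocalIdeal_mul_left
      (Cfsg.Agent.BlockLib.memLocalRing_natCast htop _) h)
  obtain ⟨x', hconj, hx'C, -⟩ := Cfsg.Agent.S0929.result p M hM Bbar hBbar Dbar hDbar (x : G ⧸ N)
    ⟨χbar, hχbar, hωbar⟩
  obtain ⟨cbar, hc⟩ := isConj_iff.1 hconj
  have hDbarp : IsPGroup p Dbar :=
    IsPGroup.of_card (Cfsg.Agent.Lib.Helper23.MinMax.card_of_isDefectGroup hM hBbar hDbar)
  have h1 : Cfsg.Agent.BlockLib.CA.cjs cbar⁻¹ Dbar ≤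
      Subgroup.centralizer ({(x : G ⧸ N)} : Set (G ⧸ N)) := by
    intro q hq
    rw [Cfsg.Agent.BlockLib.CA.mem_cjs, inv_inv] at hq
    rw [Subgroup.mem_centralizer_singleton_iff]
    have h2 := Subgroup.mem_centralizer_iff.1 hx'C _ hq
    rw [← hc] at h2
    have h3 : cbar * (q * (x : G ⧸ N)) * cbar⁻¹ = cbar * ((x : G ⧸ N) * q) * cbar⁻¹ := by
      calc cbar * (q * (x : G ⧸ N)) * cbar⁻¹
          = cbar * q * cbar⁻¹ * (cbar * (x : G ⧸ N) * cbar⁻¹) := by group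
        _ = cbar * (x : G ⧸ N) * cbar⁻¹ * (cbar * q * cbar⁻¹) := h2
        _ = cbar * ((x : G ⧸ N) * q) * cbar⁻¹ := by group
    exact mul_left_cancel (mul_right_cancel h3)
  obtain ⟨Q, hQ⟩ := Cfsg.Agent.BlockLib.CA.exists_isSylIn p (Subgroup.centralizer ({x} : Set G))
  have hQbar := Cfsg.Agent.H25.QuotDefect.isSylIn_map_centralizer N hQ hm
  obtain ⟨d, -, hle⟩ := hQbar.exists_conj_le (Cfsg.Agent.BlockLib.CA.isPGroup_cjs hDbarp _) h1
  obtain ⟨D, hD⟩ := Cfsg.Agent.H25.QuotDefect.exists_isDefectGroup (p := p) hM hB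
  have hxQ : x ∈ Subgroup.centralizer (Q : Set G) := by
    rw [Subgroup.mem_centralizer_iff]
    intro q hq
    exact Subgroup.mem_centralizer_singleton_iff.1 (hQ.2.1 hq)
  obtain ⟨y, hy⟩ := (Cfsg.Agent.S0959.result p M hM B hB D hD Q hQ.1).1
    ⟨x, Cfsg.Agent.BlockLib.memLocalRing_blockCoeff hB x, ha, x, IsConj.refl x, hxQ⟩
  have hy' : Q ≤ Cfsg.Agent.BlockLib.CA.cjs y⁻¹ D := by
    rw [Cfsg.Agent.BlockLib.CA.le_cjs_iff, inv_inv]
    exact hy
  obtain ⟨w, hw⟩ := QuotientGroup.mk_surjective (cbar * d)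
  refine ⟨Cfsg.Agent.BlockLib.CA.cjs (w * y⁻¹) D,
    Cfsg.Agent.H25.QuotDefect.isDefectGroup_cjs hM hB hD _, ?_⟩
  rw [← Cfsg.Agent.BlockLib.CA.cjs_cjs, Cfsg.Agent.H25.QuotDefect.map_cjs, hw,
    ← Cfsg.Agent.BlockLib.CA.cjs_cjs, Cfsg.Agent.BlockLib.CA.le_cjs_iff]
  exact hle.trans (Cfsg.Agent.BlockLib.CA.cjs_mono (Subgroup.map_mono hy'))

end Cfsg.Agent.S4433
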