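import Cfsg.Statements.S4434
import Cfsg.Agent.H25.QuotDefect2
import Cfsg.Agent.S4433
import Cfsg.Agent.S0912
import Cfsg.Agent.H6.PPart

set_option autoImplicit false
open Cfsg

namespace Cfsg.Agent.S4434

/-- Let N be a normal p-subgroup of the finite group G and write Ḡ = G/N; fix a maximal ideal M of the algebraic integers containing p. Then every block B of G contains a block B̄ of Ḡ (the inflation of every member of B̄ lies in B) whose defect groups are exactly the images in Ḡ of the defect groups of B. -/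
theorem result {G : Type*} [Group G] [Finite G] (p : ℕ) [Fact p.Prime] (M : Ideal Cfsg.AlgInt) (hM : Cfsg.IsPModular p M) (N : Subgroup G) [N.Normal] (hN : IsPGroup p N) (B : Set (Cfsg.IrrCharacter G)) (hB : Cfsg.IsPBlock M B) : ∃ Bbar : Set (Cfsg.IrrCharacter (G ⧸ N)), Cfsg.IsPBlock M Bbar ∧ (∀ χ ∈ Bbar, ∀ ψ : Cfsg.IrrCharacter G, (ψ : G → ℂ) = (χ : G ⧸ N → ℂ) ∘ QuotientGroup.mk → ψ ∈ B) ∧ ∀ Dbar : Subgroup (G ⧸ N), Cfsg.IsDefectGroup p M Bbar Dbar ↔ ∃ P : Subgroup G, Cfsg.IsDefectGroup p M B P ∧ Dbar = P.map (QuotientGroup.mk' N) := by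
  classical
  cases nonempty_fintype G
  have hp := hM.1
  have hPr := Cfsg.Agent.BlockLib.isPrime_of_isPModular hM
  have htop := Cfsg.Agent.BlockLib.ne_top_of_isPModular hM
  have : Fintype (G ⧸ N) := Fintype.ofFinite _
  obtain ⟨D, hD⟩ := Cfsg.Agent.H25.QuotDefect.exists_isDefectGroup (p := p) hM hB
  have hND : N ≤ D := (le_sSup ⟨inferInstance, hN⟩ : N ≤ Cfsg.pCore p G).trans
    (Cfsg.Agent.S0912.result p M hM B hB D hD)
  obtain ⟨x, hx, P', hP'⟩ := id hD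
  have hDx : D ≤ Subgroup.centralizer ({x} : Set G) := by
    rw [hP']
    rintro _ ⟨y, -, rfl⟩
    exact y.2
  have hxreg : ¬ p ∣ orderOf x := by
    intro hdvd
    apply hx.2.1
    rw [Cfsg.Agent.Lib.Helper23.MinMax.blockCoeff_eq_zero_of_singular hM hB hdvd]
    exact Cfsg.Agent.BlockLib.memLocalIdeal_zero htop
  -- the coefficient of the image of the idempotent
  have hsumN : ∑ n : G, (if n ∈ N then Cfsg.blockCoeff B (x * n) else 0) = Cfsg.blockCoeff B x := by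
    rw [Finset.sum_eq_single (1 : G)]
    · rw [if_pos N.one_mem, mul_one]
    · intro n _ hn1
      split_ifs with hn
      · apply Cfsg.Agent.Lib.Helper23.MinMax.blockCoeff_eq_zero_of_singular hM hB
        by_contra hreg
        apply hn1
        have hc : Commute n x := Subgroup.mem_centralizer_singleton_iff.1 (hDx (hND hn))
        have h1 : Cfsg.IsPPart p (x * n) n := by
          refine ⟨x, hc.eq, hc, ?_, hxreg⟩
          obtain ⟨k, hk⟩ := (IsPGroup.iff_orderOf.mp hN) ⟨n, hn⟩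
          rw [Subgroup.orderOf_mk] at hk
          exact ⟨k, hk⟩
        have h2 : Cfsg.IsPPart p (x * n) 1 :=
          ⟨x * n, one_mul _, Commute.one_left _, ⟨0, by simp⟩, hreg⟩
        exact Cfsg.Agent.H6.isPPart_unique hp h1 h2
      · rfl
    · intro h
      exact absurd (Finset.mem_univ _) h
  have hS : ∀ χ ∈ {χ : Cfsg.IrrCharacter (G ⧸ N) | Cfsg.Agent.H25.QuotDefect.infl N χ ∈ B},
      Cfsg.blockOf M (χ : G ⧸ N → ℂ) ⊆
        {χ : Cfsg.IrrCharacter (G ⧸ N) | Cfsg.Agent.H25.QuotDefect.infl N χ ∈ B} := by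
    intro χ hχ ψ hψ
    have h1 : Cfsg.SameBlock M ((χ : G ⧸ N → ℂ) ∘ QuotientGroup.mk)
        ((ψ : G ⧸ N → ℂ) ∘ QuotientGroup.mk) := Cfsg.Agent.H25.sameBlock_inflation N hψ
    have h2 : B = Cfsg.blockOf M (Cfsg.Agent.H25.QuotDefect.infl N χ : G → ℂ) :=
      Cfsg.Agent.BlockLib.pb_eq_blockOf hB hχ
    show Cfsg.Agent.H25.QuotDefect.infl N ψ ∈ B
    rw [h2]
    exact h1
  have hnot : ¬ Cfsg.MemLocalIdeal M (Cfsg.blockCoeff
      {χ : Cfsg.IrrCharacter (G ⧸ N) | Cfsg.Agent.H25.QuotDefect.infl N χ ∈ B} (x : G ⧸ N)) := by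
    rw [Cfsg.Agent.H25.QuotDefect.blockCoeff_quotient, hsumN]
    exact hx.2.1
  obtain ⟨χ₀, hχ₀, hcoef⟩ := Cfsg.Agent.H25.QuotDefect.exists_block_of_blockCoeff _ hS _ hnot
  have hBbar : Cfsg.IsPBlock M (Cfsg.blockOf M (χ₀ : G ⧸ N → ℂ)) := ⟨χ₀, rfl⟩
  have hsub : ∀ χ ∈ Cfsg.blockOf M (χ₀ : G ⧸ N → ℂ), ∀ ψ : Cfsg.IrrCharacter G,
      (ψ : G → ℂ) = (χ : G ⧸ N → ℂ) ∘ QuotientGroup.mk → ψ ∈ B := by
    intro χ hχ ψ hψ
    have h1 : Cfsg.Agent.H25.QuotDefect.infl N χ ∈ B := hS χ₀ hχ₀ hχ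
    have h2 : ψ = Cfsg.Agent.H25.QuotDefect.infl N χ := Subtype.ext hψ
    rw [h2]; exact h1
  obtain ⟨D₀, hD₀⟩ := Cfsg.Agent.H25.QuotDefect.exists_isDefectGroup (p := p) hM hBbar
  have hDp : IsPGroup p D :=
    IsPGroup.of_card (Cfsg.Agent.Lib.Helper23.MinMax.card_of_isDefectGroup hM hB hD)
  have hxC : (x : G ⧸ N) ∈ Subgroup.centralizer ((D.map (QuotientGroup.mk' N) : Subgroup (G ⧸ N)) :
      Set (G ⧸ N)) := by
    rw [Subgroup.mem_centralizer_iff]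
    rintro _ ⟨d, hd, rfl⟩
    have h1 : d * x = x * d := Subgroup.mem_centralizer_singleton_iff.1 (hDx hd)
    show (d : G ⧸ N) * (x : G ⧸ N) = (x : G ⧸ N) * (d : G ⧸ N)
    rw [← QuotientGroup.mk_mul, ← QuotientGroup.mk_mul, h1]
  obtain ⟨y, hy⟩ := (Cfsg.Agent.S0959.result p M hM _ hBbar D₀ hD₀ (D.map (QuotientGroup.mk' N))
    (hDp.map _)).1 ⟨(x : G ⧸ N), Cfsg.Agent.BlockLib.memLocalRing_blockCoeff hBbar _, hcoef,
      (x : G ⧸ N), IsConj.refl _, hxC⟩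
  obtain ⟨P, hP, hD₀P⟩ := Cfsg.Agent.S4433.result p M hM N _ hBbar B hB hsub D₀ hD₀
  obtain ⟨z, hz⟩ := Cfsg.Agent.H25.QuotDefect.isDefectGroup_conj hM hB hD hP
  have hD₀eq : D₀ = P.map (QuotientGroup.mk' N) := by
    apply Subgroup.eq_of_le_of_card_ge hD₀P
    rw [hz, Cfsg.Agent.H25.QuotDefect.map_cjs, Cfsg.Agent.BlockLib.CA.card_cjs,
      ← Cfsg.Agent.BlockLib.CA.card_cjs y]
    exact Subgroup.card_le_of_le hy
  refine ⟨_, hBbar, hsub, fun Dbar => ⟨fun hDbar => ?_, ?_⟩⟩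
  · obtain ⟨w, hw⟩ := Cfsg.Agent.H25.QuotDefect.isDefectGroup_conj hM hBbar hD₀ hDbar
    obtain ⟨v, rfl⟩ := QuotientGroup.mk_surjective w
    refine ⟨Cfsg.Agent.BlockLib.CA.cjs v P,
      Cfsg.Agent.H25.QuotDefect.isDefectGroup_cjs hM hB hP v, ?_⟩
    rw [hw, hD₀eq, Cfsg.Agent.H25.QuotDefect.map_cjs]
  · rintro ⟨P₁, hP₁, rfl⟩
    obtain ⟨v, hv⟩ := Cfsg.Agent.H25.QuotDefect.isDefectGroup_conj hM hB hP hP₁
    rw [hv, Cfsg.Agent.H25.QuotDefect.map_cjs, ← hD₀eq]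
    exact Cfsg.Agent.H25.QuotDefect.isDefectGroup_cjs hM hBbar hD₀ _

end Cfsg.Agent.S4434
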