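import Cfsg.Statements.S4437
import Cfsg.Agent.BlockLib.KG.ExtFirstMain
import Cfsg.Agent.BlockLib.KG.DefSubTr
import Cfsg.Agent.H6.FirstMainTr

set_option autoImplicit false
open Cfsg Cfsg.Agent.BlockLib

namespace Cfsg.Agent.S4437

/-- Let P be a p-subgroup of the finite group G, H = P·C_G(P), and b a block of H (relative to a maximal ideal M of the algebraic integers containing p) having P as a defect group; let B be the block of G induced by b. Let T be the stabilizer of b in N_G(P): the elements g of N_G(P) such that the g-conjugate of every member of b is again a member of b. Then B has defect group P if and only if p does not divide the index of H in T. -/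
theorem result {G : Type*} [Group G] [Fintype G] (p : ℕ) [Fact p.Prime] (M : Ideal Cfsg.AlgInt) (hM : Cfsg.IsPModular p M) (P : Subgroup G) (hP : IsPGroup p P) (H : Subgroup G) [Fintype H] (hH : H = P ⊔ Subgroup.centralizer (P : Set G)) (b : Set (Cfsg.IrrCharacter H)) (hb : Cfsg.IsPBlock M b) (hbP : Cfsg.IsDefectGroup p M b (P.subgroupOf H)) (B : Set (Cfsg.IrrCharacter G)) (hind : Cfsg.IsInducedBlock M H b B) (T : Subgroup G) (hT : ∀ g : G, g ∈ T ↔ (g ∈ Subgroup.normalizer (P : Set G) ∧ ∀ θ ∈ b, ∀ θ' : Cfsg.IrrCharacter H, (∀ h h' : H, (h' : G) = g * h * g⁻¹ → (θ' : H → ℂ) h' = (θ : H → ℂ) h) → θ' ∈ b)) : Cfsg.IsDefectGroup p M B P ↔ ¬ p ∣ H.relIndex T := by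
  haveI := isPrime_of_isPModular hM
  haveI := charP_resField hM
  subst hH
  have hB : IsPBlock M B := hind.2.1
  have hLN := CA.sup_centralizer_le_normalizer P
  have hbp : CA.IsBPOf p (eps M B) P (epsS M _ b) :=
    ⟨⟨hP, (CA.isBlk_sup_iff hP).mp (isBlk_epsS hb)⟩, isBlk_eps hB,
      (Cfsg.Agent.H6.IndBlk.isInducedBlock_iff_br hP le_sup_left le_sup_right hLN hb hB).mp hind⟩
  have hDb := (isDefectGroup_subgroupOf_iff hb le_sup_left).mp hbP
  have hTs : T = CA.stab P (epsS M _ b) := by
    ext g
    rw [hT, CA.mem_stab]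
    refine and_congr_right fun hg => ?_
    have hK : P ⊔ Subgroup.centralizer (P : Set G) =
        CA.cjs g (P ⊔ Subgroup.centralizer (P : Set G)) :=
      (CA.cjs_eq_of_mem_normalizer (CA.normalizer_le_normalizer_sup P hg)).symm
    rw [← epsS_conjSet hK]
    constructor
    · intro h
      have hsub : conjSet _ _ g b ⊆ b := by
        rintro θ' ⟨θ, hθ, hc⟩
        exact h θ hθ θ' hc
      have hcb := isPBlock_conjSet (M := M) hK hb
      by_contra hne
      have hne' : conjSet _ _ g b ≠ b := fun h' => hne (by rw [h'])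
      obtain ⟨θ', hθ'⟩ := pb_nonempty hcb
      exact Set.disjoint_left.mp (pb_disjoint_of_ne hcb hb hne') hθ' (hsub hθ')
    · intro h θ hθ θ' hc
      have h2 : conjSet _ _ g b = b := epsS_injective (isPBlock_conjSet hK hb) hb h
      rw [← h2]
      exact ⟨θ, hθ, hc⟩
  rw [hTs, ← CA.isMaxBP_iff_not_dvd hbp hDb, isDefectGroup_iff hB]
  exact ⟨fun h => CA.isMaxBP_of_isDefGrp hbp h, fun h => h.isDefGrp⟩

end Cfsg.Agent.S4437
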