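import Mathlib
import Cfsg.Statements.S4443
import Cfsg.Agent.H6.Robinson
import Cfsg.Agent.H6.RankMap
import Cfsg.Agent.S0940
import Cfsg.Agent.BlockLib.KG.PRegTr
import Cfsg.Agent.BlockLib.KG.DefectTr

set_option autoImplicit false
open Cfsg

namespace Cfsg.Agent.S4443

open Cfsg.Agent.BlockLib Cfsg.Agent.BlockLib.CA Cfsg.Agent.H6.PSocle Cfsg.Agent.H6.SylowCount
  Cfsg.Agent.H6.SylowPairs Cfsg.Agent.H6.Robinson Cfsg.Agent.H6.RankMap Cfsg.Agent.H6.GpDefect

local notation "C(" P ")" => Subgroup.centralizer (SetLike.coe P)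
local notation "Ce(" g ")" => Subgroup.centralizer (Singleton.singleton g : Set _)

theorem rank_eq_card {F k : Type*} [Field F] [Field k] (f : F →+* k) {ι b : Type*} [Fintype ι]
    [DecidableEq ι] [Fintype b] [DecidableEq b] (W : Matrix ι ι F) (E : Matrix ι b k)
    (Λ : Matrix b ι k) (hΛE : Λ * E = 1) (c : ι → k) (hc : ∀ i, c i ≠ 0)
    (h : ∀ i j, c i * f (W i j) = ∑ B, E i B * Λ B j) : Fintype.card b = W.rank := by
  have hWk : Matrix.diagonal c * W.map f = E * Λ := by
    ext i j
    rw [Matrix.diagonal_mul, Matrix.map_apply, Matrix.mul_apply, h]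
  rw [← rank_mul_of_mul_eq_one E Λ hΛE, ← rank_map f W, ← hWk,
    Matrix.rank_mul_eq_right_of_isUnit_det]
  rw [Matrix.det_diagonal]
  apply IsUnit.mk0
  rw [Finset.prod_ne_zero_iff]
  intro i _
  exact hc i

/-- `G_p^+ K^+` at a `p`-regular element, for classes with defect group `D` -/
theorem gp_mul_clsSum_apply {G : Type*} [Group G] [Fintype G] {p : ℕ} [Fact p.Prime]
    {M : Ideal AlgInt} (hM : IsPModular p M) [M.IsPrime] {D : Subgroup G} {y y' : G}
    (hy : ¬ p ∣ orderOf y) (hDy : D ≤ Ce(y)) (hy' : IsSylIn p D Ce(y'))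
    [Fintype {B : Set (IrrCharacter G) // IsPBlock M B ∧ IsDefectGroup p M B D}] :
    (gp (ResField M) p G * (clsSum ⊤ y' : CA (ResField M) G)) y
      = ∑ B : {B : Set (IrrCharacter G) // IsPBlock M B ∧ IsDefectGroup p M B D},
          eps M B.1 y * lam ⊤ (eps M B.1) (clsSum ⊤ y') := by
  classical
  haveI := charP_resField hM
  rw [Cfsg.Agent.S0940.gp_mul_central hM (clsSum_mem_cen (Subgroup.mem_top y')), CA.sum_apply]
  simp only [CA.smul_apply]
  have h1 : ∀ B ∈ pblocks M G, lam ⊤ (eps M B) (clsSum ⊤ y') *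
      (gp (ResField M) p G * eps M B) y ≠ 0 → IsDefectGroup p M B D := by
    intro B hB hne
    have hB' := mem_pblocks.mp hB
    rw [isDefectGroup_iff hB']
    exact isDefGrp_of_ne_zero (isBlk_eps hB') hy' (left_ne_zero_of_mul hne) hDy
      (right_ne_zero_of_mul hne)
  refine (Finset.sum_filter_of_ne h1).symm.trans ?_
  rw [Finset.sum_subtype (p := fun B => IsPBlock M B ∧ IsDefectGroup p M B D)
    ((pblocks M G).filter fun B => IsDefectGroup p M B D) (by
      intro B
      rw [Finset.mem_filter, mem_pblocks])]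
  refine Finset.sum_congr rfl fun B _ => ?_
  rw [gp_mul_idem_apply (eps_mem_cen B.1) (eps_mul_self B.2.1) hy, mul_comm]

/-- Let D be a normal p-subgroup of the finite group G, of order p^d, let p^a be the p-part of the order of G, and fix a Sylow p-subgroup S and a maximal ideal M of the algebraic integers containing p. Index by a finite type ι (via an injective map K) exactly the conjugacy classes of p-regular elements x of G for which D is a Sylow p-subgroup of C_G(x). For classes K_i, K_j let ω(i, j) be the number of pairs (y, z) ∈ K_i × K_j with z y⁻¹ ∈ S; this number is divisible by p^(a−d). Then the number of p-blocks of G having D as a defect group equals the rank over ℤ/pℤ of the matrix with (i, j) entry ω(i, j)/p^(a−d) reduced modulo p. -/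
theorem result {G : Type*} [Group G] [Finite G] (p : ℕ) [Fact p.Prime] (M : Ideal Cfsg.AlgInt) (hM : Cfsg.IsPModular p M) (D : Subgroup G) [D.Normal] (hD : IsPGroup p D) (S : Sylow p G) {ι : Type*} [Fintype ι] [DecidableEq ι] (K : ι → ConjClasses G) (hKinj : Function.Injective K) (hK : ∀ C : ConjClasses G, (∃ i, K i = C) ↔ ∃ x ∈ C.carrier, ¬ p ∣ orderOf x ∧ ∃ Q : Sylow p (Subgroup.centralizer ({x} : Set G)), (Q : Subgroup (Subgroup.centralizer ({x} : Set G))).map (Subgroup.centralizer ({x} : Set G)).subtype = D) : Nat.card {B : Set (Cfsg.IrrCharacter G) // Cfsg.IsPBlock M B ∧ Cfsg.IsDefectGroup p M B D} = (Matrix.of fun i j : ι => ((Nat.card {yz : G × G // yz.1 ∈ (K i).carrier ∧ yz.2 ∈ (K j).carrier ∧ yz.2 * yz.1⁻¹ ∈ (S : Subgroup G)} / p ^ ((Nat.card G).factorization p - (Nat.card D).factorization p) : ℕ) : ZMod p)).rank := by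
  classical
  haveI : Fintype G := Fintype.ofFinite G
  haveI := isPrime_of_isPModular hM
  haveI := charP_resField hM
  haveI := pReg_resField (G := G) hM
  have hp : p.Prime := Fact.out
  have hrep : ∀ i, ∃ x ∈ (K i).carrier, ¬ p ∣ orderOf x ∧ ∃ Q : Sylow p Ce(x),
      (Q : Subgroup Ce(x)).map (Subgroup.subtype _) = D := fun i => (hK (K i)).mp ⟨i, rfl⟩
  choose y hyK hyreg hyQ using hrep
  have hySyl : ∀ i, IsSylIn p D Ce(y i) := by
    intro i
    obtain ⟨Q, hQ⟩ := hyQ i
    rw [← hQ]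
    exact isSylIn_of_sylow Q
  have hfac : ∀ i, (Nat.card Ce(y i)).factorization p = (Nat.card D).factorization p := by
    intro i
    obtain ⟨Q, hQ⟩ := hyQ i
    rw [← hQ, Subgroup.card_map_of_injective (Subgroup.subtype_injective _),
      Q.card_eq_multiplicity, hp.factorization_pow]
    simp
  have hmk : ∀ i, ConjClasses.mk (y i) = K i := fun i => ConjClasses.mem_carrier_iff_mk_eq.mp (hyK i)
  have hmem : ∀ i (g : G), g ∈ (K i).carrier ↔ IsConj (y i) g := by
    intro i g
    rw [ConjClasses.mem_carrier_iff_mk_eq, ← hmk i, ConjClasses.mk_eq_mk_iff_isConj]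
    exact ⟨IsConj.symm, IsConj.symm⟩
  have hinj : ∀ i j, IsConj (y i) (y j) → i = j := by
    intro i j h
    apply hKinj
    rw [← hmk i, ← hmk j, ConjClasses.mk_eq_mk_iff_isConj]
    exact h
  haveI : Fintype {B : Set (IrrCharacter G) // IsPBlock M B ∧ IsDefectGroup p M B D} :=
    Fintype.ofFinite _
  set E : Matrix ι {B : Set (IrrCharacter G) // IsPBlock M B ∧ IsDefectGroup p M B D} (ResField M) :=
    Matrix.of fun i B => eps M B.1 (y i) with hE
  set Λ : Matrix {B : Set (IrrCharacter G) // IsPBlock M B ∧ IsDefectGroup p M B D} ι (ResField M) :=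
    Matrix.of fun B j => lam ⊤ (eps M B.1) (clsSum ⊤ (y j)) with hΛ
  have hΛE : Λ * E = 1 := by
    ext B B'
    rw [Matrix.mul_apply]
    simp only [hE, hΛ, Matrix.of_apply]
    have hεB := isBlk_eps B.2.1
    have hεB' := isBlk_eps B'.2.1
    have hexp := eq_sum_clsSum hεB'.mem y hinj (by
      intro g hg
      have h1 := isSylIn_of_apply_ne_zero hεB' ((isDefectGroup_iff B'.2.1 D).mp B'.2.2) hg
      obtain ⟨Q, hQ⟩ := h1.exists_sylow
      obtain ⟨i, hi⟩ := (hK (ConjClasses.mk g)).mpr ⟨g, ConjClasses.mem_carrier_mk,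
        fun h => hg (PReg.reg ⊤ _ hεB' g h), Q, hQ.symm⟩
      refine ⟨i, ?_⟩
      rw [← hmem, hi]
      exact ConjClasses.mem_carrier_mk)
    have h2 : lam ⊤ (eps M B.1) (eps M B'.1)
        = ∑ i, lam ⊤ (eps M B.1) (clsSum ⊤ (y i)) * eps M B'.1 (y i) := by
      conv_lhs => rw [hexp]
      rw [lam_sum hεB _ _ fun i _ => Subalgebra.smul_mem _ (clsSum_mem_cen (Subgroup.mem_top _)) _]
      refine Finset.sum_congr rfl fun i _ => ?_
      rw [lam_smul hεB (clsSum_mem_cen (Subgroup.mem_top _)), mul_comm]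
    rw [← h2, Matrix.one_apply]
    split_ifs with h
    · rw [h]; exact lam_self hεB'
    · apply lam_of_ne hεB hεB'
      intro h3
      exact h (Subtype.ext (eps_injective B.2.1 B'.2.1 h3))
  set a := (Nat.card G).factorization p with ha
  set d := (Nat.card D).factorization p with hd
  set W : Matrix ι ι (ZMod p) := Matrix.of fun i j : ι => ((Nat.card {yz : G × G // yz.1 ∈ (K i).carrier ∧ yz.2 ∈ (K j).carrier ∧ yz.2 * yz.1⁻¹ ∈ (S : Subgroup G)} / p ^ (a - d) : ℕ) : ZMod p) with hW
  set c : ι → ℕ := fun i => Nat.card Ce(y i) / p ^ (Nat.card Ce(y i)).factorization p with hc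
  have hc0 : ∀ i, (c i : ResField M) ≠ 0 := by
    intro i h
    exact Nat.not_dvd_ordCompl hp Nat.card_pos.ne' ((CharP.cast_eq_zero_iff (ResField M) p _).mp h)
  have hm0 := index_ne_zero (ResField M) S
  rw [Nat.card_eq_fintype_card]
  refine rank_eq_card (ZMod.castHom (dvd_refl p) (ResField M)) W E Λ hΛE
    (fun i => (c i : ResField M) / ((S : Subgroup G).index : ResField M))
    (fun i => div_ne_zero (hc0 i) hm0) ?_
  · intro i j
    simp only [hW, hE, hΛ, Matrix.of_apply, map_natCast]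
    have h1 := ordCompl_mul_pairs S (y i) {z : G | IsConj (y j) z} (by
      intro x z hz
      exact IsConj.trans hz (isConj_iff.mpr ⟨x, rfl⟩))
    have h2 : Nat.card {yz : G × G // yz.1 ∈ (K i).carrier ∧ yz.2 ∈ (K j).carrier ∧
        yz.2 * yz.1⁻¹ ∈ (S : Subgroup G)} = Nat.card {yz : G × G // IsConj (y i) yz.1 ∧
        yz.2 ∈ {z : G | IsConj (y j) z} ∧ yz.2 * yz.1⁻¹ ∈ (S : Subgroup G)} := by
      apply Nat.card_congr
      apply Equiv.subtypeEquivRight
      intro yz
      rw [hmem, hmem]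
      rfl
    rw [h2]
    rw [hfac i] at h1
    set ω := Nat.card {yz : G × G // IsConj (y i) yz.1 ∧
        yz.2 ∈ {z : G | IsConj (y j) z} ∧ yz.2 * yz.1⁻¹ ∈ (S : Subgroup G)} with hω
    have hdvd : p ^ (a - d) ∣ ω := by
      have := pow_dvd_pairs S (y i) {z : G | IsConj (y j) z} (by
        intro x z hz
        exact IsConj.trans hz (isConj_iff.mpr ⟨x, rfl⟩))
      rwa [hfac i] at this
    obtain ⟨w, hw⟩ := hdvd
    rw [hw, Nat.mul_div_cancel_left _ (pow_pos hp.pos _)]
    rw [hw, mul_left_comm] at h1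
    have h3 := Nat.eq_of_mul_eq_mul_left (pow_pos hp.pos _) h1
    have h4 := congrArg (Nat.cast : ℕ → ResField M) h3
    rw [cast_sum_fx, Nat.cast_mul, gp_mul_clsSum_apply hM (hyreg i) (hySyl i).2.1 (hySyl j)] at h4
    have h5 : (Nat.card Ce(y i) / p ^ d : ℕ) = c i := by
      rw [hc]
      simp only
      rw [hfac i]
    rw [h5] at h4
    rw [div_mul_eq_mul_div, div_eq_iff hm0, h4, mul_comm]

end Cfsg.Agent.S4443
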