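import Cfsg.Statements.S4451
import Mathlib
import Cfsg.Agent.Lib.Helper2.GlauFpf
import Cfsg.Agent.H25.Codeg

set_option autoImplicit false
open Cfsg

namespace Cfsg.Agent.S4451

/-- Let the finite group Γ be generated by a normal subgroup G and a cyclic subgroup S of coprime orders such that every non-identity element of S has the same centraliser C = G ⊓ C(S) in G. Let χ be an S-invariant irreducible character of G, χ̂ its canonical extension to Γ (determinantal order coprime to the order of S), and β the irreducible character of C with χ̂(c s) = ε₀ β(c) for c ∈ C and generators s of S (ε₀ = ±1). Then there are a sign ε = ±1, which may differ from ε₀, and a linear character μ of S with μ² = 1, such that: (a) χ̂(c x) = ε β(c) μ(x) for all c ∈ C and all x ∈ S other than 1; (b) the restriction of χ to C equals |S|·ϑ + ε β for some character ϑ of C or ϑ = 0; (c) |S| divides χ(1) − ε β(1). -/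
theorem result {Γ : Type*} [Group Γ] [Fintype Γ] (G S : Subgroup Γ) [Fintype G] (hnorm : ∀ s ∈ S, ∀ g ∈ G, s * g * s⁻¹ ∈ G) (hcop : (Nat.card G).Coprime (Nat.card S)) (htop : G ⊔ S = ⊤) (hcyc : IsCyclic S) (C : Subgroup Γ) [Fintype C] (hC : C = G ⊓ Subgroup.centralizer (S : Set Γ)) (hCG : C ≤ G) (hfpf : ∀ x ∈ S, x ≠ 1 → G ⊓ Subgroup.centralizer ({x} : Set Γ) = C) (χ : Cfsg.IrrCharacter G) (hinv : (∀ s ∈ S, ∀ g g' : G, (g' : Γ) = s * g * s⁻¹ → (χ : G → ℂ) g' = (χ : G → ℂ) g)) (χh : Cfsg.IrrCharacter Γ) (hext : (∀ g : G, (χh : Γ → ℂ) g = (χ : G → ℂ) g)) (hdet : (Cfsg.detOrder (χh : Γ → ℂ)).Coprime (Nat.card S)) (β : Cfsg.IrrCharacter C) (ε₀ : ℤ) (hε₀ : ε₀ = 1 ∨ ε₀ = -1) (hβ : ∀ c : C, ∀ s : Γ, Subgroup.zpowers s = S → (χh : Γ → ℂ) ((c : Γ) * s) = (ε₀ : ℂ) * (β : C → ℂ) c) : ∃ ε : ℤ, (ε = 1 ∨ ε = -1) ∧ (∃ μ : S → ℂ, Cfsg.IsCharacter S μ ∧ μ 1 = 1 ∧ (∀ x : S, μ x * μ x = 1) ∧ ∀ c : C, ∀ x : S, x ≠ 1 → (χh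 : Γ → ℂ) ((c : Γ) * x) = (ε : ℂ) * (β : C → ℂ) c * μ x) ∧ (∃ ϑ : C → ℂ, Cfsg.IsCharacter C ϑ ∧ (fun c : C => (χ : G → ℂ) ⟨c, hCG c.2⟩) = fun c => (Nat.card S : ℂ) * ϑ c + (ε : ℂ) * (β : C → ℂ) c) ∧ (Nat.card S : ℤ) ∣ (Cfsg.charDegree (χ : G → ℂ) : ℤ) - ε * (Cfsg.charDegree (β : C → ℂ) : ℤ) := by
  classical
  open Cfsg.Agent.Lib.Helper2 Cfsg.Agent.CharLib Cfsg.Agent.CharLib.L in
  obtain ⟨g₀, hg₀⟩ := hcyc.exists_generator
  have hs : Subgroup.zpowers (g₀ : Γ) = S := by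
    apply le_antisymm
    · exact Subgroup.zpowers_le.mpr g₀.2
    · intro x hx
      obtain ⟨k, hk⟩ := Subgroup.mem_zpowers_iff.mp (hg₀ ⟨x, hx⟩)
      refine Subgroup.mem_zpowers_iff.mpr ⟨k, ?_⟩
      have := congrArg Subtype.val hk
      simpa using this
  have h : CY G S C (g₀ : Γ) := ⟨hnorm, hcop, htop, hs, hC⟩
  letI := Fintype.ofFinite S
  have hval : ∀ c : C, (χh : Γ → ℂ) ((c : Γ) * g₀) = (ε₀ : ℂ) * (β : C → ℂ) c := fun c => hβ c _ hs
  have hirr : IsIrrCharacter G (fun g : G => (χh : Γ → ℂ) g) := by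
    rw [show (fun g : G => (χh : Γ → ℂ) g) = (χ : G → ℂ) from funext hext]
    exact χ.2
  by_cases hS2 : 2 ≤ Nat.card S
  · obtain ⟨ε, l₀, m, hε, hform⟩ := h.fpf_struct hfpf hS2 χh hirr β ε₀ hε₀ hval
    have hl1 : ∀ l : IrrCharacter S, (l : S → ℂ) 1 = 1 := irr_apply_one_of_comm h.comm_S
    have hreg : ∀ x : S, x ≠ 1 → ∑ l : IrrCharacter S, (l : S → ℂ) x = 0 := by
      intro x hx
      have h1 := sum_irr_one_mul x
      simpa [hl1, hx] using h1
    have hreg1 : ∑ l : IrrCharacter S, (l : S → ℂ) 1 = (Nat.card S : ℂ) := by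
      have h1 := sum_irr_one_mul (1 : S)
      simpa [hl1] using h1
    have hb : ∀ c : C, (χ : G → ℂ) ⟨c, hCG c.2⟩ = (Nat.card S : ℂ) *
        (∑ β' : IrrCharacter C, (m β' : ℂ) * (β' : C → ℂ) c) + (ε : ℂ) * (β : C → ℂ) c := by
      intro c
      have h1 := hform c 1
      rw [hreg1, hl1, mul_one, OneMemClass.coe_one, mul_one] at h1
      rw [← hext ⟨c, hCG c.2⟩]
      show (χh : Γ → ℂ) (c : Γ) = _
      rw [h1]
      ring
    have hε0 : (ε : ℂ) ≠ 0 := by rcases hε with rfl | rfl <;> simp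
    refine ⟨ε, hε, ⟨(l₀ : S → ℂ), isCharacter_of_irr l₀.2, hl1 l₀, ?_, ?_⟩,
      ⟨fun c => ∑ β' : IrrCharacter C, (m β' : ℂ) * (β' : C → ℂ) c, ?_, funext hb⟩, ?_⟩
    · have hg1 : g₀ ≠ 1 := by
        intro hh
        have h2 := h.orderOf_s
        rw [hh, OneMemClass.coe_one, orderOf_one] at h2
        omega
      have h1 := hform 1 g₀
      rw [hreg g₀ hg1, mul_zero, zero_add, hval 1] at h1
      have hβ1 := irr_apply_one_ne_zero β
      have h2 : (ε₀ : ℂ) = (ε : ℂ) * (l₀ : S → ℂ) g₀ := by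
        apply mul_right_cancel₀ hβ1
        rw [h1]; ring
      have h3 : (l₀ : S → ℂ) g₀ * (l₀ : S → ℂ) g₀ = 1 := by
        have h4 : (ε₀ : ℂ) * (ε₀ : ℂ) = 1 := by rcases hε₀ with rfl | rfl <;> simp
        have h5 : (ε : ℂ) * (ε : ℂ) = 1 := by rcases hε with rfl | rfl <;> simp
        rw [h2] at h4
        calc (l₀ : S → ℂ) g₀ * (l₀ : S → ℂ) g₀
            = ((ε : ℂ) * (ε : ℂ)) * ((l₀ : S → ℂ) g₀ * (l₀ : S → ℂ) g₀) := by rw [h5, one_mul]
          _ = 1 := by rw [← h4]; ring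
      let f : S →* ℂ :=
        { toFun := (l₀ : S → ℂ)
          map_one' := hl1 l₀
          map_mul' := irr_mul_of_apply_one_eq_one l₀ (hl1 l₀) }
      intro x
      obtain ⟨k, rfl⟩ := (mem_powers_iff_mem_zpowers).mpr (hg₀ x)
      have h6 : (l₀ : S → ℂ) (g₀ ^ k) = (l₀ : S → ℂ) g₀ ^ k := map_pow f g₀ k
      rw [h6, ← mul_pow, h3, one_pow]
    · intro c x hx
      rw [hform c x, hreg x hx, mul_zero, zero_add]
    · rw [isCharacter_iff]
      refine ⟨m, funext fun c => ?_⟩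
      simp only [Finset.sum_apply, Pi.smul_apply, smul_eq_mul]
    · have h1 := hb 1
      have h2 : (χ : G → ℂ) ⟨((1 : C) : Γ), hCG (1 : C).2⟩ = (χ : G → ℂ) 1 := rfl
      rw [h2, Cfsg.Agent.H25.charDegree_irr χ] at h1
      simp only [Cfsg.Agent.H25.charDegree_irr] at h1
      have h3 : ((Cfsg.charDegree (χ : G → ℂ) : ℤ) : ℂ) = (((Nat.card S : ℤ) *
          (∑ β' : IrrCharacter C, (m β' : ℤ) * (Cfsg.charDegree (β' : C → ℂ) : ℤ))
          + ε * (Cfsg.charDegree (β : C → ℂ) : ℤ) : ℤ) : ℂ) := by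
        push_cast
        exact h1
      have h4 := Int.cast_injective h3
      exact ⟨∑ β' : IrrCharacter C, (m β' : ℤ) * (Cfsg.charDegree (β' : C → ℂ) : ℤ), by
        rw [h4]; ring⟩
  · have hS1 : Nat.card S = 1 := by
      have : 0 < Nat.card S := Nat.card_pos
      omega
    haveI : Subsingleton S := (Nat.card_eq_one_iff_unique.mp hS1).1
    have hg1 : g₀ = 1 := Subsingleton.elim _ _
    refine ⟨ε₀, hε₀, ⟨fun _ => 1, isCharacter_of_irr isIrrCharacter_one, rfl, fun _ => by simp,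
      fun c x hx => absurd (Subsingleton.elim x 1) hx⟩, ⟨fun _ => 0, ?_, ?_⟩, ?_⟩
    · rw [isCharacter_iff]
      refine ⟨fun _ => 0, funext fun c => ?_⟩
      simp
    · funext c
      have h1 := hval c
      rw [hg1, OneMemClass.coe_one, mul_one] at h1
      rw [mul_zero, zero_add, ← h1]
      exact (hext ⟨c, hCG c.2⟩).symm
    · rw [hS1]
      exact one_dvd _

end Cfsg.Agent.S4451
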