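import Cfsg.Statements.S4452
import Mathlib
import Cfsg.Agent.Lib.Helper2.CoprimeDeg

set_option autoImplicit false
open Cfsg

namespace Cfsg.Agent.S4452

/-- Let the finite group G be the product of a normal subgroup K and a solvable subgroup H of coprime orders, and let N = N_G(H). Then the number of irreducible characters of G of degree coprime to the order of H equals the number of irreducible characters of N of degree coprime to the order of H. (The two sets are in fact in a canonical bijection; only the equality of their sizes is stated here.) -/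
theorem result {G : Type*} [Group G] [Finite G] (K H : Subgroup G) [K.Normal] (hKH : K ⊔ H = ⊤) (hcop : (Nat.card K).Coprime (Nat.card H)) (hsolv : Group.IsSolvable H) : Nat.card {χ : Cfsg.IrrCharacter G // (Cfsg.charDegree (χ : G → ℂ)).Coprime (Nat.card H)} = Nat.card {η : Cfsg.IrrCharacter (Subgroup.normalizer (H : Set G)) // (Cfsg.charDegree (η : Subgroup.normalizer (H : Set G) → ℂ)).Coprime (Nat.card H)} := by
  classical
  open Cfsg.Agent.Lib.Helper2 in
  have hnKH : Nrm K H := fun s _ g hg => ‹K.Normal›.conj_mem g hg s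
  have hG := card_coprime_deg K H hKH hcop
  rw [card_sInv_eq hnKH hcop hsolv] at hG
  -- the normaliser side
  have hHN : H ≤ Subgroup.normalizer (H : Set G) := Subgroup.le_normalizer
  have hcardH : Nat.card (H.subgroupOf (Subgroup.normalizer (H : Set G))) = Nat.card H :=
    Nat.card_congr (Subgroup.subgroupOfEquivOfLe hHN).toEquiv
  have hcardK : Nat.card (K.subgroupOf (Subgroup.normalizer (H : Set G))) ∣ Nat.card K := by
    have h1 : Nat.card (K.subgroupOf (Subgroup.normalizer (H : Set G)))
        = Nat.card ↥(K ⊓ Subgroup.normalizer (H : Set G)) := by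
      rw [← Subgroup.inf_subgroupOf_right]
      exact Nat.card_congr (Subgroup.subgroupOfEquivOfLe inf_le_right).toEquiv
    rw [h1]
    exact Subgroup.card_dvd_of_le inf_le_left
  have hcopN : (Nat.card (K.subgroupOf (Subgroup.normalizer (H : Set G)))).Coprime
      (Nat.card (H.subgroupOf (Subgroup.normalizer (H : Set G)))) := by
    rw [hcardH]
    exact Nat.Coprime.coprime_dvd_left hcardK hcop
  have hsup : K.subgroupOf (Subgroup.normalizer (H : Set G)) ⊔
      H.subgroupOf (Subgroup.normalizer (H : Set G)) = ⊤ := by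
    rw [eq_top_iff]
    intro x _
    have h1 : (x : G) ∈ ((K ⊔ H : Subgroup G) : Set G) := by rw [hKH]; trivial
    rw [Subgroup.normal_mul] at h1
    obtain ⟨k, hk, a, ha, hka⟩ := h1
    have hkN : k ∈ Subgroup.normalizer (H : Set G) := by
      have : k = x * a⁻¹ := by rw [← hka]; group
      rw [this]
      exact Subgroup.mul_mem _ x.2 (Subgroup.inv_mem _ (hHN ha))
    have h2 : x = (⟨k, hkN⟩ : Subgroup.normalizer (H : Set G)) * ⟨a, hHN ha⟩ := Subtype.ext hka.symm
    rw [h2]
    exact Subgroup.mul_mem _ (Subgroup.mem_sup_left (Subgroup.mem_subgroupOf.mpr hk))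
      (Subgroup.mem_sup_right (Subgroup.mem_subgroupOf.mpr ha))
  have hsolvN : Group.IsSolvable (H.subgroupOf (Subgroup.normalizer (H : Set G))) :=
    Group.isSolvable_of_isSolvable_injective
      (f := (Subgroup.subgroupOfEquivOfLe hHN).toMonoidHom) (Subgroup.subgroupOfEquivOfLe hHN).injective
  have hnN : Nrm (K.subgroupOf (Subgroup.normalizer (H : Set G)))
      (H.subgroupOf (Subgroup.normalizer (H : Set G))) := fun s _ g hg =>
    (inferInstance : (K.subgroupOf (Subgroup.normalizer (H : Set G))).Normal).conj_mem g hg s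
  have hN := card_coprime_deg (K.subgroupOf (Subgroup.normalizer (H : Set G)))
    (H.subgroupOf (Subgroup.normalizer (H : Set G))) hsup hcopN
  rw [card_sInv_eq hnN hcopN hsolvN, hcardH, card_lin_congr (Subgroup.subgroupOfEquivOfLe hHN)] at hN
  have hmap : (K.subgroupOf (Subgroup.normalizer (H : Set G)) ⊓ Subgroup.centralizer
      ((H.subgroupOf (Subgroup.normalizer (H : Set G)) : Subgroup _) : Set _)).map
        (Subgroup.normalizer (H : Set G)).subtype = K ⊓ Subgroup.centralizer (H : Set G) := by
    ext g
    constructor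
    · rintro ⟨x, hx, rfl⟩
      obtain ⟨hx1, hx2⟩ := Subgroup.mem_inf.mp hx
      refine Subgroup.mem_inf.mpr ⟨Subgroup.mem_subgroupOf.mp hx1,
        Subgroup.mem_centralizer_iff.mpr fun a ha => ?_⟩
      have h1 := Subgroup.mem_centralizer_iff.mp hx2 ⟨a, hHN ha⟩ (Subgroup.mem_subgroupOf.mpr ha)
      exact congrArg Subtype.val h1
    · intro hg
      obtain ⟨hg1, hg2⟩ := Subgroup.mem_inf.mp hg
      have hgN : g ∈ Subgroup.normalizer (H : Set G) := Subgroup.centralizer_le_normalizer _ hg2
      refine ⟨⟨g, hgN⟩, Subgroup.mem_inf.mpr ⟨Subgroup.mem_subgroupOf.mpr hg1,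
        Subgroup.mem_centralizer_iff.mpr fun a ha => ?_⟩, rfl⟩
      exact Subtype.ext (Subgroup.mem_centralizer_iff.mp hg2 a (Subgroup.mem_subgroupOf.mp ha))
  have hirr := card_irr_congr ((Subgroup.equivMapOfInjective _ _
    (Subgroup.normalizer (H : Set G)).subtype_injective).trans (MulEquiv.subgroupCongr hmap))
  rw [hirr] at hN
  rw [hG, hN]

end Cfsg.Agent.S4452
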