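import Cfsg.Statements.S4464
import Cfsg.Agent.Lib.Helper23.DegLib
import Cfsg.Agent.Lib.Helper23.Zipper

set_option autoImplicit false
open Cfsg

namespace Cfsg.Agent.S4464

open Cfsg Cfsg.Agent.CharLib Cfsg.Agent.CharLib.H2 Cfsg.Agent.CharLib.L Cfsg.Agent.Lib.Helper23
open scoped ComplexConjugate Pointwise

/-- if all of `P` is conjugated into its normalizer by `x` then `x` normalizes `P` -/
theorem h23_mem_normalizer_of_conj {G : Type*} [Group G] [Finite G] (p : ℕ) [Fact p.Prime]
    (P : Sylow p G) (x : G)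
    (h : ∀ g ∈ (P : Subgroup G), x⁻¹ * g * x ∈ Subgroup.normalizer ((P : Subgroup G) : Set G)) :
    x ∈ Subgroup.normalizer ((P : Subgroup G) : Set G) := by
  have h1 : ((x⁻¹ • P : Sylow p G) : Subgroup G) ≤ Subgroup.normalizer ((P : Subgroup G) : Set G) := by
    intro y hy
    have hy' : y ∈ MulAut.conj x⁻¹ • (P : Subgroup G) := hy
    rw [mem_conj_smul_iff'] at hy'
    have := h _ hy'
    simpa [mul_assoc] using this
  have h2 : ((x⁻¹ • P : Sylow p G) : Subgroup G) ⊓ Subgroup.normalizer ((P : Subgroup G) : Set G) =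
      ((x⁻¹ • P : Sylow p G) : Subgroup G) ⊓ P := IsPGroup.inf_normalizer_sylow (x⁻¹ • P : Sylow p G).2 P
  rw [inf_eq_left.2 h1] at h2
  have h3 : ((x⁻¹ • P : Sylow p G) : Subgroup G) ≤ P := by
    rw [h2]; exact inf_le_right
  have h4 : (x⁻¹ • P : Sylow p G) = P := Sylow.ext ((x⁻¹ • P : Sylow p G).3 P.2 h3).symm
  have h5 := Sylow.smul_eq_iff_mem_normalizer.1 h4
  exact (Subgroup.inv_mem_iff _).1 h5

/-- Let p be a prime and G a finite group all of whose irreducible character degrees are less than p. Then G has a normal abelian Sylow p-subgroup. -/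
theorem result {G : Type*} [Group G] [Finite G] (p : ℕ) (hp : p.Prime) (hb : ∀ χ : Cfsg.IrrCharacter G, Cfsg.charDegree (χ : G → ℂ) < p) : ∃ P : Subgroup G, P.Normal ∧ (∀ x ∈ P, ∀ y ∈ P, x * y = y * x) ∧ IsPGroup p P ∧ ¬ p ∣ P.index := by
  classical
  have := Fact.mk hp
  cases nonempty_fintype G
  obtain ⟨P0⟩ : Nonempty (Sylow p G) := inferInstance
  set P : Subgroup G := (P0 : Subgroup G) with hP
  have hab : ∀ x ∈ P, ∀ y ∈ P, x * y = y * x := by
    have hlin : ∀ ψ : IrrCharacter P, (ψ : P → ℂ) 1 = 1 := by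
      intro ψ
      obtain ⟨χ, hχ⟩ := exists_irr_over_le P ψ
      have h1 : charDegree (ψ : P → ℂ) < p := lt_of_le_of_lt hχ (hb χ)
      have h2 : charDegree (ψ : P → ℂ) ∣ Nat.card P := charDegree_dvd_card ψ
      obtain ⟨n, hn⟩ := IsPGroup.exists_card_eq P0.2
      rw [hn] at h2
      obtain ⟨k, hk, hk2⟩ := (Nat.dvd_prime_pow hp).1 h2
      have hk0 : k = 0 := by
        by_contra hk0
        have : p ≤ p ^ k := Nat.le_self_pow hk0 p
        omega
      rw [← charDegree_cast_irr, hk2, hk0]
      simp
    intro x hx y hy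
    have := comm_of_all_linear hlin ⟨x, hx⟩ ⟨y, hy⟩
    exact congrArg Subtype.val this
  refine ⟨P, ?_, hab, P0.2, P0.not_dvd_index⟩
  set N : Subgroup G := Subgroup.normalizer (P : Set G) with hN
  have hPN : P ≤ N := Subgroup.le_normalizer
  set π : G → ℂ := indFun N (fun _ => 1) with hπ
  have hπc : IsCharacter G π := isCharacter_indFun N (isCharacter_of_irr isIrrCharacter_one)
  obtain ⟨m, hm, hm2⟩ := exists_mult hπc
  have hc : ∀ χ : IrrCharacter G, ∃ c : ℕ,
      classInner (fun g : P => (χ : G → ℂ) g) (fun _ => 1) = c := fun χ =>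
    classInner_char_nat (isCharacter_restrict (isCharacter_of_irr χ.2) _)
      (isCharacter_of_irr isIrrCharacter_one)
  choose c hc using hc
  -- F1
  have hF1 : N.index = ∑ χ : IrrCharacter G, m χ * charDegree (χ : G → ℂ) := by
    have h1 : π 1 = (N.index : ℂ) := by rw [hπ, indFun_apply_one]; simp
    have h2 : π 1 = ∑ χ : IrrCharacter G, (m χ : ℂ) * (charDegree (χ : G → ℂ) : ℂ) := by
      rw [hm]
      simp only [Finset.sum_apply, Pi.smul_apply, smul_eq_mul, charDegree_cast_irr]
    rw [h1] at h2
    exact_mod_cast h2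
  -- F2
  have hF2 : m (trivIrr G) = 1 := by
    have h1 := hm2 (trivIrr G)
    rw [hπ, frobenius_reciprocity N _ (isClassFunction_of_char (isCharacter_of_irr (trivIrr G).2))] at h1
    have h2 : classInner (fun _ : N => (1 : ℂ)) (fun h : N => (trivIrr G : G → ℂ) h) = 1 :=
      classInner_irr_self isIrrCharacter_one
    rw [h2] at h1
    exact_mod_cast h1.symm
  have hc1 : c (trivIrr G) = 1 := by
    have h1 := hc (trivIrr G)
    have h2 : classInner (fun g : P => (trivIrr G : G → ℂ) g) (fun _ => (1 : ℂ)) = 1 :=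
      classInner_irr_self isIrrCharacter_one
    rw [h2] at h1
    exact_mod_cast h1.symm
  -- F3
  have hF3 : ∀ χ : IrrCharacter G, m χ ≠ 0 → 1 ≤ c χ := by
    intro χ hχ
    have h1 := hm2 χ
    rw [hπ, frobenius_reciprocity N _ (isClassFunction_of_char (isCharacter_of_irr χ.2))] at h1
    have h2 : classInner (fun h : N => (χ : G → ℂ) h) (fun _ : N => (1 : ℂ)) ≠ 0 := by
      rw [← classInner_conj_symm, h1]
      simpa using hχ
    have h3 := isCharacter_sub_irr (isCharacter_restrict (isCharacter_of_irr χ.2) N) isIrrCharacter_one h2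
    have h4 := isCharacter_comp h3 (Subgroup.inclusion hPN)
    obtain ⟨k, hk⟩ := classInner_char_nat h4 (isCharacter_of_irr (isIrrCharacter_one (G := P)))
    have h5 : (fun x : P => ((fun h : N => (χ : G → ℂ) h) - fun _ : N => (1 : ℂ)) (Subgroup.inclusion hPN x)) =
        (fun g : P => (χ : G → ℂ) g) - (fun _ => (1 : ℂ)) := by
      funext x
      simp
    rw [h5, classInner_sub_left, hc χ, classInner_irr_self isIrrCharacter_one] at hk
    have h6 : (c χ : ℂ) = ((k + 1 : ℕ) : ℂ) := by
      push_cast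
      rw [← hk]; ring
    have h7 : c χ = k + 1 := by exact_mod_cast h6
    omega
  -- F4a
  have hF4a : classInner (fun g : P => π g) (fun _ => (1 : ℂ)) =
      ((∑ χ : IrrCharacter G, m χ * c χ : ℕ) : ℂ) := by
    have h1 : (fun g : P => π g) = ∑ χ : IrrCharacter G, (m χ : ℂ) • (fun g : P => (χ : G → ℂ) g) := by
      funext g
      rw [hm]
      simp [Finset.sum_apply]
    rw [h1, classInner_sum_left]
    push_cast
    apply Finset.sum_congr rfl
    intro χ _
    rw [classInner_smul_left, hc]
  let a : G → ℕ := fun x => (Finset.univ.filter (fun g : P => x⁻¹ * (g : G) * x ∈ N)).card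
  have hF4b : (Nat.card N : ℂ) * (Nat.card P : ℂ) * classInner (fun g : P => π g) (fun _ => (1 : ℂ)) =
      ((∑ x : G, a x : ℕ) : ℂ) := by
    rw [classInner]
    simp only [map_one, mul_one]
    rw [mul_assoc, mul_inv_cancel_left₀ (card_subgroup_ne_zero P)]
    simp only [hπ, indFun_apply]
    rw [← Finset.mul_sum, mul_inv_cancel_left₀ (card_subgroup_ne_zero N), Finset.sum_comm]
    push_cast
    apply Finset.sum_congr rfl
    intro x _
    simp only [a]
    rw [Finset.card_filter]
    push_cast
    apply Finset.sum_congr rfl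
    intro g _
    split_ifs with h
    · rw [extendByZero_of_mem N _ h]
    · rw [extendByZero_of_not_mem N _ h]
  have ha1 : ∀ x, a x ≤ Nat.card P := by
    intro x
    calc a x ≤ (Finset.univ : Finset P).card := Finset.card_filter_le _ _
      _ = Nat.card P := by rw [Finset.card_univ, Nat.card_eq_fintype_card]
  have ha2 : ∀ x, x ∉ N → p * a x ≤ Nat.card P := by
    intro x hx
    let K : Subgroup P := N.comap ((MulAut.conj x⁻¹).toMonoidHom.comp P.subtype)
    have hK : a x = Nat.card K := by
      rw [Nat.card_eq_fintype_card, Fintype.card_subtype]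
      simp only [a]
      congr 1
      ext g
      simp [K, Subgroup.mem_comap]
    have hidx := K.card_mul_index
    obtain ⟨n, hn⟩ := IsPGroup.index (P0.2) K
    have hn0 : n ≠ 0 := by
      rintro rfl
      rw [pow_zero] at hn
      have htop := Subgroup.index_eq_one.1 hn
      apply hx
      apply h23_mem_normalizer_of_conj p P0 x
      intro g hg
      have : (⟨g, hg⟩ : P) ∈ K := by rw [htop]; trivial
      have h' : x⁻¹ * g * x ∈ N := by simpa [K, Subgroup.mem_comap] using this
      exact h'
    rw [hK, ← hidx, hn]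
    calc p * Nat.card K = Nat.card K * p := mul_comm _ _
      _ ≤ Nat.card K * p ^ n := Nat.mul_le_mul_left _ (Nat.le_self_pow hn0 p)
  have hsumN : ∀ C : ℕ, ∑ x : G, (if x ∈ N then C else 0) = Nat.card N * C := by
    intro C
    rw [← Finset.sum_filter, Finset.sum_const, smul_eq_mul, Nat.card_eq_fintype_card,
      Fintype.card_subtype]
  have hbound : p * ∑ x : G, a x + Nat.card N * Nat.card P ≤
      Nat.card N * (p * Nat.card P) + Nat.card G * Nat.card P := by
    rw [← hsumN, ← hsumN, Finset.mul_sum, ← Finset.sum_add_distrib]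
    have : Nat.card G * Nat.card P = ∑ x : G, Nat.card P := by
      rw [Finset.sum_const, smul_eq_mul, Finset.card_univ, Nat.card_eq_fintype_card]
    rw [this, ← Finset.sum_add_distrib]
    apply Finset.sum_le_sum
    intro x _
    split_ifs with h
    · have := ha1 x
      nlinarith
    · have := ha2 x h
      omega
  set T : ℕ := ∑ χ : IrrCharacter G, m χ * c χ with hT
  have hA : ∑ x : G, a x = Nat.card N * Nat.card P * T := by
    rw [hF4a] at hF4b
    exact_mod_cast hF4b.symm
  have hkey : p * T + 1 ≤ p + N.index := by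
    rw [hA, ← N.card_mul_index] at hbound
    have hpos : 0 < Nat.card N * Nat.card P := Nat.mul_pos Nat.card_pos Nat.card_pos
    have : (Nat.card N * Nat.card P) * (p * T + 1) ≤ (Nat.card N * Nat.card P) * (p + N.index) := by
      nlinarith
    exact Nat.le_of_mul_le_mul_left this hpos
  have hT1 : T = 1 + ∑ χ ∈ Finset.univ.erase (trivIrr G), m χ * c χ := by
    rw [hT, ← Finset.add_sum_erase _ _ (Finset.mem_univ (trivIrr G)), hF2, hc1]
  have hn1 : N.index = 1 + ∑ χ ∈ Finset.univ.erase (trivIrr G), m χ * charDegree (χ : G → ℂ) := by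
    rw [hF1, ← Finset.add_sum_erase _ _ (Finset.mem_univ (trivIrr G)), hF2, charDegree_trivIrr]
  have hle : ∑ χ ∈ Finset.univ.erase (trivIrr G), m χ * charDegree (χ : G → ℂ) +
      ∑ χ ∈ Finset.univ.erase (trivIrr G), m χ * c χ ≤
      p * ∑ χ ∈ Finset.univ.erase (trivIrr G), m χ * c χ := by
    rw [← Finset.sum_add_distrib, Finset.mul_sum]
    apply Finset.sum_le_sum
    intro χ _
    by_cases h0 : m χ = 0
    · simp [h0]
    · have h1 := hF3 χ h0
      have h2 := hb χ
      have h3 : charDegree (χ : G → ℂ) + c χ ≤ p * c χ := by nlinarith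
      calc m χ * charDegree (χ : G → ℂ) + m χ * c χ = m χ * (charDegree (χ : G → ℂ) + c χ) := by ring
        _ ≤ m χ * (p * c χ) := Nat.mul_le_mul_left _ h3
        _ = p * (m χ * c χ) := by ring
  have hidx : N.index = 1 := by
    rw [hT1] at hkey
    rw [hn1] at hkey ⊢
    generalize ∑ χ ∈ Finset.univ.erase (trivIrr G), m χ * charDegree (χ : G → ℂ) = A at hkey hle ⊢
    generalize ∑ χ ∈ Finset.univ.erase (trivIrr G), m χ * c χ = B at hkey hle
    have e : p * (1 + B) = p + p * B := by ring
    rw [e] at hkey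
    have hB : B = 0 := by omega
    subst hB
    simp at hle
    omega
  have htop := Subgroup.index_eq_one.1 hidx
  exact Subgroup.normalizer_eq_top_iff.1 htop

end Cfsg.Agent.S4464
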