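import Cfsg.Statements.S4470
import Cfsg.Agent.Lib.Helper23.Jordan4
import Cfsg.Agent.H25.Codeg

set_option autoImplicit false
open Cfsg

namespace Cfsg.Agent.S4470



/-- Let the finite group G have a faithful character of degree n. Then G has an abelian normal subgroup A such that every abelian subgroup H of G satisfies [H : H ⊓ A] ≤ 12^n. -/
theorem result {G : Type*} [Group G] [Finite G] (χ : G → ℂ) (hχ : Cfsg.IsCharacter G χ) (hfaith : ∀ g : G, χ g = χ 1 → g = 1) (n : ℕ) (hn : Cfsg.charDegree χ = n) : ∃ A : Subgroup G, A.Normal ∧ (∀ x ∈ A, ∀ y ∈ A, x * y = y * x) ∧ ∀ H : Subgroup G, (∀ x ∈ H, ∀ y ∈ H, x * y = y * x) → (A.subgroupOf H).index ≤ 12 ^ n := by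
  classical
  cases nonempty_fintype G
  obtain ⟨m, ρ, rfl⟩ := hχ
  have h1 : ρ.character 1 = ((m : ℕ) : ℂ) := by
    rw [Representation.char_one, Module.finrank_fin_fun]
  have hm : m = n := by
    rw [← hn]
    exact (Cfsg.Agent.H25.charDegree_of_apply_one h1).symm
  subst hm
  apply Cfsg.Agent.Lib.Helper23.Jordan.jordan_rep ρ
  intro g h hgh
  have h2 : ρ (g * h⁻¹) = LinearMap.id := by
    rw [map_mul, hgh, ← map_mul, mul_inv_cancel, map_one]
    rfl
  have h3 := (Cfsg.Agent.CharLib.character_eq_finrank_iff ρ (g * h⁻¹)).2 h2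
  rw [Module.finrank_fin_fun, ← h1] at h3
  have h4 := hfaith _ h3
  exact mul_inv_eq_one.1 h4

end Cfsg.Agent.S4470
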