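import Cfsg.Statements.S4474
import Cfsg.Agent.Lib.Helper23.RealForm2
import Cfsg.Agent.CharLib.EquivChar
import Cfsg.Agent.CharLib.Rep

set_option autoImplicit false
open Cfsg

namespace Cfsg.Agent.S4474

open Cfsg.Agent.Lib.Helper23.FS Cfsg.Agent.Lib.Helper23.RealForm Cfsg.Agent.CharLib

/-- Let χ be an irreducible character of the finite group G. Then the Frobenius–Schur indicator of χ (the average over s ∈ G of χ(s²)) equals 1 if and only if χ is afforded by a real representation: there is a representation of G on a real coordinate space whose trace function, viewed in ℂ, is χ. -/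
theorem result {G : Type*} [Group G] [Fintype G] (χ : Cfsg.IrrCharacter G) : ((Nat.card G : ℂ)⁻¹ * ∑ s : G, (χ : G → ℂ) (s * s)) = 1 ↔ ∃ (n : ℕ) (ρ : Representation ℝ G (Fin n → ℝ)), ∀ g : G, ((LinearMap.trace ℝ (Fin n → ℝ) (ρ g) : ℝ) : ℂ) = (χ : G → ℂ) g := by
  classical
  constructor
  · intro h
    obtain ⟨n, ρ, hρ, hχ⟩ := χ.2
    have hind : ind ρ.character = 1 := by
      rw [ind, hχ]; exact h
    have hreal : ∀ s : G, (ρ.character s).im = 0 := by
      by_contra hcon
      push Not at hcon
      have := (ind_cases (ρ := ρ)).2.2 hcon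
      rw [hind] at this
      exact one_ne_zero this
    obtain ⟨M, hM0, hM⟩ := exists_isInv_of_real (ρ := ρ) hreal
    have hsym : M.transpose = M := by
      rw [hM.transpose_eq, hind, one_smul]
    obtain ⟨A, hA1, hA2⟩ := exists_antilinear hM hM0 hsym
    obtain ⟨Y, hY1, hYm, hYt⟩ := exists_real (mat ρ) (mat_one ρ) (mat_mul ρ) A hA1 hA2
    let σ : Representation ℝ G (Fin n → ℝ) :=
      { toFun := fun g => Matrix.toLin' (Y g)
        map_one' := by rw [hY1, Matrix.toLin'_one]; rfl
        map_mul' := fun g h => by rw [hYm, Matrix.toLin'_mul]; rfl }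
    refine ⟨n, σ, fun g => ?_⟩
    have h1 : LinearMap.trace ℝ (Fin n → ℝ) (σ g) = (Y g).trace := Matrix.trace_toLin'_eq (Y g)
    rw [h1, hYt, trace_mat, hχ]
  · rintro ⟨n, σ, hσ⟩
    let Y : G → Matrix (Fin n) (Fin n) ℝ := fun g => LinearMap.toMatrix' (σ g)
    have hY1 : Y 1 = 1 := by
      simp only [Y]
      rw [map_one, Module.End.one_eq_id, LinearMap.toMatrix'_id]
    have hYm : ∀ g h, Y (g * h) = Y g * Y h := by
      intro g h
      simp only [Y]
      rw [map_mul, Module.End.mul_eq_comp, LinearMap.toMatrix'_comp]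
    have hYt : ∀ g, (Y g).trace = LinearMap.trace ℝ (Fin n → ℝ) (σ g) := by
      intro g
      rw [← Matrix.trace_toLin'_eq (Y g)]
      simp only [Y]
      rw [Matrix.toLin'_toMatrix']
    let YC : G → Matrix (Fin n) (Fin n) ℂ := fun g => (Y g).map Complex.ofRealHom
    let ρ : Representation ℂ G (Fin n → ℂ) :=
      { toFun := fun g => Matrix.toLin' (YC g)
        map_one' := by
          simp only [YC]
          rw [hY1, Matrix.map_one _ (map_zero _) (map_one _), Matrix.toLin'_one]; rfl
        map_mul' := fun g h => by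
          simp only [YC]
          rw [hYm, Matrix.map_mul, Matrix.toLin'_mul]; rfl }
    have hmat : ∀ g, mat ρ g = YC g := by
      intro g
      change LinearMap.toMatrix' (Matrix.toLin' (YC g)) = YC g
      rw [LinearMap.toMatrix'_toLin']
    have hchar : ρ.character = (χ : G → ℂ) := by
      funext g
      rw [← trace_mat, hmat, ← hσ g, ← hYt]
      simp [YC, Matrix.trace]
    obtain ⟨m, ρ0, hρ0, hχ0⟩ := χ.2
    obtain ⟨e⟩ := Cfsg.Agent.CharLib.H2.nonempty_equiv_of_char_eq ρ0 ρ (by rw [hχ0, hchar])
    have hρ : ρ.IsIrreducible := isIrreducible_of_equiv e hρ0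
    let S : Matrix (Fin n) (Fin n) ℂ := ∑ g : G, (mat ρ g).transpose * 1 * mat ρ g
    have hS : IsInv ρ S := isInv_avg 1
    have hSsym : S.transpose = S := by
      simp only [S]
      rw [Matrix.transpose_sum]
      apply Finset.sum_congr rfl
      intro g _
      simp [Matrix.transpose_mul]
    have hn : Nonempty (Fin n) := by
      by_contra hemp
      rw [not_nonempty_iff] at hemp
      have h1 : (χ : G → ℂ) 1 = 0 := by
        rw [← hchar, ← trace_mat]
        simp [Matrix.trace]
      exact irr_apply_one_ne_zero χ h1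
    obtain ⟨i⟩ := hn
    have hS0 : S ≠ 0 := by
      intro h0
      have h1 : S i i = 0 := by rw [h0]; rfl
      have h2 : S i i = ((∑ g : G, ∑ k : Fin n, (Y g k i) ^ 2 : ℝ) : ℂ) := by
        simp only [S, Matrix.sum_apply, Matrix.mul_one, Matrix.mul_apply, Matrix.transpose_apply, hmat, YC,
          Matrix.map_apply, Complex.ofRealHom_eq_coe]
        push_cast
        apply Finset.sum_congr rfl
        intro g _
        apply Finset.sum_congr rfl
        intro k _
        ring
      rw [h2] at h1
      have h3 : (∑ g : G, ∑ k : Fin n, (Y g k i) ^ 2 : ℝ) = 0 := by exact_mod_cast h1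
      have h4 := (Finset.sum_eq_zero_iff_of_nonneg (fun g _ =>
        Finset.sum_nonneg (fun k _ => sq_nonneg (Y g k i)))).1 h3 1 (Finset.mem_univ _)
      have h5 := (Finset.sum_eq_zero_iff_of_nonneg (fun k _ => sq_nonneg (Y 1 k i))).1 h4 i
        (Finset.mem_univ _)
      rw [hY1] at h5
      simp at h5
    have h1 := hS.transpose_eq
    rw [hSsym] at h1
    have h2 : (1 - ind ρ.character) • S = 0 := by
      rw [sub_smul, one_smul, ← h1, sub_self]
    have h3 : ind ρ.character = 1 := by
      rcases smul_eq_zero.1 h2 with h | h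
      · exact (sub_eq_zero.1 h).symm
      · exact absurd h hS0
    rw [ind, hchar] at h3
    exact h3

end Cfsg.Agent.S4474
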