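import Cfsg.Statements.S4476
import Cfsg.Agent.Lib.Helper23.FS
import Cfsg.Agent.Lib.Helper23.CharDeg
import Cfsg.Agent.S0159

set_option autoImplicit false
open Cfsg

namespace Cfsg.Agent.S4476

open Cfsg.Agent.Lib.Helper23 Cfsg.Agent.CharLib in
theorem key {G : Type*} [Group G] [Fintype G] (t : ℕ) (ht : Nat.card {x : G // orderOf x = 2} = t) :
    ∃ R : Finset (Cfsg.IrrCharacter G),
      (∀ χ ∈ R, (χ : G → ℂ) ≠ (fun _ => 1) ∧ ∀ g : G, ((χ : G → ℂ) g).im = 0) ∧
      (t : ℝ) ≤ ∑ χ ∈ R, (Cfsg.charDegree (χ : G → ℂ) : ℝ) ∧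
      ∑ χ ∈ R, (Cfsg.charDegree (χ : G → ℂ) : ℝ) ^ 2 ≤ (Nat.card G : ℝ) - 1 ∧
      (R.card : ℝ) ≤ (Nat.card (ConjClasses G) : ℝ) - 1 := by
  classical
  set χ0 := trivIrr G with hχ0
  refine ⟨(Finset.univ.erase χ0).filter (fun χ : Cfsg.IrrCharacter G => ∀ g : G, ((χ : G → ℂ) g).im = 0), ?_, ?_, ?_, ?_⟩
  · intro χ hχ
    rw [Finset.mem_filter, Finset.mem_erase] at hχ
    refine ⟨fun h => hχ.1.1 (Subtype.ext h), hχ.2⟩
  · have h1 := Cfsg.Agent.S0159.result (G := G)
    rw [finsum_eq_sum_of_fintype] at h1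
    have h2 : Nat.card {s : G // s * s = 1} = 1 + t := by
      rw [← ht]
      have e : {s : G // s * s = 1} ≃ Option {x : G // orderOf x = 2} :=
        { toFun := fun s => if h : (s : G) = 1 then none else some ⟨s, by
            rw [orderOf_eq_prime_iff]
            exact ⟨by rw [pow_two]; exact s.2, h⟩⟩
          invFun := fun o => match o with
            | none => ⟨1, by simp⟩
            | some x => ⟨x, by
                have := pow_orderOf_eq_one (x : G)
                rw [x.2, pow_two] at this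
                exact this⟩
          left_inv := by
            intro s
            by_cases h : (s : G) = 1
            · simp only [h, dite_true]
              exact Subtype.ext h.symm
            · simp only [h, dite_false]
          right_inv := by
            intro o
            cases o with
            | none => simp
            | some x =>
              have hx : (x : G) ≠ 1 := by
                intro h
                have := x.2
                rw [h, orderOf_one] at this
                omega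
              simp [hx] }
      rw [Nat.card_congr e, Finite.card_option, add_comm]
    rw [h2] at h1
    have h3 := congrArg Complex.re h1
    rw [Complex.re_sum] at h3
    rw [← Finset.add_sum_erase _ _ (Finset.mem_univ χ0)] at h3
    have h4 : (((Nat.card G : ℂ)⁻¹ * ∑ s : G, (χ0 : G → ℂ) (s * s)) * (χ0 : G → ℂ) 1).re = 1 := by
      have : (Nat.card G : ℂ) ≠ 0 := card_ne_zero_complex
      simp [hχ0, trivIrr, this, Nat.card_eq_fintype_card]
    rw [h4] at h3
    have h5 : ∑ χ ∈ Finset.univ.erase χ0,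
        (((Nat.card G : ℂ)⁻¹ * ∑ s : G, (χ : G → ℂ) (s * s)) * (χ : G → ℂ) 1).re ≤
        ∑ χ ∈ Finset.univ.erase χ0, (if ∀ g : G, ((χ : G → ℂ) g).im = 0 then
          (Cfsg.charDegree (χ : G → ℂ) : ℝ) else 0) := by
      apply Finset.sum_le_sum
      intro χ _
      have h6 := FS.ind_irr χ.2
      unfold FS.ind at h6
      rw [← charDegree_cast_irr]
      split_ifs with hr
      · rcases h6.1 with h | h | h <;> rw [h] <;> simp
      · have : (Nat.card G : ℂ)⁻¹ * ∑ s : G, (χ : G → ℂ) (s * s) = 0 := by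
          rw [h6.2]
          push Not at hr
          exact hr
        rw [this]; simp
    rw [← Finset.sum_filter] at h5
    have h7 : ((1 + t : ℕ) : ℂ).re = 1 + (t : ℝ) := by simp
    rw [h7] at h3
    linarith
  · have h1 := sum_charDegree_sq (G := G)
    have h2 : ∑ χ : Cfsg.IrrCharacter G, (Cfsg.charDegree (χ : G → ℂ) : ℝ) ^ 2 = (Nat.card G : ℝ) := by
      exact_mod_cast h1
    rw [← Finset.add_sum_erase _ _ (Finset.mem_univ χ0), hχ0, charDegree_trivIrr] at h2
    have h3 : ∑ χ ∈ (Finset.univ.erase χ0).filter (fun χ : Cfsg.IrrCharacter G => ∀ g : G, ((χ : G → ℂ) g).im = 0),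
        (Cfsg.charDegree (χ : G → ℂ) : ℝ) ^ 2 ≤
        ∑ χ ∈ Finset.univ.erase χ0, (Cfsg.charDegree (χ : G → ℂ) : ℝ) ^ 2 :=
      Finset.sum_le_sum_of_subset_of_nonneg (Finset.filter_subset _ _) (fun _ _ _ => by positivity)
    rw [hχ0] at h3
    push_cast at h2
    linarith
  · have h1 : ((Finset.univ.erase χ0).filter (fun χ : Cfsg.IrrCharacter G => ∀ g : G, ((χ : G → ℂ) g).im = 0)).card ≤
        (Finset.univ.erase χ0).card := Finset.card_le_card (Finset.filter_subset _ _)
    rw [Finset.card_erase_of_mem (Finset.mem_univ _), Finset.card_univ, ← Nat.card_eq_fintype_card,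
      card_irrCharacter] at h1
    have h2 : 0 < Nat.card (ConjClasses G) := Nat.card_pos
    have h3 : (((Finset.univ.erase χ0).filter (fun χ : Cfsg.IrrCharacter G => ∀ g : G, ((χ : G → ℂ) g).im = 0)).card : ℝ) ≤
        ((Nat.card (ConjClasses G) - 1 : ℕ) : ℝ) := by exact_mod_cast h1
    rw [Nat.cast_sub h2] at h3
    simpa using h3

/-- Let G be a finite group of even order g with exactly t involutions, and put α = (g − 1)/t (a rational number). Then (a) some non-identity element x of G has at most α² conjugates; and (b) some non-principal real-valued irreducible character of G has degree at most α. -/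
theorem result {G : Type*} [Group G] [Fintype G] (heven : Even (Nat.card G)) (t : ℕ) (ht : Nat.card {x : G // orderOf x = 2} = t) : (∃ x : G, x ≠ 1 ∧ ((Subgroup.centralizer ({x} : Set G)).index : ℚ) ≤ (((Nat.card G : ℚ) - 1) / t) ^ 2) ∧ ∃ χ : Cfsg.IrrCharacter G, (χ : G → ℂ) ≠ (fun _ => 1) ∧ (∀ g : G, ((χ : G → ℂ) g).im = 0) ∧ (Cfsg.charDegree (χ : G → ℂ) : ℚ) ≤ ((Nat.card G : ℚ) - 1) / t := by
  classical
  obtain ⟨R, hR1, hR2, hR3, hR4⟩ := key t ht
  have ht0 : 0 < t := by
    rw [← ht]
    obtain ⟨x, hx⟩ := exists_prime_orderOf_dvd_card' (G := G) 2 heven.two_dvd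
    have : Nonempty {x : G // orderOf x = 2} := ⟨⟨x, hx⟩⟩
    exact Nat.card_pos
  have htr : (0 : ℝ) < t := by exact_mod_cast ht0
  have hg2 : 2 ≤ Nat.card G := Nat.le_of_dvd Nat.card_pos heven.two_dvd
  have hg : (0 : ℝ) < (Nat.card G : ℝ) - 1 := by
    have : (2 : ℝ) ≤ (Nat.card G : ℝ) := by exact_mod_cast hg2
    linarith
  have hRne : R.Nonempty := by
    by_contra h
    rw [Finset.not_nonempty_iff_eq_empty] at h
    rw [h] at hR2
    simp at hR2
    linarith
  constructor
  · by_contra hcon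
    push Not at hcon
    have hcon' : ∀ x : G, x ≠ 1 → ((Nat.card G : ℝ) - 1) ^ 2 <
        ((Subgroup.centralizer ({x} : Set G)).index : ℝ) * (t : ℝ) ^ 2 := by
      intro x hx
      have h1 := hcon x hx
      have h2 : (((((Nat.card G : ℚ) - 1) / t) ^ 2 : ℚ) : ℝ) <
          (((Subgroup.centralizer ({x} : Set G)).index : ℚ) : ℝ) := by exact_mod_cast h1
      push_cast at h2
      rw [div_pow, div_lt_iff₀ (by positivity)] at h2
      exact h2
    have hcs : (t : ℝ) ^ 2 ≤ ((Nat.card (ConjClasses G) : ℝ) - 1) * ((Nat.card G : ℝ) - 1) := by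
      calc (t : ℝ) ^ 2 ≤ (∑ χ ∈ R, (Cfsg.charDegree (χ : G → ℂ) : ℝ)) ^ 2 := by
            apply pow_le_pow_left₀ htr.le hR2
        _ ≤ (R.card : ℝ) * ∑ χ ∈ R, (Cfsg.charDegree (χ : G → ℂ) : ℝ) ^ 2 := sq_sum_le_card_mul_sum_sq
        _ ≤ ((Nat.card (ConjClasses G) : ℝ) - 1) * ((Nat.card G : ℝ) - 1) := by
            apply mul_le_mul hR4 hR3 (Finset.sum_nonneg (fun _ _ => by positivity))
            exact le_trans (by positivity) hR4
    have hsum := Cfsg.Agent.CharLib.sum_card_centralizer (G := G)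
    have hsum' : ∑ x : G, (Nat.card (Subgroup.centralizer ({x} : Set G)) : ℝ) =
        (Nat.card (ConjClasses G) : ℝ) * (Nat.card G : ℝ) := by exact_mod_cast hsum
    rw [← Finset.add_sum_erase _ _ (Finset.mem_univ (1 : G))] at hsum'
    have hc1 : Nat.card (Subgroup.centralizer ({1} : Set G)) = Nat.card G := by
      have : Subgroup.centralizer ({1} : Set G) = ⊤ := by
        rw [eq_top_iff]
        intro x _
        rw [Subgroup.mem_centralizer_singleton_iff]
        simp
      rw [this, Subgroup.card_top]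
    rw [hc1] at hsum'
    have hne : (Finset.univ.erase (1 : G)).Nonempty := by
      obtain ⟨x, hx⟩ := exists_prime_orderOf_dvd_card' (G := G) 2 heven.two_dvd
      refine ⟨x, Finset.mem_erase.2 ⟨?_, Finset.mem_univ _⟩⟩
      rintro rfl
      rw [orderOf_one] at hx
      omega
    have hlt : ∑ x ∈ Finset.univ.erase (1 : G),
        (Nat.card (Subgroup.centralizer ({x} : Set G)) : ℝ) * ((Nat.card G : ℝ) - 1) ^ 2 <
        ∑ x ∈ Finset.univ.erase (1 : G), (Nat.card G : ℝ) * (t : ℝ) ^ 2 := by
      apply Finset.sum_lt_sum_of_nonempty hne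
      intro x hx
      have hx1 : x ≠ 1 := (Finset.mem_erase.1 hx).1
      have h1 := hcon' x hx1
      have h2 : (Nat.card (Subgroup.centralizer ({x} : Set G)) : ℝ) *
          ((Subgroup.centralizer ({x} : Set G)).index : ℝ) = (Nat.card G : ℝ) := by
        exact_mod_cast (Subgroup.centralizer ({x} : Set G)).card_mul_index
      have h3 : (0 : ℝ) < (Nat.card (Subgroup.centralizer ({x} : Set G)) : ℝ) := by
        exact_mod_cast Nat.card_pos
      calc (Nat.card (Subgroup.centralizer ({x} : Set G)) : ℝ) * ((Nat.card G : ℝ) - 1) ^ 2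
          < (Nat.card (Subgroup.centralizer ({x} : Set G)) : ℝ) *
            (((Subgroup.centralizer ({x} : Set G)).index : ℝ) * (t : ℝ) ^ 2) :=
            mul_lt_mul_of_pos_left h1 h3
        _ = (Nat.card G : ℝ) * (t : ℝ) ^ 2 := by rw [← mul_assoc, h2]
    rw [← Finset.sum_mul, Finset.sum_const, Finset.card_erase_of_mem (Finset.mem_univ _),
      Finset.card_univ, ← Nat.card_eq_fintype_card, nsmul_eq_mul,
      Nat.cast_sub (by omega : 1 ≤ Nat.card G)] at hlt
    have h5 : ∑ x ∈ Finset.univ.erase (1 : G), (Nat.card (Subgroup.centralizer ({x} : Set G)) : ℝ) =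
        ((Nat.card (ConjClasses G) : ℝ) - 1) * (Nat.card G : ℝ) := by linarith
    rw [h5] at hlt
    push_cast at hlt
    have hgpos : (0 : ℝ) < (Nat.card G : ℝ) := by linarith
    have h6 : ((Nat.card (ConjClasses G) : ℝ) - 1) * ((Nat.card G : ℝ) - 1) < (t : ℝ) ^ 2 := by
      have h7 : (((Nat.card (ConjClasses G) : ℝ) - 1) * ((Nat.card G : ℝ) - 1)) *
          ((Nat.card G : ℝ) * ((Nat.card G : ℝ) - 1)) <
          (t : ℝ) ^ 2 * ((Nat.card G : ℝ) * ((Nat.card G : ℝ) - 1)) := by nlinarith
      exact lt_of_mul_lt_mul_right h7 (by positivity)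
    linarith
  · by_contra hcon
    push Not at hcon
    have hcon' : ∀ χ ∈ R, ((Nat.card G : ℝ) - 1) / t < (Cfsg.charDegree (χ : G → ℂ) : ℝ) := by
      intro χ hχ
      have h1 := hcon χ (hR1 χ hχ).1 (hR1 χ hχ).2
      have h2 : ((((Nat.card G : ℚ) - 1) / t : ℚ) : ℝ) < ((Cfsg.charDegree (χ : G → ℂ) : ℚ) : ℝ) := by
        exact_mod_cast h1
      push_cast at h2
      exact h2
    have hα : 0 < ((Nat.card G : ℝ) - 1) / t := by positivity
    have h1 : ∑ χ ∈ R, ((Nat.card G : ℝ) - 1) / t * (Cfsg.charDegree (χ : G → ℂ) : ℝ) <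
        ∑ χ ∈ R, (Cfsg.charDegree (χ : G → ℂ) : ℝ) ^ 2 := by
      apply Finset.sum_lt_sum_of_nonempty hRne
      intro χ hχ
      have h2 := hcon' χ hχ
      have h3 : (0 : ℝ) < (Cfsg.charDegree (χ : G → ℂ) : ℝ) := lt_trans hα h2
      rw [pow_two]
      exact mul_lt_mul_of_pos_right h2 h3
    rw [← Finset.mul_sum] at h1
    have h2 : ((Nat.card G : ℝ) - 1) / t * (t : ℝ) ≤
        ((Nat.card G : ℝ) - 1) / t * ∑ χ ∈ R, (Cfsg.charDegree (χ : G → ℂ) : ℝ) :=
      mul_le_mul_of_nonneg_left hR2 hα.le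
    rw [div_mul_cancel₀ _ htr.ne'] at h2
    linarith

end Cfsg.Agent.S4476
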