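import Cfsg.Statements.S4477
import Cfsg.Agent.Lib.Helper10.LinTwist2
-- import your own Cfsg.Agent.* helpers here

set_option autoImplicit false
open Cfsg Cfsg.Agent.Lib.Helper10

namespace Cfsg.Agent.S4477

/-- Let G be a finite 2-group whose number of involutions is congruent to 1 modulo 4. Then G is cyclic or its commutator subgroup has index 4. -/
theorem result {G : Type*} [Group G] [Finite G] (hG : IsPGroup 2 G) (ht : Nat.card {x : G // orderOf x = 2} % 4 = 1) : IsCyclic G ∨ (commutator G).index = 4 := by
  classical
  haveI : Fintype G := Fintype.ofFinite G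
  by_contra hcon
  push Not at hcon
  obtain ⟨hc, hidx⟩ := hcon
  obtain ⟨h4, hge⟩ := four_dvd_card_real_lin hG hc
  have hcount := involution_count_mod_four hG
  have hcard : (Finset.univ.filter (fun u : G => u * u = 1)).card =
      1 + Nat.card {x : G // orderOf x = 2} := by
    have h1 : Finset.univ.filter (fun u : G => u * u = 1) =
        insert 1 (Finset.univ.filter (fun u : G => orderOf u = 2)) := by
      ext u
      simp only [Finset.mem_filter, Finset.mem_univ, true_and, Finset.mem_insert]
      rw [orderOf_eq_prime_iff (hp := ⟨Nat.prime_two⟩), sq]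
      by_cases hu : u = 1
      · simp [hu]
      · simp [hu]
    rw [h1, Finset.card_insert_of_notMem (by simp), Nat.card_eq_fintype_card,
      Fintype.card_subtype, add_comm]
  rw [hcard, (ZMod.natCast_eq_zero_iff _ 4).2 h4, zero_add] at hcount
  by_cases hfix : ∀ χ : IrrCharacter G, charDegree (χ : G → ℂ) = 2 →
      (∀ g, ((χ : G → ℂ) g).im = 0) → ∃ l : G →* ℂˣ, ltw l χ ≠ χ
  · obtain ⟨r, hr⟩ := even_card_real_two hG hfix
    rw [hr] at hcount
    have h5 : (2 : ZMod 4) * ((r + r : ℕ) : ZMod 4) = 0 := by
      push_cast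
      have : (2 : ZMod 4) * ((r : ZMod 4) + r) = 4 * r := by ring
      rw [this]
      have h6 : (4 : ZMod 4) = 0 := by decide
      rw [h6, zero_mul]
    rw [h5, ZMod.natCast_eq_zero_iff] at hcount
    omega
  · push Not at hfix
    obtain ⟨χ, h1, -, h3⟩ := hfix
    have := index_commutator_le_of_fixed χ 2 h1 h3
    omega

end Cfsg.Agent.S4477
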