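import Cfsg.Statements.S4478
import Cfsg.Agent.Lib.Helper23.FS
import Cfsg.Agent.Lib.Helper23.CharDeg
import Cfsg.Agent.Lib.Helper23.DefectZero

set_option autoImplicit false
open Cfsg

namespace Cfsg.Agent.S4478

open Cfsg.Agent.Lib.Helper23 Cfsg.Agent.CharLib

theorem orderOf_conj_eq' {G : Type*} [Group G] (g x : G) : orderOf (g * x * g⁻¹) = orderOf x := by
  have : SemiconjBy g x (g * x * g⁻¹) := by simp [SemiconjBy]
  exact this.orderOf_eq.symm

/-- a character vanishing off the identity of a subgroup has degree divisible by its order -/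
theorem card_dvd_of_vanish {G : Type*} [Group G] [Finite G] (H : Subgroup G) (χ : G → ℂ)
    (hχ : Cfsg.IsCharacter G χ) (hvan : ∀ g : G, g ∈ H → g ≠ 1 → χ g = 0) :
    Nat.card H ∣ Cfsg.charDegree χ := by
  classical
  cases nonempty_fintype G
  obtain ⟨k, hk⟩ := classInner_char_nat (isCharacter_restrict hχ H)
    (isCharacter_of_irr (isIrrCharacter_one (G := H)))
  refine ⟨k, ?_⟩
  have h1 : χ 1 = (Nat.card H : ℂ) * k := by
    rw [← hk, Cfsg.classInner]
    rw [Finset.sum_eq_single (1 : H)]
    · have h0 : (Nat.card H : ℂ) ≠ 0 := by exact_mod_cast Nat.card_pos.ne'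
      simp only [map_one, mul_one, OneMemClass.coe_one]
      field_simp
    · intro b _ hb
      rw [hvan b b.2 (fun h => hb (Subtype.ext h))]
      simp
    · intro h
      exact absurd (Finset.mem_univ _) h
  rw [← charDegree_cast hχ] at h1
  exact_mod_cast h1

/-- sum of `χ (g * g)` when `χ` vanishes on elements of even order and on nontrivial elements
commuting with an involution. -/
theorem sum_sq_eq {G : Type*} [Group G] [Fintype G] (χ : G → ℂ)
    (hA : ∀ y : G, 2 ∣ orderOf y → χ y = 0)
    (hB : ∀ s y : G, orderOf s = 2 → Commute s y → y ≠ 1 → χ y = 0) :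
    ∑ g : G, χ (g * g) = (Nat.card {s : G // s * s = 1} : ℂ) * χ 1 + (∑ y : G, χ y - χ 1) := by
  classical
  rw [← Finset.sum_filter_add_sum_filter_not Finset.univ (fun g : G => g * g = 1)]
  congr 1
  · rw [Finset.sum_congr rfl (fun g hg => by rw [(Finset.mem_filter.1 hg).2] : ∀ g ∈ Finset.univ.filter (fun g : G => g * g = 1), χ (g * g) = χ 1)]
    rw [Finset.sum_const, nsmul_eq_mul, Nat.card_eq_fintype_card, Fintype.card_subtype]
  · set S2 := Finset.univ.filter (fun g : G => Odd (orderOf g) ∧ g ≠ 1) with hS2
    have hsq1 : ∀ g : G, Odd (orderOf g) → g * g = 1 → g = 1 := by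
      intro g hg h
      have h1 : orderOf g ∣ 2 := orderOf_dvd_of_pow_eq_one (by rw [pow_two]; exact h)
      have h2 : orderOf g = 1 := by
        rcases (Nat.dvd_prime Nat.prime_two).1 h1 with h3 | h3
        · exact h3
        · rw [h3] at hg; exact absurd hg (by decide)
      exact orderOf_eq_one_iff.1 h2
    have hord : ∀ g : G, Odd (orderOf g) → orderOf (g * g) = orderOf g := by
      intro g hg
      rw [← pow_two]
      exact Nat.Coprime.orderOf_pow (Nat.Coprime.symm (Nat.coprime_two_left.2 hg))
    have hroot : ∀ g : G, Odd (orderOf g) → (g * g) ^ ((orderOf g + 1) / 2) = g := by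
      intro g hg
      obtain ⟨k, hk⟩ := hg
      rw [← pow_two, ← pow_mul]
      have : 2 * ((orderOf g + 1) / 2) = orderOf g + 1 := by omega
      rw [this, pow_succ, pow_orderOf_eq_one, one_mul]
    have h1 : ∑ g ∈ Finset.univ.filter (fun g : G => ¬ g * g = 1), χ (g * g) = ∑ g ∈ S2, χ (g * g) := by
      symm
      apply Finset.sum_subset
      · intro g hg
        rw [hS2, Finset.mem_filter] at hg
        rw [Finset.mem_filter]
        exact ⟨Finset.mem_univ _, fun h => hg.2.2 (hsq1 g hg.2.1 h)⟩
      · intro g hg hg2
        rw [Finset.mem_filter] at hg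
        rw [hS2, Finset.mem_filter] at hg2
        have hg1 : g ≠ 1 := by
          rintro rfl
          exact hg.2 (by simp)
        have hev : ¬ Odd (orderOf g) := fun h => hg2 ⟨Finset.mem_univ _, h, hg1⟩
        rw [Nat.not_odd_iff_even] at hev
        obtain ⟨k, hk⟩ := hev
        have hk0 : k ≠ 0 := by
          rintro rfl
          have := orderOf_pos g
          omega
        apply hB (g ^ k) (g * g) _ _ hg.2
        · rw [orderOf_pow_of_dvd hk0 ⟨2, by omega⟩, hk]
          have : k + k = 2 * k := by ring
          rw [this, Nat.mul_div_cancel _ (Nat.pos_of_ne_zero hk0)]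
        · exact ((Commute.refl g).pow_left k).mul_right ((Commute.refl g).pow_left k)
    have h2 : ∑ g ∈ S2, χ (g * g) = ∑ y ∈ S2, χ y := by
      have hinj : Set.InjOn (fun g : G => g * g) S2 := by
        intro g hg h hh hgh
        rw [hS2, Finset.coe_filter, Set.mem_ofPred_eq] at hg hh
        simp only at hgh
        have e1 := hord g hg.2.1
        have e2 := hord h hh.2.1
        rw [hgh, e2] at e1
        rw [← hroot g hg.2.1, ← hroot h hh.2.1, hgh, e1]
      have himg : S2.image (fun g : G => g * g) = S2 := by
        apply Finset.eq_of_subset_of_card_le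
        · intro y hy
          rw [Finset.mem_image] at hy
          obtain ⟨g, hg, rfl⟩ := hy
          rw [hS2, Finset.mem_filter] at hg ⊢
          refine ⟨Finset.mem_univ _, ?_, fun h => hg.2.2 (hsq1 g hg.2.1 h)⟩
          rw [hord g hg.2.1]; exact hg.2.1
        · rw [Finset.card_image_of_injOn hinj]
      conv_rhs => rw [← himg]
      rw [Finset.sum_image hinj]
    have h3 : ∑ y : G, χ y = χ 1 + ∑ y ∈ S2, χ y := by
      rw [← Finset.add_sum_erase _ _ (Finset.mem_univ (1 : G))]
      congr 1
      symm
      apply Finset.sum_subset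
      · intro g hg
        rw [hS2, Finset.mem_filter] at hg
        exact Finset.mem_erase.2 ⟨hg.2.2, Finset.mem_univ _⟩
      · intro g hg hg2
        rw [hS2, Finset.mem_filter] at hg2
        have hg1 := (Finset.mem_erase.1 hg).1
        have hev : ¬ Odd (orderOf g) := fun h => hg2 ⟨Finset.mem_univ _, h, hg1⟩
        rw [Nat.not_odd_iff_even] at hev
        exact hA g hev.two_dvd
    rw [h1, h2, h3]
    ring

theorem card_sq_eq_one {G : Type*} [Group G] [Finite G] :
    Nat.card {s : G // s * s = 1} = 1 + Nat.card {x : G // orderOf x = 2} := by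
  classical
  have e : {s : G // s * s = 1} ≃ Option {x : G // orderOf x = 2} :=
    { toFun := fun s => if h : (s : G) = 1 then none else some ⟨s, by
        rw [orderOf_eq_prime_iff]
        exact ⟨by rw [pow_two]; exact s.2, h⟩⟩
      invFun := fun o => match o with
        | none => ⟨1, by simp⟩
        | some x => ⟨x, by
            have := pow_orderOf_eq_one (x : G)
            rw [x.2, pow_two] at this
            exact this⟩
      left_inv := by
        intro s
        by_cases h : (s : G) = 1
        · simp only [h, dite_true]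
          exact Subtype.ext h.symm
        · simp only [h, dite_false]
      right_inv := by
        intro o
        cases o with
        | none => simp
        | some x =>
          have hx : (x : G) ≠ 1 := by
            intro h
            have := x.2
            rw [h, orderOf_one] at this
            omega
          simp [hx] }
  rw [Nat.card_congr e, Finite.card_option, add_comm]

/-- Let G be a finite group of even order and χ an irreducible character of G whose degree x is divisible by the full power of 2 dividing the order of G and, for every odd prime p such that G has an element of order 2p, by the full power of p dividing the order of G. Then all involutions of G are conjugate, the centralizer of every involution has order exactly x with x coprime to its index, and the Frobenius–Schur indicator of χ equals 1. -/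
theorem result {G : Type*} [Group G] [Fintype G] (heven : Even (Nat.card G)) (χ : Cfsg.IrrCharacter G) (h2 : 2 ^ (Nat.card G).factorization 2 ∣ Cfsg.charDegree (χ : G → ℂ)) (hp : ∀ p : ℕ, p.Prime → p ≠ 2 → (∃ g : G, orderOf g = 2 * p) → p ^ (Nat.card G).factorization p ∣ Cfsg.charDegree (χ : G → ℂ)) : (∀ s t : G, orderOf s = 2 → orderOf t = 2 → IsConj s t) ∧ (∀ s : G, orderOf s = 2 → Nat.card (Subgroup.centralizer ({s} : Set G)) = Cfsg.charDegree (χ : G → ℂ) ∧ (Nat.card (Subgroup.centralizer ({s} : Set G))).Coprime (Subgroup.centralizer ({s} : Set G)).index) ∧ (Nat.card G : ℂ)⁻¹ * ∑ g : G, (χ : G → ℂ) (g * g) = 1 := by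
  classical
  set d := Cfsg.charDegree (χ : G → ℂ) with hd
  have hchar := isCharacter_of_irr χ.2
  have hcard0 : Nat.card G ≠ 0 := Nat.card_pos.ne'
  have hvan : ∀ (p : ℕ), p.Prime → p ^ (Nat.card G).factorization p ∣ d →
      ∀ y : G, p ∣ orderOf y → (χ : G → ℂ) y = 0 := by
    intro p hpp hdiv y hy
    exact irr_vanish_of_defect_zero χ.2 p _ hpp (Nat.ordProj_dvd _ _)
      (Nat.pow_succ_factorization_not_dvd hcard0 hpp) hdiv y hy
  have hA : ∀ y : G, 2 ∣ orderOf y → (χ : G → ℂ) y = 0 := hvan 2 Nat.prime_two h2
  have hspecial : ∀ s y : G, orderOf s = 2 → Commute s y → ∀ q : ℕ, q.Prime → q ∣ orderOf y →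
      q ^ (Nat.card G).factorization q ∣ d := by
    intro s y hs hc q hq hqy
    by_cases hq2 : q = 2
    · subst hq2; exact h2
    · apply hp q hq hq2
      refine ⟨s * y ^ (orderOf y / q), ?_⟩
      have h1 : orderOf (y ^ (orderOf y / q)) = q := orderOf_pow_orderOf_div (orderOf_pos y).ne' hqy
      rw [(hc.pow_right _).orderOf_mul_eq_mul_orderOf_of_coprime (by
        rw [hs, h1]
        exact (Nat.coprime_primes Nat.prime_two hq).2 (Ne.symm hq2)), hs, h1]
  have hB : ∀ s y : G, orderOf s = 2 → Commute s y → y ≠ 1 → (χ : G → ℂ) y = 0 := by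
    intro s y hs hc hy
    obtain ⟨q, hq, hqy⟩ := Nat.exists_prime_and_dvd (n := orderOf y)
      (fun h => hy (orderOf_eq_one_iff.1 h))
    exact hvan q hq (hspecial s y hs hc q hq hqy) y hqy
  have hd2 : 2 ∣ d := by
    refine dvd_trans ?_ h2
    apply dvd_pow_self
    intro h0
    have := (Nat.factorization_eq_zero_iff _ _).1 h0
    rcases this with h | h | h
    · exact h Nat.prime_two
    · exact h heven.two_dvd
    · exact hcard0 h
  have hne : (χ : G → ℂ) ≠ (fun _ => 1) := by
    intro h
    have : d = 1 := by
      rw [hd, h]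
      unfold Cfsg.charDegree
      simp
    omega
  have hsum0 : ∑ y : G, (χ : G → ℂ) y = 0 := by
    have h1 := classInner_irr_ne χ.2 isIrrCharacter_one hne
    rw [classInner_def] at h1
    simp only [map_one, mul_one] at h1
    rcases mul_eq_zero.1 h1 with h | h
    · exact absurd h (inv_ne_zero card_ne_zero_complex)
    · exact h
  set t := Nat.card {x : G // orderOf x = 2} with ht
  have hsum : ∑ g : G, (χ : G → ℂ) (g * g) = ((t * d : ℕ) : ℂ) := by
    rw [sum_sq_eq _ hA hB, hsum0, card_sq_eq_one, ← charDegree_cast hchar, ← ht, ← hd]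
    push_cast
    ring
  have ht0 : 0 < t := by
    obtain ⟨x, hx⟩ := exists_prime_orderOf_dvd_card' (G := G) 2 heven.two_dvd
    have : Nonempty {x : G // orderOf x = 2} := ⟨⟨x, hx⟩⟩
    exact Nat.card_pos
  have hd0 : 0 < d := charDegree_pos_irr χ
  have hcardC : (Nat.card G : ℂ) ≠ 0 := card_ne_zero_complex
  have hν := (FS.ind_irr χ.2).1
  unfold FS.ind at hν
  rw [hsum] at hν ⊢
  have htd : t * d = Nat.card G := by
    rcases hν with h | h | h
    · exfalso
      rcases mul_eq_zero.1 h with h | h
      · exact inv_ne_zero hcardC h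
      · have : t * d = 0 := by exact_mod_cast h
        have := Nat.mul_pos ht0 hd0
        omega
    · rw [inv_mul_eq_iff_eq_mul₀ hcardC, mul_one] at h
      exact_mod_cast h
    · exfalso
      rw [inv_mul_eq_iff_eq_mul₀ hcardC] at h
      have h' : ((t * d + Nat.card G : ℕ) : ℂ) = 0 := by
        push_cast
        push_cast at h
        rw [h]; ring
      have : t * d + Nat.card G = 0 := by exact_mod_cast h'
      omega
  have hC : ∀ s : G, orderOf s = 2 →
      Nat.card (Subgroup.centralizer ({s} : Set G)) = d ∧
      (Subgroup.centralizer ({s} : Set G)).index = t := by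
    intro s hs
    have h1 : Nat.card (Subgroup.centralizer ({s} : Set G)) ∣ d := by
      apply card_dvd_of_vanish _ _ hchar
      intro g hg hg1
      apply hB s g hs _ hg1
      rw [Subgroup.mem_centralizer_singleton_iff] at hg
      exact hg.symm
    have h2' := (Subgroup.centralizer ({s} : Set G)).card_mul_index
    have h3 : (Subgroup.centralizer ({s} : Set G)).index ≤ t := by
      rw [← card_isConj_eq_index, ht]
      apply Nat.card_le_card_of_injective
        (fun x : {x : G // IsConj s x} => (⟨x.1, by
          obtain ⟨c, hc⟩ := isConj_iff.1 x.2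
          rw [← hc, ← hs]
          exact orderOf_conj_eq' c s⟩ : {x : G // orderOf x = 2}))
      intro a b hab
      exact Subtype.ext (congrArg (fun z : {x : G // orderOf x = 2} => z.1) hab)
    obtain ⟨k, hk⟩ := h1
    have hc0 : 0 < Nat.card (Subgroup.centralizer ({s} : Set G)) := Nat.card_pos
    rw [← htd, hk] at h2'
    have h4 : (Subgroup.centralizer ({s} : Set G)).index = t * k := by
      apply Nat.eq_of_mul_eq_mul_left hc0
      rw [h2']; ring
    have hk0 : 0 < k := by
      rcases Nat.eq_zero_or_pos k with h | h
      · rw [h, mul_zero] at hk; omega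
      · exact h
    have hk1 : k = 1 := by
      by_contra hne1
      have : 2 ≤ k := by omega
      have : t * 2 ≤ t * k := Nat.mul_le_mul_left t this
      omega
    rw [hk1, mul_one] at hk h4
    exact ⟨hk.symm, h4⟩
  refine ⟨?_, ?_, ?_⟩
  · intro s u hs hu
    by_contra hcon
    have h1 := (hC s hs).2
    rw [← card_isConj_eq_index, ht] at h1
    have h2' : Nat.card {x : G // IsConj s x} < Nat.card {x : G // orderOf x = 2} := by
      let f : {x : G // IsConj s x} → {x : G // orderOf x = 2} := fun x => ⟨x.1, by
          obtain ⟨c, hc⟩ := isConj_iff.1 x.2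
          rw [← hc, ← hs]
          exact orderOf_conj_eq' c s⟩
      have hf : Function.Injective f := by
        intro a b hab
        exact Subtype.ext (congrArg (fun z : {x : G // orderOf x = 2} => z.1) hab)
      rw [Nat.card_eq_fintype_card, Nat.card_eq_fintype_card]
      apply Fintype.card_lt_of_injective_of_notMem f hf (b := ⟨u, hu⟩)
      rintro ⟨x, hx⟩
      apply hcon
      have : x.1 = u := congrArg (fun z : {x : G // orderOf x = 2} => z.1) hx
      rw [← this]
      exact x.2
    omega
  · intro s hs
    refine ⟨(hC s hs).1, ?_⟩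
    apply Nat.Coprime.symm
    apply Nat.coprime_of_dvd
    intro q hq hq1 hq2
    have : Fact q.Prime := ⟨hq⟩
    obtain ⟨z, hz⟩ := exists_prime_orderOf_dvd_card' (G := Subgroup.centralizer ({s} : Set G)) q hq2
    have hzc : Commute s (z : G) := by
      have := z.2
      rw [Subgroup.mem_centralizer_singleton_iff] at this
      exact this.symm
    have h5 := hspecial s z hs hzc q hq (by rw [Subgroup.orderOf_coe, hz])
    rw [← (hC s hs).1] at h5
    apply Nat.pow_succ_factorization_not_dvd hcard0 hq
    rw [pow_succ]
    exact ((Nat.mul_dvd_mul h5 hq1).trans (Subgroup.centralizer ({s} : Set G)).card_mul_index.dvd)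
  · rw [htd]
    exact inv_mul_cancel₀ hcardC

end Cfsg.Agent.S4478
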