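import Mathlib
import Cfsg.Statements.S4479
import Cfsg.Agent.H6.KleinOrder
import Cfsg.Agent.Lib.Helper23.CharDeg

set_option autoImplicit false
open Cfsg Cfsg.Agent.BlockLib Cfsg.Agent.CharLib Cfsg.Agent.H6 Cfsg.Agent.H6.KleinFour
  Cfsg.Agent.H6.KleinCount Cfsg.Agent.H6.KleinOrder Cfsg.Agent.Lib.Helper23
open scoped ComplexConjugate

namespace Cfsg.Agent.S4479

/-- the two relations between the degrees -/
theorem data {G : Type*} [Group G] [Finite G] (M : Ideal Cfsg.AlgInt) (hM : Cfsg.IsPModular 2 M) (g₀ : ℕ) (hg₀ : Odd g₀) (hG : Nat.card G = 4 * g₀) (hnc : ¬ ∃ N : Subgroup G, N.Normal ∧ Nat.card N = g₀) (P : Sylow 2 G) (J : G) (hJ : J ∈ (P : Subgroup G)) (hJ2 : orderOf J = 2) (χ₁ χ₂ χ₃ : Cfsg.IrrCharacter G) (ε₁ ε₂ ε₃ : ℤ) (hB : Cfsg.principalBlock M G = {χ : Cfsg.IrrCharacter G | (χ : G → ℂ) = (fun _ => 1) ∨ χ = χ₁ ∨ χ = χ₂ ∨ χ = χ₃}) (hdist : (χ₁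 : G → ℂ) ≠ (fun _ => 1) ∧ (χ₂ : G → ℂ) ≠ (fun _ => 1) ∧ (χ₃ : G → ℂ) ≠ (fun _ => 1) ∧ χ₁ ≠ χ₂ ∧ χ₁ ≠ χ₃ ∧ χ₂ ≠ χ₃) (hε : (ε₁ = 1 ∨ ε₁ = -1) ∧ (ε₂ = 1 ∨ ε₂ = -1) ∧ (ε₃ = 1 ∨ ε₃ = -1)) (hval : (χ₁ : G → ℂ) J = ε₁ ∧ (χ₂ : G → ℂ) J = ε₂ ∧ (χ₃ : G → ℂ) J = ε₃) :
    (1 + ε₁ * (Cfsg.charDegree (χ₁ : G → ℂ) : ℤ) + ε₂ * (Cfsg.charDegree (χ₂ : G → ℂ) : ℤ) +
      ε₃ * (Cfsg.charDegree (χ₃ : G → ℂ) : ℤ) = 0) ∧
    ((1 + (ε₁ : ℚ) / (Cfsg.charDegree (χ₁ : G → ℂ) : ℚ) + (ε₂ : ℚ) / (Cfsg.charDegree (χ₂ : G → ℂ) : ℚ)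
      + (ε₃ : ℚ) / (Cfsg.charDegree (χ₃ : G → ℂ) : ℚ)) * (Nat.card G : ℚ) *
      (Nat.card (Subgroup.centralizer ((P : Subgroup G) : Set G)) : ℚ) ^ 2 =
      8 * (Nat.card (Subgroup.centralizer ({J} : Set G)) : ℚ) ^ 3) := by
  classical
  cases nonempty_fintype G
  haveI := isPrime_of_isPModular hM
  obtain ⟨hcard, hexp, hone⟩ := klein_of_no_complement hg₀ hG hnc P
  have hfil : Finset.univ.filter (· ∈ principalBlock M G) = {triv G, χ₁, χ₂, χ₃} := by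
    ext χ
    rw [Finset.mem_filter, hB]
    simp only [Finset.mem_univ, true_and, Set.mem_setOf_eq, Finset.mem_insert,
      Finset.mem_singleton]
    constructor
    · rintro (h | h | h | h)
      · left; exact Subtype.ext h
      · right; left; exact h
      · right; right; left; exact h
      · right; right; right; exact h
    · rintro (h | h | h | h)
      · left; rw [h]; rfl
      · right; left; exact h
      · right; right; left; exact h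
      · right; right; right; exact h
  have ht1 : triv G ≠ χ₁ := fun h => hdist.1 (by rw [← h]; rfl)
  have ht2 : triv G ≠ χ₂ := fun h => hdist.2.1 (by rw [← h]; rfl)
  have ht3 : triv G ≠ χ₃ := fun h => hdist.2.2.1 (by rw [← h]; rfl)
  have hsum : ∀ F : IrrCharacter G → ℂ, ∑ χ ∈ Finset.univ.filter (· ∈ principalBlock M G), F χ =
      F (triv G) + F χ₁ + F χ₂ + F χ₃ := by
    intro F
    rw [hfil, Finset.sum_insert, Finset.sum_insert, Finset.sum_insert, Finset.sum_singleton]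
    · ring
    · simpa using hdist.2.2.2.2.2
    · simp only [Finset.mem_insert, Finset.mem_singleton, not_or]
      exact ⟨hdist.2.2.2.1, hdist.2.2.2.2.1⟩
    · simp only [Finset.mem_insert, Finset.mem_singleton, not_or]
      exact ⟨ht1, ht2, ht3⟩
  have hx1 := charDegree_cast_irr χ₁
  have hx2 := charDegree_cast_irr χ₂
  have hx3 := charDegree_cast_irr χ₃
  constructor
  · obtain ⟨n, hn, -, -, hrel⟩ := klein_structure hM P hcard hexp hone hJ hJ2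
    have h1 := hrel 1 (by rw [orderOf_one]; norm_num)
    rw [hsum] at h1
    have e0 : n (triv G) = 1 := by
      have := hn (triv G)
      have h2 : ((triv G : IrrCharacter G) : G → ℂ) J = 1 := rfl
      rw [h2] at this
      exact_mod_cast this.symm
    have e1 : n χ₁ = ε₁ := by
      have := hn χ₁
      rw [hval.1] at this
      exact_mod_cast this.symm
    have e2 : n χ₂ = ε₂ := by
      have := hn χ₂
      rw [hval.2.1] at this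
      exact_mod_cast this.symm
    have e3 : n χ₃ = ε₃ := by
      have := hn χ₃
      rw [hval.2.2] at this
      exact_mod_cast this.symm
    rw [e0, e1, e2, e3, ← hx1, ← hx2, ← hx3] at h1
    have h2 : ((triv G : IrrCharacter G) : G → ℂ) 1 = 1 := rfl
    rw [h2] at h1
    exact_mod_cast h1
  · have h1 := order_formula hM P hcard hexp hone hJ hJ2
    rw [hsum, hval.1, hval.2.1, hval.2.2, ← hx1, ← hx2, ← hx3] at h1
    have h2 : ((triv G : IrrCharacter G) : G → ℂ) 1 = 1 := rfl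
    have h3 : ((triv G : IrrCharacter G) : G → ℂ) J = 1 := rfl
    rw [h2, h3] at h1
    have hc : ∀ ε : ℤ, (ε = 1 ∨ ε = -1) → conj (ε : ℂ) ^ 2 * (ε : ℂ) = (ε : ℂ) := by
      rintro ε (rfl | rfl) <;> simp
    rw [hc _ hε.1, hc _ hε.2.1, hc _ hε.2.2] at h1
    simp only [map_one, one_pow, mul_one, div_one] at h1
    exact_mod_cast h1

/-- An order formula from the principal 2-block. Let G be a finite group of order 4·g₀ with g₀ odd having no normal 2-complement (no normal subgroup of order g₀); let P be a Sylow 2-subgroup, J an involution of P, and fix a maximal ideal M of the algebraic integers containing 2. Suppose the principal 2-block consists of the principal character and three further distinct characters χ₁, χ₂, χ₃ of degrees x₁, x₂, x₃, with χ_i(J) = ε_i = ±1. Then, writing c(J) and c(P) for the orders of the centralizers of J and of P, the order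 of G equals 8·α·c(J)³/c(P)² with α = x₁x₂x₃ / ((x₁ + ε₁)(x₂ + ε₂)(x₃ + ε₃)). -/
theorem result {G : Type*} [Group G] [Finite G] (M : Ideal Cfsg.AlgInt) (hM : Cfsg.IsPModular 2 M) (g₀ : ℕ) (hg₀ : Odd g₀) (hG : Nat.card G = 4 * g₀) (hnc : ¬ ∃ N : Subgroup G, N.Normal ∧ Nat.card N = g₀) (P : Sylow 2 G) (J : G) (hJ : J ∈ (P : Subgroup G)) (hJ2 : orderOf J = 2) (χ₁ χ₂ χ₃ : Cfsg.IrrCharacter G) (ε₁ ε₂ ε₃ : ℤ) (hB : Cfsg.principalBlock M G = {χ : Cfsg.IrrCharacter G | (χ : G → ℂ) = (fun _ => 1) ∨ χ = χ₁ ∨ χ = χ₂ ∨ χ = χ₃}) (hdist : (χ₁ : G → ℂ) ≠ (fun _ => 1) ∧ (χ₂ : G → ℂ) ≠ (fun _ => 1) ∧ (χ₃ : G → ℂ) ≠ (fun _ => 1) ∧ χ₁ ≠ χ₂ ∧ χ₁ ≠ χ₃ ∧ χ₂ ≠ χ₃) (hε : (ε₁ = 1 ∨ ε₁ = -1) ∧ (ε₂ = 1 ∨ ε₂ = -1) ∧ (ε₃ = 1 ∨ ε₃ = -1)) (hval : (χ₁ : G → ℂ) J = ε₁ ∧ (χ₂ : G → ℂ) J = ε₂ ∧ (χ₃ : G → ℂ) J = ε₃) : (Nat.card G : ℚ) = 8 * (((Cfsg.charDegree (χ₁ : G → ℂ) : ℚ) * Cfsg.charDegree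 (χ₂ : G → ℂ) * Cfsg.charDegree (χ₃ : G → ℂ)) / ((Cfsg.charDegree (χ₁ : G → ℂ) + ε₁) * (Cfsg.charDegree (χ₂ : G → ℂ) + ε₂) * (Cfsg.charDegree (χ₃ : G → ℂ) + ε₃))) * (Nat.card (Subgroup.centralizer ({J} : Set G)) : ℚ) ^ 3 / (Nat.card (Subgroup.centralizer ((P : Subgroup G) : Set G)) : ℚ) ^ 2 := by
  obtain ⟨hrel, hform⟩ := data M hM g₀ hg₀ hG hnc P J hJ hJ2 χ₁ χ₂ χ₃ ε₁ ε₂ ε₃ hB hdist hε hval
  have hx1 : (0 : ℚ) < (Cfsg.charDegree (χ₁ : G → ℂ) : ℚ) := by exact_mod_cast charDegree_pos_irr χ₁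
  have hx2 : (0 : ℚ) < (Cfsg.charDegree (χ₂ : G → ℂ) : ℚ) := by exact_mod_cast charDegree_pos_irr χ₂
  have hx3 : (0 : ℚ) < (Cfsg.charDegree (χ₃ : G → ℂ) : ℚ) := by exact_mod_cast charDegree_pos_irr χ₃
  have hrel' : (1 : ℚ) + ε₁ * (Cfsg.charDegree (χ₁ : G → ℂ) : ℚ) + ε₂ * (Cfsg.charDegree (χ₂ : G → ℂ) : ℚ) +
      ε₃ * (Cfsg.charDegree (χ₃ : G → ℂ) : ℚ) = 0 := by exact_mod_cast hrel
  have he1 : (ε₁ : ℚ) ^ 2 = 1 := by rcases hε.1 with h | h <;> rw [h] <;> norm_num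
  have he2 : (ε₂ : ℚ) ^ 2 = 1 := by rcases hε.2.1 with h | h <;> rw [h] <;> norm_num
  have he3 : (ε₃ : ℚ) ^ 2 = 1 := by rcases hε.2.2 with h | h <;> rw [h] <;> norm_num
  have hcJ : (0 : ℚ) < (Nat.card (Subgroup.centralizer ({J} : Set G)) : ℚ) := by
    exact_mod_cast Nat.card_pos
  have hcP : (0 : ℚ) < (Nat.card (Subgroup.centralizer ((P : Subgroup G) : Set G)) : ℚ) := by
    exact_mod_cast Nat.card_pos
  set x₁ := (Cfsg.charDegree (χ₁ : G → ℂ) : ℚ)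
  set x₂ := (Cfsg.charDegree (χ₂ : G → ℂ) : ℚ)
  set x₃ := (Cfsg.charDegree (χ₃ : G → ℂ) : ℚ)
  set cJ := (Nat.card (Subgroup.centralizer ({J} : Set G)) : ℚ)
  set cP := (Nat.card (Subgroup.centralizer ((P : Subgroup G) : Set G)) : ℚ)
  set g := (Nat.card G : ℚ)
  have hA : (x₁ + ε₁) * (x₂ + ε₂) * (x₃ + ε₃) =
      x₁ * x₂ * x₃ * (1 + (ε₁ : ℚ) / x₁ + (ε₂ : ℚ) / x₂ + (ε₃ : ℚ) / x₃) := by
    field_simp
    linear_combination (ε₁ * ε₂ * ε₃ : ℚ) * hrel' - (ε₂ * ε₃ * x₁ : ℚ) * he1 -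
      (ε₁ * ε₃ * x₂ : ℚ) * he2 - (ε₁ * ε₂ * x₃ : ℚ) * he3
  have hA0 : (x₁ + ε₁) * (x₂ + ε₂) * (x₃ + ε₃) ≠ 0 := by
    intro h0
    rw [h0] at hA
    have h1 : (1 + (ε₁ : ℚ) / x₁ + (ε₂ : ℚ) / x₂ + (ε₃ : ℚ) / x₃) = 0 := by
      have h2 : x₁ * x₂ * x₃ ≠ 0 := by positivity
      exact (mul_eq_zero.mp hA.symm).resolve_left h2
    rw [h1, zero_mul, zero_mul] at hform
    have : (0 : ℚ) < 8 * cJ ^ 3 := by positivity
    linarith
  have hS : (1 + (ε₁ : ℚ) / x₁ + (ε₂ : ℚ) / x₂ + (ε₃ : ℚ) / x₃) =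
      (x₁ + ε₁) * (x₂ + ε₂) * (x₃ + ε₃) / (x₁ * x₂ * x₃) := by
    rw [hA]
    field_simp
  rw [hS] at hform
  have hx0 : x₁ * x₂ * x₃ ≠ 0 := by positivity
  have h1 : x₁ + ε₁ ≠ 0 := left_ne_zero_of_mul (left_ne_zero_of_mul hA0)
  have h2 : x₂ + ε₂ ≠ 0 := right_ne_zero_of_mul (left_ne_zero_of_mul hA0)
  have h3 : x₃ + ε₃ ≠ 0 := right_ne_zero_of_mul hA0
  field_simp at hform
  field_simp
  linear_combination hform

end Cfsg.Agent.S4479
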