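import Mathlib
import Cfsg.Statements.S4480
import Cfsg.Agent.S4479
import Cfsg.Agent.S4512
import Cfsg.Agent.H25.FS
import Cfsg.Agent.Lib.Helper23.FS

set_option autoImplicit false
open Cfsg Cfsg.Agent.BlockLib Cfsg.Agent.CharLib Cfsg.Agent.H6 Cfsg.Agent.H6.KleinFour
  Cfsg.Agent.H6.KleinCount Cfsg.Agent.H6.KleinOrder Cfsg.Agent.Lib.Helper23 Cfsg.Agent.H6.BlockSection
open scoped ComplexConjugate

namespace Cfsg.Agent.S4480

/-- the complex conjugate of a character of the principal block lies in the principal block -/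
theorem conj_mem_principalBlock {G : Type*} [Group G] [Finite G] {M : Ideal AlgInt}
    {χ : IrrCharacter G} (hχ : χ ∈ principalBlock M G) :
    (⟨fun g => conj ((χ : G → ℂ) g), by
      cases nonempty_fintype G; exact isIrrCharacter_conj χ.2⟩ : IrrCharacter G) ∈
      principalBlock M G := by
  cases nonempty_fintype G
  intro g
  have h := hχ g⁻¹
  have h1 : Subgroup.centralizer ({g⁻¹} : Set G) = Subgroup.centralizer ({g} : Set G) := by
    ext x
    rw [Subgroup.mem_centralizer_singleton_iff, Subgroup.mem_centralizer_singleton_iff]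
    constructor
    · intro h
      calc x * g = g * (g⁻¹ * x) * g := by group
        _ = g * (x * g⁻¹) * g := by rw [h]
        _ = g * x := by group
    · intro h
      calc x * g⁻¹ = g⁻¹ * (g * x) * g⁻¹ := by group
        _ = g⁻¹ * (x * g) * g⁻¹ := by rw [h]
        _ = g⁻¹ * x := by group
  unfold centralChar at h ⊢
  rw [h1, isCharacter_inv (isCharacter_of_irr χ.2)] at h
  simp only [conj_irr_apply_one]
  exact h

/-- a character with Frobenius-Schur indicator `-1` has even degree -/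
theorem even_of_fsInd {G : Type*} [Group G] [Fintype G] (χ : IrrCharacter G)
    (h : H25.fsInd (χ : G → ℂ) = -1) : Even (charDegree (χ : G → ℂ)) := by
  have hreal : ∀ s : G, ((χ : G → ℂ) s).im = 0 := by
    by_contra hcon
    push Not at hcon
    have := (H25.fsInd_eq_zero_iff χ).mpr hcon
    rw [this] at h
    norm_num at h
  have hdeg := charDegree_cast_irr χ
  obtain ⟨n, ρ, hρ, hχ⟩ := χ.2
  haveI := hρ
  rw [← hχ] at hreal h hdeg
  obtain ⟨A, hA0, hA⟩ := FS.exists_isInv_of_real hreal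
  have h1 := hA.transpose_eq
  have h2 : FS.ind ρ.character = -1 := h
  rw [h2] at h1
  have hu : IsUnit A := hA.eq_zero_or_isUnit.resolve_left hA0
  have hd : IsUnit A.det := (Matrix.isUnit_iff_isUnit_det A).1 hu
  have h3 := congrArg Matrix.det h1
  rw [Matrix.det_transpose, Matrix.det_smul, Fintype.card_fin] at h3
  have h4 : (-1 : ℂ) ^ n = 1 := by
    have := hd.ne_zero
    field_simp at h3
    exact h3.symm
  have h5 : Even n := by
    rcases Nat.even_or_odd n with he | ho
    · exact he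
    · rw [ho.neg_one_pow] at h4
      norm_num at h4
  have h6 : charDegree (χ : G → ℂ) = n := by
    rw [Representation.char_one] at hdeg
    simp only [Module.finrank_fin_fun] at hdeg
    rw [hχ] at hdeg
    exact_mod_cast hdeg
  rw [h6]
  exact h5

theorem no_sqrt {G : Type*} [Group G] [Finite G] (P : Sylow 2 G) (hexp : ∀ x : P, x * x = 1)
    {J x u : G} (hJ : orderOf J = 2) (hx : x * J = J * x) (hodd : ¬ 2 ∣ orderOf x) :
    u * u ≠ J * x := by
  intro h
  have hJJ : J ^ 2 = 1 := by rw [← hJ, pow_orderOf_eq_one]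
  obtain ⟨k, hk⟩ : Odd (orderOf x) := by
    rw [← Nat.not_even_iff_odd, even_iff_two_dvd]; exact hodd
  have hum : (J * x) ^ orderOf x = J := by
    rw [(show Commute J x from hx.symm).mul_pow, pow_orderOf_eq_one, mul_one, hk, pow_succ, pow_mul,
      hJJ, one_pow, one_mul]
  have hv : u ^ orderOf x * u ^ orderOf x = J := by
    rw [← (Commute.refl u).mul_pow, h, hum]
  have hv4 : (u ^ orderOf x) ^ (2 ^ 2) = 1 := by
    have : (u ^ orderOf x) ^ (2 ^ 2) = (u ^ orderOf x * u ^ orderOf x) ^ 2 := by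
      rw [← pow_two, ← pow_mul (u ^ orderOf x)]; norm_num
    rw [this, hv, hJJ]
  obtain ⟨j, -, hj⟩ := (Nat.dvd_prime_pow Nat.prime_two).mp (orderOf_dvd_of_pow_eq_one hv4)
  have := Cfsg.Agent.S4512.sq_eq_one_of_two_element P hexp hj
  rw [hv] at this
  rw [this, orderOf_one] at hJ
  omega

theorem arith (x g cJ cP : ℕ) (hcP : 0 < cP) (hcJ : 0 < cJ) (h1 : cP ∣ cJ)
    (h2 : cJ ∣ g) (h : (x + 1) ^ 2 * g * cP ^ 2 = 4 * x * (2 * x + 1) * cJ ^ 3) :
    ∃ m : ℕ, 4 * cJ = m * cP * ((2 * x + 1) + 1) ∧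
      8 * g = m ^ 3 * cP * ((2 * x + 1) ^ 3 - (2 * x + 1)) := by
  obtain ⟨r, rfl⟩ := h1
  obtain ⟨n, rfl⟩ := h2
  have hr : 0 < r := Nat.pos_of_mul_pos_left hcJ |> fun h => by
    rcases Nat.eq_zero_or_pos r with h0 | h0
    · rw [h0, mul_zero] at hcJ; exact absurd hcJ (lt_irrefl 0)
    · exact h0
  have h3 : (x + 1) ^ 2 * n = x * (2 * x + 1) * (2 * r) ^ 2 := by
    have h4 : (cP ^ 3 * r) * ((x + 1) ^ 2 * n) = (cP ^ 3 * r) * (x * (2 * x + 1) * (2 * r) ^ 2) := by
      calc (cP ^ 3 * r) * ((x + 1) ^ 2 * n) = (x + 1) ^ 2 * (cP * r * n) * cP ^ 2 := by ring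
        _ = 4 * x * (2 * x + 1) * (cP * r) ^ 3 := h
        _ = (cP ^ 3 * r) * (x * (2 * x + 1) * (2 * r) ^ 2) := by ring
    exact Nat.eq_of_mul_eq_mul_left (by positivity) h4
  have hc1 : Nat.Coprime (x + 1) x := by
    rw [Nat.coprime_comm]; exact Nat.coprime_self_add_right.mpr (Nat.coprime_one_right x) |> fun h => by
      simpa using h
  have hc2 : Nat.Coprime (x + 1) (2 * x + 1) := by
    have : 2 * x + 1 = x + (x + 1) := by ring
    rw [this, Nat.coprime_add_self_right]
    exact hc1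
  have hc3 : Nat.Coprime ((x + 1) ^ 2) (x * (2 * x + 1)) :=
    Nat.Coprime.pow_left 2 (Nat.Coprime.mul_right hc1 hc2)
  have h5 : (x + 1) ^ 2 ∣ (2 * r) ^ 2 := by
    apply hc3.dvd_of_dvd_mul_left
    exact ⟨n, h3.symm⟩
  have h6 : (x + 1) ∣ 2 * r := (Nat.pow_dvd_pow_iff (by norm_num)).mp h5
  obtain ⟨m, hm⟩ := h6
  refine ⟨m, ?_, ?_⟩
  · calc 4 * (cP * r) = 2 * cP * (2 * r) := by ring
      _ = m * cP * ((2 * x + 1) + 1) := by rw [hm]; ring
  · have h7 : n = x * (2 * x + 1) * m ^ 2 := by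
      rw [hm] at h3
      have h8 : (x + 1) ^ 2 * n = (x + 1) ^ 2 * (x * (2 * x + 1) * m ^ 2) := by
        rw [h3]; ring
      exact Nat.eq_of_mul_eq_mul_left (by positivity) h8
    have h9 : (2 * x + 1) ^ 3 - (2 * x + 1) = 4 * x * (x + 1) * (2 * x + 1) := by
      apply Nat.sub_eq_of_eq_add
      ring
    rw [h9, h7]
    calc 8 * (cP * r * (x * (2 * x + 1) * m ^ 2)) = 4 * cP * x * (2 * x + 1) * m ^ 2 * (2 * r) := by
          ring
      _ = m ^ 3 * cP * (4 * x * (x + 1) * (2 * x + 1)) := by rw [hm]; ring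

/-- Same setting as the Klein-four order formula: G of order 4·g₀ (g₀ odd) with no normal 2-complement, P a Sylow 2-subgroup, J an involution of P, M over 2, principal 2-block {1, χ₁, χ₂, χ₃} with χ_i(J) = ε_i = ±1. Suppose ε₁ε₂ε₃ = −1 and ε₃ = −1, and put q = x₃ = χ₃(1). Then there is a natural number m with 4·c(J) = m·c(P)·(q + 1), and the order of G equals (m³·c(P)/4)·(q³ − q)/2, that is 8·#G = m³·c(P)·(q³ − q). -/
theorem result {G : Type*} [Group G] [Finite G] (M : Ideal Cfsg.AlgInt) (hM : Cfsg.IsPModular 2 M) (g₀ : ℕ) (hg₀ : Odd g₀) (hG : Nat.card G = 4 * g₀) (hnc : ¬ ∃ N : Subgroup G, N.Normal ∧ Nat.card N = g₀) (P : Sylow 2 G) (J : G) (hJ : J ∈ (P : Subgroup G)) (hJ2 : orderOf J = 2) (χ₁ χ₂ χ₃ : Cfsg.IrrCharacter G) (ε₁ ε₂ ε₃ : ℤ) (hB : Cfsg.principalBlock M G = {χ : Cfsg.IrrCharacter G | (χ : G → ℂ) = (fun _ => 1) ∨ χ = χ₁ ∨ χ = χ₂ ∨ χ = χ₃}) (hdist : (χ₁ : G → ℂ) ≠ (fun _ => 1) ∧ (χ₂ : G → ℂ) ≠ (fun _ => 1) ∧ (χ₃ : G → ℂ) ≠ (fun _ => 1) ∧ χ₁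 ≠ χ₂ ∧ χ₁ ≠ χ₃ ∧ χ₂ ≠ χ₃) (hε : (ε₁ = 1 ∨ ε₁ = -1) ∧ (ε₂ = 1 ∨ ε₂ = -1) ∧ (ε₃ = 1 ∨ ε₃ = -1)) (hval : (χ₁ : G → ℂ) J = ε₁ ∧ (χ₂ : G → ℂ) J = ε₂ ∧ (χ₃ : G → ℂ) J = ε₃) (hprod : ε₁ * ε₂ * ε₃ = -1) (hε₃ : ε₃ = -1) : ∃ m : ℕ, 4 * Nat.card (Subgroup.centralizer ({J} : Set G)) = m * Nat.card (Subgroup.centralizer ((P : Subgroup G) : Set G)) * (Cfsg.charDegree (χ₃ : G → ℂ) + 1) ∧ 8 * Nat.card G = m ^ 3 * Nat.card (Subgroup.centralizer ((P : Subgroup G) : Set G)) * (Cfsg.charDegree (χ₃ : G → ℂ) ^ 3 - Cfsg.charDegree (χ₃ : G → ℂ)) := by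
  classical
  cases nonempty_fintype G
  haveI := isPrime_of_isPModular hM
  haveI : Fintype (Subgroup.centralizer ({J} : Set G)) := Fintype.ofFinite _
  obtain ⟨hcard, hexp, hone⟩ := klein_of_no_complement hg₀ hG hnc P
  obtain ⟨hrel, hform⟩ := Cfsg.Agent.S4479.data M hM g₀ hg₀ hG hnc P J hJ hJ2 χ₁ χ₂ χ₃ ε₁ ε₂ ε₃ hB
    hdist hε hval
  have hp1 := charDegree_pos_irr χ₁
  have hp2 := charDegree_pos_irr χ₂
  have hp3 := charDegree_pos_irr χ₃
  -- the signs
  have he : ε₁ = 1 ∧ ε₂ = 1 := by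
    subst hε₃
    rcases hε.1 with h1 | h1 <;> rcases hε.2.1 with h2 | h2 <;> subst h1 <;> subst h2
    · exact ⟨rfl, rfl⟩
    · norm_num at hprod
    · norm_num at hprod
    · exfalso
      omega
  obtain ⟨he1, he2⟩ := he
  subst he1 he2 hε₃
  -- sums over the block
  have hfil : Finset.univ.filter (· ∈ principalBlock M G) = {triv G, χ₁, χ₂, χ₃} := by
    ext χ
    rw [Finset.mem_filter, hB]
    simp only [Finset.mem_univ, true_and, Set.mem_setOf_eq, Finset.mem_insert,
      Finset.mem_singleton]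
    constructor
    · rintro (h | h | h | h)
      · left; exact Subtype.ext h
      · right; left; exact h
      · right; right; left; exact h
      · right; right; right; exact h
    · rintro (h | h | h | h)
      · left; rw [h]; rfl
      · right; left; exact h
      · right; right; left; exact h
      · right; right; right; exact h
  have ht1 : triv G ≠ χ₁ := fun h => hdist.1 (by rw [← h]; rfl)
  have ht2 : triv G ≠ χ₂ := fun h => hdist.2.1 (by rw [← h]; rfl)
  have ht3 : triv G ≠ χ₃ := fun h => hdist.2.2.1 (by rw [← h]; rfl)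
  have hsum : ∀ F : IrrCharacter G → ℂ, ∑ χ ∈ Finset.univ.filter (· ∈ principalBlock M G), F χ =
      F (triv G) + F χ₁ + F χ₂ + F χ₃ := by
    intro F
    rw [hfil, Finset.sum_insert, Finset.sum_insert, Finset.sum_insert, Finset.sum_singleton]
    · ring
    · simpa using hdist.2.2.2.2.2
    · simp only [Finset.mem_insert, Finset.mem_singleton, not_or]
      exact ⟨hdist.2.2.2.1, hdist.2.2.2.2.1⟩
    · simp only [Finset.mem_insert, Finset.mem_singleton, not_or]
      exact ⟨ht1, ht2, ht3⟩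
  -- the Frobenius-Schur relation
  set θ : G → ℂ := fun g => ((Finset.univ.filter (fun u : G => u * u = g)).card : ℂ) with hθ
  have hθsum : θ = ∑ χ : IrrCharacter G, H25.fsInd (χ : G → ℂ) • (χ : G → ℂ) := by
    funext g
    rw [Finset.sum_apply]
    simp only [Pi.smul_apply, smul_eq_mul]
    rw [← H25.card_sqrt_eq_sum g]
  have hθcl : IsClassFunction G θ := by
    rw [hθsum]
    apply isClassFunction_sum
    intro χ _
    exact isClassFunction_smul _ (isClassFunction_of_irr χ.2)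
  have hθin : ∀ χ : IrrCharacter G, classInner θ χ = H25.fsInd (χ : G → ℂ) := by
    intro χ
    rw [hθsum]
    exact classInner_sum_smul_irr _ χ
  have hFS : 1 + H25.fsInd (χ₁ : G → ℂ) + H25.fsInd (χ₂ : G → ℂ) - H25.fsInd (χ₃ : G → ℂ) = 0 := by
    have h1 := blockPart_at_involution hM P hcard hexp hJ hJ2 hθcl
    rw [blockPart_eq_filter, hsum] at h1
    simp only [hθin] at h1
    have h2 : ∑ x : Subgroup.centralizer ({J} : Set G),
        (if x ∈ pPrimeCore 2 (Subgroup.centralizer ({J} : Set G)) then θ (J * (x : G)) else 0) = 0 := by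
      apply Finset.sum_eq_zero
      intro x _
      split_ifs with hx
      · have hxodd : ¬ 2 ∣ orderOf (x : G) := by
          rw [Subgroup.orderOf_coe]
          intro h2
          have h3 : orderOf x ∣ Nat.card (pPrimeCore 2 (Subgroup.centralizer ({J} : Set G))) := by
            have := orderOf_dvd_natCard
              (⟨x, hx⟩ : pPrimeCore 2 (Subgroup.centralizer ({J} : Set G)))
            rwa [Subgroup.orderOf_mk] at this
          exact H12.not_dvd_card_pPrimeCore 2 (h2.trans h3)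
        simp only [hθ]
        rw [Nat.cast_eq_zero, Finset.card_eq_zero, Finset.filter_eq_empty_iff]
        intro u _
        exact no_sqrt P hexp hJ2 (Subgroup.mem_centralizer_singleton_iff.mp x.2) hxodd
      · rfl
    rw [h2, mul_zero, hval.1, hval.2.1, hval.2.2] at h1
    have h3 : ((triv G : IrrCharacter G) : G → ℂ) J = 1 := rfl
    have h4 : H25.fsInd ((triv G : IrrCharacter G) : G → ℂ) = 1 := H25.fsInd_one
    rw [h3, h4] at h1
    push_cast at h1
    linear_combination h1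
  -- the degrees are odd
  have hodd : ∀ (χ : IrrCharacter G) (n : ℤ), (χ : G → ℂ) J = n → (n = 1 ∨ n = -1) →
      H25.fsInd (χ : G → ℂ) ≠ -1 := by
    intro χ n hn hn1 hneg
    have h1 := deg_congr P hcard hexp hone hJ2 χ hn
    obtain ⟨k, hk⟩ := even_of_fsInd χ hneg
    rcases hn1 with rfl | rfl <;> omega
  have hν1 := hodd χ₁ 1 hval.1 (Or.inl rfl)
  have hν2 := hodd χ₂ 1 hval.2.1 (Or.inl rfl)
  have hν3 := hodd χ₃ (-1) hval.2.2 (Or.inr rfl)
  have hzero : H25.fsInd (χ₁ : G → ℂ) = 0 := by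
    rcases H25.fsInd_cases χ₁ with h1 | h1 | h1
    · exact h1
    · exfalso
      rcases H25.fsInd_cases χ₂ with h2 | h2 | h2 <;> rcases H25.fsInd_cases χ₃ with h3 | h3 | h3 <;>
        first
        | exact hν2 h2
        | exact hν3 h3
        | (rw [h1, h2, h3] at hFS; norm_num at hFS)
    · exact absurd h1 hν1
  obtain ⟨s, hs⟩ := (H25.fsInd_eq_zero_iff χ₁).mp hzero
  have hconj := conj_mem_principalBlock (M := M) (χ := χ₁) (by rw [hB]; right; left; rfl)
  rw [hB] at hconj
  have hx12 : charDegree (χ₂ : G → ℂ) = charDegree (χ₁ : G → ℂ) := by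
    rcases hconj with h | h | h | h
    · exfalso
      apply hdist.1
      funext g
      have := congrFun h g
      simp only at this
      have h2 := congrArg conj this
      simpa using h2
    · exfalso
      apply hs
      have := congrFun (congrArg Subtype.val h) s
      simp only at this
      exact Complex.conj_eq_iff_im.mp this
    · have h1 := congrFun (congrArg Subtype.val h) 1
      simp only at h1
      rw [conj_irr_apply_one, ← charDegree_cast_irr, ← charDegree_cast_irr] at h1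
      exact_mod_cast h1.symm
    · exfalso
      have h1 := congrFun (congrArg Subtype.val h) J
      simp only at h1
      rw [hval.1, hval.2.2] at h1
      norm_num at h1
  have hq : charDegree (χ₃ : G → ℂ) = 2 * charDegree (χ₁ : G → ℂ) + 1 := by
    rw [hx12] at hrel
    omega
  rw [hq]
  apply arith _ _ _ _ Nat.card_pos Nat.card_pos
  · apply Subgroup.card_dvd_of_le
    apply Subgroup.centralizer_le
    rw [Set.singleton_subset_iff]
    exact hJ
  · exact Subgroup.card_subgroup_dvd_card _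
  · rw [hx12, hq] at hform
    have hx0 : ((charDegree (χ₁ : G → ℂ) : ℕ) : ℚ) ≠ 0 := by exact_mod_cast hp1.ne'
    have hq0 : (((2 * charDegree (χ₁ : G → ℂ) + 1 : ℕ)) : ℚ) ≠ 0 := by positivity
    push_cast at hform hq0
    field_simp at hform
    have : (((charDegree (χ₁ : G → ℂ) + 1) ^ 2 * Nat.card G *
        Nat.card (Subgroup.centralizer ((P : Subgroup G) : Set G)) ^ 2 : ℕ) : ℚ) =
        ((4 * charDegree (χ₁ : G → ℂ) * (2 * charDegree (χ₁ : G → ℂ) + 1) *
          Nat.card (Subgroup.centralizer ({J} : Set G)) ^ 3 : ℕ) : ℚ) := by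
      push_cast
      linear_combination (1 / 2 : ℚ) * hform
    exact_mod_cast this

end Cfsg.Agent.S4480
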