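import Cfsg.Statements.S4483
import Cfsg.Agent.Lib.Helper23.Trunc4
import Cfsg.Agent.S4490
import Cfsg.Agent.S4494

set_option autoImplicit false
open Cfsg

namespace Cfsg.Agent.S4483

open Cfsg Cfsg.Agent.CharLib Cfsg.Agent.BlockLib Cfsg.Agent.Lib.Helper23 Cfsg.Agent.Lib.Helper23.Trunc Cfsg.Agent.Lib.Helper23.MinMax
open scoped ComplexConjugate

theorem h23_centralChar_conj {G : Type*} [Group G] [Finite G] (ψ : IrrCharacter G) (g : G) :
    centralChar (fun x => conj ((ψ : G → ℂ) x)) g = centralChar (ψ : G → ℂ) g⁻¹ := by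
  have : Subgroup.centralizer ({g⁻¹} : Set G) = Subgroup.centralizer ({g} : Set G) := by
    ext y
    simp only [Subgroup.mem_centralizer_singleton_iff]
    constructor
    · intro h
      have := congrArg (fun t => g * t * g) h
      simp only [mul_assoc, inv_mul_cancel, mul_one] at this
      simp only [← mul_assoc, mul_inv_cancel, one_mul] at this
      exact this.symm
    · intro h
      have := congrArg (fun t => g⁻¹ * t * g⁻¹) h
      simp only [mul_assoc, mul_inv_cancel, mul_one] at this
      simp only [← mul_assoc, inv_mul_cancel, one_mul] at this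
      exact this.symm
  rw [centralChar, centralChar, this, conj_irr_apply_one, isCharacter_inv (isCharacter_of_irr ψ.2)]

/-- Let G be a finite group of order 2^n·g₀ with g₀ odd, and M a maximal ideal of the algebraic integers containing 2. Every real-valued irreducible character of G of odd degree lies in the principal 2-block; consequently G has at most 2^(2n) real-valued irreducible characters of odd degree. -/
theorem result {G : Type*} [Group G] [Finite G] (M : Ideal Cfsg.AlgInt) (hM : Cfsg.IsPModular 2 M) : (∀ χ : Cfsg.IrrCharacter G, (∀ g : G, ((χ : G → ℂ) g).im = 0) → Odd (Cfsg.charDegree (χ : G → ℂ)) → χ ∈ Cfsg.principalBlock M G) ∧ Nat.card {χ : Cfsg.IrrCharacter G // (∀ g : G, ((χ : G → ℂ) g).im = 0) ∧ Odd (Cfsg.charDegree (χ : G → ℂ))} ≤ 2 ^ (2 * (Nat.card G).factorization 2) := by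
  classical
  cases nonempty_fintype G
  have : Fact (Nat.Prime 2) := ⟨Nat.prime_two⟩
  have hMp := isPrime_of_isPModular hM
  have htop := ne_top_of_isPModular hM
  have hpb : IsPBlock M (principalBlock M G) := ⟨trivIrr G, rfl⟩
  have part1 : ∀ χ : Cfsg.IrrCharacter G, (∀ g : G, ((χ : G → ℂ) g).im = 0) →
      Odd (Cfsg.charDegree (χ : G → ℂ)) → χ ∈ Cfsg.principalBlock M G := by
    intro χ hreal hodd
    set B := blockOf M (χ : G → ℂ) with hBdef
    have hB : IsPBlock M B := ⟨χ, rfl⟩
    have hχB : χ ∈ B := SameBlock.refl' htop _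
    have hχconj : (fun g => conj ((χ : G → ℂ) g)) = (χ : G → ℂ) := by
      funext g
      exact Complex.conj_eq_iff_im.2 (hreal g)
    let c : IrrCharacter G → IrrCharacter G := fun χ =>
      ⟨fun g => conj ((χ : G → ℂ) g), isIrrCharacter_conj χ.2⟩
    have hcc : ∀ χ, c (c χ) = χ := by
      intro χ
      apply Subtype.ext
      funext g
      simp [c]
    have hcB : ∀ ψ, ψ ∈ B → c ψ ∈ B := by
      intro ψ hψ g
      have h1 : centralChar (χ : G → ℂ) g = centralChar (χ : G → ℂ) g⁻¹ := by
        rw [← h23_centralChar_conj χ g, hχconj]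
      have h2 : centralChar (c ψ : G → ℂ) g = centralChar (ψ : G → ℂ) g⁻¹ := h23_centralChar_conj ψ g
      rw [h1, h2]
      exact hψ g⁻¹
    have hcB' : ∀ χ, χ ∈ B ↔ c χ ∈ B := fun χ => ⟨hcB χ, fun h => by
      have := hcB _ h
      rwa [hcc] at this⟩
    have hinv : ∀ g : G, blockCoeff B g⁻¹ = blockCoeff B g := by
      intro g
      rw [blockCoeff, blockCoeff, finsum_mem_eq_sum_filter', finsum_mem_eq_sum_filter']
      congr 1
      let e : IrrCharacter G ≃ IrrCharacter G := ⟨c, c, hcc, hcc⟩
      apply Finset.sum_equiv e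
      · intro χ
        simp only [Finset.mem_filter, Finset.mem_univ, true_and]
        exact hcB' χ
      · intro χ _
        simp only [e, c, Equiv.coe_fn_mk]
        rw [isCharacter_inv (isCharacter_of_irr χ.2), conj_irr_apply_one]
    have hodd' : ¬ 2 ∣ charDegree (χ : G → ℂ) := by
      rw [← even_iff_two_dvd, Nat.not_even_iff_odd]; exact hodd
    have h1 := Cfsg.Agent.S4490.h23_real_block_aux hM hB hinv χ hodd' (by
      rw [hχconj]; exact SameBlock.refl' htop _)
    rw [if_pos hχB] at h1
    have h2 := Cfsg.Agent.S4490.h23_real_block_aux hM hB hinv (trivIrr G)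
      (by rw [charDegree_trivIrr]; norm_num)
      (by
        have : (fun g => conj ((trivIrr G : G → ℂ) g)) = (trivIrr G : G → ℂ) := by
          funext g; simp [trivIrr]
        rw [this]
        exact SameBlock.refl' htop _)
    have h3 : trivIrr G ∈ B := by
      by_contra h
      rw [if_neg h] at h2
      apply not_memLocalIdeal_one (M := M)
      have := memLocalIdeal_sub h1 h2
      simpa using this
    have h4 : B = principalBlock M G := block_eq_of_mem hB hpb h3 (SameBlock.refl' htop _)
    rw [← h4]
    exact hχB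
  refine ⟨part1, ?_⟩
  have hle : Nat.card {χ : Cfsg.IrrCharacter G // (∀ g : G, ((χ : G → ℂ) g).im = 0) ∧
      Odd (Cfsg.charDegree (χ : G → ℂ))} ≤ Nat.card (principalBlock M G) := by
    apply Nat.card_le_card_of_injective
      (fun x => (⟨x.1, part1 x.1 x.2.1 x.2.2⟩ : principalBlock M G))
    intro x y hxy
    apply Subtype.ext
    exact congrArg (fun t : principalBlock M G => t.1) hxy
  have hbf := Cfsg.Agent.S4494.result 2 M hM (principalBlock M G) hpb
  have hd : blockDefect 2 (principalBlock M G) ≤ (Nat.card G).factorization 2 := by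
    rw [blockDefect_eq]; omega
  set n := (Nat.card G).factorization 2 with hn
  have hpow : 2 ^ (2 * blockDefect 2 (principalBlock M G)) ≤ 2 ^ (2 * n) :=
    Nat.pow_le_pow_right (by norm_num) (by omega)
  rcases Nat.eq_zero_or_pos n with h0 | h0
  · rw [h0] at hpow ⊢
    simp only [mul_zero, pow_zero] at hpow ⊢
    omega
  · have h4 : 4 ≤ 2 ^ (2 * n) := by
      calc 4 = 2 ^ 2 := by norm_num
        _ ≤ 2 ^ (2 * n) := Nat.pow_le_pow_right (by norm_num) (by omega)
    omega

end Cfsg.Agent.S4483
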