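import Cfsg.Statements.S4491
import Cfsg.Agent.Lib.Helper23.Trunc6
import Cfsg.Agent.Lib.Helper10.Virtual2

set_option autoImplicit false
open Cfsg Cfsg.Agent.BlockLib Cfsg.Agent.CharLib Cfsg.Agent.Lib.Helper23 Cfsg.Agent.Lib.Helper23.MinMax Cfsg.Agent.Lib.Helper23.Trunc

namespace Cfsg.Agent.S4491

/-- Let B be a p-block of defect d of the finite group G (relative to a maximal ideal M of the algebraic integers containing p), and let p^a be the p-part of the order of G. Then the exact power of p dividing the sum of the squares of the degrees of the irreducible characters in B is p^(2a − d). -/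
theorem result {G : Type*} [Group G] [Finite G] (p : ℕ) [Fact p.Prime] (M : Ideal Cfsg.AlgInt) (hM : Cfsg.IsPModular p M) (B : Set (Cfsg.IrrCharacter G)) (hB : Cfsg.IsPBlock M B) : (∑ᶠ χ ∈ B, Cfsg.charDegree (χ : G → ℂ) ^ 2).factorization p = 2 * (Nat.card G).factorization p - Cfsg.blockDefect p B := by
  classical
  letI := Fintype.ofFinite G
  have hp := hM.1
  haveI := isPrime_of_isPModular hM
  have htop := ne_top_of_isPModular hM
  have hne := nonempty_of_isPBlock htop hB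
  obtain ⟨χ₀, hχ₀, hmin⟩ := exists_minExp (p := p) hne
  have hea : minExp p B ≤ (Nat.card G).factorization p := minExp_le_card hne
  rw [blockDefect_eq]
  generalize ha : (Nat.card G).factorization p = a at *
  generalize he : minExp p B = e at *
  obtain ⟨d, rfl⟩ : ∃ d, a = d + e := ⟨a - e, by omega⟩
  have hp0 : (p : ℂ) ≠ 0 := by exact_mod_cast hp.ne_zero
  set dg : IrrCharacter G → ℕ := fun ξ => charDegree (ξ : G → ℂ) / p ^ e with hdgdef
  have hdg : ∀ ξ ∈ B, charDegree (ξ : G → ℂ) = p ^ e * dg ξ := by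
    intro ξ hξ
    have := pow_minExp_dvd hp hξ
    rw [he] at this
    exact (Nat.mul_div_cancel' this).symm
  obtain ⟨g', hg'1, hg'2⟩ : ∃ g', Nat.card G = p ^ (d + e) * g' ∧ ¬ p ∣ g' := by
    refine ⟨Nat.card G / p ^ (Nat.card G).factorization p, ?_, ?_⟩
    · rw [← ha]; exact (Nat.ordProj_mul_ordCompl_eq_self _ p).symm
    · exact Nat.not_dvd_ordCompl hp Nat.card_pos.ne'
  have hj : (Nat.card G).factorization p ≤ d + (charDegree (χ₀ : G → ℂ)).factorization p := by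
    rw [hmin, ha]
  choose z hz using fun ξ => exists_int_classInner_trunc hp χ₀ ξ d hj
  set T : IrrCharacter G → ℂ := fun ξ => omega (ξ : G → ℂ) (cf p (χ₀ : G → ℂ)) with hT
  have hrel : ∀ ξ ∈ B, (g' : ℂ) * z ξ = dg ξ * T ξ := by
    intro ξ hξ
    have h := card_mul_int_eq χ₀ ξ d (hz ξ)
    rw [hg'1, hdg ξ hξ] at h
    push_cast at h
    have hpp : (p : ℂ) ^ d * (p : ℂ) ^ e ≠ 0 := mul_ne_zero (pow_ne_zero _ hp0) (pow_ne_zero _ hp0)
    apply mul_left_cancel₀ hpp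
    rw [pow_add] at h
    linear_combination h
  have hTring : ∀ ξ, MemLocalRing M (T ξ) := fun ξ => memLocalRing_omega_cf hM ξ χ₀
  have hT0 : ¬ MemLocalIdeal M (T χ₀) := not_memLocalIdeal_omega_cf hM hB hχ₀ (by rw [hmin, he]) hχ₀
  have hdg0 : ¬ p ∣ dg χ₀ := by
    rintro ⟨k, hk⟩
    have h1 : p ^ (e + 1) ∣ charDegree (χ₀ : G → ℂ) := by
      rw [hdg χ₀ hχ₀, hk, pow_succ]
      exact ⟨k, by ring⟩
    have h2 := (hp.pow_dvd_iff_le_factorization (charDegree_pos_irr χ₀).ne').1 h1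
    omega
  have hz0 : ¬ (p : ℤ) ∣ z χ₀ := by
    intro h
    have h1 : MemLocalIdeal M ((g' : ℂ) * z χ₀) :=
      memLocalIdeal_mul_left (memLocalRing_natCast htop g') ((memLocalIdeal_intCast_iff hM _).2 h)
    rw [hrel χ₀ hχ₀] at h1
    rcases memLocalIdeal_or_of_mul (memLocalRing_natCast htop _) (hTring χ₀) h1 with h2 | h2
    · exact hdg0 ((memLocalIdeal_natCast_iff hM _).1 h2)
    · exact hT0 h2
  have hc : ∀ ξ ∈ B, (p : ℤ) ∣ z χ₀ * dg ξ - dg χ₀ * z ξ := by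
    intro ξ hξ
    have h1 : MemLocalIdeal M (((g' : ℤ) * (z χ₀ * dg ξ - dg χ₀ * z ξ) : ℤ) : ℂ) := by
      have h2 : (((g' : ℤ) * (z χ₀ * dg ξ - dg χ₀ * z ξ) : ℤ) : ℂ)
          = ((dg χ₀ : ℂ) * (dg ξ : ℂ)) * (T χ₀ - T ξ) := by
        push_cast
        linear_combination (dg ξ : ℂ) * hrel χ₀ hχ₀ - (dg χ₀ : ℂ) * hrel ξ hξ
      rw [h2]
      exact memLocalIdeal_mul_left
        (memLocalRing_mul (memLocalRing_natCast htop _) (memLocalRing_natCast htop _))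
        (omega_cf_congr hM hB hχ₀ hξ χ₀)
    have h3 := (memLocalIdeal_intCast_iff hM _).1 h1
    rcases (Nat.prime_iff_prime_int.1 hp).dvd_or_dvd h3 with h4 | h4
    · exact absurd (Int.natCast_dvd_natCast.1 h4) hg'2
    · exact h4
  have hc' : ∀ ξ : IrrCharacter G, ∃ c' : ℤ, ξ ∈ B → z χ₀ * dg ξ - dg χ₀ * z ξ = p * c' := by
    intro ξ
    by_cases hξ : ξ ∈ B
    · obtain ⟨k, hk⟩ := hc ξ hξ
      exact ⟨k, fun _ => hk⟩
    · exact ⟨0, fun h => absurd h hξ⟩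
  choose c' hc'' using hc'
  set BF := Finset.univ.filter (· ∈ B) with hBF
  have hmemBF : ∀ ξ, ξ ∈ BF ↔ ξ ∈ B := fun ξ => by simp [hBF]
  set Ξ : G → ℂ := ∑ ξ ∈ BF, (c' ξ : ℂ) • (ξ : G → ℂ) with hΞ
  have hgen : IsGeneralizedCharacter G Ξ := by
    apply Cfsg.Agent.Lib.Helper10.isGeneralizedCharacter_sum
    intro ξ _
    apply Cfsg.Agent.Lib.Helper10.isGeneralizedCharacter_intCast_smul
    exact ⟨_, 0, isCharacter_of_irr ξ.2, isCharacter_zero, by simp⟩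
  have hexp : ∀ g : G, (p : ℂ) * Ξ g = (z χ₀ : ℂ) * ∑ ξ ∈ BF, (dg ξ : ℂ) * (ξ : G → ℂ) g
      - (dg χ₀ : ℂ) * trunc p ((p : ℂ) ^ d) (χ₀ : G → ℂ) g := by
    intro g
    rw [trunc_eq_sum_block hM hB _ hχ₀, hΞ]
    simp only [Finset.sum_apply, Pi.smul_apply, smul_eq_mul, Finset.mul_sum]
    rw [← Finset.sum_sub_distrib]
    apply Finset.sum_congr rfl
    intro ξ hξ
    have h1 := hc'' ξ ((hmemBF ξ).1 hξ)
    have h2 : ((z χ₀ * dg ξ - dg χ₀ * z ξ : ℤ) : ℂ) = ((p * c' ξ : ℤ) : ℂ) := by rw [h1]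
    push_cast at h2
    rw [hz ξ]
    linear_combination -(ξ : G → ℂ) g * h2
  have hpe : ∀ g : G, (p : ℂ) ^ e * ∑ ξ ∈ BF, (dg ξ : ℂ) * (ξ : G → ℂ) g
      = ∑ ξ ∈ BF, (ξ : G → ℂ) 1 * (ξ : G → ℂ) g := by
    intro g
    rw [Finset.mul_sum]
    apply Finset.sum_congr rfl
    intro ξ hξ
    rw [← charDegree_cast_irr ξ, hdg ξ ((hmemBF ξ).1 hξ)]
    push_cast
    ring
  have hvan : ∀ g : G, p ∣ orderOf g → Ξ g = 0 := by
    intro g hg
    have h1 : ∑ ξ ∈ BF, (ξ : G → ℂ) 1 * (ξ : G → ℂ) g = 0 := by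
      have h2 := weak_orth hM B hB 1 g⁻¹ (by
        rw [orderOf_one]; exact hp.one_lt.ne' ∘ Nat.dvd_one.1) (by rwa [orderOf_inv])
      rw [← h2]
      apply Finset.sum_congr rfl
      intro ξ _
      rw [isCharacter_inv (isCharacter_of_irr ξ.2), Complex.conj_conj]
    have h3 : ∑ ξ ∈ BF, (dg ξ : ℂ) * (ξ : G → ℂ) g = 0 := by
      have h4 := hpe g
      rw [h1] at h4
      exact (mul_eq_zero.1 h4).resolve_left (pow_ne_zero _ hp0)
    have h5 := hexp g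
    rw [h3, trunc_singular p _ _ hg, mul_zero, mul_zero, sub_zero] at h5
    exact (mul_eq_zero.1 h5).resolve_left hp0
  obtain ⟨w, hw⟩ := pow_dvd_of_vanish hp hgen hvan
  rw [ha] at hw
  set S' : ℕ := ∑ ξ ∈ BF, dg ξ ^ 2 with hS'
  have hkey : (z χ₀ : ℤ) * (S' : ℤ) = (p : ℤ) ^ d * ((dg χ₀ : ℤ) ^ 2 + p * w) := by
    have h1 := hexp 1
    rw [hw, trunc_one hp, ← charDegree_cast_irr χ₀, hdg χ₀ hχ₀] at h1
    have h2 : ∑ ξ ∈ BF, (dg ξ : ℂ) * (ξ : G → ℂ) 1 = (p : ℂ) ^ e * (S' : ℂ) := by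
      rw [hS']
      push_cast
      rw [Finset.mul_sum]
      apply Finset.sum_congr rfl
      intro ξ hξ
      rw [← charDegree_cast_irr ξ, hdg ξ ((hmemBF ξ).1 hξ)]
      push_cast
      ring
    rw [h2] at h1
    push_cast at h1
    have h3 : ((z χ₀ : ℤ) : ℂ) * (S' : ℂ) = (p : ℂ) ^ d * ((dg χ₀ : ℂ) ^ 2 + p * w) := by
      apply mul_left_cancel₀ (pow_ne_zero e hp0)
      rw [pow_add] at h1
      linear_combination -h1
    exact_mod_cast h3
  have hS0 : S' ≠ 0 := by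
    intro h0
    rw [h0] at hkey
    simp only [Nat.cast_zero, mul_zero] at hkey
    have h1 : (dg χ₀ : ℤ) ^ 2 + p * w = 0 := by
      rcases mul_eq_zero.1 hkey.symm with h | h
      · exact absurd h (pow_ne_zero _ (by exact_mod_cast hp.ne_zero))
      · exact h
    have h2 : (p : ℤ) ∣ (dg χ₀ : ℤ) ^ 2 := ⟨-w, by linear_combination h1⟩
    have h3 := (Nat.prime_iff_prime_int.1 hp).dvd_of_dvd_pow h2
    exact hdg0 (Int.natCast_dvd_natCast.1 h3)
  have hcop : IsCoprime ((p : ℤ) ^ d) (z χ₀) :=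
    IsCoprime.pow_left (((Nat.prime_iff_prime_int.1 hp).coprime_iff_not_dvd).2 hz0)
  have hd1 : p ^ d ∣ S' := by
    have h1 : (p : ℤ) ^ d ∣ z χ₀ * (S' : ℤ) := ⟨_, hkey⟩
    have h2 := hcop.dvd_of_dvd_mul_left h1
    exact_mod_cast h2
  have hd2 : ¬ p ^ (d + 1) ∣ S' := by
    rintro ⟨k, hk⟩
    rw [hk] at hkey
    push_cast at hkey
    have h1 : (z χ₀ : ℤ) * (p * k) = (dg χ₀ : ℤ) ^ 2 + p * w := by
      apply mul_left_cancel₀ (pow_ne_zero d (by exact_mod_cast hp.ne_zero : (p : ℤ) ≠ 0))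
      rw [← hkey]; ring
    have h2 : (p : ℤ) ∣ (dg χ₀ : ℤ) ^ 2 := ⟨z χ₀ * k - w, by linear_combination -h1⟩
    have h3 := (Nat.prime_iff_prime_int.1 hp).dvd_of_dvd_pow h2
    exact hdg0 (Int.natCast_dvd_natCast.1 h3)
  have hfac : S'.factorization p = d := by
    have h1 := (hp.pow_dvd_iff_le_factorization hS0).1 hd1
    have h2 := mt (hp.pow_dvd_iff_le_factorization hS0).2 hd2
    omega
  have hsum : ∑ᶠ χ ∈ B, charDegree (χ : G → ℂ) ^ 2 = p ^ (2 * e) * S' := by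
    rw [finsum_mem_eq_finite_toFinset_sum _ (Set.toFinite _)]
    have : (Set.toFinite B).toFinset = BF := by ext; simp [hBF]
    rw [this, hS', Finset.mul_sum]
    apply Finset.sum_congr rfl
    intro ξ hξ
    rw [hdg ξ ((hmemBF ξ).1 hξ)]
    ring
  rw [hsum, factorization_pow_mul hp _ _ hS0, hfac]
  omega

end Cfsg.Agent.S4491
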