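import Cfsg.Statements.S4493
import Cfsg.Agent.Lib.Helper10.ItoMichler
import Cfsg.Agent.H1.Compl
-- import your own Cfsg.Agent.* helpers here

set_option autoImplicit false
open Cfsg Cfsg.Agent.CharLib Cfsg.Agent.Lib.Helper10

namespace Cfsg.Agent.S4493

/-- Let G be a finite solvable group and p a prime. Then G has a normal abelian Sylow p-subgroup if and only if no irreducible character degree of G is divisible by p. -/
theorem result {G : Type*} [Group G] [Finite G] (hsolv : Group.IsSolvable G) (p : ℕ) (hp : p.Prime) : (∃ P : Subgroup G, P.Normal ∧ (∀ x ∈ P, ∀ y ∈ P, x * y = y * x) ∧ IsPGroup p P ∧ ¬ p ∣ P.index) ↔ ∀ χ : Cfsg.IrrCharacter G, ¬ p ∣ Cfsg.charDegree (χ : G → ℂ) := by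
  have : Fact p.Prime := ⟨hp⟩
  constructor
  · rintro ⟨P, hPn, hab, -, hidx⟩ χ
    exact not_dvd_degree_of_normal_abelian p P hab hidx χ
  · intro hdeg
    obtain ⟨S, hSn, hSp, hSi⟩ := exists_normal_sylow_of_class p
      (fun G _ => Group.IsSolvable G)
      (fun G _ _ N _ h => by have := h; infer_instance)
      (by
        intro G _ _ _ h
        have := h
        obtain ⟨q, A, hq, hAn, -, hAbot, -, hAq⟩ := Cfsg.H1.exists_normal_elemAb_le (⊤ : Subgroup G)
          inferInstance top_ne_bot
        refine ⟨A, hAn, hAbot, ?_⟩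
        have hAqg : IsPGroup q A := by
          intro g
          exact ⟨1, by rw [pow_one]; exact Subtype.ext (hAq g g.2)⟩
        by_cases hqp : q = p
        · left
          rw [← hqp]
          exact hAqg
        · right
          have : Fact q.Prime := ⟨hq⟩
          obtain ⟨k, hk⟩ := IsPGroup.iff_card.1 hAqg
          rw [hk]
          exact Nat.Coprime.pow_left k ((Nat.coprime_primes hq hp).2 hqp))
      _ G rfl hsolv hdeg
    exact ⟨S, hSn, comm_of_normal_pGroup p S hSp hdeg, hSp, hSi⟩

end Cfsg.Agent.S4493
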