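import Cfsg.Statements.S4495
import Cfsg.Agent.Lib.Helper23.SelfCent5

set_option autoImplicit false
open Cfsg

namespace Cfsg.Agent.S4495



/-- Let the finite group G contain an element x of prime order p with C_G(x) = ⟨x⟩, and let t be the number of conjugacy classes of elements of order p. If t ≠ p − 1 then the commutator subgroup has index at most (p − 1)/t; if t = p − 1 it has index exactly p. -/
theorem result {G : Type*} [Group G] [Finite G] (p : ℕ) (hp : p.Prime) (x : G) (hx : orderOf x = p) (hC : Subgroup.centralizer ({x} : Set G) = Subgroup.zpowers x) (t : ℕ) (ht : Nat.card {C : ConjClasses G // ∃ g ∈ C.carrier, orderOf g = p} = t) : (t ≠ p - 1 → (commutator G).index * t ≤ p - 1) ∧ (t = p - 1 → (commutator G).index = p) := by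
  have : Fact p.Prime := ⟨hp⟩
  have hle := Cfsg.Agent.Lib.Helper23.relIndex_mul_card_classes_le hx hC
  rw [ht] at hle
  have h0 : (Subgroup.zpowers x).relIndex (Subgroup.normalizer (Subgroup.zpowers x : Set G)) ≠ 0 := by
    unfold Subgroup.relIndex
    exact Subgroup.index_ne_zero_of_finite
  constructor
  · intro hne
    have hN : Subgroup.normalizer (Subgroup.zpowers x : Set G) ≠ Subgroup.zpowers x := by
      intro h
      apply hne
      rw [← ht]
      exact Cfsg.Agent.Lib.Helper23.card_classes_eq_of_normalizer_eq hx hC h
    have hxD := Cfsg.Agent.Lib.Helper23.mem_commutator_of_normalizer_ne hx hC hN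
    have hdvd := Cfsg.Agent.Lib.Helper23.index_dvd_relIndex_of_mem hx hC (commutator G) hxD
    have hpos : 0 < (Subgroup.zpowers x).relIndex (Subgroup.normalizer (Subgroup.zpowers x : Set G)) :=
      Nat.pos_of_ne_zero h0
    exact (Nat.mul_le_mul_right t (Nat.le_of_dvd hpos hdvd)).trans hle
  · intro heq
    have hN : Subgroup.normalizer (Subgroup.zpowers x : Set G) = Subgroup.zpowers x := by
      by_contra hne
      have h1 : (Subgroup.zpowers x).relIndex (Subgroup.normalizer (Subgroup.zpowers x : Set G)) ≠ 1 := by
        intro h
        rw [Subgroup.relIndex_eq_one] at h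
        exact hne (le_antisymm h Subgroup.le_normalizer)
      have h2 : 2 ≤ (Subgroup.zpowers x).relIndex (Subgroup.normalizer (Subgroup.zpowers x : Set G)) := by
        omega
      have h3 := (Nat.mul_le_mul_right t h2).trans hle
      have := hp.two_le
      omega
    exact Cfsg.Agent.Lib.Helper23.index_commutator_eq_of_not_dvd hx hC
      (Cfsg.Agent.Lib.Helper23.not_dvd_card_commutator_of_normalizer_eq hx hC hN)

end Cfsg.Agent.S4495
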