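import Cfsg.Statements.S4497
import Cfsg.Agent.Lib.Helper23.SelfCent6

set_option autoImplicit false
open Cfsg

namespace Cfsg.Agent.S4497



/-- Let the finite group G contain an element x of prime order p with C_G(x) = ⟨x⟩, let t be the number of conjugacy classes of elements of order p, and let S* = O_{p′}(G) be the largest normal subgroup of order prime to p. Then S* ≤ G′; if t ≠ p − 1 the quotient G′/S* is simple (in particular non-trivial); if t = p − 1 then G′ = S*. -/
theorem result {G : Type*} [Group G] [Finite G] (p : ℕ) (hp : p.Prime) (x : G) (hx : orderOf x = p) (hC : Subgroup.centralizer ({x} : Set G) = Subgroup.zpowers x) (t : ℕ) (ht : Nat.card {C : ConjClasses G // ∃ g ∈ C.carrier, orderOf g = p} = t) : Cfsg.pPrimeCore p G ≤ commutator G ∧ (t ≠ p - 1 → ∀ h : ((Cfsg.pPrimeCore p G).subgroupOf (commutator G)).Normal, IsSimpleGroup (↥(commutator G) ⧸ (Cfsg.pPrimeCore p G).subgroupOf (commutator G))) ∧ (t = p - 1 → commutator G = Cfsg.pPrimeCore p G) := by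
  have : Fact p.Prime := ⟨hp⟩
  have hSn : (Cfsg.pPrimeCore p G).Normal := Cfsg.Agent.Lib.Helper23.h23_pPrimeCore_normal p
  have hScop : (Nat.card (Cfsg.pPrimeCore p G)).Coprime p := Cfsg.Agent.Lib.Helper23.h23_pPrimeCore_coprime p
  have hSp : ¬ p ∣ Nat.card (Cfsg.pPrimeCore p G) := by
    intro h
    have := Nat.Coprime.eq_one_of_dvd hScop.symm h
    exact hp.one_lt.ne' this
  have hSD : Cfsg.pPrimeCore p G ≤ commutator G :=
    Cfsg.Agent.Lib.Helper23.le_commutator_of_normal_of_not_dvd hx hC _ hSp
  have hiff := Cfsg.Agent.Lib.Helper23.normalizer_eq_iff_card_classes hx hC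
  rw [ht] at hiff
  refine ⟨hSD, ?_, ?_⟩
  · intro hne h
    have hN : Subgroup.normalizer (Subgroup.zpowers x : Set G) ≠ Subgroup.zpowers x :=
      fun h' => hne (hiff.1 h')
    have hxD := Cfsg.Agent.Lib.Helper23.mem_commutator_of_normalizer_ne hx hC hN
    have hxS : x ∉ Cfsg.pPrimeCore p G := by
      intro hxS
      apply hSp
      have := orderOf_dvd_natCard (⟨x, hxS⟩ : Cfsg.pPrimeCore p G)
      rwa [← Subgroup.orderOf_coe, hx] at this
    refine { exists_pair_ne := ?_, eq_bot_or_eq_top_of_normal := ?_ }
    · refine ⟨QuotientGroup.mk (⟨x, hxD⟩ : commutator G), 1, ?_⟩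
      intro h1
      rw [QuotientGroup.eq_one_iff, Subgroup.mem_subgroupOf] at h1
      exact hxS h1
    · intro H hH
      set S' := (Cfsg.pPrimeCore p G).subgroupOf (commutator G) with hS'
      set T := H.comap (QuotientGroup.mk' S') with hT
      have hTn : T.Normal := hH.comap _
      have hHT : H = T.map (QuotientGroup.mk' S') :=
        (Subgroup.map_comap_eq_self_of_surjective (QuotientGroup.mk'_surjective S') H).symm
      by_cases hpT : p ∣ Nat.card T
      · right
        have h1 := Cfsg.Agent.Lib.Helper23.commutator_le_map_of_dvd_card hx hC (commutator G) hxD T hpT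
        have hTtop : T = ⊤ := by
          rw [eq_top_iff]
          intro d _
          obtain ⟨d', hd', hdd⟩ := h1 d.2
          have : d' = d := Subtype.ext hdd
          rwa [← this]
        rw [hHT, hTtop, ← MonoidHom.range_eq_map, MonoidHom.range_eq_top]
        exact QuotientGroup.mk'_surjective S'
      · left
        have hcop : (Nat.card T).Coprime p := ((Nat.Prime.coprime_iff_not_dvd hp).2 hpT).symm
        have h1 : T ≤ Cfsg.pPrimeCore p (commutator G) := Cfsg.Agent.Lib.Helper23.h23_le_pPrimeCore hTn hcop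
        have h2 := Cfsg.Agent.Lib.Helper23.h23_map_pPrimeCore_le p (commutator G)
        have h3 : T ≤ S' := by
          intro d hd
          rw [hS', Subgroup.mem_subgroupOf]
          exact h2 ⟨d, h1 hd, rfl⟩
        rw [hHT, eq_bot_iff]
        calc T.map (QuotientGroup.mk' S') ≤ S'.map (QuotientGroup.mk' S') := Subgroup.map_mono h3
          _ = ⊥ := by rw [QuotientGroup.map_mk'_self]
  · intro heq
    have hN := hiff.2 heq
    have h1 := Cfsg.Agent.Lib.Helper23.not_dvd_card_commutator_of_normalizer_eq hx hC hN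
    apply le_antisymm _ hSD
    apply Cfsg.Agent.Lib.Helper23.h23_le_pPrimeCore inferInstance
    exact ((Nat.Prime.coprime_iff_not_dvd hp).2 h1).symm

end Cfsg.Agent.S4497
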