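import Cfsg.Statements.S4498
import Cfsg.Agent.Lib.Helper23.WeakOrth

set_option autoImplicit false
open Cfsg

namespace Cfsg.Agent.S4498

open scoped ComplexConjugate
open Cfsg.Agent.Lib.Helper23 Cfsg.Agent.CharLib Cfsg.Agent.BlockLib

/-- Let p and q be distinct primes dividing the order of the finite group G, and suppose G has no element of order p·q. Fix maximal ideals M_p over p and M_q over q of the algebraic integers. Then the principal p-block and the principal q-block of G have a non-principal irreducible character in common. -/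
theorem result {G : Type*} [Group G] [Finite G] (p q : ℕ) [Fact p.Prime] [Fact q.Prime] (hpq : p ≠ q) (hp : p ∣ Nat.card G) (hq : q ∣ Nat.card G) (hno : ∀ g : G, orderOf g ≠ p * q) (Mp Mq : Ideal Cfsg.AlgInt) (hMp : Cfsg.IsPModular p Mp) (hMq : Cfsg.IsPModular q Mq) : ∃ χ : Cfsg.IrrCharacter G, (χ : G → ℂ) ≠ (fun _ => 1) ∧ χ ∈ Cfsg.principalBlock Mp G ∧ χ ∈ Cfsg.principalBlock Mq G := by
  classical
  cases nonempty_fintype G
  by_contra hcon
  push Not at hcon
  obtain ⟨x, hx⟩ := exists_prime_orderOf_dvd_card' (G := G) p hp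
  obtain ⟨y, hy⟩ := exists_prime_orderOf_dvd_card' (G := G) q hq
  set BP := Finset.univ.filter (· ∈ Cfsg.principalBlock Mp G) with hBP
  set BQ := Finset.univ.filter (· ∈ Cfsg.principalBlock Mq G) with hBQ
  have hBp : Cfsg.IsPBlock Mp (Cfsg.principalBlock Mp G) := ⟨trivIrr G, rfl⟩
  have hBq : Cfsg.IsPBlock Mq (Cfsg.principalBlock Mq G) := ⟨trivIrr G, rfl⟩
  have h1p : trivIrr G ∈ BP :=
    Finset.mem_filter.2 ⟨Finset.mem_univ _, SameBlock.refl' (ne_top_of_isPModular hMp) _⟩
  have h1q : trivIrr G ∈ BQ :=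
    Finset.mem_filter.2 ⟨Finset.mem_univ _, SameBlock.refl' (ne_top_of_isPModular hMq) _⟩
  have hzero : ∑ g : G, (∑ χ ∈ BP, (χ : G → ℂ) g * conj ((χ : G → ℂ) x)) *
      conj (∑ ψ ∈ BQ, (ψ : G → ℂ) g * conj ((ψ : G → ℂ) y)) = 0 := by
    apply Finset.sum_eq_zero
    intro g _
    by_cases hg : p ∣ orderOf g
    · have hgq : ¬ q ∣ orderOf g := by
        intro hgq
        have h1 : p * q ∣ orderOf g :=
          Nat.Coprime.mul_dvd_of_dvd_of_dvd ((Nat.coprime_primes Fact.out Fact.out).2 hpq) hg hgq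
        exact hno _ (orderOf_pow_orderOf_div (orderOf_pos g).ne' h1)
      rw [weak_orth hMq _ hBq g y hgq (by rw [hy]), map_zero, mul_zero]
    · rw [weak_orth hMp _ hBp g x hg (by rw [hx]), zero_mul]
  have hexp : ∑ g : G, (∑ χ ∈ BP, (χ : G → ℂ) g * conj ((χ : G → ℂ) x)) *
      conj (∑ ψ ∈ BQ, (ψ : G → ℂ) g * conj ((ψ : G → ℂ) y)) =
      ∑ χ ∈ BP, ∑ ψ ∈ BQ, conj ((χ : G → ℂ) x) * (ψ : G → ℂ) y *
        ∑ g : G, (χ : G → ℂ) g * conj ((ψ : G → ℂ) g) := by
    have h1 : ∀ g : G, (∑ χ ∈ BP, (χ : G → ℂ) g * conj ((χ : G → ℂ) x)) *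
        conj (∑ ψ ∈ BQ, (ψ : G → ℂ) g * conj ((ψ : G → ℂ) y)) =
        ∑ χ ∈ BP, ∑ ψ ∈ BQ, conj ((χ : G → ℂ) x) * (ψ : G → ℂ) y *
          ((χ : G → ℂ) g * conj ((ψ : G → ℂ) g)) := by
      intro g
      rw [map_sum, Finset.sum_mul_sum]
      apply Finset.sum_congr rfl
      intro χ _
      apply Finset.sum_congr rfl
      intro ψ _
      rw [map_mul, Complex.conj_conj]
      ring
    simp only [h1]
    rw [Finset.sum_comm]
    apply Finset.sum_congr rfl
    intro χ _
    rw [Finset.sum_comm]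
    apply Finset.sum_congr rfl
    intro ψ _
    rw [Finset.mul_sum]
  rw [hexp] at hzero
  have hinner : ∀ χ ψ : Cfsg.IrrCharacter G, ∑ g : G, (χ : G → ℂ) g * conj ((ψ : G → ℂ) g) =
      if χ = ψ then (Nat.card G : ℂ) else 0 := by
    intro χ ψ
    have hc : (Nat.card G : ℂ) ≠ 0 := card_ne_zero_complex
    split_ifs with h
    · subst h
      have := classInner_irr_self χ.2
      rw [classInner_def, inv_mul_eq_iff_eq_mul₀ hc, mul_one] at this
      exact this
    · have := classInner_irr_ne χ.2 ψ.2 (fun h' => h (Subtype.ext h'))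
      rw [classInner_def] at this
      rcases mul_eq_zero.1 this with h' | h'
      · exact absurd h' (inv_ne_zero hc)
      · exact h'
  simp only [hinner] at hzero
  rw [Finset.sum_eq_single (trivIrr G), Finset.sum_eq_single (trivIrr G)] at hzero
  · simp [trivIrr] at hzero
  · intro ψ _ hψ
    rw [if_neg (Ne.symm hψ), mul_zero]
  · intro h; exact absurd h1q h
  · intro χ hχ hχ1
    apply Finset.sum_eq_zero
    intro ψ hψ
    by_cases h : χ = ψ
    · subst h
      exfalso
      exact hcon χ (fun h' => hχ1 (Subtype.ext h')) (Finset.mem_filter.1 hχ).2 (Finset.mem_filter.1 hψ).2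
    · rw [if_neg h, mul_zero]
  · intro h; exact absurd h1p h

end Cfsg.Agent.S4498
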