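import Cfsg.Statements.S4505
import Cfsg.Agent.Lib.Helper23.MinMax2

set_option autoImplicit false
open Cfsg

namespace Cfsg.Agent.S4505

open Cfsg Cfsg.Agent.CharLib Cfsg.Agent.BlockLib Cfsg.Agent.Lib.Helper23.MinMax

/-- Let G be a finite group, p a prime and M a maximal ideal of the algebraic integers containing p. For every σ, the number of p-blocks of defect exactly σ is at most the number of conjugacy classes of p-regular elements whose centralizer has order divisible by p^σ but not by p^(σ+1). -/
theorem result {G : Type*} [Group G] [Finite G] (p : ℕ) [Fact p.Prime] (M : Ideal Cfsg.AlgInt) (hM : Cfsg.IsPModular p M) (σ : ℕ) : Nat.card {B : Set (Cfsg.IrrCharacter G) // Cfsg.IsPBlock M B ∧ Cfsg.blockDefect p B = σ} ≤ Nat.card {C : ConjClasses G // ∃ g : G, ConjClasses.mk g = C ∧ ¬ p ∣ orderOf g ∧ (Nat.card (Subgroup.centralizer ({g} : Set G))).factorization p = σ} := by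
  have hMp := isPrime_of_isPModular hM
  have htop := ne_top_of_isPModular hM
  cases nonempty_fintype G
  apply card_blocks_le hM _ _ (fun B hB => hB.1)
  intro B B' hB hB' χ hχ C hC
  have hC' : ¬ (¬ p ∣ orderOf (Quotient.out C) ∧
      (Nat.card (Subgroup.centralizer ({Quotient.out C} : Set G))).factorization p = σ) := by
    intro h
    exact hC ⟨Quotient.out C, Quotient.out_eq C, h⟩
  by_cases hreg : p ∣ orderOf (Quotient.out C)
  · rw [blockCoeff_eq_zero_of_singular hM hB.1 hreg, zero_mul]
    exact memLocalIdeal_zero htop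
  · rcases lt_trichotomy ((Nat.card (Subgroup.centralizer ({Quotient.out C} : Set G))).factorization p) σ
      with h | h | h
    · rw [← hB'.2] at h
      exact memLocalIdeal_mul_left (memLocalRing_blockCoeff hB.1 _)
        (memLocalIdeal_centralChar hM hB'.1 _ h hχ)
    · exact absurd ⟨hreg, h⟩ hC'
    · rw [← hB.2] at h
      exact memLocalIdeal_mul_right (memLocalIdeal_blockCoeff hM hB.1 _ hreg h)
        (memLocalRing_of_isIntegral htop (isIntegral_centralChar_irr χ.2 _))

end Cfsg.Agent.S4505
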