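import Cfsg.Statements.S4506
import Cfsg.Agent.H25.PConj

set_option autoImplicit false
open Cfsg

namespace Cfsg.Agent.S4506

/-- Let G be a finite group, p a prime, p^a the p-part of the order of G and g′ its p′-part. Call two irreducible characters p-conjugate when one is obtained from the other by applying a field automorphism of ℂ that fixes the g′-th roots of unity, and let r be the number of characters p-conjugate to the irreducible character χ (χ included). Then the exponent of p in r·χ(1) is at most a; and if p^a divides r·χ(1) then p^a already divides χ(1). -/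
theorem result {G : Type*} [Group G] [Finite G] (p : ℕ) (hp : p.Prime) (χ : Cfsg.IrrCharacter G) (r : ℕ) (hr : Nat.card {ψ : Cfsg.IrrCharacter G // ∃ σ : ℂ ≃+* ℂ, σ (Complex.exp (2 * Real.pi * Complex.I / ((Nat.card G / p ^ (Nat.card G).factorization p) : ℕ))) = Complex.exp (2 * Real.pi * Complex.I / ((Nat.card G / p ^ (Nat.card G).factorization p) : ℕ)) ∧ (ψ : G → ℂ) = fun g => σ ((χ : G → ℂ) g)} = r) : (r * Cfsg.charDegree (χ : G → ℂ)).factorization p ≤ (Nat.card G).factorization p ∧ (p ^ (Nat.card G).factorization p ∣ r * Cfsg.charDegree (χ : G → ℂ) → p ^ (Nat.card G).factorization p ∣ Cfsg.charDegree (χ : G → ℂ)) := by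
  classical
  have hF : Fact p.Prime := ⟨hp⟩
  have hn : Nat.card G / p ^ (Nat.card G).factorization p ≠ 0 :=
    (Nat.ordCompl_pos p Nat.card_pos.ne').ne'
  have hcard : (Finset.univ.filter (fun ψ : Cfsg.IrrCharacter G => ∃ σ : ℂ ≃+* ℂ, σ (Complex.exp (2 * Real.pi * Complex.I / ((Nat.card G / p ^ (Nat.card G).factorization p) : ℕ))) = Complex.exp (2 * Real.pi * Complex.I / ((Nat.card G / p ^ (Nat.card G).factorization p) : ℕ)) ∧ (ψ : G → ℂ) = fun g => σ ((χ : G → ℂ) g))).card = r := by
    rw [← hr, ← Fintype.card_subtype]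
    exact Nat.card_eq_fintype_card.symm
  rw [← hcard]
  apply Cfsg.Agent.H25.PConj.core
  · rw [Finset.mem_filter]
    exact ⟨Finset.mem_univ _, RingEquiv.refl ℂ, rfl, rfl⟩
  · intro ψ hψ x hx
    obtain ⟨σ, hσ, hψσ⟩ := (Finset.mem_filter.1 hψ).2
    rw [hψσ]
    exact Cfsg.Agent.H25.PConj.map_char_eq hn σ hσ (Cfsg.Agent.CharLib.isCharacter_of_irr χ.2)
      (Cfsg.Agent.H25.PConj.orderOf_dvd_of_not_dvd hp hx)
  · intro ψ hψ H _
    obtain ⟨σ, hσ, hψσ⟩ := (Finset.mem_filter.1 hψ).2
    rw [hψσ]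
    obtain ⟨m, hm⟩ := Cfsg.Agent.CharLib.classInner_char_nat
      (Cfsg.Agent.CharLib.isCharacter_restrict (Cfsg.Agent.CharLib.isCharacter_of_irr χ.2) H)
      (Cfsg.Agent.CharLib.isCharacter_of_irr (Cfsg.Agent.CharLib.isIrrCharacter_one (G := H)))
    have hsum3 : ∑ u : H, (χ : G → ℂ) u = (Nat.card H : ℂ) * m := by
      rw [← hm]
      unfold Cfsg.classInner
      have hne : (Nat.card H : ℂ) ≠ 0 := Nat.cast_ne_zero.2 Nat.card_pos.ne'
      rw [← mul_assoc, mul_inv_cancel₀ hne, one_mul]
      simp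
    rw [← map_sum, hsum3, map_mul, map_natCast, map_natCast]

end Cfsg.Agent.S4506
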