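import Cfsg.Statements.S4508
import Cfsg.Agent.Lib.Helper24.SelfCentDet
import Cfsg.Agent.S4495
import Cfsg.Agent.Lib.Helper23.CharDeg

set_option autoImplicit false
open Cfsg

namespace Cfsg.Agent.S4508

/-- Let the finite group G contain an element x of prime order p with C_G(x) = ⟨x⟩, and let t be the number of conjugacy classes of elements of order p. If G has an irreducible character of degree p − 1, then t is even or the commutator subgroup has even index. -/
theorem result {G : Type*} [Group G] [Finite G] (p : ℕ) (hp : p.Prime) (x : G) (hx : orderOf x = p) (hC : Subgroup.centralizer ({x} : Set G) = Subgroup.zpowers x) (t : ℕ) (ht : Nat.card {C : ConjClasses G // ∃ g ∈ C.carrier, orderOf g = p} = t) (χ : Cfsg.IrrCharacter G) (hχ : Cfsg.charDegree (χ : G → ℂ) + 1 = p) : Even t ∨ Even (commutator G).index := by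
  classical
  haveI : Fact p.Prime := ⟨hp⟩
  letI := Fintype.ofFinite G
  by_cases heven : Even t
  · exact Or.inl heven
  right
  have hodd : Odd t := Nat.not_even_iff_odd.1 heven
  by_cases hp2 : p = 2
  · have hidx := Lib.Helper24.relIndex_mul_card_classes_eq hx hC
    rw [ht, hp2] at hidx
    have ht1 : t = p - 1 := by
      rw [hp2]
      exact Nat.eq_one_of_mul_eq_one_left hidx
    have := (S4495.result p hp x hx hC t ht).2 ht1
    rw [this, hp2]
    exact even_two
  · have hχ1 : (χ : G → ℂ) 1 = ((p - 1 : ℕ) : ℂ) := by
      rw [← Lib.Helper23.charDegree_cast_irr χ]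
      congr 1
      omega
    obtain ⟨D, y, hD⟩ := Lib.Helper24.exists_hom_neg_one hx hC hp2 t ht hodd χ hχ1
    exact Lib.Helper24.even_index_commutator_of_hom D y hD

end Cfsg.Agent.S4508
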