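import Cfsg.Statements.S4509
import Cfsg.Agent.Lib.Helper23.SelfCent7

set_option autoImplicit false
open Cfsg

namespace Cfsg.Agent.S4509



/-- Let the finite group G contain an element x of prime order p with C_G(x) = ⟨x⟩; let t be the number of conjugacy classes of elements of order p and 1 + n·p the number of subgroups of order p. Then G has a normal subgroup of order 1 + n·p if and only if either t = p − 1, or t < p − 1 and G″ ≠ G′. Moreover, if t = p − 1 then G′ has order 1 + n·p and G/G′ is cyclic of order p; and if t < p − 1 and G″ ≠ G′ then G″ has order 1 + n·p and G′ has order p·(1 + n·p). -/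
theorem result {G : Type*} [Group G] [Finite G] (p : ℕ) (hp : p.Prime) (x : G) (hx : orderOf x = p) (hC : Subgroup.centralizer ({x} : Set G) = Subgroup.zpowers x) (t : ℕ) (ht : Nat.card {C : ConjClasses G // ∃ g ∈ C.carrier, orderOf g = p} = t) (n : ℕ) (hn : Nat.card {H : Subgroup G // Nat.card H = p} = 1 + n * p) : ((∃ S : Subgroup G, S.Normal ∧ Nat.card S = 1 + n * p) ↔ (t = p - 1 ∨ (t < p - 1 ∧ derivedSeries G 2 ≠ derivedSeries G 1))) ∧ (t = p - 1 → Nat.card (commutator G) = 1 + n * p ∧ IsCyclic (G ⧸ commutator G) ∧ (commutator G).index = p) ∧ (t < p - 1 → derivedSeries G 2 ≠ derivedSeries G 1 → Nat.card (derivedSeries G 2) = 1 + n * p ∧ Nat.card (commutator G) = p * (1 + n * p)) := by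
  have : Fact p.Prime := ⟨hp⟩
  rw [Cfsg.Agent.Lib.Helper23.card_subgroups_card_eq_prime hx hC] at hn
  have hiff := Cfsg.Agent.Lib.Helper23.normalizer_eq_iff_card_classes hx hC
  have htle := Cfsg.Agent.Lib.Helper23.card_classes_le hx hC
  rw [ht] at hiff htle
  have hidx := Cfsg.Agent.Lib.Helper23.card_sylow_eq_index_normalizer_zpowers hx hC
  -- part B
  have hB : t = p - 1 → Nat.card (commutator G) = 1 + n * p ∧ IsCyclic (G ⧸ commutator G) ∧ (commutator G).index = p := by
    intro heq
    have hN := hiff.2 heq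
    have h1 := Cfsg.Agent.Lib.Helper23.not_dvd_card_commutator_of_normalizer_eq hx hC hN
    have h2 := Cfsg.Agent.Lib.Helper23.index_commutator_eq_of_not_dvd hx hC h1
    refine ⟨?_, ?_, h2⟩
    · rw [← hn, hidx, hN]
      have e1 := Subgroup.card_mul_index (commutator G)
      have e2 := Subgroup.card_mul_index (Subgroup.zpowers x)
      rw [h2] at e1
      rw [Nat.card_zpowers, hx] at e2
      have e3 : Nat.card (commutator G) * p = (Subgroup.zpowers x).index * p := by
        rw [e1, ← e2, mul_comm]
      exact Nat.eq_of_mul_eq_mul_right hp.pos e3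
    · have : Nat.card (G ⧸ commutator G) = p := by rw [← Subgroup.index_eq_card, h2]
      exact isCyclic_of_prime_card this
  -- part C
  have hCC : t < p - 1 → derivedSeries G 2 ≠ derivedSeries G 1 → Nat.card (derivedSeries G 2) = 1 + n * p ∧ Nat.card (commutator G) = p * (1 + n * p) := by
    intro hlt hne
    have hN : Subgroup.normalizer (Subgroup.zpowers x : Set G) ≠ Subgroup.zpowers x :=
      fun h' => hlt.ne (hiff.1 h')
    have hxD := Cfsg.Agent.Lib.Helper23.mem_commutator_of_normalizer_ne hx hC hN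
    have hp2 := Cfsg.Agent.Lib.Helper23.not_dvd_card_derivedSeries_two hx hC hne
    have hle := Cfsg.Agent.Lib.Helper23.commutator_le_zpowers_sup hx hC hxD hne
    have hD2le : derivedSeries G 2 ≤ commutator G := by
      rw [← derivedSeries_one]; exact derivedSeries_antitone G (by norm_num)
    have hDeq : commutator G = Subgroup.zpowers x ⊔ derivedSeries G 2 :=
      le_antisymm hle (sup_le (Subgroup.zpowers_le.2 hxD) hD2le)
    obtain ⟨P, hP⟩ := Cfsg.Agent.Lib.Helper23.exists_sylow_eq_zpowers hx hC
    have hPD : (P : Subgroup G) ≤ commutator G := by rw [hP]; exact Subgroup.zpowers_le.2 hxD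
    have hfr : Subgroup.normalizer ((P : Subgroup G) : Set G) ⊔ commutator G = ⊤ :=
      Sylow.normalizer_sup_eq_top' P hPD
    rw [hP] at hfr
    have htop : Subgroup.normalizer (Subgroup.zpowers x : Set G) ⊔ derivedSeries G 2 = ⊤ := by
      rw [eq_top_iff, ← hfr]
      apply sup_le le_sup_left
      rw [hDeq]
      exact sup_le (Subgroup.le_normalizer.trans le_sup_left) le_sup_right
    have h1 := Cfsg.Agent.Lib.Helper23.card_eq_card_sylow_of_sup_eq_top hx hC _ hp2 htop
    refine ⟨by rw [h1, hn], ?_⟩
    rw [hDeq, Cfsg.Agent.Lib.Helper23.card_sup_eq_mul_of_inf_eq_bot _ _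
      (Cfsg.Agent.Lib.Helper23.zpowers_inf_eq_bot hx _ hp2), Nat.card_zpowers, hx, h1, hn]
  refine ⟨⟨?_, ?_⟩, hB, hCC⟩
  · rintro ⟨S, hSn, hS⟩
    by_cases heq : t = p - 1
    · exact Or.inl heq
    · right
      have hlt : t < p - 1 := lt_of_le_of_ne htle heq
      refine ⟨hlt, ?_⟩
      intro hD
      have hpS : ¬ p ∣ Nat.card S := by
        rw [hS]
        intro h
        have h1 : p ∣ 1 := (Nat.dvd_add_left (Dvd.intro_left n rfl)).1 h
        exact hp.one_lt.ne' (Nat.dvd_one.1 h1)
      have htop := Cfsg.Agent.Lib.Helper23.sup_eq_top_of_card_eq_card_sylow hx hC S hpS (by rw [hS, hn])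
      have h2 := Cfsg.Agent.Lib.Helper23.derivedSeries_two_le_of_sup_eq_top hx hC S htop
      have hN : Subgroup.normalizer (Subgroup.zpowers x : Set G) ≠ Subgroup.zpowers x :=
        fun h' => heq (hiff.1 h')
      have hxD := Cfsg.Agent.Lib.Helper23.mem_commutator_of_normalizer_ne hx hC hN
      rw [hD, derivedSeries_one] at h2
      have hxS := h2 hxD
      apply hpS
      have := orderOf_dvd_natCard (⟨x, hxS⟩ : S)
      rwa [← Subgroup.orderOf_coe, hx] at this
  · rintro (heq | ⟨hlt, hne⟩)
    · exact ⟨commutator G, inferInstance, (hB heq).1⟩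
    · exact ⟨derivedSeries G 2, inferInstance, (hCC hlt hne).1⟩

end Cfsg.Agent.S4509
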