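import Cfsg.Statements.S4510
import Cfsg.Agent.Lib.Helper23.MinMax2

set_option autoImplicit false
open Cfsg

namespace Cfsg.Agent.S4510

open Cfsg Cfsg.Agent.CharLib Cfsg.Agent.BlockLib Cfsg.Agent.Lib.Helper23.MinMax

/-- Let G be a finite group, p a prime, M a maximal ideal of the algebraic integers containing p, and call the defect of a conjugacy class the exponent of p in the order of the centralizer of its elements. Two irreducible characters lying in p-blocks of defect exactly d lie in the same block if and only if their central characters (class size times χ(x)/χ(1)) agree modulo the local ideal at M at every p-regular element x whose class has defect exactly d. -/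
theorem result {G : Type*} [Group G] [Finite G] (p : ℕ) [Fact p.Prime] (M : Ideal Cfsg.AlgInt) (hM : Cfsg.IsPModular p M) (d : ℕ) (χ ψ : Cfsg.IrrCharacter G) (hχ : Cfsg.blockDefect p (Cfsg.blockOf M (χ : G → ℂ)) = d) (hψ : Cfsg.blockDefect p (Cfsg.blockOf M (ψ : G → ℂ)) = d) : Cfsg.SameBlock M (χ : G → ℂ) (ψ : G → ℂ) ↔ ∀ x : G, ¬ p ∣ orderOf x → (Nat.card (Subgroup.centralizer ({x} : Set G))).factorization p = d → Cfsg.MemLocalIdeal M (Cfsg.centralChar (χ : G → ℂ) x - Cfsg.centralChar (ψ : G → ℂ) x) := by
  classical
  have hMp := isPrime_of_isPModular hM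
  have htop := ne_top_of_isPModular hM
  cases nonempty_fintype G
  have : Fintype (ConjClasses G) := Fintype.ofFinite _
  constructor
  · intro h x _ _
    exact h x
  · intro h
    set B := Cfsg.blockOf M (χ : G → ℂ) with hB
    set B' := Cfsg.blockOf M (ψ : G → ℂ) with hB'
    have hBb : IsPBlock M B := ⟨χ, rfl⟩
    have hBb' : IsPBlock M B' := ⟨ψ, rfl⟩
    have hχB : χ ∈ B := SameBlock.refl' htop _
    have hψB' : ψ ∈ B' := SameBlock.refl' htop _
    have h1 := sum_classes_blockCoeff B χ
    have h2 := sum_classes_blockCoeff B ψ
    rw [if_pos hχB] at h1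
    by_contra hcon
    have hψB : ψ ∉ B := hcon
    rw [if_neg hψB] at h2
    apply not_memLocalIdeal_one (M := M)
    have h3 : (1 : ℂ) = ∑ C : ConjClasses G, blockCoeff B (Quotient.out C) *
        (centralChar (χ : G → ℂ) (Quotient.out C) - centralChar (ψ : G → ℂ) (Quotient.out C)) := by
      simp only [mul_sub]
      rw [Finset.sum_sub_distrib, h1, h2, sub_zero]
    rw [h3]
    apply memLocalIdeal_sum
    intro C _
    by_cases hreg : p ∣ orderOf (Quotient.out C)
    · rw [blockCoeff_eq_zero_of_singular hM hBb hreg, zero_mul]
      exact memLocalIdeal_zero htop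
    · rcases lt_trichotomy ((Nat.card (Subgroup.centralizer ({Quotient.out C} : Set G))).factorization p) d
        with hlt | heq | hgt
      · apply memLocalIdeal_mul_left (memLocalRing_blockCoeff hBb _)
        apply memLocalIdeal_sub
        · rw [← hχ] at hlt
          exact memLocalIdeal_centralChar hM hBb _ hlt hχB
        · rw [← hψ] at hlt
          exact memLocalIdeal_centralChar hM hBb' _ hlt hψB'
      · exact memLocalIdeal_mul_left (memLocalRing_blockCoeff hBb _) (h _ hreg heq)
      · rw [← hχ] at hgt
        apply memLocalIdeal_mul_right (memLocalIdeal_blockCoeff hM hBb _ hreg hgt)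
        exact memLocalRing_sub (memLocalRing_of_isIntegral htop (isIntegral_centralChar_irr χ.2 _))
          (memLocalRing_of_isIntegral htop (isIntegral_centralChar_irr ψ.2 _))

end Cfsg.Agent.S4510
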