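import Cfsg.Statements.S4513
import Cfsg.Agent.Lib.Helper23.Subsect
import Cfsg.Agent.S4733
import Cfsg.Agent.S0917
import Cfsg.Agent.S0906

set_option autoImplicit false
open Cfsg

namespace Cfsg.Agent.S4513

open Cfsg Cfsg.Agent.CharLib Cfsg.Agent.BlockLib Cfsg.Agent.Lib.Helper23 Cfsg.Agent.Lib.Helper23.MinMax Cfsg.Agent.Lib.Helper23.Trunc Cfsg.Agent.H6.BlockSection Cfsg.Agent.Lib.Helper23.Sect Cfsg.Agent.Lib.Helper23.Defect01 Cfsg.Agent.Lib.Helper23.Subsect
open scoped ComplexConjugate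

/-- Blocks of defect one for p = 2. Let M be a maximal ideal of the algebraic integers containing 2, B a 2-block of the finite group G whose defect group is the subgroup generated by an involution x, C = C_G(x), b a block of C inducing B and θ a member of b taking the same value at x as at 1 (there is exactly one). Then B consists of exactly two irreducible characters, which agree on every element of odd order, and they can be labelled χ₁, χ₂ with signs ε₁, ε₂ = ±1, ε₁ε₂ = −1, such that χᵢ(x y) = εᵢ θ(y) for every element y of C of odd order. -/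
theorem result {G : Type*} [Group G] [Finite G] (M : Ideal Cfsg.AlgInt) (hM : Cfsg.IsPModular 2 M) (x : G) (hx : orderOf x = 2)
    (B : Set (Cfsg.IrrCharacter G)) (hB : Cfsg.IsPBlock M B) (hBD : Cfsg.IsDefectGroup 2 M B (Subgroup.zpowers x))
    (b : Set (Cfsg.IrrCharacter ↥(Subgroup.centralizer ({x} : Set G)))) (hb : Cfsg.IsInducedBlock M (Subgroup.centralizer ({x} : Set G)) b B)
    (θ : Cfsg.IrrCharacter ↥(Subgroup.centralizer ({x} : Set G))) (hθ : θ ∈ b)
    (hθx : ∀ z : ↥(Subgroup.centralizer ({x} : Set G)), (z : G) = x → (θ : ↥(Subgroup.centralizer ({x} : Set G)) → ℂ) z = (θ : ↥(Subgroup.centralizer ({x} : Set G)) → ℂ) 1) :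
    Nat.card B = 2 ∧ (∀ χ ∈ B, ∀ ψ ∈ B, ∀ g : G, ¬ 2 ∣ orderOf g → (χ : G → ℂ) g = (ψ : G → ℂ) g) ∧
      ∃ χ₁ ∈ B, ∃ χ₂ ∈ B, χ₁ ≠ χ₂ ∧ ∃ ε₁ ε₂ : ℤ, (ε₁ = 1 ∨ ε₁ = -1) ∧ (ε₂ = 1 ∨ ε₂ = -1) ∧ ε₁ * ε₂ = -1 ∧
        ∀ y : ↥(Subgroup.centralizer ({x} : Set G)), ¬ 2 ∣ orderOf y →
          (χ₁ : G → ℂ) (x * y) = (ε₁ : ℂ) * (θ : ↥(Subgroup.centralizer ({x} : Set G)) → ℂ) y ∧ (χ₂ : G → ℂ) (x * y) = (ε₂ : ℂ) * (θ : ↥(Subgroup.centralizer ({x} : Set G)) → ℂ) y := by
  classical
  cases nonempty_fintype G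
  have hp : Nat.Prime 2 := hM.1
  have : Fact (Nat.Prime 2) := ⟨hp⟩
  have htop := ne_top_of_isPModular hM
  have hMp := isPrime_of_isPModular hM
  have hd : blockDefect 2 B = 1 := by
    have h := card_of_isDefectGroup hM hB hBD
    rw [Nat.card_zpowers, hx] at h
    exact (Nat.pow_right_injective (le_refl 2) (by simpa using h)).symm
  obtain ⟨χ₁, χ₂, hne12, hBeq, hreg, hsing⟩ := two_block_defect_one hM hB hd
  have h1B : χ₁ ∈ B := by rw [hBeq]; simp
  have h2B : χ₂ ∈ B := by rw [hBeq]; simp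
  have hkB : Nat.card B = 2 := by rw [Nat.card_coe_set_eq, hBeq, Set.ncard_pair hne12]
  have hxC : x ∈ Subgroup.centralizer ({x} : Set G) := Subgroup.mem_centralizer_singleton_iff.2 rfl
  have hxCord : orderOf (⟨x, hxC⟩ : Subgroup.centralizer ({x} : Set G)) = 2 := by
    rw [← hx]; exact Subgroup.orderOf_mk x hxC
  have hdb : blockDefect 2 b = 1 := by
    have hle : blockDefect 2 b ≤ 1 := by
      obtain ⟨g, hg⟩ := Cfsg.Agent.S0906.result 2 M hM b hb.1
      obtain ⟨P⟩ : Nonempty (Sylow 2 (Subgroup.centralizer ({g} : Set (Subgroup.centralizer ({x} : Set G))))) := inferInstance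
      have hD : IsDefectGroup 2 M b _ := ⟨g, hg, P, rfl⟩
      obtain ⟨E, hE, hDE⟩ := Cfsg.Agent.S0917.result 2 M hM _ b hb.1 B hB hb _ hD
      have h1 := card_of_isDefectGroup hM hb.1 hD
      have h2 := card_of_isDefectGroup hM hB hE
      have h3 := Subgroup.card_le_of_le hDE
      rw [Subgroup.card_map_of_injective (Subgroup.subtype_injective _), h1, h2, hd] at h3
      exact (Nat.pow_le_pow_iff_right (by norm_num)).1 h3
    have hne0 : blockDefect 2 b ≠ 0 := by
      intro h0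
      have hkl := ((Cfsg.Agent.S4733.result 2 M hM b hb.1).2.2).1 h0
      have := vanish_of_card_eq_rank hM hb.1 hkl θ hθ ⟨x, hxC⟩ (by rw [hxCord])
      rw [hθx ⟨x, hxC⟩ rfl] at this
      exact irr_apply_one_ne_zero θ this
    omega
  obtain ⟨θ₁, θ₂, hneθ, hbeq, hregθ, hsingθ⟩ := two_block_defect_one hM hb.1 hdb
  obtain ⟨θ', hneθ', hbeq', hregθ'⟩ : ∃ θ' : Cfsg.IrrCharacter ↥(Subgroup.centralizer ({x} : Set G)),
      θ ≠ θ' ∧ b = {θ, θ'} ∧ ∀ g, ¬ 2 ∣ orderOf g →
      (θ : ↥(Subgroup.centralizer ({x} : Set G)) → ℂ) g = (θ' : ↥(Subgroup.centralizer ({x} : Set G)) → ℂ) g := by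
    rw [hbeq] at hθ
    rcases hθ with rfl | hθ
    · exact ⟨θ₂, hneθ, hbeq, hregθ⟩
    · rw [Set.mem_singleton_iff] at hθ
      subst hθ
      exact ⟨θ₁, hneθ.symm, by rw [hbeq, Set.pair_comm], fun g hg => (hregθ g hg).symm⟩
  have hkb : Nat.card b = 2 := by rw [Nat.card_coe_set_eq, hbeq', Set.ncard_pair hneθ']
  have hlb : blockRank 2 b = 1 := by
    have h1 := blockRank_le_card 2 b
    have h2 := blockRank_pos hp (nonempty_of_isPBlock htop hb.1)
    have h3 : Nat.card b ≠ blockRank 2 b := by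
      intro h
      have := ((Cfsg.Agent.S4733.result 2 M hM b hb.1).2.2).2 h
      omega
    omega
  have hfb : Finset.univ.filter (· ∈ b) = {θ, θ'} := by
    ext ξ; simp [hbeq']
  have hfB : Finset.univ.filter (· ∈ B) = {χ₁, χ₂} := by
    ext ξ; simp [hBeq]
  have hx1 : x ≠ 1 := by
    rintro rfl
    rw [orderOf_one] at hx
    omega
  have hfilt : (pblocks M (Subgroup.centralizer ({x} : Set G))).filter
        (fun b' => IsInducedBlock M (Subgroup.centralizer ({x} : Set G)) b' B) = {b} := by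
    ext b'
    rw [Finset.mem_filter, Finset.mem_singleton]
    constructor
    · rintro ⟨-, h⟩
      exact induced_unique_of_card_le_two hM hB hkB.le (k := 1) (by rw [hx, pow_one]) hx1 h hb
    · rintro rfl
      exact ⟨mem_pblocks.2 hb.1, hb⟩
  -- expansions
  have hbp : ∀ χ : IrrCharacter G, ∃ c : ℂ, ∀ y : Subgroup.centralizer ({x} : Set G), ¬ 2 ∣ orderOf y →
      blockPart b (fun c : Subgroup.centralizer ({x} : Set G) => (χ : G → ℂ) (x * c)) y =
        c * (θ : ↥(Subgroup.centralizer ({x} : Set G)) → ℂ) y := by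
    intro χ
    refine ⟨classInner (fun c : Subgroup.centralizer ({x} : Set G) => (χ : G → ℂ) (x * c)) θ +
      classInner (fun c : Subgroup.centralizer ({x} : Set G) => (χ : G → ℂ) (x * c)) θ', ?_⟩
    intro y hy
    rw [blockPart_eq_filter, hfb, Finset.sum_pair hneθ', ← hregθ' y hy]
    ring
  choose c hc using hbp
  have hval : ∀ χ ∈ B, ∀ y : Subgroup.centralizer ({x} : Set G), ¬ 2 ∣ orderOf y →
      (χ : G → ℂ) (x * y) = c χ * (θ : ↥(Subgroup.centralizer ({x} : Set G)) → ℂ) y := by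
    intro χ hχ y hy
    rw [apply_mul_eq_sum_blockPart hM (k := 1) (by rw [hx, pow_one]) hB hχ y hy, hfilt,
      Finset.sum_singleton, hc χ y hy]
  have hone : ¬ 2 ∣ orderOf (1 : Subgroup.centralizer ({x} : Set G)) := by
    rw [orderOf_one]; norm_num
  have hθ1 := irr_apply_one_ne_zero θ
  have hc12 : c χ₂ = - c χ₁ := by
    have e1 := hval χ₁ h1B 1 hone
    have e2 := hval χ₂ h2B 1 hone
    simp only [OneMemClass.coe_one, mul_one] at e1 e2
    have e3 := hsing x (by rw [hx])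
    rw [e1, e2] at e3
    have : (c χ₁ + c χ₂) * (θ : ↥(Subgroup.centralizer ({x} : Set G)) → ℂ) 1 = 0 := by
      linear_combination e3
    rcases mul_eq_zero.1 this with h | h
    · linear_combination h
    · exact absurd h hθ1
  have hreal : conj (c χ₁) = c χ₁ := by
    have e1 := hval χ₁ h1B 1 hone
    simp only [OneMemClass.coe_one, mul_one] at e1
    have e2 : conj ((χ₁ : G → ℂ) x) = (χ₁ : G → ℂ) x := by
      rw [← isCharacter_inv (isCharacter_of_irr χ₁.2)]
      have : x⁻¹ = x := by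
        rw [inv_eq_iff_mul_eq_one, ← pow_two, ← hx, pow_orderOf_eq_one]
      rw [this]
    have e3 : conj ((θ : ↥(Subgroup.centralizer ({x} : Set G)) → ℂ) 1) =
        (θ : ↥(Subgroup.centralizer ({x} : Set G)) → ℂ) 1 := by
      rw [← charDegree_cast_irr, Complex.conj_natCast]
    rw [e1, map_mul, e3] at e2
    exact mul_right_cancel₀ hθ1 e2
  -- the norm
  set S : ℂ := ∑ y : Subgroup.centralizer ({x} : Set G), (if 2 ∣ orderOf y then 0 else
    (θ : ↥(Subgroup.centralizer ({x} : Set G)) → ℂ) y * conj ((θ : ↥(Subgroup.centralizer ({x} : Set G)) → ℂ) y)) with hS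
  have hn1 := sum_block_sum_reg hM (x := x) (k := 1) (by rw [hx, pow_one])
    (H := Subgroup.centralizer ({x} : Set G)) rfl hb
  have hinner : ∀ χ : IrrCharacter G, ∑ y : Subgroup.centralizer ({x} : Set G), (if 2 ∣ orderOf y then 0 else
      blockPart b (fun c : Subgroup.centralizer ({x} : Set G) => (χ : G → ℂ) (x * c)) y *
      conj (blockPart b (fun c : Subgroup.centralizer ({x} : Set G) => (χ : G → ℂ) (x * c)) y)) =
      c χ * conj (c χ) * S := by
    intro χ
    rw [hS, Finset.mul_sum]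
    apply Finset.sum_congr rfl
    intro y _
    split_ifs with hy
    · rw [mul_zero]
    · rw [hc χ y hy, map_mul]; ring
  rw [hfB, Finset.sum_pair hne12, hinner, hinner, hlb] at hn1
  have hn2 := card_mul_blockRank hM hb.1
  rw [hlb] at hn2
  have hn3 : ∑ y : Subgroup.centralizer ({x} : Set G), ∑ ξ ∈ Finset.univ.filter (· ∈ b),
      trunc 2 1 (ξ : ↥(Subgroup.centralizer ({x} : Set G)) → ℂ) y * conj ((ξ : ↥(Subgroup.centralizer ({x} : Set G)) → ℂ) y) = 2 * S := by
    rw [hS, Finset.mul_sum]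
    apply Finset.sum_congr rfl
    intro y _
    rw [hfb, Finset.sum_pair hneθ', trunc_apply, trunc_apply]
    split_ifs with hy
    · simp
    · rw [← hregθ' y hy]; ring
  rw [hn3] at hn2
  have hC0 : (Nat.card (Subgroup.centralizer ({x} : Set G)) : ℂ) ≠ 0 := card_ne_zero_complex
  have hS0 : S ≠ 0 := by
    intro h
    rw [h] at hn2
    simp at hn2
  have hsq : c χ₁ * c χ₁ = 1 := by
    rw [hc12, map_neg, hreal, hn2] at hn1
    have : (c χ₁ * c χ₁ - 1) * S = 0 := by linear_combination (1 / 2 : ℂ) * hn1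
    rcases mul_eq_zero.1 this with h | h
    · linear_combination h
    · exact absurd h hS0
  refine ⟨hkB, ?_, χ₁, h1B, χ₂, h2B, hne12, ?_⟩
  · intro χ hχ ψ hψ g hg
    rw [hBeq] at hχ hψ
    rcases hχ with rfl | hχ <;> rcases hψ with rfl | hψ
    · rfl
    · rw [Set.mem_singleton_iff] at hψ; subst hψ; exact hreg g hg
    · rw [Set.mem_singleton_iff] at hχ; subst hχ; exact (hreg g hg).symm
    · rw [Set.mem_singleton_iff] at hχ hψ; subst hχ; subst hψ; rfl
  · rcases mul_self_eq_one_iff.1 hsq with h | h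
    · refine ⟨1, -1, Or.inl rfl, Or.inr rfl, by norm_num, ?_⟩
      intro y hy
      rw [hval χ₁ h1B y hy, hval χ₂ h2B y hy, hc12, h]
      push_cast
      exact ⟨rfl, rfl⟩
    · refine ⟨-1, 1, Or.inr rfl, Or.inl rfl, by norm_num, ?_⟩
      intro y hy
      rw [hval χ₁ h1B y hy, hval χ₂ h2B y hy, hc12, h]
      push_cast
      exact ⟨rfl, by rw [neg_neg]⟩

end Cfsg.Agent.S4513
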