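import Cfsg.Statements.S4633
import Cfsg.Agent.BlockLib.KG.CycAut
import Cfsg.Agent.BlockLib.KG.ConstrainedChar
import Cfsg.Agent.BlockLib.KG.CentralMax
import Cfsg.Agent.BlockLib.KG.StabTr

set_option autoImplicit false
open Cfsg Cfsg.Agent.BlockLib

namespace Cfsg.Agent.S4633

/-- Let B be a block of the finite group G relative to a maximal ideal M of the algebraic integers containing the prime p, with a nontrivial cyclic defect group P. Let c be a block of C_G(P) inducing B and T the stabilizer of c in N_G(P) (the elements of N_G(P) conjugating c to itself); T contains C_G(P). Then T/C_G(P) is cyclic of order dividing p − 1, and it acts freely on the non-identity elements of P: an element of T fixing some non-identity element of P under conjugation lies in C_G(P). -/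
theorem result {G : Type*} [Group G] [Finite G] (p : ℕ) [Fact p.Prime] (M : Ideal Cfsg.AlgInt) (hM : Cfsg.IsPModular p M) (B : Set (Cfsg.IrrCharacter G)) (hB : Cfsg.IsPBlock M B) (P : Subgroup G) (hPD : Cfsg.IsDefectGroup p M B P) (hP1 : P ≠ ⊥) (hcyc : IsCyclic P) (c : Set (Cfsg.IrrCharacter (Subgroup.centralizer (P : Set G)))) (hc : Cfsg.IsInducedBlock M (Subgroup.centralizer (P : Set G)) c B) (T : Subgroup G) (hT : ∀ g : G, g ∈ T ↔ (g ∈ Subgroup.normalizer (P : Set G) ∧ Cfsg.StabilizesBlock (Subgroup.centralizer (P : Set G)) c g)) [hn : ((Subgroup.centralizer (P : Set G)).subgroupOf T).Normal] : IsCyclic (T ⧸ (Subgroup.centralizer (P : Set G)).subgroupOf T) ∧ (Subgroup.centralizer (P : Set G)).relIndex T ∣ p - 1 ∧ ∀ g ∈ T, ∀ x ∈ P, x ≠ 1 → g * x * g⁻¹ = x → g ∈ Subgroup.centralizer (P : Set G) := by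
  classical
  letI := Fintype.ofFinite G
  haveI := isPrime_of_isPModular hM
  haveI := charP_resField hM
  have hDG := (isDefectGroup_iff hB P).mp hPD
  have hP : IsPGroup p P := by
    obtain ⟨g, -, hg⟩ := hDG
    exact hg.1
  have hblk := hc.1
  have hBPOf : CA.IsBPOf p (eps M B) P (epsS M (Subgroup.centralizer (P : Set G)) c) :=
    ⟨⟨hP, isBlk_epsS hblk⟩, isBlk_eps hB, (isInducedBlock_centralizer_iff_br hP hblk hB).mp hc⟩
  have hmax := CA.isMaxBP_of_isDefGrp hBPOf hDG
  have hnd := hmax.not_dvd_relIndex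
  have hPC : P ≤ Subgroup.centralizer (P : Set G) := by
    intro x hx
    rw [Subgroup.mem_centralizer_iff]
    intro y hy
    obtain ⟨g, hg⟩ := hcyc.exists_generator
    obtain ⟨i, hi⟩ := Subgroup.mem_zpowers_iff.mp (hg ⟨x, hx⟩)
    obtain ⟨j, hj⟩ := Subgroup.mem_zpowers_iff.mp (hg ⟨y, hy⟩)
    have h1 : (⟨y, hy⟩ : P) * ⟨x, hx⟩ = ⟨x, hx⟩ * ⟨y, hy⟩ := by
      rw [← hi, ← hj, ← zpow_add, ← zpow_add, add_comm]
    exact congrArg Subtype.val h1
  rw [sup_eq_right.mpr hPC] at hnd
  have hTeq : T = CA.stab P (epsS M (Subgroup.centralizer (P : Set G)) c) := by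
    ext g
    rw [hT g]
    constructor
    · rintro ⟨h1, h2⟩
      exact ⟨h1, ((stabilizesBlock_iff hblk g).mp h2).2⟩
    · rintro ⟨h1, h2⟩
      exact ⟨h1, (stabilizesBlock_iff hblk g).mpr
        ⟨CA.normalizer_le_normalizer_centralizer P h1, h2⟩⟩
  rw [← hTeq] at hnd
  have hTN : T ≤ Subgroup.normalizer (P : Set G) := fun g hg => ((hT g).mp hg).1
  obtain ⟨h1, h2⟩ := CycAut.main hP hP1 hcyc hTN hnd
  exact ⟨h1, h2, fun g hg x hx hx1 hgx => CycAut.mem_centralizer_of_fix hP hcyc hTN hnd hg hx hx1 hgx⟩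

end Cfsg.Agent.S4633
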