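import Cfsg.Statements.S4636
import Cfsg.Agent.H24.Cyclic

set_option autoImplicit false
open scoped Pointwise
open Cfsg

namespace Cfsg.Agent.S4636

/-- Let P be a nontrivial cyclic p-subgroup of the finite group G and Z its subgroup of order p. For every x outside N_G(Z), P meets its conjugate xPx⁻¹ trivially; consequently N_G(Q) ≤ N_G(Z) for every nontrivial subgroup Q of P. -/
theorem result {G : Type*} [Group G] [Finite G] (p : ℕ) [Fact p.Prime] (P : Subgroup G) (hP : IsPGroup p P) (hP1 : P ≠ ⊥) (hcyc : IsCyclic P) (Z : Subgroup G) (hZ : Z ≤ P) (hZcard : Nat.card Z = p) : (∀ x : G, x ∉ Subgroup.normalizer (Z : Set G) → P ⊓ MulAut.conj x • P = ⊥) ∧ ∀ Q : Subgroup G, Q ≤ P → Q ≠ ⊥ → Subgroup.normalizer (Q : Set G) ≤ Subgroup.normalizer (Z : Set G) := by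
  have key : ∀ x : G, x ∉ Subgroup.normalizer (Z : Set G) → P ⊓ MulAut.conj x • P = ⊥ := by
    intro x hx
    by_contra hne
    apply hx
    set R := P ⊓ MulAut.conj x • P with hR
    have hRp : IsPGroup p R := hP.to_le inf_le_left
    have hRnt : Nontrivial R := (Subgroup.nontrivial_iff_ne_bot R).mpr hne
    obtain ⟨k, hk⟩ := IsPGroup.iff_card.mp hRp
    have hk0 : k ≠ 0 := by
      rintro rfl
      have : Nat.card R = 1 := by simpa using hk
      have := (Nat.card_eq_one_iff_unique.mp this).1
      exact not_subsingleton R this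
    have hdvd : p ∣ Nat.card R := by rw [hk]; exact dvd_pow_self p hk0
    obtain ⟨y, hy⟩ := exists_prime_orderOf_dvd_card' p hdvd
    set Z' : Subgroup G := Subgroup.zpowers (y : G) with hZ'
    have hZ'card : Nat.card Z' = p := by
      rw [hZ', Nat.card_zpowers, Subgroup.orderOf_coe, hy]
    have hZ'R : Z' ≤ R := by
      rw [hZ', Subgroup.zpowers_le]; exact y.2
    have h1 : Z' = Z := Cfsg.Agent.H24.cyclic_subgroup_eq_of_card_eq' P Z' Z
      (hZ'R.trans inf_le_left) hZ (hZ'card.trans hZcard.symm)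
    have hcyc' : IsCyclic (MulAut.conj x • P : Subgroup G) :=
      (Subgroup.equivSMul (MulAut.conj x) P).isCyclic.mp hcyc
    have h2 : Z' = MulAut.conj x • Z := by
      apply Cfsg.Agent.H24.cyclic_subgroup_eq_of_card_eq' (MulAut.conj x • P) Z' (MulAut.conj x • Z)
        (hZ'R.trans inf_le_right) (Subgroup.pointwise_smul_le_pointwise_smul_iff.mpr hZ)
      rw [hZ'card, ← hZcard]
      exact Nat.card_congr (Subgroup.equivSMul (MulAut.conj x) Z).toEquiv
    have h3 : MulAut.conj x • Z = Z := h2.symm.trans h1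
    rw [Subgroup.mem_normalizer_iff]
    intro h
    constructor
    · intro hh
      rw [← h3]
      exact ⟨h, hh, by simp [MulAut.conj_apply]⟩
    · intro hh
      rw [← h3] at hh
      obtain ⟨z, hz, hzz⟩ := hh
      have : z = h := by
        simpa [MulAut.conj_apply] using hzz
      exact this ▸ hz
  refine ⟨key, ?_⟩
  intro Q hQ hQ1 g hg
  by_contra hgn
  have h1 := key g hgn
  apply hQ1
  rw [eq_bot_iff, ← h1]
  refine le_inf hQ ?_
  intro q hq
  have h2 : g⁻¹ * q * g ∈ Q := by
    have := (Subgroup.mem_normalizer_iff.mp (inv_mem hg) q).mp hq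
    simpa using this
  exact ⟨g⁻¹ * q * g, hQ h2, by simp [MulAut.conj_apply, mul_assoc]⟩

end Cfsg.Agent.S4636
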