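import Cfsg.Statements.S4642
import Cfsg.Agent.BlockLib.KG.ConstrainedChar

set_option autoImplicit false
open Cfsg Cfsg.Agent.BlockLib

namespace Cfsg.Agent.S4642

/-- Let G be a finite group, p a prime, M a maximal ideal of the algebraic integers containing p, K the largest normal subgroup of G of order prime to p, and L the preimage in G of the largest normal p-subgroup of G/K. Let Q be a Sylow p-subgroup of L and suppose C_G(Q) ≤ L. Let θ be an irreducible character of K invariant under conjugation by every element of G, and let B be the set of irreducible characters of G whose restriction to K contains θ. Then B is a block of G, every Sylow p-subgroup of G is a defect group of B, and B is of principal type: for every p-subgroup R of G exactly one block of C_G(R) induces B. -/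
theorem result {G : Type*} [Group G] [Fintype G] (p : ℕ) [Fact p.Prime] (M : Ideal Cfsg.AlgInt) (hM : Cfsg.IsPModular p M) (K : Subgroup G) (hK : K = Cfsg.pPrimeCore p G) [Fintype K] (L : Subgroup G) (hL : L = Cfsg.pPrimePCore p G) (Q : Subgroup G) (hQL : Q ≤ L) (hQp : IsPGroup p Q) (hQS : ¬ p ∣ Q.relIndex L) (hCQ : Subgroup.centralizer (Q : Set G) ≤ L) (θ : Cfsg.IrrCharacter K) (hθ : ∀ g : G, Cfsg.IsConjCharOf K g (θ : K → ℂ) (θ : K → ℂ)) (B : Set (Cfsg.IrrCharacter G)) (hBdef : ∀ χ : Cfsg.IrrCharacter G, χ ∈ B ↔ Cfsg.classInner (fun k : K => (χ : G → ℂ) k) (θ : K → ℂ) ≠ 0) : Cfsg.IsPBlock M B ∧ (∀ S : Sylow p G, Cfsg.IsDefectGroup p M B S) ∧ ∀ R : Subgroup G, IsPGroup p R → ∃! f : Set (Cfsg.IrrCharacter (Subgroup.centralizer (R : Set G))), Cfsg.IsInducedBlock M (Subgroup.centralizer (R : Set G)) f B := by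
  haveI := isPrime_of_isPModular hM
  haveI := charP_resField hM
  haveI hKn : K.Normal := hK ▸ inferInstance
  have hG : IsPConstrained p G := by
    subst hL
    exact CA.isPConstrained_of_isSylIn (CA.isSylIn_of_not_dvd_relIndex hQL hQp hQS) hCQ
  obtain ⟨B', hB', h1, h2, -, h4⟩ := exists_block_over_stable hM hG hK θ
    (fun g n => hθ g n ⟨g * n * g⁻¹, hKn.conj_mem n n.2 g⟩ rfl)
  have hBB : B = B' := by
    ext χ
    rw [hBdef, h1]
  subst hBB
  refine ⟨hB', h2, fun R hR => ?_⟩
  obtain ⟨f, hf, hfe⟩ := exists_epsS_eq (h4 R hR)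
  refine ⟨f, ?_, fun f' hf' => ?_⟩
  · apply (isInducedBlock_centralizer_iff_br hR hf hB').mpr
    rw [hfe]
    exact (h4 R hR).idem
  · have h5 := (isInducedBlock_centralizer_iff_br hR hf'.1 hB').mp hf'
    rw [← hfe] at h5
    refine (epsS_injective hf hf'.1 ((isBlk_epsS hf).eq_of_mul_ne_zero (isBlk_epsS hf'.1) ?_)).symm
    rw [h5]
    exact (isBlk_epsS hf'.1).ne_zero

end Cfsg.Agent.S4642
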