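import Mathlib
import Cfsg.Statements.S4645
import Cfsg.Agent.H6.CycCentral
import Cfsg.Agent.BlockLib.KG.IndIn
import Cfsg.Agent.BlockLib.KG.StabTr

set_option autoImplicit false
open Cfsg

namespace Cfsg.Agent.S4645

open Cfsg.Agent.BlockLib Cfsg.Agent.CharLib Cfsg.Agent.Lib.Helper23.MinMax
open Cfsg.Agent.H6.KleinBlk Cfsg.Agent.H6.CycCentral

local notation "C(" P ")" => Subgroup.centralizer (SetLike.coe P)
local notation "N(" P ")" => Subgroup.normalizer (SetLike.coe P)

/-- Let B be a block of the finite group G relative to a maximal ideal M of the algebraic integers containing the prime p, with a nontrivial cyclic defect group P; let c be a block of C_G(P) inducing B and T the stabilizer of c in N_G(P). Let Q be a nontrivial subgroup of P (so C_G(P) ≤ C_G(Q)), f the block of C_G(Q) induced by c inside C_G(Q), and T' the stabilizer of f in N_G(Q). Then T' = T·C_G(Q), the index of C_G(Q) in T' equals the index of C_G(P) in T, f has p-regular rank 1, and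 f is a nilpotent block of C_G(Q). -/
theorem result {G : Type*} [Group G] [Finite G] (p : ℕ) [Fact p.Prime] (M : Ideal Cfsg.AlgInt) (hM : Cfsg.IsPModular p M) (B : Set (Cfsg.IrrCharacter G)) (hB : Cfsg.IsPBlock M B) (P : Subgroup G) (hPD : Cfsg.IsDefectGroup p M B P) (hP1 : P ≠ ⊥) (hcyc : IsCyclic P) (c : Set (Cfsg.IrrCharacter (Subgroup.centralizer (P : Set G)))) (hc : Cfsg.IsInducedBlock M (Subgroup.centralizer (P : Set G)) c B) (T : Subgroup G) (hT : ∀ g : G, g ∈ T ↔ (g ∈ Subgroup.normalizer (P : Set G) ∧ Cfsg.StabilizesBlock (Subgroup.centralizer (P : Set G)) c g)) (Q : Subgroup G) (hQP : Q ≤ P) (hQ1 : Q ≠ ⊥) (f : Set (Cfsg.IrrCharacter (Subgroup.centralizer (Q : Set G)))) (hf : Cfsg.IsInducedBlockIn M (Subgroup.centralizer (Q : Set G)) (Subgroup.centralizer (P : Set G)) c f) (T' : Subgroup G) (hT' : ∀ g : G, g ∈ T' ↔ (g ∈ Subgroup.normalizer (Q : Set G) ∧ Cfsg.StabilizesBlock (Subgroup.centralizer (Q : Set G)) f g)) : T' = T ⊔ Subgroup.centralizer (Q :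 Set G) ∧ (Subgroup.centralizer (Q : Set G)).relIndex T' = (Subgroup.centralizer (P : Set G)).relIndex T ∧ Cfsg.blockRank p f = 1 ∧ Cfsg.IsNilpotentBlock p M f := by
  classical
  letI := Fintype.ofFinite G
  haveI := isPrime_of_isPModular hM
  haveI := charP_resField hM
  have hDG := (isDefectGroup_iff hB P).mp hPD
  have hP : IsPGroup p P := by
    obtain ⟨g, -, hg⟩ := hDG
    exact hg.1
  have hblk := hc.1
  have hfblk := hf.2.1
  have hBPOf : CA.IsBPOf p (eps M B) P (epsS M C(P) c) :=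
    ⟨⟨hP, isBlk_epsS hblk⟩, isBlk_eps hB, (isInducedBlock_centralizer_iff_br hP hblk hB).mp hc⟩
  have hmax := CA.isMaxBP_of_isDefGrp hBPOf hDG
  have hnd := hmax.not_dvd_relIndex
  have hPC : P ≤ C(P) := le_centralizer_of_isCyclic hcyc
  rw [sup_eq_right.mpr hPC] at hnd
  have hTeq : T = CA.stab P (epsS M C(P) c) := eq_stab hblk hT
  have hT'eq : T' = CA.stab Q (epsS M C(Q) f) := eq_stab hfblk hT'
  have hQp : IsPGroup p Q := hP.to_le hQP
  have hCC : C(P) ≤ C(Q) := Subgroup.centralizer_le hQP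
  have hbr := (isInducedBlockIn_iff_br hP hPC hCC inf_le_right (CA.centralizer_le_normalizer' P)
    hblk hfblk).mp hf
  have hns : CA.NSub p Q (epsS M C(Q) f) P (epsS M C(P) c) :=
    ⟨⟨hQp, isBlk_epsS hfblk⟩, hBPOf.1, hQP,
      (hPC.trans hCC).trans (CA.centralizer_le_normalizer' Q),
      CA.fix_anti (hPC.trans hCC) (isBlk_epsS hfblk).mem.2, hbr⟩
  have hle := hns.subLE
  have hTN : CA.stab P (epsS M C(P) c) ≤ N(P) := fun x hx => hx.1
  have hNN : N(P) ≤ N(Q) := by
    have key : ∀ g ∈ N(P), ∀ h ∈ Q, g * h * g⁻¹ ∈ Q := by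
      intro g hg h hh
      exact (Subgroup.zpowers_le.mpr hh) (CycAut.conj_mem_zpowers hcyc hg (hQP hh)
        (Subgroup.mem_zpowers h))
    intro g hg
    rw [Subgroup.mem_normalizer_iff]
    intro h
    refine ⟨key g hg h, fun hh => ?_⟩
    have := key g⁻¹ (Subgroup.inv_mem _ hg) _ hh
    simpa [mul_assoc] using this
  haveI : (C(P).subgroupOf (CA.stab P (epsS M C(P) c))).Normal := by
    refine ⟨fun n hn x => ?_⟩
    rw [Subgroup.mem_subgroupOf] at hn ⊢
    have := (Subgroup.mem_normalizer_iff.mp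
      (CA.normalizer_le_normalizer_centralizer P (hTN x.2)) n).mp hn
    simpa using this
  obtain ⟨u, huQ, hu1⟩ : ∃ u ∈ Q, u ≠ 1 := by
    by_contra hcon
    push Not at hcon
    exact hQ1 ((Subgroup.eq_bot_iff_forall Q).mpr hcon)
  have hCT : C(P) ≤ CA.stab P (epsS M C(P) c) := CA.centralizer_le_stab (isBlk_epsS hblk).mem
  have hinfC : CA.stab P (epsS M C(P) c) ⊓ C(Q) = C(P) := by
    apply le_antisymm
    · rintro g ⟨hg, hgQ⟩
      refine CycAut.mem_centralizer_of_fix hP hcyc hTN hnd hg (hQP huQ) hu1 ?_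
      rw [← Subgroup.mem_centralizer_iff.mp hgQ u huQ, mul_inv_cancel_right]
    · exact le_inf hCT hCC
  have hinfN : CA.stab P (epsS M C(P) c) ⊓ N(Q) = CA.stab P (epsS M C(P) c) :=
    inf_eq_left.mpr (hTN.trans hNN)
  refine ⟨?_, ?_, ?_⟩
  · rw [hT'eq, hTeq]
    apply le_antisymm
    · intro x hx
      obtain ⟨y, hy, z, hz, rfl⟩ := hmax.stab_le_of_abelian hPC hle hx
      exact Subgroup.mul_mem _ (Subgroup.mem_sup_left hy) (Subgroup.mem_sup_right hz)
    · refine sup_le ?_ (CA.centralizer_le_stab (isBlk_epsS hfblk).mem)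
      have := hle.inf_normalizer_le_stab' hBPOf.1
      rwa [hinfN] at this
  · rw [hT'eq, hTeq, hmax.relIndex_of_abelian hPC hle, hinfC, hinfN]
  · -- inside `C(Q)`
    have hfB : IsInducedBlock M C(Q) f B :=
      (isInducedBlock_centralizer_iff_br hQp hfblk hB).mpr (hle.isBPOf_iff.mpr hBPOf).2.2
    obtain ⟨D', hD'⟩ := exists_isDefectGroup hM hfblk
    have hQK : Q ≤ C(Q) := hQP.trans (hPC.trans hCC)
    have hcen : ∀ q (hq : q ∈ Q), (⟨q, hQK hq⟩ : C(Q)) ∈ Subgroup.center C(Q) := by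
      intro q hq
      rw [Subgroup.mem_center_iff]
      intro g
      apply Subtype.ext
      exact (Subgroup.mem_centralizer_iff.mp g.2 q hq).symm
    have hpel : ∀ q (hq : q ∈ Q), ∃ k : ℕ, orderOf (⟨q, hQK hq⟩ : C(Q)) = p ^ k := by
      intro q hq
      obtain ⟨k, hk⟩ := hQp ⟨q, hq⟩
      have h2 : q ^ p ^ k = 1 := congrArg Subtype.val hk
      obtain ⟨i, -, hi⟩ := (Nat.dvd_prime_pow (Fact.out : p.Prime)).mp
        (orderOf_dvd_of_pow_eq_one h2)
      exact ⟨i, by rw [Subgroup.orderOf_mk, hi]⟩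
    have hQD : Q ≤ D'.map (Subgroup.subtype C(Q)) := by
      intro q hq
      exact ⟨⟨q, hQK hq⟩, mem_of_central hM hfblk hD' (hcen q hq) (hpel q hq), rfl⟩
    have hC : Subgroup.centralizer ((D'.map (Subgroup.subtype C(Q)) : Subgroup G) : Set G) ≤
        C(Q) := Subgroup.centralizer_le hQD
    have hab : IsMulCommutative P := ⟨⟨fun a b => Subtype.ext
      ((Subgroup.mem_centralizer_iff.mp (hPC b.2) a a.2))⟩⟩
    have h1 := ((Cfsg.Agent.S4726.result p M hM C(Q) f hfblk D' hD' hC).2 B hfB).2 P hPD hab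
    obtain ⟨x, -, hx⟩ := CA.IsDefGrp.conj (isBlk_eps hB) hDG ((isDefectGroup_iff hB _).mp h1)
    have hcyc1 : IsCyclic (D'.map (Subgroup.subtype C(Q)) : Subgroup G) := by
      rw [hx]
      exact isCyclic_of_surjective ((MulAut.conj x).toMonoidHom.subgroupMap P)
        ((MulAut.conj x).toMonoidHom.subgroupMap_surjective P)
    have hcyc2 : IsCyclic D' :=
      isCyclic_of_surjective
        (Subgroup.equivMapOfInjective D' _ (Subgroup.subtype_injective C(Q))).symm
        (Subgroup.equivMapOfInjective D' _ (Subgroup.subtype_injective C(Q))).symm.surjective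
    exact of_central hM hfblk hD' hcyc2 (hcen u huQ)
      (fun h => hu1 (congrArg Subtype.val h)) (hpel u huQ)

end Cfsg.Agent.S4645
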