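import Cfsg.Statements.S4646
import Cfsg.Agent.BlockLib.KG.NilTr
import Cfsg.Agent.BlockLib.KG.Principal
import Cfsg.Agent.Tr.Frobenius
import Cfsg.Agent.S0939
import Cfsg.Agent.S0925
import Cfsg.Agent.H25.Codeg
-- import your own Cfsg.Agent.* helpers here

set_option autoImplicit false
open Cfsg

open Cfsg Cfsg.Agent.BlockLib Cfsg.Agent.Tr Cfsg.Agent.CharLib

namespace Cfsg.Agent.S4646


universe u

theorem nil_iff_frob {G : Type u} [Group G] [Fintype G] (p : ℕ) [Fact p.Prime] (M : Ideal Cfsg.AlgInt)
    (hM : Cfsg.IsPModular p M) :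
    Cfsg.IsNilpotentBlock p M (Cfsg.principalBlock M G) ↔ Frob p G := by
  haveI := isPrime_of_isPModular hM
  haveI := charP_resField hM
  rw [isNilpotentBlock_iff isPBlock_principalBlock]
  have hb := isPrin_eps_principalBlock (M := M) (G := G)
  constructor
  · intro h Q hQ g hg hco
    have hf := isPrin_epsS_principalBlock (M := M) (Subgroup.centralizer (Q : Set G))
    refine h.2 Q _ (CA.isBPOf_prin hQ hb hf) g ⟨hg, ?_⟩ ?_
    · have h1 := hf.cj g
      rw [CA.cjs_eq_of_mem_normalizer (CA.normalizer_le_normalizer_centralizer Q hg)] at h1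
      exact h1.unique hf
    · intro hd
      have := Nat.Coprime.eq_one_of_dvd hco.symm hd
      exact (Fact.out : p.Prime).one_lt.ne' this
  · intro h
    refine ⟨hb.1, fun Q f hQf x hx hreg => h Q hQf.1.1 x hx.1 ?_⟩
    exact ((Nat.Prime.coprime_iff_not_dvd Fact.out).2 hreg).symm

theorem one_mem_principal {G : Type u} [Group G] (p : ℕ) (M : Ideal Cfsg.AlgInt)
    (hM : Cfsg.IsPModular p M) :
    (⟨fun _ => 1, isIrrCharacter_one⟩ : IrrCharacter G) ∈ principalBlock M G := by
  intro g
  simpa using memLocalIdeal_zero hM.2.1.ne_top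

theorem v0_ne {G : Type u} [Group G] (p : ℕ) [Fact p.Prime] :
    pRegularPart p (fun _ : G => (1 : ℂ)) ≠ 0 := by
  intro h
  have := congrFun h 1
  have h1 : IsPRegular p (1 : G) := by
    unfold IsPRegular
    rw [orderOf_one]
    exact (Fact.out : p.Prime).one_lt.ne' ∘ Nat.dvd_one.1
  simp [pRegularPart, h1] at this

theorem rank_of_npc {G : Type u} [Group G] [Finite G] (p : ℕ) [Fact p.Prime] (M : Ideal Cfsg.AlgInt)
    (hM : Cfsg.IsPModular p M) (h : HasNormalPComplement p G) :
    blockRank p (principalBlock M G) = 1 := by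
  obtain ⟨P, N, hN, hc⟩ := h
  have hNle : N ≤ pPrimeCore p G := le_sSup ⟨hN, coprime_card_of_isComplement' hc⟩
  have hidx : ∃ k, (pPrimeCore p G).index = p ^ k := by
    have h1 : (pPrimeCore p G).index ∣ N.index := Subgroup.index_dvd_of_le hNle
    have h2 : N.index = Nat.card P := hc.symm.index_eq_card
    obtain ⟨b, hb⟩ := IsPGroup.iff_card.mp P.2
    rw [h2, hb] at h1
    obtain ⟨k, -, hk⟩ := (Nat.dvd_prime_pow Fact.out).1 h1
    exact ⟨k, hk⟩
  have hB := Cfsg.Agent.S0939.result p M hM hidx
  have hspan : Submodule.span ℂ ((fun χ : IrrCharacter G => pRegularPart p (χ : G → ℂ)) ''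
      principalBlock M G) = Submodule.span ℂ {pRegularPart p (fun _ : G => (1 : ℂ))} := by
    apply le_antisymm
    · rw [Submodule.span_le]
      rintro _ ⟨χ, hχ, rfl⟩
      rw [SetLike.mem_coe, Submodule.mem_span_singleton]
      refine ⟨(χ : G → ℂ) 1, ?_⟩
      funext g
      simp only [pRegularPart, Pi.smul_apply, smul_eq_mul]
      split_ifs with hg
      · rw [mul_one]
        rw [hB] at hχ
        refine (hχ g (hNle ((mem_complement_iff hc g).2 ?_))).symm
        exact ((Nat.Prime.coprime_iff_not_dvd Fact.out).2 hg).symm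
      · simp
    · rw [Submodule.span_le, Set.singleton_subset_iff]
      exact Submodule.subset_span ⟨_, one_mem_principal p M hM, rfl⟩
  unfold blockRank
  rw [hspan]
  exact finrank_span_singleton (v0_ne p)

theorem npc_of_rank {G : Type u} [Group G] [Finite G] (p : ℕ) [Fact p.Prime] (M : Ideal Cfsg.AlgInt)
    (hM : Cfsg.IsPModular p M) (h : blockRank p (principalBlock M G) = 1) :
    HasNormalPComplement p G := by
  have hp : p.Prime := Fact.out
  have hreg1 : IsPRegular p (1 : G) := by
    unfold IsPRegular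
    rw [orderOf_one]
    exact hp.one_lt.ne' ∘ Nat.dvd_one.1
  have key : ∀ χ ∈ principalBlock M G, ∀ g : G, IsPRegular p g →
      (χ : G → ℂ) g = (χ : G → ℂ) 1 := by
    intro χ hχ g hg
    have hv0 : pRegularPart p (fun _ : G => (1 : ℂ)) ∈ Submodule.span ℂ
        ((fun χ : IrrCharacter G => pRegularPart p (χ : G → ℂ)) '' principalBlock M G) :=
      Submodule.subset_span ⟨_, one_mem_principal p M hM, rfl⟩
    have hmem : pRegularPart p (χ : G → ℂ) ∈ Submodule.span ℂ
        ((fun χ : IrrCharacter G => pRegularPart p (χ : G → ℂ)) '' principalBlock M G) :=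
      Submodule.subset_span ⟨χ, hχ, rfl⟩
    obtain ⟨c, hc⟩ := (finrank_eq_one_iff_of_nonzero' (⟨_, hv0⟩ : Submodule.span ℂ
        ((fun χ : IrrCharacter G => pRegularPart p (χ : G → ℂ)) '' principalBlock M G))
        (by intro h0; exact v0_ne (G := G) p (congrArg Subtype.val h0))).1 h ⟨_, hmem⟩
    have hc' : c • pRegularPart p (fun _ : G => (1 : ℂ)) = pRegularPart p (χ : G → ℂ) :=
      congrArg Subtype.val hc
    have e1 := congrFun hc' 1
    have eg := congrFun hc' g
    simp only [pRegularPart, Pi.smul_apply, smul_eq_mul, if_pos hreg1, if_pos hg, mul_one] at e1 eg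
    rw [← eg, ← e1]
  let K : Subgroup G := ⨅ χ : principalBlock M G, Cfsg.Agent.H25.kerSub χ.1
  have hKmem : ∀ g : G, g ∈ K ↔ ∀ χ ∈ principalBlock M G, (χ : G → ℂ) g = (χ : G → ℂ) 1 := by
    intro g
    simp only [K, Subgroup.mem_iInf, Cfsg.Agent.H25.mem_kerSub, Subtype.forall]
  have hres : pResidual p G ≤ K := by
    unfold pResidual
    rw [Subgroup.closure_le]
    intro g hg
    rw [SetLike.mem_coe, hKmem]
    intro χ hχ
    apply key χ hχ g
    intro hd
    exact hp.one_lt.ne' (Nat.Coprime.eq_one_of_dvd (Nat.Coprime.symm hg) hd)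
  have hKco : (Nat.card K).Coprime p := by
    rw [Nat.coprime_comm, Nat.Prime.coprime_iff_not_dvd hp]
    intro hd
    obtain ⟨g, hg⟩ := exists_prime_orderOf_dvd_card' p hd
    have hgo : orderOf (g : G) = p := by rw [Subgroup.orderOf_coe, hg]
    have hgK := (hKmem g).1 g.2
    have hpp : IsPPart p (g : G) (g : G) :=
      ⟨1, mul_one _, Commute.one_right _, ⟨1, by rw [hgo, pow_one]⟩, hreg1⟩
    have hp1 : IsPPart p (1 : G) (1 : G) :=
      ⟨1, mul_one _, Commute.one_right _, ⟨0, by rw [orderOf_one, pow_zero]⟩, hreg1⟩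
    have hnc : ¬ IsConj (g : G) 1 := by
      intro hc
      have : (g : G) = 1 := by
        rw [isConj_comm, isConj_one_right] at hc
        exact hc
      rw [this, orderOf_one] at hgo
      exact hp.one_lt.ne hgo
    have hsum := (Cfsg.Agent.S0925.result p M hM).2 (g : G) 1 (g : G) 1 hpp hp1 hnc _
      (isPBlock_principalBlock (M := M) (G := G))
    rw [finsum_mem_eq_finite_toFinset_sum _ (Set.toFinite _)] at hsum
    have hsum2 : ∑ χ ∈ (Set.toFinite (principalBlock M G)).toFinset,
        ((charDegree (χ : G → ℂ) ^ 2 : ℕ) : ℂ) = 0 := by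
      rw [← hsum]
      apply Finset.sum_congr rfl
      intro χ hχ
      rw [Set.Finite.mem_toFinset] at hχ
      rw [hgK χ hχ, inv_one, Cfsg.Agent.H25.charDegree_irr]
      push_cast
      ring
    rw [← Nat.cast_sum, Nat.cast_eq_zero, Finset.sum_eq_zero_iff] at hsum2
    have h0 := hsum2 ⟨fun _ => 1, isIrrCharacter_one⟩
      ((Set.Finite.mem_toFinset _).2 (one_mem_principal p M hM))
    have hpos := Cfsg.Agent.H25.charDegree_pos (⟨fun _ => 1, isIrrCharacter_one⟩ : IrrCharacter G)
    have := pow_pos hpos 2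
    omega
  rw [Cfsg.Agent.H12.hasNormalPComplement_iff]
  exact Nat.Coprime.coprime_dvd_left (Subgroup.card_dvd_of_le hres) hKco

/-- For a finite group G, a prime p and a maximal ideal M of the algebraic integers containing p: the principal block of G is nilpotent if and only if its p-regular rank is 1 (the trivial Brauer character is its only irreducible Brauer character). -/
theorem result {G : Type*} [Group G] [Finite G] (p : ℕ) [Fact p.Prime] (M : Ideal Cfsg.AlgInt) (hM : Cfsg.IsPModular p M) : Cfsg.IsNilpotentBlock p M (Cfsg.principalBlock M G) ↔ Cfsg.blockRank p (Cfsg.principalBlock M G) = 1 := by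

  cases nonempty_fintype G
  rw [nil_iff_frob p M hM, ← hasNormalPComplement_iff_frob]
  exact ⟨rank_of_npc p M hM, npc_of_rank p M hM⟩

end Cfsg.Agent.S4646
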