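import Mathlib
import Cfsg.Statements.S4650
import Cfsg.Agent.BlockLib.KG.IndIn
import Cfsg.Agent.BlockLib.KG.StabTr
import Cfsg.Agent.BlockLib.KG.NilTr
import Cfsg.Agent.BlockLib.KG.DictPairs
import Cfsg.Agent.BlockLib.KG.ConstrainedChar
import Cfsg.Agent.BlockLib.KG.ExtFirstMain

set_option autoImplicit false
open Cfsg

namespace Cfsg.Agent.S4650

open Cfsg.Agent.BlockLib Cfsg.Agent.CharLib

local notation "C(" P ")" => Subgroup.centralizer (SetLike.coe P)
local notation "N(" P ")" => Subgroup.normalizer (SetLike.coe P)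

/-- Let B be a block of the finite group G relative to a maximal ideal M of the algebraic integers containing the prime p, with a nontrivial commutative defect group P; let c be a block of C_G(P) inducing B and T the stabilizer of c in N_G(P). Then T/C_G(P) acts freely on the non-identity elements of P (an element of T fixing a non-identity element of P under conjugation lies in C_G(P)) if and only if, for every nontrivial subgroup Q of P, the block of C_G(Q) induced by c inside C_G(Q) is a nilpotent block of C_G(Q). -/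
theorem result {G : Type*} [Group G] [Finite G] (p : ℕ) [Fact p.Prime] (M : Ideal Cfsg.AlgInt) (hM : Cfsg.IsPModular p M) (B : Set (Cfsg.IrrCharacter G)) (hB : Cfsg.IsPBlock M B) (P : Subgroup G) (hPD : Cfsg.IsDefectGroup p M B P) (hPab : ∀ x ∈ P, ∀ y ∈ P, x * y = y * x) (hP1 : P ≠ ⊥) (c : Set (Cfsg.IrrCharacter (Subgroup.centralizer (P : Set G)))) (hc : Cfsg.IsInducedBlock M (Subgroup.centralizer (P : Set G)) c B) (T : Subgroup G) (hT : ∀ g : G, g ∈ T ↔ (g ∈ Subgroup.normalizer (P : Set G) ∧ Cfsg.StabilizesBlock (Subgroup.centralizer (P : Set G)) c g)) : (∀ g ∈ T, ∀ x ∈ P, x ≠ 1 → g * x * g⁻¹ = x → g ∈ Subgroup.centralizer (P : Set G)) ↔ ∀ Q : Subgroup G, Q ≤ P → Q ≠ ⊥ → ∀ f : Set (Cfsg.IrrCharacter (Subgroup.centralizer (Q : Set G))), Cfsg.IsInducedBlockIn M (Subgroup.centralizer (Q : Set G)) (Subgroup.centralizer (P : Set G)) c f → Cfsg.IsNilpotentBlock p M f := by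
  classical
  letI := Fintype.ofFinite G
  haveI := isPrime_of_isPModular hM
  haveI := charP_resField hM
  have hDG := (isDefectGroup_iff hB P).mp hPD
  have hP : IsPGroup p P := by
    obtain ⟨g, -, hg⟩ := hDG
    exact hg.1
  have hblk := hc.1
  have hBPOf : CA.IsBPOf p (eps M B) P (epsS M C(P) c) :=
    ⟨⟨hP, isBlk_epsS hblk⟩, isBlk_eps hB, (isInducedBlock_centralizer_iff_br hP hblk hB).mp hc⟩
  have hmax := CA.isMaxBP_of_isDefGrp hBPOf hDG
  have hPC : P ≤ C(P) := by
    intro x hx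
    rw [Subgroup.mem_centralizer_iff]
    intro y hy
    exact hPab y hy x hx
  have hTeq : T = CA.stab P (epsS M C(P) c) := eq_stab hblk hT
  have key : ∀ Q : Subgroup G, Q ≤ P → ∀ f : Set (IrrCharacter C(Q)),
      IsInducedBlockIn M C(Q) C(P) c f → (IsNilpotentBlock p M f ↔ T ⊓ C(Q) ≤ C(P)) := by
    intro Q hQP f hf
    letI : Fintype C(Q) := Fintype.ofFinite _
    have hfblk := hf.2.1
    have hCC : C(P) ≤ C(Q) := Subgroup.centralizer_le hQP
    have hPK : P ≤ C(Q) := hPC.trans hCC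
    have hbr := (isInducedBlockIn_iff_br hP hPC hCC inf_le_right (CA.centralizer_le_normalizer' P)
      hblk hfblk).mp hf
    have hup : CA.up C(Q) (P.subgroupOf C(Q)) = P := CA.up_subgroupOf hPK
    have hext : CA.ext0 C(Q) (CA.res C(Q) (epsS M C(P) c)) = epsS M C(P) c :=
      CA.ext0_res C(Q) (CA.supp_mono hCC (isBlk_epsS hblk).mem.1)
    have hBP'' : CA.IsBP p (P.subgroupOf C(Q)) (CA.res C(Q) (epsS M C(P) c)) :=
      (CA.isBP_up_iff C(Q) (by rw [hup]; exact hCC)).mp (by rw [hup, hext]; exact hBPOf.1)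
    have hBPOf'' : CA.IsBPOf p (eps M f) (P.subgroupOf C(Q)) (CA.res C(Q) (epsS M C(P) c)) := by
      refine ⟨hBP'', isBlk_eps hfblk, ?_⟩
      apply CA.ext0_injective C(Q)
      rw [map_mul, CA.ext0_br, hup, hext, ← epsS_eq_ext0]
      exact hbr
    have hmax'' : CA.IsMaxBP p (eps M f) (P.subgroupOf C(Q)) (CA.res C(Q) (epsS M C(P) c)) := by
      refine ⟨hBPOf'', fun R g hR hle => ?_⟩
      have h1 := CA.subLE_up C(Q) hle (by show C(CA.up C(Q) (P.subgroupOf C(Q))) ≤ C(Q); rw [hup]; exact hCC)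
      simp only [hup, hext] at h1
      have h2 : CA.IsBPOf p (eps M B) (CA.up C(Q) R) (CA.ext0 C(Q) g) := (h1.isBPOf_iff).mp hBPOf
      have h3 := hmax.2 _ _ h2 h1
      apply CA.up_injective (H := C(Q))
      rw [h3, hup]
    have hab'' : P.subgroupOf C(Q) ≤ C(P.subgroupOf C(Q)) := by
      intro x hx
      rw [Subgroup.mem_centralizer_iff]
      intro y hy
      apply Subtype.ext
      exact hPab y (Subgroup.mem_subgroupOf.mp hy) x (Subgroup.mem_subgroupOf.mp hx)
    rw [isNilpotentBlock_iff hfblk, hmax''.isNilBlk_iff_of_abelian hab'', ← CA.up_le_up (H := C(Q)),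
      CA.up_centralizer, hup, inf_eq_right.mpr hCC]
    have hupT : CA.up C(Q) (CA.stab (P.subgroupOf C(Q)) (CA.res C(Q) (epsS M C(P) c))) =
        T ⊓ C(Q) := by
      rw [hTeq]
      ext g
      constructor
      · rintro ⟨h, hh, rfl⟩
        obtain ⟨ha, hb⟩ := CA.mem_stab.mp hh
        refine ⟨CA.mem_stab.mpr ⟨?_, ?_⟩, h.2⟩
        · rw [← hup]; exact CA.coe_mem_normalizer_up.mpr ha
        · have := congrArg (CA.ext0 C(Q)) hb
          rwa [CA.ext0_cj, hext] at this
      · rintro ⟨hg, hgK⟩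
        obtain ⟨ha, hb⟩ := CA.mem_stab.mp hg
        refine ⟨⟨g, hgK⟩, CA.mem_stab.mpr ⟨?_, ?_⟩, rfl⟩
        · rw [← CA.coe_mem_normalizer_up, hup]; exact ha
        · apply CA.ext0_injective C(Q)
          rw [CA.ext0_cj, hext]
          exact hb
    rw [hupT]
  constructor
  · intro h Q hQP hQ1 f hf
    rw [key Q hQP f hf]
    rintro g ⟨hgT, hgQ⟩
    obtain ⟨u, huQ, hu1⟩ : ∃ u ∈ Q, u ≠ 1 := by
      by_contra hcon
      push Not at hcon
      exact hQ1 ((Subgroup.eq_bot_iff_forall Q).mpr hcon)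
    refine h g hgT u (hQP huQ) hu1 ?_
    rw [← Subgroup.mem_centralizer_iff.mp hgQ u huQ, mul_inv_cancel_right]
  · intro h g hgT x hxP hx1 hgx
    have hQP : Subgroup.zpowers x ≤ P := Subgroup.zpowers_le.mpr hxP
    have hQ1 : Subgroup.zpowers x ≠ ⊥ := by
      intro h0
      exact hx1 (Subgroup.zpowers_eq_bot.mp h0)
    have hCC : C(P) ≤ C(Subgroup.zpowers x) := Subgroup.centralizer_le hQP
    have hPN : P ≤ N(Subgroup.zpowers x) :=
      (hPC.trans hCC).trans (CA.centralizer_le_normalizer' _)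
    obtain ⟨f0, hf0, -⟩ := CA.existsUnique_nsub hBPOf.1 hQP hPN
    obtain ⟨f, hfblk, hfeq⟩ := exists_epsS_eq hf0.1.2
    have hf : IsInducedBlockIn M C(Subgroup.zpowers x) C(P) c f := by
      rw [isInducedBlockIn_iff_br hP hPC hCC inf_le_right (CA.centralizer_le_normalizer' P)
        hblk hfblk, hfeq]
      exact hf0.2.2.2.2.2
    have h1 := (key _ hQP f hf).mp (h _ hQP hQ1 f hf)
    apply h1
    refine ⟨hgT, ?_⟩
    show g ∈ C(Subgroup.zpowers x)
    rw [Subgroup.mem_centralizer_iff]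
    intro y hy
    obtain ⟨n, rfl⟩ := Subgroup.mem_zpowers_iff.mp hy
    have hcomm : Commute g x := by
      show g * x = x * g
      calc g * x = g * x * g⁻¹ * g := by group
        _ = x * g := by rw [hgx]
    exact ((hcomm.zpow_right n).eq).symm

end Cfsg.Agent.S4650
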