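import Mathlib
import Cfsg.Statements.S4654
import Cfsg.Agent.BlockLib.KG.StabTr
import Cfsg.Agent.BlockLib.KG.PairsTr
import Cfsg.Agent.BlockLib.KG.PRegTr
import Cfsg.Agent.BlockLib.KG.NormalP

set_option autoImplicit false
open Cfsg

namespace Cfsg.Agent.S4654

open Cfsg.Agent.BlockLib Cfsg.Agent.BlockLib.CA Cfsg.Agent.CharLib

local notation "C(" P ")" => Subgroup.centralizer (SetLike.coe P)
local notation "N(" P ")" => Subgroup.normalizer (SetLike.coe P)

theorem ofFun_sbc_mul_of_ne {G : Type*} [Group G] [Fintype G] {M : Ideal AlgInt} [M.IsPrime] (K : Subgroup G)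
    {e e' : Set (IrrCharacter K)} (he : IsPBlock M e) (he' : IsPBlock M e') (hne : e ≠ e') :
    (CA.ofFun (subgroupBlockCoeff K e) : CA ℂ G) * CA.ofFun (subgroupBlockCoeff K e') = 0 := by
  haveI : Fintype K := Fintype.ofFinite K
  rw [subgroupBlockCoeff_eq_ext0, subgroupBlockCoeff_eq_ext0, ← map_mul]
  have : (CA.ofFun (blockCoeff e) : CA ℂ K) * CA.ofFun (blockCoeff e') = 0 := by
    ext g
    have := congrFun (conv_idemSet_of_disjoint (pb_disjoint_of_ne he he' hne)) g
    rw [← blockCoeff_eq_idemSet', ← blockCoeff_eq_idemSet'] at this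
    exact this
  rw [this, map_zero]

/-- Fix a prime p and a maximal ideal M of the algebraic integers containing p. Let P be a normal p-subgroup of the finite group G, B a p-block of G and e a p-block of C_G(P) such that (P, e) is a Brauer pair of B (as P is normal, this says that e occurs in the idempotent of B, which is supported on C_G(P)). Let T be the stabilizer of e in G under conjugation. Then the idempotent of e is a block idempotent of T: some block E of T has, at every element of T, the same idempotent coefficient as e (zero off C_G(P)); and the idempotent of B is the sum of the distinct G-conjugates of the idempotent of e: its coefficient at g is the sum over all x in G of the coefficient of e at x⁻¹ g x, divided by the order of T. -/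
theorem result {G : Type*} [Group G] [Fintype G] (p : ℕ) [Fact p.Prime] (M : Ideal Cfsg.AlgInt) (hM : Cfsg.IsPModular p M) (P : Subgroup G) [P.Normal] (hP : IsPGroup p P) (B : Set (Cfsg.IrrCharacter G)) (e : Set (Cfsg.IrrCharacter (Subgroup.centralizer (P : Set G)))) (hBe : Cfsg.IsBrauerPairOf p M B P e) (T : Subgroup G) (hT : ∀ x : G, x ∈ T ↔ Cfsg.StabilizesBlock (Subgroup.centralizer (P : Set G)) e x) : (∃ E : Set (Cfsg.IrrCharacter T), Cfsg.IsPBlock M E ∧ ∀ t : T, Cfsg.blockCoeff E t = Cfsg.subgroupBlockCoeff (Subgroup.centralizer (P : Set G)) e (t : G)) ∧ ∀ g : G, Cfsg.blockCoeff B g = (Nat.card T : ℂ)⁻¹ * ∑ x : G, Cfsg.subgroupBlockCoeff (Subgroup.centralizer (P : Set G)) e (x⁻¹ * g * x) := by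
  classical
  haveI := isPrime_of_isPModular hM
  haveI := charP_resField hM
  have he : IsPBlock M e := hBe.1.2
  have hB : IsPBlock M B := hBe.2.1
  have hNP : ∀ x : G, x ∈ N(P) := fun x => by
    rw [Subgroup.normalizer_eq_top]; exact Subgroup.mem_top x
  refine ⟨exists_block_stab hP he (fun y => by rw [hT]; exact ⟨fun h => ⟨hNP y, h⟩, fun h => h.2⟩), ?_⟩
  have hNK : ∀ x : G, x ∈ Subgroup.normalizer (C(P) : Set G) := fun x => CA.normalizer_le_normalizer_centralizer P (hNP x)
  have hK : ∀ x : G, C(P) = CA.cjs x C(P) := fun x => (CA.cjs_eq_of_mem_normalizer (hNK x)).symm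
  set c : G → Set (IrrCharacter C(P)) := fun x => conjSet C(P) C(P) x e with hc
  have h1 : ∀ x g, subgroupBlockCoeff C(P) (c x) g = subgroupBlockCoeff C(P) e (x⁻¹ * g * x) :=
    fun x g => subgroupBlockCoeff_conjSet (hK x) e g
  have h2 : ∀ x, IsPBlock M (c x) := fun x => isPBlock_conjSet (hK x) he
  set ē := epsS M C(P) e with hē
  have h2' : ∀ x, epsS M C(P) (c x) = CA.cj x ē := fun x => epsS_conjSet (hK x) e
  have h3 : ∀ x y, c x = c y ↔ y⁻¹ * x ∈ T := by
    intro x y
    rw [hT, stabilizesBlock_iff he]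
    constructor
    · intro h
      refine ⟨hNK _, ?_⟩
      have := congrArg (epsS M C(P)) h
      rw [h2', h2'] at this
      rw [CA.cj_mul, this, ← CA.cj_mul, inv_mul_cancel, CA.cj_one]
    · rintro ⟨-, h⟩
      apply epsS_injective (h2 x) (h2 y)
      rw [h2', h2']
      have := congrArg (CA.cj y) h
      rwa [← CA.cj_mul, mul_inv_cancel_left] at this
  set 𝒪 : Finset (Set (IrrCharacter C(P))) := Finset.univ.image c with h𝒪
  have hcard : ∀ e' ∈ 𝒪, (Finset.univ.filter fun x => c x = e').card = Nat.card T := by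
    intro e' he'
    obtain ⟨y, -, rfl⟩ := Finset.mem_image.mp he'
    rw [Nat.card_eq_fintype_card, ← Finset.card_univ]
    symm
    refine Finset.card_bij (fun t _ => y * (t : G)) ?_ ?_ ?_
    · intro t _
      rw [Finset.mem_filter]
      refine ⟨Finset.mem_univ _, ?_⟩
      rw [h3, inv_mul_cancel_left]
      exact t.2
    · intro t _ t' _ h
      exact Subtype.ext (mul_left_cancel h)
    · intro x hx
      rw [Finset.mem_filter, h3] at hx
      exact ⟨⟨y⁻¹ * x, hx.2⟩, Finset.mem_univ _, by simp⟩
  set β : G → ℂ := ∑ e' ∈ 𝒪, subgroupBlockCoeff C(P) e' with hβ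
  have h4 : ∀ g, ∑ x : G, subgroupBlockCoeff C(P) e (x⁻¹ * g * x) = (Nat.card T : ℂ) * β g := by
    intro g
    simp_rw [← h1]
    rw [Finset.sum_comp (fun e' => subgroupBlockCoeff C(P) e' g) c, hβ, Finset.sum_apply,
      Finset.mul_sum]
    refine Finset.sum_congr rfl fun e' he' => ?_
    rw [hcard e' he', nsmul_eq_mul]
  have hT0 : (Nat.card T : ℂ) ≠ 0 := Nat.cast_ne_zero.mpr Nat.card_pos.ne'
  have hcl : IsClassFunction G β := by
    intro g h
    apply mul_left_cancel₀ hT0
    rw [← h4, ← h4]
    refine Fintype.sum_equiv (Equiv.mulLeft h⁻¹) _ _ fun x => ?_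
    congr 1
    simp [mul_assoc]
  have hO : ∀ e' ∈ 𝒪, IsPBlock M e' := by
    intro e' he'
    obtain ⟨y, -, rfl⟩ := Finset.mem_image.mp he'
    exact h2 y
  have hR : RVal M β := by
    intro g
    rw [hβ, Finset.sum_apply]
    exact memLocalRing_sum _ _ fun e' he' => rVal_subgroupBlockCoeff (hO e' he') g
  have hid : conv β β = β := by
    have h5 : (CA.ofFun β : CA ℂ G) = ∑ e' ∈ 𝒪, CA.ofFun (subgroupBlockCoeff C(P) e') := by
      ext g
      rw [CA.sum_apply, CA.ofFun_apply, hβ, Finset.sum_apply]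
      rfl
    have h6 : (CA.ofFun β : CA ℂ G) * CA.ofFun β = CA.ofFun β := by
      rw [h5, Finset.sum_mul_sum]
      refine Finset.sum_congr rfl fun a ha => ?_
      rw [Finset.sum_eq_single a]
      · exact ofFun_subgroupBlockCoeff_idem _ _
      · intro b hb hne
        exact ofFun_sbc_mul_of_ne _ (hO a ha) (hO b hb) hne.symm
      · intro h; exact absurd ha h
    funext g
    exact congrArg (fun a : CA ℂ G => a g) h6
  have hred : red M β = eps M B := by
    have hεB : CA.IsBlk (⊤ : Subgroup G) (eps M B) := isBlk_eps hB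
    have hNtop : (⊤ : Subgroup G) ≤ N(P) := fun x _ => hNP x
    have hbe : eps M B * ē = ē := by
      have h7 := ((isBrauerPairOf_iff hB he).mp hBe).2.2
      rwa [CA.br_eq_self (CA.idem_mem_supp_centralizer hP le_top hNtop hεB.mem hεB.idem)] at h7
    rw [CA.eq_orbSum_of_mul_eq hP le_top hNtop le_top (isBlk_epsS he) hεB hbe, hβ,
      red_sum _ _ fun e' he' => rVal_subgroupBlockCoeff (hO e' he'), CA.orbSum]
    refine Finset.sum_bij (fun e' _ => epsS M C(P) e') ?_ ?_ ?_ ?_
    · intro e' he'
      obtain ⟨y, -, rfl⟩ := Finset.mem_image.mp he'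
      exact CA.mem_orb.mpr ⟨isBlk_epsS (h2 y), y, Subgroup.mem_top y, (h2' y).symm⟩
    · intro a ha b hb h
      exact epsS_injective (hO a ha) (hO b hb) h
    · intro b hb
      obtain ⟨-, y, -, rfl⟩ := CA.mem_orb.mp hb
      exact ⟨c y, Finset.mem_image_of_mem _ (Finset.mem_univ y), h2' y⟩
    · intro a _
      rfl
  obtain ⟨F, hF, hFβ⟩ := exists_block_of_idem hcl hR hid (by rw [hred]; exact isBlk_eps hB)
  have hFB : F = B := by
    apply eps_injective hF hB
    rw [← hred, eps]
    congr 1
    funext g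
    exact hFβ g
  intro g
  rw [h4, ← mul_assoc, inv_mul_cancel₀ hT0, one_mul, ← hFβ, hFB]

end Cfsg.Agent.S4654
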