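import Cfsg.Statements.S4657
import Cfsg.Agent.BlockLib.KG.PairsTr

set_option autoImplicit false
open Cfsg Cfsg.Agent.BlockLib

namespace Cfsg.Agent.S4657

/-- Fix a prime p and a maximal ideal M of the algebraic integers containing p. Every Brauer pair (P, e) of the finite group G is a Brauer pair of exactly one p-block B of G. -/
theorem result {G : Type*} [Group G] [Fintype G] (p : ℕ) [Fact p.Prime] (M : Ideal Cfsg.AlgInt) (hM : Cfsg.IsPModular p M) (P : Subgroup G) (e : Set (Cfsg.IrrCharacter (Subgroup.centralizer (P : Set G)))) (hPe : Cfsg.IsBrauerPair p M P e) : ∃! B : Set (Cfsg.IrrCharacter G), Cfsg.IsBrauerPairOf p M B P e := by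
  haveI := isPrime_of_isPModular hM
  haveI := charP_resField hM
  obtain ⟨b, hb, huniq⟩ := CA.existsUnique_block_of_pair (p := p)
    (⟨hPe.1, isBlk_epsS hPe.2⟩ : CA.IsBP p P (epsS M _ e))
  obtain ⟨B, hB, rfl⟩ := exists_eps_eq hb.2.1
  refine ⟨B, (isBrauerPairOf_iff hB hPe.2).mpr hb, fun B' hB' => ?_⟩
  exact eps_injective hB'.2.1 hB (huniq _ ((isBrauerPairOf_iff hB'.2.1 hPe.2).mp hB'))

end Cfsg.Agent.S4657
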