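import Cfsg.Statements.S4662
import Cfsg.Agent.BlockLib.KG.StabTr

set_option autoImplicit false
open Cfsg Cfsg.Agent.BlockLib

namespace Cfsg.Agent.S4662

/-- Fix a prime p and a maximal ideal M of the algebraic integers containing p. Let (P, e) be a maximal Brauer pair of the p-block B of the finite group G, Q ≤ P, and f the p-block of C_G(Q) with (Q, f) ≤ (P, e). Let T be the stabilizer of f in N_G(Q). Then the idempotent of f is a block idempotent of T, and N_P(Q) is contained in a defect group of that block of T; moreover for some x in G the conjugate pair (x Q x⁻¹, conjugate of f) again lies below (P, e) and, with T' the stabilizer of the conjugate of f in N_G(x Q x⁻¹), N_P(x Q x⁻¹) is a defect group of the block of T' whose idempotent is that of the conjugate of f. -/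
theorem result {G : Type*} [Group G] [Fintype G] (p : ℕ) [Fact p.Prime] (M : Ideal Cfsg.AlgInt) (hM : Cfsg.IsPModular p M) (B : Set (Cfsg.IrrCharacter G)) (P Q : Subgroup G) (e : Set (Cfsg.IrrCharacter (Subgroup.centralizer (P : Set G)))) (f : Set (Cfsg.IrrCharacter (Subgroup.centralizer (Q : Set G)))) (hmax : Cfsg.IsMaximalBrauerPair p M B P e) (hQP : Q ≤ P) (hf : Cfsg.IsPBlock M f) (hle : Cfsg.SubpairLE p M Q f P e) (T : Subgroup G) (hT : ∀ y : G, y ∈ T ↔ y ∈ Subgroup.normalizer (Q : Set G) ∧ Cfsg.StabilizesBlock (Subgroup.centralizer (Q : Set G)) f y) : (∃ F : Set (Cfsg.IrrCharacter T), Cfsg.IsPBlock M F ∧ (∀ t : T, Cfsg.blockCoeff F t = Cfsg.subgroupBlockCoeff (Subgroup.centralizer (Q : Set G)) f (t : G)) ∧ ∃ D : Subgroup T, Cfsg.IsDefectGroup p M F D ∧ (P ⊓ Subgroup.normalizer (Q : Set G)).subgroupOf T ≤ D) ∧ ∃ x : G, Cfsg.SubpairLE p M (Q.map (MulAut.conj x).toMonoidHom) (Cfsg.conjBlock Q x f) P e ∧ ∀ (T' : Subgroup G), (∀ y : G, y ∈ T' ↔ y ∈ Subgroup.normalizer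 ((Q.map (MulAut.conj x).toMonoidHom) : Set G) ∧ Cfsg.StabilizesBlock (Subgroup.centralizer ((Q.map (MulAut.conj x).toMonoidHom) : Set G)) (Cfsg.conjBlock Q x f) y) → ∃ F' : Set (Cfsg.IrrCharacter T'), Cfsg.IsPBlock M F' ∧ (∀ t : T', Cfsg.blockCoeff F' t = Cfsg.subgroupBlockCoeff (Subgroup.centralizer ((Q.map (MulAut.conj x).toMonoidHom) : Set G)) (Cfsg.conjBlock Q x f) (t : G)) ∧ Cfsg.IsDefectGroup p M F' ((P ⊓ Subgroup.normalizer ((Q.map (MulAut.conj x).toMonoidHom) : Set G)).subgroupOf T') := by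
  haveI := isPrime_of_isPModular hM
  haveI := charP_resField hM
  have he : IsPBlock M e := hmax.1.1.2
  have hB : IsPBlock M B := hmax.1.2.1
  have hmax' := (isMaximalBrauerPair_iff hB he).mp hmax
  have hle' := (subpairLE_iff hf he).mp hle
  have hPe := hmax'.1.1
  have hQf := hle'.isBP hPe
  have hTs := eq_stab hf hT
  constructor
  · obtain ⟨F, hF, hFc⟩ := exists_block_stab hQf.1 hf hT
    refine ⟨F, hF, hFc, ?_⟩
    have hCT : Subgroup.centralizer (Q : Set G) ≤ T := by
      rw [hTs]; exact CA.centralizer_le_stab hQf.2.mem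
    have hFe := epsS_eq_of_coeff (M := M) hCT hFc
    obtain ⟨D, hD, hPD⟩ := hle'.exists_isDefGrp_ge hPe (K := T)
      (by rw [hTs]; exact CA.stab_le_normalizer _ _) (by rw [hTs]; exact hQf.isBlk_stab)
    refine ⟨D.subgroupOf T, (isDefectGroup_subgroupOf_iff hF hD.le).mpr (by rw [hFe]; exact hD), ?_⟩
    apply Subgroup.comap_mono
    rw [← hle'.inf_stab hPe, ← hTs]
    exact hPD
  · obtain ⟨y, hy, hD⟩ := hmax'.exists_conj_isDefGrp hle' le_rfl hQf.isBlk_stab
    have hf' := isPBlock_conjBlock y hf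
    refine ⟨y, ?_, fun T' hT' => ?_⟩
    · rw [subpairLE_iff hf' he, epsS_conjBlock]
      exact hy
    · have hQf' := hy.isBP hPe
      obtain ⟨F', hF', hFc'⟩ := exists_block_stab hQf'.1 hf' hT'
      have hTs' := eq_stab hf' hT'
      rw [epsS_conjBlock] at hTs'
      refine ⟨F', hF', hFc', ?_⟩
      have hCT' : Subgroup.centralizer ((Q.map (MulAut.conj y).toMonoidHom : Subgroup G) : Set G) ≤ T' := by
        rw [hTs']; exact CA.centralizer_le_stab hQf'.2.mem
      have hFe' := epsS_eq_of_coeff (M := M) hCT' hFc'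
      have hle2 : P ⊓ Subgroup.normalizer ((Q.map (MulAut.conj y).toMonoidHom : Subgroup G) : Set G) ≤ T' := by
        rw [hTs']; exact hy.inf_normalizer_le_stab hPe
      rw [isDefectGroup_subgroupOf_iff hF' hle2, hFe', epsS_conjBlock, hTs', ← hy.inf_stab hPe,
        CA.stab_cjs]
      exact hD

end Cfsg.Agent.S4662
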