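import Mathlib
import Cfsg.Statements.S4664
import Cfsg.Agent.Lib.Helper23.MinMax
import Cfsg.Agent.CharLib.Eigen

set_option autoImplicit false
open Cfsg
open scoped ComplexConjugate

namespace Cfsg.Agent.S4664

open Cfsg.Agent.BlockLib Cfsg.Agent.CharLib

/-- Fix a prime p and a maximal ideal M of the algebraic integers containing p, and let B be a p-block of the finite group G. Let m be the p'-part of the order of G and η = exp(2πi/m). Then every coefficient of the idempotent of B lies in the cyclotomic field ℚ(η). -/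
theorem result {G : Type*} [Group G] [Fintype G] (p : ℕ) [Fact p.Prime] (M : Ideal Cfsg.AlgInt) (hM : Cfsg.IsPModular p M) (B : Set (Cfsg.IrrCharacter G)) (hB : Cfsg.IsPBlock M B) (g : G) : Cfsg.blockCoeff B g ∈ IntermediateField.adjoin ℚ ({Complex.exp (2 * Real.pi * Complex.I / ((Nat.card G / p ^ (Nat.card G).factorization p : ℕ) : ℂ))} : Set ℂ) := by
  classical
  have hp : p.Prime := Fact.out
  set m := Nat.card G / p ^ (Nat.card G).factorization p with hm
  set η := Complex.exp (2 * Real.pi * Complex.I / (m : ℂ)) with hη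
  set F := IntermediateField.adjoin ℚ ({η} : Set ℂ) with hF
  have hm0 : m ≠ 0 := (Nat.ordCompl_pos p Nat.card_pos.ne').ne'
  haveI : NeZero m := ⟨hm0⟩
  have hprim : IsPrimitiveRoot η m := Complex.isPrimitiveRoot_exp m hm0
  have hηF : η ∈ F := IntermediateField.subset_adjoin ℚ _ (Set.mem_singleton η)
  by_cases hg : p ∣ orderOf g
  · rw [Cfsg.Agent.Lib.Helper23.MinMax.blockCoeff_eq_zero_of_singular hM hB hg]
    exact F.zero_mem
  have hdvd : orderOf g ∣ m := by
    have h1 : orderOf g ∣ Nat.card G := orderOf_dvd_natCard g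
    rw [← Nat.ordProj_mul_ordCompl_eq_self (Nat.card G) p] at h1
    exact (Nat.Coprime.pow_right _ ((Nat.coprime_comm.mp
      ((Nat.Prime.coprime_iff_not_dvd hp).mpr hg)))).dvd_of_dvd_mul_left h1
  have hval : ∀ χ : IrrCharacter G, conj ((χ : G → ℂ) g) ∈ F := by
    intro χ
    obtain ⟨n, ρ, -, hρ⟩ := χ.2
    rw [← hρ, ← character_inv]
    obtain ⟨b, μ, hμ, -, hsum⟩ := character_eq_sum_eigen ρ g⁻¹
    rw [hsum]
    refine F.sum_mem fun i _ => ?_
    have h1 : μ i ^ m = 1 := by
      obtain ⟨c, hc⟩ := hdvd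
      rw [hc, pow_mul, ← orderOf_inv, hμ i, one_pow]
    obtain ⟨j, -, hj⟩ := hprim.eq_pow_of_pow_eq_one h1
    rw [← hj]
    exact F.pow_mem hηF j
  have hdeg : ∀ χ : IrrCharacter G, (χ : G → ℂ) 1 ∈ F := by
    intro χ
    obtain ⟨n, hn⟩ := isCharacter_apply_one (isCharacter_of_irr χ.2)
    rw [hn]
    exact natCast_mem F n
  rw [blockCoeff]
  refine F.mul_mem (F.inv_mem (natCast_mem F _)) ?_
  exact finsum_mem_induction (· ∈ F) F.zero_mem (fun _ _ => F.add_mem)
    (fun χ _ => F.mul_mem (hdeg χ) (hval χ))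

end Cfsg.Agent.S4664
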