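import Cfsg.Statements.S4668
import Cfsg.Agent.BlockLib.KG.Support
import Cfsg.Agent.BlockLib.KG.PRegTr
import Cfsg.Agent.H9.PAct

set_option autoImplicit false
open Cfsg Cfsg.Agent.BlockLib

namespace Cfsg.Agent.S4668

/-- Fix a prime p and a maximal ideal M of the algebraic integers containing p. Let Q₀ < Q₁ < ⋯ < Q_m be a strictly increasing chain of p-subgroups of the finite group G and N the intersection of their normalizers. Then every block idempotent of N is supported on C_G(Q_m): for every p-block E of N, the idempotent coefficient of E vanishes at every element of N outside C_G(Q_m). -/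
theorem result {G : Type*} [Group G] [Fintype G] (p : ℕ) [Fact p.Prime] (M : Ideal Cfsg.AlgInt) (hM : Cfsg.IsPModular p M) (m : ℕ) (Q : Fin (m + 1) → Subgroup G) (hQ : StrictMono Q) (hQp : ∀ i, IsPGroup p (Q i)) (N : Subgroup G) (hN : ∀ g : G, g ∈ N ↔ ∀ i, g ∈ Subgroup.normalizer (Q i : Set G)) (E : Set (Cfsg.IrrCharacter N)) (hE : Cfsg.IsPBlock M E) (n : N) (hn : (n : G) ∉ Subgroup.centralizer (Q (Fin.last m) : Set G)) : Cfsg.blockCoeff E n = 0 := by
  classical
  haveI := isPrime_of_isPModular hM
  haveI := charP_resField hM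
  haveI : CA.PReg (ResField M) G p := pReg_resField hM
  letI : Fintype N := Fintype.ofFinite _
  have hNn : ∀ i, N ≤ Subgroup.normalizer (Q i : Set G) := fun i g hg => (hN g).mp hg i
  have hmono := hQ.monotone
  -- the normal `p`-subgroup `R = N ∩ Q_m` of `N`
  have hRp : IsPGroup p (N ⊓ Q (Fin.last m) : Subgroup G) := (hQp _).to_le inf_le_right
  have hRn : N ≤ Subgroup.normalizer ((N ⊓ Q (Fin.last m) : Subgroup G) : Set G) := by
    intro x hx
    apply CA.mem_normalizer_of_cjs_eq
    rw [CA.cjs_inf, CA.cjs_eq_of_mem_normalizer (Subgroup.le_normalizer hx),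
      CA.cjs_eq_of_mem_normalizer (hNn _ hx)]
  have hε := isBlk_epsS hE
  have hsupp := CA.idem_mem_supp_centralizer hRp inf_le_left hRn hε.mem hε.idem
  -- group theory
  have key : ∀ g ∈ N, ¬ p ∣ orderOf g →
      g ∈ Subgroup.centralizer ((N ⊓ Q (Fin.last m) : Subgroup G) : Set G) →
      ∀ i : ℕ, ∀ hi : i < m + 1, ∀ r ∈ Q ⟨i, hi⟩, g * r = r * g := by
    intro g hgN hreg hgC i
    have hcen : ∀ r ∈ N ⊓ Q (Fin.last m), g * r = r * g := fun r hr =>
      (Subgroup.mem_centralizer_iff.mp hgC r hr).symm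
    induction i with
    | zero =>
      intro hi r hr
      apply hcen r
      refine ⟨(hN r).mpr fun j => ?_, hmono (Fin.le_last _) hr⟩
      exact Subgroup.le_normalizer (hmono (Fin.zero_le j) hr)
    | succ i ih =>
      intro hi
      have hi' : i < m + 1 := Nat.lt_of_succ_lt hi
      have hle : Q ⟨i, hi'⟩ ≤ Q ⟨i + 1, hi⟩ := hmono (by
        rw [Fin.le_def]; exact Nat.le_succ i)
      apply Cfsg.H9.thompson_AxB (hQp ⟨i + 1, hi⟩) (hQp ⟨i, hi'⟩)
        (hle.trans Subgroup.le_normalizer) (hNn _ hgN)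
        ((Nat.Prime.coprime_iff_not_dvd (Fact.out : p.Prime)).mpr hreg).symm
        (fun u hu => (ih hi' u hu).symm)
      intro r hr hrc
      apply hcen r
      refine ⟨(hN r).mpr fun j => ?_, hmono (Fin.le_last _) hr⟩
      by_cases hj : (j : ℕ) ≤ i
      · -- `r` centralizes `Q_i ≥ Q_j`
        have hji : Q j ≤ Q ⟨i, hi'⟩ := hmono (by rw [Fin.le_def]; exact hj)
        apply CA.centralizer_le_normalizer' (Q j)
        rw [Subgroup.mem_centralizer_iff]
        intro u hu
        exact hrc u (hji hu)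
      · have hij : Q ⟨i + 1, hi⟩ ≤ Q j := hmono (by rw [Fin.le_def]; exact Nat.lt_of_not_le hj)
        exact Subgroup.le_normalizer (hij hr)
  haveI hTn : ((Subgroup.centralizer (Q (Fin.last m) : Set G)).subgroupOf N).Normal := by
    have h1 : (Subgroup.centralizer (Q (Fin.last m) : Set G) ⊓ N).subgroupOf N =
        (Subgroup.centralizer (Q (Fin.last m) : Set G)).subgroupOf N := by
      rw [Subgroup.inf_subgroupOf_right]
    rw [← h1]
    apply (Subgroup.normal_subgroupOf_iff_le_normalizer inf_le_right).mpr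
    intro x hx
    apply CA.mem_normalizer_of_cjs_eq
    rw [CA.cjs_inf, CA.cjs_eq_of_mem_normalizer (Subgroup.le_normalizer hx),
      CA.cjs_eq_of_mem_normalizer (CA.normalizer_le_normalizer_centralizer _ (hNn _ hx))]
  apply blockCoeff_eq_zero_of_eps_mem_supp hE
    ((Subgroup.centralizer (Q (Fin.last m) : Set G)).subgroupOf N) _ (g := n) hn
  intro g hg
  have h1 : eps M E g = epsS M N E (g : G) := by
    rw [epsS_eq_ext0, CA.ext0_apply_coe]
  rw [h1]
  by_cases hreg : p ∣ orderOf (g : G)
  · exact CA.PReg.reg N _ hε _ hreg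
  · by_contra hne
    apply hg
    have hgC : (g : G) ∈ Subgroup.centralizer ((N ⊓ Q (Fin.last m) : Subgroup G) : Set G) := by
      by_contra hgC
      exact hne (hsupp _ hgC)
    show (g : G) ∈ Subgroup.centralizer (Q (Fin.last m) : Set G)
    rw [Subgroup.mem_centralizer_iff]
    intro r hr
    exact (key g g.2 hreg hgC m (Nat.lt_succ_self m) r hr).symm

end Cfsg.Agent.S4668
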