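import Cfsg.Statements.S4670
import Cfsg.Agent.BlockLib.KG.FirstMain
import Cfsg.Agent.BlockLib.KG.DefSubTr

set_option autoImplicit false
open Cfsg Cfsg.Agent.BlockLib

namespace Cfsg.Agent.S4670

/-- Fix a prime p and a maximal ideal M of the algebraic integers containing p. Let P be a p-subgroup of the finite group G and H a subgroup containing N_G(P). For every p-block B of G with defect group P there is exactly one p-block c of H with defect group P whose idempotent agrees with that of B, modulo the local ideal at M, at every element of C_G(P) (their Brauer-map images at P coincide); and every p-block c of H with defect group P arises in this way from exactly one such B. This is the Brauer correspondence over H. -/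
theorem result {G : Type*} [Group G] [Fintype G] (p : ℕ) [Fact p.Prime] (M : Ideal Cfsg.AlgInt) (hM : Cfsg.IsPModular p M) (P H : Subgroup G) (hP : IsPGroup p P) (hH : Subgroup.normalizer (P : Set G) ≤ H) : (∀ B : Set (Cfsg.IrrCharacter G), Cfsg.IsPBlock M B → Cfsg.IsDefectGroup p M B P → ∃! c : Set (Cfsg.IrrCharacter H), Cfsg.IsPBlock M c ∧ Cfsg.IsDefectGroup p M c (P.subgroupOf H) ∧ ∀ x : G, x ∈ Subgroup.centralizer (P : Set G) → Cfsg.MemLocalIdeal M (Cfsg.blockCoeff B x - Cfsg.subgroupBlockCoeff H c x)) ∧ (∀ c : Set (Cfsg.IrrCharacter H), Cfsg.IsPBlock M c → Cfsg.IsDefectGroup p M c (P.subgroupOf H) → ∃! B : Set (Cfsg.IrrCharacter G), Cfsg.IsPBlock M B ∧ Cfsg.IsDefectGroup p M B P ∧ ∀ x : G, x ∈ Subgroup.centralizer (P : Set G) → Cfsg.MemLocalIdeal M (Cfsg.blockCoeff B x - Cfsg.subgroupBlockCoeff H c x)) := by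
  haveI := isPrime_of_isPModular hM
  haveI := charP_resField hM
  have hPH : P ≤ H := Subgroup.le_normalizer.trans hH
  have key : ∀ (B : Set (IrrCharacter G)) (c : Set (IrrCharacter H)), IsPBlock M B → IsPBlock M c →
      ((∀ x : G, x ∈ Subgroup.centralizer (P : Set G) →
        MemLocalIdeal M (blockCoeff B x - subgroupBlockCoeff H c x)) ↔
        CA.br P (eps M B) = CA.br P (epsS M H c)) := by
    intro B c hB hc
    constructor
    · intro h
      ext x
      by_cases hx : x ∈ Subgroup.centralizer (P : Set G)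
      · rw [CA.br_apply_of_mem _ hx, CA.br_apply_of_mem _ hx]
        exact (redS_eq_iff (memLocalRing_blockCoeff hB x) (rVal_subgroupBlockCoeff hc x)).mpr (h x hx)
      · rw [CA.br_apply_of_not_mem _ hx, CA.br_apply_of_not_mem _ hx]
    · intro h x hx
      have := congrArg (fun a : CA (ResField M) G => a x) h
      simp only [CA.br_apply_of_mem _ hx] at this
      exact (redS_eq_iff (memLocalRing_blockCoeff hB x) (rVal_subgroupBlockCoeff hc x)).mp this
  constructor
  · intro B hB hD
    have hD' := (isDefectGroup_iff hB P).mp hD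
    obtain ⟨h1, h2⟩ := CA.fm1 (isBlk_eps hB) hD'
    obtain ⟨c₀, hc₀, hDc₀, hbr⟩ := CA.rel_fm2 hH h1 h2
    obtain ⟨c, hc, rfl⟩ := exists_epsS_eq hc₀
    refine ⟨c, ⟨hc, (isDefectGroup_subgroupOf_iff hc hPH).mpr hDc₀, (key B c hB hc).mpr hbr.symm⟩, ?_⟩
    rintro c' ⟨hc', -, h3⟩
    apply epsS_injective hc' hc
    have h4 := (key B c' hB hc').mp h3
    refine (isBlk_epsS hc').eq_of_br_eq hP hPH (isBlk_epsS hc) ?_ (by rw [← h4, hbr])
    rw [← h4]
    exact h1.ne_zero
  · intro c hc hD
    have hD' := (isDefectGroup_subgroupOf_iff hc hPH).mp hD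
    obtain ⟨h1, h2⟩ := CA.rel_fm1 hH (isBlk_epsS hc) hD'
    obtain ⟨b, hb, hDb, hbr⟩ := CA.fm2 h1 h2
    obtain ⟨B, hB, rfl⟩ := exists_eps_eq hb
    refine ⟨B, ⟨hB, (isDefectGroup_iff hB P).mpr hDb, (key B c hB hc).mpr hbr⟩, ?_⟩
    rintro B' ⟨hB', -, h3⟩
    apply eps_injective hB' hB
    have h4 := (key B' c hB' hc).mp h3
    refine (isBlk_eps hB').eq_of_br_eq hP le_top (isBlk_eps hB) ?_ (by rw [h4, hbr])
    rw [h4]
    exact h1.ne_zero

end Cfsg.Agent.S4670
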