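import Cfsg.Statements.S4671
import Cfsg.Agent.BlockLib.KG.Knorr2
import Cfsg.Agent.BlockLib.KG.DefSubTr
import Cfsg.Agent.H25.Cover

set_option autoImplicit false
open Cfsg Cfsg.Agent.BlockLib

namespace Cfsg.Agent.S4671

/-- Fix a prime p and a maximal ideal M of the algebraic integers containing p. Let N be a normal subgroup of the finite group G, B a p-block of G and P a defect group of B. Then there is a p-block c of N, stable under conjugation by P and covered by B (some member of B has a constituent in c on restriction to N), such that P ∩ N is a defect group of c. -/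
theorem result {G : Type*} [Group G] [Fintype G] (p : ℕ) [Fact p.Prime] (M : Ideal Cfsg.AlgInt) (hM : Cfsg.IsPModular p M) (N : Subgroup G) [N.Normal] [Fintype N] (B : Set (Cfsg.IrrCharacter G)) (hB : Cfsg.IsPBlock M B) (P : Subgroup G) (hP : Cfsg.IsDefectGroup p M B P) : ∃ c : Set (Cfsg.IrrCharacter N), Cfsg.IsPBlock M c ∧ (∀ x ∈ P, Cfsg.StabilizesBlock N c x) ∧ (∃ χ ∈ B, ∃ θ ∈ c, Cfsg.classInner (fun n : N => (χ : G → ℂ) n) (θ : N → ℂ) ≠ 0) ∧ Cfsg.IsDefectGroup p M c ((P ⊓ N).subgroupOf N) := by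
  haveI := isPrime_of_isPModular hM
  haveI := charP_resField hM
  have hP' := (isDefectGroup_iff hB P).mp hP
  obtain ⟨c, hc, hPs, hne, hD⟩ := CA.exists_blk_isDefGrp_inf (le_top : N ≤ ⊤)
    (by rw [Subgroup.normalizer_eq_top]) (isBlk_eps hB) hP'
  obtain ⟨c', hc', rfl⟩ := exists_epsS_eq hc
  refine ⟨c', hc', fun x hx => (stabilizesBlock_iff hc' x).mpr (hPs hx),
    (Cfsg.Agent.H25.covers_iff_mul_ne_zero hB hc').mpr hne,
    (isDefectGroup_subgroupOf_iff hc' inf_le_right).mpr hD⟩

end Cfsg.Agent.S4671
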