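import Cfsg.Statements.S4672
import Cfsg.Agent.BlockLib.KG.PRegTr
import Cfsg.Agent.BlockLib.KG.LiftIdem

set_option autoImplicit false
open Cfsg Cfsg.Agent.BlockLib

namespace Cfsg.Agent.S4672

/-- Fix a prime p and a maximal ideal M of the algebraic integers containing p. Let N be a normal subgroup of the finite group G of p-power index and c a p-block of N stable under conjugation by G. Then the idempotent of c is a block idempotent of G: there is a p-block B of G whose idempotent coefficients agree with those of c on N and vanish off N; and for every defect group P of such a block B, G = NP and P ∩ N is a defect group of c. -/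
theorem result {G : Type*} [Group G] [Fintype G] (p : ℕ) [Fact p.Prime] (M : Ideal Cfsg.AlgInt) (hM : Cfsg.IsPModular p M) (N : Subgroup G) [N.Normal] (hN : ∃ k : ℕ, N.index = p ^ k) (c : Set (Cfsg.IrrCharacter N)) (hc : Cfsg.IsPBlock M c) (hst : ∀ x : G, Cfsg.StabilizesBlock N c x) : (∃ B : Set (Cfsg.IrrCharacter G), Cfsg.IsPBlock M B ∧ ∀ g : G, Cfsg.blockCoeff B g = Cfsg.subgroupBlockCoeff N c g) ∧ ∀ B : Set (Cfsg.IrrCharacter G), Cfsg.IsPBlock M B → (∀ g : G, Cfsg.blockCoeff B g = Cfsg.subgroupBlockCoeff N c g) → ∀ P : Subgroup G, Cfsg.IsDefectGroup p M B P → N ⊔ P = ⊤ ∧ Cfsg.IsDefectGroup p M c ((P ⊓ N).subgroupOf N) := by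
  haveI := isPrime_of_isPModular hM
  haveI := charP_resField hM
  haveI : CA.PReg (ResField M) G p := pReg_resField hM
  obtain ⟨k, hk⟩ := hN
  have hd : CA.IsBlk N (epsS M N c) := isBlk_epsS hc
  have hNn : (⊤ : Subgroup G) ≤ Subgroup.normalizer (N : Set G) := by
    rw [Subgroup.normalizer_eq_top]
  have hreg : ∀ x ∈ (⊤ : Subgroup G), ¬ p ∣ orderOf x → x ∈ N := fun x _ hx => mem_of_index_pow hk hx
  have hfix : epsS M N c ∈ CA.fix (⊤ : Subgroup G) :=
    CA.mem_fix_iff_cj.mpr fun x _ => ((stabilizesBlock_iff hc x).mp (hst x)).2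
  have hdT : CA.IsBlk ⊤ (epsS M N c) := hd.of_preg le_top hreg hfix
  constructor
  · apply exists_block_of_idem (β := subgroupBlockCoeff N c)
    · intro g h
      have := subgroupBlockCoeff_conj hc (hst h⁻¹) g
      rw [inv_inv] at this
      exact this
    · exact rVal_subgroupBlockCoeff hc
    · funext t
      exact congrArg (fun a : CA ℂ G => a t) (ofFun_subgroupBlockCoeff_idem N c)
    · exact hdT
  · intro B hB hBc P hP
    have heq : eps M B = epsS M N c := by
      unfold eps epsS
      congr 1
      funext g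
      exact hBc g
    have hP' := (isDefectGroup_iff hB P).mp hP
    rw [heq] at hP'
    obtain ⟨h1, h2⟩ := CA.le_sup_of_isDefGrp_of_preg le_top hNn hreg hd hdT hP'
    refine ⟨?_, (isDefectGroup_subgroupOf_iff hc inf_le_right).mpr h2⟩
    rw [sup_comm]
    exact top_le_iff.mp h1

end Cfsg.Agent.S4672
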