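import Cfsg.Statements.S4673
import Cfsg.Agent.BlockLib.KG.PRegTr
import Cfsg.Agent.H25.Cover

set_option autoImplicit false
open Cfsg Cfsg.Agent.BlockLib

namespace Cfsg.Agent.S4673

/-- Fix a prime p and a maximal ideal M of the algebraic integers containing p. Let N ≤ L be normal subgroups of the finite group G with L/N a p-group, let B be a p-block of G covering the p-block c of N (some member of B has a constituent in c on restriction to N), and suppose that N contains a defect group of B. Then the stabilizer T of c in G satisfies T ∩ L = N. -/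
theorem result {G : Type*} [Group G] [Fintype G] (p : ℕ) [Fact p.Prime] (M : Ideal Cfsg.AlgInt) (hM : Cfsg.IsPModular p M) (N L : Subgroup G) [N.Normal] [L.Normal] [Fintype N] (hNL : N ≤ L) (hLN : ∃ k : ℕ, (N.subgroupOf L).index = p ^ k) (B : Set (Cfsg.IrrCharacter G)) (hB : Cfsg.IsPBlock M B) (c : Set (Cfsg.IrrCharacter N)) (hc : Cfsg.IsPBlock M c) (hcov : (∃ χ ∈ B, ∃ θ ∈ c, Cfsg.classInner (fun n : N => (χ : G → ℂ) n) (θ : N → ℂ) ≠ 0)) (hD : ∃ D : Subgroup G, Cfsg.IsDefectGroup p M B D ∧ D ≤ N) (T : Subgroup G) (hT : ∀ x : G, x ∈ T ↔ Cfsg.StabilizesBlock N c x) : T ⊓ L = N := by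
  haveI := isPrime_of_isPModular hM
  haveI := charP_resField hM
  haveI : CA.PReg (ResField M) G p := pReg_resField hM
  obtain ⟨k, hk⟩ := hLN
  obtain ⟨D, hD, hDN⟩ := hD
  have hd : CA.IsBlk N (epsS M N c) := isBlk_epsS hc
  have hNn : (⊤ : Subgroup G) ≤ Subgroup.normalizer (N : Set G) := by
    rw [Subgroup.normalizer_eq_top]
  have hLn : (⊤ : Subgroup G) ≤ Subgroup.normalizer (L : Set G) := by
    rw [Subgroup.normalizer_eq_top]
  have hreg : ∀ x ∈ L, ¬ p ∣ orderOf x → x ∈ N := by
    intro x hx hnd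
    haveI : Fintype L := Fintype.ofFinite L
    have := mem_of_index_pow (N := N.subgroupOf L) hk (x := ⟨x, hx⟩)
      (by rw [Subgroup.orderOf_mk]; exact hnd)
    exact this
  have hcov' := (Cfsg.Agent.H25.covers_iff_mul_ne_zero hB hc).mp hcov
  have key := CA.inf_stab_le_of_isDefGrp_le hNL le_top hNn hLn hreg (isBlk_eps hB) hd hcov'
    ((isDefectGroup_iff hB D).mp hD) hDN
  apply le_antisymm
  · intro x hx
    exact key ⟨hx.2, (stabilizesBlock_iff hc x).mp ((hT x).mp hx.1)⟩
  · intro x hx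
    exact ⟨(hT x).mpr ((stabilizesBlock_iff hc x).mpr (CA.le_inf_stab hNL hd hx).2), hNL hx⟩

end Cfsg.Agent.S4673
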