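import Cfsg.Statements.S4674
import Cfsg.Agent.BlockLib.KG.HarrisKnorr
import Cfsg.Agent.BlockLib.KG.CoverRel
import Cfsg.Agent.BlockLib.KG.IndIn
import Cfsg.Agent.BlockLib.KG.DefSubTr
import Cfsg.Agent.H25.IndBlock

set_option autoImplicit false
open Cfsg Cfsg.Agent.BlockLib

namespace Cfsg.Agent.S4674

/-- Fix a prime p and a maximal ideal M of the algebraic integers containing p. Let N be a normal subgroup of the finite group G, Q a p-subgroup of N, H = N_G(Q) and L = H ∩ N = N_N(Q). Let d be a p-block of N with defect group Q and e the p-block of L with defect group Q that induces d inside N (its Brauer correspondent). Then block induction from H to G is a bijection from the p-blocks of H covering e onto the p-blocks of G covering d: every block of H covering e induces exactly one block of G, and that block covers d; and every block of G covering d is induced by exactly one block of H covering e. -/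
theorem result {G : Type*} [Group G] [Fintype G] (p : ℕ) [Fact p.Prime] (M : Ideal Cfsg.AlgInt) (hM : Cfsg.IsPModular p M) (N : Subgroup G) [N.Normal] [Fintype N] (Q : Subgroup G) (hQ : IsPGroup p Q) (hQN : Q ≤ N) [Fintype ↥(Subgroup.normalizer (Q : Set G) ⊓ N)] (d : Set (Cfsg.IrrCharacter N)) (hd : Cfsg.IsPBlock M d) (hdQ : Cfsg.IsDefectGroup p M d (Q.subgroupOf N)) (e : Set (Cfsg.IrrCharacter ↥(Subgroup.normalizer (Q : Set G) ⊓ N))) (he : Cfsg.IsPBlock M e) (heQ : Cfsg.IsDefectGroup p M e (Q.subgroupOf (Subgroup.normalizer (Q : Set G) ⊓ N))) (hed : Cfsg.IsInducedBlockIn M N (Subgroup.normalizer (Q : Set G) ⊓ N) e d) : (∀ c : Set (Cfsg.IrrCharacter ↥(Subgroup.normalizer (Q : Set G))), Cfsg.IsPBlock M c → (∃ ψ ∈ c, ∃ ξ ∈ e, Cfsg.classInner (fun l : ↥(Subgroup.normalizer (Q : Set G) ⊓ N) => (ψ : ↥(Subgroup.normalizer (Q : Set G)) → ℂ) (Subgroup.inclusion inf_le_left l)) (ξ : ↥(Subgroup.normalizer (Q : Set G) ⊓ N) → ℂ) ≠ 0) →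 ∃! B : Set (Cfsg.IrrCharacter G), Cfsg.IsInducedBlock M (Subgroup.normalizer (Q : Set G)) c B ∧ (∃ χ ∈ B, ∃ θ ∈ d, Cfsg.classInner (fun n : N => (χ : G → ℂ) n) (θ : N → ℂ) ≠ 0)) ∧ (∀ B : Set (Cfsg.IrrCharacter G), Cfsg.IsPBlock M B → (∃ χ ∈ B, ∃ θ ∈ d, Cfsg.classInner (fun n : N => (χ : G → ℂ) n) (θ : N → ℂ) ≠ 0) → ∃! c : Set (Cfsg.IrrCharacter ↥(Subgroup.normalizer (Q : Set G))), (Cfsg.IsPBlock M c ∧ ∃ ψ ∈ c, ∃ ξ ∈ e, Cfsg.classInner (fun l : ↥(Subgroup.normalizer (Q : Set G) ⊓ N) => (ψ : ↥(Subgroup.normalizer (Q : Set G)) → ℂ) (Subgroup.inclusion inf_le_left l)) (ξ : ↥(Subgroup.normalizer (Q : Set G) ⊓ N) → ℂ) ≠ 0) ∧ Cfsg.IsInducedBlock M (Subgroup.normalizer (Q : Set G)) c B) := by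
  haveI := isPrime_of_isPModular hM
  haveI := charP_resField hM
  haveI : Fintype ↥(Subgroup.normalizer (Q : Set G)) := Fintype.ofFinite _
  have hd' : CA.IsBlk N (epsS M N d) := isBlk_epsS hd
  have he' : CA.IsBlk (Subgroup.normalizer (Q : Set G) ⊓ N) (epsS M _ e) := isBlk_epsS he
  have hQL : Q ≤ Subgroup.normalizer (Q : Set G) ⊓ N := le_inf Subgroup.le_normalizer hQN
  have hdQ' := (isDefectGroup_subgroupOf_iff hd hQN).mp hdQ
  have heQ' := (isDefectGroup_subgroupOf_iff he hQL).mp heQ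
  have hed' := (isInducedBlockIn_iff_br hQ hQL inf_le_right
    (le_inf (inf_le_right.trans (CA.centralizer_le_normalizer' Q)) inf_le_left) inf_le_left
    he hd).mp hed
  have hfm := (CA.sub_fm1 hd' hdQ').1
  rw [inf_comm] at hfm
  have hbe : CA.br Q (epsS M N d) = epsS M _ e :=
    hfm.eq_of_mul_ne_zero he' (by rw [hed']; exact he'.ne_zero)
  have hHL : Subgroup.normalizer (Q : Set G) ≤
      Subgroup.normalizer ((Subgroup.normalizer (Q : Set G) ⊓ N : Subgroup G) : Set G) := by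
    intro x hx
    apply CA.mem_normalizer_of_cjs_eq
    rw [CA.cjs_inf, CA.cjs_eq_of_mem_normalizer (Subgroup.le_normalizer hx),
      CA.cjs_eq_of_mem_normalizer (by rw [Subgroup.normalizer_eq_top]; trivial)]
  have hcovc : ∀ {c : Set (IrrCharacter ↥(Subgroup.normalizer (Q : Set G)))}, IsPBlock M c →
      ((∃ ψ ∈ c, ∃ ξ ∈ e, classInner (fun l : ↥(Subgroup.normalizer (Q : Set G) ⊓ N) =>
        (ψ : ↥(Subgroup.normalizer (Q : Set G)) → ℂ) (Subgroup.inclusion inf_le_left l))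
        (ξ : ↥(Subgroup.normalizer (Q : Set G) ⊓ N) → ℂ) ≠ 0) ↔
        epsS M _ c * CA.br Q (epsS M N d) ≠ 0) := by
    intro c hc
    rw [hbe]
    exact covers_rel_iff inf_le_left hHL hc he
  have hind : ∀ {c : Set (IrrCharacter ↥(Subgroup.normalizer (Q : Set G)))}
      {B : Set (IrrCharacter G)}, IsPBlock M c → IsPBlock M B →
      (IsInducedBlock M (Subgroup.normalizer (Q : Set G)) c B ↔
        CA.br Q (eps M B) * epsS M _ c = epsS M _ c) := fun hc hB =>
    Cfsg.Agent.H6.IndBlk.isInducedBlock_iff_br hQ Subgroup.le_normalizer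
      (CA.centralizer_le_normalizer' Q) le_rfl hc hB
  constructor
  · intro c hc hcov
    have hcov' := (hcovc hc).mp hcov
    obtain ⟨b, hb, hbc⟩ := Cfsg.Agent.H6.FirstMain.exists_blk_br_mul hQ
      (CA.centralizer_le_normalizer' Q) le_rfl (isBlk_epsS hc)
    obtain ⟨B, hB, rfl⟩ := exists_eps_eq hb
    refine ⟨B, ⟨(hind hc hB).mpr hbc, (Cfsg.Agent.H25.covers_iff_mul_ne_zero hB hd).mpr
      (CA.hk_covers hQ hQN hd' (isBlk_epsS hc) hcov' hb hbc)⟩, ?_⟩
    rintro B' ⟨hB', -⟩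
    exact Cfsg.Agent.H25.isInducedBlock_unique hB' ((hind hc hB).mpr hbc)
  · intro B hB hcov
    have hcov' := (Cfsg.Agent.H25.covers_iff_mul_ne_zero hB hd).mp hcov
    obtain ⟨c', hc', hce, hbc⟩ := CA.hk_exists hQ hQN hd' (hdQ'.br_ne_zero hd') (isBlk_eps hB) hcov'
    obtain ⟨c, hc, rfl⟩ := exists_epsS_eq hc'
    refine ⟨c, ⟨⟨hc, (hcovc hc).mpr hce⟩, (hind hc hB).mpr hbc⟩, ?_⟩
    rintro c₂ ⟨⟨hc₂, hcov₂⟩, hind₂⟩
    apply epsS_injective hc₂ hc
    have hce₂ := (hcovc hc₂).mp hcov₂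
    rw [hbe] at hce hce₂
    exact CA.hk_unique hQN he' heQ' (isBlk_eps hB) (isBlk_epsS hc₂) hce₂ ((hind hc₂ hB).mp hind₂)
      hc' hce hbc

end Cfsg.Agent.S4674
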