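import Cfsg.Statements.S4676
import Cfsg.Agent.Lib.Helper23.Trunc4

set_option autoImplicit false
open Cfsg

namespace Cfsg.Agent.S4676

open Cfsg

open Cfsg Cfsg.Agent.CharLib Cfsg.Agent.BlockLib Cfsg.Agent.Lib.Helper23 Cfsg.Agent.Lib.Helper23.Trunc Cfsg.Agent.Lib.Helper23.MinMax
open scoped ComplexConjugate

/-- Fix a prime p and a maximal ideal M of the algebraic integers containing p. Let B be a p-block of the finite group G with defect group P. For χ in B, let the height of χ be the exponent of p in the degree of χ minus the least such exponent over the members of B. Then the sum over χ in B of p raised to twice the height of χ is at most the integer part of (order of P)²/4, plus 1; in particular B has at most that many irreducible characters. -/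
theorem result {G : Type*} [Group G] [Fintype G] (p : ℕ) [Fact p.Prime] (M : Ideal Cfsg.AlgInt) (hM : Cfsg.IsPModular p M) (B : Set (Cfsg.IrrCharacter G)) (hB : Cfsg.IsPBlock M B) (P : Subgroup G) (hP : Cfsg.IsDefectGroup p M B P) : ∑ᶠ χ ∈ B, p ^ (2 * Cfsg.blockHeight p B (χ : G → ℂ)) ≤ Nat.card P ^ 2 / 4 + 1 := by
  classical
  have hp : p.Prime := Fact.out
  have hMp := isPrime_of_isPModular hM
  have htop := ne_top_of_isPModular hM
  have hp0 : (p : ℂ) ≠ 0 := by exact_mod_cast hp.ne_zero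
  have hne := nonempty_of_isPBlock htop hB
  obtain ⟨χ, hχ, hh⟩ := exists_minExp (p := p) hne
  rw [card_of_isDefectGroup hM hB hP]
  set d := Cfsg.blockDefect p B with hd
  set e := minExp p B with he
  set a := (Nat.card G).factorization p with ha
  have hea : e ≤ a := minExp_le_card hne
  have hd' : d = a - e := blockDefect_eq p B
  have hz : ∀ ν : IrrCharacter G, ∃ z : ℤ,
      classInner (trunc p ((p : ℂ) ^ d) (χ : G → ℂ)) (ν : G → ℂ) = z := fun ν =>
    exists_int_classInner_trunc hp χ ν d (by omega)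
  choose z hz using hz
  set m := Nat.card G / p ^ a with hm
  have hGm : Nat.card G = p ^ a * m := (Nat.ordProj_mul_ordCompl_eq_self (Nat.card G) p).symm
  have hpm : ¬ p ∣ m := Nat.not_dvd_ordCompl hp Nat.card_pos.ne'
  have hht : ∀ ν : IrrCharacter G, Cfsg.blockHeight p B (ν : G → ℂ) =
      (charDegree (ν : G → ℂ)).factorization p - e := fun ν => rfl
  have hz0 : ∀ ν ∈ B, (p : ℤ) ^ (2 * Cfsg.blockHeight p B (ν : G → ℂ)) ≤ z ν ^ 2 := by
    intro ν hν
    have h1 := card_mul_int_eq χ ν d (hz ν)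
    have h2 := not_memLocalIdeal_omega_cf hM hB hχ hh hν
    have h2' := memLocalRing_omega_cf hM ν χ
    set T := omega (ν : G → ℂ) (cf p (χ : G → ℂ)) with hT
    have hD : charDegree (ν : G → ℂ) ≠ 0 := (charDegree_pos_irr ν).ne'
    have hrel0 : ((p : ℂ) ^ e * z ν) * m = (charDegree (ν : G → ℂ) : ℂ) * T := by
      have h3 : (p : ℂ) ^ d * (((p : ℂ) ^ e * z ν) * m) =
          (p : ℂ) ^ d * ((charDegree (ν : G → ℂ) : ℂ) * T) := by
        rw [← h1, hGm]
        push_cast
        have : a = d + e := by omega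
        rw [this, pow_add]
        ring
      exact mul_left_cancel₀ (pow_ne_zero _ hp0) h3
    have key : (p ^ e * (z ν).natAbs) ≠ 0 ∧ (p ^ e * (z ν).natAbs).factorization p =
        (charDegree (ν : G → ℂ)).factorization p := by
      rcases Int.natAbs_eq (z ν) with h | h
      · apply factorization_eq_of_unit hM hpm hD (T := T) _ h2' h2
        rw [← hrel0]
        push_cast
        congr 2
        conv_rhs => rw [h]
        simp
      · apply factorization_eq_of_unit hM hpm hD (T := -T) _ (memLocalRing_neg h2')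
          (fun hc => h2 (by simpa using memLocalIdeal_neg hc))
        rw [mul_neg, ← hrel0]
        have h' : (z ν : ℂ) = -(((z ν).natAbs : ℕ) : ℂ) := by
          conv_lhs => rw [h]
          rw [Int.cast_neg, Int.cast_natCast]
        rw [h']
        push_cast
        ring
    obtain ⟨k1, k2⟩ := key
    have hzn : (z ν).natAbs ≠ 0 := fun h => k1 (by rw [h, mul_zero])
    rw [Nat.factorization_mul (pow_ne_zero _ hp.ne_zero) hzn] at k2
    simp only [Finsupp.coe_add, Pi.add_apply, Nat.factorization_pow, Finsupp.coe_smul,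
      Pi.smul_apply, hp.factorization_self, smul_eq_mul, mul_one] at k2
    have hfac : Cfsg.blockHeight p B (ν : G → ℂ) = (z ν).natAbs.factorization p := by
      rw [hht]; omega
    have hdvd : p ^ Cfsg.blockHeight p B (ν : G → ℂ) ∣ (z ν).natAbs := by
      rw [hfac]; exact Nat.ordProj_dvd _ _
    have hle := Nat.le_of_dvd (Nat.pos_of_ne_zero hzn) hdvd
    have hle2 : (p ^ Cfsg.blockHeight p B (ν : G → ℂ)) ^ 2 ≤ (z ν).natAbs ^ 2 :=
      Nat.pow_le_pow_left hle 2
    rw [← Int.natAbs_sq, mul_comm 2, pow_mul]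
    exact_mod_cast hle2
  set Ψ := trunc p ((p : ℂ) ^ d) (χ : G → ℂ) with hΨ
  have hΨc : IsClassFunction G Ψ := isClassFunction_trunc p _ (isClassFunction_of_irr χ.2)
  have hexp : Ψ = ∑ ν : IrrCharacter G, (z ν : ℂ) • (ν : G → ℂ) := by
    conv_lhs => rw [classFunction_eq_sum hΨc]
    apply Finset.sum_congr rfl
    intro ν _
    rw [hz ν]
  have hnorm1 : classInner Ψ Ψ = ((∑ ν : IrrCharacter G, z ν ^ 2 : ℤ) : ℂ) := by
    conv_lhs => rw [hexp]
    rw [classInner_sum_sum]
    push_cast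
    apply Finset.sum_congr rfl
    intro ν _
    simp only [map_intCast]
    ring
  have hnorm2 : classInner Ψ Ψ = (((p : ℤ) ^ d * z χ : ℤ) : ℂ) := by
    have h1 : classInner Ψ Ψ = classInner Ψ (((p : ℂ) ^ d) • (χ : G → ℂ)) := by
      rw [classInner, classInner]
      congr 1
      apply Finset.sum_congr rfl
      intro g _
      rw [hΨ, trunc_apply]
      split_ifs
      · simp
      · simp
    rw [h1, classInner_smul_right, hz χ]
    simp
  have hsum : ∑ ν : IrrCharacter G, z ν ^ 2 = (p : ℤ) ^ d * z χ := by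
    rw [hnorm1] at hnorm2
    exact_mod_cast hnorm2
  set BB := Finset.univ.filter (fun ν : IrrCharacter G => ν ∈ B) with hBB
  have hfs : ∑ᶠ χ ∈ B, p ^ (2 * Cfsg.blockHeight p B (χ : G → ℂ)) =
      ∑ ν ∈ BB, p ^ (2 * Cfsg.blockHeight p B (ν : G → ℂ)) := by
    rw [finsum_mem_eq_finite_toFinset_sum _ (Set.toFinite B)]
    congr 1
    ext
    simp [hBB]
  rw [hfs]
  have hχBB : χ ∈ BB := Finset.mem_filter.2 ⟨Finset.mem_univ _, hχ⟩
  have hχ0 : Cfsg.blockHeight p B (χ : G → ℂ) = 0 := by rw [hht, hh]; omega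
  set X := ∑ ν ∈ BB.erase χ, p ^ (2 * Cfsg.blockHeight p B (ν : G → ℂ)) with hX
  have hsplit : ∑ ν ∈ BB, p ^ (2 * Cfsg.blockHeight p B (ν : G → ℂ)) = 1 + X := by
    rw [← Finset.add_sum_erase _ _ hχBB, hχ0]
    simp [hX]
  rw [hsplit]
  have hlow : z χ ^ 2 + (X : ℤ) ≤ ∑ ν : IrrCharacter G, z ν ^ 2 := by
    have h1 : ∑ ν ∈ BB, z ν ^ 2 ≤ ∑ ν : IrrCharacter G, z ν ^ 2 :=
      Finset.sum_le_sum_of_subset_of_nonneg (Finset.subset_univ _) (fun ν _ _ => sq_nonneg _)
    have h2 : ∑ ν ∈ BB, z ν ^ 2 = z χ ^ 2 + ∑ ν ∈ BB.erase χ, z ν ^ 2 :=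
      (Finset.add_sum_erase _ _ hχBB).symm
    have h3 : (X : ℤ) ≤ ∑ ν ∈ BB.erase χ, z ν ^ 2 := by
      rw [hX]
      push_cast
      apply Finset.sum_le_sum
      intro ν hν
      have hνB : ν ∈ B := (Finset.mem_filter.1 (Finset.mem_of_mem_erase hν)).2
      exact hz0 ν hνB
    omega
  rw [hsum] at hlow
  have hfin : (X : ℤ) * 4 ≤ ((p : ℤ) ^ d) ^ 2 := by
    nlinarith [sq_nonneg ((p : ℤ) ^ d - 2 * z χ)]
  have hfin' : X * 4 ≤ (p ^ d) ^ 2 := by exact_mod_cast hfin
  have := (Nat.le_div_iff_mul_le (by norm_num : 0 < 4)).2 hfin'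
  omega

end Cfsg.Agent.S4676
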