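import Cfsg.Statements.S4677
import Cfsg.Agent.BlockLib.KG.BlockFus
import Cfsg.Agent.BlockLib.KG.FusTr

set_option autoImplicit false
open Cfsg Cfsg.Agent.BlockLib

namespace Cfsg.Agent.S4677

/-- Fix a prime p and a maximal ideal M of the algebraic integers containing p, a p-block B of the finite group G and a maximal Brauer pair (P, e) of B. Then the fusion system of B on (P, e) exists and is saturated: there is a saturated fusion system over P, with ambient group G, whose maps with source a subgroup Q of P are exactly the conjugation maps by elements g of G that carry the Brauer pair (Q, e_Q) below (P, e) to a Brauer pair again below (P, e). -/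
theorem result {G : Type*} [Group G] [Fintype G] (p : ℕ) [Fact p.Prime] (M : Ideal Cfsg.AlgInt) (hM : Cfsg.IsPModular p M) (B : Set (Cfsg.IrrCharacter G)) (P : Subgroup G) (e : Set (Cfsg.IrrCharacter (Subgroup.centralizer (P : Set G)))) (hmax : Cfsg.IsMaximalBrauerPair p M B P e) : ∃ F : Cfsg.FusionSystem P, Cfsg.IsBlockFusionSystemOn p M B P e F ∧ F.IsSaturated p := by
  haveI := isPrime_of_isPModular hM
  haveI := charP_resField hM
  have he : IsPBlock M e := hmax.1.1.2
  have hB : IsPBlock M B := hmax.1.2.1
  have hmax' := (isMaximalBrauerPair_iff hB he).mp hmax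
  have hPe := hmax'.1.1
  refine ⟨CA.pairFus hPe, ⟨hmax, fun Q φ => ?_⟩, hmax'.isSaturated_pairFus⟩
  constructor
  · rintro ⟨g, f, hg, h1, h2⟩
    have hblk : CA.IsBlk (Subgroup.centralizer (Q : Set G)) f := (h1.isBP hPe).2
    obtain ⟨f', hf', rfl⟩ := exists_epsS_eq hblk
    refine ⟨h1.le, g, hg, h2.le, f', (subpairLE_iff hf' he).mpr h1, ?_⟩
    rw [subpairLE_iff (isPBlock_conjBlock g hf') he, epsS_conjBlock]
    exact h2
  · rintro ⟨-, g, hg, -, f', h1, h2⟩
    have h1' : CA.SubLE p (Q, epsS M _ f') (P, epsS M _ e) := subLE_of_subpairLE h1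
    have h2' : CA.SubLE p (CA.cjs g Q, epsS M _ (conjBlock Q g f')) (P, epsS M _ e) :=
      subLE_of_subpairLE h2
    rw [epsS_conjBlock] at h2'
    exact ⟨g, _, hg, h1', h2'⟩

end Cfsg.Agent.S4677
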