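import Cfsg.Statements.S4678
import Cfsg.Agent.BlockLib.KG.FusTr

set_option autoImplicit false
open Cfsg Cfsg.Agent.BlockLib

namespace Cfsg.Agent.S4678

/-- Fix a prime p and a maximal ideal M of the algebraic integers containing p, a p-block B of the finite group G with maximal Brauer pair (P, e), its fusion system F on P, and a Brauer pair (Q, f) ≤ (P, e). Then Q is fully centralized in F if and only if C_P(Q) is a defect group of f as a block of C_G(Q). -/
theorem result {G : Type*} [Group G] [Fintype G] (p : ℕ) [Fact p.Prime] (M : Ideal Cfsg.AlgInt) (hM : Cfsg.IsPModular p M) (B : Set (Cfsg.IrrCharacter G)) (P : Subgroup G) (e : Set (Cfsg.IrrCharacter (Subgroup.centralizer (P : Set G)))) (hmax : Cfsg.IsMaximalBrauerPair p M B P e) (F : Cfsg.FusionSystem P) (hF : Cfsg.IsBlockFusionSystemOn p M B P e F) (Q : Subgroup G) (f : Set (Cfsg.IrrCharacter (Subgroup.centralizer (Q : Set G)))) (hQP : Q ≤ P) (hf : Cfsg.IsPBlock M f) (hle : Cfsg.SubpairLE p M Q f P e) : F.IsFullyCentralized Q ↔ Cfsg.IsDefectGroup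 p M f ((P ⊓ Subgroup.centralizer (Q : Set G)).subgroupOf (Subgroup.centralizer (Q : Set G))) := by
  haveI := isPrime_of_isPModular hM
  haveI := charP_resField hM
  have he : IsPBlock M e := hmax.1.1.2
  have hB : IsPBlock M B := hmax.1.2.1
  have hmax' := (isMaximalBrauerPair_iff hB he).mp hmax
  have hle' := (subpairLE_iff hf he).mp hle
  have hPe := hmax'.1.1
  have hQf := hle'.isBP hPe
  rw [isDefectGroup_subgroupOf_iff hf inf_le_right,
    hmax'.isDefGrp_inf_iff hle' (CA.centralizer_le_stab hQf.2.mem) hQf.2]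
  unfold FusionSystem.IsFullyCentralized FusionSystem.centralizerIn
  constructor
  · rintro ⟨-, h⟩ g hg
    have := h _ ((isConj_iff hF hf hle _).mpr ⟨g, rfl, hg⟩)
    rwa [CA.centralizer_cjs] at this
  · intro h
    refine ⟨hQP, fun Q' hQ' => ?_⟩
    obtain ⟨g, rfl, hg⟩ := (isConj_iff hF hf hle _).mp hQ'
    rw [CA.centralizer_cjs]
    exact h g hg

end Cfsg.Agent.S4678
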