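import Cfsg.Statements.S4679
import Cfsg.Agent.BlockLib.KG.StabTr

set_option autoImplicit false
open Cfsg Cfsg.Agent.BlockLib

namespace Cfsg.Agent.S4679

/-- Fix a prime p and a maximal ideal M of the algebraic integers containing p, a p-block B of the finite group G with maximal Brauer pair (P, e), its fusion system F on P, a Brauer pair (Q, f) ≤ (P, e), and let T be the stabilizer of f in N_G(Q). Then Q is fully normalized in F if and only if N_P(Q) is a defect group of the block of T whose idempotent is that of f. -/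
theorem result {G : Type*} [Group G] [Fintype G] (p : ℕ) [Fact p.Prime] (M : Ideal Cfsg.AlgInt) (hM : Cfsg.IsPModular p M) (B : Set (Cfsg.IrrCharacter G)) (P : Subgroup G) (e : Set (Cfsg.IrrCharacter (Subgroup.centralizer (P : Set G)))) (hmax : Cfsg.IsMaximalBrauerPair p M B P e) (F : Cfsg.FusionSystem P) (hF : Cfsg.IsBlockFusionSystemOn p M B P e F) (Q : Subgroup G) (f : Set (Cfsg.IrrCharacter (Subgroup.centralizer (Q : Set G)))) (hQP : Q ≤ P) (hf : Cfsg.IsPBlock M f) (hle : Cfsg.SubpairLE p M Q f P e) (T : Subgroup G) (hT : ∀ y : G, y ∈ T ↔ y ∈ Subgroup.normalizer (Q : Set G) ∧ Cfsg.StabilizesBlock (Subgroup.centralizer (Q : Set G)) f y) : F.IsFullyNormalized Q ↔ ∃ F' : Set (Cfsg.IrrCharacter T), Cfsg.IsPBlock M F' ∧ (∀ t : T, Cfsg.blockCoeff F' t = Cfsg.subgroupBlockCoeff (Subgroup.centralizer (Q : Set G)) f (t : G)) ∧ Cfsg.IsDefectGroup p M F' ((P ⊓ Subgroup.normalizer (Q : Set G)).subgroupOf T) := by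
  haveI := isPrime_of_isPModular hM
  haveI := charP_resField hM
  have he : IsPBlock M e := hmax.1.1.2
  have hB : IsPBlock M B := hmax.1.2.1
  have hmax' := (isMaximalBrauerPair_iff hB he).mp hmax
  have hle' := (subpairLE_iff hf he).mp hle
  have hPe := hmax'.1.1
  have hQf := hle'.isBP hPe
  have hTs := eq_stab hf hT
  have hCT : Subgroup.centralizer (Q : Set G) ≤ T := by
    rw [hTs]; exact CA.centralizer_le_stab hQf.2.mem
  have hle2 : P ⊓ Subgroup.normalizer (Q : Set G) ≤ T := by
    rw [hTs]; exact hle'.inf_normalizer_le_stab hPe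
  have key : F.IsFullyNormalized Q ↔
      CA.IsDefGrp p T (epsS M _ f) (P ⊓ Subgroup.normalizer (Q : Set G)) := by
    rw [hTs, ← hle'.inf_stab hPe, hmax'.isDefGrp_inf_iff hle' le_rfl hQf.isBlk_stab]
    unfold FusionSystem.IsFullyNormalized FusionSystem.normalizerIn
    constructor
    · rintro ⟨-, h⟩ g hg
      have := h _ ((isConj_iff hF hf hle _).mpr ⟨g, rfl, hg⟩)
      rwa [← hg.inf_stab hPe, ← hle'.inf_stab hPe, CA.stab_cjs] at this
    · intro h
      refine ⟨hQP, fun Q' hQ' => ?_⟩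
      obtain ⟨g, rfl, hg⟩ := (isConj_iff hF hf hle _).mp hQ'
      rw [← hg.inf_stab hPe, ← hle'.inf_stab hPe, CA.stab_cjs]
      exact h g hg
  rw [key]
  constructor
  · intro hD
    obtain ⟨F', hF', hFc⟩ := exists_block_stab hQf.1 hf hT
    refine ⟨F', hF', hFc, ?_⟩
    rw [isDefectGroup_subgroupOf_iff hF' hle2, epsS_eq_of_coeff (M := M) hCT hFc]
    exact hD
  · rintro ⟨F', hF', hFc, hD⟩
    rw [isDefectGroup_subgroupOf_iff hF' hle2, epsS_eq_of_coeff (M := M) hCT hFc] at hD
    exact hD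

end Cfsg.Agent.S4679
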