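import Cfsg.Statements.S4681
import Cfsg.Agent.BlockLib.KG.Principal

set_option autoImplicit false
open Cfsg Cfsg.Agent.BlockLib

namespace Cfsg.Agent.S4681

/-- Fix a prime p and a maximal ideal M of the algebraic integers containing p. Let B₀ be the principal p-block of the finite group G, P a Sylow p-subgroup and e₀ the principal p-block of C_G(P). Then (P, e₀) is a maximal Brauer pair of B₀, and the fusion system of B₀ on (P, e₀) is the fusion system of G on P: its maps from each subgroup of P are exactly the conjugation maps into P by elements of G. -/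
theorem result {G : Type*} [Group G] [Fintype G] (p : ℕ) [Fact p.Prime] (M : Ideal Cfsg.AlgInt) (hM : Cfsg.IsPModular p M) (S : Sylow p G) : Cfsg.IsMaximalBrauerPair p M (Cfsg.principalBlock M G) (S : Subgroup G) (Cfsg.principalBlock M (Subgroup.centralizer ((S : Subgroup G) : Set G))) ∧ ∀ F : Cfsg.FusionSystem (S : Subgroup G), Cfsg.IsBlockFusionSystemOn p M (Cfsg.principalBlock M G) (S : Subgroup G) (Cfsg.principalBlock M (Subgroup.centralizer ((S : Subgroup G) : Set G))) F → ∀ Q : Subgroup G, F.Hom Q = (Cfsg.groupFusionSystem (S : Subgroup G)).Hom Q := by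
  haveI := isPrime_of_isPModular hM
  haveI := charP_resField hM
  have hS : CA.IsSylIn p (S : Subgroup G) ⊤ := (isSylIn_top_iff _).mpr ⟨S, rfl⟩
  have he₀ := isPrin_epsS_principalBlock (M := M) (Subgroup.centralizer ((S : Subgroup G) : Set G))
  have hb := isPrin_eps_principalBlock (M := M) (G := G)
  refine ⟨(isMaximalBrauerPair_iff isPBlock_principalBlock isPBlock_principalBlock).mpr
    ⟨CA.isBPOf_prin hS.1 hb he₀, fun R g hRg hle => hS.2.2 R hRg.1.1 le_top hle.le⟩, ?_⟩
  intro F hF Q
  ext φ
  rw [hF.2 Q φ]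
  constructor
  · rintro ⟨hQS, g, hg, hQg, -⟩
    refine ⟨hQS, fun x => ?_, g, hg⟩
    rw [hg]
    exact hQg ⟨x, x.2, rfl⟩
  · rintro ⟨hQS, hφS, g, hg⟩
    have hQg : Q.map (MulAut.conj g).toMonoidHom ≤ (S : Subgroup G) := by
      rintro _ ⟨x, hx, rfl⟩
      have := hφS ⟨x, hx⟩
      rw [hg] at this
      exact this
    refine ⟨hQS, g, hg, hQg, principalBlock M _, ?_, ?_⟩
    · rw [subpairLE_iff isPBlock_principalBlock isPBlock_principalBlock]
      exact CA.subLE_prin hS.1 he₀ Q hQS (isPrin_epsS_principalBlock _)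
    · rw [subpairLE_iff (isPBlock_conjBlock g isPBlock_principalBlock) isPBlock_principalBlock,
        epsS_conjBlock]
      refine CA.subLE_prin hS.1 he₀ _ hQg ?_
      have := (isPrin_epsS_principalBlock (M := M) (Subgroup.centralizer (Q : Set G))).cj g
      rwa [← CA.centralizer_cjs] at this

end Cfsg.Agent.S4681
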