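import Cfsg.Statements.S4683
import Cfsg.Agent.Lib.Helper23.Sect2
import Cfsg.Agent.Lib.Helper23.OmegaP

set_option autoImplicit false
open Cfsg

namespace Cfsg.Agent.S4683

open Cfsg

open Cfsg Cfsg.Agent.CharLib Cfsg.Agent.BlockLib Cfsg.Agent.Lib.Helper23 Cfsg.Agent.Lib.Helper23.Trunc Cfsg.Agent.Lib.Helper23.MinMax Cfsg.Agent.Lib.Helper23.Sect Cfsg.Agent.Lib.Helper23.OmegaP Cfsg.Agent.H6.BlockSection
open scoped ComplexConjugate

/-- a Brauer pair `(⟨u⟩, e)` of `B` is a subsection: `e` induces `B`. -/
theorem h23_isInducedBlock_of_isBrauerPairOf {G : Type*} [Group G] [Fintype G] {p : ℕ}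
    {M : Ideal AlgInt} (hM : IsPModular p M) {B : Set (IrrCharacter G)} {Q : Subgroup G}
    (hQc : Q ≤ Subgroup.centralizer (Q : Set G))
    {e : Set (IrrCharacter (Subgroup.centralizer (Q : Set G)))}
    (hBe : IsBrauerPairOf p M B Q e) : IsInducedBlock M (Subgroup.centralizer (Q : Set G)) e B := by
  classical
  have hMp := isPrime_of_isPModular hM
  have htop := ne_top_of_isPModular hM
  obtain ⟨⟨hQ, he⟩, hB, hom⟩ := hBe
  obtain ⟨B', hB'⟩ := Cfsg.Agent.H6.IndBlk.inducedBlockDefined_of_local hM hQ hQc le_rfl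
    (Subgroup.centralizer_le_normalizer _) he
  obtain ⟨ξ, hξ⟩ := nonempty_of_isPBlock htop he
  obtain ⟨χ', hχ'⟩ := nonempty_of_isPBlock htop hB'.2.1
  have : Fintype (Subgroup.centralizer (Q : Set G)) := Fintype.ofFinite _
  have h1 := memLocalIdeal_omega_sub_of_induced hB' hξ hχ' (isClassFunction_idemSet B)
    (fun g => by rw [← blockCoeff_eq_idemSet]; exact memLocalRing_blockCoeff hB g)
  rw [omega_idemSet] at h1
  have h2 := hom ξ hξ
  have h3 : brauerOmega Q (blockCoeff B) (ξ : Subgroup.centralizer (Q : Set G) → ℂ) =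
      omega (ξ : Subgroup.centralizer (Q : Set G) → ℂ)
        (fun h : Subgroup.centralizer (Q : Set G) => idemSet B h) := by
    rw [brauerOmega, finsum_eq_sum_of_fintype, omega, Finset.sum_div]
    apply Finset.sum_congr rfl
    intro x _
    rw [blockCoeff_eq_idemSet]
  rw [h3] at h2
  have hmem : χ' ∈ B := by
    by_contra hn
    rw [if_neg hn, sub_zero] at h1
    apply not_memLocalIdeal_one (M := M)
    have := memLocalIdeal_sub h1 h2
    simpa using this
  have : B' = B := block_eq_of_mem hB'.2.1 hB hχ' hmem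
  rw [← this]
  exact hB'

/-- Fix a prime p and a maximal ideal M of the algebraic integers containing p, a p-block B of the finite group G, a p-element u and a p-block e of C = C_G(u) such that (⟨u⟩, e) is a Brauer pair of B (a Brauer element of B). For χ ∈ B let χ_u be the e-part of the class function c ↦ χ(u c) on C and χ_u' the e-part of c ↦ χ(u⁻¹ c). Then the sum over χ ∈ B and over the p-regular elements s of C of χ_u(s)·χ_u'(s⁻¹) equals the order of C times the p-regular rank of e (the number of irreducible Brauer characters of e). -/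
theorem result {G : Type*} [Group G] [Fintype G] (p : ℕ) [Fact p.Prime] (M : Ideal Cfsg.AlgInt) (hM : Cfsg.IsPModular p M) (B : Set (Cfsg.IrrCharacter G)) (u : G) (hu : ∃ k : ℕ, orderOf u = p ^ k) (e : Set (Cfsg.IrrCharacter (Subgroup.centralizer (Subgroup.zpowers u : Set G)))) (hBe : Cfsg.IsBrauerPairOf p M B (Subgroup.zpowers u) e) : ∑ᶠ χ ∈ B, ∑ᶠ s : Subgroup.centralizer (Subgroup.zpowers u : Set G), Cfsg.pRegularPart p (Cfsg.blockPart e (fun c : Subgroup.centralizer (Subgroup.zpowers u : Set G) => (χ : G → ℂ) (u * c))) s * Cfsg.blockPart e (fun c : Subgroup.centralizer (Subgroup.zpowers u : Set G) => (χ : G → ℂ) (u⁻¹ * c)) s⁻¹ = (Nat.card (Subgroup.centralizer (Subgroup.zpowers u : Set G)) : ℂ) * (Cfsg.blockRank p e : ℂ) := by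
  classical
  obtain ⟨k, hk⟩ := hu
  have hcz : Subgroup.centralizer ((Subgroup.zpowers u : Subgroup G) : Set G)
      = Subgroup.centralizer ({u} : Set G) := by
    rw [Subgroup.zpowers_eq_closure, Subgroup.centralizer_closure]
  have hQc : Subgroup.zpowers u ≤ Subgroup.centralizer ((Subgroup.zpowers u : Subgroup G) : Set G) := by
    rw [hcz, Subgroup.zpowers_le, Subgroup.mem_centralizer_singleton_iff]
  have hind := h23_isInducedBlock_of_isBrauerPairOf hM hQc hBe
  rw [← sum_block_sum_reg hM hk hcz hind, finsum_mem_eq_sum_filter'']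
  apply Finset.sum_congr rfl
  intro χ _
  rw [finsum_eq_sum_of_fintype]
  apply Finset.sum_congr rfl
  intro s _
  rw [pRegularPart_apply]
  have hconj : Cfsg.blockPart e (fun c : Subgroup.centralizer (Subgroup.zpowers u : Set G) => (χ : G → ℂ) (u⁻¹ * c)) s⁻¹ =
      conj (Cfsg.blockPart e (fun c : Subgroup.centralizer (Subgroup.zpowers u : Set G) => (χ : G → ℂ) (u * c)) s) := by
    rw [blockPart_eq_filter, blockPart_eq_filter, map_sum]
    apply Finset.sum_congr rfl
    intro ψ _
    rw [map_mul, isCharacter_inv (isCharacter_of_irr ψ.2)]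
    congr 1
    rw [classInner, classInner, map_mul, map_inv₀, map_natCast, map_sum]
    congr 1
    rw [← Equiv.sum_comp (Equiv.inv _)]
    apply Finset.sum_congr rfl
    intro c _
    rw [map_mul, Complex.conj_conj, Equiv.inv_apply, isCharacter_inv (isCharacter_of_irr ψ.2),
      Complex.conj_conj, ← isCharacter_inv (isCharacter_of_irr χ.2)]
    congr 2
    have hc : (c : G) * u = u * c := by
      have h0 : (c : G) ∈ Subgroup.centralizer ({u} : Set G) := hcz ▸ c.2
      exact Subgroup.mem_centralizer_singleton_iff.1 h0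
    simp only [Subgroup.coe_inv, mul_inv_rev]
    have hc' : Commute (c : G) u := hc
    rw [(hc'.inv_inv).eq]
  rw [hconj]
  split_ifs <;> simp

end Cfsg.Agent.S4683
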