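import Cfsg.Statements.S4686
import Cfsg.Agent.BlockLib.KG.NilFus

set_option autoImplicit false
open Cfsg Cfsg.Agent.BlockLib

namespace Cfsg.Agent.S4686

/-- Fix a prime p and a maximal ideal M of the algebraic integers containing p, a p-block B of the finite group G with maximal Brauer pair (P, e) and fusion system F on P. Then B is nilpotent (for every Brauer pair (Q, f) of B the stabilizer of f in N_G(Q) is C_G(Q) extended by a p-group) if and only if F is the inner fusion system of P: its maps from each subgroup of P are exactly the conjugations by elements of P. -/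
theorem result {G : Type*} [Group G] [Fintype G] (p : ℕ) [Fact p.Prime] (M : Ideal Cfsg.AlgInt) (hM : Cfsg.IsPModular p M) (B : Set (Cfsg.IrrCharacter G)) (P : Subgroup G) (e : Set (Cfsg.IrrCharacter (Subgroup.centralizer (P : Set G)))) (hmax : Cfsg.IsMaximalBrauerPair p M B P e) (F : Cfsg.FusionSystem P) (hF : Cfsg.IsBlockFusionSystemOn p M B P e F) : Cfsg.IsNilpotentBlock p M B ↔ ∀ Q : Subgroup G, F.Hom Q = (Cfsg.innerFusionSystem P).Hom Q := by
  haveI := isPrime_of_isPModular hM
  haveI := charP_resField hM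
  have he : IsPBlock M e := hmax.1.1.2
  have hB : IsPBlock M B := hmax.1.2.1
  have hmax' := (isMaximalBrauerPair_iff hB he).mp hmax
  have hPe := hmax'.1.1
  rw [isNilpotentBlock_iff hB, hmax'.isNilBlk_iff_control]
  constructor
  · intro hc Q
    ext φ
    constructor
    · intro hφ
      have hQP : Q ≤ P := (F.le_of_mem hφ).1
      obtain ⟨f', hf'⟩ := CA.exists_subLE hPe Q hQP
      have hblk : CA.IsBlk (Subgroup.centralizer (Q : Set G)) f' := (hf'.isBP hPe).2
      obtain ⟨f, hf, rfl⟩ := exists_epsS_eq hblk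
      obtain ⟨g, hg, hgle⟩ := (mem_hom_iff hF hf ((subpairLE_iff hf he).mpr hf') φ).mp hφ
      obtain ⟨u, hu, huc⟩ := hc Q _ g hf' hgle
      exact ⟨hQP, u, hu, fun x => by rw [hg, CA.conj_eq_of_inv_mul_mem huc x.2]⟩
    · rintro ⟨hQP, g, hg, hφ⟩
      have : φ = conjHom Q g := by
        ext x
        exact hφ x
      rw [this]
      exact F.conj_mem hQP hg
  · intro hall Q f' g hle hgle
    have hblk : CA.IsBlk (Subgroup.centralizer (Q : Set G)) f' := (hle.isBP hPe).2
    obtain ⟨f, hf, rfl⟩ := exists_epsS_eq hblk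
    have h1 : conjHom Q g ∈ F.Hom Q :=
      (mem_hom_iff hF hf ((subpairLE_iff hf he).mpr hle) _).mpr ⟨g, fun _ => rfl, hgle⟩
    rw [hall Q] at h1
    obtain ⟨-, u, hu, h2⟩ := h1
    exact ⟨u, hu, CA.inv_mul_mem_of_conj_eq fun q hq => h2 ⟨q, hq⟩⟩

end Cfsg.Agent.S4686
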