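import Cfsg.Statements.S4688
import Cfsg.Agent.BlockLib.KG.NilFus

set_option autoImplicit false
open Cfsg Cfsg.Agent.BlockLib

namespace Cfsg.Agent.S4688

/-- Fix a prime p and a maximal ideal M of the algebraic integers containing p, and a nilpotent p-block B of the finite group G with maximal Brauer pair (P, e). Then for every Brauer pair (Q, f) of B, f is a nilpotent block of C_G(Q); and if moreover (Q, f) ≤ (P, e), then C_P(Q) is a defect group of f as a block of C_G(Q). -/
theorem result {G : Type*} [Group G] [Fintype G] (p : ℕ) [Fact p.Prime] (M : Ideal Cfsg.AlgInt) (hM : Cfsg.IsPModular p M) (B : Set (Cfsg.IrrCharacter G)) (P : Subgroup G) (e : Set (Cfsg.IrrCharacter (Subgroup.centralizer (P : Set G)))) (hmax : Cfsg.IsMaximalBrauerPair p M B P e) (hnil : Cfsg.IsNilpotentBlock p M B) (Q : Subgroup G) (f : Set (Cfsg.IrrCharacter (Subgroup.centralizer (Q : Set G)))) (hQf : Cfsg.IsBrauerPairOf p M B Q f) : Cfsg.IsNilpotentBlock p M f ∧ (Cfsg.SubpairLE p M Q f P e → Cfsg.IsDefectGroup p M f ((P ⊓ Subgroup.centralizer (Q : Set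 G)).subgroupOf (Subgroup.centralizer (Q : Set G)))) := by
  haveI := isPrime_of_isPModular hM
  haveI := charP_resField hM
  have he : IsPBlock M e := hmax.1.1.2
  have hB : IsPBlock M B := hmax.1.2.1
  have hf : IsPBlock M f := hQf.1.2
  have hmax' := (isMaximalBrauerPair_iff hB he).mp hmax
  have hnil' := (isNilpotentBlock_iff hB).mp hnil
  have hQf' := (isBrauerPairOf_iff hB hf).mp hQf
  constructor
  · haveI : Fintype (Subgroup.centralizer (Q : Set G)) := Fintype.ofFinite _
    rw [isNilpotentBlock_iff hf]
    have := hnil'.res_centralizer hQf'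
    rwa [epsS_eq_ext0, CA.res_ext0] at this
  · intro hle
    rw [isDefectGroup_subgroupOf_iff hf inf_le_right]
    exact hnil'.isDefGrp_centralizer hmax' ((subpairLE_iff hf he).mp hle)

end Cfsg.Agent.S4688
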