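import Cfsg.Statements.S4691
import Cfsg.Agent.BlockLib.KG.Principal
import Cfsg.Agent.Tr.Frobenius

set_option autoImplicit false
open Cfsg Cfsg.Agent.BlockLib

namespace Cfsg.Agent.S4691

/-- Fix a prime p and a maximal ideal M of the algebraic integers containing p. A finite group G has a normal p-complement if and only if its principal p-block is nilpotent. -/
theorem result {G : Type*} [Group G] [Fintype G] (p : ℕ) [Fact p.Prime] (M : Ideal Cfsg.AlgInt) (hM : Cfsg.IsPModular p M) : Cfsg.HasNormalPComplement p G ↔ Cfsg.IsNilpotentBlock p M (Cfsg.principalBlock M G) := by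
  haveI := isPrime_of_isPModular hM
  haveI := charP_resField hM
  rw [Cfsg.Agent.Tr.hasNormalPComplement_iff_frob]
  constructor
  · intro hF
    refine ⟨isPBlock_principalBlock, fun Q e hBP x hx _ hreg => ?_⟩
    exact hF Q hBP.1.1 x hx
      ((Nat.Prime.coprime_iff_not_dvd Fact.out).mpr hreg).symm
  · intro hN Q hQ g hg hco
    have hpb : IsPBlock M (principalBlock M (Subgroup.centralizer (Q : Set G))) :=
      isPBlock_principalBlock
    have hprin := isPrin_epsS_principalBlock (M := M) (Subgroup.centralizer (Q : Set G))
    refine hN.2 Q (principalBlock M (Subgroup.centralizer (Q : Set G))) ?_ g hg ?_ ?_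
    · rw [isBrauerPairOf_iff isPBlock_principalBlock hpb]
      exact CA.isBPOf_prin hQ isPrin_eps_principalBlock hprin
    · rw [stabilizesBlock_iff hpb]
      have hgN := CA.normalizer_le_normalizer_centralizer Q hg
      refine ⟨hgN, ?_⟩
      have h1 := hprin.cj g
      rw [CA.cjs_eq_of_mem_normalizer hgN] at h1
      exact h1.unique hprin
    · exact (Nat.Prime.coprime_iff_not_dvd Fact.out).mp hco.symm

end Cfsg.Agent.S4691
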