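import Cfsg.Statements.S4692
import Cfsg.Agent.BlockLib.KG.PRegTr
import Cfsg.Agent.BlockLib.KG.NilNormal
import Cfsg.Agent.BlockLib.KG.NilTr

set_option autoImplicit false
open Cfsg Cfsg.Agent.BlockLib

namespace Cfsg.Agent.S4692

/-- Fix a prime p and a maximal ideal M of the algebraic integers containing p. Let N be a normal subgroup of p-power index in the finite group G and c a p-block of N stable under conjugation by G, and let B be the p-block of G whose idempotent is that of c (it exists and is unique). Then c is nilpotent as a block of N if and only if B is nilpotent as a block of G. -/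
theorem result {G : Type*} [Group G] [Fintype G] (p : ℕ) [Fact p.Prime] (M : Ideal Cfsg.AlgInt) (hM : Cfsg.IsPModular p M) (N : Subgroup G) [N.Normal] (hN : ∃ k : ℕ, N.index = p ^ k) (c : Set (Cfsg.IrrCharacter N)) (hc : Cfsg.IsPBlock M c) (hst : ∀ x : G, Cfsg.StabilizesBlock N c x) (B : Set (Cfsg.IrrCharacter G)) (hB : Cfsg.IsPBlock M B) (hBc : ∀ g : G, Cfsg.blockCoeff B g = Cfsg.subgroupBlockCoeff N c g) : Cfsg.IsNilpotentBlock p M c ↔ Cfsg.IsNilpotentBlock p M B := by
  haveI := isPrime_of_isPModular hM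
  haveI := charP_resField hM
  haveI : CA.PReg (ResField M) G p := pReg_resField hM
  haveI : Fintype N := Fintype.ofFinite N
  obtain ⟨k, hk⟩ := hN
  have hd : CA.IsBlk N (epsS M N c) := isBlk_epsS hc
  have hreg : ∀ x : G, ¬ p ∣ orderOf x → x ∈ N := fun x hx => mem_of_index_pow hk hx
  have hpow : ∀ γ : G, γ ^ (p ^ k) ∈ N := fun γ => by
    rw [← hk]
    exact Subgroup.pow_index_mem N γ
  have heq : eps M B = epsS M N c := by
    unfold eps epsS
    congr 1
    funext g
    exact hBc g
  have hdT : CA.IsBlk ⊤ (epsS M N c) := heq ▸ isBlk_eps hB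
  rw [isNilpotentBlock_iff hc, isNilpotentBlock_iff hB, CA.isNilBlk_iff_isNilBlkIn N,
    ← epsS_eq_ext0, heq]
  exact ⟨fun h => h.isNilBlk hreg hpow hdT, fun h => h.isNilBlkIn hreg hd⟩

end Cfsg.Agent.S4692
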