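import Cfsg.Statements.S4693
import Cfsg.Agent.BlockLib.KG.Centric

set_option autoImplicit false
open Cfsg Cfsg.Agent.BlockLib

namespace Cfsg.Agent.S4693

/-- Fix a prime p and a maximal ideal M of the algebraic integers containing p, a p-block B of the finite group G with maximal Brauer pair (P, e) and fusion system F on P, and a Brauer pair (Q, f) ≤ (P, e) with Q centric in F. Suppose every element of G normalizes Q and stabilizes f. Then the idempotent of B agrees with that of f modulo M at every element of G, and f is the idempotent of a nilpotent block of Q·C_G(Q): some p-block of Q·C_G(Q) has the idempotent coefficients of f and is nilpotent. -/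
theorem result {G : Type*} [Group G] [Fintype G] (p : ℕ) [Fact p.Prime] (M : Ideal Cfsg.AlgInt) (hM : Cfsg.IsPModular p M) (B : Set (Cfsg.IrrCharacter G)) (P : Subgroup G) (e : Set (Cfsg.IrrCharacter (Subgroup.centralizer (P : Set G)))) (hmax : Cfsg.IsMaximalBrauerPair p M B P e) (F : Cfsg.FusionSystem P) (hF : Cfsg.IsBlockFusionSystemOn p M B P e F) (Q : Subgroup G) (f : Set (Cfsg.IrrCharacter (Subgroup.centralizer (Q : Set G)))) (hQP : Q ≤ P) (hf : Cfsg.IsPBlock M f) (hle : Cfsg.SubpairLE p M Q f P e) (hcen : F.IsCentric Q) (hG : ∀ x : G, x ∈ Subgroup.normalizer (Q : Set G) ∧ Cfsg.StabilizesBlock (Subgroup.centralizer (Q : Set G)) f x) : (∀ g : G, Cfsg.MemLocalIdeal M (Cfsg.blockCoeff B g - Cfsg.subgroupBlockCoeff (Subgroup.centralizer (Q : Set G)) f g)) ∧ ∃ F' : Set (Cfsg.IrrCharacter ↥(Q ⊔ Subgroup.centralizer (Q : Set G))), Cfsg.IsPBlock M F' ∧ (∀ t : ↥(Q ⊔ Subgroup.centralizer (Q : Set G)), Cfsg.blockCoeff F' t = Cfsg.subgroupBlockCoeff (Subgroup.centralizer (Q : Set G)) f (t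 : G)) ∧ Cfsg.IsNilpotentBlock p M F' := by
  haveI := isPrime_of_isPModular hM
  haveI := charP_resField hM
  have he : IsPBlock M e := hmax.1.1.2
  have hB : IsPBlock M B := hmax.1.2.1
  have hmax' := (isMaximalBrauerPair_iff hB he).mp hmax
  have hle' := (subpairLE_iff hf he).mp hle
  have hPe := hmax'.1.1
  have hQf : CA.IsBP p Q (epsS M _ f) := hle'.isBP hPe
  have hZ : CA.IsDefGrp p (Subgroup.centralizer (Q : Set G)) (epsS M _ f)
      (Q ⊓ Subgroup.centralizer (Q : Set G)) := by
    rw [hmax'.isDefGrp_center_iff hle']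
    intro g hg
    exact hcen.2 _ ((isConj_iff hF hf hle _).mpr ⟨g, rfl, hg⟩)
  have hs : CA.stab Q (epsS M _ f) = ⊤ := by
    rw [eq_top_iff]
    intro x _
    exact ⟨(hG x).1, ((stabilizesBlock_iff hf x).mp (hG x).2).2⟩
  have hbQ : CA.IsBPOf p (eps M B) Q (epsS M _ f) := hle'.isBPOf_iff.mpr hmax'.1
  have hbf := hbQ.eq_of_stab_eq_top hs
  constructor
  · intro g
    have := congrArg (fun a : CA (ResField M) G => a g) hbf
    rw [← redS_eq_iff (memLocalRing_blockCoeff hB g) (rVal_subgroupBlockCoeff hf g)]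
    exact this
  · have hblk : CA.IsBlk (Q ⊔ Subgroup.centralizer (Q : Set G)) (epsS M _ f) :=
      hQf.isBlk_of_le' le_sup_left le_sup_right (by rw [hs]; exact le_top)
    obtain ⟨F', hF', hFc⟩ := exists_block_sub (K := Subgroup.centralizer (Q : Set G))
      (T := Q ⊔ Subgroup.centralizer (Q : Set G)) le_sup_right hf (fun t _ => (hG t).2) hblk
    refine ⟨F', hF', hFc, ?_⟩
    haveI : Fintype ↥(Q ⊔ Subgroup.centralizer (Q : Set G)) := Fintype.ofFinite _
    rw [isNilpotentBlock_iff hF']
    have h1 := CA.isNilBlk_res_sup hQf hZ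
    have h2 : eps M F' = CA.res _ (epsS M _ f) := by
      rw [← epsS_eq_of_coeff (M := M) le_sup_right hFc, epsS_eq_ext0, CA.res_ext0]
    rwa [h2]

end Cfsg.Agent.S4693
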