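import Cfsg.Statements.S4694
import Cfsg.Agent.H25.Weight

set_option autoImplicit false
open Cfsg

namespace Cfsg.Agent.S4694

/-- Fix a prime p and a maximal ideal M of the algebraic integers containing p, a p-block B of the finite group G and a Brauer pair (Q, e) of B. Let T be the stabilizer of e in N_G(Q) and suppose that (Q, e) carries a weight: the block of T whose idempotent is that of e contains an irreducible character χ that is constant on the cosets of Q and whose degree has p-part equal to the p-part of the index of Q in T. Then Z(Q) is a defect group of e as a block of C_G(Q), and Q is the largest normal p-subgroup of T: every p-subgroup of T normalized by T lies in Q. -/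
theorem result {G : Type*} [Group G] [Fintype G] (p : ℕ) [Fact p.Prime] (M : Ideal Cfsg.AlgInt) (hM : Cfsg.IsPModular p M) (B : Set (Cfsg.IrrCharacter G)) (Q : Subgroup G) (e : Set (Cfsg.IrrCharacter (Subgroup.centralizer (Q : Set G)))) (hQe : Cfsg.IsBrauerPairOf p M B Q e) (T : Subgroup G) (hT : ∀ y : G, y ∈ T ↔ y ∈ Subgroup.normalizer (Q : Set G) ∧ Cfsg.StabilizesBlock (Subgroup.centralizer (Q : Set G)) e y) (F' : Set (Cfsg.IrrCharacter T)) (hF' : Cfsg.IsPBlock M F') (hF'e : ∀ t : T, Cfsg.blockCoeff F' t = Cfsg.subgroupBlockCoeff (Subgroup.centralizer (Q : Set G)) e (t : G)) (χ : Cfsg.IrrCharacter T) (hχ : χ ∈ F') (hχQ : ∀ q : G, q ∈ Q → ∀ t : T, ∀ t' : T, (t' : G) = q * (t : G) → (χ : T → ℂ) t' = (χ : T → ℂ) t) (hdeg : (Cfsg.charDegree (χ : T → ℂ)).factorization p + (Nat.card Q).factorization p = (Nat.card T).factorization p) : Cfsg.IsDefectGroup p M e ((Q ⊓ Subgroup.centralizer (Q : Set G)).subgroupOf (Subgroup.centralizer (Q : Set G))) ∧ ∀ R : Subgroup G, R ≤ T → IsPGroup p R → (∀ t ∈ T,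 t ∈ Subgroup.normalizer (R : Set G)) → R ≤ Q := by
  classical
  have hPr := Cfsg.Agent.BlockLib.isPrime_of_isPModular hM
  obtain ⟨⟨hQp, he⟩, hB, -⟩ := hQe
  have hQN : Q ≤ Subgroup.normalizer (Q : Set G) := Subgroup.le_normalizer
  have hNC : Subgroup.normalizer (Q : Set G) ≤
      Subgroup.normalizer ((Subgroup.centralizer (Q : Set G) : Subgroup G) : Set G) := by
    intro y hy
    rw [Subgroup.mem_normalizer_iff] at hy ⊢
    have key : ∀ z : G, (∀ h, h ∈ Q ↔ z * h * z⁻¹ ∈ Q) → ∀ c ∈ Subgroup.centralizer (Q : Set G),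
        z * c * z⁻¹ ∈ Subgroup.centralizer (Q : Set G) := by
      intro z hz c hc
      rw [Subgroup.mem_centralizer_iff] at hc ⊢
      intro q hq
      have h1 : z⁻¹ * q * z ∈ Q := by
        rw [hz]; simpa [mul_assoc] using hq
      have h2 := hc _ h1
      calc q * (z * c * z⁻¹) = z * ((z⁻¹ * q * z) * c) * z⁻¹ := by group
        _ = z * (c * (z⁻¹ * q * z)) * z⁻¹ := by rw [h2]
        _ = z * c * z⁻¹ * q := by group
    intro c
    refine ⟨key y hy c, fun h => ?_⟩
    have h3 := key y⁻¹ (fun h => by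
      rw [hy (y⁻¹ * h * y⁻¹⁻¹)]
      simp [mul_assoc]) _ h
    simpa [mul_assoc] using h3
  have hCT : Subgroup.centralizer (Q : Set G) ≤ T := by
    intro c hc
    rw [hT]
    refine ⟨Subgroup.centralizer_le_normalizer _ hc, Subgroup.le_normalizer hc, fun ξ hξ =>
      ⟨ξ, hξ, fun k k' hk => ?_⟩⟩
    have h1 : k' = (⟨c, hc⟩ : Subgroup.centralizer (Q : Set G)) * k *
        (⟨c, hc⟩ : Subgroup.centralizer (Q : Set G))⁻¹ := Subtype.ext hk
    rw [h1]
    exact Cfsg.Agent.CharLib.isClassFunction_of_irr ξ.2 _ _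
  have hQT : Q ≤ T := by
    intro q hq
    rw [hT]
    refine ⟨hQN hq, hNC (hQN hq), fun ξ hξ => ⟨ξ, hξ, fun k k' hk => ?_⟩⟩
    have h1 : k' = k := by
      apply Subtype.ext
      rw [hk, Subgroup.mem_centralizer_iff.1 k.2 q hq]
      group
    rw [h1]
  have hTN : T ≤ Subgroup.normalizer (Q : Set G) := fun t ht => ((hT t).1 ht).1
  have hQ'n : (Q.subgroupOf T).Normal := Subgroup.normal_subgroupOf_of_le_normalizer hTN
  have hcardQ' : Nat.card (Q.subgroupOf T) = Nat.card Q :=
    Nat.card_congr (Subgroup.subgroupOfEquivOfLe hQT).toEquiv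
  have hQ'k : Q.subgroupOf T ≤ Cfsg.Agent.H25.kerSub χ := fun q hq => by
    rw [Cfsg.Agent.H25.mem_kerSub]
    exact hχQ q.1 (Subgroup.mem_subgroupOf.1 hq) 1 q (by simp)
  have hdeg' : (Cfsg.charDegree (χ : T → ℂ)).factorization p +
      (Nat.card (Q.subgroupOf T)).factorization p = (Nat.card T).factorization p := by
    rw [hcardQ']; exact hdeg
  constructor
  · have hj : (Subgroup.inclusion hCT).range.Normal := by
      rw [Subgroup.inclusion_range]
      exact Subgroup.normal_subgroupOf_of_le_normalizer (fun t ht => ((hT t).1 ht).2.1)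
    obtain ⟨φ, hφ1, hφ2⟩ := Cfsg.Agent.H25.Weight.exists_constituent_of_weight (p := p)
      (Q.subgroupOf T) χ hQ'k hdeg' (Subgroup.inclusion hCT) hj
    have hφe : φ ∈ e := by
      refine Cfsg.Agent.H25.Weight.mem_of_sum_blockCoeff e (Cfsg.Agent.CharLib.isCharacter_comp
        (Cfsg.Agent.CharLib.isCharacter_of_irr χ.2) _) ?_ hφ1
      have h1 : ∑ t : T, Cfsg.blockCoeff F' t * (χ : T → ℂ) t = (χ : T → ℂ) 1 := by
        rw [Cfsg.Agent.H25.Weight.sum_blockCoeff_mul_fun, Finset.sum_eq_single χ]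
        · rw [Cfsg.Agent.CharLib.classInner_irr_self χ.2, mul_one]
        · intro ψ _ hne
          rw [Cfsg.Agent.CharLib.classInner_irr_ne χ.2 ψ.2 (fun h => hne (Subtype.ext h.symm)),
            mul_zero]
        · intro h; exact absurd (by simpa using hχ) h
      rw [map_one, ← h1]
      apply Fintype.sum_of_injective (Subgroup.inclusion hCT) (Subgroup.inclusion_injective hCT)
      · intro t ht
        rw [hF'e]
        unfold Cfsg.subgroupBlockCoeff
        rw [dif_neg, zero_mul]
        intro hmem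
        exact ht ⟨⟨t, hmem⟩, rfl⟩
      · intro c
        rw [hF'e]
        unfold Cfsg.subgroupBlockCoeff
        rw [dif_pos (show ((Subgroup.inclusion hCT c : T) : G) ∈ Subgroup.centralizer (Q : Set G)
          from c.2)]
        rfl
    have hD : (Q.subgroupOf T).comap (Subgroup.inclusion hCT) =
        (Q ⊓ Subgroup.centralizer (Q : Set G)).subgroupOf (Subgroup.centralizer (Q : Set G)) := by
      ext c
      rw [Subgroup.mem_comap, Subgroup.mem_subgroupOf, Subgroup.mem_subgroupOf, Subgroup.mem_inf]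
      exact ⟨fun h => ⟨h, c.2⟩, fun h => h.1⟩
    have hDp : IsPGroup p ((Q ⊓ Subgroup.centralizer (Q : Set G)).subgroupOf
        (Subgroup.centralizer (Q : Set G))) := (hQp.to_le inf_le_left).comap_subtype
    have hDZ : (Q ⊓ Subgroup.centralizer (Q : Set G)).subgroupOf
        (Subgroup.centralizer (Q : Set G)) ≤ Subgroup.center _ := by
      intro z hz
      rw [Subgroup.mem_center_iff]
      intro c
      apply Subtype.ext
      exact (Subgroup.mem_centralizer_iff.1 c.2 z (Subgroup.mem_subgroupOf.1 hz).1).symm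
    have hle : (Cfsg.charDegree (φ : Subgroup.centralizer (Q : Set G) → ℂ)).factorization p ≤
        ((Q ⊓ Subgroup.centralizer (Q : Set G)).subgroupOf
        (Subgroup.centralizer (Q : Set G))).index.factorization p :=
      (Nat.factorization_le_iff_dvd (Cfsg.Agent.H25.charDegree_pos φ).ne'
        Subgroup.index_ne_zero_of_finite).2
        (Cfsg.Agent.H25.charDegree_dvd_index_of_le_center φ hDZ) p
    have hfin := (Cfsg.Agent.S0969.result p M hM _ hDp hDZ φ (le_antisymm hle (hD ▸ hφ2))).1
    rwa [← Cfsg.Agent.BlockLib.pb_eq_blockOf he hφe] at hfin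
  · intro R hRT hRp hRn
    have hR'n : (R.subgroupOf T).Normal := Subgroup.normal_subgroupOf_of_le_normalizer hRn
    have h1 := Cfsg.Agent.H25.Weight.le_of_weight (p := p) (Q.subgroupOf T) χ hQ'k hdeg'
      (R.subgroupOf T) hRp.comap_subtype
    intro r hr
    exact Subgroup.mem_subgroupOf.1 (h1 (show (⟨r, hRT hr⟩ : T) ∈ R.subgroupOf T from
      Subgroup.mem_subgroupOf.2 hr))

end Cfsg.Agent.S4694
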