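import Cfsg.Statements.S4708
import Cfsg.Agent.BlockLib.KG.PrinOver2
import Cfsg.Agent.Lib.Helper23.DegLib

set_option autoImplicit false
open Cfsg Cfsg.Agent.BlockLib Cfsg.Agent.CharLib

namespace Cfsg.Agent.S4708

/-- Let p be a prime, M a maximal ideal of the algebraic integers containing p, G a finite group and H a normal subgroup. Write λ(X) for the sum of the squares of the degrees of the irreducible characters in the principal p-block of a group X. Then λ(H) ≤ λ(G) ≤ [G : H]·λ(H). -/
theorem result {G : Type*} [Group G] [Finite G] (p : ℕ) [Fact p.Prime] (M : Ideal Cfsg.AlgInt) (hM : Cfsg.IsPModular p M) (H : Subgroup G) [H.Normal] : (∑ᶠ θ ∈ Cfsg.principalBlock M H, Cfsg.charDegree (θ : H → ℂ) ^ 2) ≤ (∑ᶠ χ ∈ Cfsg.principalBlock M G, Cfsg.charDegree (χ : G → ℂ) ^ 2) ∧ (∑ᶠ χ ∈ Cfsg.principalBlock M G, Cfsg.charDegree (χ : G → ℂ) ^ 2) ≤ H.index * ∑ᶠ θ ∈ Cfsg.principalBlock M H, Cfsg.charDegree (θ : H → ℂ) ^ 2 := by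
  classical
  letI := Fintype.ofFinite G
  letI : Fintype H := Fintype.ofFinite H
  haveI := isPrime_of_isPModular hM
  obtain ⟨P⟩ : Nonempty (Sylow p G) := inferInstance
  letI : Fintype ↥(H ⊔ (P : Subgroup G)) := Fintype.ofFinite _
  have hnat : ∀ (χ : IrrCharacter G) (θ : IrrCharacter H), ∃ n : ℕ,
      classInner (fun n : H => (χ : G → ℂ) n) (θ : H → ℂ) = n := fun χ θ =>
    classInner_char_nat (isCharacter_restrict (isCharacter_of_irr χ.2) H) (isCharacter_of_irr θ.2)
  choose m hm using hnat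
  set dG : IrrCharacter G → ℕ := fun χ => charDegree (χ : G → ℂ) with hdG
  set dH : IrrCharacter H → ℕ := fun θ => charDegree (θ : H → ℂ) with hdH
  -- F1
  have F1 : ∀ χ : IrrCharacter G, dG χ = ∑ θ : IrrCharacter H, m χ θ * dH θ := by
    intro χ
    obtain ⟨m', hm', hm2⟩ := H2.exists_mult (isCharacter_restrict (isCharacter_of_irr χ.2) H)
    have h1 := congrFun hm' 1
    simp only [Finset.sum_apply, Pi.smul_apply, smul_eq_mul] at h1
    have h2 : ((dG χ : ℕ) : ℂ) = ((∑ θ : IrrCharacter H, m χ θ * dH θ : ℕ) : ℂ) := by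
      push_cast
      rw [hdG, hdH]
      simp only [PrinOver.charDegree_cast]
      have h3 : (χ : G → ℂ) ((1 : H) : G) = (χ : G → ℂ) 1 := rfl
      rw [← h3, h1]
      apply Finset.sum_congr rfl
      intro θ _
      rw [← hm χ θ, hm2 θ]
    exact_mod_cast h2
  -- F2
  have F2 : ∀ θ : IrrCharacter H, ∑ χ : IrrCharacter G, dG χ * m χ θ = H.index * dH θ := by
    intro θ
    have h2 : ((∑ χ : IrrCharacter G, dG χ * m χ θ : ℕ) : ℂ) = ((H.index * dH θ : ℕ) : ℂ) := by
      push_cast
      rw [hdG, hdH]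
      simp only [PrinOver.charDegree_cast, ← hm, classInner_def]
      have e1 : ∑ χ : IrrCharacter G, (χ : G → ℂ) 1 * ((Nat.card H : ℂ)⁻¹ *
          ∑ g : H, (χ : G → ℂ) g * (starRingEnd ℂ) ((θ : H → ℂ) g))
          = (Nat.card H : ℂ)⁻¹ * ∑ g : H, (starRingEnd ℂ) ((θ : H → ℂ) g) *
            ∑ χ : IrrCharacter G, (χ : G → ℂ) 1 * (χ : G → ℂ) g := by
        simp only [Finset.mul_sum]
        rw [Finset.sum_comm]
        apply Finset.sum_congr rfl
        intro g _
        apply Finset.sum_congr rfl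
        intro χ _
        ring
      rw [e1]
      simp only [sum_irr_one_mul]
      rw [Finset.sum_eq_single (1 : H)]
      · rw [if_pos (Subgroup.coe_one H)]
        obtain ⟨n, hn⟩ := isCharacter_apply_one (isCharacter_of_irr θ.2)
        rw [hn, Complex.conj_natCast]
        have hG : (Nat.card G : ℂ) = (Nat.card H : ℂ) * (H.index : ℂ) := by
          rw [← Nat.cast_mul, Subgroup.card_mul_index]
        have hH0 : (Nat.card H : ℂ) ≠ 0 := by exact_mod_cast Nat.card_pos.ne'
        rw [hG]; field_simp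
      · intro g _ hg
        rw [if_neg (by simpa using hg), mul_zero]
      · intro h; exact absurd (Finset.mem_univ _) h
    exact_mod_cast h2
  -- F3
  have F3 : ∀ χ ∈ principalBlock M G, ∀ θ : IrrCharacter H, m χ θ ≠ 0 → θ ∈ principalBlock M H := by
    intro χ hχ θ hne
    apply PrinOver.mem_principalBlock_of_under hM H hχ
    rw [hm]; exact_mod_cast hne
  -- F4
  have F4 : ∀ θ ∈ principalBlock M H, ∃ χ ∈ principalBlock M G, m χ θ ≠ 0 := by
    intro θ hθ
    have hθ' : IsIrrCharacter (H.subgroupOf (H ⊔ (P : Subgroup G)))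
        (fun x => (θ : H → ℂ) (Subgroup.subgroupOfEquivOfLe le_sup_left x)) :=
      isIrrCharacter_comp_of_surjective θ.2
        (Subgroup.subgroupOfEquivOfLe (le_sup_left : H ≤ H ⊔ (P : Subgroup G))).toMonoidHom
        (Subgroup.subgroupOfEquivOfLe _).surjective
    letI : Fintype (H.subgroupOf (H ⊔ (P : Subgroup G))) := Fintype.ofFinite _
    obtain ⟨η, hη⟩ := Cfsg.Agent.Lib.Helper23.exists_irr_over
      (H.subgroupOf (H ⊔ (P : Subgroup G))) hθ'
    have hover : classInner (fun n : H => (η : ↥(H ⊔ (P : Subgroup G)) → ℂ)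
        (Subgroup.inclusion le_sup_left n)) (θ : H → ℂ) ≠ 0 := by
      intro h0
      apply hη
      rw [classInner_def] at h0 ⊢
      have hcard : Nat.card (H.subgroupOf (H ⊔ (P : Subgroup G))) = Nat.card H :=
        Nat.card_congr (Subgroup.subgroupOfEquivOfLe le_sup_left).toEquiv
      rw [hcard, ← h0]
      congr 1
      apply Fintype.sum_equiv (Subgroup.subgroupOfEquivOfLe le_sup_left).toEquiv
      intro n
      rfl
    have hηB := PrinOver.mem_principalBlock_sup hM H (P : Subgroup G) P.2 hθ hover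
    obtain ⟨χ, hχ, h1, -⟩ := PrinOver.exists_over hM P (H ⊔ (P : Subgroup G)) le_sup_right η hηB
    refine ⟨χ, hχ, ?_⟩
    have := PrinOver.classInner_ne_zero_trans le_sup_left h1 hover
    rw [hm] at this
    exact_mod_cast this
  set BG := Finset.univ.filter (· ∈ principalBlock M G) with hBG
  set BH := Finset.univ.filter (· ∈ principalBlock M H) with hBH
  have eG : ∑ᶠ χ ∈ principalBlock M G, charDegree (χ : G → ℂ) ^ 2 = ∑ χ ∈ BG, dG χ ^ 2 := by
    rw [finsum_mem_eq_finite_toFinset_sum _ (Set.toFinite _)]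
    congr 1
    ext; simp [hBG]
  have eH : ∑ᶠ θ ∈ principalBlock M H, charDegree (θ : H → ℂ) ^ 2 = ∑ θ ∈ BH, dH θ ^ 2 := by
    rw [finsum_mem_eq_finite_toFinset_sum _ (Set.toFinite _)]
    congr 1
    ext; simp [hBH]
  rw [eG, eH]
  constructor
  · -- lower bound
    calc ∑ θ ∈ BH, dH θ ^ 2
        ≤ ∑ θ ∈ BH, ∑ χ ∈ BG, (m χ θ * dH θ) ^ 2 := by
          apply Finset.sum_le_sum
          intro θ hθ
          obtain ⟨χ, hχ, hne⟩ := F4 θ (Finset.mem_filter.1 hθ).2
          have hχ' : χ ∈ BG := Finset.mem_filter.2 ⟨Finset.mem_univ _, hχ⟩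
          refine le_trans ?_ (Finset.single_le_sum (f := fun χ => (m χ θ * dH θ) ^ 2)
            (fun _ _ => Nat.zero_le _) hχ')
          apply Nat.pow_le_pow_left
          exact Nat.le_mul_of_pos_left _ (Nat.pos_of_ne_zero hne)
      _ = ∑ χ ∈ BG, ∑ θ ∈ BH, (m χ θ * dH θ) ^ 2 := Finset.sum_comm
      _ ≤ ∑ χ ∈ BG, dG χ ^ 2 := by
          apply Finset.sum_le_sum
          intro χ _
          rw [F1 χ]
          refine le_trans (Finset.sum_le_sum_of_subset (Finset.subset_univ _)) ?_
          exact Finset.sum_sq_le_sq_sum_of_nonneg (fun _ _ => Nat.zero_le _)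
  · -- upper bound
    calc ∑ χ ∈ BG, dG χ ^ 2
        = ∑ χ ∈ BG, ∑ θ ∈ BH, dG χ * (m χ θ * dH θ) := by
          apply Finset.sum_congr rfl
          intro χ hχ
          have hsq : dG χ ^ 2 = dG χ * ∑ θ : IrrCharacter H, m χ θ * dH θ := by
            rw [← F1 χ, sq]
          rw [hsq, Finset.mul_sum]
          symm
          apply Finset.sum_subset (Finset.subset_univ _)
          intro θ _ hθ
          have : m χ θ = 0 := by
            by_contra hne
            exact hθ (Finset.mem_filter.2 ⟨Finset.mem_univ _, F3 χ (Finset.mem_filter.1 hχ).2 θ hne⟩)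
          rw [this]; simp
      _ = ∑ θ ∈ BH, dH θ * ∑ χ ∈ BG, dG χ * m χ θ := by
          rw [Finset.sum_comm]
          apply Finset.sum_congr rfl
          intro θ _
          rw [Finset.mul_sum]
          apply Finset.sum_congr rfl
          intro χ _
          ring
      _ ≤ ∑ θ ∈ BH, dH θ * (H.index * dH θ) := by
          apply Finset.sum_le_sum
          intro θ _
          apply Nat.mul_le_mul_left
          rw [← F2 θ]
          exact Finset.sum_le_sum_of_subset (Finset.subset_univ _)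
      _ = H.index * ∑ θ ∈ BH, dH θ ^ 2 := by
          rw [Finset.mul_sum]
          apply Finset.sum_congr rfl
          intro θ _
          ring

end Cfsg.Agent.S4708
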