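import Cfsg.Statements.S4714
import Cfsg.Agent.H25.CentralProd4
import Cfsg.Agent.H6.PPart

set_option autoImplicit false
open Cfsg

namespace Cfsg.Agent.S4714

/-- Let p be a prime, M a maximal ideal of the algebraic integers containing p, D a p-subgroup of the finite group G with G = D·C_G(D), and B a p-block with defect group D. Let χ be a member of B having D in its kernel (there is exactly one, the canonical character of B). Then the irreducible characters in B are exactly the functions θ on G for which there is an irreducible character ζ of D such that θ(yx) = ζ(y)χ(x) whenever y ∈ D, x has order prime to p and x commutes with y, and θ(z) = 0 whenever the p-part of z does not lie in D. -/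
theorem result {G : Type*} [Group G] [Finite G] (p : ℕ) [Fact p.Prime] (M : Ideal Cfsg.AlgInt) (hM : Cfsg.IsPModular p M) (D : Subgroup G) (hD : IsPGroup p D) (hG : D ⊔ Subgroup.centralizer (D : Set G) = ⊤) (B : Set (Cfsg.IrrCharacter G)) (hB : Cfsg.IsPBlock M B) (hBD : Cfsg.IsDefectGroup p M B D) (χ : Cfsg.IrrCharacter G) (hχ : χ ∈ B) (hχD : ∀ y ∈ D, (χ : G → ℂ) y = (χ : G → ℂ) 1) : (∀ θ : Cfsg.IrrCharacter G, θ ∈ B ↔ ∃ ζ : Cfsg.IrrCharacter D, (∀ (y : D) (x : G), ¬ p ∣ orderOf x → Commute (y : G) x → (θ : G → ℂ) ((y : G) * x) = (ζ : D → ℂ) y * (χ : G → ℂ) x) ∧ (∀ z : G, (∀ y : G, Cfsg.IsPPart p z y → y ∉ D) → (θ : G → ℂ) z = 0)) ∧ ∀ ζ : Cfsg.IrrCharacter D, ∃ θ ∈ B, (∀ (y : D) (x : G), ¬ p ∣ orderOf x → Commute (y : G) x → (θ : G → ℂ) ((y : G) * x) = (ζ : D → ℂ) y * (χ : G → ℂ) x) ∧ (∀ z : G, (∀ y : G, Cfsg.IsPPart p z y → y ∉ D) → (θ : G → ℂ) z = 0) := by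
  classical
  have : Fintype G := Fintype.ofFinite _
  have hp := hM.1
  obtain ⟨b, hdata⟩ := H25.exists_cpdata hM hD hG hB hBD
  have : Fintype (Subgroup.centralizer (D : Set G)) := Fintype.ofFinite _
  obtain ⟨ζ₀, ψ₀, h₀⟩ := H25.exists_factor hG χ
  have h₀' : H25.IsProd χ ζ₀ ψ₀ := h₀
  have hζ₀ := h₀'.zeta_eq_triv hχD
  have hψ₀ : ψ₀ ∈ b := (hdata.mem_iff _ _ _ h₀').1 hχ
  have hχc : ∀ c : Subgroup.centralizer (D : Set G), (χ : G → ℂ) c =
      (ψ₀ : Subgroup.centralizer (D : Set G) → ℂ) c := by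
    intro c
    have h1 := h₀ 1 c
    rw [hζ₀] at h1
    simpa [Lib.Helper23.trivIrr] using h1
  have hDn := H25.normal_of_sup_eq_top hG
  have hCn : (Subgroup.centralizer (D : Set G)).Normal := inferInstance
  have hreg : ∀ x : G, ¬ p ∣ orderOf x → x ∈ Subgroup.centralizer (D : Set G) := by
    intro x hx
    obtain ⟨k, hk⟩ := H25.index_centralizer_pow hD hG
    have h1 : x ^ (p ^ k) ∈ Subgroup.centralizer (D : Set G) := by
      rw [← hk]; exact Subgroup.pow_index_mem _ x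
    have hcop : Nat.Coprime (p ^ k) (orderOf x) :=
      Nat.Coprime.pow_left k ((Nat.Prime.coprime_iff_not_dvd hp).mpr hx)
    obtain ⟨m, hm⟩ := exists_pow_eq_self_of_coprime hcop
    rw [← hm]
    exact Subgroup.pow_mem _ h1 m
  -- the two properties for members of the block
  have claim1 : ∀ (θ : Cfsg.IrrCharacter G) (ζ : Cfsg.IrrCharacter D)
      (ψ : Cfsg.IrrCharacter (Subgroup.centralizer (D : Set G))), H25.IsProd θ ζ ψ → ψ ∈ b →
      (∀ (y : D) (x : G), ¬ p ∣ orderOf x → Commute (y : G) x →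
        (θ : G → ℂ) ((y : G) * x) = (ζ : D → ℂ) y * (χ : G → ℂ) x) ∧
      (∀ z : G, (∀ y : G, Cfsg.IsPPart p z y → y ∉ D) → (θ : G → ℂ) z = 0) := by
    intro θ ζ ψ h hψ
    constructor
    · intro y x hx _
      have hxC := hreg x hx
      have h1 := h y ⟨x, hxC⟩
      have h2 := hχc ⟨x, hxC⟩
      have hx' : ¬ p ∣ orderOf (⟨x, hxC⟩ : Subgroup.centralizer (D : Set G)) := by
        rwa [Subgroup.orderOf_mk]
      have h3 := H25.cd_apply_reg hM hdata.hb hdata.defect H25.zSub_le_center hψ hψ₀ hx'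
      simp only at h1 h2
      rw [h1, h2, h3]
    · intro z hz
      obtain ⟨u, c, rfl⟩ := H25.exists_mul_of_sup_eq_top hG z
      rw [h u c]
      obtain ⟨cp, hcp, -⟩ := H6.exists_isPPart hp c
      have hnot : cp ∉ H25.zSub D := by
        intro hmem
        have hcpD : (cp : G) ∈ D := H25.mem_zSub.1 hmem
        obtain ⟨cr, e1, e2, ⟨k, hk⟩, e4⟩ := hcp
        refine hz ((u : G) * (cp : G)) ⟨(cr : G), ?_, ?_, ?_, ?_⟩ (D.mul_mem u.2 hcpD)
        · rw [← e1, Subgroup.coe_mul, mul_assoc]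
        · have c1 : Commute (u : G) (cr : G) := H25.commute_of_centralizer D u cr
          have c2 : Commute (cp : G) (cr : G) := by
            have := congrArg Subtype.val e2.eq
            exact this
          exact c1.mul_left c2
        · obtain ⟨j, hj⟩ := (IsPGroup.iff_orderOf.mp hD) ⟨(u : G) * (cp : G), D.mul_mem u.2 hcpD⟩
          rw [Subgroup.orderOf_mk] at hj
          exact ⟨j, hj⟩
        · rwa [Subgroup.orderOf_coe]
      rw [H25.cd_vanish hM hdata.hb hdata.defect H25.zSub_le_center hψ hcp hnot, mul_zero]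
  have claim2 : ∀ ζ : Cfsg.IrrCharacter D, ∃ θ ∈ B,
      (∀ (y : D) (x : G), ¬ p ∣ orderOf x → Commute (y : G) x →
        (θ : G → ℂ) ((y : G) * x) = (ζ : D → ℂ) y * (χ : G → ℂ) x) ∧
      (∀ z : G, (∀ y : G, Cfsg.IsPPart p z y → y ∉ D) → (θ : G → ℂ) z = 0) := by
    intro ζ
    obtain ⟨θ, hθ, ψ, hψ, h⟩ := hdata.exists_theta hM hG ζ
    exact ⟨θ, hθ, claim1 θ ζ ψ h hψ⟩
  refine ⟨fun θ => ⟨fun hθ => ?_, ?_⟩, claim2⟩
  · obtain ⟨ζ, ψ, h⟩ := H25.exists_factor hG θ
    exact ⟨ζ, claim1 θ ζ ψ h ((hdata.mem_iff _ _ _ h).1 hθ)⟩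
  · rintro ⟨ζ, h1, h2⟩
    obtain ⟨θ', hθ', h1', h2'⟩ := claim2 ζ
    have : θ = θ' := by
      apply Subtype.ext
      funext z
      obtain ⟨y, hy, -⟩ := H6.exists_isPPart hp z
      by_cases hyD : y ∈ D
      · obtain ⟨x, e1, e2, -, e4⟩ := hy
        rw [← e1, h1 ⟨y, hyD⟩ x e4 e2, h1' ⟨y, hyD⟩ x e4 e2]
      · have hall : ∀ y' : G, Cfsg.IsPPart p z y' → y' ∉ D := by
          intro y' hy'
          rw [H6.isPPart_unique hp hy' hy]
          exact hyD
        rw [h2 z hall, h2' z hall]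
    rw [this]
    exact hθ'

end Cfsg.Agent.S4714
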