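import Mathlib
import Cfsg.Statements.S4715
import Cfsg.Agent.H6.HeightBound2
import Cfsg.Agent.BlockLib.KG.EquivTr

set_option autoImplicit false
open Cfsg

namespace Cfsg.Agent.S4715

open Cfsg.Agent.BlockLib Cfsg.Agent.CharLib Cfsg.Agent.Lib.Helper23.MinMax
open Cfsg.Agent.H6.HeightBound Cfsg.Agent.H6.IndBlk

local notation "C(" P ")" => Subgroup.centralizer (SetLike.coe P)
local notation "N(" P ")" => Subgroup.normalizer (SetLike.coe P)
local notation "Ce(" g ")" => Subgroup.centralizer (Singleton.singleton g : Set _)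

theorem map_center_eq {G : Type*} [Group G] (D : Subgroup G) :
    (Subgroup.center D).map D.subtype = D ⊓ C(D) := by
  ext x
  constructor
  · rintro ⟨⟨y, hy⟩, hyc, rfl⟩
    refine ⟨hy, ?_⟩
    show y ∈ C(D)
    rw [Subgroup.mem_centralizer_iff]
    intro d hd
    exact congrArg Subtype.val (Subgroup.mem_center_iff.mp hyc ⟨d, hd⟩)
  · rintro ⟨hxD, hxC⟩
    refine ⟨⟨x, hxD⟩, ?_, rfl⟩
    rw [SetLike.mem_coe, Subgroup.mem_center_iff]
    intro d
    exact Subtype.ext (Subgroup.mem_centralizer_iff.mp hxC d d.2)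

/-- Let p be a prime, M a maximal ideal of the algebraic integers containing p, B a p-block of the finite group G with defect group D of order p^d, H = D·C_G(D), b a block of H inducing B, T the stabilizer of b in N_G(D) and e = [T : H] the inertial index of B; let n be the integer with p^n ≤ e < p^(n+1) and p^c the order of the centre of D. Then every irreducible character in B has height h with h + c ≤ n + d. -/
theorem result {G : Type*} [Group G] [Finite G] (p : ℕ) [Fact p.Prime] (M : Ideal Cfsg.AlgInt) (hM : Cfsg.IsPModular p M) (B : Set (Cfsg.IrrCharacter G)) (hB : Cfsg.IsPBlock M B) (D : Subgroup G) (hBD : Cfsg.IsDefectGroup p M B D) (d : ℕ) (hDd : Nat.card D = p ^ d) (H : Subgroup G) (hH : H = D ⊔ Subgroup.centralizer (D : Set G)) (b : Set (Cfsg.IrrCharacter H)) (hind : Cfsg.IsInducedBlock M H b B) (T : Subgroup G) (hT : ∀ g : G, g ∈ T ↔ (g ∈ Subgroup.normalizer (D : Set G) ∧ ∀ θ ∈ b, ∀ θ' : Cfsg.IrrCharacter H, (∀ h h' : H, (h' : G) = g * h * g⁻¹ → (θ' : H →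 ℂ) h' = (θ : H → ℂ) h) → θ' ∈ b)) (e : ℕ) (he : H.relIndex T = e) (n : ℕ) (hn : p ^ n ≤ e ∧ e < p ^ (n + 1)) (c : ℕ) (hc : Nat.card (Subgroup.center D) = p ^ c) : ∀ χ ∈ B, Cfsg.blockHeight p B (χ : G → ℂ) + c ≤ n + d := by
  classical
  letI := Fintype.ofFinite G
  haveI := isPrime_of_isPModular hM
  haveI := charP_resField hM
  haveI : ∀ x : G, Fintype Ce(x) := fun x => Fintype.ofFinite _
  subst hH
  have hDG := (isDefectGroup_iff hB D).mp hBD
  have hP : IsPGroup p D := by
    obtain ⟨g, -, hg⟩ := hDG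
    exact hg.1
  have hblk := hind.1
  have hbr := (isInducedBlock_iff_br hP le_sup_left le_sup_right
    (CA.sup_centralizer_le_normalizer D) hblk hB).mp hind
  have hBPOf : CA.IsBPOf p (eps M B) D (epsS M (D ⊔ C(D)) b) :=
    ⟨⟨hP, (CA.isBlk_sup_iff hP).mp (isBlk_epsS hblk)⟩, isBlk_eps hB, hbr⟩
  have hmax := CA.isMaxBP_of_isDefGrp hBPOf hDG
  have hTeq : T = CA.stab D (epsS M (D ⊔ C(D)) b) := by
    ext g
    rw [hT g, CA.mem_stab]
    refine and_congr_right fun hg => ?_
    have hK : D ⊔ C(D) = CA.cjs g (D ⊔ C(D)) :=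
      (CA.cjs_eq_of_mem_normalizer (CA.normalizer_le_normalizer_sup D hg)).symm
    rw [← epsS_conjSet hK]
    constructor
    · intro h
      have hsub : conjSet (D ⊔ C(D)) (D ⊔ C(D)) g b ⊆ b := by
        rintro θ' ⟨θ, hθ, hc⟩
        exact h θ hθ θ' hc
      have heq : conjSet (D ⊔ C(D)) (D ⊔ C(D)) g b = b := by
        by_contra hne
        obtain ⟨θ', hθ'⟩ := pb_nonempty (isPBlock_conjSet hK hblk)
        exact Set.disjoint_left.mp (pb_disjoint_of_ne (isPBlock_conjSet hK hblk) hblk hne) hθ'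
          (hsub hθ')
      rw [heq]
    · intro h θ hθ θ' hc
      have heq : conjSet (D ⊔ C(D)) (D ⊔ C(D)) g b = b :=
        epsS_injective (isPBlock_conjSet hK hblk) hblk h
      rw [← heq]
      exact ⟨θ, hθ, hc⟩
  have hcardD := card_of_isDefectGroup hM hB hBD
  have hdd : blockDefect p B = d :=
    Nat.pow_right_injective (Fact.out : p.Prime).two_le (hcardD.symm.trans hDd)
  have hcardZ : Nat.card (D ⊓ C(D) : Subgroup G) = p ^ c := by
    rw [← map_center_eq, Subgroup.card_map_of_injective (Subgroup.subtype_injective D), hc]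
  obtain ⟨X, -, hX, hXrep⟩ := Cfsg.Agent.Lib.Helper23.Subsect.exists_rep_set p (1 : G)
    ⟨0, by simp⟩
  have hBb := card_center_le hM hB hmax hcardD X hX hXrep
  rw [hcardZ, ← hTeq, he] at hBb
  intro χ hχ
  have hA := card_major_mul_le hM X hX hXrep hB hχ
  have hheight : blockHeight p B (χ : G → ℂ) =
      (charDegree (χ : G → ℂ)).factorization p - minExp p B := rfl
  rw [hheight]
  set h := (charDegree (χ : G → ℂ)).factorization p - minExp p B
  set S := ∑ x ∈ X, ((pblocks M Ce(x)).filter (fun β =>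
        IsInducedBlock M Ce(x) β B ∧ blockDefect p β = blockDefect p B)).card
  rw [hdd] at hA
  have hp1 := (Fact.out : p.Prime).one_lt
  have h1 : p ^ (c + h) < p ^ (n + 1 + d) := by
    calc p ^ (c + h) = p ^ c * p ^ h := pow_add _ _ _
      _ ≤ e * S * p ^ h := Nat.mul_le_mul_right _ hBb
      _ = e * (S * p ^ h) := mul_assoc _ _ _
      _ ≤ e * p ^ d := Nat.mul_le_mul_left _ hA
      _ < p ^ (n + 1) * p ^ d := Nat.mul_lt_mul_of_pos_right hn.2 (pow_pos (by omega) _)
      _ = p ^ (n + 1 + d) := (pow_add _ _ _).symm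
  have h2 := (Nat.pow_lt_pow_iff_right hp1).mp h1
  omega

end Cfsg.Agent.S4715
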