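import Cfsg.Statements.S4717
import Cfsg.Agent.H25.IndDefect
import Cfsg.Agent.S0936
import Cfsg.Agent.S0917
import Cfsg.Agent.H6.IndDefined

set_option autoImplicit false
open Cfsg

namespace Cfsg.Agent.S4717

/-- Let p be a prime, M a maximal ideal of the algebraic integers containing p, and r a natural number; say that a finite group X has deficiency class r when X has no non-principal p-block of defect ≥ r. If G has deficiency class r then so does the centralizer of every p-element of G; conversely, if r > 0 and the centralizer of every element of order p has deficiency class r, then G has deficiency class r. -/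
theorem result {G : Type*} [Group G] [Finite G] (p : ℕ) [Fact p.Prime] (M : Ideal Cfsg.AlgInt) (hM : Cfsg.IsPModular p M) (r : ℕ) : ((∀ B' : Set (Cfsg.IrrCharacter G), Cfsg.IsPBlock M B' → B' ≠ Cfsg.principalBlock M G → Cfsg.blockDefect p B' < r) → ∀ y : G, (∃ k : ℕ, orderOf y = p ^ k) → (∀ B' : Set (Cfsg.IrrCharacter ↥(Subgroup.centralizer ({y} : Set G))), Cfsg.IsPBlock M B' → B' ≠ Cfsg.principalBlock M ↥(Subgroup.centralizer ({y} : Set G)) → Cfsg.blockDefect p B' < r)) ∧ (0 < r → (∀ y : G, orderOf y = p → (∀ B' : Set (Cfsg.IrrCharacter ↥(Subgroup.centralizer ({y} : Set G))), Cfsg.IsPBlock M B' → B' ≠ Cfsg.principalBlock M ↥(Subgroup.centralizer ({y} : Set G)) → Cfsg.blockDefect p B' < r)) → (∀ B' : Set (Cfsg.IrrCharacter G), Cfsg.IsPBlock M B' → B' ≠ Cfsg.principalBlock M G → Cfsg.blockDefect p B' < r)) := by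
  classical
  cases nonempty_fintype G
  have hPr := Cfsg.Agent.BlockLib.isPrime_of_isPModular hM
  have hp := hM.1
  refine ⟨?_, ?_⟩
  · intro hG y hy b hb hbne
    obtain ⟨k, hk⟩ := hy
    have hdef := Cfsg.Agent.H6.IndBlk.inducedBlockDefined_centralizer hM hk hb
    obtain ⟨B, hind⟩ := hdef
    have hBne : B ≠ Cfsg.principalBlock M G := by
      rintro rfl
      exact hbne ((Cfsg.Agent.S0936.result p M hM _ b ⟨_, hind⟩).1 hind)
    have h1 := hG B hind.2.1 hBne
    obtain ⟨D, hD⟩ : ∃ D, Cfsg.IsDefectGroup p M b D := by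
      obtain ⟨D, hD⟩ := Cfsg.Agent.BlockLib.CA.exists_isDefGrp (p := p)
        (Cfsg.Agent.BlockLib.isBlk_eps hb)
      exact ⟨D, (Cfsg.Agent.BlockLib.isDefectGroup_iff hb D).2 hD⟩
    obtain ⟨E, hE, hle⟩ := Cfsg.Agent.S0917.result p M hM _ b hb B hind.2.1 hind D hD
    have c1 := Cfsg.Agent.Lib.Helper23.MinMax.card_of_isDefectGroup hM hb hD
    have c2 := Cfsg.Agent.Lib.Helper23.MinMax.card_of_isDefectGroup hM hind.2.1 hE
    have c3 := Subgroup.card_le_of_le hle
    rw [Subgroup.card_map_of_injective (Subgroup.subtype_injective _), c1, c2] at c3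
    exact lt_of_le_of_lt ((Nat.pow_le_pow_iff_right hp.one_lt).1 c3) h1
  · intro hr hC B hB hBne
    by_contra hcon
    push Not at hcon
    obtain ⟨D, hD⟩ : ∃ D, Cfsg.IsDefectGroup p M B D := by
      obtain ⟨D, hD⟩ := Cfsg.Agent.BlockLib.CA.exists_isDefGrp (p := p)
        (Cfsg.Agent.BlockLib.isBlk_eps hB)
      exact ⟨D, (Cfsg.Agent.BlockLib.isDefectGroup_iff hB D).2 hD⟩
    have c1 := Cfsg.Agent.Lib.Helper23.MinMax.card_of_isDefectGroup hM hB hD
    have hDp : IsPGroup p D := IsPGroup.of_card c1
    have hDnt : Nontrivial D := by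
      rw [← Finite.one_lt_card_iff_nontrivial, c1]
      exact Nat.one_lt_pow (by omega) hp.one_lt
    have hZnt : Nontrivial (Subgroup.center D) := hDp.center_nontrivial
    have hZp : IsPGroup p (Subgroup.center D) := hDp.to_subgroup _
    obtain ⟨n, hn⟩ := IsPGroup.iff_card.mp hZp
    have hn0 : n ≠ 0 := by
      rintro rfl
      rw [pow_zero] at hn
      have := Finite.one_lt_card_iff_nontrivial.2 hZnt
      omega
    obtain ⟨z, hz⟩ := exists_prime_orderOf_dvd_card' (G := Subgroup.center D) p
      (by rw [hn]; exact dvd_pow_self p hn0)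
    set y : G := ((z : D) : G) with hy
    have hyo : orderOf y = p := by
      rw [hy, Subgroup.orderOf_coe, Subgroup.orderOf_coe, hz]
    have hDle : D ≤ Subgroup.centralizer ({y} : Set G) := by
      intro d hd
      rw [Subgroup.mem_centralizer_singleton_iff]
      have := Subgroup.mem_center_iff.1 z.2 ⟨d, hd⟩
      exact congrArg Subtype.val this
    have hcz : Subgroup.centralizer ((Subgroup.zpowers y : Subgroup G) : Set G)
        = Subgroup.centralizer ({y} : Set G) := by
      rw [Subgroup.zpowers_eq_closure, Subgroup.centralizer_closure]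
    obtain ⟨b, hind, hle⟩ := Cfsg.Agent.H25.exists_induced_block_ge hM hB hD
      (P := Subgroup.zpowers y) (H := Subgroup.centralizer ({y} : Set G))
      (by rw [IsPGroup.iff_card, Nat.card_zpowers, hyo]; exact ⟨1, (pow_one p).symm⟩)
      (by rw [Subgroup.zpowers_le, Subgroup.mem_centralizer_singleton_iff])
      hcz.le (by rw [← hcz]; exact Subgroup.centralizer_le_normalizer _)
      (by rw [Subgroup.zpowers_le]; exact (z : D).2) hDle
    have hbne : b ≠ Cfsg.principalBlock M _ := by
      intro h
      have h1 := (Cfsg.Agent.S0936.result p M hM _ b ⟨_, hind⟩).2 h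
      exact hBne (Cfsg.Agent.H25.isInducedBlock_unique hind h1)
    have := hC y hyo b hind.1 hbne
    omega

end Cfsg.Agent.S4717
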