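import Cfsg.Statements.S4718
import Cfsg.Agent.Tr.Landau
import Cfsg.Agent.S4494
import Cfsg.Agent.BlockLib.Idempotent
-- import your own Cfsg.Agent.* helpers here

set_option autoImplicit false
universe u
open Cfsg

open Cfsg Cfsg.Agent.BlockLib Cfsg.Agent.CharLib

namespace Cfsg.Agent.S4718

/-- Let p be a prime and a a natural number. There is a bound N such that every finite group whose Sylow p-subgroups have order p^a and whose only p-block (relative to a maximal ideal of the algebraic integers containing p) is the principal block has order at most N. -/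
theorem result (p : ℕ) [Fact p.Prime] (a : ℕ) : ∃ N : ℕ, ∀ (G : Type u) [Group G] [Finite G] (M : Ideal Cfsg.AlgInt), Cfsg.IsPModular p M → (Nat.card G).factorization p = a → (∀ B : Set (Cfsg.IrrCharacter G), Cfsg.IsPBlock M B → B = Cfsg.principalBlock M G) → Nat.card G ≤ N := by

  obtain ⟨N, hN⟩ := Cfsg.Agent.Tr.landau.{u} (p ^ (2 * a) + 4)
  refine ⟨N, fun G _ _ M hM ha hB => hN G ?_⟩
  have huniv : Cfsg.principalBlock M G = Set.univ := by
    rw [Set.eq_univ_iff_forall]
    intro χ
    rw [← hB (Cfsg.blockOf M (χ : G → ℂ)) ⟨χ, rfl⟩]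
    intro g
    simpa using memLocalIdeal_zero hM.2.1.ne_top
  have h1 := Cfsg.Agent.S4494.result p M hM (Cfsg.principalBlock M G) ⟨⟨fun _ => 1, isIrrCharacter_one⟩, rfl⟩
  rw [huniv, Nat.card_coe_set_eq, Set.ncard_univ, card_irrCharacter] at h1
  have h2 : Cfsg.blockDefect p (Set.univ : Set (Cfsg.IrrCharacter G)) ≤ a := by
    unfold Cfsg.blockDefect
    rw [ha]
    exact Nat.sub_le _ _
  have h3 : p ^ (2 * Cfsg.blockDefect p (Set.univ : Set (Cfsg.IrrCharacter G))) ≤ p ^ (2 * a) :=
    Nat.pow_le_pow_right (Fact.out : p.Prime).pos (by omega)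
  omega

end Cfsg.Agent.S4718
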