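import Cfsg.Statements.S4720
import Cfsg.Agent.H25.SectionSum

set_option autoImplicit false
open Cfsg

namespace Cfsg.Agent.S4720

/-- Let p be a prime, M a maximal ideal of the algebraic integers containing p, P a p-subgroup of the finite group G, N a subgroup with P ≤ N ≤ N_G(P), and U a nonempty subset of P normalized by N such that an element of U and an element of P that are conjugate in G are already conjugate in N, and such that λ(C_G(y)) = w·#C_N(y) for every y ∈ U with one rational number w, where λ(X) denotes the sum of the squares of the degrees of the irreducible characters in the principal p-block of X. For a complex function θ on P and χ in the principal block of G put a_χ(θ) = #P⁻¹ Σ_{y ∈ P} χ(y) θ(y⁻¹). Then for generalized characters θ, η of P with θ vanishing outside U, Σ_χ a_χ(θ)·conj(a_χ(η)) = (w/#P²)·Σ_{y ∈ P} θ(y)·conj(Σ_{x ∈ N} η(x y x⁻¹)) (η extended by zero off P; the conjugates lie in P), the first sum over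 the principal p-block of G. -/
theorem result {G : Type*} [Group G] [Finite G] (p : ℕ) [Fact p.Prime] (M : Ideal Cfsg.AlgInt) (hM : Cfsg.IsPModular p M) (P : Subgroup G) (hP : IsPGroup p P) (N : Subgroup G) (hPN : P ≤ N) (hNN : N ≤ Subgroup.normalizer (P : Set G)) (U : Set G) (hUne : U.Nonempty) (hUP : U ⊆ (P : Set G)) (hUN : ∀ n ∈ N, ∀ u ∈ U, n * u * n⁻¹ ∈ U) (hfus : ∀ u ∈ U, ∀ g : G, g * u * g⁻¹ ∈ (P : Set G) → ∃ n ∈ N, n * u * n⁻¹ = g * u * g⁻¹) (w : ℚ) (hw : ∀ y ∈ U, ((∑ᶠ ψ ∈ Cfsg.principalBlock M ↥(Subgroup.centralizer ({y} : Set G)), Cfsg.charDegree (ψ : ↥(Subgroup.centralizer ({y} : Set G)) → ℂ) ^ 2) : ℚ) = w * Nat.card ↥(N ⊓ Subgroup.centralizer ({y} : Set G))) (θ η : ↥P → ℂ) (hθ : Cfsg.IsGeneralizedCharacter ↥P θ) (hη : Cfsg.IsGeneralizedCharacter ↥P η) (hθU : ∀ y : ↥P, (y : G) ∉ U → θ y = 0) : ∑ᶠ χ ∈ Cfsg.principalBlock M G, ((Nat.card ↥P : ℂ)⁻¹ * ∑ᶠ y : ↥P, (χ : G → ℂ) (y : G) * θ y⁻¹) * (starRingEnd ℂ) ((Nat.card ↥P :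 ℂ)⁻¹ * ∑ᶠ y : ↥P, (χ : G → ℂ) (y : G) * η y⁻¹) = ((w : ℂ) / ((Nat.card ↥P : ℂ) ^ 2)) * ∑ᶠ y : ↥P, θ y * (starRingEnd ℂ) (∑ᶠ x : ↥N, Cfsg.extendByZero P η ((x : G) * (y : G) * (x : G)⁻¹)) := by
  classical
  have : Fintype G := Fintype.ofFinite _
  have : Fintype P := Fintype.ofFinite _
  have : Fintype N := Fintype.ofFinite _
  have hp : p.Prime := Fact.out
  rw [finsum_mem_eq_finite_toFinset_sum _ (Set.toFinite _)]
  have t1 : (Set.toFinite (Cfsg.principalBlock M G)).toFinset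
      = Finset.univ.filter (· ∈ Cfsg.principalBlock M G) := by ext; simp
  rw [t1]
  simp only [finsum_eq_sum_of_fintype]
  set c : ℂ := (Nat.card ↥P : ℂ)⁻¹ with hc
  have hcc : (starRingEnd ℂ) c = c := by rw [hc, map_inv₀, Complex.conj_natCast]
  -- orders
  have hord : ∀ y : P, ∃ k : ℕ, orderOf (y : G) = p ^ k := by
    intro y
    obtain ⟨k, hk⟩ := (IsPGroup.iff_orderOf.1 hP) y
    exact ⟨k, by rw [Subgroup.orderOf_coe]; exact hk⟩
  -- reindexing
  have r1 : ∀ (χ : Cfsg.IrrCharacter G) (f : P → ℂ),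
      ∑ y : P, (χ : G → ℂ) (y : G) * f y⁻¹ = ∑ y : P, (χ : G → ℂ) (y : G)⁻¹ * f y := by
    intro χ f
    rw [← Equiv.sum_comp (Equiv.inv P)]
    refine Finset.sum_congr rfl fun y _ => ?_
    simp
  simp only [r1]
  have step1 : ∑ χ ∈ Finset.univ.filter (· ∈ Cfsg.principalBlock M G),
      (c * ∑ y : P, (χ : G → ℂ) (y : G)⁻¹ * θ y) *
        (starRingEnd ℂ) (c * ∑ y : P, (χ : G → ℂ) (y : G)⁻¹ * η y) =
      c ^ 2 * ∑ y : P, θ y * ∑ y' : P, (starRingEnd ℂ) (η y') *
        ∑ χ ∈ Finset.univ.filter (· ∈ Cfsg.principalBlock M G),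
          (χ : G → ℂ) (y : G)⁻¹ * (starRingEnd ℂ) ((χ : G → ℂ) (y' : G)⁻¹) := by
    have h1 : ∀ χ : Cfsg.IrrCharacter G, (c * ∑ y : P, (χ : G → ℂ) (y : G)⁻¹ * θ y) *
        (starRingEnd ℂ) (c * ∑ y : P, (χ : G → ℂ) (y : G)⁻¹ * η y) =
        ∑ y : P, ∑ y' : P, c ^ 2 * (θ y * ((starRingEnd ℂ) (η y') *
          ((χ : G → ℂ) (y : G)⁻¹ * (starRingEnd ℂ) ((χ : G → ℂ) (y' : G)⁻¹)))) := by
      intro χ
      rw [map_mul, hcc, map_sum, mul_mul_mul_comm, Finset.sum_mul_sum, Finset.mul_sum]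
      refine Finset.sum_congr rfl fun y _ => ?_
      rw [Finset.mul_sum]
      refine Finset.sum_congr rfl fun y' _ => ?_
      rw [map_mul]
      ring
    rw [Finset.sum_congr rfl (fun χ _ => h1 χ), Finset.sum_comm, Finset.mul_sum]
    refine Finset.sum_congr rfl fun y _ => ?_
    rw [Finset.sum_comm, Finset.mul_sum, Finset.mul_sum]
    refine Finset.sum_congr rfl fun y' _ => ?_
    rw [Finset.mul_sum, Finset.mul_sum, Finset.mul_sum]
  rw [step1]
  have e0 : (w : ℂ) / (Nat.card ↥P : ℂ) ^ 2 = c ^ 2 * (w : ℂ) := by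
    rw [hc, inv_pow]; ring
  rw [e0, mul_assoc]
  congr 1
  rw [Finset.mul_sum]
  refine Finset.sum_congr rfl fun y _ => ?_
  by_cases hyU : (y : G) ∈ U
  · rw [H25.sum_conj_orbit P N hNN y η (fun g hg => hfus y hyU g hg), map_sum, mul_left_comm]
    congr 1
    rw [Finset.mul_sum]
    refine Finset.sum_congr rfl fun y' _ => ?_
    obtain ⟨k, hk⟩ := hord y
    obtain ⟨k', hk'⟩ := hord y'
    have : Fintype (Subgroup.centralizer ({(y : G)} : Set G)) := Fintype.ofFinite _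
    rw [H25.sum_principal_pElements hM (y : G) (y' : G) hk hk']
    have hw' := hw y hyU
    rw [finsum_mem_eq_finite_toFinset_sum _ (Set.toFinite _)] at hw'
    have t2 : (Set.toFinite (Cfsg.principalBlock M
        ↥(Subgroup.centralizer ({(y : G)} : Set G)))).toFinset
        = Finset.univ.filter (· ∈ Cfsg.principalBlock M
          ↥(Subgroup.centralizer ({(y : G)} : Set G))) := by ext; simp
    rw [t2] at hw'
    split_ifs with hconj
    · have hw'' := congrArg (fun q : ℚ => (q : ℂ)) hw'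
      simp only [Rat.cast_sum, Rat.cast_pow, Rat.cast_natCast, Rat.cast_mul] at hw''
      push_cast
      rw [hw'', map_mul, Complex.conj_natCast]
      ring
    · simp
  · rw [hθU y hyU]; simp

end Cfsg.Agent.S4720
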