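import Cfsg.Statements.S4721
import Cfsg.Agent.Lib.Helper23.Tri4
import Cfsg.Agent.Lib.Helper23.Tri7

set_option autoImplicit false
open Cfsg

namespace Cfsg.Agent.S4721

open Cfsg.Agent.CharLib Cfsg.Agent.BlockLib Cfsg.Agent.Lib.Helper10 Cfsg.Agent.Lib.Helper23
  Cfsg.Agent.Lib.Helper23.DualAct Cfsg.Agent.Lib.Helper23.FrobN Cfsg.Agent.Lib.Helper23.Homo

/-- Let p be a prime, M a maximal ideal of the algebraic integers containing p, and G a finite group with a nontrivial abelian Sylow p-subgroup P, N = N_G(P), C = C_G(P), such that N/C is cyclic of order 3, #P > 4, and C_G(y) ∩ N = C for every non-identity y ∈ P. Then the principal p-block is the disjoint union of a set X of exactly 3 characters containing the principal character and a set Y of (#P − 1)/3 characters, with signs a_χ = ±1 (χ ∈ X, a = 1 at the principal character) and δ = ±1 such that every χ ∈ X takes the value a_χ at every element whose p-part is a non-identity element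 of P, and there is a map ζ from the non-principal linear characters of P onto Y, constant on N-conjugacy classes, with ζ_ψ(z) = δ·Σ ψ'(y) over the N-orbit of ψ, for z with p-part y ≠ 1 in P. If moreover G has an involution lying in no proper normal subgroup of G, then exactly two of the three numbers −δ and a_χ (χ ∈ X non-principal) equal −1, and the product of the degrees of the two non-principal members of X and of any member of Y is a perfect square. -/
theorem result {G : Type*} [Group G] [Finite G] (p : ℕ) [Fact p.Prime] (M : Ideal Cfsg.AlgInt) (hM : Cfsg.IsPModular p M) (P : Sylow p G) (hab : IsMulCommutative P) (hP1 : Nat.card P ≠ 1) (hCN : (Subgroup.centralizer ((P : Subgroup G) : Set G)).relIndex (Subgroup.normalizer ((P : Subgroup G) : Set G)) = 3) (hcyc : ∃ g : G, g ∈ Subgroup.normalizer ((P : Subgroup G) : Set G) ∧ Subgroup.centralizer ((P : Subgroup G) : Set G) ⊔ Subgroup.zpowers g = Subgroup.normalizer ((P : Subgroup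 G) : Set G)) (hm2 : 3 + 1 < Nat.card P) (hfrob : ∀ y : G, y ∈ (P : Subgroup G) → y ≠ 1 → Subgroup.centralizer ({y} : Set G) ⊓ Subgroup.normalizer ((P : Subgroup G) : Set G) = Subgroup.centralizer ((P : Subgroup G) : Set G)) : ∃ (X Y : Set (Cfsg.IrrCharacter G)), Cfsg.principalBlock M G = X ∪ Y ∧ Disjoint X Y ∧ Nat.card X = 3 ∧ Nat.card Y = (Nat.card P - 1) / 3 ∧ (∃ χ₁ ∈ X, (χ₁ : G → ℂ) = fun _ => 1) ∧ ∃ (a : Cfsg.IrrCharacter G → ℤ) (δ : ℤ) (ζ : (↥(P : Subgroup G) →* ℂˣ) → Cfsg.IrrCharacter G), (δ = 1 ∨ δ = -1) ∧ (∀ χ ∈ X, (a χ = 1 ∨ a χ = -1) ∧ ∀ z y : G, Cfsg.IsPPart p z y → y ∈ (P : Subgroup G) → y ≠ 1 → (χ : G → ℂ) z = (a χ : ℂ)) ∧ (∀ ψ : ↥(P : Subgroup G) →* ℂˣ, ψ ≠ 1 → ζ ψ ∈ Y) ∧ (∀ η ∈ Y, ∃ ψ : ↥(P : Subgroup G) →* ℂˣ, ψ ≠ 1 ∧ ζ ψ = η) ∧ (∀ ψ ψ' : ↥(P : Subgroup G) →* ℂˣ, ψ ≠ 1 → (∃ n : G, n ∈ Subgroup.normalizer ((P : Subgroup G) : Set G) ∧ ∀ w w' : ↥(P : Subgroup G), (w' : G) = n * w * n⁻¹ → ψ' w' = ψ w) → ζ ψ' = ζ ψ) ∧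 (∀ ψ : ↥(P : Subgroup G) →* ℂˣ, ψ ≠ 1 → ∀ (z : G) (y : ↥(P : Subgroup G)), Cfsg.IsPPart p z (y : G) → (y : G) ≠ 1 → (ζ ψ : G → ℂ) z = (δ : ℂ) * ∑ᶠ ψ' ∈ {ψ' : ↥(P : Subgroup G) →* ℂˣ | ∃ n : G, n ∈ Subgroup.normalizer ((P : Subgroup G) : Set G) ∧ ∀ w w' : ↥(P : Subgroup G), (w' : G) = n * w * n⁻¹ → ψ' w' = ψ w}, ((ψ' y : ℂˣ) : ℂ)) ∧ ((∃ t : G, orderOf t = 2 ∧ ∀ K : Subgroup G, K.Normal → t ∈ K → K = ⊤) → Nat.card {χ : Cfsg.IrrCharacter G // χ ∈ X ∧ (χ : G → ℂ) ≠ (fun _ => 1) ∧ a χ = -1} + (if δ = 1 then 1 else 0) = 2 ∧ ∀ η ∈ Y, IsSquare (Cfsg.charDegree (η : G → ℂ) * ∏ᶠ χ ∈ {χ : Cfsg.IrrCharacter G | χ ∈ X ∧ (χ : G → ℂ) ≠ fun _ => 1}, Cfsg.charDegree (χ : G → ℂ))) := by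
  classical
  cases nonempty_fintype G
  cases nonempty_fintype ↥(P : Subgroup G)
  cases nonempty_fintype (↥(P : Subgroup G) →* ℂˣ)
  have hE : Nat.card (autE P) = 3 := by rw [card_autE, hCN]
  have hm : Nat.card (autE P) + 1 < Nat.card P := by omega
  have hq : 4 < Nat.card P := by omega
  obtain ⟨D, hd⟩ := exists_coh_d_zero (M := M) hM hab hfrob hE hq
  obtain ⟨ψ₀, hψ₀⟩ := exists_ne_one P hab (by omega)
  obtain ⟨χ₂, χ₃, h23, h2, h3, hX, hc2, hc3⟩ := D.X_struct hd hM hab hfrob hE hq hψ₀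
  have hcard := D.card_Yf hab hfrob
  rw [hE] at hcard
  have hY : (Nat.card P - 1) / 3 = D.Yf.card := by
    rw [← hcard]; exact Nat.mul_div_cancel _ (by norm_num)
  have hn2 : (χ₂ : G → ℂ) ≠ fun _ => 1 := fun h => h2 (Subtype.ext h)
  have hn3 : (χ₃ : G → ℂ) ≠ fun _ => 1 := fun h => h3 (Subtype.ext h)
  refine ⟨↑D.Xf, ↑D.Yf, ?_, ?_, ?_, ?_, ?_, fun χ => D.c χ ψ₀, D.δ, D.ζ, D.hδ,
    ?_, ?_, ?_, ?_, ?_, ?_⟩
  · ext χ
    rw [Set.mem_union, Finset.mem_coe, Finset.mem_coe, D.mem_Xf, mem_Bf]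
    constructor
    · intro h
      by_cases h' : χ ∈ D.Yf
      · exact Or.inr h'
      · exact Or.inl ⟨h, h'⟩
    · rintro (h | h)
      · exact h.1
      · exact mem_Bf.1 (D.Yf_subset h)
  · rw [Set.disjoint_left]
    intro χ h1 h2
    exact (D.mem_Xf.1 (Finset.mem_coe.1 h1)).2 (Finset.mem_coe.1 h2)
  · rw [← D.card_Xf_three h23 h2 h3 hX]; simp
  · rw [hY]; simp
  · exact ⟨trivIrr G, Finset.mem_coe.2 (D.triv_mem_Xf hM hab hfrob hm), rfl⟩
  · intro χ hχ
    rw [Finset.mem_coe] at hχ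
    refine ⟨?_, fun z y hzy hy hy1 => ?_⟩
    · rcases (hX χ).1 hχ with rfl | rfl | rfl
      · exact Or.inl (D.c_triv hψ₀)
      · exact hc2
      · exact hc3
    · rw [apply_of_isPPart P hM hab hfrob (mem_Bf.1 (D.mem_Xf.1 hχ).1) hzy hy hy1]
      exact D.value_X hab hχ hψ₀ (y := ⟨y, hy⟩) (fun h => hy1 (congrArg Subtype.val h))
  · intro ψ hψ
    exact Finset.mem_coe.2 (D.ζ_mem_Yf hψ)
  · intro η hη
    exact D.mem_Yf.1 (Finset.mem_coe.1 hη)
  · intro ψ ψ' hψ h
    have hR := R_iff.2 h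
    exact ((D.hinj ψ ψ' hψ (ne_one_of_R _ hψ hR)).2 hR).symm
  · intro ψ hψ z y hzy hy1
    rw [apply_of_isPPart P hM hab hfrob (D.hζ ψ hψ) hzy y.2 hy1,
      D.value_Y hab hψ (fun h => hy1 (congrArg Subtype.val h)), hd, Int.cast_zero, zero_add]
    congr 1
    have : {ψ' : ↥(P : Subgroup G) →* ℂˣ | ∃ n : G, n ∈ Subgroup.normalizer ((P : Subgroup G) : Set G)
        ∧ ∀ w w' : ↥(P : Subgroup G), (w' : G) = n * w * n⁻¹ → ψ' w' = ψ w} =
        ↑(Finset.univ.filter (fun ψ' : ↥(P : Subgroup G) →* ℂˣ => R (autE P) ψ ψ')) := by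
      ext ψ'
      simp only [Set.mem_ofPred_eq, Finset.coe_filter, Finset.mem_univ, true_and]
      exact R_iff.symm
    rw [this, finsum_mem_coe_finset]
  · rintro ⟨t, ht, hK⟩
    by_cases hp2 : p = 2
    · subst hp2
      exact (two_case hM hab hfrob hE hq ht hK).elim
    · obtain ⟨hsigns, hsq⟩ := odd_case D hd hM hab hfrob hE hq hp2 hψ₀ h23 h2 h3 hX hc2 hc3 ht hK
      constructor
      · have hcs : Nat.card {χ : Cfsg.IrrCharacter G // χ ∈ (↑D.Xf : Set (Cfsg.IrrCharacter G)) ∧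
            (χ : G → ℂ) ≠ (fun _ => 1) ∧ D.c χ ψ₀ = -1} =
            Set.ncard {χ : Cfsg.IrrCharacter G | χ ∈ (↑D.Xf : Set (Cfsg.IrrCharacter G)) ∧
            (χ : G → ℂ) ≠ (fun _ => 1) ∧ D.c χ ψ₀ = -1} := Nat.card_coe_set_eq _
        show Nat.card {χ : Cfsg.IrrCharacter G // χ ∈ (↑D.Xf : Set (Cfsg.IrrCharacter G)) ∧
            (χ : G → ℂ) ≠ (fun _ => 1) ∧ D.c χ ψ₀ = -1} + _ = 2
        rw [hcs]
        rcases hsigns with ⟨a, b, c⟩ | ⟨a, b, c⟩ | ⟨a, b, c⟩
        · have : {χ : Cfsg.IrrCharacter G | χ ∈ (↑D.Xf : Set (Cfsg.IrrCharacter G)) ∧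
            (χ : G → ℂ) ≠ (fun _ => 1) ∧ D.c χ ψ₀ = -1} = {χ₃} := by
            ext χ
            simp only [Set.mem_ofPred_eq, Finset.mem_coe, hX, Set.mem_singleton_iff]
            constructor
            · rintro ⟨h | h | h, h', h''⟩
              · rw [h] at h'; exact absurd rfl h'
              · rw [h, a] at h''; omega
              · exact h
            · rintro rfl
              exact ⟨Or.inr (Or.inr rfl), hn3, b⟩
          rw [this, Set.ncard_singleton, if_pos c]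
        · have : {χ : Cfsg.IrrCharacter G | χ ∈ (↑D.Xf : Set (Cfsg.IrrCharacter G)) ∧
            (χ : G → ℂ) ≠ (fun _ => 1) ∧ D.c χ ψ₀ = -1} = {χ₂} := by
            ext χ
            simp only [Set.mem_ofPred_eq, Finset.mem_coe, hX, Set.mem_singleton_iff]
            constructor
            · rintro ⟨h | h | h, h', h''⟩
              · rw [h] at h'; exact absurd rfl h'
              · exact h
              · rw [h, b] at h''; omega
            · rintro rfl
              exact ⟨Or.inr (Or.inl rfl), hn2, a⟩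
          rw [this, Set.ncard_singleton, if_pos c]
        · have : {χ : Cfsg.IrrCharacter G | χ ∈ (↑D.Xf : Set (Cfsg.IrrCharacter G)) ∧
            (χ : G → ℂ) ≠ (fun _ => 1) ∧ D.c χ ψ₀ = -1} = {χ₂, χ₃} := by
            ext χ
            simp only [Set.mem_ofPred_eq, Finset.mem_coe, hX, Set.mem_singleton_iff,
              Set.mem_insert_iff]
            constructor
            · rintro ⟨h | h | h, h', h''⟩
              · rw [h] at h'; exact absurd rfl h'
              · exact Or.inl h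
              · exact Or.inr h
            · rintro (rfl | rfl)
              · exact ⟨Or.inr (Or.inl rfl), hn2, a⟩
              · exact ⟨Or.inr (Or.inr rfl), hn3, b⟩
          rw [this, Set.ncard_pair h23, if_neg (by rw [c]; norm_num)]
      · intro η hη
        have hdeg : Cfsg.charDegree (η : G → ℂ) = Cfsg.charDegree (D.ζ ψ₀ : G → ℂ) := by
          have h1 := D.agree hM (Finset.mem_coe.1 hη) (D.ζ_mem_Yf hψ₀) (g := 1)
            Coh.not_dvd_orderOf_one
          rw [← charDegree_cast_irr, ← charDegree_cast_irr] at h1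
          exact_mod_cast h1
        have hset : {χ : Cfsg.IrrCharacter G | χ ∈ (↑D.Xf : Set (Cfsg.IrrCharacter G)) ∧
            (χ : G → ℂ) ≠ fun _ => 1} = {χ₂, χ₃} := by
          ext χ
          simp only [Set.mem_ofPred_eq, Finset.mem_coe, hX, Set.mem_singleton_iff,
            Set.mem_insert_iff]
          constructor
          · rintro ⟨h | h | h, h'⟩
            · rw [h] at h'; exact absurd rfl h'
            · exact Or.inl h
            · exact Or.inr h
          · rintro (rfl | rfl)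
            · exact ⟨Or.inr (Or.inl rfl), hn2⟩
            · exact ⟨Or.inr (Or.inr rfl), hn3⟩
        rw [hset, finprod_mem_pair h23, hdeg]
        exact hsq

end Cfsg.Agent.S4721
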