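import Cfsg.Statements.S4722
import Cfsg.Agent.H25.InvolColumns
import Cfsg.Agent.H25.Codeg

set_option autoImplicit false
open Cfsg

namespace Cfsg.Agent.S4722

/-- Let M be a maximal ideal of the algebraic integers containing 2, P a 2-subgroup of the finite group G, U a subset of P, and t an involution of G such that no element of U is inverted by any conjugate of t. Let θ be a generalized character of P vanishing outside U, and for χ in the principal 2-block B₀ put a_χ = #P⁻¹ Σ_{y ∈ P} χ(y) θ(y⁻¹). Then Σ_{χ ∈ B₀} a_χ χ(t)^2/χ(1) = 0, Σ_{χ ∈ B₀} a_χ χ(1) = 0 and Σ_{χ ∈ B₀} a_χ χ(t) = 0. If moreover #P⁻¹ Σ_{y ∈ P} θ(y) ≠ 0, then either at least two of the a_χ have positive real part and at least two have negative real part, or G has a proper normal subgroup containing O_2'(G) and t. -/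
theorem result {G : Type*} [Group G] [Finite G] (M : Ideal Cfsg.AlgInt) (hM : Cfsg.IsPModular 2 M) (P : Subgroup G) (hP : IsPGroup 2 P) (U : Set G) (hUP : U ⊆ (P : Set G)) (t : G) (ht : orderOf t = 2) (hinv : ∀ u ∈ U, ∀ g : G, (g * t * g⁻¹) * u * (g * t * g⁻¹)⁻¹ ≠ u⁻¹) (θ : ↥P → ℂ) (hθ : Cfsg.IsGeneralizedCharacter ↥P θ) (hθU : ∀ y : ↥P, (y : G) ∉ U → θ y = 0) : (∑ᶠ χ ∈ Cfsg.principalBlock M G, ((Nat.card ↥P : ℂ)⁻¹ * ∑ᶠ y : ↥P, (χ : G → ℂ) (y : G) * θ y⁻¹) * (χ : G → ℂ) t ^ 2 / (χ : G → ℂ) 1 = 0) ∧ (∑ᶠ χ ∈ Cfsg.principalBlock M G, ((Nat.card ↥P : ℂ)⁻¹ * ∑ᶠ y : ↥P, (χ : G → ℂ) (y : G) * θ y⁻¹) * (χ : G → ℂ) 1 = 0) ∧ (∑ᶠ χ ∈ Cfsg.principalBlock M G, ((Nat.card ↥P : ℂ)⁻¹ * ∑ᶠ y : ↥P, (χ : G → ℂ) (y : G) * θ y⁻¹) * (χ : G → ℂ) t = 0) ∧ ((Nat.card ↥P : ℂ)⁻¹ * ∑ᶠ y : ↥P, θ y ≠ 0 → (2 ≤ Nat.card {χ : Cfsg.IrrCharacter G // χ ∈ Cfsg.principalBlock M G ∧ 0 < (((Nat.card ↥P : ℂ)⁻¹ * ∑ᶠ y : ↥P, (χ : G → ℂ) (y : G) * θ y⁻¹)).re} ∧ 2 ≤ Nat.card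 {χ : Cfsg.IrrCharacter G // χ ∈ Cfsg.principalBlock M G ∧ (((Nat.card ↥P : ℂ)⁻¹ * ∑ᶠ y : ↥P, (χ : G → ℂ) (y : G) * θ y⁻¹)).re < 0}) ∨ ∃ K : Subgroup G, K.Normal ∧ K ≠ ⊤ ∧ Cfsg.pPrimeCore 2 G ≤ K ∧ t ∈ K) := by
  classical
  have : Fintype G := Fintype.ofFinite _
  have : Fintype P := Fintype.ofFinite _
  have hp : (2 : ℕ).Prime := Nat.prime_two
  have hPr := BlockLib.isPrime_of_isPModular hM
  have : Fact (Nat.Prime 2) := ⟨hp⟩
  have hB₀ : Cfsg.IsPBlock M (Cfsg.principalBlock M G) :=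
    ⟨⟨fun _ => 1, CharLib.isIrrCharacter_one⟩, rfl⟩
  set S := Finset.univ.filter (· ∈ Cfsg.principalBlock M G) with hS
  have conv : ∀ f : Cfsg.IrrCharacter G → ℂ,
      ∑ᶠ χ ∈ Cfsg.principalBlock M G, f χ = ∑ χ ∈ S, f χ := by
    intro f
    rw [finsum_mem_eq_finite_toFinset_sum _ (Set.toFinite _)]
    refine Finset.sum_congr (by ext; simp [hS]) fun _ _ => rfl
  set c : ℂ := (Nat.card ↥P : ℂ)⁻¹ with hc
  have hcc : (starRingEnd ℂ) c = c := by rw [hc, map_inv₀, Complex.conj_natCast]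
  set a : Cfsg.IrrCharacter G → ℂ := fun χ => c * ∑ᶠ y : ↥P, (χ : G → ℂ) (y : G) * θ y⁻¹ with ha
  have ha0 : ∀ χ, a χ = c * ∑ y : P, (χ : G → ℂ) (y : G) * θ y⁻¹ := by
    intro χ
    rw [ha]
    simp only [finsum_eq_sum_of_fintype]
  have ha' : ∀ χ, a χ = c * ∑ y : P, (χ : G → ℂ) (y : G)⁻¹ * θ y := by
    intro χ
    rw [ha0, ← Equiv.sum_comp (Equiv.inv P)]
    congr 1
    refine Finset.sum_congr rfl fun y _ => ?_
    simp
  have hord : ∀ y : P, ∃ k : ℕ, orderOf (y : G) = 2 ^ k := by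
    intro y
    obtain ⟨k, hk⟩ := (IsPGroup.iff_orderOf.1 hP) y
    exact ⟨k, by rw [Subgroup.orderOf_coe]; exact hk⟩
  have gen : ∀ f : Cfsg.IrrCharacter G → ℂ,
      (∀ y : P, (y : G) ∈ U → ∑ χ ∈ S, f χ * (χ : G → ℂ) (y : G)⁻¹ = 0) →
      ∑ χ ∈ S, a χ * f χ = 0 := by
    intro f hf
    simp only [ha', Finset.mul_sum, Finset.sum_mul]
    rw [Finset.sum_comm]
    apply Finset.sum_eq_zero
    intro y _
    by_cases hyU : (y : G) ∈ U
    · have h1 : ∀ χ ∈ S, c * ((χ : G → ℂ) (y : G)⁻¹ * θ y) * f χ =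
          (c * θ y) * (f χ * (χ : G → ℂ) (y : G)⁻¹) := fun χ _ => by ring
      rw [Finset.sum_congr rfl h1, ← Finset.mul_sum, hf y hyU, mul_zero]
    · simp [hθU y hyU]
  have ht2 : t * t = 1 := by rw [← pow_two, ← ht, pow_orderOf_eq_one]
  have hti : t⁻¹ = t := inv_eq_of_mul_eq_one_left ht2
  have h1U : (1 : G) ∉ U := fun h => hinv 1 h 1 (by simp)
  have orth : ∀ (g : G) (k : ℕ), orderOf g = 2 ^ k → ∀ y : P, ¬ IsConj g (y : G) →
      ∑ χ ∈ S, (χ : G → ℂ) g * (χ : G → ℂ) (y : G)⁻¹ = 0 := by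
    intro g k hk y hy
    obtain ⟨k', hk'⟩ := hord y
    have h1 := (Cfsg.Agent.S0925.result 2 M hM).2 g y g y
      (H25.isPPart_self_of_pElement hp hk) (H25.isPPart_self_of_pElement hp hk') hy _ hB₀
    rwa [conv] at h1
  have F2 : ∑ χ ∈ S, a χ * (χ : G → ℂ) 1 = 0 := by
    apply gen
    intro y hyU
    apply orth 1 0 (by simp) y
    intro h
    rw [isConj_one_right] at h
    exact h1U (h ▸ hyU)
  have F3 : ∑ χ ∈ S, a χ * (χ : G → ℂ) t = 0 := by
    apply gen
    intro y hyU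
    apply orth t 1 (by simpa using ht) y
    intro h
    obtain ⟨g, hg⟩ := isConj_iff.mp h
    apply hinv y hyU g
    rw [hg]
    have : (y : G) * (y : G) = 1 := by
      rw [← hg]
      calc (g * t * g⁻¹) * (g * t * g⁻¹) = g * (t * t) * g⁻¹ := by group
        _ = 1 := by rw [ht2]; group
    rw [mul_inv_cancel_right]
    exact (inv_eq_of_mul_eq_one_left this).symm
  have F1 : ∑ χ ∈ S, a χ * ((χ : G → ℂ) t ^ 2 / (χ : G → ℂ) 1) = 0 := by
    apply gen
    intro y hyU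
    obtain ⟨k, hk⟩ := hord y
    exact H25.sum_sq_involution_eq_zero hM ht hk (hinv y hyU) hB₀
  refine ⟨?_, ?_, ?_, ?_⟩
  · rw [conv, ← F1]
    refine Finset.sum_congr rfl fun χ _ => ?_
    rw [mul_div_assoc]
  · rw [conv, ← F2]
  · rw [conv, ← F3]
  · intro hne
    -- real parts
    have hθinv : ∀ y : P, θ y⁻¹ = (starRingEnd ℂ) (θ y) := by
      intro y
      obtain ⟨χ₁, χ₂, h₁, h₂, rfl⟩ := hθ
      simp only [Pi.sub_apply, map_sub]
      rw [CharLib.isCharacter_inv h₁, CharLib.isCharacter_inv h₂]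
    have hreal : ∀ χ, ((a χ).re : ℂ) = a χ := by
      intro χ
      rw [← Complex.conj_eq_iff_re]
      conv_lhs => rw [ha']
      rw [ha0, map_mul, hcc, map_sum]
      congr 1
      refine Finset.sum_congr rfl fun y _ => ?_
      rw [map_mul, CharLib.isCharacter_inv (CharLib.isCharacter_of_irr χ.2), Complex.conj_conj,
        hθinv]
    have htreal : ∀ χ : Cfsg.IrrCharacter G, ((((χ : G → ℂ) t).re : ℝ) : ℂ) = (χ : G → ℂ) t := by
      intro χ
      rw [← Complex.conj_eq_iff_re, ← CharLib.isCharacter_inv (CharLib.isCharacter_of_irr χ.2), hti]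
    set r : Cfsg.IrrCharacter G → ℝ := fun χ => (a χ).re with hr
    set d : Cfsg.IrrCharacter G → ℝ := fun χ => (Cfsg.charDegree (χ : G → ℂ) : ℝ) with hd
    set τ : Cfsg.IrrCharacter G → ℝ := fun χ => ((χ : G → ℂ) t).re with hτ
    have hdc : ∀ χ : Cfsg.IrrCharacter G, ((d χ : ℝ) : ℂ) = (χ : G → ℂ) 1 := by
      intro χ
      rw [hd]
      simp only [Complex.ofReal_natCast]
      exact Lib.Helper23.charDegree_cast_irr χ
    have hdpos : ∀ χ ∈ S, 0 < d χ := by
      intro χ _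
      have := Lib.Helper23.charDegree_pos_irr χ
      change (0 : ℝ) < (Cfsg.charDegree (χ : G → ℂ) : ℝ)
      exact_mod_cast this
    have R2 : ∑ χ ∈ S, r χ * d χ = 0 := by
      apply Complex.ofReal_injective
      rw [Complex.ofReal_sum, Complex.ofReal_zero, ← F2]
      refine Finset.sum_congr rfl fun χ _ => ?_
      rw [Complex.ofReal_mul, hdc, hreal]
    have R3 : ∑ χ ∈ S, r χ * τ χ = 0 := by
      apply Complex.ofReal_injective
      rw [Complex.ofReal_sum, Complex.ofReal_zero, ← F3]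
      refine Finset.sum_congr rfl fun χ _ => ?_
      rw [Complex.ofReal_mul, htreal, hreal]
    have R1 : ∑ χ ∈ S, r χ * τ χ ^ 2 / d χ = 0 := by
      apply Complex.ofReal_injective
      rw [Complex.ofReal_sum, Complex.ofReal_zero, ← F1]
      refine Finset.sum_congr rfl fun χ _ => ?_
      rw [Complex.ofReal_div, Complex.ofReal_mul, Complex.ofReal_pow, htreal, hdc, hreal,
        mul_div_assoc]
    -- the final step
    have fin : (∀ i ∈ S, ∀ j ∈ S, r i ≠ 0 → r j ≠ 0 → τ i / d i = τ j / d j) →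
        ∃ K : Subgroup G, K.Normal ∧ K ≠ ⊤ ∧ Cfsg.pPrimeCore 2 G ≤ K ∧ t ∈ K := by
      intro hall
      set χ₁ : Cfsg.IrrCharacter G := ⟨fun _ => 1, CharLib.isIrrCharacter_one⟩ with hχ₁
      have hχ₁S : χ₁ ∈ S := by
        rw [hS, Finset.mem_filter]
        exact ⟨Finset.mem_univ _, BlockLib.mem_blockOf_self χ₁⟩
      have hr₁ : r χ₁ ≠ 0 := by
        intro h0
        apply hne
        have h1 := hreal χ₁
        rw [show (a χ₁).re = r χ₁ from rfl, h0, Complex.ofReal_zero, ha'] at h1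
        rw [finsum_eq_sum_of_fintype, h1]
        congr 1
        refine Finset.sum_congr rfl fun y _ => ?_
        rw [hχ₁]; simp
      obtain ⟨χ, hχS, hχne, hrχ⟩ : ∃ χ ∈ S, χ ≠ χ₁ ∧ r χ ≠ 0 := by
        by_contra hcon
        push Not at hcon
        rw [Finset.sum_eq_single χ₁ (fun χ hχ hne' => by rw [hcon χ hχ hne', zero_mul])
          (fun h => absurd hχ₁S h)] at R2
        exact mul_ne_zero hr₁ (hdpos χ₁ hχ₁S).ne' R2
      have h1 := hall χ hχS χ₁ hχ₁S hrχ hr₁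
      have h2 : τ χ₁ / d χ₁ = 1 := by
        have e1 : τ χ₁ = 1 := by rw [hτ, hχ₁]; simp
        have e2 : d χ₁ = 1 := by
          have h5 := hdc χ₁
          have h6 : (χ₁ : G → ℂ) 1 = 1 := rfl
          rw [h6] at h5
          exact_mod_cast h5
        rw [e1, e2, div_one]
      rw [h2, div_eq_one_iff_eq (hdpos χ hχS).ne'] at h1
      have h3 : (χ : G → ℂ) t = (χ : G → ℂ) 1 := by
        rw [← htreal, ← hdc]
        exact congrArg _ h1
      have hχB : χ ∈ Cfsg.principalBlock M G := (Finset.mem_filter.1 hχS).2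
      refine ⟨H25.kerSub χ, inferInstance, ?_, ?_, ?_⟩
      · intro htop
        apply hχne
        apply Subtype.ext
        exact H25.eq_one_of_kerSub_eq_top χ htop
      · intro n hn
        rw [H25.mem_kerSub]
        exact H6.BlockSection.principal_ker hM hχB hn
      · rw [H25.mem_kerSub]; exact h3
    by_cases hpn : (2 ≤ Nat.card {χ : Cfsg.IrrCharacter G // χ ∈ Cfsg.principalBlock M G ∧
        0 < (a χ).re} ∧ 2 ≤ Nat.card {χ : Cfsg.IrrCharacter G // χ ∈ Cfsg.principalBlock M G ∧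
        (a χ).re < 0})
    · exact Or.inl hpn
    · right
      apply fin
      rcases not_and_or.1 hpn with h | h
      · have hsub : Subsingleton {χ : Cfsg.IrrCharacter G // χ ∈ Cfsg.principalBlock M G ∧
            0 < (a χ).re} := by
          rw [← Finite.card_le_one_iff_subsingleton]; omega
        apply H25.jensen_aux S r d τ hdpos R2 R3 R1
        intro i hi j hj hri hrj
        have := hsub.elim ⟨i, (Finset.mem_filter.1 hi).2, hri⟩ ⟨j, (Finset.mem_filter.1 hj).2, hrj⟩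
        exact congrArg Subtype.val this
      · have hsub : Subsingleton {χ : Cfsg.IrrCharacter G // χ ∈ Cfsg.principalBlock M G ∧
            (a χ).re < 0} := by
          rw [← Finite.card_le_one_iff_subsingleton]; omega
        have key := H25.jensen_aux S (fun χ => - r χ) d τ hdpos
          (by simp only [neg_mul, Finset.sum_neg_distrib, R2, neg_zero])
          (by simp only [neg_mul, Finset.sum_neg_distrib, R3, neg_zero])
          (by simp only [neg_mul, neg_div, Finset.sum_neg_distrib, R1, neg_zero])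
          (by
            intro i hi j hj hri hrj
            have := hsub.elim ⟨i, (Finset.mem_filter.1 hi).2, by simpa using hri⟩
              ⟨j, (Finset.mem_filter.1 hj).2, by simpa using hrj⟩
            exact congrArg Subtype.val this)
        intro i hi j hj hri hrj
        exact key i hi j hj (neg_ne_zero.2 hri) (neg_ne_zero.2 hrj)

end Cfsg.Agent.S4722
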