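import Cfsg.Statements.S4723
import Cfsg.Agent.H25.InvHeightZero
import Cfsg.Agent.BlockLib.KG.EquivTr

set_option autoImplicit false
open Cfsg

namespace Cfsg.Agent.S4723

/-- Let p be a prime, M a maximal ideal of the algebraic integers containing p, H a normal subgroup of the finite group G and b a p-block of H. Let T be the stabilizer of b in G. Then b contains a character θ of height zero whose own stabilizer in G (the elements g with θ(g h g⁻¹) = θ(h) for all h ∈ H) has index prime to p in T, i.e. contains a Sylow p-subgroup of T. -/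
theorem result {G : Type*} [Group G] [Finite G] (p : ℕ) [Fact p.Prime] (M : Ideal Cfsg.AlgInt) (hM : Cfsg.IsPModular p M) (H : Subgroup G) [H.Normal] (b : Set (Cfsg.IrrCharacter ↥H)) (hb : Cfsg.IsPBlock M b) (T : Subgroup G) (hT : (∀ g : G, g ∈ T ↔ ∀ θ ∈ b, ∀ θ' : Cfsg.IrrCharacter ↥H, (∀ h h' : ↥H, (h' : G) = g * h * g⁻¹ → (θ' : ↥H → ℂ) h' = (θ : ↥H → ℂ) h) → θ' ∈ b)) : ∃ θ ∈ b, Cfsg.blockHeight p b (θ : ↥H → ℂ) = 0 ∧ ∃ S : Subgroup G, S ≤ T ∧ (∀ g : G, g ∈ S ↔ (g ∈ T ∧ ∀ h h' : ↥H, (h' : G) = g * h * g⁻¹ → (θ : ↥H → ℂ) h' = (θ : ↥H → ℂ) h)) ∧ ¬ p ∣ S.relIndex T := by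
  classical
  cases nonempty_fintype G
  have hp := hM.1
  have hPr := Cfsg.Agent.BlockLib.isPrime_of_isPModular hM
  have hHn : H.Normal := inferInstance
  -- `H ≤ T`
  have hHT : H ≤ T := by
    intro g hg
    rw [hT]
    intro θ hθ θ' h
    have : θ' = θ := by
      apply Subtype.ext
      funext x
      have h1 := h (⟨g, hg⟩⁻¹ * x * ⟨g, hg⟩) x (by simp [mul_assoc])
      rw [h1]
      have h2 := Cfsg.Agent.CharLib.isClassFunction_of_irr θ.2 x (⟨g, hg⟩⁻¹ : H)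
      rw [inv_inv] at h2
      exact h2
    rw [this]; exact hθ
  obtain ⟨P₀⟩ : Nonempty (Sylow p T) := inferInstance
  obtain ⟨P, hPdef⟩ : ∃ P : Subgroup G, P = (P₀ : Subgroup T).map T.subtype := ⟨_, rfl⟩
  have hPsyl : Cfsg.Agent.BlockLib.CA.IsSylIn p P T := by
    rw [hPdef]; exact Cfsg.Agent.BlockLib.CA.isSylIn_of_sylow P₀
  obtain ⟨K, hKdef⟩ : ∃ K : Subgroup G, K = H ⊔ P := ⟨_, rfl⟩
  have hHK : H ≤ K := by rw [hKdef]; exact le_sup_left
  have hPK : P ≤ K := by rw [hKdef]; exact le_sup_right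
  have hKT : K ≤ T := by rw [hKdef]; exact sup_le hHT hPsyl.2.1
  have hNn : (H.subgroupOf K).Normal := hHn.subgroupOf K
  let α : H.subgroupOf K ≃* H := Subgroup.subgroupOfEquivOfLe hHK
  have hαc : ∀ n : H.subgroupOf K, ((α n : H) : G) = ((n : K) : G) := fun n => rfl
  have hb' : Cfsg.IsPBlock M (Cfsg.Agent.BlockLib.mapIrr α.symm '' b) :=
    Cfsg.Agent.BlockLib.isPBlock_equiv α.symm hb
  have hidx : ∃ k : ℕ, (H.subgroupOf K).index = p ^ k := by
    have h1 : H.relIndex (H ⊔ P) = H.relIndex P := Subgroup.relIndex_sup_left _ _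
    obtain ⟨n, hn⟩ := IsPGroup.iff_card.mp hPsyl.1
    have h2 : H.relIndex P ∣ p ^ n := by rw [← hn]; exact Subgroup.index_dvd_card _
    obtain ⟨k, -, hk⟩ := (Nat.dvd_prime_pow hp).1 h2
    refine ⟨k, ?_⟩
    show H.relIndex K = p ^ k
    rw [hKdef, h1, hk]
  have hinv : ∀ g : K, ∀ θ ∈ Cfsg.Agent.BlockLib.mapIrr α.symm '' b,
      ∀ θ' : Cfsg.IrrCharacter (H.subgroupOf K),
      (∀ n : H.subgroupOf K, (θ' : H.subgroupOf K → ℂ) n =
        (θ : H.subgroupOf K → ℂ) ⟨g * n * g⁻¹, hNn.conj_mem n n.2 g⟩) →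
      θ' ∈ Cfsg.Agent.BlockLib.mapIrr α.symm '' b := by
    rintro g _ ⟨θ₁, hθ₁, rfl⟩ θ₂' h
    refine ⟨Cfsg.Agent.BlockLib.mapIrr α θ₂', ?_, Cfsg.Agent.BlockLib.mapIrr_symm_mapIrr α θ₂'⟩
    have hgT : ((g : G))⁻¹ ∈ T := T.inv_mem (hKT g.2)
    refine (hT _).1 hgT θ₁ hθ₁ _ ?_
    intro x x' hx
    rw [Cfsg.Agent.BlockLib.mapIrr_apply, h (α.symm x'), Cfsg.Agent.BlockLib.mapIrr_apply]
    refine congrArg _ (Subtype.ext ?_)
    rw [MulEquiv.symm_symm, hαc]
    have h3 : (((α.symm x' : H.subgroupOf K) : K) : G) = (x' : G) := by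
      rw [← hαc, MulEquiv.apply_symm_apply]
    show (g : G) * (((α.symm x' : H.subgroupOf K) : K) : G) * (g : G)⁻¹ = (x : G)
    rw [h3, hx]
    group
  have : Fintype K := Fintype.ofFinite _
  have : Fintype (H.subgroupOf K) := Fintype.ofFinite _
  obtain ⟨_, ⟨θ, hθ, rfl⟩, hdeg, hfix⟩ :=
    Cfsg.Agent.H25.exists_invariant_height_zero hM (H.subgroupOf K) hidx _ hb' hinv
  have hcd : ∀ η : Cfsg.IrrCharacter H,
      Cfsg.charDegree (Cfsg.Agent.BlockLib.mapIrr α.symm η : H.subgroupOf K → ℂ) =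
        Cfsg.charDegree (η : H → ℂ) := by
    intro η
    unfold Cfsg.charDegree
    rw [Cfsg.Agent.BlockLib.mapIrr_apply, map_one]
  have hmin : Cfsg.Agent.Lib.Helper23.MinMax.minExp p (Cfsg.Agent.BlockLib.mapIrr α.symm '' b) =
      Cfsg.Agent.Lib.Helper23.MinMax.minExp p b := by
    unfold Cfsg.Agent.Lib.Helper23.MinMax.minExp
    rw [Set.image_image]
    simp only [hcd]
  rw [hcd, hmin] at hdeg
  refine ⟨θ, hθ, ?_, ?_⟩
  · unfold Cfsg.blockHeight
    have : sInf ((fun ψ : Cfsg.IrrCharacter H => (Cfsg.charDegree (ψ : H → ℂ)).factorization p) '' b)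
        = Cfsg.Agent.Lib.Helper23.MinMax.minExp p b := rfl
    rw [this, hdeg, Nat.sub_self]
  · let S : Subgroup G :=
      { carrier := {g | g ∈ T ∧ ∀ h h' : H, (h' : G) = g * h * g⁻¹ →
          (θ : H → ℂ) h' = (θ : H → ℂ) h}
        mul_mem' := by
          rintro g₁ g₂ ⟨h₁T, h₁⟩ ⟨h₂T, h₂⟩
          refine ⟨T.mul_mem h₁T h₂T, fun x x' hx => ?_⟩
          have e1 := h₂ x ⟨g₂ * x * g₂⁻¹, hHn.conj_mem x x.2 g₂⟩ rfl
          have e2 := h₁ ⟨g₂ * x * g₂⁻¹, hHn.conj_mem x x.2 g₂⟩ x' (by rw [hx]; group)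
          rw [e2, e1]
        one_mem' := by
          refine ⟨T.one_mem, fun x x' hx => ?_⟩
          have : x' = x := Subtype.ext (by rw [hx]; group)
          rw [this]
        inv_mem' := by
          rintro g ⟨hgT, hg⟩
          refine ⟨T.inv_mem hgT, fun x x' hx => ?_⟩
          exact (hg x' x (by rw [hx]; group)).symm }
    have hST : S ≤ T := fun g hg => hg.1
    have hPS : P ≤ S := by
      intro g hg
      refine ⟨hPsyl.2.1 hg, fun x x' hx => ?_⟩
      have h1 := hfix ⟨g, hPK hg⟩ (α.symm x)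
      rw [Cfsg.Agent.BlockLib.mapIrr_apply, Cfsg.Agent.BlockLib.mapIrr_apply, MulEquiv.symm_symm,
        MulEquiv.apply_symm_apply] at h1
      rw [← h1]
      refine congrArg _ (Subtype.ext ?_)
      rw [hαc]
      have h3 : (((α.symm x : H.subgroupOf K) : K) : G) = (x : G) := by
        rw [← hαc, MulEquiv.apply_symm_apply]
      show (x' : G) = g * (((α.symm x : H.subgroupOf K) : K) : G) * g⁻¹
      rw [h3, hx]
    refine ⟨S, hST, fun g => Iff.rfl, ?_⟩
    intro hdvd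
    apply hPsyl.not_dvd_relIndex
    rw [← Subgroup.relIndex_mul_relIndex P S T hPS hST]
    exact Dvd.dvd.mul_left hdvd _

end Cfsg.Agent.S4723
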