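import Cfsg.Statements.S4725
import Cfsg.Agent.Lib.Helper23.Subsect2
import Cfsg.Agent.CharLib.Ind

set_option autoImplicit false
open Cfsg

namespace Cfsg.Agent.S4725

open Cfsg Cfsg.Agent.CharLib Cfsg.Agent.CharLib.H2 Cfsg.Agent.BlockLib Cfsg.Agent.Lib.Helper23 Cfsg.Agent.Lib.Helper23.MinMax Cfsg.Agent.Lib.Helper23.Trunc Cfsg.Agent.Lib.Helper23.OmegaP
open scoped ComplexConjugate

/-- degree of the `B`-part of an induced character -/
theorem h23_sum_mult_mul_degree {G : Type*} [Group G] [Fintype G] {H : Subgroup G} [Fintype H]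
    (B : Set (IrrCharacter G)) [DecidablePred (· ∈ B)] (ζ : IrrCharacter H) :
    ∑ χ ∈ Finset.univ.filter (· ∈ B), classInner (indFun H (ζ : H → ℂ)) (χ : G → ℂ) *
      (χ : G → ℂ) 1 = (H.index : ℂ) * (ζ : H → ℂ) 1 *
        omega (ζ : H → ℂ) (fun h : H => idemSet B h) := by
  have hG : (Nat.card G : ℂ) ≠ 0 := card_ne_zero_complex
  have hH : (Nat.card H : ℂ) ≠ 0 := card_ne_zero_complex
  have hidx : (H.index : ℂ) = (Nat.card G : ℂ) / (Nat.card H : ℂ) := by
    rw [eq_div_iff hH, ← Nat.cast_mul, mul_comm, Subgroup.card_mul_index]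
  have e0 : (H.index : ℂ) * (ζ : H → ℂ) 1 * omega (ζ : H → ℂ) (fun h : H => idemSet B h) =
      (Nat.card G : ℂ) / (Nat.card H : ℂ) * ∑ h : H, idemSet B (h : G) * (ζ : H → ℂ) h := by
    rw [omega, hidx]
    have := irr_apply_one_ne_zero ζ
    field_simp
  rw [e0]
  have h1 : ∀ h : H, idemSet B (h : G) * (ζ : H → ℂ) h = ∑ χ ∈ Finset.univ.filter (· ∈ B),
      (Nat.card G : ℂ)⁻¹ * ((χ : G → ℂ) 1 * conj ((χ : G → ℂ) h)) * (ζ : H → ℂ) h := by
    intro h
    rw [idemSet, Finset.sum_apply, Finset.sum_mul]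
    apply Finset.sum_congr
    · ext; simp
    · intro χ _; rfl
  simp only [h1]
  rw [Finset.sum_comm, Finset.mul_sum]
  apply Finset.sum_congr rfl
  intro χ _
  rw [frobenius_reciprocity H _ (isClassFunction_of_irr χ.2), classInner, Finset.mul_sum, Finset.mul_sum,
    Finset.sum_mul]
  apply Finset.sum_congr rfl
  intro h _
  field_simp

/-- Let p be a prime, M a maximal ideal of the algebraic integers containing p, H a subgroup of the finite group G, and b a p-block of H inducing the p-block B of G, with b and B of the same defect. Then for every height-zero ζ ∈ b there is a height-zero χ ∈ B whose multiplicity in the character induced from ζ is not divisible by p. -/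
theorem result {G : Type*} [Group G] [Fintype G] (p : ℕ) [Fact p.Prime] (M : Ideal Cfsg.AlgInt) (hM : Cfsg.IsPModular p M) (H : Subgroup G) (b : Set (Cfsg.IrrCharacter ↥H)) (B : Set (Cfsg.IrrCharacter G)) (hind : Cfsg.IsInducedBlock M H b B) (hdef : Cfsg.blockDefect p b = Cfsg.blockDefect p B) (ζ : Cfsg.IrrCharacter ↥H) (hζ : ζ ∈ b) (hζ0 : Cfsg.blockHeight p b (ζ : ↥H → ℂ) = 0) : ∃ χ ∈ B, Cfsg.blockHeight p B (χ : G → ℂ) = 0 ∧ ∃ a : ℕ, Cfsg.classInner (Cfsg.indFun H (ζ : ↥H → ℂ)) (χ : G → ℂ) = (a : ℂ) ∧ ¬ p ∣ a := by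
  classical
  have hp : p.Prime := hM.1
  have htop := ne_top_of_isPModular hM
  have hMp := isPrime_of_isPModular hM
  have hB := hind.2.1
  have hb := hind.1
  obtain ⟨χ₀, hχ₀⟩ := nonempty_of_isPBlock htop hB
  have hex : ∀ χ : IrrCharacter G, ∃ a : ℕ, classInner (indFun H (ζ : H → ℂ)) (χ : G → ℂ) = a :=
    fun χ => classInner_char_nat (isCharacter_indFun H (isCharacter_of_irr ζ.2)) (isCharacter_of_irr χ.2)
  choose a ha using hex
  by_contra hcon
  push Not at hcon
  have hdiv : ∀ χ ∈ B, blockHeight p B (χ : G → ℂ) = 0 → p ∣ a χ := fun χ hχ h0 =>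
    hcon χ hχ h0 (a χ) (ha χ)
  -- the key relation
  have hkey := h23_sum_mult_mul_degree B ζ
  set w := omega (ζ : H → ℂ) (fun h : H => idemSet B h) with hw
  have hw1 : MemLocalIdeal M (w - 1) := by
    have := memLocalIdeal_omega_sub_of_induced hind hζ hχ₀ (isClassFunction_idemSet B)
      (fun g => by rw [← blockCoeff_eq_idemSet]; exact memLocalRing_blockCoeff hB g)
    rwa [omega_idemSet, if_pos hχ₀] at this
  have hwR : MemLocalRing M w := by
    have := memLocalRing_add (memLocalRing_of_memLocalIdeal hw1) (memLocalRing_one htop)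
    rwa [sub_add_cancel] at this
  have hwU : ¬ MemLocalIdeal M w := by
    intro h
    apply not_memLocalIdeal_one (M := M)
    have := memLocalIdeal_sub h hw1
    rwa [sub_sub_cancel] at this
  set S : ℕ := ∑ χ ∈ Finset.univ.filter (· ∈ B), a χ * charDegree (χ : G → ℂ) with hS
  have hrel : (S : ℂ) * (1 : ℕ) = ((H.index * charDegree (ζ : H → ℂ) : ℕ) : ℂ) * w := by
    rw [hS]
    push_cast
    rw [mul_one, charDegree_cast_irr, ← hkey]
    apply Finset.sum_congr rfl
    intro χ _
    rw [ha χ, charDegree_cast_irr]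
  have hD0 : H.index * charDegree (ζ : H → ℂ) ≠ 0 :=
    Nat.mul_ne_zero (Subgroup.index_ne_zero_of_finite) (charDegree_pos_irr ζ).ne'
  obtain ⟨hS0, hSf⟩ := factorization_eq_of_unit hM (m := 1)
    (fun h => hp.one_lt.ne' (Nat.dvd_one.1 h)) hD0 hrel hwR hwU
  -- valuations
  have hζf : (charDegree (ζ : H → ℂ)).factorization p = minExp p b := by
    have h1 := minExp_le (p := p) hζ
    have h2 : (charDegree (ζ : H → ℂ)).factorization p - minExp p b = 0 := hζ0
    omega
  have hcardf : (Nat.card G).factorization p = (Nat.card H).factorization p + H.index.factorization p := by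
    rw [← Subgroup.card_mul_index H, Nat.factorization_mul Nat.card_pos.ne'
      Subgroup.index_ne_zero_of_finite]
    rfl
  have hminb := minExp_le_card (p := p) (nonempty_of_isPBlock htop hb)
  have hminB := minExp_le_card (p := p) (nonempty_of_isPBlock htop hB)
  have hDf : (H.index * charDegree (ζ : H → ℂ)).factorization p = minExp p B := by
    rw [Nat.factorization_mul Subgroup.index_ne_zero_of_finite (charDegree_pos_irr ζ).ne']
    simp only [Finsupp.coe_add, Pi.add_apply]
    rw [hζf]
    rw [blockDefect_eq, blockDefect_eq] at hdef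
    omega
  have hdvd : p ^ (minExp p B + 1) ∣ S := by
    rw [hS]
    apply Finset.dvd_sum
    intro χ hχ
    have hχB := (Finset.mem_filter.1 hχ).2
    by_cases h0 : blockHeight p B (χ : G → ℂ) = 0
    · rw [pow_succ, mul_comm]
      exact Nat.mul_dvd_mul (hdiv χ hχB h0) (pow_minExp_dvd hp hχB)
    · apply Dvd.dvd.mul_left
      rw [hp.pow_dvd_iff_le_factorization (charDegree_pos_irr χ).ne']
      have h2 : (charDegree (χ : G → ℂ)).factorization p - minExp p B ≠ 0 := h0
      omega
  have := (hp.pow_dvd_iff_le_factorization hS0).1 hdvd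
  omega

end Cfsg.Agent.S4725
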