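import Cfsg.Statements.S4727
import Cfsg.Agent.S4734
import Cfsg.Agent.H6.BlockSection

set_option autoImplicit false
open Cfsg Cfsg.Agent.BlockLib

namespace Cfsg.Agent.S4727

/-- Let p be a prime, π a set of primes containing p, M a maximal ideal of the algebraic integers containing p, and B a p-block of the finite group G with defect group D; let B₁ be the block of N_G(D) with defect group D that induces B (the Brauer correspondent of B). Suppose every element of O_π'(N_G(D)), the largest normal subgroup of N_G(D) whose order has no prime divisor in π, lies in the kernel of every member of B₁. If y is a p-element whose centralizer C has a normal Hall π'-subgroup (every element of C whose order has no prime divisor in π lies in O_π'(C)), then χ(y x) = χ(y) for every χ ∈ B and every x ∈ C whose order has no prime divisor in π. -/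
theorem result {G : Type*} [Group G] [Finite G] (p : ℕ) [Fact p.Prime] (M : Ideal Cfsg.AlgInt) (hM : Cfsg.IsPModular p M) (π : Set ℕ) (hpπ : p ∈ π) (B : Set (Cfsg.IrrCharacter G)) (hB : Cfsg.IsPBlock M B) (D : Subgroup G) (hBD : Cfsg.IsDefectGroup p M B D) (B₁ : Set (Cfsg.IrrCharacter ↥(Subgroup.normalizer (D : Set G)))) (hB₁ : Cfsg.IsInducedBlock M (Subgroup.normalizer (D : Set G)) B₁ B) (hB₁D : Cfsg.IsDefectGroup p M B₁ (D.subgroupOf (Subgroup.normalizer (D : Set G)))) (hker : ∀ n : ↥(Subgroup.normalizer (D : Set G)), n ∈ Cfsg.piCore {q | q ∉ π} ↥(Subgroup.normalizer (D : Set G)) → n ∈ Cfsg.blockKer B₁) (y : G) (hy : ∃ k : ℕ, orderOf y = p ^ k) (hC : ∀ x : ↥(Subgroup.centralizer ({y} : Set G)), (∀ q : ℕ, q.Prime → q ∣ orderOf x → q ∉ π) → x ∈ Cfsg.piCore {q | q ∉ π} ↥(Subgroup.centralizer ({y} : Set G))) : ∀ χ ∈ B, ∀ x : G, x ∈ Subgroup.centralizer ({y} : Set G) → (∀ q : ℕ, q.Prime → q ∣ orderOf x → q ∉ π) → (χ : G → ℂ) (y * x) = (χ : G → ℂ) y := by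
  classical
  letI := Fintype.ofFinite G
  haveI := isPrime_of_isPModular hM
  letI : Fintype (Subgroup.centralizer ({y} : Set G)) := Fintype.ofFinite _
  intro χ hχ x hx hxπ
  obtain ⟨k, hk⟩ := hy
  have hyC : y ∈ Subgroup.centralizer ({y} : Set G) := Subgroup.mem_centralizer_singleton_iff.mpr rfl
  have hcen : ∀ d : Subgroup.centralizer ({y} : Set G), (d : G) * y = y * (d : G) :=
    fun d => Subgroup.mem_centralizer_singleton_iff.mp d.2
  have hϑ := Cfsg.Agent.H6.BlockSection.isClassFunction_shift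
    (Cfsg.Agent.CharLib.isClassFunction_of_irr χ.2) y
  have hs1 := Cfsg.Agent.S0924.sum_blockPart (M := M) hϑ ⟨x, hx⟩
  have hs2 := Cfsg.Agent.S0924.sum_blockPart (M := M) hϑ 1
  simp only [Subgroup.coe_one, mul_one] at hs1 hs2
  rw [← hs1, ← hs2]
  have hxreg : ¬ p ∣ orderOf (⟨x, hx⟩ : Subgroup.centralizer ({y} : Set G)) := by
    rw [Subgroup.orderOf_mk]
    exact fun h => hxπ p Fact.out h hpπ
  refine Finset.sum_congr rfl fun b hb => ?_
  have hb' := mem_pblocks.mp hb
  by_cases hind : IsInducedBlock M (Subgroup.centralizer ({y} : Set G)) b B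
  · obtain ⟨Db, hDb⟩ := CA.exists_isDefGrp (p := p) (isBlk_eps hb')
    rw [← isDefectGroup_iff hb'] at hDb
    have hyD : (⟨y, hyC⟩ : Subgroup.centralizer ({y} : Set G)) ∈ Db := by
      apply Cfsg.Agent.S0912.result p M hM b hb' Db hDb
      apply Cfsg.Agent.S0924.mem_pCore_of_central (k := k)
      · rw [Subgroup.orderOf_mk, hk]
      · intro d
        exact Subtype.ext (hcen d)
    have hCD : Subgroup.centralizer ((Db.map (Subgroup.centralizer ({y} : Set G)).subtype :
        Subgroup G) : Set G) ≤ Subgroup.centralizer ({y} : Set G) := by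
      intro g hg
      rw [Subgroup.mem_centralizer_singleton_iff]
      exact (Subgroup.mem_centralizer_iff.mp hg y ⟨⟨y, hyC⟩, hyD, rfl⟩).symm
    have hkb := Cfsg.Agent.S4734.result p M hM π hpπ B hB D hBD B₁ hB₁ hB₁D hker _ b hind Db hDb hCD
      ⟨x, hx⟩ (hC ⟨x, hx⟩ (by rw [Subgroup.orderOf_mk]; exact hxπ))
    rw [Cfsg.Agent.H6.BlockSection.blockPart_eq_filter, Cfsg.Agent.H6.BlockSection.blockPart_eq_filter]
    refine Finset.sum_congr rfl fun ψ hψ => ?_
    rw [hkb ψ (Finset.mem_filter.mp hψ).2]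
  · rw [Cfsg.Agent.S0923.result p M hM y ⟨k, hk⟩ B hB χ hχ b hb' hind ⟨x, hx⟩ hxreg,
      Cfsg.Agent.S0923.result p M hM y ⟨k, hk⟩ B hB χ hχ b hb' hind 1
        (by rw [orderOf_one]; exact (Fact.out : p.Prime).one_lt.ne' ∘ Nat.dvd_one.mp)]

end Cfsg.Agent.S4727
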