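import Cfsg.Statements.S4728
import Cfsg.Agent.BlockLib.KG.KerTr
import Cfsg.Agent.BlockLib.KG.DefSubTr
import Cfsg.Agent.H6.FirstMainTr

set_option autoImplicit false
open Cfsg Cfsg.Agent.BlockLib

namespace Cfsg.Agent.S4728

/-- Let p be a prime, π a set of primes containing p, M a maximal ideal of the algebraic integers containing p, B a p-block of the finite group G with defect group D, and B₁ the block of N_G(D) with defect group D inducing B. Let D₀ be a p-subgroup, H₀ = D₀·C_G(D₀), and b a block of H₀ inducing B. Write O_π'(X) for the largest normal subgroup of X whose order has no prime divisor in π. Suppose that O_π'(C_G(D₀)) is a normal Hall π'-subgroup of C_G(D₀) (it contains every element of C_G(D₀) whose order has no prime divisor in π) and that every element of it lies in the kernel of every member of b. Then every element of O_π'(N_G(D)) lies in the kernel of every member of B₁. -/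
theorem result {G : Type*} [Group G] [Finite G] (p : ℕ) [Fact p.Prime] (M : Ideal Cfsg.AlgInt) (hM : Cfsg.IsPModular p M) (π : Set ℕ) (hpπ : p ∈ π) (B : Set (Cfsg.IrrCharacter G)) (hB : Cfsg.IsPBlock M B) (D : Subgroup G) (hBD : Cfsg.IsDefectGroup p M B D) (B₁ : Set (Cfsg.IrrCharacter ↥(Subgroup.normalizer (D : Set G)))) (hB₁ : Cfsg.IsInducedBlock M (Subgroup.normalizer (D : Set G)) B₁ B) (hB₁D : Cfsg.IsDefectGroup p M B₁ (D.subgroupOf (Subgroup.normalizer (D : Set G)))) (D₀ : Subgroup G) (hD₀ : IsPGroup p D₀) (H₀ : Subgroup G) (hH₀ : H₀ = D₀ ⊔ Subgroup.centralizer (D₀ : Set G)) (b : Set (Cfsg.IrrCharacter ↥H₀)) (hb : Cfsg.IsInducedBlock M H₀ b B) (hcompl : ∀ x : ↥(Subgroup.centralizer (D₀ : Set G)), (∀ q : ℕ, q.Prime → q ∣ orderOf x → q ∉ π) → x ∈ Cfsg.piCore {q | q ∉ π} ↥(Subgroup.centralizer (D₀ : Set G))) (hkerb : ∀ x : ↥(Subgroup.centralizer (D₀ : Set G)), x ∈ Cfsg.piCore {q | q ∉ π} ↥(Subgroup.centralizer (D₀ : Set G)) → ∀ θ ∈ b, ∀ h : ↥H₀,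 (h : G) = (x : G) → (θ : ↥H₀ → ℂ) h = (θ : ↥H₀ → ℂ) 1) : ∀ n : ↥(Subgroup.normalizer (D : Set G)), n ∈ Cfsg.piCore {q | q ∉ π} ↥(Subgroup.normalizer (D : Set G)) → n ∈ Cfsg.blockKer B₁ := by
  classical
  letI := Fintype.ofFinite G
  haveI := isPrime_of_isPModular hM
  haveI := charP_resField hM
  subst hH₀
  have hσ : p ∉ {q | q ∉ π} := fun h => h hpπ
  have hD := (isDefectGroup_iff hB D).mp hBD
  have hbb := (Cfsg.Agent.H6.IndBlk.isInducedBlock_iff_br hD.isPGroup Subgroup.le_normalizer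
    (CA.centralizer_le_normalizer' D) le_rfl hB₁.1 hB).mp hB₁
  have hbr := (Cfsg.Agent.H6.IndBlk.isInducedBlock_iff_br hD₀ le_sup_left le_sup_right
    (CA.sup_centralizer_le_normalizer D₀) hb.1 hB).mp hb
  have hBP : CA.IsBPOf p (eps M B) D₀ (epsS M _ b) :=
    ⟨⟨hD₀, (CA.isBlk_sup_iff hD₀).mp (isBlk_epsS hb.1)⟩, isBlk_eps hB, hbr⟩
  have hHall : ∀ y ∈ Subgroup.centralizer (D₀ : Set G), CA.IsSigElt {q | q ∉ π} y →
      y ∈ CA.W {q | q ∉ π} (Subgroup.centralizer (D₀ : Set G)) := by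
    intro y hy hs
    apply (CA.mk_mem_iff_up hy).mp
    apply hcompl ⟨y, hy⟩
    intro q hq hd
    rw [Subgroup.orderOf_mk] at hd
    exact hs q hq hd
  have hker : epsS M _ b * CA.av (CA.W {q | q ∉ π} (Subgroup.centralizer (D₀ : Set G))) =
      epsS M _ b := by
    apply (ker_iff_rel hM ((CA.W_le _).trans le_sup_right)
      ((CA.sup_centralizer_le_normalizer D₀).trans
        ((CA.normalizer_le_normalizer_centralizer D₀).trans (CA.normalizer_le_normalizer_W _)))
      (fun h => hσ (CA.isSig_W _ p Fact.out h)) hb.1).mp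
    intro θ hθ h hh
    exact hkerb ⟨(h : G), CA.W_le _ hh⟩ ((CA.mk_mem_iff_up _).mpr hh) θ hθ h rfl
  rw [blockKer_iff hM hσ hB₁.1]
  exact CA.ker_correspondent hσ (isBlk_eps hB) hD (isBlk_epsS hB₁.1) hbb hBP hHall hker

end Cfsg.Agent.S4728
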