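import Cfsg.Statements.S4729
import Cfsg.Agent.BlockLib.LocalRing
import Cfsg.Agent.CharLib.Eigen
import Cfsg.Agent.BlockLib.KG.GrpAux

set_option autoImplicit false
open Cfsg Cfsg.Agent.BlockLib Cfsg.Agent.CharLib

namespace Cfsg.Agent.S4729


theorem geom_aux {x : ℂ} {m : ℕ} (hx : x ^ m = 1) :
    ∑ k ∈ Finset.range m, x ^ k = if x = 1 then (m : ℂ) else 0 := by
  split_ifs with h
  · subst h; simp
  · rw [geom_sum_eq h, hx, sub_self, zero_div]

theorem det_eq_prod {V : Type*} [AddCommGroup V] [Module ℂ V] {ι : Type*} [Fintype ι]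
    [DecidableEq ι] (f : Module.End ℂ V) (b : Module.Basis ι ℂ V) (μ : ι → ℂ)
    (h : ∀ i, f (b i) = μ i • b i) : LinearMap.det f = ∏ i, μ i := by
  rw [← LinearMap.det_toMatrix b f]
  have : LinearMap.toMatrix b b f = Matrix.diagonal μ := by
    ext i j
    rw [LinearMap.toMatrix_apply, h j, map_smul, Finsupp.smul_apply, Module.Basis.repr_self,
      Matrix.diagonal_apply]
    by_cases hij : i = j
    · subst hij; simp
    · rw [if_neg hij, Finsupp.single_eq_of_ne (by exact hij)]; simp
  rw [this, Matrix.det_diagonal]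

theorem det_eq_one_of_perfect {G : Type*} [Group G] (hperf : commutator G = ⊤) {V : Type*}
    [AddCommGroup V] [Module ℂ V] (ρ : Representation ℂ G V) (g : G) :
    LinearMap.det (ρ g) = 1 := by
  let φ : G →* ℂ := (LinearMap.det : Module.End ℂ V →* ℂ).comp ρ
  have h1 : g ∈ φ.toHomUnits.ker := Abelianization.commutator_subset_ker _ (by rw [hperf]; trivial)
  have h2 : φ.toHomUnits g = 1 := h1
  have h3 := congrArg Units.val h2
  simpa [φ] using h3

/-- Let p be a prime, M a maximal ideal of the algebraic integers containing p, G a finite perfect group and P a Sylow p-subgroup. If the principal p-block of G contains a faithful irreducible character of degree less than 2p, then the centralizer of P is a p-group. -/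
theorem result {G : Type*} [Group G] [Finite G] (p : ℕ) [Fact p.Prime] (M : Ideal Cfsg.AlgInt) (hM : Cfsg.IsPModular p M) (hperf : commutator G = ⊤) (P : Sylow p G) (χ : Cfsg.IrrCharacter G) (hχ : χ ∈ Cfsg.principalBlock M G) (hfaith : ∀ g : G, (χ : G → ℂ) g = (χ : G → ℂ) 1 → g = 1) (hdeg : Cfsg.charDegree (χ : G → ℂ) < 2 * p) : IsPGroup p ↥(Subgroup.centralizer ((P : Subgroup G) : Set G)) := by
  classical
  letI := Fintype.ofFinite G
  haveI := isPrime_of_isPModular hM
  have hp : p.Prime := Fact.out
  have hMtop := ne_top_of_isPModular hM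
  obtain ⟨n0, ρ, hirr, hch⟩ := χ.2
  have hfr : Module.finrank ℂ (Fin n0 → ℂ) = n0 := by simp
  have h1 : (χ : G → ℂ) 1 = (n0 : ℂ) := by rw [← hch, Representation.char_one]; simp
  have hn0 : n0 < 2 * p := by
    have : Cfsg.charDegree (χ : G → ℂ) = n0 := by simp [Cfsg.charDegree, h1]
    rwa [this] at hdeg
  have key : ∀ y : G, y ∈ Subgroup.centralizer ((P : Subgroup G) : Set G) → ¬ p ∣ orderOf y →
      y = 1 := by
    intro y hyC hyp
    by_contra hy1
    set m := orderOf y with hm
    have hm0 : 0 < m := orderOf_pos y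
    obtain ⟨b, μ, hμ, hb⟩ := rep_exists_eigenbasis ρ y
    have hn0pos : (n0 : ℂ) ≠ 0 := by
      intro h0
      have h00 : n0 = 0 := by exact_mod_cast h0
      apply hy1
      apply hfaith
      rw [← hch]
      show LinearMap.trace ℂ _ (ρ y) = LinearMap.trace ℂ _ (ρ 1)
      subst h00
      rw [LinearMap.trace_eq_matrix_trace ℂ (Pi.basisFun ℂ (Fin 0)),
        LinearMap.trace_eq_matrix_trace ℂ (Pi.basisFun ℂ (Fin 0))]
      simp [Matrix.trace]
    have hval : ∀ k : ℕ, (χ : G → ℂ) (y ^ k) = ∑ i, μ i ^ k := by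
      intro k
      rw [← hch]
      exact trace_eq_sum_of_eigenbasis (ρ (y ^ k)) b (fun i => μ i ^ k)
        (fun i => rep_pow_eigen ρ y b μ hb k i)
    -- (1)
    have hloc : ∀ k : ℕ, MemLocalIdeal M (1 - (χ : G → ℂ) (y ^ k) / (χ : G → ℂ) 1) := by
      intro k
      have hle : (P : Subgroup G) ≤ Subgroup.centralizer ({y ^ k} : Set G) := by
        intro x hx
        rw [Subgroup.mem_centralizer_singleton_iff]
        have := (Subgroup.mem_centralizer_iff.mp
          (Subgroup.pow_mem _ hyC k)) x hx
        exact this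
      have hidx : ¬ p ∣ (Subgroup.centralizer ({y ^ k} : Set G)).index := fun hdvd =>
        P.not_dvd_index (hdvd.trans (Subgroup.index_dvd_of_le hle))
      have h2 := hχ (y ^ k)
      have h4 := memLocalIdeal_mul_right h2 (memLocalRing_natCast_inv hM hidx)
      have hidx0 : ((Subgroup.centralizer ({y ^ k} : Set G)).index : ℂ) ≠ 0 := by
        intro h0
        apply hidx
        have : (Subgroup.centralizer ({y ^ k} : Set G)).index = 0 := by exact_mod_cast h0
        rw [this]; exact dvd_zero p
      have h5 : (Cfsg.centralChar (fun _ : G => (1 : ℂ)) (y ^ k) -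
          Cfsg.centralChar (χ : G → ℂ) (y ^ k)) *
          ((Subgroup.centralizer ({y ^ k} : Set G)).index : ℂ)⁻¹ =
          1 - (χ : G → ℂ) (y ^ k) / (χ : G → ℂ) 1 := by
        simp only [Cfsg.centralChar]
        field_simp
      rwa [h5] at h4
    -- (2)
    have hdvd : ∀ ζ : ℂ, ζ ^ m = 1 → ζ ≠ 1 →
        p ∣ (Finset.univ.filter (fun i => μ i = ζ)).card := by
      intro ζ hζ hζ1
      have hζ0 : ζ ≠ 0 := by
        intro h0
        rw [h0, zero_pow hm0.ne'] at hζ
        exact zero_ne_one hζ
      set ξ : ℂ := ζ⁻¹ with hξ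
      have hξm : ξ ^ m = 1 := by rw [hξ, inv_pow, hζ, inv_one]
      have hξ1 : ξ ≠ 1 := by
        intro h0
        apply hζ1
        rw [hξ, inv_eq_one] at h0
        exact h0
      have e1 : ∑ k ∈ Finset.range m, (χ : G → ℂ) (y ^ k) * ξ ^ k =
          (m : ℂ) * ((Finset.univ.filter (fun i => μ i = ζ)).card : ℂ) := by
        have : ∀ k ∈ Finset.range m, (χ : G → ℂ) (y ^ k) * ξ ^ k = ∑ i, (μ i * ξ) ^ k := by
          intro k _
          rw [hval k, Finset.sum_mul]
          refine Finset.sum_congr rfl fun i _ => ?_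
          rw [mul_pow]
        rw [Finset.sum_congr rfl this, Finset.sum_comm]
        have h3 : ∀ i ∈ (Finset.univ : Finset (Fin (Module.finrank ℂ (Fin n0 → ℂ)))),
            ∑ k ∈ Finset.range m, (μ i * ξ) ^ k = if μ i = ζ then (m : ℂ) else 0 := by
          intro i _
          rw [geom_aux (by rw [mul_pow, hμ i, hξm, one_mul])]
          have : (μ i * ξ = 1) ↔ μ i = ζ := by
            rw [hξ, mul_inv_eq_one₀ hζ0]
          simp only [this]
        rw [Finset.sum_congr rfl h3, ← Finset.sum_filter, Finset.sum_const, nsmul_eq_mul, mul_comm]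
      have e2 : ∑ k ∈ Finset.range m, (χ : G → ℂ) (y ^ k) * ξ ^ k =
          - ((χ : G → ℂ) 1 * ∑ k ∈ Finset.range m,
            (1 - (χ : G → ℂ) (y ^ k) / (χ : G → ℂ) 1) * ξ ^ k) := by
        have h3 : ∑ k ∈ Finset.range m, ξ ^ k = 0 := by rw [geom_aux hξm, if_neg hξ1]
        have h4 : ∀ k ∈ Finset.range m, (1 - (χ : G → ℂ) (y ^ k) / (χ : G → ℂ) 1) * ξ ^ k =
            ξ ^ k - ((χ : G → ℂ) (y ^ k) * ξ ^ k) / (χ : G → ℂ) 1 := by
          intro k _; ring
        rw [Finset.sum_congr rfl h4, Finset.sum_sub_distrib, h3, zero_sub, ← Finset.sum_div, h1]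
        field_simp
      have hI : MemLocalIdeal M ((m : ℂ) * ((Finset.univ.filter (fun i => μ i = ζ)).card : ℂ)) := by
        rw [← e1, e2]
        apply memLocalIdeal_neg
        apply memLocalIdeal_mul_left
        · rw [h1]; exact memLocalRing_natCast hMtop _
        · apply memLocalIdeal_sum
          intro k _
          apply memLocalIdeal_mul_right (hloc k)
          apply memLocalRing_pow
          exact memLocalRing_of_isIntegral hMtop (isIntegral_of_pow_eq_one hm0 hξm)
      rw [← Nat.cast_mul, memLocalIdeal_natCast_iff hM] at hI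
      exact ((Nat.Prime.dvd_mul hp).mp hI).resolve_left hyp
    -- (3)
    obtain ⟨i0, hi0⟩ : ∃ i0, μ i0 ≠ 1 := by
      by_contra hall
      push Not at hall
      apply hy1
      apply hfaith
      have := hval 1
      rw [pow_one] at this
      rw [this, h1]
      simp [hall]
    set ζ := μ i0 with hζdef
    have hζm : ζ ^ m = 1 := hμ i0
    set A := Finset.univ.filter (fun i => μ i = ζ) with hA
    have hApos : 0 < A.card := Finset.card_pos.mpr ⟨i0, by simp [hA, hζdef]⟩
    have hAp : p ∣ A.card := hdvd ζ hζm hi0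
    have hcardle : ∀ s : Finset (Fin (Module.finrank ℂ (Fin n0 → ℂ))), s.card ≤ n0 := by
      intro s
      have := Finset.card_le_univ s
      simpa using this
    have hAeq : A.card = p := by
      obtain ⟨c, hc⟩ := hAp
      have h2 := hcardle A
      have hc1 : c = 1 := by
        have hc0 : c ≠ 0 := by rintro rfl; omega
        by_contra hne
        have : 2 ≤ c := by omega
        have : p * 2 ≤ p * c := Nat.mul_le_mul_left p this
        omega
      rw [hc, hc1, mul_one]
    have hall : ∀ i, μ i = ζ ∨ μ i = 1 := by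
      intro i
      by_contra hcon
      push Not at hcon
      set A' := Finset.univ.filter (fun j => μ j = μ i) with hA'
      have h2 : p ∣ A'.card := hdvd (μ i) (hμ i) hcon.2
      have h3 : 0 < A'.card := Finset.card_pos.mpr ⟨i, by simp [hA']⟩
      have h4 : p ≤ A'.card := Nat.le_of_dvd h3 h2
      have hdisj : Disjoint A A' := by
        rw [Finset.disjoint_left]
        intro j hj hj'
        simp only [hA, hA', Finset.mem_filter, Finset.mem_univ, true_and] at hj hj'
        exact hcon.1 (hj'.symm.trans hj)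
      have h5 := hcardle (A ∪ A')
      rw [Finset.card_union_of_disjoint hdisj] at h5
      omega
    have hdet : ∏ i, μ i = ζ ^ p := by
      have : ∀ i ∈ (Finset.univ : Finset (Fin (Module.finrank ℂ (Fin n0 → ℂ)))),
          μ i = if μ i = ζ then ζ else 1 := by
        intro i _
        split_ifs with h
        · exact h
        · exact (hall i).resolve_left h
      rw [Finset.prod_congr rfl this, Finset.prod_ite, Finset.prod_const, Finset.prod_const_one,
        mul_one, ← hA, hAeq]
    have hdet1 : ζ ^ p = 1 := by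
      rw [← hdet, ← det_eq_prod (ρ y) b μ hb]
      exact det_eq_one_of_perfect hperf ρ y
    apply hi0
    have hcop : Nat.Coprime p m := (Nat.Prime.coprime_iff_not_dvd hp).mpr hyp
    have h6 := orderOf_dvd_of_pow_eq_one hdet1
    have h7 := orderOf_dvd_of_pow_eq_one hζm
    have h8 : orderOf ζ ∣ 1 := by
      have := Nat.dvd_gcd h6 h7
      rwa [hcop] at this
    exact orderOf_eq_one_iff.mp (Nat.dvd_one.mp h8)
  intro c
  obtain ⟨a, ha⟩ := GrpAux.exists_pow_preg p (c : G)
  refine ⟨a, ?_⟩
  have := key ((c : G) ^ p ^ a) (Subgroup.pow_mem _ c.2 _) ha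
  exact Subtype.ext (by simpa using this)

end Cfsg.Agent.S4729
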