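import Cfsg.Statements.S4730
import Cfsg.Agent.BlockLib.LocalRing
import Cfsg.Agent.CharLib.Coprime
import Cfsg.Agent.CharLib.Orth

set_option autoImplicit false
open Cfsg Cfsg.Agent.BlockLib

namespace Cfsg.Agent.S4730

/-- Let p be a prime, M a maximal ideal of the algebraic integers containing p, and G a finite group with trivial centre, Sylow p-subgroup P of order p^a and centre Z(P) of order p^b. If χ is a faithful irreducible character of G whose degree is a power of p, then the p-block of χ has defect at most a − b; in particular, if P is abelian then χ lies in a block of defect zero. -/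
theorem result {G : Type*} [Group G] [Finite G] (p : ℕ) [Fact p.Prime] (M : Ideal Cfsg.AlgInt) (hM : Cfsg.IsPModular p M) (hZ : Subgroup.center G = ⊥) (P : Sylow p G) (a b : ℕ) (ha : Nat.card P = p ^ a) (hb : Nat.card (Subgroup.center ↥(P : Subgroup G)) = p ^ b) (χ : Cfsg.IrrCharacter G) (hfaith : ∀ g : G, (χ : G → ℂ) g = (χ : G → ℂ) 1 → g = 1) (n : ℕ) (hdeg : Cfsg.charDegree (χ : G → ℂ) = p ^ n) : Cfsg.blockDefect p (Cfsg.blockOf M (χ : G → ℂ)) ≤ a - b ∧ (IsMulCommutative ↥(P : Subgroup G) → Cfsg.blockDefect p (Cfsg.blockOf M (χ : G → ℂ)) = 0) := by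
  classical
  letI := Fintype.ofFinite G
  haveI := isPrime_of_isPModular hM
  have hp : p.Prime := Fact.out
  have hMtop := ne_top_of_isPModular hM
  set Z : Subgroup G := (Subgroup.center ↥(P : Subgroup G)).map (P : Subgroup G).subtype with hZdef
  have hZcard : Nat.card Z = p ^ b := by
    rw [hZdef, Subgroup.card_map_of_injective (Subgroup.subtype_injective _), hb]
  have hidx : ∀ z ∈ Z, ¬ p ∣ (Subgroup.centralizer ({z} : Set G)).index := by
    rintro _ ⟨z, hz, rfl⟩ hdvd
    have hle : (P : Subgroup G) ≤ Subgroup.centralizer ({((P : Subgroup G).subtype z)} : Set G) := by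
      intro x hx
      rw [Subgroup.mem_centralizer_singleton_iff]
      have := (Subgroup.mem_center_iff.mp hz) ⟨x, hx⟩
      exact congrArg Subtype.val this
    exact P.not_dvd_index (hdvd.trans (Subgroup.index_dvd_of_le hle))
  have hvan : ∀ z ∈ Z, z ≠ 1 → (χ : G → ℂ) z = 0 := by
    intro z hz hz1
    obtain ⟨n0, ρ, hirr, hch⟩ := χ.2
    haveI := hirr
    have hfr : Module.finrank ℂ (Fin n0 → ℂ) = n0 := by simp
    have h1 : (χ : G → ℂ) 1 = (n0 : ℂ) := by rw [← hch, Representation.char_one]; simp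
    have hn0 : n0 = p ^ n := by
      rw [← hdeg]
      simp [Cfsg.charDegree, h1]
    have hcop : Nat.Coprime (Module.finrank ℂ (Fin n0 → ℂ))
        (Subgroup.centralizer ({z} : Set G)).index := by
      rw [hfr, hn0]
      exact Nat.Coprime.pow_left n ((Nat.Prime.coprime_iff_not_dvd hp).mpr (hidx z hz))
    rcases Cfsg.Agent.CharLib.character_eq_zero_or_norm_eq ρ z hcop with h0 | hnorm
    · rw [← hch]; exact h0
    · exfalso
      obtain ⟨ω, hω⟩ := (Cfsg.Agent.CharLib.norm_character_eq_iff ρ z).mp hnorm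
      apply hz1
      have hcen : z ∈ Subgroup.center G := by
        rw [Subgroup.mem_center_iff]
        intro y
        have e1 : ρ (y * z) = ρ (z * y) := by
          rw [map_mul, map_mul, hω]
          ext v
          simp
        have e2 : ρ ((y * z) * (z * y)⁻¹) = 1 := by
          rw [map_mul, e1, ← map_mul, mul_inv_cancel, map_one]
        have e3 : (χ : G → ℂ) ((y * z) * (z * y)⁻¹) = (χ : G → ℂ) 1 := by
          rw [← hch]
          show LinearMap.trace ℂ _ (ρ _) = LinearMap.trace ℂ _ (ρ 1)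
          rw [e2, (map_one ρ)]
        have e4 := hfaith _ e3
        exact mul_inv_eq_one.mp e4
      rw [hZ, Subgroup.mem_bot] at hcen
      exact hcen
  set S : Set ℕ := (fun ψ : Cfsg.IrrCharacter G => (Cfsg.charDegree (ψ : G → ℂ)).factorization p) ''
    (Cfsg.blockOf M (χ : G → ℂ)) with hS
  have hχmem : χ ∈ Cfsg.blockOf M (χ : G → ℂ) := by
    intro g
    rw [sub_self]
    exact memLocalIdeal_zero hMtop
  have hne : S.Nonempty := ⟨_, χ, hχmem, rfl⟩
  obtain ⟨ψ, hψB, hψ⟩ := Nat.sInf_mem hne
  have key : b ≤ sInf S := by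
    by_contra hlt
    push Not at hlt
    set e := sInf S with he
    obtain ⟨d, hd0, hd⟩ := Cfsg.Agent.CharLib.irr_apply_one_nat ψ
    have hdeg' : Cfsg.charDegree (ψ : G → ℂ) = d := by simp [Cfsg.charDegree, hd]
    have hfac : d.factorization p = e := by rw [← hdeg']; exact hψ
    have hd' : d = p ^ e * (d / p ^ e) := by
      rw [← hfac]; exact (Nat.ordProj_mul_ordCompl_eq_self d p).symm
    have hm' : ¬ p ∣ d / p ^ e := by
      rw [← hfac]; exact Nat.not_dvd_ordCompl hp hd0.ne'
    set m' := d / p ^ e with hm'def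
    have hdC : (ψ : G → ℂ) 1 ≠ 0 := by rw [hd]; exact_mod_cast hd0.ne'
    -- terms
    have hterm : ∀ z : Z, z ≠ 1 → MemLocalIdeal M ((ψ : G → ℂ) z / (ψ : G → ℂ) 1) := by
      intro z hz1
      have hz1' : (z : G) ≠ 1 := fun h => hz1 (Subtype.ext h)
      have h1 := hψB (z : G)
      have h2 : Cfsg.centralChar (χ : G → ℂ) (z : G) = 0 := by
        simp [Cfsg.centralChar, hvan z z.2 hz1']
      rw [h2, zero_sub] at h1
      have h3 := memLocalIdeal_neg h1
      rw [neg_neg] at h3
      have h4 := memLocalIdeal_mul_right h3 (memLocalRing_natCast_inv hM (hidx z z.2))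
      have hidx0 : ((Subgroup.centralizer ({(z : G)} : Set G)).index : ℂ) ≠ 0 := by
        intro h0
        apply hidx z z.2
        have : (Subgroup.centralizer ({(z : G)} : Set G)).index = 0 := by exact_mod_cast h0
        rw [this]; exact dvd_zero p
      have h5 : Cfsg.centralChar (ψ : G → ℂ) (z : G) *
          ((Subgroup.centralizer ({(z : G)} : Set G)).index : ℂ)⁻¹ =
          (ψ : G → ℂ) z / (ψ : G → ℂ) 1 := by
        simp only [Cfsg.centralChar]
        field_simp
      rwa [h5] at h4
    -- the sum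
    obtain ⟨m, hm⟩ := Cfsg.Agent.CharLib.classInner_char_nat
      (Cfsg.Agent.CharLib.isCharacter_restrict (Cfsg.Agent.CharLib.isCharacter_of_irr ψ.2) Z)
      (Cfsg.Agent.CharLib.isCharacter_of_irr
        (Cfsg.Agent.CharLib.isIrrCharacter_one (G := Z)))
    have hsum : ∑ z : Z, (ψ : G → ℂ) z = (p : ℂ) ^ b * m := by
      have hc0 : (Nat.card Z : ℂ) ≠ 0 := by
        rw [hZcard]; exact_mod_cast (pow_pos hp.pos b).ne'
      simp only [Cfsg.classInner, map_one, mul_one] at hm
      have : ∑ z : Z, (ψ : G → ℂ) z = (Nat.card Z : ℂ) * m := by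
        rw [← hm]; field_simp
      rw [this, hZcard]; push_cast; ring
    have hsplit : ∑ z : Z, (ψ : G → ℂ) z / (ψ : G → ℂ) 1 =
        1 + ∑ z ∈ Finset.univ.erase (1 : Z), (ψ : G → ℂ) z / (ψ : G → ℂ) 1 := by
      rw [← Finset.add_sum_erase Finset.univ _ (Finset.mem_univ (1 : Z))]
      congr 1
      simp [hdC]
    have hI1 : MemLocalIdeal M (∑ z ∈ Finset.univ.erase (1 : Z),
        (ψ : G → ℂ) z / (ψ : G → ℂ) 1) :=
      memLocalIdeal_sum _ _ (fun z hz => hterm z (Finset.ne_of_mem_erase hz))
    have hI2 : MemLocalIdeal M (∑ z : Z, (ψ : G → ℂ) z / (ψ : G → ℂ) 1) := by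
      rw [← Finset.sum_div, hsum, hd, hd']
      obtain ⟨j, hj⟩ : ∃ j, b = e + 1 + j := ⟨b - (e + 1), by omega⟩
      have hpC : (p : ℂ) ≠ 0 := by exact_mod_cast hp.ne_zero
      have hm'C : (m' : ℂ) ≠ 0 := by
        intro h0
        apply hm'
        have : m' = 0 := by exact_mod_cast h0
        rw [this]; exact dvd_zero p
      have e1 : (p : ℂ) ^ b * m / ((p ^ e * m' : ℕ) : ℂ) =
          (p : ℂ) * (((p ^ j * m : ℕ) : ℂ) * (m' : ℂ)⁻¹) := by
        rw [hj]; push_cast; field_simp; ring
      rw [e1]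
      exact memLocalIdeal_mul_right (memLocalIdeal_p hM)
        (memLocalRing_mul (memLocalRing_natCast hMtop _) (memLocalRing_natCast_inv hM hm'))
    rw [hsplit] at hI2
    have := memLocalIdeal_sub hI2 hI1
    rw [add_sub_cancel_right] at this
    exact not_memLocalIdeal_one this
  have hcardG : (Nat.card G).factorization p = a := by
    have h1 := P.card_eq_multiplicity
    rw [ha] at h1
    exact (Nat.pow_right_injective hp.two_le h1).symm
  have hmain : Cfsg.blockDefect p (Cfsg.blockOf M (χ : G → ℂ)) ≤ a - b := by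
    show (Nat.card G).factorization p - sInf S ≤ a - b
    omega
  refine ⟨hmain, fun hcomm => ?_⟩
  have hab : a = b := by
    have h1 : Subgroup.center ↥(P : Subgroup G) = ⊤ := by
      rw [eq_top_iff]
      intro x _
      rw [Subgroup.mem_center_iff]
      intro y
      exact hcomm.is_comm.comm y x
    rw [h1, Subgroup.card_top] at hb
    have h2 : Nat.card ↥(P : Subgroup G) = p ^ a := ha
    rw [h2] at hb
    exact Nat.pow_right_injective hp.two_le hb
  omega

end Cfsg.Agent.S4730
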