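import Cfsg.Statements.S4731
import Cfsg.Agent.Lib.Helper23.WeakOrth
import Cfsg.Agent.CharLib.Core

set_option autoImplicit false
open Cfsg Cfsg.Agent.BlockLib Cfsg.Agent.CharLib Cfsg.Agent.Lib.Helper23
open scoped ComplexConjugate

namespace Cfsg.Agent.S4731

/-- Let p ≠ q be primes, M_p and M_q maximal ideals of the algebraic integers containing p and q respectively, and G a finite group with no element of order pq; let q^b be the q-part of the order of G. For a p-block B_p (relative to M_p), a q-block B_q (relative to M_q) and a p-singular element y, the sum of χ(1)χ(y) over the irreducible characters χ lying in both B_p and B_q is q^b times an algebraic integer. -/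
theorem result {G : Type*} [Group G] [Finite G] (p q : ℕ) [Fact p.Prime] [Fact q.Prime] (hpq : p ≠ q) (Mp Mq : Ideal Cfsg.AlgInt) (hMp : Cfsg.IsPModular p Mp) (hMq : Cfsg.IsPModular q Mq) (hno : ∀ g : G, orderOf g ≠ p * q) (b : ℕ) (hb : (Nat.card G).factorization q = b) (Bp : Set (Cfsg.IrrCharacter G)) (hBp : Cfsg.IsPBlock Mp Bp) (Bq : Set (Cfsg.IrrCharacter G)) (hBq : Cfsg.IsPBlock Mq Bq) (y : G) (hy : p ∣ orderOf y) : ∃ ω : Cfsg.AlgInt, ∑ᶠ χ ∈ Bp ∩ Bq, (Cfsg.charDegree (χ : G → ℂ) : ℂ) * (χ : G → ℂ) y = (q : ℂ) ^ b * (ω : ℂ) := by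
  classical
  letI := Fintype.ofFinite G
  have hirr : ∀ χ : IrrCharacter G, IsCharacter G (χ : G → ℂ) := fun χ => isCharacter_of_irr χ.2
  have hqp : ∀ g : G, p ∣ orderOf g → ¬ q ∣ orderOf g := by
    intro g h1 h2
    have hcop : Nat.Coprime p q := (Nat.coprime_primes Fact.out Fact.out).2 hpq
    obtain ⟨k, hk⟩ := hcop.mul_dvd_of_dvd_of_dvd h1 h2
    have hpos : 0 < orderOf g := orderOf_pos g
    have hk0 : k ≠ 0 := by
      rintro rfl
      rw [mul_zero] at hk
      omega
    apply hno (g ^ k)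
    rw [orderOf_pow_of_dvd hk0 ⟨p * q, by rw [hk]; ring⟩, hk]
    exact Nat.mul_div_cancel _ (Nat.pos_of_ne_zero hk0)
  set BP := Finset.univ.filter (· ∈ Bp) with hBP
  set BQ := Finset.univ.filter (· ∈ Bq) with hBQ
  -- the key vanishing
  have key : ∀ z : G, q ∣ orderOf z →
      ∑ ψ ∈ BQ, (if ψ ∈ Bp then (ψ : G → ℂ) y else 0) * (ψ : G → ℂ) z = 0 := by
    intro z hz
    let α : G → ℂ := fun g => ∑ χ ∈ BP, (χ : G → ℂ) y * conj ((χ : G → ℂ) g)
    have hα0 : ∀ g : G, ¬ p ∣ orderOf g → α g = 0 := by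
      intro g hg
      have := weak_orth hMp Bp hBp g y hg hy
      have h2 := congrArg conj this
      rw [map_sum, map_zero] at h2
      rw [← h2]
      apply Finset.sum_congr rfl
      intro χ _
      rw [map_mul, Complex.conj_conj, mul_comm]
    have hcoef : ∀ ψ : IrrCharacter G, ∑ g : G, α g * (ψ : G → ℂ) g
        = (Nat.card G : ℂ) * (if ψ ∈ Bp then (ψ : G → ℂ) y else 0) := by
      intro ψ
      simp only [α, Finset.sum_mul]
      rw [Finset.sum_comm]
      have h1 : ∀ χ ∈ BP, ∑ g : G, (χ : G → ℂ) y * conj ((χ : G → ℂ) g) * (ψ : G → ℂ) g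
          = (Nat.card G : ℂ) * (if ψ = χ then (χ : G → ℂ) y else 0) := by
        intro χ _
        have h := classInner_irr ψ.2 χ.2
        rw [classInner_def] at h
        have hc : (Nat.card G : ℂ) ≠ 0 := by
          exact_mod_cast (Nat.card_pos (α := G)).ne'
        have h3 : ∑ g : G, (ψ : G → ℂ) g * conj ((χ : G → ℂ) g)
            = (Nat.card G : ℂ) * (if (ψ : G → ℂ) = χ then 1 else 0) := by
          rw [← h]; field_simp
        have h4 : ∑ g : G, (χ : G → ℂ) y * conj ((χ : G → ℂ) g) * (ψ : G → ℂ) g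
            = (χ : G → ℂ) y * ∑ g : G, (ψ : G → ℂ) g * conj ((χ : G → ℂ) g) := by
          rw [Finset.mul_sum]
          apply Finset.sum_congr rfl
          intro g _
          ring
        rw [h4, h3]
        by_cases hh : ψ = χ
        · subst hh; simp; ring
        · have : ¬ ((ψ : G → ℂ) = χ) := fun h => hh (Subtype.ext h)
          simp [hh, this]
      rw [Finset.sum_congr rfl h1, ← Finset.mul_sum]
      congr 1
      rw [Finset.sum_ite_eq]
      simp [hBP]
    have hc : (Nat.card G : ℂ) ≠ 0 := by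
      exact_mod_cast (Nat.card_pos (α := G)).ne'
    apply mul_left_cancel₀ hc
    rw [mul_zero, Finset.mul_sum]
    have e1 : ∀ ψ ∈ BQ, (Nat.card G : ℂ) * ((if ψ ∈ Bp then (ψ : G → ℂ) y else 0) * (ψ : G → ℂ) z)
        = ∑ g : G, α g * ((ψ : G → ℂ) g * (ψ : G → ℂ) z) := by
      intro ψ _
      rw [← mul_assoc, ← hcoef ψ, Finset.sum_mul]
      apply Finset.sum_congr rfl
      intro g _
      ring
    rw [Finset.sum_congr rfl e1, Finset.sum_comm]
    apply Finset.sum_eq_zero
    intro g _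
    rw [← Finset.mul_sum]
    by_cases hg : p ∣ orderOf g
    · have hz' : q ∣ orderOf z⁻¹ := by rwa [orderOf_inv]
      have := weak_orth hMq Bq hBq g z⁻¹ (hqp g hg) hz'
      have e2 : ∑ ψ ∈ BQ, (ψ : G → ℂ) g * (ψ : G → ℂ) z
          = ∑ ψ ∈ BQ, (ψ : G → ℂ) g * conj ((ψ : G → ℂ) z⁻¹) := by
        apply Finset.sum_congr rfl
        intro ψ _
        rw [isCharacter_inv (hirr ψ), Complex.conj_conj]
      rw [e2, this, mul_zero]
    · rw [hα0 g hg, zero_mul]
  -- a Sylow q-subgroup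
  obtain ⟨Q⟩ : Nonempty (Sylow q G) := inferInstance
  have hQcard : Nat.card (Q : Subgroup G) = q ^ b := by
    rw [Sylow.card_eq_multiplicity, hb]
  have hnat : ∀ ψ : IrrCharacter G, ∃ n : ℕ, ∑ z : (Q : Subgroup G), (ψ : G → ℂ) z
      = (q : ℂ) ^ b * n := by
    intro ψ
    obtain ⟨n, hn⟩ := classInner_char_nat (isCharacter_restrict (hirr ψ) (Q : Subgroup G))
      (isCharacter_of_irr (isIrrCharacter_one (G := (Q : Subgroup G))))
    refine ⟨n, ?_⟩
    rw [classInner_def] at hn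
    have hc : (Nat.card (Q : Subgroup G) : ℂ) ≠ 0 := by
      exact_mod_cast (Nat.card_pos (α := (Q : Subgroup G))).ne'
    have : ((q : ℂ) ^ b) = (Nat.card (Q : Subgroup G) : ℂ) := by rw [hQcard]; push_cast; rfl
    rw [this, ← hn]
    simp only [map_one, mul_one]
    field_simp
  choose n hn using hnat
  refine ⟨⟨∑ ψ ∈ BQ, (if ψ ∈ Bp then (ψ : G → ℂ) y else 0) * (n ψ : ℂ), ?_⟩, ?_⟩
  · apply IsIntegral.sum
    intro ψ _
    apply IsIntegral.mul
    · split_ifs
      · exact isCharacter_isIntegral (hirr ψ) y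
      · exact isIntegral_zero
    · exact_mod_cast (isIntegral_algebraMap (R := ℤ) (A := ℂ) (x := (n ψ : ℤ)))
  · have hdeg : ∀ χ : IrrCharacter G, (charDegree (χ : G → ℂ) : ℂ) = (χ : G → ℂ) 1 := by
      intro χ
      obtain ⟨m, hm⟩ := isCharacter_apply_one (hirr χ)
      unfold charDegree
      rw [hm]
      simp
    have e0 : ∑ᶠ χ ∈ Bp ∩ Bq, (charDegree (χ : G → ℂ) : ℂ) * (χ : G → ℂ) y
        = ∑ ψ ∈ BQ, (if ψ ∈ Bp then (ψ : G → ℂ) y else 0) * (ψ : G → ℂ) 1 := by
      rw [finsum_mem_eq_sum_filter']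
      rw [hBQ, Finset.sum_filter, Finset.sum_filter]
      apply Finset.sum_congr rfl
      intro ψ _
      by_cases h1 : ψ ∈ Bp <;> by_cases h2 : ψ ∈ Bq <;> simp [h1, h2, hdeg, mul_comm]
    rw [e0]
    have e1 : ∑ z : (Q : Subgroup G), ∑ ψ ∈ BQ,
        (if ψ ∈ Bp then (ψ : G → ℂ) y else 0) * (ψ : G → ℂ) z
        = ∑ ψ ∈ BQ, (if ψ ∈ Bp then (ψ : G → ℂ) y else 0) * (ψ : G → ℂ) 1 := by
      rw [Finset.sum_eq_single (1 : (Q : Subgroup G))]
      · rfl
      · intro z _ hz
        apply key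
        obtain ⟨k, hk⟩ := (IsPGroup.iff_orderOf.1 Q.2 z)
        have hk' : orderOf (z : G) = q ^ k := by rw [Subgroup.orderOf_coe, hk]
        rw [hk']
        have : k ≠ 0 := by
          rintro rfl
          apply hz
          simpa using hk
        exact dvd_pow_self q this
      · intro h; exact absurd (Finset.mem_univ _) h
    rw [← e1, Finset.sum_comm]
    show _ = (q : ℂ) ^ b * ∑ ψ ∈ BQ, (if ψ ∈ Bp then (ψ : G → ℂ) y else 0) * (n ψ : ℂ)
    rw [Finset.mul_sum]
    apply Finset.sum_congr rfl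
    intro ψ _
    rw [← Finset.mul_sum, hn ψ]
    ring

end Cfsg.Agent.S4731
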