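import Cfsg.Statements.S4735
import Cfsg.Agent.BlockLib.KG.LinkGal
import Cfsg.Agent.S0967
import Cfsg.Agent.H25.BlockSum2
import Cfsg.Agent.Lib.Helper8.BQ1
import Cfsg.Agent.H9.Cores

set_option autoImplicit false
open Cfsg Cfsg.Agent.BlockLib Cfsg.Agent.CharLib
open scoped ComplexConjugate

namespace Cfsg.Agent.S4735

/-- Let p be a prime, M a maximal ideal of the algebraic integers containing p, G a finite group, H = O_p'(G) and Ḡ = G/H. For x ∈ G write λ(G, x) for the sum of |χ(x)|^2 over the irreducible characters χ in the principal p-block of G. Then λ(G, x) is a positive integer, λ(G, x) = λ(Ḡ, x̄) where x̄ is the image of x, and λ(G, x) ≤ #C_Ḡ(x̄). Moreover λ(G, 1) = [G : H] if and only if the principal block is the only p-block of Ḡ. -/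
theorem result {G : Type*} [Group G] [Finite G] (p : ℕ) [Fact p.Prime] (M : Ideal Cfsg.AlgInt) (hM : Cfsg.IsPModular p M) (x : G) : (∃ n : ℕ, 0 < n ∧ ∑ᶠ χ ∈ Cfsg.principalBlock M G, Complex.normSq ((χ : G → ℂ) x) = n) ∧ ∑ᶠ χ ∈ Cfsg.principalBlock M G, Complex.normSq ((χ : G → ℂ) x) = ∑ᶠ ψ ∈ Cfsg.principalBlock M (G ⧸ Cfsg.pPrimeCore p G), Complex.normSq ((ψ : G ⧸ Cfsg.pPrimeCore p G → ℂ) (QuotientGroup.mk x)) ∧ ∑ᶠ χ ∈ Cfsg.principalBlock M G, Complex.normSq ((χ : G → ℂ) x) ≤ (Nat.card ↥(Subgroup.centralizer ({(QuotientGroup.mk x : G ⧸ Cfsg.pPrimeCore p G)} : Set (G ⧸ Cfsg.pPrimeCore p G))) : ℝ) ∧ ((∑ᶠ χ ∈ Cfsg.principalBlock M G, Cfsg.charDegree (χ : G → ℂ) ^ 2) = (Cfsg.pPrimeCore p G).index ↔ ∀ B : Set (Cfsg.IrrCharacter (G ⧸ Cfsg.pPrimeCore p G)), Cfsg.IsPBlock M B → B = Cfsg.principalBlock M (G ⧸ Cfsg.pPrimeCore p G)) := by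
  classical
  letI := Fintype.ofFinite G
  haveI := isPrime_of_isPModular hM
  set N := pPrimeCore p G with hN
  letI : Fintype (G ⧸ N) := Fintype.ofFinite _
  have hNp : ¬ p ∣ Nat.card N := by
    have h1 := Cfsg.H9.pPrimeCore_coprime (G := G) p
    intro h2
    exact (Fact.out : p.Prime).one_lt.ne' (Nat.Coprime.eq_one_of_dvd h1.symm h2)
  let inf : IrrCharacter (G ⧸ N) → IrrCharacter G := Cfsg.Agent.Lib.Helper8.BQ.infl N
  have hbij : Set.BijOn inf (principalBlock M (G ⧸ N)) (principalBlock M G) := by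
    refine ⟨?_, (Cfsg.Agent.Lib.Helper8.BQ.infl_injective N).injOn, ?_⟩
    · intro ψ hψ
      exact Cfsg.Agent.H25.sameBlock_inflation N hψ
    · intro χ hχ
      obtain ⟨ψ', h1, h2⟩ := Cfsg.Agent.S0967.result p M hM N hNp ⟨fun _ => 1, isIrrCharacter_one⟩ χ hχ
      exact ⟨ψ', h2, Subtype.ext h1.symm⟩
  have hsumR : ∀ (F : IrrCharacter G → ℝ), ∑ᶠ χ ∈ principalBlock M G, F χ
      = ∑ᶠ ψ ∈ principalBlock M (G ⧸ N), F (inf ψ) :=
    fun F => (finsum_mem_eq_of_bijOn inf hbij (fun _ _ => rfl)).symm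
  have hsumN : ∀ (F : IrrCharacter G → ℕ), ∑ᶠ χ ∈ principalBlock M G, F χ
      = ∑ᶠ ψ ∈ principalBlock M (G ⧸ N), F (inf ψ) :=
    fun F => (finsum_mem_eq_of_bijOn inf hbij (fun _ _ => rfl)).symm
  have h2 : ∑ᶠ χ ∈ principalBlock M G, Complex.normSq ((χ : G → ℂ) x)
      = ∑ᶠ ψ ∈ principalBlock M (G ⧸ N), Complex.normSq ((ψ : G ⧸ N → ℂ) (QuotientGroup.mk x)) :=
    hsumR _
  refine ⟨?_, h2, ?_, ?_⟩
  · set BB := Finset.univ.filter (· ∈ principalBlock M G) with hBB
    have e0 : ∑ᶠ χ ∈ principalBlock M G, Complex.normSq ((χ : G → ℂ) x)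
        = ∑ χ ∈ BB, Complex.normSq ((χ : G → ℂ) x) := by
      rw [finsum_mem_eq_finite_toFinset_sum _ (Set.toFinite _)]
      congr 1
      ext
      simp [hBB]
    rw [e0]
    obtain ⟨n, hn⟩ := LinkGal.exists_int_sum BB (by
      intro m hm χ hχ
      rw [hBB, Finset.mem_filter] at hχ ⊢
      exact ⟨Finset.mem_univ _, LinkGal.gal_mem_principalBlock hM m hm χ hχ.2⟩) x x⁻¹
    have e1 : ((∑ χ ∈ BB, Complex.normSq ((χ : G → ℂ) x) : ℝ) : ℂ) = (n : ℂ) := by
      rw [← hn]
      push_cast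
      apply Finset.sum_congr rfl
      intro χ _
      rw [isCharacter_inv (isCharacter_of_irr χ.2), Complex.mul_conj]
    have e2 : (∑ χ ∈ BB, Complex.normSq ((χ : G → ℂ) x) : ℝ) = (n : ℝ) := by
      apply Complex.ofReal_injective
      rw [e1]; simp
    have h1 : (⟨fun _ => 1, isIrrCharacter_one⟩ : IrrCharacter G) ∈ BB := by
      rw [hBB, Finset.mem_filter]
      exact ⟨Finset.mem_univ _, SameBlock.refl' (ne_top_of_isPModular hM) _⟩
    have h3 := Finset.single_le_sum (f := fun χ : IrrCharacter G => Complex.normSq ((χ : G → ℂ) x))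
      (fun χ _ => Complex.normSq_nonneg _) h1
    have h4 : (1 : ℝ) ≤ (n : ℝ) := by
      rw [← e2]
      simpa using h3
    have h5 : (1 : ℤ) ≤ n := by exact_mod_cast h4
    refine ⟨n.toNat, by omega, ?_⟩
    rw [e2]
    have : ((n.toNat : ℤ) : ℝ) = (n : ℝ) := by rw [Int.toNat_of_nonneg (by omega)]
    rw [← this, Int.cast_natCast]
  · rw [h2]
    have e0 : ∑ᶠ ψ ∈ principalBlock M (G ⧸ N), Complex.normSq ((ψ : G ⧸ N → ℂ) (QuotientGroup.mk x))
        = ∑ ψ ∈ Finset.univ.filter (· ∈ principalBlock M (G ⧸ N)),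
          Complex.normSq ((ψ : G ⧸ N → ℂ) (QuotientGroup.mk x)) := by
      rw [finsum_mem_eq_finite_toFinset_sum _ (Set.toFinite _)]
      congr 1
      ext
      simp
    rw [e0]
    have e1 : (∑ ψ : IrrCharacter (G ⧸ N), Complex.normSq ((ψ : G ⧸ N → ℂ) (QuotientGroup.mk x)) : ℝ)
        = (Nat.card ↥(Subgroup.centralizer ({(QuotientGroup.mk x : G ⧸ N)} : Set (G ⧸ N))) : ℝ) := by
      apply Complex.ofReal_injective
      push_cast
      rw [← sum_irr_mul_conj_self]
      apply Finset.sum_congr rfl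
      intro ψ _
      rw [Complex.mul_conj]
    rw [← e1]
    apply Finset.sum_le_sum_of_subset_of_nonneg (Finset.subset_univ _)
    intro ψ _ _
    exact Complex.normSq_nonneg _
  · have hdegC : ∀ ψ : IrrCharacter (G ⧸ N), (charDegree (ψ : G ⧸ N → ℂ) : ℂ) = (ψ : G ⧸ N → ℂ) 1 := by
      intro χ
      obtain ⟨m, hm⟩ := isCharacter_apply_one (isCharacter_of_irr χ.2)
      unfold charDegree
      rw [hm]
      simp
    have hpos : ∀ ψ : IrrCharacter (G ⧸ N), 0 < charDegree (ψ : G ⧸ N → ℂ) := by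
      intro ψ
      rw [Nat.pos_iff_ne_zero]
      intro h
      have := hdegC ψ
      rw [h] at this
      exact irr_apply_one_ne_zero ψ (by simpa using this.symm)
    have e3 : ∑ᶠ χ ∈ principalBlock M G, charDegree (χ : G → ℂ) ^ 2
        = ∑ ψ ∈ Finset.univ.filter (· ∈ principalBlock M (G ⧸ N)), charDegree (ψ : G ⧸ N → ℂ) ^ 2 := by
      rw [hsumN, finsum_mem_eq_finite_toFinset_sum _ (Set.toFinite _)]
      apply Finset.sum_congr
      · ext; simp
      · intro ψ _
        rfl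
    have e4 : ∑ ψ : IrrCharacter (G ⧸ N), charDegree (ψ : G ⧸ N → ℂ) ^ 2 = N.index := by
      have h := sum_irr_sq (G := G ⧸ N)
      have : ((∑ ψ : IrrCharacter (G ⧸ N), charDegree (ψ : G ⧸ N → ℂ) ^ 2 : ℕ) : ℂ)
          = ((N.index : ℕ) : ℂ) := by
        push_cast
        rw [Subgroup.index, ← h]
        apply Finset.sum_congr rfl
        intro ψ _
        rw [hdegC]
      exact_mod_cast this
    rw [e3, ← e4]
    constructor
    · intro heq B hB
      obtain ⟨ψ, rfl⟩ := hB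
      have hall : ∀ θ : IrrCharacter (G ⧸ N), θ ∈ principalBlock M (G ⧸ N) := by
        intro θ
        by_contra hθ
        have hlt : ∑ ψ ∈ Finset.univ.filter (· ∈ principalBlock M (G ⧸ N)), charDegree (ψ : G ⧸ N → ℂ) ^ 2
            < ∑ ψ : IrrCharacter (G ⧸ N), charDegree (ψ : G ⧸ N → ℂ) ^ 2 := by
          apply Finset.sum_lt_sum_of_subset (Finset.subset_univ _) (Finset.mem_univ θ)
          · simpa using hθ
          · exact pow_pos (hpos θ) 2
          · intro j _ _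
            exact Nat.zero_le _
        omega
      ext θ
      constructor
      · intro _
        exact hall θ
      · intro _
        exact SameBlock.trans' (SameBlock.symm' (hall ψ)) (hall θ)
    · intro hall
      congr 1
      ext θ
      simp only [Finset.mem_filter, Finset.mem_univ, true_and, iff_true]
      rw [← hall _ ⟨θ, rfl⟩]
      exact SameBlock.refl' (ne_top_of_isPModular hM) _

end Cfsg.Agent.S4735
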