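import Cfsg.Statements.S4736
import Cfsg.Agent.Lib.Helper10.PrincipalPSolv
import Cfsg.Agent.Lib.Helper23.PSolv
import Cfsg.Agent.S4713
-- import your own Cfsg.Agent.* helpers here

set_option autoImplicit false
open Cfsg

namespace Cfsg.Agent.S4736

/-- Let p be a prime, M a maximal ideal of the algebraic integers containing p, and G a finite p-solvable group with Sylow p-subgroup P. Then P is abelian if and only if every irreducible character in the principal p-block of G has height zero. -/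
theorem result {G : Type*} [Group G] [Finite G] (p : ℕ) [Fact p.Prime] (M : Ideal Cfsg.AlgInt) (hM : Cfsg.IsPModular p M) (hsolv : Cfsg.IsPSolvable p G) (P : Sylow p G) : IsMulCommutative P ↔ ∀ χ ∈ Cfsg.principalBlock M G, Cfsg.blockHeight p (Cfsg.principalBlock M G) (χ : G → ℂ) = 0 := by
  classical
  have hMt := Cfsg.Agent.BlockLib.ne_top_of_isPModular hM
  have hsurj := QuotientGroup.mk'_surjective (Cfsg.pPrimeCore p G)
  have hsq := Cfsg.Agent.H20.isPSolvable_quotient Fact.out hsolv (Cfsg.pPrimeCore p G)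
  have hcore : Cfsg.pPrimeCore p (G ⧸ Cfsg.pPrimeCore p G) = ⊥ := Cfsg.H9.pPrimeCore_quotient p
  have hIM := Cfsg.Agent.S4713.result p hsq (P.mapSurjective hsurj)
  rw [Cfsg.Agent.Lib.Helper10.principalBlock_eq_of_isPSolvable p M hM hsolv]
  rw [← Cfsg.Agent.Lib.Helper10.principalBlock_eq_of_isPSolvable p M hM hsolv]
  constructor
  · intro hP χ hχ
    rw [Cfsg.Agent.Lib.Helper10.blockHeight_principalBlock p M hMt]
    rw [Cfsg.Agent.Lib.Helper10.principalBlock_eq_of_isPSolvable p M hM hsolv] at hχ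
    obtain ⟨χ', hχ'⟩ := Cfsg.Agent.H25.exists_quotient_irr χ (Cfsg.pPrimeCore p G)
      (fun n hn => hχ n hn)
    have hcomm : ∀ a ∈ ((P.mapSurjective hsurj : Sylow p _) : Subgroup (G ⧸ Cfsg.pPrimeCore p G)),
        ∀ b ∈ ((P.mapSurjective hsurj : Sylow p _) : Subgroup (G ⧸ Cfsg.pPrimeCore p G)),
        a * b = b * a := by
      intro a ha b hb
      rw [Sylow.coe_mapSurjective] at ha hb
      obtain ⟨a', ha', rfl⟩ := ha
      obtain ⟨b', hb', rfl⟩ := hb
      have h1 := (isMulCommutative_iff.1 hP) ⟨a', ha'⟩ ⟨b', hb'⟩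
      have h2 : a' * b' = b' * a' := congrArg Subtype.val h1
      rw [← map_mul, ← map_mul, h2]
    have hRp : IsPGroup p (Cfsg.pCore p (G ⧸ Cfsg.pPrimeCore p G)) := Cfsg.H9.pCore_isPGroup p
    have hRP := hRp.le_sylow_of_normal (P.mapSurjective hsurj)
    have hPR : ((P.mapSurjective hsurj : Sylow p _) : Subgroup (G ⧸ Cfsg.pPrimeCore p G))
        ≤ Cfsg.pCore p (G ⧸ Cfsg.pPrimeCore p G) := by
      refine le_trans ?_ (Cfsg.Agent.Lib.Helper23.centralizer_pCore_le_of_isPSolvable p hsq hcore)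
      intro a ha
      rw [Subgroup.mem_centralizer_iff]
      intro r hr
      exact hcomm r (hRP hr) a ha
    have hnorm : ((P.mapSurjective hsurj : Sylow p _) : Subgroup (G ⧸ Cfsg.pPrimeCore p G)).Normal := by
      rw [le_antisymm hPR hRP]
      infer_instance
    have hc : IsMulCommutative (P.mapSurjective hsurj : Sylow p _) :=
      isMulCommutative_iff.2 fun a b => Subtype.ext (hcomm a a.2 b b.2)
    have h3 := hIM.1 ⟨hnorm, hc⟩ χ'
    have h4 : Cfsg.charDegree (χ' : G ⧸ Cfsg.pPrimeCore p G → ℂ) = Cfsg.charDegree (χ : G → ℂ) := by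
      unfold Cfsg.charDegree
      rw [← hχ' 1]; rfl
    rw [h4] at h3
    exact Nat.factorization_eq_zero_of_not_dvd h3
  · intro h
    have hdeg : ∀ χ' : Cfsg.IrrCharacter (G ⧸ Cfsg.pPrimeCore p G),
        ¬ p ∣ Cfsg.charDegree (χ' : G ⧸ Cfsg.pPrimeCore p G → ℂ) := by
      intro χ'
      let χ : Cfsg.IrrCharacter G := ⟨fun x => (χ' : G ⧸ Cfsg.pPrimeCore p G → ℂ)
        (QuotientGroup.mk' (Cfsg.pPrimeCore p G) x),
        Cfsg.Agent.CharLib.isIrrCharacter_comp_of_surjective χ'.2 _ hsurj⟩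
      have hχ : χ ∈ Cfsg.principalBlock M G := by
        rw [Cfsg.Agent.Lib.Helper10.principalBlock_eq_of_isPSolvable p M hM hsolv]
        intro n hn
        show (χ' : G ⧸ Cfsg.pPrimeCore p G → ℂ) (QuotientGroup.mk' _ n)
          = (χ' : G ⧸ Cfsg.pPrimeCore p G → ℂ) (QuotientGroup.mk' _ 1)
        rw [map_one]
        have hn1 : QuotientGroup.mk' (Cfsg.pPrimeCore p G) n = 1 := (QuotientGroup.eq_one_iff n).2 hn
        rw [hn1]
      have h1 := h χ hχ
      rw [Cfsg.Agent.Lib.Helper10.blockHeight_principalBlock p M hMt] at h1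
      have h4 : Cfsg.charDegree (χ' : G ⧸ Cfsg.pPrimeCore p G → ℂ) = Cfsg.charDegree (χ : G → ℂ) := by
        unfold Cfsg.charDegree
        show _ = ⌊((χ' : G ⧸ Cfsg.pPrimeCore p G → ℂ) (QuotientGroup.mk' _ 1)).re⌋₊
        rw [map_one]
      rw [h4]
      rcases (Nat.factorization_eq_zero_iff _ _).1 h1 with h2 | h2 | h2
      · exact absurd Fact.out h2
      · exact h2
      · exact absurd h2 (Cfsg.Agent.H25.charDegree_pos χ).ne'
    obtain ⟨-, hc⟩ := hIM.2 hdeg
    rw [isMulCommutative_iff]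
    intro a b
    apply Subtype.ext
    have ha : QuotientGroup.mk' (Cfsg.pPrimeCore p G) (a : G) ∈
        ((P.mapSurjective hsurj : Sylow p _) : Subgroup (G ⧸ Cfsg.pPrimeCore p G)) := by
      rw [Sylow.coe_mapSurjective]; exact ⟨a, a.2, rfl⟩
    have hb : QuotientGroup.mk' (Cfsg.pPrimeCore p G) (b : G) ∈
        ((P.mapSurjective hsurj : Sylow p _) : Subgroup (G ⧸ Cfsg.pPrimeCore p G)) := by
      rw [Sylow.coe_mapSurjective]; exact ⟨b, b.2, rfl⟩
    have h1 := (isMulCommutative_iff.1 hc) ⟨_, ha⟩ ⟨_, hb⟩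
    have h2 : QuotientGroup.mk' (Cfsg.pPrimeCore p G) (a : G) * QuotientGroup.mk' _ (b : G)
        = QuotientGroup.mk' _ (b : G) * QuotientGroup.mk' _ (a : G) := congrArg Subtype.val h1
    rw [← map_mul, ← map_mul] at h2
    have h3 : ((b : G) * (a : G))⁻¹ * ((a : G) * (b : G)) ∈ Cfsg.pPrimeCore p G :=
      (QuotientGroup.eq).1 h2.symm
    have h4 : ((b : G) * (a : G))⁻¹ * ((a : G) * (b : G)) ∈ (P : Subgroup G) :=
      mul_mem (inv_mem (mul_mem b.2 a.2)) (mul_mem a.2 b.2)
    have hdisj : Disjoint (P : Subgroup G) (Cfsg.pPrimeCore p G) := by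
      apply Subgroup.disjoint_of_coprime_natCard  
      obtain ⟨n, hn⟩ := IsPGroup.iff_card.1 P.2
      rw [hn]
      exact ((Cfsg.H9.pPrimeCore_coprime (G := G) p).symm).pow_left n
    have h5 := (Subgroup.disjoint_def.1 hdisj) h4 h3
    show (a : G) * (b : G) = (b : G) * (a : G)
    calc (a : G) * (b : G) = ((b : G) * (a : G)) * (((b : G) * (a : G))⁻¹ * ((a : G) * (b : G))) := by
          group
      _ = (b : G) * (a : G) := by rw [h5, mul_one]

end Cfsg.Agent.S4736
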