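import Cfsg.Statements.S4956
import Cfsg.Agent.H25.KGV2

set_option autoImplicit false
open Cfsg

namespace Cfsg.Agent.S4956

/-- Let X be a finite group, V an abelian normal subgroup of X (any two elements of V commute) and G a complement to V in X whose order is coprime to that of V. Let S be a set of representatives of the orbits of G on V under conjugation: S lies in V and every element of V is conjugate under G to exactly one member of S. Then the number of conjugacy classes of X equals the sum, over s in S, of the number of conjugacy classes of the centralizer of s in G. -/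
theorem result {X : Type*} [Group X] [Finite X] (V : Subgroup X) [V.Normal] (hab : ∀ a ∈ V, ∀ b ∈ V, a * b = b * a) (G : Subgroup X) (hGV : Subgroup.IsComplement' V G) (hcop : (Nat.card V).Coprime (Nat.card G)) (S : Finset X) (hSV : ∀ s ∈ S, s ∈ V) (hrep : ∀ v ∈ V, ∃! s, s ∈ S ∧ ∃ g ∈ G, g * v * g⁻¹ = s) : Nat.card (ConjClasses X) = ∑ s ∈ S, Nat.card (ConjClasses ↥(G ⊓ Subgroup.centralizer ({s} : Set X))) := by
  classical
  have hFV := Fintype.ofFinite V
  have hVc : IsMulCommutative V := ⟨⟨fun a b => Subtype.ext (hab a a.2 b b.2)⟩⟩
  have h1 := Cfsg.Agent.H25.KGV.card_comm_eq hGV hcop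
  rw [card_comm_eq_card_conjClasses_mul_card,
    Finset.sum_congr rfl (fun (v : V) _ => Cfsg.Agent.H25.KGV.card_comm_sub G (v : X)),
    Cfsg.Agent.H25.KGV.sum_orbit_reps S hSV hrep, ← mul_assoc, hGV.card_mul_card, mul_comm] at h1
  exact Nat.eq_of_mul_eq_mul_left Nat.card_pos h1

end Cfsg.Agent.S4956
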