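import Cfsg.Statements.S4964
import Cfsg.Agent.H25.QuotBlock
import Cfsg.Agent.H1.CoprimeFrattini
import Cfsg.Agent.H4.Frattini

set_option autoImplicit false
open Cfsg

namespace Cfsg.Agent.S4964

/-- Let D be a normal p-subgroup of the finite group G, let D′ be its commutator subgroup (normal in G), and fix a maximal ideal M of the algebraic integers containing p. Then (i) two irreducible characters of G ⧸ D′ lie in the same p-block if and only if their inflations to G do, and (ii) every p-block of G contains the inflation of some irreducible character of G ⧸ D′; so inflation induces a bijection between the p-blocks of G ⧸ D′ and the p-blocks of G. -/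
theorem result {G : Type*} [Group G] [Finite G] (p : ℕ) [Fact p.Prime] (M : Ideal Cfsg.AlgInt) (hM : Cfsg.IsPModular p M) (D : Subgroup G) [D.Normal] (hD : IsPGroup p D) : (∀ χ ψ : Cfsg.IrrCharacter (G ⧸ ⁅D, D⁆), Cfsg.SameBlock M (χ : G ⧸ ⁅D, D⁆ → ℂ) (ψ : G ⧸ ⁅D, D⁆ → ℂ) ↔ Cfsg.SameBlock M ((χ : G ⧸ ⁅D, D⁆ → ℂ) ∘ QuotientGroup.mk) ((ψ : G ⧸ ⁅D, D⁆ → ℂ) ∘ QuotientGroup.mk)) ∧ ∀ B : Set (Cfsg.IrrCharacter G), Cfsg.IsPBlock M B → ∃ χ : Cfsg.IrrCharacter (G ⧸ ⁅D, D⁆), ∃ θ ∈ B, (θ : G → ℂ) = (χ : G ⧸ ⁅D, D⁆ → ℂ) ∘ QuotientGroup.mk := by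
  have hMp := Cfsg.Agent.BlockLib.isPrime_of_isPModular hM
  have hp : p.Prime := Fact.out
  have hQD : ⁅D, D⁆ ≤ D := Subgroup.commutator_le_left D D
  have hQp : IsPGroup p (⁅D, D⁆ : Subgroup G) := hD.to_le hQD
  refine ⟨fun χ ψ => ⟨fun h => Cfsg.Agent.H25.sameBlock_inflation ⁅D, D⁆ h, fun h => ?_⟩,
    fun B hB => Cfsg.Agent.H25.QuotBlock.exists_inflation_mem hM ⁅D, D⁆ hQp B hB⟩
  apply Cfsg.Agent.H25.QuotBlock.sameBlock_of_inflation hM ⁅D, D⁆ hQp _ χ ψ h
  intro g hg hgC χ'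
  have hDn : (D.map (QuotientGroup.mk' ⁅D, D⁆)).Normal :=
    Subgroup.Normal.map inferInstance _ (QuotientGroup.mk'_surjective _)
  apply Cfsg.Agent.H25.QuotBlock.memLocalIdeal_centralChar_of_not_mem hM
    (D.map (QuotientGroup.mk' ⁅D, D⁆)) (hD.map _)
  intro hcen
  apply hgC
  have hnil : Group.IsNilpotent D := hD.isNilpotent
  have hfr : ⁅D, D⁆ ≤ (frattini D).map D.subtype := by
    rw [← Subgroup.map_subtype_commutator]
    exact Subgroup.map_mono Cfsg.Agent.H4.commutator_le_frattini_of_nilpotent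
  have key : Subgroup.zpowers g ≤ Subgroup.centralizer (D : Set G) := by
    apply Cfsg.H1.coprime_trivial_on_frattini_quotient
    · intro a _
      rw [Subgroup.normalizer_eq_top]
      trivial
    · rw [Nat.card_zpowers]
      obtain ⟨k, hk⟩ := IsPGroup.iff_card.mp (hD.to_subgroup (frattini D))
      rw [hk]
      exact Nat.Coprime.pow_right k ((Nat.coprime_comm).mp ((Nat.Prime.coprime_iff_not_dvd hp).mpr hg))
    · intro a ha k hk
      apply hfr
      have h1 : Subgroup.zpowers g ≤ (Subgroup.centralizer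
          ((D.map (QuotientGroup.mk' ⁅D, D⁆) : Subgroup (G ⧸ ⁅D, D⁆)) : Set (G ⧸ ⁅D, D⁆))).comap
          (QuotientGroup.mk' ⁅D, D⁆) := by
        rw [Subgroup.zpowers_le]
        exact hcen
      have h2 := h1 ha
      rw [Subgroup.mem_comap, Subgroup.mem_centralizer_iff] at h2
      have h3 := h2 (QuotientGroup.mk' ⁅D, D⁆ k) ⟨k, hk, rfl⟩
      have h4 : QuotientGroup.mk' ⁅D, D⁆ (a * k * a⁻¹ * k⁻¹) = 1 := by
        rw [map_mul, map_mul, map_mul, map_inv, map_inv, ← h3]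
        group
      exact (QuotientGroup.eq_one_iff _).mp h4
  exact Subgroup.centralizer_le hQD (key (Subgroup.mem_zpowers g))

end Cfsg.Agent.S4964
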