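import Cfsg.Statements.S4965
import Mathlib

set_option autoImplicit false
open Cfsg

namespace Cfsg.Agent.S4965

/-- Let X be a finite group with an abelian normal subgroup V (any two elements of V commute), and let φ be the action of X ⧸ V on V induced by conjugation (well defined because V is abelian; the hypothesis hφ says that the class of x acts as conjugation by x). Then X has at most as many conjugacy classes as the semidirect product of V by X ⧸ V formed with this action: the split extension has the largest class number among extensions with the given action. -/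
theorem result {X : Type*} [Group X] [Finite X] (V : Subgroup X) [V.Normal] (hab : ∀ a ∈ V, ∀ b ∈ V, a * b = b * a) (φ : X ⧸ V →* MulAut ↥V) (hφ : ∀ (x : X) (v : ↥V), ((φ (QuotientGroup.mk x) v : ↥V) : X) = x * v * x⁻¹) : Nat.card (ConjClasses X) ≤ Nat.card (ConjClasses (SemidirectProduct ↥V (X ⧸ V) φ)) := by
  classical
  have h1 := card_comm_eq_card_conjClasses_mul_card X
  have h2 := card_comm_eq_card_conjClasses_mul_card (SemidirectProduct ↥V (X ⧸ V) φ)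
  have hcard : Nat.card (SemidirectProduct ↥V (X ⧸ V) φ) = Nat.card X := by
    rw [SemidirectProduct.card, Subgroup.card_eq_card_quotient_mul_card_subgroup V, mul_comm]
  have hex : ∀ p : {p : X × X // Commute p.1 p.2},
      ∃ q : X × X, Commute q.1 q.2 ∧ (q.1 : X ⧸ V) = (p.1.1 : X ⧸ V) ∧
        (q.2 : X ⧸ V) = (p.1.2 : X ⧸ V) := fun p => ⟨p.1, p.2, rfl, rfl⟩
  -- base points depending only on the images
  let base : (X ⧸ V) × (X ⧸ V) → X × X := fun ab =>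
    if h : ∃ q : X × X, Commute q.1 q.2 ∧ (q.1 : X ⧸ V) = ab.1 ∧ (q.2 : X ⧸ V) = ab.2
    then h.choose else (1, 1)
  have hbase : ∀ p : {p : X × X // Commute p.1 p.2},
      Commute (base ((p.1.1 : X ⧸ V), (p.1.2 : X ⧸ V))).1 (base ((p.1.1 : X ⧸ V), (p.1.2 : X ⧸ V))).2 ∧
      ((base ((p.1.1 : X ⧸ V), (p.1.2 : X ⧸ V))).1 : X ⧸ V) = (p.1.1 : X ⧸ V) ∧
      ((base ((p.1.1 : X ⧸ V), (p.1.2 : X ⧸ V))).2 : X ⧸ V) = (p.1.2 : X ⧸ V) := by
    intro p
    have h : ∃ q : X × X, Commute q.1 q.2 ∧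
        (q.1 : X ⧸ V) = ((p.1.1 : X ⧸ V), (p.1.2 : X ⧸ V)).1 ∧
        (q.2 : X ⧸ V) = ((p.1.1 : X ⧸ V), (p.1.2 : X ⧸ V)).2 := hex p
    have hb : base ((p.1.1 : X ⧸ V), (p.1.2 : X ⧸ V)) = h.choose := dif_pos h
    rw [hb]
    exact h.choose_spec
  have hmemV : ∀ x y : X, (y : X ⧸ V) = (x : X ⧸ V) → x * y⁻¹ ∈ V := by
    intro x y hxy
    have h3 : y⁻¹ * x ∈ V := QuotientGroup.eq.1 hxy
    have h4 := (inferInstance : V.Normal).conj_mem _ h3 y
    have e : y * (y⁻¹ * x) * y⁻¹ = x * y⁻¹ := by group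
    rwa [e] at h4
  have haux : ∀ (x y x0 y0 : X), (x0 : X ⧸ V) = (x : X ⧸ V) → (y0 : X ⧸ V) = (y : X ⧸ V) →
      x * y = y * x → x0 * y0 = y0 * x0 → ∀ (hv : x * x0⁻¹ ∈ V) (hw : y * y0⁻¹ ∈ V),
      Commute (⟨⟨x * x0⁻¹, hv⟩, (x : X ⧸ V)⟩ : SemidirectProduct ↥V (X ⧸ V) φ)
        ⟨⟨y * y0⁻¹, hw⟩, (y : X ⧸ V)⟩ := by
    intro x y x0 y0 ha hb hp hc' hv hw
    show _ * _ = _ * _
    apply SemidirectProduct.ext
    · apply Subtype.ext
      simp only [SemidirectProduct.mul_left, Subgroup.coe_mul]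
      have ea : φ (x : X ⧸ V) = φ (x0 : X ⧸ V) := by rw [ha]
      have eb : φ (y : X ⧸ V) = φ (y0 : X ⧸ V) := by rw [hb]
      rw [ea, eb, hφ, hφ]
      show x * x0⁻¹ * (x0 * (y * y0⁻¹) * x0⁻¹) = y * y0⁻¹ * (y0 * (x * x0⁻¹) * y0⁻¹)
      have e1 : x * x0⁻¹ * (x0 * (y * y0⁻¹) * x0⁻¹) = (x * y) * (x0 * y0)⁻¹ := by
        group
      have e2 : y * y0⁻¹ * (y0 * (x * x0⁻¹) * y0⁻¹) = (y * x) * (y0 * x0)⁻¹ := by
        group
      rw [e1, e2, hp, hc']
    · simp only [SemidirectProduct.mul_right]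
      rw [← QuotientGroup.mk_mul, ← QuotientGroup.mk_mul, hp]
  have : Finite (SemidirectProduct ↥V (X ⧸ V) φ) :=
    Finite.of_equiv _ SemidirectProduct.equivProd.symm
  let f : {p : X × X // Commute p.1 p.2} →
      {q : SemidirectProduct ↥V (X ⧸ V) φ × SemidirectProduct ↥V (X ⧸ V) φ // Commute q.1 q.2} :=
    fun p => ⟨(⟨⟨p.1.1 * (base ((p.1.1 : X ⧸ V), (p.1.2 : X ⧸ V))).1⁻¹,
        hmemV _ _ (hbase p).2.1⟩, (p.1.1 : X ⧸ V)⟩,
      ⟨⟨p.1.2 * (base ((p.1.1 : X ⧸ V), (p.1.2 : X ⧸ V))).2⁻¹,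
        hmemV _ _ (hbase p).2.2⟩, (p.1.2 : X ⧸ V)⟩), by
      exact haux _ _ _ _ (hbase p).2.1 (hbase p).2.2 p.2.eq (hbase p).1.eq _ _⟩
  have hinj : Function.Injective f := by
    intro p q hpq
    have e := congrArg Subtype.val hpq
    have e1 := congrArg Prod.fst e
    have e2 := congrArg Prod.snd e
    have a1 : (p.1.1 : X ⧸ V) = (q.1.1 : X ⧸ V) := congrArg SemidirectProduct.right e1
    have a2 : (p.1.2 : X ⧸ V) = (q.1.2 : X ⧸ V) := congrArg SemidirectProduct.right e2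
    have b1 : p.1.1 * (base ((p.1.1 : X ⧸ V), (p.1.2 : X ⧸ V))).1⁻¹ =
        q.1.1 * (base ((q.1.1 : X ⧸ V), (q.1.2 : X ⧸ V))).1⁻¹ :=
      congrArg (fun s : SemidirectProduct ↥V (X ⧸ V) φ => (s.left : X)) e1
    have b2 : p.1.2 * (base ((p.1.1 : X ⧸ V), (p.1.2 : X ⧸ V))).2⁻¹ =
        q.1.2 * (base ((q.1.1 : X ⧸ V), (q.1.2 : X ⧸ V))).2⁻¹ :=
      congrArg (fun s : SemidirectProduct ↥V (X ⧸ V) φ => (s.left : X)) e2
    rw [a1, a2] at b1 b2
    apply Subtype.ext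
    exact Prod.ext (mul_right_cancel b1) (mul_right_cancel b2)
  have hle := Nat.card_le_card_of_injective f hinj
  rw [h1, h2, hcard] at hle
  exact Nat.le_of_mul_le_mul_right hle Nat.card_pos

end Cfsg.Agent.S4965
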