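import Mathlib
import Cfsg.Statements.S4967
import Cfsg.Agent.S2388
-- import your own Cfsg.Agent.* helpers here

set_option autoImplicit false
open Cfsg

namespace Cfsg.Agent.S4967

section helpers

theorem cyclic_of_irr {F H V : Type*} [Field F] [CommGroup H] [Finite H] [AddCommGroup V] [Module F V]
    [Nontrivial V] (ρ : Representation F H V) (hfaith : Function.Injective ρ)
    (hirr : ∀ U : Submodule F V, (∀ h : H, ∀ u ∈ U, ρ h u ∈ U) → U = ⊥ ∨ U = ⊤) : IsCyclic H := by
  have hcomm : ∀ a ∈ Set.range ρ, ∀ b ∈ Set.range ρ, a * b = b * a := by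
    rintro _ ⟨a, rfl⟩ _ ⟨b, rfl⟩
    rw [← map_mul, ← map_mul, mul_comm]
  letI : CommRing (Algebra.adjoin F (Set.range ρ)) := Algebra.adjoinCommRingOfComm F hcomm
  haveI : NoZeroDivisors (Algebra.adjoin F (Set.range ρ)) := ⟨by
    intro a b hab
    by_contra hcon
    push Not at hcon
    obtain ⟨ha, hb⟩ := hcon
    have hinv : ∀ h : H, ∀ u ∈ LinearMap.ker a.1, ρ h u ∈ LinearMap.ker a.1 := by
      intro h u hu
      rw [LinearMap.mem_ker] at hu ⊢
      have h1 : a * (⟨ρ h, Algebra.subset_adjoin ⟨h, rfl⟩⟩ : Algebra.adjoin F (Set.range ρ)) =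
        ⟨ρ h, Algebra.subset_adjoin ⟨h, rfl⟩⟩ * a := mul_comm _ _
      have h2 : a.1 * ρ h = ρ h * a.1 := congrArg Subtype.val h1
      have h3 := LinearMap.congr_fun h2 u
      rw [Module.End.mul_apply, Module.End.mul_apply, hu, map_zero] at h3
      exact h3
    rcases hirr _ hinv with h | h
    · apply hb
      apply Subtype.ext
      apply LinearMap.ext
      intro x
      have h1 : a.1 * b.1 = 0 := congrArg Subtype.val hab
      have h2 : a.1 (b.1 x) = 0 := LinearMap.congr_fun h1 x
      have h3 : b.1 x ∈ LinearMap.ker a.1 := h2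
      rw [h] at h3
      exact h3
    · apply ha
      apply Subtype.ext
      exact LinearMap.ker_eq_top.1 h⟩
  haveI : IsDomain (Algebra.adjoin F (Set.range ρ)) := NoZeroDivisors.to_isDomain _
  let f : H →* Algebra.adjoin F (Set.range ρ) :=
    { toFun := fun h => ⟨ρ h, Algebra.subset_adjoin ⟨h, rfl⟩⟩
      map_one' := Subtype.ext (map_one ρ)
      map_mul' := fun a b => Subtype.ext (map_mul ρ a b) }
  exact isCyclic_of_subgroup_isDomain f (fun a b hab => hfaith (congrArg Subtype.val hab))

open Polynomial in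
/-- the finite field lemma -/
theorem ff_lemma {F K : Type*} [Field F] [Fintype F] [Field K] [Algebra F K] [Finite K] (α : K)
    (hα0 : α ≠ 0) (hgen : ∀ σ : K ≃ₐ[F] K, σ α = α → σ = 1)
    (hroot : aeval α⁻¹ (minpoly F α) = 0) :
    α ^ 2 = 1 ∨ (Even (Module.finrank F K) ∧ α ^ (Fintype.card F ^ (Module.finrank F K / 2) + 1) = 1) := by
  haveI : Algebra.IsAlgebraic F K := Algebra.IsAlgebraic.of_finite F K
  haveI : Normal F K := inferInstance
  obtain ⟨σ, hσ⟩ := minpoly.exists_algEquiv_of_root' (Algebra.IsAlgebraic.isAlgebraic (R := F) α) hroot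
  obtain ⟨⟨j, hjlt⟩, hj⟩ := (FiniteField.bijective_frobeniusAlgEquivOfAlgebraic_pow F K).2 σ
  have hj' : FiniteField.frobeniusAlgEquivOfAlgebraic F K ^ (j : ℕ) = σ := hj
  have hpow : ∀ (k : ℕ) (x : K), (FiniteField.frobeniusAlgEquivOfAlgebraic F K ^ k) x =
      x ^ (Fintype.card F ^ k) := by
    intro k x
    rw [AlgEquiv.coe_pow, FiniteField.coe_frobeniusAlgEquivOfAlgebraic_iterate]
  have h1 : α ^ (Fintype.card F ^ (j : ℕ)) = α⁻¹ := by rw [← hpow, hj', hσ]
  have h2 : σ ^ 2 = 1 := by
    apply hgen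
    rw [pow_two, AlgEquiv.mul_apply, hσ, map_inv₀, hσ, inv_inv]
  have h3 : Module.finrank F K ∣ (j : ℕ) * 2 := by
    have h4 : orderOf (FiniteField.frobeniusAlgEquivOfAlgebraic F K) ∣ j * 2 := by
      apply orderOf_dvd_of_pow_eq_one
      rw [pow_mul, hj', h2]
    rwa [FiniteField.orderOf_frobeniusAlgEquivOfAlgebraic F K] at h4
  obtain ⟨c, hc⟩ := h3
  have hc2 : c = 0 ∨ c = 1 := by
    rcases Nat.lt_or_ge c 2 with h | h
    · omega
    · exfalso
      have : Module.finrank F K * 2 ≤ Module.finrank F K * c := Nat.mul_le_mul_left _ h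
      omega
  rcases hc2 with rfl | rfl
  · left
    have hj0 : (j : ℕ) = 0 := by omega
    rw [hj0, pow_zero, pow_one] at h1
    rw [pow_two]
    nth_rewrite 1 [h1]
    exact inv_mul_cancel₀ hα0
  · right
    rw [mul_one] at hc
    refine ⟨⟨j, by omega⟩, ?_⟩
    rw [show Module.finrank F K / 2 = (j : ℕ) by omega, pow_succ, h1]
    exact inv_mul_cancel₀ hα0

section op
open Polynomial
variable {F V : Type*} [Field F] [AddCommGroup V] [Module F V]

theorem adj_aeval (B : LinearMap.BilinForm F V) (T T' : Module.End F V) (hTT' : T * T' = 1)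
    (hB : ∀ x y, B (T x) (T y) = B x y) (P : F[X]) (x y : V) :
    B (aeval T P x) y = B x (aeval T' P y) := by
  have h1 : ∀ x z, B (T x) z = B x (T' z) := by
    intro x z
    have : T (T' z) = z := LinearMap.congr_fun hTT' z
    rw [← hB x (T' z), this]
  induction P using Polynomial.induction_on generalizing x y with
  | C a => simp [Algebra.algebraMap_eq_smul_one]
  | add p q hp hq =>
    simp only [map_add, LinearMap.add_apply]
    rw [hp, hq]
  | monomial n a ih =>
    have e1 : aeval T (C a * X ^ (n + 1)) = aeval T (C a * X ^ n) * T := by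
      rw [pow_succ, ← mul_assoc, map_mul, aeval_X]
    have e2 : aeval T' (C a * X ^ (n + 1)) = aeval T' (C a * X ^ n) * T' := by
      rw [pow_succ, ← mul_assoc, map_mul, aeval_X]
    rw [e1, e2, Module.End.mul_apply, ih, h1, Module.End.mul_apply, Cfsg.Agent.S2388.aeval_comm]

theorem aeval_dualMap (S : Module.End F V) (P : F[X]) (φ : Module.Dual F V) (x : V) :
    (aeval (S.dualMap : Module.End F (Module.Dual F V)) P φ) x = φ (aeval S P x) := by
  induction P using Polynomial.induction_on generalizing φ x with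
  | C a => simp [Algebra.algebraMap_eq_smul_one]
  | add p q hp hq =>
    simp only [map_add, LinearMap.add_apply]
    rw [hp, hq]
  | monomial n a ih =>
    have e1 : aeval S (C a * X ^ (n + 1)) = aeval S (C a * X ^ n) * S := by
      rw [pow_succ, ← mul_assoc, map_mul, aeval_X]
    have e2 : aeval (S.dualMap : Module.End F (Module.Dual F V)) (C a * X ^ (n + 1)) =
        aeval (S.dualMap : Module.End F (Module.Dual F V)) (C a * X ^ n) * S.dualMap := by
      rw [pow_succ, ← mul_assoc, map_mul, aeval_X]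
    rw [e1, e2, Module.End.mul_apply, ih, Module.End.mul_apply, Cfsg.Agent.S2388.aeval_comm]
    rfl

theorem irr_dual [FiniteDimensional F V] (S : Module.End F V) (hS : Cfsg.Agent.S2388.Irr S) :
    Cfsg.Agent.S2388.Irr (S.dualMap : Module.End F (Module.Dual F V)) := by
  intro W hW
  have h1 : ∀ u ∈ W.dualCoannihilator, S u ∈ W.dualCoannihilator := by
    intro u hu
    rw [Submodule.mem_dualCoannihilator] at hu ⊢
    intro φ hφ
    exact hu _ (hW φ hφ)
  rcases hS _ h1 with h | h
  · right
    rw [← Subspace.dualCoannihilator_dualAnnihilator_eq (W := W), h, Submodule.dualAnnihilator_bot]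
  · left
    rw [← Subspace.dualCoannihilator_dualAnnihilator_eq (W := W), h, Submodule.dualAnnihilator_top]

theorem aeval_pow_card [Fintype F] (T : Module.End F V) (P : F[X]) (m : ℕ) :
    aeval (T ^ (Fintype.card F ^ m)) P = (aeval T P) ^ (Fintype.card F ^ m) := by
  induction m with
  | zero => simp
  | succ m ih =>
    rw [pow_succ, pow_mul, ← Polynomial.expand_aeval, FiniteField.expand_card, map_pow, ih, ← pow_mul]

theorem op_backward [Fintype F] [FiniteDimensional F V] [Nontrivial V] (T T' : Module.End F V)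
    (hT : Cfsg.Agent.S2388.Irr T) (hT' : Cfsg.Agent.S2388.Irr T') (hTT' : T * T' = 1)
    (hT'T : T' * T = 1) (m : ℕ) (hm : T ^ (Fintype.card F ^ m + 1) = 1) :
    ∃ B : LinearMap.BilinForm F V, B.Nondegenerate ∧ ∀ x y, B (T x) (T y) = B x y := by
  have h1 : T' = T ^ (Fintype.card F ^ m) := by
    calc T' = T ^ (Fintype.card F ^ m + 1) * T' := by rw [hm, one_mul]
      _ = T ^ (Fintype.card F ^ m) := by rw [pow_succ, mul_assoc, hTT', mul_one]
  have hirr := Cfsg.Agent.S2388.irr_minpoly_irreducible hT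
  have hmon : (minpoly F T).Monic := minpoly.monic (Algebra.IsIntegral.isIntegral _)
  have h2 : aeval T' (minpoly F T) = 0 := by
    rw [h1, aeval_pow_card, minpoly.aeval, zero_pow (by positivity)]
  have h3 : aeval (T'.dualMap : Module.End F (Module.Dual F V)) (minpoly F T) = 0 := by
    apply LinearMap.ext
    intro φ
    apply LinearMap.ext
    intro x
    rw [aeval_dualMap, h2]
    simp
  have h4 : minpoly F T = minpoly F (T'.dualMap : Module.End F (Module.Dual F V)) :=
    minpoly.eq_of_irreducible_of_monic hirr h3 hmon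
  obtain ⟨e, he⟩ := Cfsg.Agent.S2388.irr_iso hT (irr_dual T' hT') h4
  refine ⟨(e : V →ₗ[F] Module.Dual F V), ⟨?_, ?_⟩, ?_⟩
  · intro x hx
    apply e.injective
    rw [map_zero]
    exact LinearMap.ext hx
  · intro y hy
    rw [← Module.forall_dual_apply_eq_zero_iff F y]
    intro φ
    obtain ⟨x, rfl⟩ := e.surjective φ
    exact hy x
  · intro x y
    show e (T x) (T y) = e x y
    rw [he]
    show e x (T' (T y)) = e x y
    have : T' (T y) = y := LinearMap.congr_fun hT'T y
    rw [this]

theorem op_forward [Fintype F] [FiniteDimensional F V] [Nontrivial V] (T T' : Module.End F V)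
    (hT : Cfsg.Agent.S2388.Irr T) (hTT' : T * T' = 1) (hT'T : T' * T = 1) (d : ℕ) (hd : 0 < d)
    (hTd : T ^ d = 1) (B : LinearMap.BilinForm F V) (hBn : B.Nondegenerate)
    (hB : ∀ x y, B (T x) (T y) = B x y) :
    T ^ 2 = 1 ∨ (Even (Module.finrank F V) ∧
      T ^ (Fintype.card F ^ (Module.finrank F V / 2) + 1) = 1) := by
  obtain ⟨μ, hμ⟩ : ∃ μ, μ = minpoly F T := ⟨_, rfl⟩
  have hirr : Irreducible μ := hμ ▸ Cfsg.Agent.S2388.irr_minpoly_irreducible hT
  have hmon : μ.Monic := hμ ▸ minpoly.monic (Algebra.IsIntegral.isIntegral _)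
  have hdeg : μ.natDegree = Module.finrank F V := by
    rw [hμ, ← Cfsg.Agent.S2388.irr_charpoly hT, LinearMap.charpoly_natDegree]
  have hT'd : T' = T ^ (d - 1) := by
    calc T' = T' * T ^ (d - 1 + 1) := by rw [Nat.sub_add_cancel hd, hTd, mul_one]
      _ = T ^ (d - 1) := by rw [pow_succ', ← mul_assoc, hT'T, one_mul]
  have hD2 : aeval T' μ = 0 := by
    apply LinearMap.ext
    intro y
    apply hBn.2
    intro x
    rw [← adj_aeval B T T' hTT' hB, hμ, minpoly.aeval]
    simp
  haveI : Fact (Irreducible μ) := ⟨hirr⟩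
  have htr : ∀ P : F[X], aeval T P = 0 ↔ aeval (AdjoinRoot.root μ) P = 0 := by
    intro P
    rw [← minpoly.dvd_iff, ← hμ, AdjoinRoot.aeval_eq, AdjoinRoot.mk_eq_zero]
  have htr1 : ∀ k : ℕ, T ^ k = 1 ↔ (AdjoinRoot.root μ) ^ k = 1 := by
    intro k
    have := htr (X ^ k - 1)
    simpa [sub_eq_zero] using this
  haveI : FiniteDimensional F (AdjoinRoot μ) := (AdjoinRoot.powerBasis hirr.ne_zero).finite
  haveI : Finite (AdjoinRoot μ) := Module.finite_of_finite F
  have hfr : Module.finrank F (AdjoinRoot μ) = Module.finrank F V := by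
    rw [(AdjoinRoot.powerBasis hirr.ne_zero).finrank, AdjoinRoot.powerBasis_dim, hdeg]
  have hαd : (AdjoinRoot.root μ) ^ d = 1 := (htr1 d).1 hTd
  have hα0 : AdjoinRoot.root μ ≠ 0 := by
    intro h
    rw [h, zero_pow hd.ne'] at hαd
    exact zero_ne_one hαd
  have hαinv : (AdjoinRoot.root μ)⁻¹ = (AdjoinRoot.root μ) ^ (d - 1) := by
    rw [inv_eq_iff_eq_inv, eq_comm, inv_eq_of_mul_eq_one_left]
    rw [← pow_succ', Nat.sub_add_cancel hd, hαd]
  have hmin : minpoly F (AdjoinRoot.root μ) = μ := by
    rw [AdjoinRoot.minpoly_root hirr.ne_zero, hmon.leadingCoeff]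
    simp
  have hroot : aeval (AdjoinRoot.root μ)⁻¹ (minpoly F (AdjoinRoot.root μ)) = 0 := by
    rw [hmin, hαinv, ← Polynomial.expand_aeval, ← htr, Polynomial.expand_aeval, ← hT'd, hD2]
  have hgen : ∀ σ : AdjoinRoot μ ≃ₐ[F] AdjoinRoot μ, σ (AdjoinRoot.root μ) = AdjoinRoot.root μ →
      σ = 1 := by
    intro σ hσ
    have h1 : (σ : AdjoinRoot μ →ₐ[F] AdjoinRoot μ) = AlgHom.id F _ :=
      AdjoinRoot.algHom_ext (by simpa using hσ)
    apply AlgEquiv.ext
    intro x
    exact DFunLike.congr_fun h1 x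
  rcases ff_lemma (F := F) (AdjoinRoot.root μ) hα0 hgen hroot with h | ⟨h1, h2⟩
  · left
    exact (htr1 2).2 h
  · right
    rw [hfr] at h1 h2
    exact ⟨h1, (htr1 _).2 h2⟩

end op

theorem setup {F H V : Type*} [Field F] [CommGroup H] [Finite H] [AddCommGroup V] [Module F V]
    [Nontrivial V] (ρ : Representation F H V) (hfaith : Function.Injective ρ)
    (hirr : ∀ U : Submodule F V, (∀ h : H, ∀ u ∈ U, ρ h u ∈ U) → U = ⊥ ∨ U = ⊤) :
    ∃ T T' : Module.End F V, Cfsg.Agent.S2388.Irr T ∧ Cfsg.Agent.S2388.Irr T' ∧ T * T' = 1 ∧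
      T' * T = 1 ∧ orderOf T = Nat.card H ∧
      ∀ B : LinearMap.BilinForm F V, (∀ (h : H) (x y : V), B (ρ h x) (ρ h y) = B x y) ↔
        ∀ x y, B (T x) (T y) = B x y := by
  haveI := cyclic_of_irr ρ hfaith hirr
  obtain ⟨h0, hh0⟩ := IsCyclic.exists_generator (α := H)
  have hpow : ∀ h : H, ∃ k : ℕ, h0 ^ k = h := by
    intro h
    have := hh0 h
    rw [← mem_powers_iff_mem_zpowers] at this
    exact this
  have hpow' : ∀ h : H, ∃ k : ℕ, h0⁻¹ ^ k = h := by
    intro h
    obtain ⟨k, hk⟩ := hpow h⁻¹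
    exact ⟨k, by rw [inv_pow, hk, inv_inv]⟩
  refine ⟨ρ h0, ρ h0⁻¹, ?_, ?_, by rw [← map_mul, mul_inv_cancel, map_one],
    by rw [← map_mul, inv_mul_cancel, map_one], ?_, ?_⟩
  · intro U hU
    apply hirr
    intro h u hu
    obtain ⟨k, rfl⟩ := hpow h
    rw [map_pow]
    exact Module.End.pow_apply_mem_of_forall_mem k hU u hu
  · intro U hU
    apply hirr
    intro h u hu
    obtain ⟨k, rfl⟩ := hpow' h
    rw [map_pow]
    exact Module.End.pow_apply_mem_of_forall_mem k hU u hu
  · rw [orderOf_injective ρ hfaith h0, orderOf_eq_card_of_forall_mem_zpowers hh0]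
  · intro B
    constructor
    · intro h x y
      exact h h0 x y
    · intro hB h
      obtain ⟨k, rfl⟩ := hpow h
      rw [map_pow]
      induction k with
      | zero => intro x y; simp
      | succ k ih =>
        intro x y
        rw [pow_succ, Module.End.mul_apply, Module.End.mul_apply, ih, hB]

end helpers

/-- Let F be a finite field with r elements and of characteristic p, H a finite abelian group of order prime to p, and V a faithful irreducible representation of H over F of dimension n (faithful: distinct elements act differently; irreducible: the only H-invariant subspaces are 0 and V). Call V self-dual when it carries a nondegenerate H-invariant bilinear form. If n = 1 and V is self-dual then H has order at most 2. If n ≥ 2 then V is self-dual if and only if n is even and the order of H divides r^(n/2) + 1. -/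
theorem result {F : Type*} [Field F] [Fintype F] (p : ℕ) [Fact p.Prime] [CharP F p] {H : Type*} [CommGroup H] [Finite H] (hcop : ¬ p ∣ Nat.card H) {V : Type*} [AddCommGroup V] [Module F V] [FiniteDimensional F V] (ρ : Representation F H V) (hfaith : Function.Injective ρ) (hirr : ∀ U : Submodule F V, (∀ h : H, ∀ u ∈ U, ρ h u ∈ U) → U = ⊥ ∨ U = ⊤) : (Module.finrank F V = 1 → (∃ B : LinearMap.BilinForm F V, B.Nondegenerate ∧ ∀ h : H, ∀ x y : V, B (ρ h x) (ρ h y) = B x y) → Nat.card H ≤ 2) ∧ (2 ≤ Module.finrank F V → ((∃ B : LinearMap.BilinForm F V, B.Nondegenerate ∧ ∀ h : H, ∀ x y : V, B (ρ h x) (ρ h y) = B x y) ↔ (Even (Module.finrank F V) ∧ Nat.card H ∣ Fintype.card F ^ (Module.finrank F V / 2) + 1))) := by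
  constructor
  · rintro hn ⟨B, hBn, hB⟩
    haveI : Nontrivial V := Module.nontrivial_of_finrank_pos (R := F) (by omega)
    obtain ⟨T, T', hT, hT', h1, h2, hord, hiff⟩ := setup ρ hfaith hirr
    have hd : 0 < Nat.card H := Nat.card_pos
    have hTd : T ^ Nat.card H = 1 := by rw [← hord]; exact pow_orderOf_eq_one T
    rcases op_forward T T' hT h1 h2 _ hd hTd B hBn ((hiff B).1 hB) with h | ⟨h, -⟩
    · have h3 := orderOf_dvd_of_pow_eq_one h
      rw [hord] at h3
      exact Nat.le_of_dvd (by norm_num) h3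
    · rw [hn] at h
      exact absurd h (by decide)
  · intro hn
    haveI : Nontrivial V := Module.nontrivial_of_finrank_pos (R := F) (by omega)
    obtain ⟨T, T', hT, hT', h1, h2, hord, hiff⟩ := setup ρ hfaith hirr
    have hd : 0 < Nat.card H := Nat.card_pos
    have hTd : T ^ Nat.card H = 1 := by rw [← hord]; exact pow_orderOf_eq_one T
    constructor
    · rintro ⟨B, hBn, hB⟩
      rcases op_forward T T' hT h1 h2 _ hd hTd B hBn ((hiff B).1 hB) with h | ⟨h, h'⟩
      · exfalso
        have hirrμ := Cfsg.Agent.S2388.irr_minpoly_irreducible hT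
        have hdeg : (minpoly F T).natDegree = Module.finrank F V := by
          rw [← Cfsg.Agent.S2388.irr_charpoly hT, LinearMap.charpoly_natDegree]
        have hdvd : minpoly F T ∣ (Polynomial.X - Polynomial.C 1) * (Polynomial.X + Polynomial.C 1) := by
          apply minpoly.dvd
          have h3 : ((Polynomial.X : Polynomial F) - Polynomial.C 1) * (Polynomial.X + Polynomial.C 1) =
              Polynomial.X ^ 2 - 1 := by
            rw [map_one]; ring
          rw [h3]
          simp [h]
        rcases hirrμ.prime.dvd_or_dvd hdvd with h3 | h3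
        · have h4 := Polynomial.natDegree_le_of_dvd h3 (Polynomial.X_sub_C_ne_zero 1)
          rw [Polynomial.natDegree_X_sub_C] at h4
          omega
        · have h4 := Polynomial.natDegree_le_of_dvd h3 (Polynomial.X_add_C_ne_zero 1)
          rw [Polynomial.natDegree_X_add_C] at h4
          omega
      · exact ⟨h, by rw [← hord]; exact orderOf_dvd_of_pow_eq_one h'⟩
    · rintro ⟨-, hdvd⟩
      have hm : T ^ (Fintype.card F ^ (Module.finrank F V / 2) + 1) = 1 := by
        rw [← hord] at hdvd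
        exact orderOf_dvd_iff_pow_eq_one.1 hdvd
      obtain ⟨B, hBn, hB⟩ := op_backward T T' hT hT' h1 h2 _ hm
      exact ⟨B, hBn, (hiff B).2 hB⟩

end Cfsg.Agent.S4967
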