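import Cfsg.Statements.S5015
import Cfsg.Agent.H25.RankOne

set_option autoImplicit false
open Cfsg

namespace Cfsg.Agent.S5015

open Cfsg.Agent.H25 in
/-- One half of the rank one condition in the two-transitive setting. -/
theorem cond {Y Ω : Type*} [Group Y] [MulAction Y Ω] (α : Ω) (A : Subgroup Y)
    (hA : A ≤ MulAction.stabilizer Y α)
    (hAn : ∀ y ∈ MulAction.stabilizer Y α, Cfsg.conjBy A y = A)
    (hreg : ∀ β γ : Ω, β ≠ α → γ ≠ α → ∃! a : Y, a ∈ A ∧ a • β = γ)
    (y : Y) (hy : y ∉ MulAction.stabilizer Y α) :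
    Cfsg.RankOneCondition A (Cfsg.conjBy A y) := by
  have hβ : y • α ≠ α := hy
  have L : ∀ g g' : Y, g • α = g' • α → conjBy A g = conjBy A g' := by
    intro g g' h
    have h1 : g'⁻¹ * g ∈ MulAction.stabilizer Y α := by
      rw [MulAction.mem_stabilizer_iff, mul_smul, h, inv_smul_smul]
    have h2 : g = g' * (g'⁻¹ * g) := by group
    rw [h2, conjBy_mul, hAn _ h1]
  intro a ha ha1
  -- a⁻¹ • β ≠ β
  have h1 : a⁻¹ • (y • α) ≠ y • α := by
    intro h
    obtain ⟨c, -, hc⟩ := hreg (y • α) (y • α) hβ hβ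
    have e1 := hc a⁻¹ ⟨A.inv_mem ha, h⟩
    have e2 := hc 1 ⟨A.one_mem, one_smul _ _⟩
    apply ha1
    rw [← inv_inj, e1, ← e2, inv_one]
  -- find a' ∈ A with  a' • (y⁻¹ • α) = y⁻¹ • a⁻¹ • y • α
  have h2 : y⁻¹ • α ≠ α := by
    intro h
    apply hβ
    rw [← h, smul_inv_smul, h]
  have h3 : y⁻¹ • a⁻¹ • y • α ≠ α := by
    intro h
    apply h1
    have := congrArg (fun x => y • x) h
    simpa only [smul_inv_smul] using this
  obtain ⟨a', ⟨ha', ha'2⟩, -⟩ := hreg _ _ h2 h3
  refine ⟨(y * a' * y⁻¹)⁻¹, inv_mem (conj_mem_conjBy ha' y), ?_, ?_⟩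
  · intro h
    rw [inv_eq_one] at h
    have : a' = 1 := by
      have : a' = y⁻¹ * (y * a' * y⁻¹) * y := by group
      rw [this, h]; group
    rw [this, one_smul] at ha'2
    have h4 := congrArg (fun x => y • x) ha'2
    simp only [smul_inv_smul] at h4
    have h5 : a • α = α := hA ha
    apply hβ
    have h6 := congrArg (fun x => a • x) h4
    simp only [smul_inv_smul] at h6
    rw [← h6, h5]
  · rw [inv_inv, conjBy_conjBy]
    apply L
    rw [mul_smul, mul_smul, mul_smul, ha'2, smul_inv_smul]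

/-- Let a group Y act doubly transitively on a set Ω with at least three points, and suppose that the stabilizer of a point α contains a nilpotent subgroup A, normalized by that stabilizer, which acts regularly on the points other than α. Then for any y in Y moving α, the subgroups A and y A y⁻¹ are the unipotent subgroups of a rank one group, and the normal closure of A in Y (the subgroup generated by all conjugates of A) is generated by A and y A y⁻¹ alone. -/
theorem result {Y Ω : Type*} [Group Y] [MulAction Y Ω]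
    (h2 : MulAction.IsMultiplyPretransitive Y Ω 2) (hΩ : 3 ≤ ENat.card Ω) (α : Ω) (A : Subgroup Y)
    (hA : A ≤ MulAction.stabilizer Y α) (hAn : ∀ y ∈ MulAction.stabilizer Y α, Cfsg.conjBy A y = A)
    (hnil : Group.IsNilpotent A) (hreg : ∀ β γ : Ω, β ≠ α → γ ≠ α → ∃! a : Y, a ∈ A ∧ a • β = γ)
    (y : Y) (hy : y ∉ MulAction.stabilizer Y α) :
    Cfsg.IsRankOnePair A (Cfsg.conjBy A y) ∧ Subgroup.normalClosure (A : Set Y) = A ⊔ Cfsg.conjBy A y := by
  have hβ : y • α ≠ α := hy
  have hB_le : conjBy A y ≤ MulAction.stabilizer Y (y • α) := by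
    rintro _ ⟨a, ha, rfl⟩
    simp only [MulEquiv.coe_toMonoidHom, MulAut.conj_apply]
    rw [MulAction.mem_stabilizer_iff, mul_smul, mul_smul, inv_smul_smul]
    congr 1
    exact hA ha
  have hBn : ∀ z ∈ MulAction.stabilizer Y (y • α), conjBy (conjBy A y) z = conjBy A y := by
    intro z hz
    have h1 : y⁻¹ * z * y ∈ MulAction.stabilizer Y α := by
      rw [MulAction.mem_stabilizer_iff] at hz ⊢
      rw [mul_smul, mul_smul, hz, inv_smul_smul]
    have h2 : z * y = y * (y⁻¹ * z * y) := by group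
    rw [H25.conjBy_conjBy, h2, H25.conjBy_mul, hAn _ h1]
  have hBreg : ∀ β γ : Ω, β ≠ y • α → γ ≠ y • α → ∃! b : Y, b ∈ conjBy A y ∧ b • β = γ := by
    intro β γ hβ' hγ'
    have h1 : y⁻¹ • β ≠ α := fun h => hβ' (by rw [← h, smul_inv_smul])
    have h2 : y⁻¹ • γ ≠ α := fun h => hγ' (by rw [← h, smul_inv_smul])
    obtain ⟨a, ⟨ha, ha2⟩, hu⟩ := hreg _ _ h1 h2
    refine ⟨y * a * y⁻¹, ⟨H25.conj_mem_conjBy ha y, ?_⟩, ?_⟩
    · rw [mul_smul, mul_smul, ha2, smul_inv_smul]
    · rintro b ⟨hb, hb2⟩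
      rw [H25.mem_conjBy] at hb
      have := hu _ ⟨hb, by rw [mul_smul, mul_smul, smul_inv_smul, hb2]⟩
      rw [← this]; group
  have hyinv : y⁻¹ ∉ MulAction.stabilizer Y (y • α) := by
    intro h
    rw [MulAction.mem_stabilizer_iff, inv_smul_smul] at h
    exact hβ h.symm
  have hc1 := cond α A hA hAn hreg y hy
  have hc2 := cond (y • α) (conjBy A y) hB_le hBn hBreg y⁻¹ hyinv
  rw [H25.conjBy_inv_conjBy] at hc2
  -- a third point
  obtain ⟨γ, hγ1, hγ2⟩ : ∃ γ : Ω, γ ≠ α ∧ γ ≠ y • α := by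
    by_contra hcon
    push Not at hcon
    have h1 : (Set.univ : Set Ω) ⊆ {α, y • α} := by
      intro γ _
      by_cases h : γ = α
      · left; exact h
      · right; exact hcon γ h
    have h2 : ENat.card Ω ≤ 2 := by
      rw [← Set.encard_univ]
      exact (Set.encard_le_encard h1).trans (Set.encard_pair hβ.symm).le
    have h3 : (3 : ℕ∞) ≤ 2 := hΩ.trans h2
    exact absurd h3 (by decide)
  have hne : A ≠ conjBy A y := by
    intro h
    obtain ⟨b, ⟨hb, hb2⟩, -⟩ := hBreg α γ hβ.symm hγ2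
    rw [← h] at hb
    have : b • α = α := hA hb
    exact hγ1 (hb2.symm.trans this)
  have hnilB : Group.IsNilpotent ↥(conjBy A y) :=
    Group.nilpotent_of_mulEquiv (A.equivMapOfInjective _ (MulAut.conj y).injective)
  refine ⟨⟨hne, hnil, hnilB, hc1, hc2⟩, ?_⟩
  apply le_antisymm
  · rw [Subgroup.normalClosure, Subgroup.closure_le]
    intro x hx
    rw [Group.mem_conjugatesOfSet_iff] at hx
    obtain ⟨a, ha, hax⟩ := hx
    rw [isConj_iff] at hax
    obtain ⟨g, rfl⟩ := hax
    have hmem : g * a * g⁻¹ ∈ conjBy A g := H25.conj_mem_conjBy ha g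
    by_cases hg : g • α = α
    · rw [hAn g hg] at hmem
      exact Subgroup.mem_sup_left hmem
    · obtain ⟨c, ⟨hc, hc2⟩, -⟩ := hreg _ _ hβ hg
      have h1 : (c * y)⁻¹ * g ∈ MulAction.stabilizer Y α := by
        rw [MulAction.mem_stabilizer_iff, mul_smul, ← hc2, ← mul_smul c y, inv_smul_smul]
      have h2 : g = c * y * ((c * y)⁻¹ * g) := by group
      have h3 : conjBy A g = conjBy (conjBy A y) c := by
        rw [h2, H25.conjBy_mul, hAn _ h1, H25.conjBy_mul]
      rw [h3] at hmem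
      exact H25.conjBy_le_of_mem le_sup_right (Subgroup.mem_sup_left hc) hmem
  · refine sup_le Subgroup.le_normalClosure ?_
    rintro _ ⟨a, ha, rfl⟩
    simp only [MulEquiv.coe_toMonoidHom, MulAut.conj_apply]
    exact Subgroup.normalClosure_normal.conj_mem _ (Subgroup.le_normalClosure ha) _

end Cfsg.Agent.S5015
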