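import Cfsg.Statements.S5016
import Cfsg.Agent.H25.RankOne

set_option autoImplicit false
open Cfsg

namespace Cfsg.Agent.S5016

open Matrix in
/-- lower unitriangular matrix -/
def Lm {k : Type*} [Field k] (t : k) : Matrix.SpecialLinearGroup (Fin 2) k :=
  ⟨!![1, 0; t, 1], by simp [Matrix.det_fin_two]⟩

open Matrix in
/-- upper unitriangular matrix -/
def Um {k : Type*} [Field k] (t : k) : Matrix.SpecialLinearGroup (Fin 2) k :=
  ⟨!![1, t; 0, 1], by simp [Matrix.det_fin_two]⟩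

section
variable {k : Type*} [Field k]

theorem sl2_ext {g h : Matrix.SpecialLinearGroup (Fin 2) k}
    (h00 : g.1 0 0 = h.1 0 0) (h01 : g.1 0 1 = h.1 0 1) (h10 : g.1 1 0 = h.1 1 0)
    (h11 : g.1 1 1 = h.1 1 1) : g = h := by
  apply Subtype.ext
  ext i j
  fin_cases i <;> fin_cases j <;> assumption

open Matrix in
theorem Lm_coe (t : k) : (Lm t : Matrix (Fin 2) (Fin 2) k) = !![1, 0; t, 1] := rfl

open Matrix in
theorem Um_coe (t : k) : (Um t : Matrix (Fin 2) (Fin 2) k) = !![1, t; 0, 1] := rfl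

theorem Lm_mul (s t : k) : Lm s * Lm t = Lm (s + t) := by
  apply sl2_ext <;> simp [Lm_coe, Matrix.mul_apply, Fin.sum_univ_two]

theorem Um_mul (s t : k) : Um s * Um t = Um (s + t) := by
  apply sl2_ext <;> simp [Um_coe, Matrix.mul_apply, Fin.sum_univ_two, add_comm]

theorem Lm_zero : Lm (0 : k) = 1 := by
  apply sl2_ext <;> simp [Lm]

theorem Um_zero : Um (0 : k) = 1 := by
  apply sl2_ext <;> simp [Um]

theorem Lm_inv (t : k) : (Lm t)⁻¹ = Lm (-t) := by
  rw [inv_eq_iff_mul_eq_one, Lm_mul, add_neg_cancel, Lm_zero]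

theorem Um_inv (t : k) : (Um t)⁻¹ = Um (-t) := by
  rw [inv_eq_iff_mul_eq_one, Um_mul, add_neg_cancel, Um_zero]

theorem Lm_injective : Function.Injective (Lm : k → _) := by
  intro s t h
  have := congrArg (fun g : Matrix.SpecialLinearGroup (Fin 2) k => g.1 1 0) h
  simpa [Lm] using this

theorem Um_injective : Function.Injective (Um : k → _) := by
  intro s t h
  have := congrArg (fun g : Matrix.SpecialLinearGroup (Fin 2) k => g.1 0 1) h
  simpa [Um] using this

theorem mem_lower {g : Matrix.SpecialLinearGroup (Fin 2) k} :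
    g ∈ lowerUnipotentSL2 k ↔ ∃ t, g = Lm t := by
  constructor
  · intro hg
    unfold lowerUnipotentSL2 at hg
    induction hg using Subgroup.closure_induction with
    | mem x hx =>
      obtain ⟨h1, h2, h3⟩ := hx
      exact ⟨x.1 1 0, by apply sl2_ext <;> simp [Lm, h1, h2, h3]⟩
    | one => exact ⟨0, Lm_zero.symm⟩
    | mul x y _ _ hx hy =>
      obtain ⟨s, rfl⟩ := hx
      obtain ⟨t, rfl⟩ := hy
      exact ⟨s + t, Lm_mul s t⟩
    | inv x _ hx =>
      obtain ⟨s, rfl⟩ := hx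
      exact ⟨-s, Lm_inv s⟩
  · rintro ⟨t, rfl⟩
    apply Subgroup.subset_closure
    simp [Lm_coe]

theorem mem_upper {g : Matrix.SpecialLinearGroup (Fin 2) k} :
    g ∈ upperUnipotentSL2 k ↔ ∃ t, g = Um t := by
  constructor
  · intro hg
    unfold upperUnipotentSL2 at hg
    induction hg using Subgroup.closure_induction with
    | mem x hx =>
      obtain ⟨h1, h2, h3⟩ := hx
      exact ⟨x.1 0 1, by apply sl2_ext <;> simp [Um, h1, h2, h3]⟩
    | one => exact ⟨0, Um_zero.symm⟩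
    | mul x y _ _ hx hy =>
      obtain ⟨s, rfl⟩ := hx
      obtain ⟨t, rfl⟩ := hy
      exact ⟨s + t, Um_mul s t⟩
    | inv x _ hx =>
      obtain ⟨s, rfl⟩ := hx
      exact ⟨-s, Um_inv s⟩
  · rintro ⟨t, rfl⟩
    apply Subgroup.subset_closure
    simp [Um_coe]

/-- key conjugation formula -/
theorem conj_formula {t : k} (ht : t ≠ 0) (x : k) :
    (Lm t * Um (-t⁻¹)) * Lm x * (Lm t * Um (-t⁻¹))⁻¹ = Um (-x / t ^ 2) := by
  rw [mul_inv_rev, Lm_inv, Um_inv]
  apply sl2_ext <;> simp [Lm_coe, Um_coe, Matrix.mul_apply, Fin.sum_univ_two] <;> field_simp <;> ring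

theorem conj_formula' {t : k} (ht : t ≠ 0) (x : k) :
    (Lm t * Um (-t⁻¹))⁻¹ * Um x * (Lm t * Um (-t⁻¹)) = Lm (-x * t ^ 2) := by
  rw [mul_inv_rev, Lm_inv, Um_inv]
  apply sl2_ext <;> simp [Lm_coe, Um_coe, Matrix.mul_apply, Fin.sum_univ_two] <;> field_simp <;> ring

open Cfsg.Agent.H25 in
theorem key {t : k} (ht : t ≠ 0) :
    conjBy (lowerUnipotentSL2 k) (Um t⁻¹)⁻¹ = conjBy (upperUnipotentSL2 k) (Lm t)⁻¹ := by
  rw [← conjBy_eq_iff, conjBy_conjBy, Um_inv]
  ext y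
  rw [mem_conjBy, mem_lower, mem_upper]
  constructor
  · rintro ⟨x, hx⟩
    refine ⟨-x / t ^ 2, ?_⟩
    rw [← conj_formula ht x, ← hx]
    group
  · rintro ⟨x, rfl⟩
    exact ⟨_, conj_formula' ht x⟩

theorem special_formula {t : k} (ht : t ≠ 0) :
    (Um t⁻¹)⁻¹ * Lm t * Um t⁻¹ = (Lm t)⁻¹ * (Um t⁻¹)⁻¹ * Lm t := by
  rw [Lm_inv, Um_inv]
  apply sl2_ext <;> simp [Lm_coe, Um_coe, Matrix.mul_apply, Fin.sum_univ_two, ht]
  ring

theorem gen_of_ne {g : Matrix.SpecialLinearGroup (Fin 2) k} (hc : g.1 1 0 ≠ 0) :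
    g = Um ((g.1 0 0 - 1) / g.1 1 0) * Lm (g.1 1 0) * Um ((g.1 1 1 - 1) / g.1 1 0) := by
  have hdet : g.1 0 0 * g.1 1 1 - g.1 0 1 * g.1 1 0 = 1 := by
    have := g.2
    rwa [Matrix.det_fin_two] at this
  apply sl2_ext <;> simp [Lm_coe, Um_coe, Matrix.mul_apply, Fin.sum_univ_two] <;> field_simp
  · ring
  · linear_combination (-1 : k) * hdet
  · ring

theorem gen_top : lowerUnipotentSL2 k ⊔ upperUnipotentSL2 k = ⊤ := by
  rw [eq_top_iff]
  have h1 : ∀ g : Matrix.SpecialLinearGroup (Fin 2) k, g.1 1 0 ≠ 0 →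
      g ∈ lowerUnipotentSL2 k ⊔ upperUnipotentSL2 k := by
    intro g hc
    rw [gen_of_ne hc]
    exact mul_mem (mul_mem (Subgroup.mem_sup_right (mem_upper.2 ⟨_, rfl⟩))
      (Subgroup.mem_sup_left (mem_lower.2 ⟨_, rfl⟩))) (Subgroup.mem_sup_right (mem_upper.2 ⟨_, rfl⟩))
  intro g _
  by_cases hc : g.1 1 0 = 0
  · have hdet : g.1 0 0 * g.1 1 1 - g.1 0 1 * g.1 1 0 = 1 := by
      have := g.2
      rwa [Matrix.det_fin_two] at this
    have ha : g.1 0 0 ≠ 0 := by
      intro h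
      rw [h, hc] at hdet
      simp at hdet
    have h2 : (Lm 1 * g).1 1 0 ≠ 0 := by
      have : (Lm 1 * g).1 1 0 = g.1 0 0 + g.1 1 0 := by
        simp [Lm_coe, Matrix.mul_apply, Fin.sum_univ_two]
      rw [this, hc, add_zero]
      exact ha
    have h3 := h1 _ h2
    have h4 : g = (Lm 1)⁻¹ * (Lm 1 * g) := by group
    rw [h4]
    exact mul_mem (inv_mem (Subgroup.mem_sup_left (mem_lower.2 ⟨_, rfl⟩))) h3
  · exact h1 g hc

end

/-- For any field k, the special linear group SL₂(k) is a special rank one group with abelian unipotent subgroups, the unipotent subgroups being the group of lower unitriangular matrices and the group of upper unitriangular matrices. -/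
theorem result (k : Type*) [Field k] :
    Cfsg.IsRankOneGroup (Matrix.SpecialLinearGroup (Fin 2) k) (Cfsg.lowerUnipotentSL2 k) (Cfsg.upperUnipotentSL2 k) ∧
    Cfsg.IsSpecialRankOnePair (Cfsg.lowerUnipotentSL2 k) (Cfsg.upperUnipotentSL2 k) ∧
    Cfsg.HasAbelianUnipotents (Cfsg.lowerUnipotentSL2 k) (Cfsg.upperUnipotentSL2 k) := by
  have hcommL : IsMulCommutative ↥(lowerUnipotentSL2 k) := by
    refine ⟨⟨?_⟩⟩
    rintro ⟨x, hx⟩ ⟨y, hy⟩
    obtain ⟨s, rfl⟩ := mem_lower.1 hx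
    obtain ⟨t, rfl⟩ := mem_lower.1 hy
    apply Subtype.ext
    show Lm s * Lm t = Lm t * Lm s
    rw [Lm_mul, Lm_mul, add_comm]
  have hcommU : IsMulCommutative ↥(upperUnipotentSL2 k) := by
    refine ⟨⟨?_⟩⟩
    rintro ⟨x, hx⟩ ⟨y, hy⟩
    obtain ⟨s, rfl⟩ := mem_upper.1 hx
    obtain ⟨t, rfl⟩ := mem_upper.1 hy
    apply Subtype.ext
    show Um s * Um t = Um t * Um s
    rw [Um_mul, Um_mul, add_comm]
  have hpair : IsRankOnePair (lowerUnipotentSL2 k) (upperUnipotentSL2 k) := by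
    refine ⟨?_, ?_, ?_, ?_, ?_⟩
    · intro h
      have h1 : Lm (1 : k) ∈ upperUnipotentSL2 k := by
        rw [← h]; exact mem_lower.2 ⟨_, rfl⟩
      obtain ⟨t, ht⟩ := mem_upper.1 h1
      have := congrArg (fun g : Matrix.SpecialLinearGroup (Fin 2) k => g.1 1 0) ht
      simp [Lm_coe, Um_coe] at this
    · let _ : CommGroup ↥(lowerUnipotentSL2 k) :=
        { (inferInstance : Group ↥(lowerUnipotentSL2 k)) with mul_comm := hcommL.is_comm.comm }
      infer_instance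
    · let _ : CommGroup ↥(upperUnipotentSL2 k) :=
        { (inferInstance : Group ↥(upperUnipotentSL2 k)) with mul_comm := hcommU.is_comm.comm }
      infer_instance
    · intro a ha ha1
      obtain ⟨t, rfl⟩ := mem_lower.1 ha
      have ht : t ≠ 0 := by
        rintro rfl; exact ha1 Lm_zero
      refine ⟨Um t⁻¹, mem_upper.2 ⟨_, rfl⟩, ?_, key ht⟩
      intro h
      rw [← Um_zero] at h
      exact inv_ne_zero ht (Um_injective h)
    · intro b hb hb1
      obtain ⟨s, rfl⟩ := mem_upper.1 hb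
      have hs : s ≠ 0 := by
        rintro rfl; exact hb1 Um_zero
      refine ⟨Lm s⁻¹, mem_lower.2 ⟨_, rfl⟩, ?_, ?_⟩
      · intro h
        rw [← Lm_zero] at h
        exact inv_ne_zero hs (Lm_injective h)
      · have := key (inv_ne_zero hs)
        rw [inv_inv] at this
        exact this.symm
  refine ⟨⟨gen_top, hpair⟩, ⟨hpair, ?_⟩, hcommL, hcommU⟩
  intro a ha ha1 b hb hb1 hab
  obtain ⟨t, rfl⟩ := mem_lower.1 ha
  have ht : t ≠ 0 := by
    rintro rfl; exact ha1 Lm_zero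
  have h1 := H25.RankOne.conjBy_right_inj (RankOnePair_symm hpair) (inv_mem hb)
    (inv_mem (mem_upper.2 ⟨t⁻¹, rfl⟩)) (hab.trans (key ht).symm)
  have h2 : b = Um t⁻¹ := inv_injective h1
  rw [h2]
  exact special_formula ht

end Cfsg.Agent.S5016
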