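import Cfsg.Statements.S5017
import Cfsg.Agent.H25.RankOne

set_option autoImplicit false
open Cfsg

namespace Cfsg.Agent.S5017

/-- Let X be a rank one group with unipotent subgroups A and B and N a normal subgroup of X. Then either X = N A or N lies in the centre of X. Consequently a perfect rank one group is quasisimple. -/
theorem result {X : Type*} [Group X] {A B : Subgroup X} (h : Cfsg.IsRankOneGroup X A B) :
    (∀ N : Subgroup X, N.Normal → N ⊔ A = ⊤ ∨ N ≤ Subgroup.center X) ∧
    (Group.IsPerfect X → Cfsg.IsQuasisimple X) := by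
  obtain ⟨htop, hp⟩ := h
  have dich : ∀ N : Subgroup X, N.Normal → N ⊔ A = ⊤ ∨ N ≤ Subgroup.center X := by
    intro N hN
    rcases H25.RankOne.normal_dichotomy hp (N := N) (by rw [htop]; exact le_top)
      (fun x _ n hn => hN.conj_mem n hn x) with h1 | h1
    · left; rw [h1, htop]
    · right
      intro n hn
      rw [Subgroup.mem_center_iff]
      intro x
      exact (h1 n hn x (by rw [htop]; trivial)).symm
  refine ⟨dich, fun hperf => ⟨hperf, ?_⟩⟩
  have hcne : Subgroup.center X ≠ ⊤ := by
    intro hc
    obtain ⟨a, ha, ha1⟩ := H25.RankOne.exists_ne_one hp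
    apply ha1
    apply H25.RankOne.eq_one_of_conjBy_eq hp ha
    ext x
    rw [H25.mem_conjBy]
    have : a ∈ Subgroup.center X := by rw [hc]; trivial
    rw [Subgroup.mem_center_iff] at this
    rw [mul_assoc, this x, inv_mul_cancel_left]
  have : Nontrivial (X ⧸ Subgroup.center X) := by
    rw [QuotientGroup.nontrivial_iff]
    exact hcne
  refine ⟨fun H hH => ?_⟩
  have hcomap : (H.comap (QuotientGroup.mk' (Subgroup.center X))).Normal := hH.comap _
  rcases dich _ hcomap with h1 | h1
  · right
    set N := H.comap (QuotientGroup.mk' (Subgroup.center X)) with hNdef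
    have := hcomap
    have := hp.nilpotent_left
    have hsurj : Function.Surjective ((QuotientGroup.mk' N).comp A.subtype) := by
      intro y
      obtain ⟨x, rfl⟩ := QuotientGroup.mk'_surjective N y
      have hx : x ∈ N ⊔ A := by rw [h1]; trivial
      rw [Subgroup.mem_sup_of_normal_left] at hx
      obtain ⟨n, hn, a, ha, rfl⟩ := hx
      refine ⟨⟨a, ha⟩, ?_⟩
      simp only [MonoidHom.coe_comp, Function.comp_apply, Subgroup.subtype_apply,
        QuotientGroup.mk'_apply]
      rw [QuotientGroup.eq]
      have := hcomap.conj_mem n hn a⁻¹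
      simpa [mul_assoc] using this
    have hnil : Group.IsNilpotent (X ⧸ N) := Group.nilpotent_of_surjective _ hsurj
    have hsub : Subsingleton (X ⧸ N) := by
      by_contra hns
      rw [not_subsingleton_iff_nontrivial] at hns
      exact Group.IsPerfect.not_isNilpotent (X ⧸ N) hnil
    have hNtop : N = ⊤ := by
      rwa [QuotientGroup.subsingleton_iff] at hsub
    rw [eq_top_iff]
    intro y _
    obtain ⟨x, rfl⟩ := QuotientGroup.mk'_surjective _ y
    have : x ∈ N := by rw [hNtop]; trivial
    exact this
  · left
    rw [eq_bot_iff]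
    intro y hy
    obtain ⟨x, rfl⟩ := QuotientGroup.mk'_surjective _ y
    have : x ∈ Subgroup.center X := h1 hy
    rw [Subgroup.mem_bot]
    exact (QuotientGroup.eq_one_iff x).2 this

end Cfsg.Agent.S5017
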