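import Cfsg.Statements.S5018
import Cfsg.Agent.H25.RankOne

set_option autoImplicit false
open Cfsg

namespace Cfsg.Agent.S5018

/-- A rank one group is not nilpotent, and its second centre equals its centre. -/
theorem result {X : Type*} [Group X] {A B : Subgroup X} (h : Cfsg.IsRankOneGroup X A B) :
    Subgroup.upperCentralSeries X 2 = Subgroup.center X ∧ ¬ Group.IsNilpotent X := by
  obtain ⟨htop, hp⟩ := h
  have hcne : Subgroup.center X ≠ ⊤ := by
    intro hc
    apply H25.RankOne.not_normal hp
    intro x _
    apply H25.conjBy_of_central
    intro c _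
    have : x ∈ Subgroup.center X := by rw [hc]; trivial
    rw [Subgroup.mem_center_iff] at this
    exact (this c).symm
  have h2 : Subgroup.upperCentralSeries X 2 = Subgroup.center X := by
    apply le_antisymm
    · have hnorm : (Subgroup.upperCentralSeries X 2).Normal := inferInstance
      rcases H25.RankOne.normal_dichotomy hp (N := Subgroup.upperCentralSeries X 2)
        (by rw [htop]; exact le_top) (fun x _ n hn => hnorm.conj_mem n hn x) with h1 | h1
      · exfalso
        rw [htop] at h1
        -- B ≤ Z ⊔ A
        have hconj : ∀ n ∈ Subgroup.upperCentralSeries X 2,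
            conjBy A n ≤ Subgroup.center X ⊔ A := by
          rintro n hn _ ⟨a, ha, rfl⟩
          simp only [MulEquiv.coe_toMonoidHom, MulAut.conj_apply]
          have h3 : n * a * n⁻¹ * a⁻¹ ∈ Subgroup.center X := by
            have := (Subgroup.mem_upperCentralSeries_succ_iff (n := 1)).1 hn a
            rwa [Subgroup.upperCentralSeries_one] at this
          have : n * a * n⁻¹ = (n * a * n⁻¹ * a⁻¹) * a := by group
          rw [this]
          exact mul_mem (Subgroup.mem_sup_left h3) (Subgroup.mem_sup_right ha)
        have hB : B ≤ Subgroup.center X ⊔ A := by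
          obtain ⟨x, -, hB⟩ := H25.RankOne.right_mem_unipotent hp
          have hx : x ∈ Subgroup.upperCentralSeries X 2 ⊔ A := by rw [h1]; trivial
          rw [Subgroup.mem_sup_of_normal_left] at hx
          obtain ⟨n, hn, a, ha, rfl⟩ := hx
          rw [H25.conjBy_mul, H25.conjBy_of_mem ha] at hB
          rw [hB]
          exact hconj n hn
        have hZA : Subgroup.center X ⊔ A = ⊤ := by
          rw [eq_top_iff, ← htop]
          exact sup_le le_sup_right hB
        apply H25.RankOne.not_normal hp
        intro x _
        have hx : x ∈ Subgroup.center X ⊔ A := by rw [hZA]; trivial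
        rw [Subgroup.mem_sup_of_normal_left] at hx
        obtain ⟨z, hz, a, ha, rfl⟩ := hx
        rw [H25.conjBy_mul, H25.conjBy_of_mem ha]
        apply H25.conjBy_of_central
        intro c _
        rw [Subgroup.mem_center_iff] at hz
        exact (hz c).symm
      · intro n hn
        rw [Subgroup.mem_center_iff]
        intro x
        exact (h1 n hn x (by rw [htop]; trivial)).symm
    · rw [← Subgroup.upperCentralSeries_one]
      exact Subgroup.upperCentralSeries_mono X (by norm_num)
  refine ⟨h2, fun hnil => hcne ?_⟩
  rw [← Subgroup.upperCentralSeries_one]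
  apply Subgroup.upperCentralSeries.eq_top (a := 1) (b := 2) (by norm_num)
  rw [h2, Subgroup.upperCentralSeries_one]

end Cfsg.Agent.S5018
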