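import Cfsg.Statements.S5023
import Cfsg.Agent.H25.RankOne2

set_option autoImplicit false
open Cfsg

namespace Cfsg.Agent.S5023

open Cfsg.Agent.H25

section aux

variable {X : Type*} [Group X] {V : Type*} [AddCommGroup V] [DistribMulAction X V]

theorem eq_of_smul_eq (hf : ∀ x : X, (∀ v : V, x • v = v) → x = 1) {x y : X}
    (h : ∀ v : V, x • v = y • v) : x = y := by
  have : y⁻¹ * x = 1 := hf _ (fun v => by rw [mul_smul, h v, inv_smul_smul])
  exact (inv_mul_eq_one.1 this).symm

theorem pow_smul_quad {A : Subgroup X}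
    (hq : ∀ a ∈ A, ∀ a' ∈ A, ∀ v : V, a' • (a • v - v) = a • v - v) {a : X} (ha : a ∈ A)
    (n : ℕ) (v : V) : a ^ n • v = v + n • (a • v - v) := by
  induction n with
  | zero => simp
  | succ n ih =>
    rw [pow_succ', mul_smul, ih, smul_add, smul_comm a n, hq a ha a ha v, succ_nsmul]
    abel

theorem quad_conj {A : Subgroup X}
    (hq : ∀ a ∈ A, ∀ a' ∈ A, ∀ v : V, a' • (a • v - v) = a • v - v) (x : X) :
    ∀ a ∈ conjBy A x, ∀ a' ∈ conjBy A x, ∀ v : V, a' • (a • v - v) = a • v - v := by
  rintro _ ⟨a, ha, rfl⟩ _ ⟨a', ha', rfl⟩ v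
  simp only [MulEquiv.coe_toMonoidHom, MulAut.conj_apply]
  have := hq a ha a' ha' (x⁻¹ • v)
  have e1 : (x * a * x⁻¹) • v - v = x • (a • (x⁻¹ • v) - x⁻¹ • v) := by
    rw [smul_sub, smul_inv_smul, mul_smul, mul_smul]
  rw [e1, mul_smul, mul_smul, inv_smul_smul, this]

end aux

/-- Let X be a rank one group with unipotent subgroups A and B that acts faithfully on an abelian group V (written additively) with A acting quadratically: a' • (a • v − v) = a • v − v for all a, a' in A and v in V. Then A is either torsion-free or an elementary abelian p-group for some prime p. -/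
theorem result {X : Type*} [Group X] {A B : Subgroup X} (h : Cfsg.IsRankOneGroup X A B)
    {V : Type*} [AddCommGroup V] [DistribMulAction X V] (hf : ∀ x : X, (∀ v : V, x • v = v) → x = 1)
    (hq : ∀ a ∈ A, ∀ a' ∈ A, ∀ v : V, a' • (a • v - v) = a • v - v) :
    (∀ a ∈ A, a ≠ 1 → ¬ IsOfFinOrder a) ∨ ∃ p : ℕ, p.Prime ∧ Cfsg.IsElementaryAbelian p A := by
  obtain ⟨-, hp⟩ := h
  by_cases htor : ∀ a ∈ A, a ≠ 1 → ¬ IsOfFinOrder a
  · left; exact htor
  · right
    push Not at htor
    obtain ⟨a₀, ha₀, ha₀1, hfin⟩ := htor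
    have hn0 : orderOf a₀ ≠ 0 := (orderOf_pos_iff.2 hfin).ne'
    have hn1 : orderOf a₀ ≠ 1 := fun e => ha₀1 (orderOf_eq_one_iff.1 e)
    obtain ⟨p, hpdef⟩ : ∃ p, p = (orderOf a₀).minFac := ⟨_, rfl⟩
    have hpp : p.Prime := by rw [hpdef]; exact Nat.minFac_prime hn1
    obtain ⟨a, hadef⟩ : ∃ a, a = a₀ ^ (orderOf a₀ / p) := ⟨_, rfl⟩
    have hord : orderOf a = p := by
      rw [hadef]
      exact orderOf_pow_orderOf_div hn0 (by rw [hpdef]; exact Nat.minFac_dvd _)
    have ha : a ∈ A := by rw [hadef]; exact A.pow_mem ha₀ _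
    have ha1 : a ≠ 1 := by
      intro e
      rw [e, orderOf_one] at hord
      exact hpp.one_lt.ne hord
    have hap : a ^ p = 1 := by rw [← hord]; exact pow_orderOf_eq_one a
    have hδ : ∀ v : V, p • (a • v - v) = 0 := by
      intro v
      have := pow_smul_quad hq ha p v
      rw [hap, one_smul] at this
      exact (left_eq_add.1 this)
    have key1 : ∀ u : V, p • (a • u) = p • u := by
      intro u
      have : a • u = u + (a • u - u) := by abel
      rw [this, nsmul_add, hδ, add_zero]
    obtain ⟨x, -, hBx⟩ := RankOne.right_mem_unipotent hp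
    have hqB : ∀ a ∈ B, ∀ a' ∈ B, ∀ v : V, a' • (a • v - v) = a • v - v := by
      rw [hBx]; exact quad_conj hq x
    have hB : ∀ y ∈ B, y ^ p = 1 := by
      intro y hy
      by_contra hne
      apply RankOne.not_comm hp ha ha1 (B.pow_mem hy p) hne
      apply eq_of_smul_eq hf
      intro v
      rw [mul_smul, mul_smul, pow_smul_quad hqB hy p v, pow_smul_quad hqB hy p (a • v), smul_add,
        smul_comm a p, key1]
      congr 1
      have e1 : p • (y • (a • v)) = p • (y • v) := by
        rw [← smul_comm y p (a • v), key1, smul_comm y p v]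
      rw [nsmul_sub, nsmul_sub, e1, key1]
    refine ⟨p, hpp, ?_, ?_⟩
    · refine ⟨⟨fun u w => Subtype.ext (eq_of_smul_eq hf ?_)⟩⟩
      intro v
      show ((u : X) * (w : X)) • v = ((w : X) * (u : X)) • v
      rw [mul_smul, mul_smul]
      have h1 : (u : X) • ((w : X) • v) = (u : X) • v + ((w : X) • v - v) := by
        have : (w : X) • v = v + ((w : X) • v - v) := by abel
        conv_lhs => rw [this]
        rw [smul_add, hq _ w.2 _ u.2 v]
      have h2 : (w : X) • ((u : X) • v) = (w : X) • v + ((u : X) • v - v) := by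
        have : (u : X) • v = v + ((u : X) • v - v) := by abel
        conv_lhs => rw [this]
        rw [smul_add, hq _ u.2 _ w.2 v]
      rw [h1, h2]; abel
    · intro a' ha'
      have h1 : x * a' * x⁻¹ ∈ B := by rw [hBx]; exact conj_mem_conjBy ha' x
      have h2 := hB _ h1
      rw [conj_pow] at h2
      have : a' ^ p = x⁻¹ * (x * a' ^ p * x⁻¹) * x := by group
      rw [this, h2]; group

end Cfsg.Agent.S5023
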