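import Cfsg.Statements.S5019
import Cfsg.Agent.S5023
import Cfsg.Agent.H25.RootSet

set_option autoImplicit false
open Cfsg

namespace Cfsg.Agent.S5019

open Cfsg.Agent.H25

section aux

theorem ring_key {R : Type*} [Ring R] {α β β₁ : R} (h1 : α * α = 0) (h2 : β * β = 0)
    (hI : α * (1 + β) * (1 - α) * β = 0) (hII : β * (1 + α) * (1 - β) * α = 0)
    (hE : (1 - β) * (1 + α) * (1 + β) = (1 - α) * (1 + β₁) * (1 + α)) :
    (β + β₁) * α = 0 ∧ α * (β + β₁) = 0 := by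
  have e6 : (β + β₁) * α - α * (β + β₁) * α
      = -(((1 - β) * (1 + α) * (1 + β)) - ((1 - α) * (1 + β₁) * (1 + α))) * α
        + β * (1 + α) * (1 - β) * α - (2 * β + β₁ - 1 - α - α * β₁) * (α * α) := by noncomm_ring
  rw [hE, sub_self, hII, h1] at e6
  have h6 : (β + β₁) * α = α * (β + β₁) * α := by
    apply sub_eq_zero.1
    rw [e6]; simp
  have e7 : α * (β + β₁) + α * (β + β₁) * α
      = α * (((1 - α) * (1 + β₁) * (1 + α)) - ((1 - β) * (1 + α) * (1 + β)))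
        + α * (1 + β) * (1 - α) * β + (α * α) * (β₁ + α + β₁ * α + 1 + 2 * β)
        - 2 * α * (β * β) := by noncomm_ring
  rw [hE, sub_self, hI, h1, h2] at e7
  have h7 : α * (β + β₁) + α * (β + β₁) * α = 0 := by
    rw [e7]; simp
  have h0 : α * (β + β₁) * α = 0 := by
    calc α * (β + β₁) * α = α * ((β + β₁) * α) := mul_assoc _ _ _
      _ = α * (α * (β + β₁) * α) := by rw [← h6]
      _ = (α * α) * (β + β₁) * α := by noncomm_ring
      _ = 0 := by rw [h1]; simp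
  rw [h0] at h6
  rw [h0, add_zero] at h7
  exact ⟨h6, h7⟩

theorem ring_unit {R : Type*} [Ring R] {α β : R} (h1 : α * α = 0) (h2 : β * β = 0)
    (hQ : ((1 - β) * (1 + α) * (1 + β) - 1) * ((1 - α) * (1 + β) * (1 + α) - 1) = 0) :
    α * (1 + β) * (1 - α) * β = 0 := by
  have e1 : (1 - β) * (1 + α) * (1 + β) - 1 = (1 - β) * α * (1 + β) - β * β := by noncomm_ring
  have e2 : (1 - α) * (1 + β) * (1 + α) - 1 = (1 - α) * β * (1 + α) - α * α := by noncomm_ring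
  rw [e1, e2, h1, h2, sub_zero, sub_zero] at hQ
  have e3 : α * (1 + β) * (1 - α) * β
      = (1 + β) * (((1 - β) * α * (1 + β)) * ((1 - α) * β * (1 + α))) * (1 - α)
        + (β * β) * (α * (1 + β) * (1 - α) * β) + (α * (1 + β) * (1 - α) * β) * (α * α)
        - (β * β) * (α * (1 + β) * (1 - α) * β) * (α * α) := by noncomm_ring
  rw [e3, hQ, h1, h2]; simp

variable {X : Type*} [Group X] {N : Type*} [AddCommGroup N] [DistribMulAction X N]

theorem ringq {U : Subgroup X}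
    (hU : ∀ a ∈ U, ∀ a' ∈ U, ∀ n : N, a' • (a • n - n) = a • n - n) {u u' : X}
    (hu : u ∈ U) (hu' : u' ∈ U) :
    (DistribMulAction.toAddMonoidEnd X N u' - 1) * (DistribMulAction.toAddMonoidEnd X N u - 1) = 0 := by
  ext n
  show u' • (u • n - n) - (u • n - n) = 0
  rw [hU u hu u' hu' n, sub_self]

theorem rho_inv {R : Type*} [Ring R] (ρ : X →* R) {u : X} {α : R} (hα : ρ u = 1 + α)
    (h : α * α = 0) : ρ u⁻¹ = 1 - α := by
  have h1 : ρ u * (1 - α) = 1 := by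
    have : (1 + α) * (1 - α) = 1 - α * α := by noncomm_ring
    rw [hα, this, h, sub_zero]
  calc ρ u⁻¹ = ρ u⁻¹ * (ρ u * (1 - α)) := by rw [h1, mul_one]
    _ = (ρ u⁻¹ * ρ u) * (1 - α) := (mul_assoc _ _ _).symm
    _ = 1 - α := by rw [← map_mul, inv_mul_cancel, map_one, one_mul]

end aux

/-- Let X be a rank one group with abelian unipotent subgroups A and B, and suppose X acts on an abelian group N (written additively) in such a way that A acts quadratically, meaning a' • (a • n − n) = a • n − n for all a, a' in A and n in N, while X as a whole does not: y • (x • n − n) ≠ x • n − n for some x, y in X and n in N. Then X is a special rank one group. -/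
theorem result {X : Type*} [Group X] {A B : Subgroup X} (h : Cfsg.IsRankOneGroup X A B)
    (hab : Cfsg.HasAbelianUnipotents A B) {N : Type*} [AddCommGroup N] [DistribMulAction X N]
    (hq : ∀ a ∈ A, ∀ a' ∈ A, ∀ n : N, a' • (a • n - n) = a • n - n)
    (hX : ∃ x y : X, ∃ n : N, y • (x • n - n) ≠ x • n - n) : Cfsg.IsSpecialRankOnePair A B := by
  obtain ⟨htop, hp⟩ := h
  refine ⟨hp, ?_⟩
  intro a ha ha1 b hb hb1 he
  have hu : b⁻¹ * a * b⁻¹⁻¹ ∈ conjBy A b⁻¹ := conj_mem_conjBy ha b⁻¹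
  have hb₁ : a⁻¹⁻¹ * (b⁻¹ * a * b⁻¹⁻¹) * a⁻¹ ∈ B := by
    rw [he] at hu
    exact mem_conjBy.1 hu
  have hE0 : b⁻¹ * a * b = a⁻¹ * (a⁻¹⁻¹ * (b⁻¹ * a * b⁻¹⁻¹) * a⁻¹) * a := by group
  generalize a⁻¹⁻¹ * (b⁻¹ * a * b⁻¹⁻¹) * a⁻¹ = b₁ at hb₁ hE0
  suffices hy : b * b₁ = 1 by rw [hE0, eq_inv_of_mul_eq_one_right hy]
  by_contra hy1
  rw [inv_inv] at hu
  have hw : a⁻¹ * b * a ∈ conjBy A b⁻¹ := by
    rw [he]
    have := conj_mem_conjBy hb a⁻¹
    rwa [inv_inv] at this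
  obtain ⟨x, -, hBx⟩ := RankOne.right_mem_unipotent hp
  have hqB : ∀ a ∈ B, ∀ a' ∈ B, ∀ v : N, a' • (a • v - v) = a • v - v := by
    rw [hBx]; exact S5023.quad_conj hq x
  have hqQ := S5023.quad_conj hq b⁻¹
  obtain ⟨ρ, hρ⟩ : ∃ ρ : X →* AddMonoid.End N, ρ = DistribMulAction.toAddMonoidEnd X N := ⟨_, rfl⟩
  have hsm : ∀ (x : X) (n : N), ρ x n = x • n := by
    intro x n; rw [hρ]; rfl
  have h1 : (ρ a - 1) * (ρ a - 1) = 0 := by rw [hρ]; exact ringq hq ha ha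
  have h2 : (ρ b - 1) * (ρ b - 1) = 0 := by rw [hρ]; exact ringq hqB hb hb
  have h3 : (ρ b - 1) * (ρ b₁ - 1) = 0 := by rw [hρ]; exact ringq hqB hb₁ hb
  have hQ1 : (ρ (b⁻¹ * a * b) - 1) * (ρ (a⁻¹ * b * a) - 1) = 0 := by rw [hρ]; exact ringq hqQ hw hu
  have hQ2 : (ρ (a⁻¹ * b * a) - 1) * (ρ (b⁻¹ * a * b) - 1) = 0 := by rw [hρ]; exact ringq hqQ hu hw
  have hE := congrArg ρ hE0
  obtain ⟨α, hα⟩ : ∃ α, ρ a = 1 + α := ⟨ρ a - 1, by abel⟩
  obtain ⟨β, hβ⟩ : ∃ β, ρ b = 1 + β := ⟨ρ b - 1, by abel⟩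
  obtain ⟨β₁, hβ₁⟩ : ∃ β₁, ρ b₁ = 1 + β₁ := ⟨ρ b₁ - 1, by abel⟩
  rw [hα, add_sub_cancel_left] at h1
  rw [hβ, add_sub_cancel_left] at h2
  rw [hβ, hβ₁, add_sub_cancel_left, add_sub_cancel_left] at h3
  have hai := rho_inv ρ hα h1
  have hbi := rho_inv ρ hβ h2
  simp only [map_mul, hai, hbi, hα, hβ, hβ₁] at hQ1 hQ2 hE
  have hI := ring_unit h1 h2 hQ1
  have hII := ring_unit h2 h1 hQ2
  obtain ⟨k1, k2⟩ := ring_key h1 h2 hI hII hE
  have hcomm : ρ (a * (b * b₁)) = ρ ((b * b₁) * a) := by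
    simp only [map_mul, hα, hβ, hβ₁]
    have e1 : (1 + α) * ((1 + β) * (1 + β₁)) = 1 + α + β + β₁ + α * (β + β₁) + (1 + α) * (β * β₁) := by
      noncomm_ring
    have e2 : (1 + β) * (1 + β₁) * (1 + α) = 1 + α + β + β₁ + (β + β₁) * α + (β * β₁) * (1 + α) := by
      noncomm_ring
    rw [e1, e2, k1, k2, h3]; simp
  have hyB : b * b₁ ∈ B := B.mul_mem hb hb₁
  have hcK : a * (b * b₁) * a⁻¹ * (b * b₁)⁻¹ ∈ ρ.ker := by
    rw [MonoidHom.mem_ker]
    have : a * (b * b₁) * a⁻¹ * (b * b₁)⁻¹ = (a * (b * b₁)) * ((b * b₁) * a)⁻¹ := by group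
    rw [this, map_mul, hcomm, ← map_mul, mul_inv_cancel, map_one]
  rcases RankOne.normal_dichotomy hp (N := ρ.ker) (by rw [htop]; exact le_top)
    (fun x _ n hn => (MonoidHom.normal_ker ρ).conj_mem n hn x) with h | h
  · let T : Subgroup X :=
      { carrier := {x | ∃ a' ∈ A, ρ x = ρ a'}
        one_mem' := ⟨1, A.one_mem, rfl⟩
        mul_mem' := by
          rintro x y ⟨a₁, h₁, e₁⟩ ⟨a₂, h₂, e₂⟩
          exact ⟨a₁ * a₂, A.mul_mem h₁ h₂, by rw [map_mul, map_mul, e₁, e₂]⟩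
        inv_mem' := by
          rintro x ⟨a₁, h₁, e₁⟩
          refine ⟨a₁⁻¹, A.inv_mem h₁, ?_⟩
          have h5 : ρ x⁻¹ * ρ x = 1 := by rw [← map_mul, inv_mul_cancel, map_one]
          have h6 : ρ x * ρ a₁⁻¹ = 1 := by rw [e₁, ← map_mul, mul_inv_cancel, map_one]
          calc ρ x⁻¹ = ρ x⁻¹ * (ρ x * ρ a₁⁻¹) := by rw [h6, mul_one]
            _ = (ρ x⁻¹ * ρ x) * ρ a₁⁻¹ := (mul_assoc _ _ _).symm
            _ = ρ a₁⁻¹ := by rw [h5, one_mul] }
    have hT : ρ.ker ⊔ A ≤ T := by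
      apply sup_le
      · intro k hk
        exact ⟨1, A.one_mem, by rw [MonoidHom.mem_ker.1 hk, map_one]⟩
      · intro a' ha'
        exact ⟨a', ha', rfl⟩
    rw [h, htop] at hT
    obtain ⟨x, y, n, hne⟩ := hX
    obtain ⟨a₁, h₁, e₁⟩ := hT (Subgroup.mem_top x)
    obtain ⟨a₂, h₂, e₂⟩ := hT (Subgroup.mem_top y)
    apply hne
    rw [← hsm x n, ← hsm y, e₁, e₂, hsm, hsm]
    exact hq a₁ h₁ a₂ h₂ n
  · exact RankOne.commutator_not_comm hp ha ha1 hyB hy1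
      (h _ hcK _ (Subgroup.mem_sup_right hyB))

end Cfsg.Agent.S5019
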