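import Cfsg.Statements.S5021
import Cfsg.Agent.H25.RootSet

set_option autoImplicit false
open Cfsg

namespace Cfsg.Agent.S5021

open Cfsg.Agent.H25

section aux

variable {X : Type*} [Group X]

structure Sp (A B : Subgroup X) : Prop where
  hp : IsRankOnePair A B
  cA : ∀ x ∈ A, ∀ y ∈ A, x * y = y * x
  cB : ∀ x ∈ B, ∀ y ∈ B, x * y = y * x
  sp : ∀ a ∈ A, a ≠ 1 → ∀ b ∈ B, b ≠ 1 → conjBy A b⁻¹ = conjBy B a⁻¹ →
    b⁻¹ * a * b = a⁻¹ * b⁻¹ * a

def T (A B : Subgroup X) (a b : X) : Prop :=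
  a ∈ A ∧ a ≠ 1 ∧ b ∈ B ∧ b ≠ 1 ∧ conjBy A b⁻¹ = conjBy B a⁻¹

variable {A B : Subgroup X}

theorem Sp.symm (s : Sp A B) : Sp B A := by
  refine ⟨RankOnePair_symm s.hp, s.cB, s.cA, ?_⟩
  intro b hb hb1 a ha ha1 he
  have h := s.sp a ha ha1 b hb hb1 he.symm
  calc a⁻¹ * b * a = (a⁻¹ * b⁻¹ * a)⁻¹ := by group
    _ = (b⁻¹ * a * b)⁻¹ := by rw [h]
    _ = b⁻¹ * a⁻¹ * b := by group

theorem T.symm {a b : X} (h : T A B a b) : T B A b a :=
  ⟨h.2.2.1, h.2.2.2.1, h.1, h.2.1, h.2.2.2.2.symm⟩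

theorem exists_right (s : Sp A B) {a : X} (ha : a ∈ A) (ha1 : a ≠ 1) : ∃ b, T A B a b := by
  obtain ⟨b, hb, hb1, he⟩ := s.hp.cond_left a ha ha1
  exact ⟨b, ha, ha1, hb, hb1, he⟩

theorem exists_left (s : Sp A B) {b : X} (hb : b ∈ B) (hb1 : b ≠ 1) : ∃ a, T A B a b := by
  obtain ⟨a, h⟩ := exists_right s.symm hb hb1
  exact ⟨a, h.symm⟩

theorem uniq_right (s : Sp A B) {a b b' : X} (h : T A B a b) (h' : T A B a b') : b = b' := by
  have e : conjBy A b⁻¹ = conjBy A b'⁻¹ := h.2.2.2.2.trans h'.2.2.2.2.symm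
  have := RankOne.conjBy_right_inj (RankOnePair_symm s.hp) (B.inv_mem h.2.2.1)
    (B.inv_mem h'.2.2.1) e
  exact inv_injective this

theorem uniq_left (s : Sp A B) {a a' b : X} (h : T A B a b) (h' : T A B a' b) : a = a' :=
  uniq_right s.symm h.symm h'.symm

theorem hn1 (s : Sp A B) {a b : X} (h : T A B a b) :
    a * (a * b⁻¹ * a) = (a * b⁻¹ * a) * b⁻¹ ∧ b⁻¹ * (a * b⁻¹ * a) = (a * b⁻¹ * a) * a ∧
      a * b⁻¹ * a = b⁻¹ * a * b⁻¹ := by
  have h0 := s.sp a h.1 h.2.1 b h.2.2.1 h.2.2.2.1 h.2.2.2.2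
  have br : a * b⁻¹ * a = b⁻¹ * a * b⁻¹ := by
    calc a * b⁻¹ * a = a * (b⁻¹ * a * b) * b⁻¹ := by group
      _ = a * (a⁻¹ * b⁻¹ * a) * b⁻¹ := by rw [h0]
      _ = b⁻¹ * a * b⁻¹ := by group
  refine ⟨?_, ?_, br⟩
  · calc a * (a * b⁻¹ * a) = a * (b⁻¹ * a * b⁻¹) := by rw [br]
      _ = (a * b⁻¹ * a) * b⁻¹ := by group
  · calc b⁻¹ * (a * b⁻¹ * a) = (b⁻¹ * a * b⁻¹) * a := by group
      _ = (a * b⁻¹ * a) * a := by rw [br]

theorem An (_s : Sp A B) {a b : X} (h : T A B a b) : conjBy A (a * b⁻¹ * a) = B := by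
  rw [conjBy_mul, conjBy_of_mem h.1, conjBy_mul, h.2.2.2.2, conjBy_conjBy_inv]

theorem Bn (s : Sp A B) {a b : X} (h : T A B a b) : conjBy B (a * b⁻¹ * a) = A := by
  obtain ⟨e1, e2, -⟩ := hn1 s h
  have hmem : (a * b⁻¹ * a) * (a * b⁻¹ * a) ∈ A ⊔ B := by
    have h1 : a * b⁻¹ * a ∈ A ⊔ B :=
      mul_mem (mul_mem (Subgroup.mem_sup_left h.1) (Subgroup.mem_sup_right (B.inv_mem h.2.2.1)))
        (Subgroup.mem_sup_left h.1)
    exact mul_mem h1 h1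
  have hcomm : (a * b⁻¹ * a) * (a * b⁻¹ * a) * a = a * ((a * b⁻¹ * a) * (a * b⁻¹ * a)) := by
    calc (a * b⁻¹ * a) * (a * b⁻¹ * a) * a = (a * b⁻¹ * a) * ((a * b⁻¹ * a) * a) := by group
      _ = (a * b⁻¹ * a) * (b⁻¹ * (a * b⁻¹ * a)) := by rw [e2]
      _ = ((a * b⁻¹ * a) * b⁻¹) * (a * b⁻¹ * a) := by group
      _ = (a * (a * b⁻¹ * a)) * (a * b⁻¹ * a) := by rw [e1]
      _ = a * ((a * b⁻¹ * a) * (a * b⁻¹ * a)) := by group
  have h2 := RankOne.conjBy_eq_of_comm_of_mem s.hp h.1 h.2.1 hmem hcomm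
  calc conjBy B (a * b⁻¹ * a) = conjBy (conjBy A (a * b⁻¹ * a)) (a * b⁻¹ * a) := by rw [An s h]
    _ = conjBy A ((a * b⁻¹ * a) * (a * b⁻¹ * a)) := conjBy_conjBy _ _ _
    _ = A := h2

theorem T.inv (s : Sp A B) {a b : X} (h : T A B a b) : T A B a⁻¹ b⁻¹ := by
  refine ⟨A.inv_mem h.1, inv_ne_one.2 h.2.1, B.inv_mem h.2.2.1, inv_ne_one.2 h.2.2.2.1, ?_⟩
  have h1 := Bn s h
  rw [(hn1 s h).2.2, conjBy_mul, conjBy_of_mem (B.inv_mem h.2.2.1), conjBy_mul, conjBy_eq_iff] at h1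
  rw [inv_inv, inv_inv]
  rw [inv_inv] at h1
  exact h1.symm

theorem keyD (s : Sp A B) {a b c x β : X} (h : T A B a b) (hc : c ∈ A) (hc1 : c ≠ 1)
    (h2 : T A B (c * a) β) (h3 : T A B x ((a * b⁻¹ * a)⁻¹ * c * (a * b⁻¹ * a))) :
    T A B (x * a⁻¹) (β * b⁻¹) := by
  have hBn : conjBy B (a * b⁻¹ * a)⁻¹ = A := by
    have := An s h
    rw [conjBy_eq_iff] at this
    exact this.symm
  have w1 : conjBy B ((a * b⁻¹ * a)⁻¹ * c⁻¹) = conjBy B x⁻¹ := by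
    have e : (a * b⁻¹ * a)⁻¹ * c⁻¹
        = ((a * b⁻¹ * a)⁻¹ * c * (a * b⁻¹ * a))⁻¹ * (a * b⁻¹ * a)⁻¹ := by group
    rw [e, conjBy_mul, hBn, h3.2.2.2.2]
  have w2 : conjBy B ((a * b⁻¹ * a)⁻¹ * c⁻¹) = conjBy A (a⁻¹ * b * β⁻¹) := by
    have e : (a * b⁻¹ * a)⁻¹ * c⁻¹ = (a⁻¹ * b) * (c * a)⁻¹ := by group
    rw [e, conjBy_mul, ← h2.2.2.2.2, conjBy_conjBy]
  have w3 : conjBy A (β * b⁻¹)⁻¹ = conjBy B (x * a⁻¹)⁻¹ := by
    have e1 : (β * b⁻¹)⁻¹ = a * (a⁻¹ * b * β⁻¹) := by group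
    have e2 : (x * a⁻¹)⁻¹ = a * x⁻¹ := by group
    rw [e1, e2, conjBy_mul A a (a⁻¹ * b * β⁻¹), conjBy_mul B a x⁻¹, ← w2, w1]
  have hβ1 : β * b⁻¹ ≠ 1 := by
    intro e
    have hb : β = b := mul_inv_eq_one.1 e
    rw [hb] at h2
    have := uniq_left s h2 h
    apply hc1
    exact mul_eq_right.1 this
  have hβB : β * b⁻¹ ∈ B := B.mul_mem h2.2.2.1 (B.inv_mem h.2.2.1)
  refine ⟨A.mul_mem h3.1 (A.inv_mem h.1), ?_, hβB, hβ1, w3⟩
  intro e
  rw [e, inv_one, conjBy_one, conjBy_eq_iff, conjBy_of_mem (B.inv_mem (B.inv_mem hβB))] at w3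
  exact s.hp.ne w3

theorem P (k : ℕ) : ∀ {A B : Subgroup X}, Sp A B →
    (∀ j, 0 < j → j < k + 1 → ∀ x, (x ∈ A ∨ x ∈ B) → x ^ j = 1 → x = 1) →
    ∀ {a b β : X}, T A B a b → T A B (a ^ (k + 1)) β → β ^ (k + 1) = b := by
  induction k with
  | zero =>
    intro A B s _ a b β h hβ
    rw [zero_add, pow_one] at hβ
    rw [zero_add, pow_one]
    exact uniq_right s hβ h
  | succ k ih =>
    intro A B s Q a b β h hβ
    have Q1 : ∀ j, 0 < j → j < k + 1 → ∀ x, (x ∈ A ∨ x ∈ B) → x ^ j = 1 → x = 1 :=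
      fun j h0 h1 => Q j h0 (by omega)
    have Q2 : ∀ j, 0 < j → j < k + 1 → ∀ x, (x ∈ B ∨ x ∈ A) → x ^ j = 1 → x = 1 :=
      fun j h0 h1 x hx => Q j h0 (by omega) x hx.symm
    have hbk : b ^ (k + 1) ≠ 1 := fun e =>
      h.2.2.2.1 (Q (k + 1) (by omega) (by omega) b (Or.inr h.2.2.1) e)
    have hak : a ^ (k + 1) ≠ 1 := fun e =>
      h.2.1 (Q (k + 1) (by omega) (by omega) a (Or.inl h.1) e)
    obtain ⟨y, hy⟩ := exists_left s (B.pow_mem h.2.2.1 (k + 1)) hbk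
    have hya : y ^ (k + 1) = a := ih s.symm Q2 h.symm hy.symm
    have hν : (a * b⁻¹ * a)⁻¹ * a ^ (k + 1) * (a * b⁻¹ * a) = (b ^ (k + 1))⁻¹ := by
      have sc : SemiconjBy (a * b⁻¹ * a) b⁻¹ a := (hn1 s h).1.symm
      have := (sc.pow_right (k + 1)).eq
      rw [mul_assoc, ← this, inv_pow]
      group
    have h3 : T A B y⁻¹ ((a * b⁻¹ * a)⁻¹ * a ^ (k + 1) * (a * b⁻¹ * a)) := by
      rw [hν]; exact T.inv s hy
    have h2 : T A B (a ^ (k + 1) * a) β := by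
      rw [← pow_succ]; exact hβ
    have h4 := T.inv s (keyD s h (A.pow_mem h.1 (k + 1)) hak h2 h3)
    have e1 : (y⁻¹ * a⁻¹)⁻¹ = y ^ (k + 1 + 1) := by
      rw [mul_inv_rev, inv_inv, inv_inv, ← hya, ← pow_succ]
    have e2 : (β * b⁻¹)⁻¹ = b * β⁻¹ := by group
    rw [e1, e2] at h4
    have h5 : T A B ((y ^ (k + 1 + 1)) ^ (k + 1)) β := by
      have : (y ^ (k + 1 + 1)) ^ (k + 1) = a ^ (k + 1 + 1) := by
        rw [← hya, ← pow_mul, ← pow_mul, mul_comm]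
      rw [this]; exact hβ
    have h6 := ih s Q1 h4 h5
    rw [pow_succ, h6]
    group

end aux

/-- In a special rank one group with abelian unipotent subgroups A and B, either A is an elementary abelian p-group for some prime p, or A is torsion-free and divisible (every element of A has an n-th root in A for every positive n). -/
theorem result {X : Type*} [Group X] {A B : Subgroup X} (h : Cfsg.IsRankOneGroup X A B)
    (hs : Cfsg.IsSpecialRankOnePair A B) (hab : Cfsg.HasAbelianUnipotents A B) :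
    (∃ p : ℕ, p.Prime ∧ Cfsg.IsElementaryAbelian p A) ∨
    ((∀ a ∈ A, a ≠ 1 → ¬ IsOfFinOrder a) ∧ ∀ a ∈ A, ∀ n : ℕ, 0 < n → ∃ c ∈ A, c ^ n = a) := by
  obtain ⟨-, hp⟩ := h
  have s : Sp A B := ⟨hp, fun x hx y hy => comm_of_isMulCommutative hab.1 hx hy,
    fun x hx y hy => comm_of_isMulCommutative hab.2 hx hy, hs.2⟩
  obtain ⟨g, -, hBg⟩ := RankOne.right_mem_unipotent hp
  -- transfer of torsion statements from A to B
  have trans : ∀ j : ℕ, (∀ x ∈ A, x ^ j = 1 → x = 1) → ∀ x ∈ B, x ^ j = 1 → x = 1 := by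
    intro j hj x hx e
    rw [hBg, mem_conjBy] at hx
    have h1 : (g⁻¹ * x * g) ^ j = 1 := by
      have : g⁻¹ * x * g = g⁻¹ * x * g⁻¹⁻¹ := by group
      rw [this, conj_pow, e]; group
    have h2 := hj _ hx h1
    have : x = g * (g⁻¹ * x * g) * g⁻¹ := by group
    rw [this, h2]; group
  by_cases htor : ∀ a ∈ A, a ≠ 1 → ¬ IsOfFinOrder a
  · right
    refine ⟨htor, ?_⟩
    have hA : ∀ j : ℕ, 0 < j → ∀ x ∈ A, x ^ j = 1 → x = 1 := by
      intro j hj x hx e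
      by_contra hx1
      exact htor x hx hx1 (isOfFinOrder_iff_pow_eq_one.2 ⟨j, hj, e⟩)
    have Q : ∀ k j : ℕ, 0 < j → j < k + 1 → ∀ x, (x ∈ B ∨ x ∈ A) → x ^ j = 1 → x = 1 := by
      intro k j hj _ x hx e
      rcases hx with hx | hx
      · exact trans j (hA j hj) x hx e
      · exact hA j hj x hx e
    intro a ha n hn
    by_cases ha1 : a = 1
    · exact ⟨1, A.one_mem, by rw [ha1, one_pow]⟩
    · obtain ⟨b, hb⟩ := exists_right s ha ha1
      have hbn : b ^ n ≠ 1 := fun e => hb.2.2.2.1 (trans n (hA n hn) b hb.2.2.1 e)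
      obtain ⟨y, hy⟩ := exists_left s (B.pow_mem hb.2.2.1 n) hbn
      obtain ⟨k, rfl⟩ : ∃ k, n = k + 1 := ⟨n - 1, by omega⟩
      exact ⟨y, hy.1, P k s.symm (Q k) hb.symm hy.symm⟩
  · left
    push Not at htor
    obtain ⟨a₀, ha₀, ha₀1, hfin⟩ := htor
    have hex : ∃ j : ℕ, 0 < j ∧ ∃ x ∈ A, x ≠ 1 ∧ x ^ j = 1 := by
      obtain ⟨j, hj, e⟩ := isOfFinOrder_iff_pow_eq_one.1 hfin
      exact ⟨j, hj, a₀, ha₀, ha₀1, e⟩
    classical
    obtain ⟨hp0, a, ha, ha1, hap⟩ := Nat.find_spec hex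
    have hmin : ∀ j : ℕ, 0 < j → j < Nat.find hex → ∀ x ∈ A, x ^ j = 1 → x = 1 := by
      intro j hj hlt x hx e
      by_contra hx1
      exact Nat.find_min hex hlt ⟨hj, x, hx, hx1, e⟩
    generalize Nat.find hex = p at hp0 hap hmin
    have hp1 : p ≠ 1 := by
      rintro rfl
      exact ha1 (by simpa using hap)
    have hprime : p.Prime := by
      have hq := Nat.minFac_prime hp1
      have hdvd := Nat.minFac_dvd p
      by_cases hlt : p.minFac < p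
      · exfalso
        obtain ⟨v, hv⟩ := hdvd
        have hv0 : 0 < v := by
          rcases Nat.eq_zero_or_pos v with h | h
          · rw [h, mul_zero] at hv; omega
          · exact h
        have hvlt : v < p := by
          have h2 := hq.two_le
          nlinarith
        have h1 : a ^ v ≠ 1 := fun e => ha1 (hmin v hv0 hvlt a ha e)
        apply h1
        apply hmin p.minFac hq.pos hlt _ (A.pow_mem ha v)
        rw [← pow_mul, mul_comm, ← hv, hap]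
      · have : p.minFac = p := le_antisymm (Nat.minFac_le hp0) (not_lt.1 hlt)
        rw [← this]; exact hq
    refine ⟨p, hprime, hab.1, ?_⟩
    intro c hc
    by_contra hcp
    obtain ⟨k, rfl⟩ : ∃ k, p = k + 1 := ⟨p - 1, by omega⟩
    have Q : ∀ j, 0 < j → j < k + 1 → ∀ x, (x ∈ A ∨ x ∈ B) → x ^ j = 1 → x = 1 := by
      intro j hj hlt x hx e
      rcases hx with hx | hx
      · exact hmin j hj hlt x hx e
      · exact trans j (hmin j hj hlt) x hx e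
    have hc1 : c ≠ 1 := by
      rintro rfl
      exact hcp (one_pow _)
    have hpow : (a * c) ^ (k + 1) = c ^ (k + 1) := by
      have hcm : Commute a c := s.cA a ha c hc
      rw [hcm.mul_pow, hap, one_mul]
    have hac1 : a * c ≠ 1 := by
      intro e
      rw [e, one_pow] at hpow
      exact hcp hpow.symm
    obtain ⟨b₁, h1⟩ := exists_right s hc hc1
    obtain ⟨b₂, h2⟩ := exists_right s (A.mul_mem ha hc) hac1
    obtain ⟨β, h3⟩ := exists_right s (A.pow_mem hc (k + 1)) hcp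
    have e1 := P k s Q h1 h3
    have e2 := P k s Q h2 (by rw [hpow]; exact h3)
    rw [← e2, e1] at h2
    have := uniq_left s h2 h1
    exact ha1 (mul_eq_right.1 this)

end Cfsg.Agent.S5021
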