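import Cfsg.Statements.S5024
import Cfsg.Agent.H25.RootSet2

set_option autoImplicit false
open Cfsg

namespace Cfsg.Agent.S5024

/-- Let S be a set of abstract root subgroups of G, A and C members of S, B a rank one partner of A in S and D a rank one partner of C in S. If the rank one group ⟨A, B⟩ is contained in ⟨C, D⟩ then the two coincide, and C and D are conjugates of A inside ⟨A, B⟩. -/
theorem result {G : Type*} [Group G] {S : Set (Subgroup G)} (hS : Cfsg.IsRootSubgroupSet S)
    {A B C D : Subgroup G} (hA : A ∈ S) (hC : C ∈ S) (hB : B ∈ Cfsg.rankOnePartners S A) (hD : D ∈ Cfsg.rankOnePartners S C)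
    (hle : A ⊔ B ≤ C ⊔ D) : A ⊔ B = C ⊔ D ∧ C ∈ Cfsg.unipotentSubgroups A B ∧ D ∈ Cfsg.unipotentSubgroups A B := by
  obtain ⟨hBS, hp⟩ := hB
  obtain ⟨hDS, hq⟩ := hD
  obtain ⟨a, ha, ha1⟩ := H25.RankOne.exists_ne_one hp
  obtain ⟨b, hb, hb1⟩ := H25.RankOne.exists_ne_one (RankOnePair_symm hp)
  have hne := H25.RankOne.not_comm hp ha ha1 hb hb1
  have hAm : A ∈ unipotentSubgroups C D :=
    H25.Root.mem_unipotent_of_le hS hA hC hDS hq (le_sup_left.trans hle)
      ⟨a, ha, b, hle (Subgroup.mem_sup_right hb), hne⟩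
  have hBm : B ∈ unipotentSubgroups C D :=
    H25.Root.mem_unipotent_of_le hS hBS hC hDS hq (le_sup_right.trans hle)
      ⟨b, hb, a, hle (Subgroup.mem_sup_left ha), hne.symm⟩
  refine ⟨H25.RankOne.sup_of_unipotents hq hAm hBm hp.ne, ?_, ?_⟩
  · rw [H25.RankOne.unipotents_of_unipotents hq hAm hBm hp.ne]
    exact H25.RankOne.left_mem_unipotent
  · rw [H25.RankOne.unipotents_of_unipotents hq hAm hBm hp.ne]
    exact H25.RankOne.right_mem_unipotent hq

end Cfsg.Agent.S5024
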