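import Cfsg.Statements.S5026
import Cfsg.Agent.H25.RootSet
import Cfsg.Agent.S5025

set_option autoImplicit false
open Cfsg

namespace Cfsg.Agent.S5026

theorem aux {G : Type*} [Group G] {S : Set (Subgroup G)} (hS : Cfsg.IsRootSubgroupSet S)
    (hdeg : Cfsg.IsDegenerateRootSet S)
    {a b : G} (ha : a ∈ Cfsg.rootElements S) (hb : b ∈ Cfsg.rootElements S) (hab : a * b = b * a)
    (hab1 : a * b ≠ 1) {C : Subgroup G} (hC : C ∈ S) (hCab : ∀ c ∈ C, c * (a * b) = (a * b) * c) :
    ∀ c ∈ C, c * a = a * c := by
  obtain ⟨ha1, A, hA, haA⟩ := ha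
  obtain ⟨hb1, B, hB, hbB⟩ := hb
  by_contra hcon
  push Not at hcon
  obtain ⟨c₀, hc₀, hne⟩ := hcon
  have hAB : ⁅A, B⁆ = ⊥ := by
    rcases hS.pair A hA B hB with h | h | h
    · exact h
    · exact absurd hab (H25.RankOne.not_comm h haA ha1 hbB hb1)
    · exact absurd h (hdeg A hA B hB)
  have hp : IsRankOnePair A C := by
    rcases hS.pair A hA C hC with h | h | h
    · exact absurd (H25.comm_of_commutator_eq_bot h haA hc₀).symm hne
    · exact h
    · exact absurd h (hdeg A hA C hC)
  have hz : a * b ∈ Subgroup.centralizer ((A ⊔ C : Subgroup G) : Set G) := by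
    have : A ⊔ C ≤ Subgroup.centralizer {a * b} := by
      refine sup_le ?_ ?_
      · intro x hx
        rw [Subgroup.mem_centralizer_singleton_iff]
        rw [← mul_assoc, H25.Root.comm hS hA hx haA, mul_assoc,
          H25.comm_of_commutator_eq_bot hAB hx hbB, mul_assoc]
      · intro x hx
        rw [Subgroup.mem_centralizer_singleton_iff]
        exact hCab x hx
    rw [Subgroup.mem_centralizer_iff]
    intro x hx
    have := this hx
    rw [Subgroup.mem_centralizer_singleton_iff] at this
    exact this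
  apply Cfsg.Agent.S5025.result hS hA ⟨hC, hp⟩ hz hab1 a⁻¹ (A.inv_mem haA) (by simpa using ha1)
  have : a * b * a⁻¹ = b := by rw [hab]; group
  rw [this]
  exact ⟨hb1, B, hB, hbB⟩

/-- Let S be a degenerate set of abstract root subgroups of G (a set of abstract transvection groups) and let a, b be commuting non-identity elements of members of S with a b ≠ 1. Then the members of S centralizing a b are exactly those centralizing both a and b. -/
theorem result {G : Type*} [Group G] {S : Set (Subgroup G)} (hS : Cfsg.IsRootSubgroupSet S) (hdeg : Cfsg.IsDegenerateRootSet S)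
    {a b : G} (ha : a ∈ Cfsg.rootElements S) (hb : b ∈ Cfsg.rootElements S) (hab : a * b = b * a) (hab1 : a * b ≠ 1) :
    Cfsg.centralizingMembers S (Subgroup.zpowers (a * b)) =
      Cfsg.centralizingMembers S (Subgroup.zpowers a) ∩ Cfsg.centralizingMembers S (Subgroup.zpowers b) := by
  ext C
  simp only [centralizingMembers, Set.mem_setOf_eq, Set.mem_inter_iff,
    H25.le_centralizer_zpowers_iff]
  constructor
  · rintro ⟨hC, hCab⟩
    refine ⟨⟨hC, aux hS hdeg ha hb hab hab1 hC hCab⟩, hC, ?_⟩
    exact aux hS hdeg hb ha hab.symm (by rw [← hab]; exact hab1) hC (by rw [← hab]; exact hCab)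
  · rintro ⟨⟨hC, h1⟩, -, h2⟩
    refine ⟨hC, fun c hc => ?_⟩
    rw [← mul_assoc, h1 c hc, mul_assoc, h2 c hc, mul_assoc]

end Cfsg.Agent.S5026
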