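import Cfsg.Statements.S5027
import Cfsg.Agent.H25.RootSet
import Cfsg.Agent.S5025

set_option autoImplicit false
open Cfsg

namespace Cfsg.Agent.S5027

/-- Let S be a set of abstract root subgroups of G such that every member of S has a rank one partner in S (the graph of rank one pairs on S has no isolated vertex). Then the second centre of G equals its centre. -/
theorem result {G : Type*} [Group G] {S : Set (Subgroup G)} (hS : Cfsg.IsRootSubgroupSet S)
    (hF : ∀ A ∈ S, ¬ Cfsg.IsIsolatedIn (Cfsg.FAdj S) S A) : Subgroup.upperCentralSeries G 2 = Subgroup.center G := by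
  apply le_antisymm
  · intro z hz
    have hz2 : ∀ y : G, z * y * z⁻¹ * y⁻¹ ∈ Subgroup.center G := by
      intro y
      have := (Subgroup.mem_upperCentralSeries_succ_iff (n := 1)).1 hz y
      rwa [Subgroup.upperCentralSeries_one] at this
    have hcomm : ∀ A ∈ S, A ≤ Subgroup.centralizer {z} := by
      intro A hA a ha
      rw [Subgroup.mem_centralizer_singleton_iff]
      by_cases ha1 : a = 1
      · rw [ha1]; simp
      obtain ⟨B, hB, hp⟩ := H25.Root.exists_partner (hF A hA) hA
      by_contra hne
      have hc1 : z * a * z⁻¹ * a⁻¹ ≠ 1 := by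
        intro h
        apply hne
        have : z * a = (z * a * z⁻¹ * a⁻¹) * (a * z) := by group
        rw [this, h, one_mul]
      have hcz : z * a * z⁻¹ * a⁻¹ ∈ Subgroup.centralizer ((A ⊔ B : Subgroup G) : Set G) := by
        rw [Subgroup.mem_centralizer_iff]
        intro x _
        exact (Subgroup.mem_center_iff.1 (hz2 a) x)
      apply Cfsg.Agent.S5025.result hS hA ⟨hB, hp⟩ hcz hc1 a ha ha1
      refine ⟨?_, conjBy A z, hS.conj_mem A hA z, ?_⟩
      · intro h
        apply ha1
        have : z * a * z⁻¹ = 1 := by simpa using h
        have h2 : a = z⁻¹ * (z * a * z⁻¹) * z := by group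
        rw [h2, this]; group
      · have : z * a * z⁻¹ * a⁻¹ * a = z * a * z⁻¹ := by group
        rw [this]
        exact H25.conj_mem_conjBy ha z
    have htop : (⊤ : Subgroup G) ≤ Subgroup.centralizer {z} := by
      rw [← hS.generates]
      exact iSup₂_le hcomm
    rw [Subgroup.mem_center_iff]
    intro g
    have := htop (Subgroup.mem_top g)
    rw [Subgroup.mem_centralizer_singleton_iff] at this
    exact this
  · rw [← Subgroup.upperCentralSeries_one]
    exact Subgroup.upperCentralSeries_mono G (by norm_num)

end Cfsg.Agent.S5027
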