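import Cfsg.Statements.S5030
import Cfsg.Agent.Lib.Helper22.Root4

set_option autoImplicit false
open Cfsg

namespace Cfsg.Agent.S5030

open Cfsg.Agent.H25 Cfsg.Agent.H22 Cfsg.Agent.H22.Root

section aux

variable {G : Type*} [Group G]

/-- upper central series of `R`, as subgroups of `G` -/
def U (R : Subgroup G) (n : ℕ) : Subgroup G := (Subgroup.upperCentralSeries ↥R n).map R.subtype

theorem mem_U_succ {R : Subgroup G} {n : ℕ} {x : G} (hx : x ∈ R)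
    (h : ∀ y ∈ R, x * y * x⁻¹ * y⁻¹ ∈ U R n) : x ∈ U R (n + 1) := by
  refine ⟨⟨x, hx⟩, ?_, rfl⟩
  show (⟨x, hx⟩ : ↥R) ∈ Subgroup.upperCentralSeries ↥R (n + 1)
  rw [Subgroup.mem_upperCentralSeries_succ_iff]
  intro y
  obtain ⟨z, hz, hzy⟩ := h y y.2
  rw [commutatorElement_def]
  have : z = (⟨x, hx⟩ : ↥R) * y * (⟨x, hx⟩ : ↥R)⁻¹ * y⁻¹ := by
    apply Subtype.ext
    exact hzy
  rw [← this]; exact hz

theorem U_conj {R : Subgroup G} {n : ℕ} {z y : G} (hz : z ∈ U R n) (hy : y ∈ R) :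
    y * z * y⁻¹ ∈ U R n := by
  obtain ⟨z', hz', rfl⟩ := hz
  exact ⟨⟨y, hy⟩ * z' * ⟨y, hy⟩⁻¹,
    (inferInstance : (Subgroup.upperCentralSeries ↥R n).Normal).conj_mem z' hz' ⟨y, hy⟩, rfl⟩

theorem mem_U_gens {R P Q T : Subgroup G} (hR : R = P ⊔ Q ⊔ T) {n : ℕ} {x : G} (hx : x ∈ R)
    (hP : ∀ y ∈ P, x * y * x⁻¹ * y⁻¹ ∈ U R n) (hQ : ∀ y ∈ Q, x * y * x⁻¹ * y⁻¹ ∈ U R n)
    (hT : ∀ y ∈ T, x * y * x⁻¹ * y⁻¹ ∈ U R n) : x ∈ U R (n + 1) := by
  apply mem_U_succ hx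
  let K : Subgroup G :=
    { carrier := {y | y ∈ R ∧ x * y * x⁻¹ * y⁻¹ ∈ U R n}
      one_mem' := ⟨R.one_mem, by simp⟩
      mul_mem' := by
        rintro y y' ⟨hy, hyz⟩ ⟨hy', hyz'⟩
        refine ⟨R.mul_mem hy hy', ?_⟩
        have e : x * (y * y') * x⁻¹ * (y * y')⁻¹
            = (x * y * x⁻¹ * y⁻¹) * (y * (x * y' * x⁻¹ * y'⁻¹) * y⁻¹) := by group
        rw [e]
        exact mul_mem hyz (U_conj hyz' hy)
      inv_mem' := by
        rintro y ⟨hy, hyz⟩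
        refine ⟨R.inv_mem hy, ?_⟩
        have e : x * y⁻¹ * x⁻¹ * y⁻¹⁻¹ = y⁻¹ * (x * y * x⁻¹ * y⁻¹)⁻¹ * y⁻¹⁻¹ := by group
        rw [e]
        exact U_conj (inv_mem hyz) (R.inv_mem hy) }
  have hK : R ≤ K := by
    have h1 : P ≤ R := by rw [hR]; exact le_sup_left.trans le_sup_left
    have h2 : Q ≤ R := by rw [hR]; exact le_sup_right.trans le_sup_left
    have h3 : T ≤ R := by rw [hR]; exact le_sup_right
    calc R = P ⊔ Q ⊔ T := hR
      _ ≤ K := sup_le (sup_le (fun y hy => ⟨h1 hy, hP y hy⟩) (fun y hy => ⟨h2 hy, hQ y hy⟩))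
        (fun y hy => ⟨h3 hy, hT y hy⟩)
  intro y hy
  exact (hK hy).2

theorem comm_one {z y : G} (h : z * y = y * z) : z * y * z⁻¹ * y⁻¹ = 1 := by rw [h]; group

theorem comm_one_mem {z y : G} (h : z * y = y * z) (H : Subgroup G) : z * y * z⁻¹ * y⁻¹ ∈ H := by
  rw [comm_one h]; exact one_mem _

variable {S : Set (Subgroup G)} {A B C : Subgroup G}

theorem hR_symm {R : Subgroup G} (hR : R = A ⊔ B ⊔ C) : R = C ⊔ B ⊔ A := by
  rw [hR, sup_comm (A ⊔ B) C, sup_comm A B, sup_assoc]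

theorem step1 (t : Trip S A B C) {R : Subgroup G} (hR : R = A ⊔ B ⊔ C) {l m : G}
    (hl : l ∈ ⁅A, B⁆) (hm : m ∈ ⁅B, C⁆) : l * m * l⁻¹ * m⁻¹ ∈ U R 1 := by
  obtain ⟨g, hg, hg1⟩ := Root.exists_ne_one t.hS t.hB
  have hAR : A ≤ R := by rw [hR]; exact le_sup_left.trans le_sup_left
  have hBR : B ≤ R := by rw [hR]; exact le_sup_right.trans le_sup_left
  have hCR : C ≤ R := by rw [hR]; exact le_sup_right
  have hlR : l ∈ R := ((Trip.comm_le_sup A B).trans (sup_le hAR hBR)) hl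
  have hmR : m ∈ R := ((Trip.comm_le_sup B C).trans (sup_le hBR hCR)) hm
  have hlW := t.L_le_W hg hg1 hl
  have hmW := t.M_le_W hg hg1 hm
  have hc := t.centralW hg _ (t.commW hg l hlW m hmW)
  apply mem_U_gens hR (mul_mem (mul_mem (mul_mem hlR hmR) (inv_mem hlR)) (inv_mem hmR))
  · intro y hy
    exact comm_one_mem (hc y (Subgroup.mem_sup_left (Subgroup.mem_sup_left hy))) _
  · intro y hy
    have c1 : Commute l y := t.hAB.2.1 l hl y (Subgroup.mem_sup_right hy)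
    have c2 : Commute m y := t.hBC.2.1 m hm y (Subgroup.mem_sup_left hy)
    exact comm_one_mem (((c1.mul_left c2).mul_left c1.inv_left).mul_left c2.inv_left) _
  · intro y hy
    exact comm_one_mem (hc y (Subgroup.mem_sup_right (Subgroup.mem_sup_right hy))) _

theorem step2 (t : Trip S A B C) {R : Subgroup G} (hR : R = A ⊔ B ⊔ C) {a m : G}
    (ha : a ∈ A) (hm : m ∈ ⁅B, C⁆) : a * m * a⁻¹ * m⁻¹ ∈ U R 2 := by
  obtain ⟨g, hg, hg1⟩ := Root.exists_ne_one t.hS t.hB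
  have hAR : A ≤ R := by rw [hR]; exact le_sup_left.trans le_sup_left
  have hBR : B ≤ R := by rw [hR]; exact le_sup_right.trans le_sup_left
  have hCR : C ≤ R := by rw [hR]; exact le_sup_right
  have haR : a ∈ R := hAR ha
  have hmR : m ∈ R := ((Trip.comm_le_sup B C).trans (sup_le hBR hCR)) hm
  have haW : a ∈ Trip.W A C g := Subgroup.mem_sup_left (Subgroup.mem_sup_left ha)
  have hmW := t.M_le_W hg hg1 hm
  have hc := t.centralW hg _ (t.commW hg a haW m hmW)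
  have hkR : a * m * a⁻¹ * m⁻¹ ∈ R := mul_mem (mul_mem (mul_mem haR hmR) (inv_mem haR)) (inv_mem hmR)
  apply mem_U_gens hR hkR
  · intro y hy
    exact comm_one_mem (hc y (Subgroup.mem_sup_left (Subgroup.mem_sup_left hy))) _
  · intro y hy
    have hl : y * a * y⁻¹ * a⁻¹ ∈ ⁅A, B⁆ := by
      rw [Subgroup.commutator_comm]; exact commutator_mem hy ha
    have hmy : m * y = y * m := t.hBC.2.1 m hm y (Subgroup.mem_sup_left hy)
    have hkl := hc _ (t.L_le_W hg hg1 hl)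
    have hj := step1 t hR hl hm
    generalize hk : a * m * a⁻¹ * m⁻¹ = k at hkl hkR ⊢
    generalize hl' : y * a * y⁻¹ * a⁻¹ = l at hkl hj
    have e2 : y * m * y⁻¹ = m := by rw [← hmy]; group
    have e1 : y * k * y⁻¹ = (l * a) * (y * m * y⁻¹) * (l * a)⁻¹ * (y * m * y⁻¹)⁻¹ := by
      rw [← hk, ← hl']; group
    have e3 : (l * a) * m * (l * a)⁻¹ * m⁻¹ = l * k * l⁻¹ * (l * m * l⁻¹ * m⁻¹) := by
      rw [← hk]; group
    have e4 : l * k * l⁻¹ = k := by rw [← hkl]; group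
    rw [e2, e3, e4] at e1
    have e5 : k * y * k⁻¹ * y⁻¹ = k * (y * k * y⁻¹)⁻¹ := by group
    have e6 : k * (k * (l * m * l⁻¹ * m⁻¹))⁻¹ = k * (l * m * l⁻¹ * m⁻¹)⁻¹ * k⁻¹ := by group
    rw [e5, e1, e6]
    exact U_conj (inv_mem hj) hkR
  · intro y hy
    exact comm_one_mem (hc y (Subgroup.mem_sup_right (Subgroup.mem_sup_right hy))) _

theorem step3 (t : Trip S A B C) {R : Subgroup G} (hR : R = A ⊔ B ⊔ C) {l : G}
    (hl : l ∈ ⁅A, B⁆) : l ∈ U R 3 := by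
  have hAR : A ≤ R := by rw [hR]; exact le_sup_left.trans le_sup_left
  have hBR : B ≤ R := by rw [hR]; exact le_sup_right.trans le_sup_left
  have hlR : l ∈ R := ((Trip.comm_le_sup A B).trans (sup_le hAR hBR)) hl
  apply mem_U_gens hR hlR
  · intro y hy
    exact comm_one_mem (t.hAB.2.1 l hl y (Subgroup.mem_sup_left hy)) _
  · intro y hy
    exact comm_one_mem (t.hAB.2.1 l hl y (Subgroup.mem_sup_right hy)) _
  · intro y hy
    have hl' : l ∈ ⁅B, A⁆ := by rw [Subgroup.commutator_comm]; exact hl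
    have := step2 t.symm (hR_symm hR) hy hl'
    have e : l * y * l⁻¹ * y⁻¹ = (y * l * y⁻¹ * l⁻¹)⁻¹ := by group
    rw [e]; exact inv_mem this

theorem step4 (t : Trip S A B C) {R : Subgroup G} (hR : R = A ⊔ B ⊔ C) : A ≤ U R 4 := by
  have hAR : A ≤ R := by rw [hR]; exact le_sup_left.trans le_sup_left
  intro a ha
  apply mem_U_gens hR (hAR ha)
  · intro y hy
    exact comm_one_mem (cm_self t.hS t.hA a ha y hy) _
  · intro y hy
    exact step3 t hR (commutator_mem ha hy)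
  · intro y hy
    exact comm_one_mem (t.hAC a ha y hy) _

theorem step4B (t : Trip S A B C) {R : Subgroup G} (hR : R = A ⊔ B ⊔ C) : B ≤ U R 4 := by
  have hBR : B ≤ R := by rw [hR]; exact le_sup_right.trans le_sup_left
  intro b hb
  apply mem_U_gens hR (hBR hb)
  · intro y hy
    apply step3 t hR
    rw [Subgroup.commutator_comm]; exact commutator_mem hb hy
  · intro y hy
    exact comm_one_mem (cm_self t.hS t.hB b hb y hy) _
  · intro y hy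
    apply step3 t.symm (hR_symm hR)
    rw [Subgroup.commutator_comm]; exact commutator_mem hb hy

theorem nilp (t : Trip S A B C) : Group.IsNilpotent ↥(A ⊔ B ⊔ C) := by
  refine ⟨⟨4, ?_⟩⟩
  rw [eq_top_iff]
  intro x _
  have h : A ⊔ B ⊔ C ≤ U (A ⊔ B ⊔ C) 4 :=
    sup_le (sup_le (step4 t rfl) (step4B t rfl)) (step4 t.symm (hR_symm rfl))
  obtain ⟨x', hx', e⟩ := h x.2
  have : x' = x := Subtype.ext e
  rw [← this]; exact hx'

theorem isMulComm_sup {P Q : Subgroup G} (h1 : Cm P P) (h2 : Cm Q Q) (h3 : Cm P Q) :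
    IsMulCommutative ↥(P ⊔ Q) := by
  have h : Cm (P ⊔ Q) (P ⊔ Q) :=
    Cm.sup_left (cm_sup_right h1 h3) (cm_sup_right h3.symm h2)
  exact ⟨⟨fun x y => Subtype.ext (h x.1 x.2 y.1 y.2)⟩⟩

theorem cm_of_isMulComm_sup {P Q : Subgroup G} (h : IsMulCommutative ↥(P ⊔ Q)) : Cm P Q := by
  intro x hx y hy
  have := h.is_comm.comm (⟨x, Subgroup.mem_sup_left hx⟩ : ↥(P ⊔ Q)) ⟨y, Subgroup.mem_sup_right hy⟩
  exact congrArg Subtype.val this

theorem class2X (t : Trip S A B C) {g : G} (hg : g ∈ B) :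
    ⁅⁅A ⊔ conjBy C g, A ⊔ conjBy C g⁆, A ⊔ conjBy C g⁆ = ⊥ := by
  apply commutator_eq_bot_of_comm
  intro z hz x hx
  have hle : ⁅A ⊔ conjBy C g, A ⊔ conjBy C g⁆ ≤ ⁅A, conjBy C g⁆ := by
    rw [Subgroup.commutator_le]
    intro p hp q hq
    rw [commutatorElement_def]
    exact t.commX hg p hp q hq
  exact t.centralX hg z (hle hz) x hx

end aux

/-- Let S be a set of abstract root subgroups of G and A, B, C ∈ S with ⁅A, B⁆ ∈ S and ⁅B, C⁆ ∈ S, where A and C are different and commute. For a non-identity b ∈ B put X = ⟨A, b⁻¹ C b⟩ and Y = ⟨b⁻¹ A b, C⟩ and R = ⟨A, B, C⟩. Then X and Y are either both abelian or both nilpotent of class exactly two; X and Y commute elementwise; XY is normal in R with R = (XY) B; and R is nilpotent. -/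
theorem result {G : Type*} [Group G] {S : Set (Subgroup G)} (hS : Cfsg.IsRootSubgroupSet S)
    {A B C : Subgroup G} (hA : A ∈ S) (hB : B ∈ S) (hC : C ∈ S) (hAB : ⁅A, B⁆ ∈ S) (hBC : ⁅B, C⁆ ∈ S)
    (hAC : C ∈ Cfsg.commutingPartners S A)
    {b : G} (hb : b ∈ B) (hb1 : b ≠ 1) :
    ((IsMulCommutative ↥(A ⊔ Cfsg.conjBy C b⁻¹) ∧ IsMulCommutative ↥(Cfsg.conjBy A b⁻¹ ⊔ C)) ∨
      ((¬ IsMulCommutative ↥(A ⊔ Cfsg.conjBy C b⁻¹) ∧
          ⁅⁅A ⊔ Cfsg.conjBy C b⁻¹, A ⊔ Cfsg.conjBy C b⁻¹⁆, A ⊔ Cfsg.conjBy C b⁻¹⁆ = ⊥) ∧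
        (¬ IsMulCommutative ↥(Cfsg.conjBy A b⁻¹ ⊔ C) ∧
          ⁅⁅Cfsg.conjBy A b⁻¹ ⊔ C, Cfsg.conjBy A b⁻¹ ⊔ C⁆, Cfsg.conjBy A b⁻¹ ⊔ C⁆ = ⊥))) ∧
    ⁅A ⊔ Cfsg.conjBy C b⁻¹, Cfsg.conjBy A b⁻¹ ⊔ C⁆ = ⊥ ∧
    (∀ r ∈ A ⊔ B ⊔ C, Cfsg.conjBy ((A ⊔ Cfsg.conjBy C b⁻¹) ⊔ (Cfsg.conjBy A b⁻¹ ⊔ C)) r =
      (A ⊔ Cfsg.conjBy C b⁻¹) ⊔ (Cfsg.conjBy A b⁻¹ ⊔ C)) ∧
    ((A ⊔ Cfsg.conjBy C b⁻¹) ⊔ (Cfsg.conjBy A b⁻¹ ⊔ C)) ⊔ B = A ⊔ B ⊔ C ∧
    Group.IsNilpotent ↥(A ⊔ B ⊔ C) := by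
  have t : Trip S A B C := ⟨hS, hA, hB, hC, comm_case hS hA hB hAB, comm_case hS hB hC hBC,
    fun a ha c hc => comm_of_commutator_eq_bot hAC.2.2 ha hc⟩
  have hg : b⁻¹ ∈ B := B.inv_mem hb
  have hg1 : b⁻¹ ≠ 1 := by simpa using hb1
  refine ⟨?_, commutator_eq_bot_of_comm (t.cmXY hg), ?_, ?_, nilp t⟩
  · by_cases h : Cm A (conjBy C b⁻¹)
    · left
      have h' : Cm (conjBy A b⁻¹) C := cm_transfer t.hBC t.hAC hb h
      exact ⟨isMulComm_sup (cm_self hS hA) (cm_self hS (hS.conj_mem C hC _)) h,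
        isMulComm_sup (cm_self hS (hS.conj_mem A hA _)) (cm_self hS hC) h'⟩
    · right
      have h' : ¬ Cm (conjBy A b⁻¹) C := fun h2 =>
        h ((cm_transfer t.symm.hBC t.symm.hAC hb h2.symm).symm)
      refine ⟨⟨fun hc => h (cm_of_isMulComm_sup hc), class2X t hg⟩,
        fun hc => h' (cm_of_isMulComm_sup hc), ?_⟩
      have := class2X t.symm hg
      rwa [sup_comm] at this
  · intro r hr
    rw [conjBy_eq_self_iff]
    have hle : A ⊔ B ⊔ C ≤ Subgroup.normalizer ((Trip.W A C b⁻¹ : Subgroup G) : Set G) :=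
      sup_le (sup_le ((le_sup_left.trans le_sup_left).trans Subgroup.le_normalizer)
        (t.B_le_normalizer hg hg1)) ((le_sup_right.trans le_sup_right).trans Subgroup.le_normalizer)
    exact hle hr
  · have hAR : A ≤ A ⊔ B ⊔ C := le_sup_left.trans le_sup_left
    have hBR : B ≤ A ⊔ B ⊔ C := le_sup_right.trans le_sup_left
    have hCR : C ≤ A ⊔ B ⊔ C := le_sup_right
    apply le_antisymm
    · exact sup_le (sup_le (sup_le hAR (conjBy_le_of_mem hCR (hBR hg)))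
        (sup_le (conjBy_le_of_mem hAR (hBR hg)) hCR)) hBR
    · exact sup_le (sup_le ((le_sup_left.trans le_sup_left).trans le_sup_left) le_sup_right)
        ((le_sup_right.trans le_sup_right).trans le_sup_left)

end Cfsg.Agent.S5030
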