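import Cfsg.Statements.S5031
import Cfsg.Agent.Lib.Helper22.Root4

set_option autoImplicit false
open Cfsg

namespace Cfsg.Agent.S5031

open Cfsg.Agent.H25 Cfsg.Agent.H22 Cfsg.Agent.H22.Root

section aux

variable {G : Type*} [Group G] {S : Set (Subgroup G)} {A B C D : Subgroup G}

/-- elementwise form of the line lemma -/
theorem not_rankOne' (t : Trip S A B C) {x : G} (hxD : x ∈ D) (hx1 : x ≠ 1) (hx : x ∈ A ⊔ C) :
    ¬ IsRankOnePair D B := by
  intro hp
  obtain ⟨g, hg, hg1⟩ := Root.exists_ne_one t.hS t.hB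
  have hxW : x ∈ Trip.W A C g :=
    (sup_le (le_sup_left.trans le_sup_left) (le_sup_right.trans le_sup_right) :
      A ⊔ C ≤ Trip.W A C g) hx
  obtain ⟨b, hb, hb1, he⟩ := hp.cond_left x hxD hx1
  have h1 : b⁻¹ * x * b⁻¹⁻¹ ∈ conjBy D b⁻¹ := conj_mem_conjBy hxD b⁻¹
  rw [he, mem_conjBy] at h1
  have hW1 : b⁻¹ * x * b⁻¹⁻¹ ∈ Trip.W A C g := by
    have hn := t.B_le_normalizer hg hg1 (B.inv_mem hb)
    rw [← conjBy_eq_self_iff] at hn
    rw [← hn]
    exact conj_mem_conjBy hxW b⁻¹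
  have hW2 : x⁻¹⁻¹ * (b⁻¹ * x * b⁻¹⁻¹) * x⁻¹ ∈ Trip.W A C g :=
    mul_mem (mul_mem (inv_mem (inv_mem hxW)) hW1) (inv_mem hxW)
  have hne : x⁻¹⁻¹ * (b⁻¹ * x * b⁻¹⁻¹) * x⁻¹ ≠ 1 := by
    intro e
    apply hx1
    have : x = b * (x⁻¹ * (x⁻¹⁻¹ * (b⁻¹ * x * b⁻¹⁻¹) * x⁻¹) * x) * b⁻¹ := by group
    rw [this, e]; group
  apply RankOne.commutator_not_comm hp hxD hx1 h1 hne
  exact t.centralW hg _ (t.commW hg x hxW _ hW2) _ hW2

theorem claim1 (hS : IsRootSubgroupSet S) (hA : A ∈ S) (hB : B ∈ S) (hC : C ∈ S) (hD : D ∈ S)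
    (hAB : Cm A B) (hCle : C ≤ A ⊔ B) {a b : G} (ha : a ∈ A) (ha1 : a ≠ 1) (hb : b ∈ B)
    (hc : a * b ∈ C) (hAD : IsRankOnePair A D) (hBD : ¬ IsRankOnePair B D) :
    IsRankOnePair C D := by
  obtain ⟨d, hd, hd1⟩ := RankOne.exists_ne_one (RankOnePair_symm hAD)
  have hnc := RankOne.commutator_not_comm hAD ha ha1 hd hd1
  have hCB : Cm C B := by
    have h1 : Cm (A ⊔ B) B := Cm.sup_left hAB (cm_self hS hB)
    exact cm_mono h1 hCle le_rfl
  rcases hS.pair B hB D hD with h1 | h1 | h1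
  · -- b commutes with d
    have hbd : b * d = d * b := comm_of_commutator_eq_bot h1 hb hd
    have e : a * b * d * (a * b)⁻¹ * d⁻¹ = a * d * a⁻¹ * d⁻¹ := by
      have : a * b * d * (a * b)⁻¹ * d⁻¹ = a * (b * d) * b⁻¹ * a⁻¹ * d⁻¹ := by group
      rw [this, hbd]; group
    rcases hS.pair C hC D hD with h2 | h2 | h2
    · exfalso
      apply hnc
      have hcd : a * b * d = d * (a * b) := comm_of_commutator_eq_bot h2 hc hd
      rw [← e, hcd]; group
    · exact h2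
    · exfalso
      apply hnc
      rw [← e]
      exact h2.2.1 _ (commutator_mem hc hd) d (Subgroup.mem_sup_right hd)
  · exact absurd h1 hBD
  · rcases hS.pair C hC D hD with h2 | h2 | h2
    · exfalso
      apply hnc
      have hcd : Commute (a * b) d := comm_of_commutator_eq_bot h2 hc hd
      have hm : Commute (b⁻¹ * d * b⁻¹⁻¹ * d⁻¹) d :=
        h1.2.1 _ (commutator_mem (B.inv_mem hb) hd) d (Subgroup.mem_sup_right hd)
      have e : a * d * a⁻¹ * d⁻¹
          = (a * b) * (b⁻¹ * d * b⁻¹⁻¹ * d⁻¹) * (d * (a * b)⁻¹ * d⁻¹) := by group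
      have e2 : d * (a * b)⁻¹ * d⁻¹ = (a * b)⁻¹ := by
        have : Commute d (a * b)⁻¹ := hcd.symm.inv_right
        rw [this.eq]; group
      rw [e, e2]
      exact ((hcd.mul_left hm).mul_left hcd.inv_left)
    · exact h2
    · exfalso
      have t : Trip S C D B := ⟨hS, hC, hD, hB, h2, RootComm_symm h1, hCB⟩
      apply not_rankOne' t ha ha1 _ hAD
      have : a = (a * b) * b⁻¹ := by group
      rw [this]
      exact mul_mem (Subgroup.mem_sup_left hc) (Subgroup.mem_sup_right (B.inv_mem hb))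

theorem fadj_symm {X Y : Subgroup G} (h : FAdj S X Y) : FAdj S Y X :=
  ⟨h.2.1, h.1, RankOnePair_symm h.2.2⟩

theorem path_symm {X Y : Subgroup G} (h : Relation.ReflTransGen (FAdj S) X Y) :
    Relation.ReflTransGen (FAdj S) Y X := by
  haveI : Std.Symm (FAdj S) := ⟨fun _ _ h => fadj_symm h⟩
  exact Std.Symm.symm _ _ h

theorem comp_eq {X Y : Subgroup G} (h : Relation.ReflTransGen (FAdj S) X Y) :
    componentOf (FAdj S) S X = componentOf (FAdj S) S Y := by
  ext Z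
  constructor
  · rintro ⟨hZ, hp⟩
    exact ⟨hZ, (path_symm h).trans hp⟩
  · rintro ⟨hZ, hp⟩
    exact ⟨hZ, h.trans hp⟩

theorem exists_nbr {X : Subgroup G} (h : ∃ X' ∈ componentOf (FAdj S) S X, X' ≠ X) :
    ∃ D, FAdj S X D := by
  obtain ⟨X', ⟨_, hp⟩, hne⟩ := h
  rcases Relation.ReflTransGen.cases_head hp with h | ⟨D, hD, _⟩
  · exact absurd h.symm hne
  · exact ⟨D, hD⟩

end aux

/-- Let S be a set of abstract root subgroups of G and let A, B ∈ S lie in different connected components of the graph of rank one pairs on S, each component having more than one member. Then B is not a line partner of A. -/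
theorem result {G : Type*} [Group G] {S : Set (Subgroup G)} (hS : Cfsg.IsRootSubgroupSet S)
    {A B : Subgroup G} (hA : A ∈ S) (hB : B ∈ S)
    (hne : Cfsg.componentOf (Cfsg.FAdj S) S A ≠ Cfsg.componentOf (Cfsg.FAdj S) S B)
    (hA2 : ∃ A' ∈ Cfsg.componentOf (Cfsg.FAdj S) S A, A' ≠ A) (hB2 : ∃ B' ∈ Cfsg.componentOf (Cfsg.FAdj S) S B, B' ≠ B) :
    B ∉ Cfsg.linePartners S A := by
  rintro ⟨⟨_, hBA, hcomm⟩, hpart⟩
  obtain ⟨D, hD⟩ := exists_nbr hA2
  obtain ⟨E, hE⟩ := exists_nbr hB2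
  have hAB : Cm A B := fun a ha b hb => comm_of_commutator_eq_bot hcomm ha hb
  obtain ⟨a, ha, ha1⟩ := Root.exists_ne_one hS hA
  obtain ⟨b, hb, hb1⟩ := Root.exists_ne_one hS hB
  have hAm : A ∈ membersIn S (A ⊔ B) := ⟨hA, le_sup_left⟩
  have hBm : B ∈ membersIn S (A ⊔ B) := ⟨hB, le_sup_right⟩
  have hint : A ⊓ B = ⊥ := hpart.2.2 A hAm B hBm (Ne.symm hBA)
  have hab1 : a * b ≠ 1 := by
    intro e
    apply ha1
    have h1 : a = b⁻¹ := eq_inv_of_mul_eq_one_left e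
    have h2 : a ∈ A ⊓ B := ⟨ha, by rw [h1]; exact B.inv_mem hb⟩
    rw [hint] at h2
    exact Subgroup.mem_bot.1 h2
  obtain ⟨C, ⟨hC, hCle⟩, hc⟩ := hpart.2.1 (a * b)
    (mul_mem (Subgroup.mem_sup_left ha) (Subgroup.mem_sup_right hb)) hab1
  have hBD : ¬ IsRankOnePair B D := fun h => hne (comp_eq
    ((Relation.ReflTransGen.single hD).trans (Relation.ReflTransGen.single ⟨hD.2.1, hB, RankOnePair_symm h⟩)))
  have hAE : ¬ IsRankOnePair A E := fun h => hne (comp_eq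
    ((Relation.ReflTransGen.single ⟨hA, hE.2.1, h⟩).trans (Relation.ReflTransGen.single (fadj_symm hE))))
  have h1 : IsRankOnePair C D := claim1 hS hA hB hC hD.2.1 hAB hCle ha ha1 hb hc hD.2.2 hBD
  have h2 : IsRankOnePair C E := by
    apply claim1 hS hB hA hC hE.2.1 hAB.symm (by rw [sup_comm]; exact hCle) hb hb1 ha _ hE.2.2 hAE
    rw [← hAB a ha b hb]; exact hc
  apply hne
  apply comp_eq
  exact (((Relation.ReflTransGen.single hD).trans
    (Relation.ReflTransGen.single ⟨hD.2.1, hC, RankOnePair_symm h1⟩)).trans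
    (Relation.ReflTransGen.single ⟨hC, hE.2.1, h2⟩)).trans (Relation.ReflTransGen.single (fadj_symm hE))

end Cfsg.Agent.S5031
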