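import Cfsg.Statements.S5032
import Cfsg.Agent.Lib.Helper22.Root4

set_option autoImplicit false
open Cfsg

namespace Cfsg.Agent.S5032

open Cfsg.Agent.H25 Cfsg.Agent.H22 Cfsg.Agent.H22.Root

theorem conj_of_path {G : Type*} [Group G] {S : Set (Subgroup G)} {A B : Subgroup G}
    (h : Relation.ReflTransGen (Cfsg.FAdj S) A B) : ∃ g : G, B = conjBy A g := by
  induction h with
  | refl => exact ⟨1, (conjBy_one A).symm⟩
  | tail _ hstep ih =>
    obtain ⟨g, rfl⟩ := ih
    obtain ⟨x, -, hx⟩ := RankOne.right_mem_unipotent hstep.2.2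
    exact ⟨x * g, by rw [hx, conjBy_conjBy]⟩

theorem key {G : Type*} [Group G] {S : Set (Subgroup G)} (hS : Cfsg.IsRootSubgroupSet S)
    (hall : ∀ B ∈ S, ¬ Cfsg.IsIsolatedIn (Cfsg.FAdj S) S B)
    {E : Subgroup G} (hE : E ∈ S) {e : G} (he : e ∈ E) {B : Subgroup G} (hB : B ∈ S) :
    Relation.ReflTransGen (Cfsg.FAdj S) B (conjBy B e) := by
  have hB₁ : conjBy B e ∈ S := hS.conj_mem B hB e
  rcases hS.pair B hB E hE with h | h | h
  · have : conjBy B e = B :=
      conjBy_of_central (fun c hc => (comm_of_commutator_eq_bot h hc he).symm)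
    rw [this]
  · have h2 := RankOne.conj h e
    rw [conjBy_of_mem he] at h2
    exact (Relation.ReflTransGen.single ⟨hB, hE, h⟩).tail ⟨hE, hB₁, RankOnePair_symm h2⟩
  · by_cases he1 : e = 1
    · rw [he1, conjBy_one]
    obtain ⟨F, hF, hp⟩ := Root.exists_partner (hall B hB) hB
    have hCe : conjBy ⁅B, E⁆ e = ⁅B, E⁆ :=
      conjBy_of_central (fun c hc => (h.2.1 c hc e (Subgroup.mem_sup_right he)).symm)
    have hFe : conjBy F e ∈ S := hS.conj_mem F hF e
    rcases hS.pair F hF _ h.1 with h1 | h1 | h1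
    · exfalso
      obtain ⟨c, hc, hc1⟩ := Root.exists_ne_one hS h.1
      exact not_central_F hS (hall B hB) hB h hF hp hc hc1
        (fun f hf => (comm_of_commutator_eq_bot h1 hf hc).symm)
    · have s3 := RankOne.conj h1 e
      rw [hCe] at s3
      have s4 := RankOne.conj hp e
      exact (((Relation.ReflTransGen.single ⟨hB, hF, hp⟩).tail ⟨hF, h.1, h1⟩).tail
        ⟨h.1, hFe, RankOnePair_symm s3⟩).tail ⟨hFe, hB₁, RankOnePair_symm s4⟩
    · have hex : ∃ b ∈ B, b * e ≠ e * b := by
        by_contra hcon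
        push Not at hcon
        exact RootComm.false_of_right_comm hS h he he1 hcon
      obtain ⟨b, hb, hbe⟩ := hex
      have hb1 : b ≠ 1 := by
        rintro rfl; simp at hbe
      have hcmB : Cm B (B ⊔ ⁅B, E⁆) := cm_A_AL hS hB h
      rcases hS.pair _ hB₁ F hF with h2 | h2 | h2
      · exfalso
        have hzm : e * b * e⁻¹ ∈ conjBy B e := conj_mem_conjBy hb e
        have hz1 : e * b * e⁻¹ ≠ 1 := by
          intro e0
          apply hb1
          have : b = e⁻¹ * (e * b * e⁻¹) * e := by group
          rw [this, e0]; simp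
        have hz : e * b * e⁻¹ ∈ Subgroup.centralizer ((B ⊔ F : Subgroup G) : Set G) := by
          have hle : B ⊔ F ≤ Subgroup.centralizer ({e * b * e⁻¹} : Set G) := by
            apply sup_le
            · intro x hx
              rw [Subgroup.mem_centralizer_iff]
              intro y hy
              rw [Set.mem_singleton_iff.1 hy]
              exact (hcmB x hx _ (conjBy_le he hzm)).symm
            · intro x hx
              rw [Subgroup.mem_centralizer_iff]
              intro y hy
              rw [Set.mem_singleton_iff.1 hy]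
              exact comm_of_commutator_eq_bot h2 hzm hx
          rw [Subgroup.mem_centralizer_iff]
          intro x hx
          exact (Subgroup.mem_centralizer_iff.1 (hle hx) _ rfl).symm
        apply Cfsg.Agent.S5025.result hS hB ⟨hF, hp⟩ hz hz1 b⁻¹ (B.inv_mem hb) (inv_ne_one.2 hb1)
        refine ⟨?_, ⁅B, E⁆, h.1, ?_⟩
        · intro e0
          apply hbe
          have : b * e = (e * b * e⁻¹ * b⁻¹)⁻¹ * (e * b) := by group
          rw [this, e0]; simp
        · rw [Subgroup.commutator_comm]
          exact commutator_mem he hb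
      · exact (Relation.ReflTransGen.single ⟨hB, hF, hp⟩).tail ⟨hF, hB₁, RankOnePair_symm h2⟩
      · exfalso
        have hBE : conjBy B e ≤ B ⊔ E := conjBy_le_of_mem le_sup_left (Subgroup.mem_sup_right he)
        have t : Trip S (conjBy B e) F ⁅B, E⁆ :=
          ⟨hS, hB₁, hF, h.1, h2, h1, fun x hx c hc => (h.2.1 c hc x (hBE hx)).symm⟩
        apply t.not_rankOne _ hp
        intro x hx
        have : x = (e * x * e⁻¹) * (e * x⁻¹ * e⁻¹ * x⁻¹⁻¹) := by group
        rw [this]
        refine mul_mem (Subgroup.mem_sup_left (conj_mem_conjBy hx e)) (Subgroup.mem_sup_right ?_)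
        rw [Subgroup.commutator_comm]
        exact commutator_mem he (B.inv_mem hx)

/-- Let S be a set of abstract root subgroups of G with more than one member. Then the graph of rank one pairs on S is connected if and only if S is a single conjugacy class of G and some member of S has a rank one partner in S. -/
theorem result {G : Type*} [Group G] {S : Set (Subgroup G)} (hS : Cfsg.IsRootSubgroupSet S) (h2 : ∃ A ∈ S, ∃ B ∈ S, A ≠ B) :
    Cfsg.IsConnectedFamily (Cfsg.FAdj S) S ↔
      (Cfsg.IsConjClassOfSubgroups S ∧ ∃ A ∈ S, ¬ Cfsg.IsIsolatedIn (Cfsg.FAdj S) S A) := by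
  constructor
  · intro hc
    obtain ⟨A₀, hA₀, B₀, hB₀, hne⟩ := h2
    refine ⟨⟨⟨A₀, hA₀⟩, fun A hA B hB => conj_of_path (hc A hA B hB)⟩, A₀, hA₀, ?_⟩
    rcases Relation.ReflTransGen.cases_head (hc A₀ hA₀ B₀ hB₀) with h | ⟨C, hAC, _⟩
    · exact absurd h hne
    · exact fun hiso => (hiso.2 C).1 hAC
  · rintro ⟨⟨_, hconj⟩, A₀, hA₀, hA₀n⟩
    have hall : ∀ B ∈ S, ¬ Cfsg.IsIsolatedIn (Cfsg.FAdj S) S B := by
      intro B hB
      obtain ⟨g, rfl⟩ := hconj A₀ hA₀ B hB
      exact nonisolated_conj hS hA₀n hA₀ g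
    haveI hsymm : Std.Symm (Cfsg.FAdj S) := ⟨fun X Y h => ⟨h.2.1, h.1, RankOnePair_symm h.2.2⟩⟩
    let T : Subgroup G :=
      { carrier := {g | ∀ B ∈ S, Relation.ReflTransGen (Cfsg.FAdj S) B (conjBy B g)}
        one_mem' := by
          intro B _
          rw [conjBy_one]
        mul_mem' := by
          intro g h hg hh B hB
          rw [conjBy_mul]
          exact (hh B hB).trans (hg _ (hS.conj_mem B hB h))
        inv_mem' := by
          intro g hg B hB
          have := hg _ (hS.conj_mem B hB g⁻¹)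
          rw [conjBy_conjBy_inv] at this
          exact Std.Symm.symm _ _ this }
    have hT : (⨆ A ∈ S, A) ≤ T := iSup₂_le (fun E hE e he B hB => key hS hall hE he hB)
    intro A hA B hB
    obtain ⟨g, rfl⟩ := hconj A hA B hB
    exact hT (by rw [hS.generates]; trivial) A hA

end Cfsg.Agent.S5032
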