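import Cfsg.Statements.S5041
import Cfsg.Agent.Lib.Helper22.Root4

set_option autoImplicit false
open Cfsg

namespace Cfsg.Agent.S5041

open Cfsg.Agent.H25 Cfsg.Agent.H22 Cfsg.Agent.H22.Root

section aux

variable {G : Type*} [Group G] {S : Set (Subgroup G)} {A B C : Subgroup G}

theorem conjBy_comm (P Q : Subgroup G) (g : G) : ⁅conjBy P g, conjBy Q g⁆ = conjBy ⁅P, Q⁆ g :=
  (Subgroup.map_commutator P Q _).symm

theorem conj_case (hS : IsRootSubgroupSet S) (hA : A ∈ S) (hB : B ∈ S)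
    (h : RootCommutatorCase S A B) (g : G) : RootCommutatorCase S (conjBy A g) (conjBy B g) :=
  comm_case hS (hS.conj_mem A hA g) (hS.conj_mem B hB g)
    (by rw [conjBy_comm]; exact hS.conj_mem _ h.1 g)

theorem eadj_symm {X Y : Subgroup G} (h : EAdj S S X Y) : EAdj S S Y X := by
  obtain ⟨hX, hY, ⟨_, hne, hc⟩, hpart⟩ := h
  exact ⟨hY, hX, ⟨hX, hne.symm, by rw [Subgroup.commutator_comm]; exact hc⟩,
    by rw [sup_comm]; exact hpart⟩

theorem step_line (hS : IsRootSubgroupSet S) (hAn : ¬ IsIsolatedIn (FAdj S) S A) (hA : A ∈ S)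
    (h : RootCommutatorCase S A B) : EAdj S S ⁅A, B⁆ A :=
  ⟨h.1, hA, line_partner hS hAn hA h⟩

theorem stepQ (hS : IsRootSubgroupSet S) (hall : ∀ B ∈ S, ¬ IsIsolatedIn (FAdj S) S B)
    (hA : A ∈ S) (hB : B ∈ S) {a : G} (ha : a ∈ A)
    (h : ⁅A, B⁆ = ⊥ ∨ RootCommutatorCase S A B) :
    Relation.ReflTransGen (EAdj S S) B (conjBy B a) := by
  rcases h with h | h
  · rw [conjBy_of_central (fun c hc => comm_of_commutator_eq_bot h ha hc)]
  · have h' := RootComm_symm h
    have e1 := step_line hS (hall B hB) hB h'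
    have h'' := conj_case hS hB hA h' a
    have e2 := step_line hS (hall _ (hS.conj_mem B hB a)) (hS.conj_mem B hB a) h''
    rw [conjBy_comm, conjBy_of_central (C := ⁅B, A⁆)
      (fun c hc => (h'.2.1 c hc a (Subgroup.mem_sup_right ha)).symm)] at e2
    exact (Relation.ReflTransGen.single (eadj_symm e1)).trans (Relation.ReflTransGen.single e2)

theorem exists_C (hS : IsRootSubgroupSet S) (hall : ∀ B ∈ S, ¬ IsIsolatedIn (FAdj S) S B)
    (hpsi : ∀ A ∈ S, ∃ E ∈ S, RootCommutatorCase S A E)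
    (hA : A ∈ S) (hB : B ∈ S) (hp : IsRankOnePair A B) :
    ∃ C ∈ S, Cm A C ∧ RootCommutatorCase S B C := by
  obtain ⟨E, hE, hAE⟩ := hpsi A hA
  have hAn := hall A hA
  have hAC : Cm A ⁅A, E⁆ := cmAC hAE
  obtain ⟨c, hc, hc1⟩ := Root.exists_ne_one hS hAE.1
  rcases hS.pair B hB _ hAE.1 with h | hq | h
  · exfalso
    obtain ⟨a, ha, ha1⟩ := Root.exists_ne_one hS hA
    have hz : c ∈ Subgroup.centralizer ((A ⊔ B : Subgroup G) : Set G) := by
      have h1 : Cm (A ⊔ B) ⁅A, E⁆ :=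
        Cm.sup_left hAC (fun b hb c hc => comm_of_commutator_eq_bot h hb hc)
      rw [Subgroup.mem_centralizer_iff]
      intro x hx
      exact h1 x hx c hc
    apply Cfsg.Agent.S5025.result hS hA ⟨hB, hp⟩ hz hc1 a ha ha1
    obtain ⟨e, he, hm⟩ := cover hS hAn hA hAE ha ha1 hc
    refine ⟨?_, conjBy A e, hS.conj_mem A hA e, ?_⟩
    · intro e1
      apply hc1
      apply RootComm.eq_one_of_mem_left hS hAE hc
      rw [eq_inv_of_mul_eq_one_left e1]
      exact A.inv_mem ha
    · rw [← hAC a ha c hc]; exact hm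
  · obtain ⟨b, hb, hb1, he1⟩ := (RankOnePair_symm hq).cond_left c hc hc1
    obtain ⟨a, ha, ha1, he2⟩ := hp.cond_right b hb hb1
    have h1 : Cm (conjBy B a⁻¹) (conjBy B c⁻¹) := by
      rw [he2, ← he1]
      exact cm_conj hAC b⁻¹
    have h2 : Cm B (conjBy B (a * c⁻¹)) := by
      have := cm_conj h1 a
      rwa [conjBy_conjBy_inv, conjBy_conjBy] at this
    obtain ⟨e, he, hm⟩ := cover hS hAn hA hAE ha ha1 (inv_mem hc)
    have hPS : conjBy A e ∈ S := hS.conj_mem A hA e
    have hx1 : a * c⁻¹ ≠ 1 := by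
      intro e1
      apply hc1
      apply RootComm.eq_one_of_mem_left hS hAE hc
      rw [← mul_inv_eq_one.1 e1]
      exact ha
    refine ⟨conjBy A e, hPS, cm_mono (cm_A_AL hS hA hAE) le_rfl (conjBy_le he), ?_⟩
    rcases hS.pair B hB _ hPS with h3 | h3 | h3
    · exfalso
      have h4 : conjBy B (a * c⁻¹) = B :=
        conjBy_of_central (fun y hy => (comm_of_commutator_eq_bot h3 hy hm).symm)
      rw [conjBy_mul, conjBy_eq_iff, ← he1, he2, conjBy_inj] at h4
      apply hc1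
      apply RootComm.eq_one_of_mem_left hS hAE hc
      rw [← h4]; exact hc
    · exfalso
      have h3' := RankOnePair_symm h3
      have hne : conjBy B (a * c⁻¹) ≠ B := fun he => hx1 (RankOne.eq_one_of_conjBy_eq h3' hm he)
      have hp2 : IsRankOnePair (conjBy B (a * c⁻¹)) B :=
        RankOne.pair_of_unipotents h3' ((RankOne.mem_unipotent_iff h3').2 (Or.inr ⟨_, hm, rfl⟩))
          (RankOne.right_mem_unipotent h3') hne
      exact RankOne.commutator_ne_bot hp2 (commutator_eq_bot_of_comm h2.symm)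
    · exact h3
  · exact ⟨_, hAE.1, hAC, h⟩

theorem stepAll (hS : IsRootSubgroupSet S) (hall : ∀ B ∈ S, ¬ IsIsolatedIn (FAdj S) S B)
    (hpsi : ∀ A ∈ S, ∃ E ∈ S, RootCommutatorCase S A E)
    (hA : A ∈ S) (hB : B ∈ S) {a : G} (ha : a ∈ A) :
    Relation.ReflTransGen (EAdj S S) B (conjBy B a) := by
  rcases hS.pair A hA B hB with h | hp | h
  · exact stepQ hS hall hA hB ha (Or.inl h)
  · obtain ⟨C, hC, hAC, hBC⟩ := exists_C hS hall hpsi hA hB hp
    have e1 := step_line hS (hall B hB) hB hBC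
    have e2 := stepQ hS hall hA hBC.1 ha (pairAM hS hA hC hBC hAC hB)
    have e3 := step_line hS (hall _ (hS.conj_mem B hB a)) (hS.conj_mem B hB a)
      (conj_case hS hB hC hBC a)
    rw [conjBy_comm] at e3
    exact ((Relation.ReflTransGen.single (eadj_symm e1)).trans e2).trans
      (Relation.ReflTransGen.single e3)
  · exact stepQ hS hall hA hB ha (Or.inr h)

end aux

/-- Let S be a non-degenerate class of abstract root subgroups of G. Then the graph on S joining A to its line partners, and the commuting graph on S, are both connected. -/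
theorem result {G : Type*} [Group G] {S : Set (Subgroup G)} (hS : Cfsg.IsRootSubgroupClass S) (hnd : Cfsg.IsNondegenerateRootSet S) :
    Cfsg.IsConnectedFamily (Cfsg.EAdj S S) S ∧ Cfsg.IsConnectedFamily (Cfsg.DAdj S) S := by
  obtain ⟨hS, _, hconj⟩ := hS
  obtain ⟨-, ⟨A₀, hA₀, B₀, hB₀, hp₀⟩, ⟨A₁, hA₁, B₁, hB₁, hc₁⟩⟩ := hnd
  have hall : ∀ B ∈ S, ¬ Cfsg.IsIsolatedIn (Cfsg.FAdj S) S B := by
    intro B hB
    obtain ⟨g, rfl⟩ := hconj A₀ hA₀ B hB
    exact nonisolated_conj hS (nonisolated_of_partner hA₀ hB₀ hp₀) hA₀ g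
  have hpsi : ∀ A ∈ S, ∃ E ∈ S, RootCommutatorCase S A E := by
    intro A hA
    obtain ⟨g, rfl⟩ := hconj A₁ hA₁ A hA
    exact ⟨conjBy B₁ g, hS.conj_mem B₁ hB₁ g, conj_case hS hA₁ hB₁ hc₁ g⟩
  have hE : Cfsg.IsConnectedFamily (Cfsg.EAdj S S) S := by
    haveI hsymm : Std.Symm (Cfsg.EAdj S S) := ⟨fun X Y h => eadj_symm h⟩
    let T : Subgroup G :=
      { carrier := {g | ∀ B ∈ S, Relation.ReflTransGen (Cfsg.EAdj S S) B (conjBy B g)}
        one_mem' := by
          intro B _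
          rw [conjBy_one]
        mul_mem' := by
          intro g h hg hh B hB
          rw [conjBy_mul]
          exact (hh B hB).trans (hg _ (hS.conj_mem B hB h))
        inv_mem' := by
          intro g hg B hB
          have := hg _ (hS.conj_mem B hB g⁻¹)
          rw [conjBy_conjBy_inv] at this
          exact Std.Symm.symm _ _ this }
    have hT : (⨆ A ∈ S, A) ≤ T :=
      iSup₂_le (fun E hE e he B hB => stepAll hS hall hpsi hE hB he)
    intro A hA B hB
    obtain ⟨g, rfl⟩ := hconj A hA B hB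
    exact hT (by rw [hS.generates]; trivial) A hA
  refine ⟨hE, fun A hA B hB => ?_⟩
  refine Relation.ReflTransGen.mono ?_ A B (hE A hA B hB)
  rintro X Y ⟨hX, hY, ⟨_, hne, hc⟩, _⟩
  exact ⟨hX, hY, hne.symm, hc⟩

end Cfsg.Agent.S5041
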