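import Cfsg.Statements.S5034
import Cfsg.Agent.S5041

set_option autoImplicit false
open Cfsg

namespace Cfsg.Agent.S5034

open Cfsg.Agent.H25 Cfsg.Agent.H22 Cfsg.Agent.H22.Root Cfsg.Agent.S5041

section aux

variable {G : Type*} [Group G] {S : Set (Subgroup G)} {A B C : Subgroup G}

theorem L_le' {E : Subgroup G} (hAE : RootCommutatorCase S A E) {g : G} (hg : g ∈ E) (hg1 : g ≠ 1) :
    ⁅A, E⁆ ≤ A ⊔ conjBy A g := by
  rw [← hAE.2.2.2 g hg hg1, Subgroup.closure_le]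
  rintro _ ⟨a, ha, rfl⟩
  have : a * g * a⁻¹ * g⁻¹ = a * (g * a⁻¹ * g⁻¹) := by group
  show a * g * a⁻¹ * g⁻¹ ∈ _
  rw [this]
  exact mul_mem (Subgroup.mem_sup_left ha)
    (Subgroup.mem_sup_right (conj_mem_conjBy (A.inv_mem ha) g))

theorem exists_C' (hS : IsRootSubgroupSet S) (hall : ∀ B ∈ S, ¬ IsIsolatedIn (FAdj S) S B)
    (hpsi : ∀ A ∈ S, ∃ E ∈ S, RootCommutatorCase S A E)
    (hA : A ∈ S) (hB : B ∈ S) (hp : IsRankOnePair A B) :
    ∃ C ∈ linePartners S A, RootCommutatorCase S B C := by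
  obtain ⟨E, hE, hAE⟩ := hpsi A hA
  have hAn := hall A hA
  have hAC : Cm A ⁅A, E⁆ := cmAC hAE
  obtain ⟨c, hc, hc1⟩ := Root.exists_ne_one hS hAE.1
  rcases hS.pair B hB _ hAE.1 with h | hq | h
  · exfalso
    obtain ⟨a, ha, ha1⟩ := Root.exists_ne_one hS hA
    have hz : c ∈ Subgroup.centralizer ((A ⊔ B : Subgroup G) : Set G) := by
      have h1 : Cm (A ⊔ B) ⁅A, E⁆ :=
        Cm.sup_left hAC (fun b hb c hc => comm_of_commutator_eq_bot h hb hc)
      rw [Subgroup.mem_centralizer_iff]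
      intro x hx
      exact h1 x hx c hc
    apply Cfsg.Agent.S5025.result hS hA ⟨hB, hp⟩ hz hc1 a ha ha1
    obtain ⟨e, he, hm⟩ := cover hS hAn hA hAE ha ha1 hc
    refine ⟨?_, conjBy A e, hS.conj_mem A hA e, ?_⟩
    · intro e1
      apply hc1
      apply RootComm.eq_one_of_mem_left hS hAE hc
      rw [eq_inv_of_mul_eq_one_left e1]
      exact A.inv_mem ha
    · rw [← hAC a ha c hc]; exact hm
  · obtain ⟨b, hb, hb1, he1⟩ := (RankOnePair_symm hq).cond_left c hc hc1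
    obtain ⟨a, ha, ha1, he2⟩ := hp.cond_right b hb hb1
    have h1 : Cm (conjBy B a⁻¹) (conjBy B c⁻¹) := by
      rw [he2, ← he1]
      exact cm_conj hAC b⁻¹
    have h2 : Cm B (conjBy B (a * c⁻¹)) := by
      have := cm_conj h1 a
      rwa [conjBy_conjBy_inv, conjBy_conjBy] at this
    obtain ⟨e, he, hm⟩ := cover hS hAn hA hAE ha ha1 (inv_mem hc)
    have hPS : conjBy A e ∈ S := hS.conj_mem A hA e
    have hx1 : a * c⁻¹ ≠ 1 := by
      intro e1
      apply hc1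
      apply RootComm.eq_one_of_mem_left hS hAE hc
      rw [← mul_inv_eq_one.1 e1]
      exact ha
    have hAP : Cm A (conjBy A e) := cm_mono (cm_A_AL hS hA hAE) le_rfl (conjBy_le he)
    have h3 : RootCommutatorCase S B (conjBy A e) := by
      rcases hS.pair B hB _ hPS with h3 | h3 | h3
      · exfalso
        have h4 : conjBy B (a * c⁻¹) = B :=
          conjBy_of_central (fun y hy => (comm_of_commutator_eq_bot h3 hy hm).symm)
        rw [conjBy_mul, conjBy_eq_iff, ← he1, he2, conjBy_inj] at h4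
        apply hc1
        apply RootComm.eq_one_of_mem_left hS hAE hc
        rw [← h4]; exact hc
      · exfalso
        have h3' := RankOnePair_symm h3
        have hne : conjBy B (a * c⁻¹) ≠ B := fun he => hx1 (RankOne.eq_one_of_conjBy_eq h3' hm he)
        have hp2 : IsRankOnePair (conjBy B (a * c⁻¹)) B :=
          RankOne.pair_of_unipotents h3' ((RankOne.mem_unipotent_iff h3').2 (Or.inr ⟨_, hm, rfl⟩))
            (RankOne.right_mem_unipotent h3') hne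
        exact RankOne.commutator_ne_bot hp2 (commutator_eq_bot_of_comm h2.symm)
      · exact h3
    refine ⟨conjBy A e, ?_, h3⟩
    have hPA : conjBy A e ≠ A := by
      intro h
      rw [h] at h3
      exact RootComm.not_rankOne h3 (RankOnePair_symm hp)
    have he1' : e ≠ 1 := by
      rintro rfl
      exact hPA (conjBy_one A)
    have hsup : A ⊔ conjBy A e = A ⊔ ⁅A, E⁆ :=
      le_antisymm (sup_le le_sup_left (conjBy_le he)) (sup_le le_sup_left (L_le' hAE he he1'))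
    exact ⟨⟨hPS, hPA, commutator_eq_bot_of_comm hAP⟩, by rw [hsup]; exact partition hS hAn hA hAE⟩
  · exact ⟨_, (eadj_symm (step_line hS hAn hA hAE)).2.2, h⟩

theorem stepA (hS : IsRootSubgroupSet S) (hall : ∀ B ∈ S, ¬ IsIsolatedIn (FAdj S) S B)
    (hA : A ∈ S) (hB : B ∈ S) (hp : IsRankOnePair A B) (hCl : C ∈ linePartners S A)
    (hBC : RootCommutatorCase S B C) {a b : G} (ha : a ∈ A) (ha1 : a ≠ 1) (hb : b ∈ B) (hb1 : b ≠ 1)
    (he : conjBy A b⁻¹ = conjBy B a⁻¹) {c : G} (hc : c ∈ C) :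
    a * (c⁻¹ * b⁻¹ * c * b) * a⁻¹ = (c⁻¹ * b⁻¹ * c * b) * c⁻¹ := by
  have hC : C ∈ S := hCl.1.1
  have hAC : Cm A C := fun x hx y hy => comm_of_commutator_eq_bot hCl.1.2.2 hx hy
  have hf : c⁻¹ * b⁻¹ * c * b ∈ ⁅B, C⁆ := by
    rw [Subgroup.commutator_comm]; exact psi_mem hc hb
  have hcf : b⁻¹ * c * b⁻¹⁻¹ = c * (c⁻¹ * b⁻¹ * c * b) := by group
  generalize c⁻¹ * b⁻¹ * c * b = f at hf hcf ⊢
  have hk : f⁻¹ * a * f⁻¹⁻¹ * a⁻¹ ∈ ⁅A, ⁅B, C⁆⁆ := by
    rw [Subgroup.commutator_comm]; exact commutator_mem (inv_mem hf) ha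
  have hak : a * f * a⁻¹ = f * (f⁻¹ * a * f⁻¹⁻¹ * a⁻¹) := by group
  generalize f⁻¹ * a * f⁻¹⁻¹ * a⁻¹ = k at hk hak
  obtain ⟨hkA, hkF, hkC⟩ := K_comm hS hA hC hBC hAC hB k hk
  have hac : a * c = c * a := hAC a ha c hc
  have hyB : ∀ b' ∈ B, Commute b' (c * k) := by
    intro b' hb'
    have h1 : a⁻¹ * b' * a⁻¹⁻¹ ∈ conjBy A b⁻¹ := by rw [he]; exact conj_mem_conjBy hb' a⁻¹
    have h2 : b⁻¹ * c * b⁻¹⁻¹ ∈ conjBy C b⁻¹ := conj_mem_conjBy hc b⁻¹
    have h3 := cm_conj hAC b⁻¹ _ h1 _ h2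
    rw [hcf] at h3
    have h4 : a * (c * f) * a⁻¹ = c * f * k := by
      calc a * (c * f) * a⁻¹ = (a * c) * a⁻¹ * (a * f * a⁻¹) := by group
        _ = (c * a) * a⁻¹ * (f * k) := by rw [hac, hak]
        _ = c * f * k := by group
    have h5 : Commute b' (c * f * k) := by
      rw [← h4]
      show b' * (a * (c * f) * a⁻¹) = a * (c * f) * a⁻¹ * b'
      calc b' * (a * (c * f) * a⁻¹) = a * ((a⁻¹ * b' * a⁻¹⁻¹) * (c * f)) * a⁻¹ := by group
        _ = a * ((c * f) * (a⁻¹ * b' * a⁻¹⁻¹)) * a⁻¹ := by rw [h3]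
        _ = a * (c * f) * a⁻¹ * b' := by group
    have h6 : Commute b' f := (hBC.2.1 f hf b' (Subgroup.mem_sup_left hb')).symm
    have h7 : c * k = (c * f * k) * f⁻¹ := by
      calc c * k = c * (k * f) * f⁻¹ := by group
        _ = c * (f * k) * f⁻¹ := by rw [hkF f hf]
        _ = (c * f * k) * f⁻¹ := by group
    rw [h7]
    exact h5.mul_right h6.inv_right
  have hyA : ∀ a' ∈ A, Commute a' (c * k) := by
    intro a' ha'
    have c1 : Commute a' c := hAC a' ha' c hc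
    have c2 : Commute a' k := (hkA a' ha').symm
    exact c1.mul_right c2
  have hy : c * k = 1 := by
    by_contra hy1
    have hz : c * k ∈ Subgroup.centralizer ((A ⊔ B : Subgroup G) : Set G) := by
      have h1 : A ⊔ B ≤ Subgroup.centralizer ({c * k} : Set G) := by
        apply sup_le
        · intro x hx
          rw [Subgroup.mem_centralizer_iff]
          intro y hy
          rw [Set.mem_singleton_iff.1 hy]
          exact (hyA x hx).symm
        · intro x hx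
          rw [Subgroup.mem_centralizer_iff]
          intro y hy
          rw [Set.mem_singleton_iff.1 hy]
          exact (hyB x hx).symm
      rw [Subgroup.mem_centralizer_iff]
      intro x hx
      exact (Subgroup.mem_centralizer_iff.1 (h1 hx) (c * k) rfl).symm
    apply Cfsg.Agent.S5025.result hS hA ⟨hB, hp⟩ hz hy1 a ha ha1
    have hne : c * k * a ≠ 1 := by
      intro e1
      apply RankOne.not_comm hp ha ha1 hb hb1
      have h1 : c * k = a⁻¹ := eq_inv_of_mul_eq_one_left e1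
      have h2 := hyB b hb
      rw [h1] at h2
      have h3 : Commute b a := by
        have := h2.inv_right
        rwa [inv_inv] at this
      exact h3.symm.eq
    obtain ⟨f', hf', a'', ha'', e2⟩ : ∃ f' ∈ ⁅B, C⁆, ∃ a'' ∈ A, a * k = f' * a'' * f'⁻¹ := by
      rcases pairAM hS hA hC hBC hAC hB with h | h
      · rw [h] at hk
        refine ⟨1, one_mem _, a, ha, ?_⟩
        rw [Subgroup.mem_bot.1 hk]; simp
      · obtain ⟨f', hf', hm⟩ := cover hS (hall A hA) hA h ha ha1 hk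
        exact ⟨f', hf', _, mem_conjBy.1 hm, by group⟩
    have hcf' : f' * c = c * f' := hBC.2.1 f' hf' c (Subgroup.mem_sup_right hc)
    have e3 : c * k * a = f' * (c * a'') * f'⁻¹ := by
      calc c * k * a = c * (k * a) := by group
        _ = c * (a * k) := by rw [hkA a ha]
        _ = (c * f') * a'' * f'⁻¹ := by rw [e2]; group
        _ = (f' * c) * a'' * f'⁻¹ := by rw [hcf']
        _ = f' * (c * a'') * f'⁻¹ := by group
    have hne2 : c * a'' ≠ 1 := by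
      intro e4
      apply hne
      rw [e3, e4]; group
    obtain ⟨P, ⟨hP, _⟩, hmP⟩ := hCl.2.2.1 (c * a'')
      (mul_mem (Subgroup.mem_sup_right hc) (Subgroup.mem_sup_left ha'')) hne2
    exact ⟨hne, conjBy P f', hS.conj_mem P hP f', by rw [e3]; exact conj_mem_conjBy hmP f'⟩
  rw [hak, eq_inv_of_mul_eq_one_right hy]

theorem calcB {a b c f : G} (r1 : a * c = c * a) (r2 : b * f = f * b)
    (r4 : b⁻¹ * c * b = c * f) (r5 : a * f * a⁻¹ = f * c⁻¹) :
    (b⁻¹ * a * b) * c * (b⁻¹ * a * b)⁻¹ = (a⁻¹ * b⁻¹ * a) * c * (a⁻¹ * b⁻¹ * a)⁻¹ := by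
  have s1 : b * c * b⁻¹ = c * f⁻¹ := by
    calc b * c * b⁻¹ = (b * (c * f) * b⁻¹) * (b * f * b⁻¹)⁻¹ := by group
      _ = (b * (b⁻¹ * c * b) * b⁻¹) * (f * b * b⁻¹)⁻¹ := by rw [r4, r2]
      _ = c * f⁻¹ := by group
  have s2 : a * (c * f⁻¹) * a⁻¹ = c * (c * f⁻¹) := by
    calc a * (c * f⁻¹) * a⁻¹ = (a * c) * a⁻¹ * (a * f * a⁻¹)⁻¹ := by group
      _ = (c * a) * a⁻¹ * (f * c⁻¹)⁻¹ := by rw [r1, r5]
      _ = c * (c * f⁻¹) := by group
  have r2' : b⁻¹ * f⁻¹ * b = f⁻¹ := by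
    have h : Commute b f := r2
    rw [(h.inv_left.inv_right).eq]; group
  have s3 : b⁻¹ * (c * (c * f⁻¹)) * b = c * f * c := by
    calc b⁻¹ * (c * (c * f⁻¹)) * b = (b⁻¹ * c * b) * (b⁻¹ * c * b) * (b⁻¹ * f⁻¹ * b) := by group
      _ = (c * f) * (c * f) * f⁻¹ := by rw [r4, r2']
      _ = c * f * c := by group
  have t2 : a⁻¹ * f * a = f * c := by
    calc a⁻¹ * f * a = a⁻¹ * ((f * c⁻¹) * c) * a := by group
      _ = a⁻¹ * ((a * f * a⁻¹) * c) * a := by rw [r5]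
      _ = f * (a⁻¹ * (c * a)) := by group
      _ = f * (a⁻¹ * (a * c)) := by rw [r1]
      _ = f * c := by group
  have L : (b⁻¹ * a * b) * c * (b⁻¹ * a * b)⁻¹ = c * f * c := by
    calc (b⁻¹ * a * b) * c * (b⁻¹ * a * b)⁻¹ = b⁻¹ * (a * (b * c * b⁻¹) * a⁻¹) * b := by group
      _ = c * f * c := by rw [s1, s2, s3]
  have R : (a⁻¹ * b⁻¹ * a) * c * (a⁻¹ * b⁻¹ * a)⁻¹ = c * f * c := by
    calc (a⁻¹ * b⁻¹ * a) * c * (a⁻¹ * b⁻¹ * a)⁻¹ = a⁻¹ * (b⁻¹ * ((a * c) * a⁻¹) * b) * a := by group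
      _ = a⁻¹ * (b⁻¹ * ((c * a) * a⁻¹) * b) * a := by rw [r1]
      _ = a⁻¹ * (b⁻¹ * c * b) * a := by group
      _ = a⁻¹ * (c * f) * a := by rw [r4]
      _ = a⁻¹ * (c * a) * (a⁻¹ * f * a) := by group
      _ = a⁻¹ * (a * c) * (f * c) := by rw [r1, t2]
      _ = c * f * c := by group
  rw [L, R]

theorem special_aux (hS : IsRootSubgroupSet S) (hall : ∀ B ∈ S, ¬ IsIsolatedIn (FAdj S) S B)
    (hA : A ∈ S) (hB : B ∈ S) (hp : IsRankOnePair A B) (hCl : C ∈ linePartners S A)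
    (hBC : RootCommutatorCase S B C) {a b : G} (ha : a ∈ A) (ha1 : a ≠ 1) (hb : b ∈ B) (hb1 : b ≠ 1)
    (he : conjBy A b⁻¹ = conjBy B a⁻¹) : b⁻¹ * a * b = a⁻¹ * b⁻¹ * a := by
  have hC : C ∈ S := hCl.1.1
  have hAC : Cm A C := fun x hx y hy => comm_of_commutator_eq_bot hCl.1.2.2 hx hy
  by_contra hne
  have hQC := conj_case hS hB hC hBC a⁻¹
  rw [conjBy_of_central (C := C) (z := a⁻¹) (fun c hc => hAC a⁻¹ (A.inv_mem ha) c hc)] at hQC
  have hu : b⁻¹ * a * b ∈ conjBy B a⁻¹ := by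
    rw [← he]
    have := conj_mem_conjBy ha b⁻¹
    rwa [inv_inv] at this
  have hw : a⁻¹ * b⁻¹ * a ∈ conjBy B a⁻¹ := by
    have := conj_mem_conjBy (B.inv_mem hb) a⁻¹
    rwa [inv_inv] at this
  apply RootComm.false_of_left_comm hS hQC (mul_mem (inv_mem hw) hu)
  · intro e1
    apply hne
    exact (inv_mul_eq_one.1 e1).symm
  · intro c hc
    have hf : c⁻¹ * b⁻¹ * c * b ∈ ⁅B, C⁆ := by
      rw [Subgroup.commutator_comm]; exact psi_mem hc hb
    have h1 := calcB (hAC a ha c hc) (hBC.2.1 _ hf b (Subgroup.mem_sup_left hb)).symm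
      (by group) (stepA hS hall hA hB hp hCl hBC ha ha1 hb hb1 he hc)
    calc (a⁻¹ * b⁻¹ * a)⁻¹ * (b⁻¹ * a * b) * c
        = (a⁻¹ * b⁻¹ * a)⁻¹ * ((b⁻¹ * a * b) * c * (b⁻¹ * a * b)⁻¹) * (b⁻¹ * a * b) := by group
      _ = (a⁻¹ * b⁻¹ * a)⁻¹ * ((a⁻¹ * b⁻¹ * a) * c * (a⁻¹ * b⁻¹ * a)⁻¹) * (b⁻¹ * a * b) := by rw [h1]
      _ = c * ((a⁻¹ * b⁻¹ * a)⁻¹ * (b⁻¹ * a * b)) := by group

end aux

/-- Let S be a non-degenerate class of abstract root subgroups of G, A ∈ S and B a rank one partner of A. Then some line partner C of A has ⁅B, C⁆ ∈ S, and the rank one pair A, B is special. -/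
theorem result {G : Type*} [Group G] {S : Set (Subgroup G)} (hS : Cfsg.IsRootSubgroupClass S) (hnd : Cfsg.IsNondegenerateRootSet S)
    {A B : Subgroup G} (hA : A ∈ S) (hB : B ∈ Cfsg.rankOnePartners S A) :
    (∃ C ∈ Cfsg.linePartners S A, C ∈ Cfsg.commutatorPartners S B) ∧ Cfsg.IsSpecialRankOnePair A B := by
  obtain ⟨hS, _, hconj⟩ := hS
  obtain ⟨-, ⟨A₀, hA₀, B₀, hB₀, hp₀⟩, ⟨A₁, hA₁, B₁, hB₁, hc₁⟩⟩ := hnd
  have hall : ∀ B ∈ S, ¬ Cfsg.IsIsolatedIn (Cfsg.FAdj S) S B := by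
    intro B hB
    obtain ⟨g, rfl⟩ := hconj A₀ hA₀ B hB
    exact nonisolated_conj hS (nonisolated_of_partner hA₀ hB₀ hp₀) hA₀ g
  have hpsi : ∀ A ∈ S, ∃ E ∈ S, RootCommutatorCase S A E := by
    intro A hA
    obtain ⟨g, rfl⟩ := hconj A₁ hA₁ A hA
    exact ⟨conjBy B₁ g, hS.conj_mem B₁ hB₁ g, conj_case hS hA₁ hB₁ hc₁ g⟩
  obtain ⟨C, hCl, hBC⟩ := exists_C' hS hall hpsi hA hB.1 hB.2
  refine ⟨⟨C, hCl, hCl.1.1, hBC.1⟩, hB.2, ?_⟩
  intro a ha ha1 b hb hb1 he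
  exact special_aux hS hall hA hB.1 hB.2 hCl hBC ha ha1 hb hb1 he

end Cfsg.Agent.S5034
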