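import Cfsg.Statements.S5035
import Cfsg.Agent.S5032

set_option autoImplicit false
open Cfsg

namespace Cfsg.Agent.S5035

open Cfsg.Agent.H25 Cfsg.Agent.H22 Cfsg.Agent.H22.Root

section aux

variable {G H : Type*} [Group G] [Group H] {S : Set (Subgroup G)} {A B : Subgroup G}

theorem map_conjBy (f : G →* H) (A : Subgroup G) (g : G) :
    (conjBy A g).map f = conjBy (A.map f) (f g) := by
  ext x
  constructor
  · rintro ⟨_, ⟨a, ha, rfl⟩, rfl⟩
    exact ⟨f a, ⟨a, ha, rfl⟩, by simp⟩
  · rintro ⟨_, ⟨a, ha, rfl⟩, rfl⟩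
    exact ⟨g * a * g⁻¹, ⟨a, ha, by simp⟩, by simp⟩

theorem cond_map (f : G →* H) (h : RankOneCondition A B) (hne : A.map f ≠ B.map f) :
    RankOneCondition (A.map f) (B.map f) := by
  rintro _ ⟨a, ha, rfl⟩ hfa1
  have ha1 : a ≠ 1 := by
    rintro rfl
    exact hfa1 (map_one f)
  obtain ⟨b, hb, hb1, he⟩ := h a ha ha1
  have he' : conjBy (A.map f) (f b)⁻¹ = conjBy (B.map f) (f a)⁻¹ := by
    rw [← map_inv, ← map_inv, ← map_conjBy, ← map_conjBy, he]
  refine ⟨f b, ⟨b, hb, rfl⟩, ?_, he'⟩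
  intro e
  apply hne
  rw [e, inv_one, conjBy_one] at he'
  have h2 : conjBy (A.map f) (f a) = B.map f := by
    rw [he', conjBy_conjBy_inv]
  rw [← h2, conjBy_of_mem (⟨a, ha, rfl⟩ : f a ∈ A.map f)]

theorem nilp_map (f : G →* H) (h : Group.IsNilpotent ↥A) : Group.IsNilpotent ↥(A.map f) :=
  Group.nilpotent_of_surjective (f.subgroupMap A) (f.subgroupMap_surjective A)

theorem rankOne_map (f : G →* H) (h : IsRankOnePair A B) (hne : A.map f ≠ B.map f) :
    IsRankOnePair (A.map f) (B.map f) :=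
  ⟨hne, nilp_map f h.nilpotent_left, nilp_map f h.nilpotent_right, cond_map f h.cond_left hne,
    cond_map f h.cond_right hne.symm⟩

theorem case_map (f : G →* H) (h : RootCommutatorCase S A B) :
    RootCommutatorCase ((fun A : Subgroup G => A.map f) '' S) (A.map f) (B.map f) := by
  have e : ⁅A.map f, B.map f⁆ = (⁅A, B⁆ : Subgroup G).map f := (Subgroup.map_commutator A B f).symm
  refine ⟨⟨⁅A, B⁆, h.1, e.symm⟩, ?_, ?_, ?_⟩
  · intro c hc x hx
    rw [e] at hc
    rw [← Subgroup.map_sup] at hx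
    obtain ⟨c', hc', rfl⟩ := hc
    obtain ⟨x', hx', rfl⟩ := hx
    rw [← map_mul, ← map_mul, h.2.1 c' hc' x' hx']
  · rintro _ ⟨a, ha, rfl⟩ hfa1
    have ha1 : a ≠ 1 := by
      rintro rfl
      exact hfa1 (map_one f)
    rw [e, ← h.2.2.1 a ha ha1, MonoidHom.map_closure]
    congr 1
    ext y
    constructor
    · rintro ⟨_, ⟨b, hb, rfl⟩, rfl⟩
      exact ⟨_, ⟨b, hb, rfl⟩, by simp⟩
    · rintro ⟨_, ⟨b, hb, rfl⟩, rfl⟩
      exact ⟨f b, ⟨b, hb, rfl⟩, by simp⟩
  · rintro _ ⟨b, hb, rfl⟩ hfb1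
    have hb1 : b ≠ 1 := by
      rintro rfl
      exact hfb1 (map_one f)
    rw [e, ← h.2.2.2 b hb hb1, MonoidHom.map_closure]
    congr 1
    ext y
    constructor
    · rintro ⟨_, ⟨a, ha, rfl⟩, rfl⟩
      exact ⟨_, ⟨a, ha, rfl⟩, by simp⟩
    · rintro ⟨_, ⟨a, ha, rfl⟩, rfl⟩
      exact ⟨f a, ⟨a, ha, rfl⟩, by simp⟩

theorem cm_map (f : G →* H) (h : Cm A A) : Cm (A.map f) (A.map f) := by
  rintro _ ⟨a, ha, rfl⟩ _ ⟨a', ha', rfl⟩
  rw [← map_mul, ← map_mul, h a ha a' ha']

theorem path_map (f : G →* H) (h : Relation.ReflTransGen (FAdj S) A B) :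
    Relation.ReflTransGen (FAdj ((fun A : Subgroup G => A.map f) '' S)) (A.map f) (B.map f) := by
  induction h with
  | refl => exact Relation.ReflTransGen.refl
  | @tail X Y _ hstep ih =>
    by_cases heq : X.map f = Y.map f
    · rw [← heq]
      exact ih
    · exact ih.tail ⟨⟨X, hstep.1, rfl⟩, ⟨Y, hstep.2.1, rfl⟩, rankOne_map f hstep.2.2 heq⟩

end aux

/-- Let S be a set of abstract root subgroups of G whose graph of rank one pairs is connected, and f a homomorphism from G onto a group H. Then either the images of the members of S form a set of abstract root subgroups of H whose graph of rank one pairs is again connected, or H equals the image of a member of S. -/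
theorem result {G H : Type*} [Group G] [Group H] {S : Set (Subgroup G)} (hS : Cfsg.IsRootSubgroupSet S)
    (hc : Cfsg.IsConnectedFamily (Cfsg.FAdj S) S) (f : G →* H) (hf : Function.Surjective f) :
    (Cfsg.IsRootSubgroupSet ((fun A : Subgroup G => A.map f) '' S) ∧
      Cfsg.IsConnectedFamily (Cfsg.FAdj ((fun A : Subgroup G => A.map f) '' S)) ((fun A : Subgroup G => A.map f) '' S)) ∨
    ∃ A ∈ S, A.map f = ⊤ := by
  by_cases hbot : ∃ A ∈ S, A.map f = ⊥
  · right
    obtain ⟨A, hA, hAb⟩ := hbot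
    refine ⟨A, hA, ?_⟩
    rw [hAb]
    have hker : ∀ E ∈ S, E ≤ f.ker := by
      intro E hE
      obtain ⟨g, rfl⟩ := Cfsg.Agent.S5032.conj_of_path (hc A hA E hE)
      rintro _ ⟨a, ha, rfl⟩
      have h1 : f a = 1 := by
        have : f a ∈ A.map f := ⟨a, ha, rfl⟩
        rw [hAb] at this
        exact Subgroup.mem_bot.1 this
      rw [MonoidHom.mem_ker]
      simp [h1]
    have htop : (⊤ : Subgroup G) ≤ f.ker := by
      rw [← hS.generates]
      exact iSup₂_le hker
    symm
    rw [eq_bot_iff]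
    intro h _
    obtain ⟨g, rfl⟩ := hf h
    exact Subgroup.mem_bot.2 (MonoidHom.mem_ker.1 (htop (Subgroup.mem_top g)))
  · left
    push Not at hbot
    constructor
    · refine ⟨?_, ?_, ?_, ?_, ?_⟩
      · rintro _ ⟨A, hA, rfl⟩
        have h := cm_map f (cm_self hS hA)
        exact ⟨⟨fun x y => Subtype.ext (h x.1 x.2 y.1 y.2)⟩⟩
      · rintro _ ⟨A, hA, rfl⟩
        exact hbot A hA
      · rw [eq_top_iff]
        intro h _
        obtain ⟨g, rfl⟩ := hf h
        have hle : (⨆ A ∈ S, A) ≤ Subgroup.comap f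
            (⨆ A' ∈ (fun A : Subgroup G => A.map f) '' S, A') := by
          apply iSup₂_le
          intro A hA
          rw [← Subgroup.map_le_iff_le_comap]
          exact le_iSup₂ (f := fun (E : Subgroup H)
            (_ : E ∈ (fun A : Subgroup G => A.map f) '' S) => E) (A.map f) ⟨A, hA, rfl⟩
        rw [hS.generates] at hle
        exact hle (Subgroup.mem_top g)
      · rintro _ ⟨A, hA, rfl⟩ h
        obtain ⟨g, rfl⟩ := hf h
        exact ⟨conjBy A g, hS.conj_mem A hA g, map_conjBy f A g⟩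
      · rintro _ ⟨A, hA, rfl⟩ _ ⟨B, hB, rfl⟩
        rcases hS.pair A hA B hB with h | h | h
        · left
          show ⁅A.map f, B.map f⁆ = ⊥
          rw [← Subgroup.map_commutator, h, Subgroup.map_bot]
        · by_cases heq : A.map f = B.map f
          · left
            show ⁅A.map f, B.map f⁆ = ⊥
            rw [← heq]
            exact commutator_eq_bot_of_comm (cm_map f (cm_self hS hA))
          · right; left
            exact rankOne_map f h heq
        · right; right
          exact case_map f h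
    · rintro _ ⟨A, hA, rfl⟩ _ ⟨B, hB, rfl⟩
      exact path_map f (hc A hA B hB)

end Cfsg.Agent.S5035
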