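import Cfsg.Statements.S5036
import Cfsg.Agent.S5030

set_option autoImplicit false
open Cfsg

namespace Cfsg.Agent.S5036

open Cfsg.Agent.H25 Cfsg.Agent.H22 Cfsg.Agent.H22.Root

section aux

variable {G : Type*} [Group G] {S : Set (Subgroup G)} {A B C D : Subgroup G}

theorem cover' (h : RootCommutatorCase S A B) {a c : G} (ha : a ∈ A) (ha1 : a ≠ 1)
    (hc : c ∈ ⁅A, B⁆) : ∃ b ∈ B, a * c ∈ conjBy A b := by
  have hmul : ∀ b ∈ B, ∀ b' ∈ B, a⁻¹ * (b * b')⁻¹ * a * (b * b')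
      = (a⁻¹ * b⁻¹ * a * b) * (a⁻¹ * b'⁻¹ * a * b') := by
    intro b hb b' hb'
    have hz := h.2.1 _ (psi_mem ha hb) b' (Subgroup.mem_sup_right hb')
    have hm : a⁻¹ * b'⁻¹ * a * b' ∈ A ⊔ B := (Trip.comm_le_sup A B) (psi_mem ha hb')
    have hz2 := h.2.1 _ (psi_mem ha hb) _ hm
    calc a⁻¹ * (b * b')⁻¹ * a * (b * b')
          = a⁻¹ * b'⁻¹ * a * ((a⁻¹ * b⁻¹ * a * b) * b') := by group
        _ = a⁻¹ * b'⁻¹ * a * (b' * (a⁻¹ * b⁻¹ * a * b)) := by rw [hz]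
        _ = (a⁻¹ * b'⁻¹ * a * b') * (a⁻¹ * b⁻¹ * a * b) := by group
        _ = (a⁻¹ * b⁻¹ * a * b) * (a⁻¹ * b'⁻¹ * a * b') := hz2.symm
  let K : Subgroup G :=
    { carrier := {c | ∃ b ∈ B, c = a⁻¹ * b⁻¹ * a * b}
      one_mem' := ⟨1, B.one_mem, by group⟩
      mul_mem' := by
        rintro _ _ ⟨b, hb, rfl⟩ ⟨b', hb', rfl⟩
        exact ⟨b * b', B.mul_mem hb hb', (hmul b hb b' hb').symm⟩
      inv_mem' := by
        rintro _ ⟨b, hb, rfl⟩
        refine ⟨b⁻¹, B.inv_mem hb, ?_⟩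
        have := hmul b hb b⁻¹ (B.inv_mem hb)
        have h1 : a⁻¹ * (b * b⁻¹)⁻¹ * a * (b * b⁻¹) = 1 := by group
        rw [h1] at this
        exact inv_eq_of_mul_eq_one_right this.symm }
  have hgen := h.2.2.1 a⁻¹ (A.inv_mem ha) (inv_ne_one.2 ha1)
  have hle : ⁅A, B⁆ ≤ K := by
    rw [← hgen, Subgroup.closure_le]
    rintro _ ⟨b, hb, rfl⟩
    exact ⟨b⁻¹, B.inv_mem hb, by group⟩
  obtain ⟨b₀, hb₀, hc'⟩ := hle hc
  refine ⟨b₀⁻¹, B.inv_mem hb₀, ?_⟩
  rw [mem_conjBy, inv_inv]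
  have : b₀ * (a * c) * b₀⁻¹ = a := by rw [hc']; group
  rw [this]; exact ha

theorem half {N P P' Q Q' : Subgroup G} {u v : G}
    (hfix : ∀ x ∈ N, (∀ q ∈ Q, q * x = x * q) → x ∈ P) (hcm : Cm Q' P')
    (hN : ∀ x ∈ P', v⁻¹ * (u * x * u⁻¹) * v ∈ N) (he : conjBy Q' u = conjBy Q v) :
    conjBy P' u ≤ conjBy P v := by
  rintro _ ⟨x, hx, rfl⟩
  simp only [MulEquiv.coe_toMonoidHom, MulAut.conj_apply]
  rw [mem_conjBy]
  apply hfix _ (hN x hx)
  intro q hq
  have h1 : v * q * v⁻¹ ∈ conjBy Q' u := by rw [he]; exact conj_mem_conjBy hq v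
  rw [mem_conjBy] at h1
  have h2 := hcm _ h1 x hx
  calc q * (v⁻¹ * (u * x * u⁻¹) * v)
      = v⁻¹ * u * ((u⁻¹ * (v * q * v⁻¹) * u) * x) * u⁻¹ * v := by group
    _ = v⁻¹ * u * (x * (u⁻¹ * (v * q * v⁻¹) * u)) * u⁻¹ * v := by rw [h2]
    _ = v⁻¹ * (u * x * u⁻¹) * v * q := by group

theorem U_comm {R : Subgroup G} {n : ℕ} {x y : G} (hx : x ∈ S5030.U R (n + 1)) (hy : y ∈ R) :
    x * y * x⁻¹ * y⁻¹ ∈ S5030.U R n := by
  obtain ⟨x', hx', rfl⟩ := hx
  have := (Subgroup.mem_upperCentralSeries_succ_iff.1 hx') ⟨y, hy⟩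
  rw [commutatorElement_def] at this
  exact ⟨_, this, rfl⟩

theorem U_zero (R : Subgroup G) : S5030.U R 0 = ⊥ := by
  unfold S5030.U
  rw [Subgroup.upperCentralSeries_zero]
  exact Subgroup.map_bot _

structure Quad (S : Set (Subgroup G)) (A B C D : Subgroup G) : Prop where
  hS : IsRootSubgroupSet S
  hA : A ∈ S
  hB : B ∈ S
  hC : C ∈ S
  hD : D ∈ S
  hAB : RootCommutatorCase S A B
  eC : ⁅A, B⁆ = C
  hCD : RootCommutatorCase S C D
  eA : ⁅C, D⁆ = A

namespace Quad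

theorem symm (q : Quad S A B C D) : Quad S C D A B :=
  ⟨q.hS, q.hC, q.hD, q.hA, q.hB, q.hCD, q.eA, q.hAB, q.eC⟩

theorem cmAC (q : Quad S A B C D) : Cm A C := by
  have := Root.cmAC q.hAB
  rwa [q.eC] at this

theorem cmBC (q : Quad S A B C D) : Cm B C := fun b hb c hc =>
  (q.hAB.2.1 c (by rw [q.eC]; exact hc) b (Subgroup.mem_sup_right hb)).symm

theorem cmDA (q : Quad S A B C D) : Cm D A := q.symm.cmBC

theorem fix (q : Quad S A B C D) {x : G} (hx : x ∈ A ⊔ C) (h : ∀ b ∈ B, b * x = x * b) :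
    x ∈ C := by
  obtain ⟨a, ha, c, hc, rfl⟩ := mem_sup_of_cm q.cmAC hx
  by_cases ha1 : a = 1
  · simpa [ha1] using hc
  · exfalso
    apply RootComm.false_of_left_comm q.hS q.hAB ha ha1
    intro b hb
    have h1 := h b hb
    have h2 := q.cmBC b hb c hc
    have : b * a * c = a * b * c := by
      rw [mul_assoc, h1, mul_assoc, ← h2, mul_assoc]
    exact (mul_right_cancel this).symm

theorem conjA_le (q : Quad S A B C D) {b : G} (hb : b ∈ B) : conjBy A b ≤ A ⊔ C := by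
  have := conjBy_le (A := A) hb
  rwa [q.eC] at this

theorem conjC_eq (q : Quad S A B C D) {b : G} (hb : b ∈ B) : conjBy C b = C :=
  conjBy_of_central (fun c hc => q.cmBC b hb c hc)

theorem B_norm (q : Quad S A B C D) : B ≤ Subgroup.normalizer ((A ⊔ C : Subgroup G) : Set G) := by
  have hle : ∀ b ∈ B, conjBy (A ⊔ C) b ≤ A ⊔ C := by
    intro b hb
    rw [conjBy_sup, q.conjC_eq hb]
    exact sup_le (q.conjA_le hb) le_sup_right
  intro b hb
  rw [← conjBy_eq_self_iff]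
  apply le_antisymm (hle b hb)
  have := conjBy_mono (hle b⁻¹ (B.inv_mem hb)) b
  rwa [conjBy_conjBy_inv] at this

theorem X_norm (q : Quad S A B C D) :
    B ⊔ D ≤ Subgroup.normalizer ((A ⊔ C : Subgroup G) : Set G) := by
  apply sup_le q.B_norm
  have := q.symm.B_norm
  rwa [sup_comm] at this

theorem conj_mem_N (q : Quad S A B C D) {y x : G} (hy : y ∈ B ⊔ D) (hx : x ∈ A ⊔ C) :
    y * x * y⁻¹ ∈ A ⊔ C := by
  have h := conjBy_eq_self_iff.2 (q.X_norm hy)
  rw [← h]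
  exact conj_mem_conjBy hx y

theorem key (q : Quad S A B C D) {b d : G} (hb : b ∈ B) (hd : d ∈ D)
    (he : conjBy B d = conjBy D b) : conjBy C d = conjBy A b := by
  apply le_antisymm
  · apply half (N := A ⊔ C) (Q := D) (Q' := B) ?_ q.cmBC ?_ he
    · intro x hx h
      exact q.symm.fix (by rwa [sup_comm]) h
    · intro x hx
      have : b⁻¹ * (d * x * d⁻¹) * b = (b⁻¹ * d) * x * (b⁻¹ * d)⁻¹ := by group
      rw [this]
      exact q.conj_mem_N (mul_mem (Subgroup.mem_sup_left (B.inv_mem hb)) (Subgroup.mem_sup_right hd))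
        (Subgroup.mem_sup_right hx)
  · apply half (N := A ⊔ C) (Q := B) (Q' := D) (fun x hx h => q.fix hx h) q.cmDA ?_ he.symm
    intro x hx
    have : d⁻¹ * (b * x * b⁻¹) * d = (d⁻¹ * b) * x * (d⁻¹ * b)⁻¹ := by group
    rw [this]
    exact q.conj_mem_N (mul_mem (Subgroup.mem_sup_right (D.inv_mem hd)) (Subgroup.mem_sup_left hb))
      (Subgroup.mem_sup_left hx)

theorem K1 (q : Quad S A B C D) (hp : IsRankOnePair B D) {b : G} (hb : b ∈ B) (hb1 : b ≠ 1) :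
    ∃ d ∈ D, d ≠ 1 ∧ conjBy A b = conjBy C d := by
  obtain ⟨d, hd, hd1, he⟩ := hp.cond_left b⁻¹ (B.inv_mem hb) (by simpa using hb1)
  rw [inv_inv] at he
  exact ⟨d⁻¹, D.inv_mem hd, by simpa using hd1, (q.key hb (D.inv_mem hd) he).symm⟩

theorem K2 (q : Quad S A B C D) (hp : IsRankOnePair B D) {d : G} (hd : d ∈ D) (hd1 : d ≠ 1) :
    ∃ b ∈ B, b ≠ 1 ∧ conjBy C d = conjBy A b := q.symm.K1 (RankOnePair_symm hp) hd hd1

theorem descent (q : Quad S A B C D) {R : Subgroup G} (hBR : B ≤ R) (hDR : D ≤ R) {n : ℕ}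
    (h : A ≤ S5030.U R (n + 2)) : A ≤ S5030.U R n := by
  have h1 : C ≤ S5030.U R (n + 1) := by
    rw [← q.eC, Subgroup.commutator_le]
    intro a ha b hb
    rw [commutatorElement_def]
    exact U_comm (h ha) (hBR hb)
  calc A = ⁅C, D⁆ := q.eA.symm
    _ ≤ S5030.U R n := by
      rw [Subgroup.commutator_le]
      intro c hc d hd
      rw [commutatorElement_def]
      exact U_comm (h1 hc) (hDR hd)

theorem rankOne (q : Quad S A B C D) : IsRankOnePair B D := by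
  rcases q.hS.pair B q.hB D q.hD with h | h | h
  · exfalso
    apply q.hS.ne_bot A q.hA
    rw [← q.eA]
    apply commutator_eq_bot_of_comm
    intro c hc d hd
    rw [← q.eC] at hc
    exact (comm_commutator (fun p hp => q.cmDA d hd p hp)
      (fun p hp => (comm_of_commutator_eq_bot h hp hd).symm) c hc).symm
  · exact h
  · exfalso
    have t : Trip S A B D := ⟨q.hS, q.hA, q.hB, q.hD, q.hAB, h, q.cmDA.symm⟩
    have h4 : A ≤ S5030.U (A ⊔ B ⊔ D) 4 := S5030.step4 t rfl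
    have hBR : B ≤ A ⊔ B ⊔ D := le_sup_right.trans le_sup_left
    have hDR : D ≤ A ⊔ B ⊔ D := le_sup_right
    have h0 := q.descent hBR hDR (q.descent hBR hDR h4)
    rw [U_zero] at h0
    exact q.hS.ne_bot A q.hA (le_bot_iff.1 h0)

theorem L_sub (q : Quad S A B C D) (hp : IsRankOnePair B D) :
    (fun b : G => conjBy A b) '' (B : Set G) ∪ {C} ⊆ (fun d : G => conjBy C d) '' (D : Set G) ∪ {A} := by
  rintro E (⟨b, hb, rfl⟩ | hE)
  · by_cases hb1 : b = 1
    · right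
      show conjBy A b = A
      rw [hb1, conjBy_one]
    · obtain ⟨d, hd, -, he⟩ := q.K1 hp hb hb1
      left; exact ⟨d, hd, he.symm⟩
  · left
    rw [Set.mem_singleton_iff.1 hE]
    exact ⟨1, D.one_mem, conjBy_one _⟩

theorem L_eq (q : Quad S A B C D) (hp : IsRankOnePair B D) :
    (fun b : G => conjBy A b) '' (B : Set G) ∪ {C} = (fun d : G => conjBy C d) '' (D : Set G) ∪ {A} :=
  Set.Subset.antisymm (q.L_sub hp) (q.symm.L_sub (RankOnePair_symm hp))

theorem L_inv_B (q : Quad S A B C D) {E : Subgroup G}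
    (hE : E ∈ (fun b : G => conjBy A b) '' (B : Set G) ∪ {C}) {b : G} (hb : b ∈ B) :
    conjBy E b ∈ (fun b : G => conjBy A b) '' (B : Set G) ∪ {C} := by
  rcases hE with ⟨b', hb', rfl⟩ | hE
  · left; exact ⟨b * b', B.mul_mem hb hb', (conjBy_conjBy _ _ _).symm⟩
  · right
    rw [Set.mem_singleton_iff.1 hE]
    exact q.conjC_eq hb

theorem L_inv_D (q : Quad S A B C D) (hp : IsRankOnePair B D) {E : Subgroup G}
    (hE : E ∈ (fun b : G => conjBy A b) '' (B : Set G) ∪ {C}) {d : G} (hd : d ∈ D) :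
    conjBy E d ∈ (fun b : G => conjBy A b) '' (B : Set G) ∪ {C} := by
  rw [q.L_eq hp] at hE ⊢
  exact q.symm.L_inv_B hE hd

theorem L_inv (q : Quad S A B C D) (hp : IsRankOnePair B D) {E : Subgroup G}
    (hE : E ∈ (fun b : G => conjBy A b) '' (B : Set G) ∪ {C}) {x : G} (hx : x ∈ B ⊔ D) :
    conjBy E x ∈ (fun b : G => conjBy A b) '' (B : Set G) ∪ {C} := by
  let T : Subgroup G :=
    { carrier := {x | ∀ E ∈ (fun b : G => conjBy A b) '' (B : Set G) ∪ {C},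
        conjBy E x ∈ (fun b : G => conjBy A b) '' (B : Set G) ∪ {C} ∧
        conjBy E x⁻¹ ∈ (fun b : G => conjBy A b) '' (B : Set G) ∪ {C}}
      one_mem' := by
        intro E hE
        rw [inv_one, conjBy_one]
        exact ⟨hE, hE⟩
      mul_mem' := by
        intro x y hx hy E hE
        rw [mul_inv_rev, conjBy_mul, conjBy_mul]
        exact ⟨(hx _ (hy E hE).1).1, (hy _ (hx E hE).2).2⟩
      inv_mem' := by
        intro x hx E hE
        rw [inv_inv]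
        exact ⟨(hx E hE).2, (hx E hE).1⟩ }
  have hT : B ⊔ D ≤ T := by
    apply sup_le
    · intro b hb E hE
      exact ⟨q.L_inv_B hE hb, q.L_inv_B hE (B.inv_mem hb)⟩
    · intro d hd E hE
      exact ⟨q.L_inv_D hp hE hd, q.L_inv_D hp hE (D.inv_mem hd)⟩
  exact (hT hx E hE).1

theorem orbA (q : Quad S A B C D) (hp : IsRankOnePair B D) :
    {E | ∃ x ∈ B ⊔ D, E = conjBy A x} = (fun b : G => conjBy A b) '' (B : Set G) ∪ {C} := by
  apply Set.Subset.antisymm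
  · rintro _ ⟨x, hx, rfl⟩
    exact q.L_inv hp (Or.inl ⟨1, B.one_mem, conjBy_one _⟩) hx
  · rintro E (⟨b, hb, rfl⟩ | hE)
    · exact ⟨b, Subgroup.mem_sup_left hb, rfl⟩
    · rw [Set.mem_singleton_iff.1 hE]
      obtain ⟨d, hd, hd1⟩ := Root.exists_ne_one q.hS q.hD
      obtain ⟨b, hb, -, he⟩ := q.K2 hp hd hd1
      refine ⟨d⁻¹ * b, mul_mem (Subgroup.mem_sup_right (D.inv_mem hd)) (Subgroup.mem_sup_left hb), ?_⟩
      rw [conjBy_mul, ← he, conjBy_inv_conjBy]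

theorem orbC (q : Quad S A B C D) (hp : IsRankOnePair B D) :
    {E | ∃ x ∈ B ⊔ D, E = conjBy C x} = (fun b : G => conjBy A b) '' (B : Set G) ∪ {C} := by
  have := q.symm.orbA (RankOnePair_symm hp)
  rw [sup_comm] at this
  rw [this, q.L_eq hp]

theorem inf1 (q : Quad S A B C D) {d x : G} (hd : d ∈ D) (hxA : x ∈ A) (hx : x ∈ conjBy C d) :
    x = 1 := by
  rw [mem_conjBy] at hx
  have e : d⁻¹ * x * d = x := by
    rw [mul_assoc, ← q.cmDA d hd x hxA]; group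
  rw [e, ← q.eC] at hx
  exact RootComm.eq_one_of_mem_left q.hS q.hAB hx hxA

theorem part (q : Quad S A B C D) (hp : IsRankOnePair B D) :
    IsSubgroupPartition (A ⊔ C) ((fun b : G => conjBy A b) '' (B : Set G) ∪ {C}) := by
  have hAC : ∀ b ∈ B, conjBy A b ⊓ C = ⊥ := by
    intro b hb
    rw [eq_bot_iff]
    rintro x ⟨h1, h2⟩
    exact q.symm.inf1 hb h2 h1
  refine ⟨?_, ?_, ?_⟩
  · rintro E (⟨b, hb, rfl⟩ | hE)
    · exact q.conjA_le hb
    · rw [Set.mem_singleton_iff.1 hE]; exact le_sup_right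
  · intro x hx hx1
    obtain ⟨a, ha, c, hc, rfl⟩ := mem_sup_of_cm q.cmAC hx
    by_cases ha1 : a = 1
    · exact ⟨C, Or.inr rfl, by simpa [ha1] using hc⟩
    · obtain ⟨b, hb, h⟩ := cover' q.hAB ha ha1 (by rw [q.eC]; exact hc)
      exact ⟨conjBy A b, Or.inl ⟨b, hb, rfl⟩, h⟩
  · rintro E (⟨b, hb, rfl⟩ | hE) E' (⟨b', hb', rfl⟩ | hE') hne
    · rw [eq_bot_iff]
      rintro x ⟨h1, h2⟩
      have hbb : b⁻¹ * b' ≠ 1 := by
        intro e
        apply hne
        rw [inv_mul_eq_one.1 e]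
      obtain ⟨d, hd, -, he⟩ := q.K1 hp (B.mul_mem (B.inv_mem hb) hb') hbb
      have h1' : b⁻¹ * x * b ∈ A := mem_conjBy.1 h1
      have h2' : b⁻¹ * x * b ∈ conjBy C d := by
        rw [← he, mem_conjBy]
        have : (b⁻¹ * b')⁻¹ * (b⁻¹ * x * b) * (b⁻¹ * b') = b'⁻¹ * x * b' := by group
        rw [this]
        exact mem_conjBy.1 h2
      have h3 := q.inf1 hd h1' h2'
      have : x = b * (b⁻¹ * x * b) * b⁻¹ := by group
      rw [Subgroup.mem_bot, this, h3]; group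
    · rw [Set.mem_singleton_iff.1 hE']; exact hAC b hb
    · rw [Set.mem_singleton_iff.1 hE, inf_comm]; exact hAC b' hb'
    · exact absurd ((Set.mem_singleton_iff.1 hE).trans (Set.mem_singleton_iff.1 hE').symm) hne

theorem central (q : Quad S A B C D) (hp : IsRankOnePair B D) :
    ∀ x ∈ (B ⊔ D) ⊓ Subgroup.centralizer ((A ⊔ C : Subgroup G) : Set G),
      ∀ y ∈ B ⊔ D, x * y = y * x := by
  have hK := RankOne.normal_dichotomy hp
    (N := (B ⊔ D) ⊓ Subgroup.centralizer ((A ⊔ C : Subgroup G) : Set G)) inf_le_left (by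
      intro x hx n hn
      refine Subgroup.mem_inf.2 ⟨mul_mem (mul_mem hx (Subgroup.mem_inf.1 hn).1) (inv_mem hx), ?_⟩
      rw [Subgroup.mem_centralizer_iff]
      intro y hy
      have hy' : x⁻¹ * y * x⁻¹⁻¹ ∈ A ⊔ C := q.conj_mem_N (inv_mem hx) hy
      have := Subgroup.mem_centralizer_iff.1 (Subgroup.mem_inf.1 hn).2 _ hy'
      calc y * (x * n * x⁻¹) = x * ((x⁻¹ * y * x⁻¹⁻¹) * n) * x⁻¹ := by group
        _ = x * (n * (x⁻¹ * y * x⁻¹⁻¹)) * x⁻¹ := by rw [this]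
        _ = x * n * x⁻¹ * y := by group)
  rcases hK with h | h
  · exfalso
    have hle : (B ⊔ D) ⊓ Subgroup.centralizer ((A ⊔ C : Subgroup G) : Set G) ⊔ B
        ≤ Subgroup.centralizer (C : Set G) := by
      apply sup_le
      · intro x hx'
        have hx := (Subgroup.mem_inf.1 hx').2
        rw [Subgroup.mem_centralizer_iff] at hx ⊢
        intro c hc
        exact hx c (Subgroup.mem_sup_right hc)
      · intro b hb
        rw [Subgroup.mem_centralizer_iff]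
        intro c hc
        exact (q.cmBC b hb c hc).symm
    rw [h] at hle
    apply q.hS.ne_bot A q.hA
    rw [← q.eA]
    apply commutator_eq_bot_of_comm
    intro c hc d hd
    exact Subgroup.mem_centralizer_iff.1 (hle (Subgroup.mem_sup_right hd)) c hc
  · exact h

end Quad

end aux

/-- Let S be a set of abstract root subgroups of G, A, B ∈ S with C = ⁅A, B⁆ ∈ S, and D ∈ S with ⁅D, C⁆ = A. Put X = ⟨B, D⟩ and N = AC. Then B, D form a rank one pair; the conjugates of A under X are the conjugates of C under X, namely the conjugates of A by elements of B together with C, equally the conjugates of C by elements of D together with A, and they partition N; and the centralizer of N in X is central in X. -/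
theorem result {G : Type*} [Group G] {S : Set (Subgroup G)} (hS : Cfsg.IsRootSubgroupSet S)
    {A B D : Subgroup G} (hA : A ∈ S) (hB : B ∈ S) (hC : ⁅A, B⁆ ∈ S) (hD : D ∈ S) (hDC : ⁅D, ⁅A, B⁆⁆ = A) :
    Cfsg.IsRankOnePair B D ∧
    {E | ∃ x ∈ B ⊔ D, E = Cfsg.conjBy A x} = {E | ∃ x ∈ B ⊔ D, E = Cfsg.conjBy ⁅A, B⁆ x} ∧
    {E | ∃ x ∈ B ⊔ D, E = Cfsg.conjBy A x} = (fun b : G => Cfsg.conjBy A b) '' (B : Set G) ∪ {⁅A, B⁆} ∧
    {E | ∃ x ∈ B ⊔ D, E = Cfsg.conjBy A x} = (fun d : G => Cfsg.conjBy ⁅A, B⁆ d) '' (D : Set G) ∪ {A} ∧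
    Cfsg.IsSubgroupPartition (A ⊔ ⁅A, B⁆) {E | ∃ x ∈ B ⊔ D, E = Cfsg.conjBy A x} ∧
    ∀ x ∈ (B ⊔ D) ⊓ Subgroup.centralizer ((A ⊔ ⁅A, B⁆ : Subgroup G) : Set G), ∀ y ∈ B ⊔ D, x * y = y * x := by
  have q : Quad S A B ⁅A, B⁆ D := ⟨hS, hA, hB, hC, hD, comm_case hS hA hB hC, rfl,
    comm_case hS hC hD (by rw [Subgroup.commutator_comm, hDC]; exact hA),
    by rw [Subgroup.commutator_comm]; exact hDC⟩
  have hp := q.rankOne
  refine ⟨hp, (q.orbA hp).trans (q.orbC hp).symm, q.orbA hp, (q.orbA hp).trans (q.L_eq hp), ?_,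
    q.central hp⟩
  rw [q.orbA hp]
  exact q.part hp

end Cfsg.Agent.S5036
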