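import Cfsg.Statements.S5038
import Cfsg.Agent.S5034

set_option autoImplicit false
open Cfsg

namespace Cfsg.Agent.S5038

open Cfsg.Agent.H25 Cfsg.Agent.H22 Cfsg.Agent.H22.Root Cfsg.Agent.S5041

section aux

variable {G : Type*} [Group G] {S : Set (Subgroup G)} {A B C : Subgroup G}

theorem stepA' (hS : IsRootSubgroupSet S) (hall : ∀ B ∈ S, ¬ IsIsolatedIn (FAdj S) S B)
    (hA : A ∈ S) (hB : B ∈ S) (hp : IsRankOnePair A B) (hC : C ∈ S) (hAC : Cm A C)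
    (hcov : ∀ x ∈ A ⊔ C, x ≠ 1 → ∃ P ∈ S, x ∈ P)
    (hBC : RootCommutatorCase S B C) {a b : G} (ha : a ∈ A) (ha1 : a ≠ 1) (hb : b ∈ B) (hb1 : b ≠ 1)
    (he : conjBy A b⁻¹ = conjBy B a⁻¹) {c : G} (hc : c ∈ C) :
    a * (c⁻¹ * b⁻¹ * c * b) * a⁻¹ = (c⁻¹ * b⁻¹ * c * b) * c⁻¹ := by
  have hf : c⁻¹ * b⁻¹ * c * b ∈ ⁅B, C⁆ := by
    rw [Subgroup.commutator_comm]; exact psi_mem hc hb
  have hcf : b⁻¹ * c * b⁻¹⁻¹ = c * (c⁻¹ * b⁻¹ * c * b) := by group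
  generalize c⁻¹ * b⁻¹ * c * b = f at hf hcf ⊢
  have hk : f⁻¹ * a * f⁻¹⁻¹ * a⁻¹ ∈ ⁅A, ⁅B, C⁆⁆ := by
    rw [Subgroup.commutator_comm]; exact commutator_mem (inv_mem hf) ha
  have hak : a * f * a⁻¹ = f * (f⁻¹ * a * f⁻¹⁻¹ * a⁻¹) := by group
  generalize f⁻¹ * a * f⁻¹⁻¹ * a⁻¹ = k at hk hak
  obtain ⟨hkA, hkF, hkC⟩ := K_comm hS hA hC hBC hAC hB k hk
  have hac : a * c = c * a := hAC a ha c hc
  have hyB : ∀ b' ∈ B, Commute b' (c * k) := by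
    intro b' hb'
    have h1 : a⁻¹ * b' * a⁻¹⁻¹ ∈ conjBy A b⁻¹ := by rw [he]; exact conj_mem_conjBy hb' a⁻¹
    have h2 : b⁻¹ * c * b⁻¹⁻¹ ∈ conjBy C b⁻¹ := conj_mem_conjBy hc b⁻¹
    have h3 := cm_conj hAC b⁻¹ _ h1 _ h2
    rw [hcf] at h3
    have h4 : a * (c * f) * a⁻¹ = c * f * k := by
      calc a * (c * f) * a⁻¹ = (a * c) * a⁻¹ * (a * f * a⁻¹) := by group
        _ = (c * a) * a⁻¹ * (f * k) := by rw [hac, hak]
        _ = c * f * k := by group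
    have h5 : Commute b' (c * f * k) := by
      rw [← h4]
      show b' * (a * (c * f) * a⁻¹) = a * (c * f) * a⁻¹ * b'
      calc b' * (a * (c * f) * a⁻¹) = a * ((a⁻¹ * b' * a⁻¹⁻¹) * (c * f)) * a⁻¹ := by group
        _ = a * ((c * f) * (a⁻¹ * b' * a⁻¹⁻¹)) * a⁻¹ := by rw [h3]
        _ = a * (c * f) * a⁻¹ * b' := by group
    have h6 : Commute b' f := (hBC.2.1 f hf b' (Subgroup.mem_sup_left hb')).symm
    have h7 : c * k = (c * f * k) * f⁻¹ := by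
      calc c * k = c * (k * f) * f⁻¹ := by group
        _ = c * (f * k) * f⁻¹ := by rw [hkF f hf]
        _ = (c * f * k) * f⁻¹ := by group
    rw [h7]
    exact h5.mul_right h6.inv_right
  have hyA : ∀ a' ∈ A, Commute a' (c * k) := by
    intro a' ha'
    have c1 : Commute a' c := hAC a' ha' c hc
    have c2 : Commute a' k := (hkA a' ha').symm
    exact c1.mul_right c2
  have hy : c * k = 1 := by
    by_contra hy1
    have hz : c * k ∈ Subgroup.centralizer ((A ⊔ B : Subgroup G) : Set G) := by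
      have h1 : A ⊔ B ≤ Subgroup.centralizer ({c * k} : Set G) := by
        apply sup_le
        · intro x hx
          rw [Subgroup.mem_centralizer_iff]
          intro y hy
          rw [Set.mem_singleton_iff.1 hy]
          exact (hyA x hx).symm
        · intro x hx
          rw [Subgroup.mem_centralizer_iff]
          intro y hy
          rw [Set.mem_singleton_iff.1 hy]
          exact (hyB x hx).symm
      rw [Subgroup.mem_centralizer_iff]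
      intro x hx
      exact (Subgroup.mem_centralizer_iff.1 (h1 hx) (c * k) rfl).symm
    apply Cfsg.Agent.S5025.result hS hA ⟨hB, hp⟩ hz hy1 a ha ha1
    have hne : c * k * a ≠ 1 := by
      intro e1
      apply RankOne.not_comm hp ha ha1 hb hb1
      have h1 : c * k = a⁻¹ := eq_inv_of_mul_eq_one_left e1
      have h2 := hyB b hb
      rw [h1] at h2
      have h3 : Commute b a := by
        have := h2.inv_right
        rwa [inv_inv] at this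
      exact h3.symm.eq
    obtain ⟨f', hf', a'', ha'', e2⟩ : ∃ f' ∈ ⁅B, C⁆, ∃ a'' ∈ A, a * k = f' * a'' * f'⁻¹ := by
      rcases pairAM hS hA hC hBC hAC hB with h | h
      · rw [h] at hk
        refine ⟨1, one_mem _, a, ha, ?_⟩
        rw [Subgroup.mem_bot.1 hk]; simp
      · obtain ⟨f', hf', hm⟩ := cover hS (hall A hA) hA h ha ha1 hk
        exact ⟨f', hf', _, mem_conjBy.1 hm, by group⟩
    have hcf' : f' * c = c * f' := hBC.2.1 f' hf' c (Subgroup.mem_sup_right hc)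
    have e3 : c * k * a = f' * (c * a'') * f'⁻¹ := by
      calc c * k * a = c * (k * a) := by group
        _ = c * (a * k) := by rw [hkA a ha]
        _ = (c * f') * a'' * f'⁻¹ := by rw [e2]; group
        _ = (f' * c) * a'' * f'⁻¹ := by rw [hcf']
        _ = f' * (c * a'') * f'⁻¹ := by group
    have hne2 : c * a'' ≠ 1 := by
      intro e4
      apply hne
      rw [e3, e4]; group
    obtain ⟨P, hP, hmP⟩ := hcov (c * a'')
      (mul_mem (Subgroup.mem_sup_right hc) (Subgroup.mem_sup_left ha'')) hne2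
    exact ⟨hne, conjBy P f', hS.conj_mem P hP f', by rw [e3]; exact conj_mem_conjBy hmP f'⟩
  rw [hak, eq_inv_of_mul_eq_one_right hy]


theorem lemmaZ (hS : IsRootSubgroupSet S) (hall : ∀ B ∈ S, ¬ IsIsolatedIn (FAdj S) S B)
    (hA : A ∈ S) (hB : B ∈ linePartners S A) :
    ∃ F ∈ S, RootCommutatorCase S A F ∧ A ⊔ ⁅A, F⁆ = A ⊔ B := by
  obtain ⟨⟨hBS, hBA, hcomm⟩, hpart⟩ := hB
  obtain ⟨D, hD, hp⟩ := Root.exists_partner (hall A hA) hA
  have hAB : Cm A B := fun a ha b hb => comm_of_commutator_eq_bot hcomm ha hb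
  have hAl : Cm A (A ⊔ B) := cm_sup_right (cm_self hS hA) hAB
  have hint : A ⊓ B = ⊥ := hpart.2.2 A ⟨hA, le_sup_left⟩ B ⟨hBS, le_sup_right⟩ (Ne.symm hBA)
  have hint' : ∀ x, x ∈ A → x ∈ B → x = 1 := by
    intro x h1 h2
    have : x ∈ A ⊓ B := ⟨h1, h2⟩
    rw [hint] at this
    exact Subgroup.mem_bot.1 this
  obtain ⟨c, hc, hc1⟩ := Root.exists_ne_one hS hBS
  -- step 1
  have step1 : ∃ P ∈ S, P ≤ A ⊔ B ∧ RootCommutatorCase S D P ∧ c ∈ A ⊔ P := by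
    rcases hS.pair D hD B hBS with h | hq | h
    · exfalso
      obtain ⟨a, ha, ha1⟩ := Root.exists_ne_one hS hA
      have hz : c ∈ Subgroup.centralizer ((A ⊔ D : Subgroup G) : Set G) := by
        have h1 : Cm (A ⊔ D) B :=
          Cm.sup_left hAB (fun b hb c hc => comm_of_commutator_eq_bot h hb hc)
        rw [Subgroup.mem_centralizer_iff]
        intro x hx
        exact h1 x hx c hc
      apply Cfsg.Agent.S5025.result hS hA ⟨hD, hp⟩ hz hc1 a ha ha1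
      have hne : c * a ≠ 1 := by
        intro e1
        apply hc1
        apply hint' c _ hc
        rw [eq_inv_of_mul_eq_one_left e1]
        exact A.inv_mem ha
      obtain ⟨P, ⟨hP, _⟩, hm⟩ := hpart.2.1 (c * a)
        (mul_mem (Subgroup.mem_sup_right hc) (Subgroup.mem_sup_left ha)) hne
      exact ⟨hne, P, hP, hm⟩
    · obtain ⟨d, hd, hd1, he1⟩ := (RankOnePair_symm hq).cond_left c hc hc1
      obtain ⟨a, ha, ha1, he2⟩ := hp.cond_right d hd hd1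
      have h1 : Cm (conjBy D a⁻¹) (conjBy D c⁻¹) := by
        rw [he2, ← he1]
        exact cm_conj hAB d⁻¹
      have h2 : Cm D (conjBy D (a * c⁻¹)) := by
        have := cm_conj h1 a
        rwa [conjBy_conjBy_inv, conjBy_conjBy] at this
      have hx1 : a * c⁻¹ ≠ 1 := by
        intro e1
        apply hc1
        apply hint' c _ hc
        rw [← mul_inv_eq_one.1 e1]
        exact ha
      obtain ⟨P, ⟨hPS, hPle⟩, hm⟩ := hpart.2.1 (a * c⁻¹)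
        (mul_mem (Subgroup.mem_sup_left ha) (Subgroup.mem_sup_right (inv_mem hc))) hx1
      refine ⟨P, hPS, hPle, ?_, ?_⟩
      · rcases hS.pair D hD _ hPS with h3 | h3 | h3
        · exfalso
          have h4 : conjBy D (a * c⁻¹) = D :=
            conjBy_of_central (fun y hy => (comm_of_commutator_eq_bot h3 hy hm).symm)
          rw [conjBy_mul, conjBy_eq_iff, ← he1, he2, conjBy_inj] at h4
          exact hBA h4
        · exfalso
          have h3' := RankOnePair_symm h3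
          have hne : conjBy D (a * c⁻¹) ≠ D := fun he => hx1 (RankOne.eq_one_of_conjBy_eq h3' hm he)
          have hp2 : IsRankOnePair (conjBy D (a * c⁻¹)) D :=
            RankOne.pair_of_unipotents h3' ((RankOne.mem_unipotent_iff h3').2 (Or.inr ⟨_, hm, rfl⟩))
              (RankOne.right_mem_unipotent h3') hne
          exact RankOne.commutator_ne_bot hp2 (commutator_eq_bot_of_comm h2.symm)
        · exact h3
      · have : c = (a * c⁻¹)⁻¹ * a := by group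
        rw [this]
        exact mul_mem (inv_mem (Subgroup.mem_sup_right hm)) (Subgroup.mem_sup_left ha)
    · exact ⟨B, hBS, le_sup_right, h, Subgroup.mem_sup_right hc⟩
  obtain ⟨P, hPS, hPle, hDP, hcP⟩ := step1
  have hAP : Cm A P := cm_mono hAl le_rfl hPle
  have hcov : ∀ x ∈ A ⊔ P, x ≠ 1 → ∃ P' ∈ S, x ∈ P' := by
    intro x hx hx1
    obtain ⟨P', ⟨hP', _⟩, hm⟩ := hpart.2.1 x ((sup_le le_sup_left hPle) hx) hx1
    exact ⟨P', hP', hm⟩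
  -- step 2
  obtain ⟨a, ha, ha1⟩ := Root.exists_ne_one hS hA
  obtain ⟨d, hd, hd1, he⟩ := hp.cond_left a ha ha1
  have hPK : P ≤ ⁅A, ⁅D, P⁆⁆ := by
    intro p hpP
    have h1 := stepA' hS hall hA hD hp hPS hAP hcov hDP ha ha1 hd hd1 he hpP
    have hf : p⁻¹ * d⁻¹ * p * d ∈ ⁅D, P⁆ := by
      rw [Subgroup.commutator_comm]; exact psi_mem hpP hd
    generalize p⁻¹ * d⁻¹ * p * d = f at h1 hf
    have h2 : p = (a * f * a⁻¹ * f⁻¹)⁻¹ := by
      have : a * f * a⁻¹ * f⁻¹ = (a * f * a⁻¹) * f⁻¹ := by group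
      rw [this, h1]
      have hfp : f * p = p * f := hDP.2.1 f hf p (Subgroup.mem_sup_right hpP)
      have c1 : Commute f p := hfp
      have : f * p⁻¹ * f⁻¹ = p⁻¹ := by
        rw [(c1.inv_right).eq]; group
      rw [this, inv_inv]
    rw [h2]
    exact inv_mem (commutator_mem ha hf)
  have hAF : RootCommutatorCase S A ⁅D, P⁆ := by
    rcases pairAM hS hA hPS hDP hAP hD with h | h
    · exfalso
      rw [h] at hPK
      exact hS.ne_bot P hPS (le_bot_iff.1 hPK)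
    · exact h
  have hPeq : P = ⁅A, ⁅D, P⁆⁆ := by
    rcases Cfsg.Agent.S5028.result hS (hall P hPS) hPS _ hAF.1 with h | h
    · exfalso
      rw [inf_eq_left.2 hPK] at h
      exact hS.ne_bot P hPS h
    · exact h
  refine ⟨⁅D, P⁆, hDP.1, hAF, ?_⟩
  apply le_antisymm
  · rw [← hPeq]; exact sup_le le_sup_left hPle
  · apply sup_le le_sup_left
    rw [hPeq] at hcP
    obtain ⟨P', ⟨hP', hP'le⟩, hm⟩ := (partition hS (hall A hA) hA hAF).2.1 c hcP hc1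
    rcases Cfsg.Agent.S5028.result hS (hall B hBS) hBS P' hP' with h | h
    · exfalso
      have : c ∈ B ⊓ P' := ⟨hc, hm⟩
      rw [h] at this
      exact hc1 (Subgroup.mem_bot.1 this)
    · rw [h]; exact hP'le

theorem lemmaT (hS : IsRootSubgroupSet S) (hAn : ¬ IsIsolatedIn (FAdj S) S A) (hA : A ∈ S)
    {F : Subgroup G} (hAF : RootCommutatorCase S A F) :
    ∀ R ∈ membersIn S (A ⊔ ⁅A, F⁆), ∀ R' ∈ membersIn S (A ⊔ ⁅A, F⁆), R ≠ ⁅A, F⁆ → R' ≠ ⁅A, F⁆ →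
      ∃ x ∈ F, conjBy R x = R' ∧ conjBy ⁅A, F⁆ x = ⁅A, F⁆ := by
  intro R hR R' hR' h1 h2
  rw [members_eq hS hAn hA hAF] at hR hR'
  rcases hR with ⟨f, hf, rfl⟩ | hR
  · rcases hR' with ⟨f', hf', rfl⟩ | hR'
    · refine ⟨f' * f⁻¹, F.mul_mem hf' (F.inv_mem hf), ?_, ?_⟩
      · show conjBy (conjBy A f) (f' * f⁻¹) = conjBy A f'
        rw [conjBy_conjBy]
        congr 1
        group
      · exact conjBy_of_central (fun c hc => (hAF.2.1 c hc _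
          (Subgroup.mem_sup_right (F.mul_mem hf' (F.inv_mem hf)))).symm)
    · exact absurd (Set.mem_singleton_iff.1 hR') h2
  · exact absurd (Set.mem_singleton_iff.1 hR) h1

theorem F_norm {F : Subgroup G} (hAF : RootCommutatorCase S A F) :
    F ≤ Subgroup.normalizer ((A ⊔ ⁅A, F⁆ : Subgroup G) : Set G) := by
  have hle : ∀ b ∈ F, conjBy (A ⊔ ⁅A, F⁆) b ≤ A ⊔ ⁅A, F⁆ := by
    intro b hb
    rw [conjBy_sup, conjBy_of_central (C := ⁅A, F⁆)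
      (fun c hc => (hAF.2.1 c hc b (Subgroup.mem_sup_right hb)).symm)]
    exact sup_le (conjBy_le hb) le_sup_right
  intro b hb
  rw [← conjBy_eq_self_iff]
  apply le_antisymm (hle b hb)
  have := conjBy_mono (hle b⁻¹ (F.inv_mem hb)) b
  rwa [conjBy_conjBy_inv] at this

theorem two_trans {L : Set (Subgroup G)} {H : Subgroup G} {P₁ P₂ R₃ : Subgroup G}
    (hP₁ : P₁ ∈ L) (hP₂ : P₂ ∈ L) (hR₃ : R₃ ∈ L) (h12 : P₁ ≠ P₂) (h31 : R₃ ≠ P₁) (h32 : R₃ ≠ P₂)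
    (h1 : ∀ R ∈ L, ∀ R' ∈ L, R ≠ P₁ → R' ≠ P₁ → ∃ x ∈ H, conjBy R x = R' ∧ conjBy P₁ x = P₁)
    (h2 : ∀ R ∈ L, ∀ R' ∈ L, R ≠ P₂ → R' ≠ P₂ → ∃ x ∈ H, conjBy R x = R' ∧ conjBy P₂ x = P₂)
    (h4 : ∀ x ∈ H, ∀ R ∈ L, conjBy R x ∈ L) :
    ∀ C₁ ∈ L, ∀ C₂ ∈ L, ∀ D₁ ∈ L, ∀ D₂ ∈ L, C₁ ≠ C₂ → D₁ ≠ D₂ →
      ∃ x ∈ H, conjBy C₁ x = D₁ ∧ conjBy C₂ x = D₂ := by
  have key : ∀ C₁ ∈ L, ∀ C₂ ∈ L, C₁ ≠ C₂ → ∃ x ∈ H, conjBy C₁ x = P₁ ∧ conjBy C₂ x = P₂ := by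
    intro C₁ hC₁ C₂ hC₂ hne
    have hy : ∃ y ∈ H, conjBy C₁ y = P₁ := by
      by_cases c1 : C₁ = P₁
      · exact ⟨1, H.one_mem, by rw [conjBy_one, c1]⟩
      · by_cases c2 : C₁ = P₂
        · obtain ⟨y₁, hy₁, e₁, -⟩ := h1 C₁ hC₁ R₃ hR₃ c1 h31
          obtain ⟨y₂, hy₂, e₂, -⟩ := h2 R₃ hR₃ P₁ hP₁ h32 h12
          exact ⟨y₂ * y₁, H.mul_mem hy₂ hy₁, by rw [conjBy_mul, e₁, e₂]⟩
        · obtain ⟨y, hy, e, -⟩ := h2 C₁ hC₁ P₁ hP₁ c2 h12
          exact ⟨y, hy, e⟩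
    obtain ⟨y, hy, e⟩ := hy
    have hne' : conjBy C₂ y ≠ P₁ := by
      intro h
      apply hne
      rw [← e] at h
      exact (conjBy_inj.1 h).symm
    obtain ⟨z, hz, e₁, e₂⟩ := h1 _ (h4 y hy C₂ hC₂) P₂ hP₂ hne' h12.symm
    exact ⟨z * y, H.mul_mem hz hy, by rw [conjBy_mul, e, e₂], by rw [conjBy_mul, e₁]⟩
  intro C₁ hC₁ C₂ hC₂ D₁ hD₁ D₂ hD₂ hC hD
  obtain ⟨x, hx, e₁, e₂⟩ := key C₁ hC₁ C₂ hC₂ hC
  obtain ⟨y, hy, e₃, e₄⟩ := key D₁ hD₁ D₂ hD₂ hD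
  refine ⟨y⁻¹ * x, H.mul_mem (H.inv_mem hy) hx, ?_, ?_⟩
  · rw [conjBy_mul, e₁, ← e₃, conjBy_inv_conjBy]
  · rw [conjBy_mul, e₂, ← e₄, conjBy_inv_conjBy]

end aux

/-- Let S be a set of abstract root subgroups of G in which every member has a rank one partner, A ∈ S and B a line partner of A. Then the subgroup generated by the members of S normalizing AB permutes the members of S inside AB doubly transitively by conjugation. -/
theorem result {G : Type*} [Group G] {S : Set (Subgroup G)} (hS : Cfsg.IsRootSubgroupSet S)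
    (hF : ∀ A ∈ S, ¬ Cfsg.IsIsolatedIn (Cfsg.FAdj S) S A) {A B : Subgroup G} (hA : A ∈ S) (hB : B ∈ Cfsg.linePartners S A) :
    ∀ C₁ ∈ Cfsg.membersIn S (A ⊔ B), ∀ C₂ ∈ Cfsg.membersIn S (A ⊔ B), ∀ D₁ ∈ Cfsg.membersIn S (A ⊔ B),
      ∀ D₂ ∈ Cfsg.membersIn S (A ⊔ B), C₁ ≠ C₂ → D₁ ≠ D₂ →
        ∃ x ∈ ⨆ E ∈ Cfsg.normalizingMembers S (A ⊔ B), E, Cfsg.conjBy C₁ x = D₁ ∧ Cfsg.conjBy C₂ x = D₂ := by
  obtain ⟨F₁, hF₁, hAF₁, e₁⟩ := lemmaZ hS hF hA hB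
  have hP₁ : ⁅A, F₁⁆ ∈ S := hAF₁.1
  have hl := line_partner hS (hF A hA) hA hAF₁
  obtain ⟨F₂, hF₂, hPF₂, e₂⟩ := lemmaZ hS hF hP₁ hl
  have e₂' : ⁅A, F₁⁆ ⊔ ⁅⁅A, F₁⁆, F₂⁆ = A ⊔ B := by rw [e₂, sup_comm, e₁]
  have T1 := lemmaT hS (hF A hA) hA hAF₁
  have T2 := lemmaT hS (hF _ hP₁) hP₁ hPF₂
  have N1 := F_norm hAF₁
  have N2 := F_norm hPF₂
  have part2 := partition hS (hF _ hP₁) hP₁ hPF₂
  rw [e₁] at T1 N1
  rw [e₂'] at T2 N2 part2
  have hH1 : F₁ ≤ ⨆ E ∈ Cfsg.normalizingMembers S (A ⊔ B), E :=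
    le_iSup₂ (f := fun (E : Subgroup G) (_ : E ∈ Cfsg.normalizingMembers S (A ⊔ B)) => E) F₁ ⟨hF₁, N1⟩
  have hH2 : F₂ ≤ ⨆ E ∈ Cfsg.normalizingMembers S (A ⊔ B), E :=
    le_iSup₂ (f := fun (E : Subgroup G) (_ : E ∈ Cfsg.normalizingMembers S (A ⊔ B)) => E) F₂ ⟨hF₂, N2⟩
  have hHN : (⨆ E ∈ Cfsg.normalizingMembers S (A ⊔ B), E)
      ≤ Subgroup.normalizer ((A ⊔ B : Subgroup G) : Set G) := iSup₂_le (fun E hE => hE.2)
  have hm1 : ⁅A, F₁⁆ ∈ Cfsg.membersIn S (A ⊔ B) := ⟨hP₁, by rw [← e₁]; exact le_sup_right⟩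
  have hm2 : ⁅⁅A, F₁⁆, F₂⁆ ∈ Cfsg.membersIn S (A ⊔ B) := ⟨hPF₂.1, by rw [← e₂']; exact le_sup_right⟩
  have hint : ∀ x, x ∈ ⁅A, F₁⁆ → x ∈ ⁅⁅A, F₁⁆, F₂⁆ → x = 1 :=
    fun x h1 h2 => RootComm.eq_one_of_mem_left hS hPF₂ h2 h1
  obtain ⟨p₁, hp₁, hp₁1⟩ := Root.exists_ne_one hS hP₁
  obtain ⟨p₂, hp₂, hp₂1⟩ := Root.exists_ne_one hS hPF₂.1
  have h12 : ⁅A, F₁⁆ ≠ ⁅⁅A, F₁⁆, F₂⁆ := by
    intro h
    apply hp₁1
    apply hint p₁ hp₁
    rw [← h]; exact hp₁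
  have hne : p₁ * p₂ ≠ 1 := by
    intro e
    apply hp₁1
    apply hint p₁ hp₁
    rw [eq_inv_of_mul_eq_one_left e]
    exact inv_mem hp₂
  obtain ⟨R₃, hR₃, hm⟩ := part2.2.1 (p₁ * p₂) (mul_mem (hm1.2 hp₁) (hm2.2 hp₂)) hne
  have h31 : R₃ ≠ ⁅A, F₁⁆ := by
    rintro rfl
    apply hp₂1
    apply hint p₂ _ hp₂
    have : p₂ = p₁⁻¹ * (p₁ * p₂) := by group
    rw [this]
    exact mul_mem (inv_mem hp₁) hm
  have h32 : R₃ ≠ ⁅⁅A, F₁⁆, F₂⁆ := by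
    rintro rfl
    apply hp₁1
    apply hint p₁ hp₁
    have : p₁ = (p₁ * p₂) * p₂⁻¹ := by group
    rw [this]
    exact mul_mem hm (inv_mem hp₂)
  apply two_trans hm1 hm2 hR₃ h12 h31 h32
  · intro R hR R' hR' n1 n2
    obtain ⟨x, hx, h⟩ := T1 R hR R' hR' n1 n2
    exact ⟨x, hH1 hx, h⟩
  · intro R hR R' hR' n1 n2
    obtain ⟨x, hx, h⟩ := T2 R hR R' hR' n1 n2
    exact ⟨x, hH2 hx, h⟩
  · intro x hx R hR
    refine ⟨hS.conj_mem R hR.1 x, ?_⟩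
    have := conjBy_mono hR.2 x
    rwa [conjBy_eq_self_iff.2 (hHN hx)] at this

end Cfsg.Agent.S5038
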