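import Cfsg.Statements.S5040
import Cfsg.Agent.S5038
import Cfsg.Agent.S5036

set_option autoImplicit false
open Cfsg

namespace Cfsg.Agent.S5040

open Cfsg.Agent.H25 Cfsg.Agent.H22 Cfsg.Agent.H22.Root Cfsg.Agent.S5041 Cfsg.Agent.S5038

section aux

variable {G : Type*} [Group G] {S : Set (Subgroup G)} {A B C : Subgroup G}

theorem lemmaZ' (hS : IsRootSubgroupSet S) (hall : ∀ B ∈ S, ¬ IsIsolatedIn (FAdj S) S B)
    (hA : A ∈ S) (hB : B ∈ linePartners S A) {D : Subgroup G} (hD : D ∈ S)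
    (hp : IsRankOnePair A D) :
    ∃ F ∈ S, RootCommutatorCase S A F ∧ A ⊔ ⁅A, F⁆ = A ⊔ B ∧ Cm F D := by
  obtain ⟨⟨hBS, hBA, hcomm⟩, hpart⟩ := hB
  have hAB : Cm A B := fun a ha b hb => comm_of_commutator_eq_bot hcomm ha hb
  have hAl : Cm A (A ⊔ B) := cm_sup_right (cm_self hS hA) hAB
  have hint : A ⊓ B = ⊥ := hpart.2.2 A ⟨hA, le_sup_left⟩ B ⟨hBS, le_sup_right⟩ (Ne.symm hBA)
  have hint' : ∀ x, x ∈ A → x ∈ B → x = 1 := by
    intro x h1 h2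
    have : x ∈ A ⊓ B := ⟨h1, h2⟩
    rw [hint] at this
    exact Subgroup.mem_bot.1 this
  obtain ⟨c, hc, hc1⟩ := Root.exists_ne_one hS hBS
  -- step 1
  have step1 : ∃ P ∈ S, P ≤ A ⊔ B ∧ RootCommutatorCase S D P ∧ c ∈ A ⊔ P := by
    rcases hS.pair D hD B hBS with h | hq | h
    · exfalso
      obtain ⟨a, ha, ha1⟩ := Root.exists_ne_one hS hA
      have hz : c ∈ Subgroup.centralizer ((A ⊔ D : Subgroup G) : Set G) := by
        have h1 : Cm (A ⊔ D) B :=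
          Cm.sup_left hAB (fun b hb c hc => comm_of_commutator_eq_bot h hb hc)
        rw [Subgroup.mem_centralizer_iff]
        intro x hx
        exact h1 x hx c hc
      apply Cfsg.Agent.S5025.result hS hA ⟨hD, hp⟩ hz hc1 a ha ha1
      have hne : c * a ≠ 1 := by
        intro e1
        apply hc1
        apply hint' c _ hc
        rw [eq_inv_of_mul_eq_one_left e1]
        exact A.inv_mem ha
      obtain ⟨P, ⟨hP, _⟩, hm⟩ := hpart.2.1 (c * a)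
        (mul_mem (Subgroup.mem_sup_right hc) (Subgroup.mem_sup_left ha)) hne
      exact ⟨hne, P, hP, hm⟩
    · obtain ⟨d, hd, hd1, he1⟩ := (RankOnePair_symm hq).cond_left c hc hc1
      obtain ⟨a, ha, ha1, he2⟩ := hp.cond_right d hd hd1
      have h1 : Cm (conjBy D a⁻¹) (conjBy D c⁻¹) := by
        rw [he2, ← he1]
        exact cm_conj hAB d⁻¹
      have h2 : Cm D (conjBy D (a * c⁻¹)) := by
        have := cm_conj h1 a
        rwa [conjBy_conjBy_inv, conjBy_conjBy] at this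
      have hx1 : a * c⁻¹ ≠ 1 := by
        intro e1
        apply hc1
        apply hint' c _ hc
        rw [← mul_inv_eq_one.1 e1]
        exact ha
      obtain ⟨P, ⟨hPS, hPle⟩, hm⟩ := hpart.2.1 (a * c⁻¹)
        (mul_mem (Subgroup.mem_sup_left ha) (Subgroup.mem_sup_right (inv_mem hc))) hx1
      refine ⟨P, hPS, hPle, ?_, ?_⟩
      · rcases hS.pair D hD _ hPS with h3 | h3 | h3
        · exfalso
          have h4 : conjBy D (a * c⁻¹) = D :=
            conjBy_of_central (fun y hy => (comm_of_commutator_eq_bot h3 hy hm).symm)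
          rw [conjBy_mul, conjBy_eq_iff, ← he1, he2, conjBy_inj] at h4
          exact hBA h4
        · exfalso
          have h3' := RankOnePair_symm h3
          have hne : conjBy D (a * c⁻¹) ≠ D := fun he => hx1 (RankOne.eq_one_of_conjBy_eq h3' hm he)
          have hp2 : IsRankOnePair (conjBy D (a * c⁻¹)) D :=
            RankOne.pair_of_unipotents h3' ((RankOne.mem_unipotent_iff h3').2 (Or.inr ⟨_, hm, rfl⟩))
              (RankOne.right_mem_unipotent h3') hne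
          exact RankOne.commutator_ne_bot hp2 (commutator_eq_bot_of_comm h2.symm)
        · exact h3
      · have : c = (a * c⁻¹)⁻¹ * a := by group
        rw [this]
        exact mul_mem (inv_mem (Subgroup.mem_sup_right hm)) (Subgroup.mem_sup_left ha)
    · exact ⟨B, hBS, le_sup_right, h, Subgroup.mem_sup_right hc⟩
  obtain ⟨P, hPS, hPle, hDP, hcP⟩ := step1
  have hAP : Cm A P := cm_mono hAl le_rfl hPle
  have hcov : ∀ x ∈ A ⊔ P, x ≠ 1 → ∃ P' ∈ S, x ∈ P' := by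
    intro x hx hx1
    obtain ⟨P', ⟨hP', _⟩, hm⟩ := hpart.2.1 x ((sup_le le_sup_left hPle) hx) hx1
    exact ⟨P', hP', hm⟩
  -- step 2
  obtain ⟨a, ha, ha1⟩ := Root.exists_ne_one hS hA
  obtain ⟨d, hd, hd1, he⟩ := hp.cond_left a ha ha1
  have hPK : P ≤ ⁅A, ⁅D, P⁆⁆ := by
    intro p hpP
    have h1 := stepA' hS hall hA hD hp hPS hAP hcov hDP ha ha1 hd hd1 he hpP
    have hf : p⁻¹ * d⁻¹ * p * d ∈ ⁅D, P⁆ := by
      rw [Subgroup.commutator_comm]; exact psi_mem hpP hd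
    generalize p⁻¹ * d⁻¹ * p * d = f at h1 hf
    have h2 : p = (a * f * a⁻¹ * f⁻¹)⁻¹ := by
      have : a * f * a⁻¹ * f⁻¹ = (a * f * a⁻¹) * f⁻¹ := by group
      rw [this, h1]
      have hfp : f * p = p * f := hDP.2.1 f hf p (Subgroup.mem_sup_right hpP)
      have c1 : Commute f p := hfp
      have : f * p⁻¹ * f⁻¹ = p⁻¹ := by
        rw [(c1.inv_right).eq]; group
      rw [this, inv_inv]
    rw [h2]
    exact inv_mem (commutator_mem ha hf)
  have hAF : RootCommutatorCase S A ⁅D, P⁆ := by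
    rcases pairAM hS hA hPS hDP hAP hD with h | h
    · exfalso
      rw [h] at hPK
      exact hS.ne_bot P hPS (le_bot_iff.1 hPK)
    · exact h
  have hPeq : P = ⁅A, ⁅D, P⁆⁆ := by
    rcases Cfsg.Agent.S5028.result hS (hall P hPS) hPS _ hAF.1 with h | h
    · exfalso
      rw [inf_eq_left.2 hPK] at h
      exact hS.ne_bot P hPS h
    · exact h
  refine ⟨⁅D, P⁆, hDP.1, hAF, ?_,
    fun f hf d hd => hDP.2.1 f hf d (Subgroup.mem_sup_left hd)⟩
  apply le_antisymm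
  · rw [← hPeq]; exact sup_le le_sup_left hPle
  · apply sup_le le_sup_left
    rw [hPeq] at hcP
    obtain ⟨P', ⟨hP', hP'le⟩, hm⟩ := (partition hS (hall A hA) hA hAF).2.1 c hcP hc1
    rcases Cfsg.Agent.S5028.result hS (hall B hBS) hBS P' hP' with h | h
    · exfalso
      have : c ∈ B ⊓ P' := ⟨hc, hm⟩
      rw [h] at this
      exact hc1 (Subgroup.mem_bot.1 this)
    · rw [h]; exact hP'le


/-- the stabiliser of the family `Δ` -/
def Nd (Δ : Set (Subgroup G)) : Subgroup G where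
  carrier := {g | ∀ E, conjBy E g ∈ Δ ↔ E ∈ Δ}
  one_mem' := by
    intro E
    rw [conjBy_one]
  mul_mem' := by
    intro g h hg hh E
    rw [conjBy_mul, hg, hh]
  inv_mem' := by
    intro g hg E
    rw [← hg (conjBy E g⁻¹), conjBy_conjBy_inv]

variable {Δ : Set (Subgroup G)}

theorem dagger (hΔ : IsWeakTISubset S Δ) {E : Subgroup G} (hE : E ∈ S) (hA : A ∈ Δ)
    (h : ∀ e ∈ E, conjBy A e = A) : E ≤ Nd Δ := by
  intro e he
  by_cases he1 : e = 1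
  · rw [he1]; exact one_mem _
  · rcases hΔ.2.2.2 e ⟨he1, E, hE, he⟩ with h1 | h1
    · intro E'
      constructor
      · intro h2
        rw [← h1] at h2
        obtain ⟨E'', hE'', e2⟩ := h2
        rw [← conjBy_inj.1 e2]; exact hE''
      · intro h2
        rw [← h1]
        exact ⟨E', h2, rfl⟩
    · exfalso
      exact Set.disjoint_left.1 h1 ⟨A, hA, h e he⟩ hA

theorem good_step (hS : IsRootSubgroupSet S) (hall : ∀ B ∈ S, ¬ IsIsolatedIn (FAdj S) S B)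
    (hΔ : IsWeakTISubset S Δ) (hA : A ∈ Δ) (hB : B ∈ Δ) (hp : IsRankOnePair A B)
    (hC : C ∈ linePartners S A) : ∃ g ∈ Nd Δ, C = conjBy A g := by
  have hAS := hΔ.1 hA
  have hBS := hΔ.1 hB
  obtain ⟨F₁, hF₁, hAF₁, e₁, hFB⟩ := lemmaZ' hS hall hAS hC hBS hp
  have hP₁ : ⁅A, F₁⁆ ∈ S := hAF₁.1
  have hl := line_partner hS (hall A hAS) hAS hAF₁
  obtain ⟨F₂, hF₂, hPF₂, e₂⟩ := lemmaZ hS hall hP₁ hl
  have e₂' : ⁅A, F₁⁆ ⊔ ⁅⁅A, F₁⁆, F₂⁆ = A ⊔ ⁅A, F₁⁆ := by rw [e₂, sup_comm]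
  have hN1 : F₁ ≤ Nd Δ :=
    dagger hΔ hF₁ hB (fun f hf => conjBy_of_central (fun b hb => hFB f hf b hb))
  have mem := members_eq hS (hall A hAS) hAS hAF₁
  have pts : ∀ R ∈ membersIn S (A ⊔ ⁅A, F₁⁆), R ≠ ⁅A, F₁⁆ → ∃ f ∈ F₁, R = conjBy A f := by
    intro R hR hne
    rw [mem] at hR
    rcases hR with ⟨f, hf, rfl⟩ | hR
    · exact ⟨f, hf, rfl⟩
    · exact absurd (Set.mem_singleton_iff.1 hR) hne
  have hm1 : ⁅A, F₁⁆ ∈ membersIn S (A ⊔ ⁅A, F₁⁆) := ⟨hP₁, le_sup_right⟩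
  have hm2 : ⁅⁅A, F₁⁆, F₂⁆ ∈ membersIn S (A ⊔ ⁅A, F₁⁆) :=
    ⟨hPF₂.1, by rw [← e₂']; exact le_sup_right⟩
  have hint : ∀ x, x ∈ ⁅A, F₁⁆ → x ∈ ⁅⁅A, F₁⁆, F₂⁆ → x = 1 :=
    fun x h1 h2 => RootComm.eq_one_of_mem_left hS hPF₂ h2 h1
  obtain ⟨p₁, hp₁, hp₁1⟩ := Root.exists_ne_one hS hP₁
  obtain ⟨p₂, hp₂, hp₂1⟩ := Root.exists_ne_one hS hPF₂.1
  have h12 : ⁅A, F₁⁆ ≠ ⁅⁅A, F₁⁆, F₂⁆ := by
    intro h
    apply hp₁1
    apply hint p₁ hp₁
    rw [← h]; exact hp₁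
  obtain ⟨f₀, hf₀, eP₂⟩ := pts _ hm2 h12.symm
  have hP₂Δ : ⁅⁅A, F₁⁆, F₂⁆ ∈ Δ := by
    rw [eP₂]; exact (hN1 hf₀ A).2 hA
  have hN2 : F₂ ≤ Nd Δ := dagger hΔ hF₂ hP₂Δ (fun f hf => conjBy_of_central
    (fun c hc => (hPF₂.2.1 c hc f (Subgroup.mem_sup_right hf)).symm))
  have hCm : C ∈ membersIn S (A ⊔ ⁅A, F₁⁆) := ⟨hC.1.1, by rw [e₁]; exact le_sup_right⟩
  by_cases hCP : C = ⁅A, F₁⁆
  · have part2 := partition hS (hall _ hP₁) hP₁ hPF₂
    have T2 := lemmaT hS (hall _ hP₁) hP₁ hPF₂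
    rw [e₂'] at part2 T2
    have hne : p₁ * p₂ ≠ 1 := by
      intro e
      apply hp₁1
      apply hint p₁ hp₁
      rw [eq_inv_of_mul_eq_one_left e]
      exact inv_mem hp₂
    obtain ⟨R₃, hR₃, hm⟩ := part2.2.1 (p₁ * p₂) (mul_mem (hm1.2 hp₁) (hm2.2 hp₂)) hne
    have h31 : R₃ ≠ ⁅A, F₁⁆ := by
      rintro rfl
      apply hp₂1
      apply hint p₂ _ hp₂
      have : p₂ = p₁⁻¹ * (p₁ * p₂) := by group
      rw [this]
      exact mul_mem (inv_mem hp₁) hm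
    have h32 : R₃ ≠ ⁅⁅A, F₁⁆, F₂⁆ := by
      rintro rfl
      apply hp₁1
      apply hint p₁ hp₁
      have : p₁ = (p₁ * p₂) * p₂⁻¹ := by group
      rw [this]
      exact mul_mem hm (inv_mem hp₂)
    obtain ⟨f, hf, eR⟩ := pts R₃ hR₃ h31
    obtain ⟨x, hx, ex, -⟩ := T2 R₃ hR₃ ⁅A, F₁⁆ hm1 h32 h12
    exact ⟨x * f, mul_mem (hN2 hx) (hN1 hf), by rw [hCP, conjBy_mul, ← eR, ex]⟩
  · obtain ⟨f, hf, e⟩ := pts C hCm hCP
    exact ⟨f, hN1 hf, e⟩

theorem omega_case (hS : IsRootSubgroupSet S) (hall : ∀ B ∈ S, ¬ IsIsolatedIn (FAdj S) S B)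
    (hE : IsConnectedFamily (EAdj S S) S)
    (hΔ : IsWeakTISubset S Δ) (hA : A ∈ Δ) (hB : B ∈ Δ) (hp : IsRankOnePair A B) : False := by
  have good : ∀ E, Relation.ReflTransGen (EAdj S S) A E →
      E ∈ Δ ∧ ∃ E' ∈ Δ, IsRankOnePair E E' := by
    intro E h
    induction h with
    | refl => exact ⟨hA, B, hB, hp⟩
    | tail _ hstep ih =>
      obtain ⟨hE1, E', hE', hp'⟩ := ih
      obtain ⟨g, hg, rfl⟩ := good_step hS hall hΔ hE1 hE' hp' hstep.2.2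
      exact ⟨(hg _).2 hE1, conjBy E' g, (hg _).2 hE', RankOne.conj hp' g⟩
  apply hΔ.2.2.1
  exact Set.Subset.antisymm hΔ.1 (fun E hE' => (good E (hE A (hΔ.1 hA) E hE')).1)

theorem psi_case (hS : IsRootSubgroupSet S) (hall : ∀ B ∈ S, ¬ IsIsolatedIn (FAdj S) S B)
    (hE : IsConnectedFamily (EAdj S S) S)
    (hΔ : IsWeakTISubset S Δ) (hA : A ∈ Δ) (hB : B ∈ Δ) (hAB : RootCommutatorCase S A B) :
    False := by
  have hAS := hΔ.1 hA
  have hBS := hΔ.1 hB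
  have hl := line_partner hS (hall A hAS) hAS hAB
  obtain ⟨F', hF', hCF', e⟩ := lemmaZ hS hall hAB.1 hl
  have hPm : ⁅⁅A, B⁆, F'⁆ ∈ membersIn S (A ⊔ ⁅A, B⁆) :=
    ⟨hCF'.1, by rw [sup_comm, ← e]; exact le_sup_right⟩
  have hPne : ⁅⁅A, B⁆, F'⁆ ≠ ⁅A, B⁆ := by
    intro h
    obtain ⟨c, hc, hc1⟩ := Root.exists_ne_one hS hAB.1
    apply hc1
    apply RootComm.eq_one_of_mem_left hS hCF' _ hc
    rw [h]; exact hc
  rw [members_eq hS (hall A hAS) hAS hAB] at hPm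
  rcases hPm with ⟨b, hb, eb⟩ | hPm
  · have eb' : conjBy A b = ⁅⁅A, B⁆, F'⁆ := eb
    have hFS : conjBy F' b⁻¹ ∈ S := hS.conj_mem F' hF' b⁻¹
    have hCb : conjBy ⁅A, B⁆ b⁻¹ = ⁅A, B⁆ := conjBy_of_central
      (fun c hc => (hAB.2.1 c hc b⁻¹ (Subgroup.mem_sup_right (B.inv_mem hb))).symm)
    have hDC : ⁅conjBy F' b⁻¹, ⁅A, B⁆⁆ = A := by
      calc ⁅conjBy F' b⁻¹, ⁅A, B⁆⁆ = ⁅conjBy F' b⁻¹, conjBy ⁅A, B⁆ b⁻¹⁆ := by rw [hCb]
        _ = conjBy ⁅F', ⁅A, B⁆⁆ b⁻¹ := conjBy_comm _ _ _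
        _ = conjBy ⁅⁅A, B⁆, F'⁆ b⁻¹ := by rw [Subgroup.commutator_comm]
        _ = A := by rw [← eb', conjBy_inv_conjBy]
    have hp : IsRankOnePair B (conjBy F' b⁻¹) :=
      (Cfsg.Agent.S5036.result hS hAS hBS hAB.1 hFS hDC).1
    have hFC : RootCommutatorCase S (conjBy F' b⁻¹) ⁅A, B⁆ :=
      comm_case hS hFS hAB.1 (by rw [hDC]; exact hAS)
    have hN : conjBy F' b⁻¹ ≤ Nd Δ := dagger hΔ hFS hA (fun f hf => conjBy_of_central
      (fun a ha => (hFC.2.1 a (by rw [hDC]; exact ha) f (Subgroup.mem_sup_left hf)).symm))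
    obtain ⟨f, hf, hf1⟩ := Root.exists_ne_one hS hFS
    have h3' := RankOnePair_symm hp
    have hne : conjBy B f ≠ B := fun he => hf1 (RankOne.eq_one_of_conjBy_eq h3' hf he)
    have hp2 : IsRankOnePair (conjBy B f) B :=
      RankOne.pair_of_unipotents h3' ((RankOne.mem_unipotent_iff h3').2 (Or.inr ⟨_, hf, rfl⟩))
        (RankOne.right_mem_unipotent h3') hne
    exact omega_case hS hall hE hΔ ((hN hf B).2 hB) hB hp2
  · exact hPne (Set.mem_singleton_iff.1 hPm)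

end aux

/-- Let S be a non-degenerate class of abstract root subgroups of G and Δ a weak TI-subset of S. Then the members of Δ commute with one another elementwise. -/
theorem result {G : Type*} [Group G] {S : Set (Subgroup G)} (hS : Cfsg.IsRootSubgroupClass S) (hnd : Cfsg.IsNondegenerateRootSet S)
    {Δ : Set (Subgroup G)} (hΔ : Cfsg.IsWeakTISubset S Δ) : Cfsg.IsAbelianFamily Δ := by
  have hE := (Cfsg.Agent.S5041.result hS hnd).1
  obtain ⟨hS, _, hconj⟩ := hS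
  obtain ⟨-, ⟨A₀, hA₀, B₀, hB₀, hp₀⟩, -⟩ := hnd
  have hall : ∀ B ∈ S, ¬ Cfsg.IsIsolatedIn (Cfsg.FAdj S) S B := by
    intro B hB
    obtain ⟨g, rfl⟩ := hconj A₀ hA₀ B hB
    exact nonisolated_conj hS (nonisolated_of_partner hA₀ hB₀ hp₀) hA₀ g
  intro A hA B hB a ha b hb
  rcases hS.pair A (hΔ.1 hA) B (hΔ.1 hB) with h | h | h
  · exact comm_of_commutator_eq_bot h ha hb
  · exact (omega_case hS hall hE hΔ hA hB h).elim
  · exact (psi_case hS hall hE hΔ hA hB h).elim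

end Cfsg.Agent.S5040
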