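import Cfsg.Statements.S5042
import Cfsg.Agent.S5038

set_option autoImplicit false
open Cfsg

namespace Cfsg.Agent.S5042

open Cfsg.Agent.H25 Cfsg.Agent.H22 Cfsg.Agent.H22.Root Cfsg.Agent.S5041 Cfsg.Agent.S5038

section aux

variable {G : Type*} [Group G] {S : Set (Subgroup G)} {A B C : Subgroup G}

theorem lemmaZ2 (hS : IsRootSubgroupSet S) (hall : ∀ B ∈ S, ¬ IsIsolatedIn (FAdj S) S B)
    (hA : A ∈ S) (hB : B ∈ linePartners S A) {D : Subgroup G} (hD : D ∈ S)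
    (hp : IsRankOnePair A D) :
    ∃ F ∈ S, RootCommutatorCase S A F ∧ A ⊔ ⁅A, F⁆ = A ⊔ B ∧ F = ⁅D, ⁅A, F⁆⁆ := by
  obtain ⟨⟨hBS, hBA, hcomm⟩, hpart⟩ := hB
  have hAB : Cm A B := fun a ha b hb => comm_of_commutator_eq_bot hcomm ha hb
  have hAl : Cm A (A ⊔ B) := cm_sup_right (cm_self hS hA) hAB
  have hint : A ⊓ B = ⊥ := hpart.2.2 A ⟨hA, le_sup_left⟩ B ⟨hBS, le_sup_right⟩ (Ne.symm hBA)
  have hint' : ∀ x, x ∈ A → x ∈ B → x = 1 := by
    intro x h1 h2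
    have : x ∈ A ⊓ B := ⟨h1, h2⟩
    rw [hint] at this
    exact Subgroup.mem_bot.1 this
  obtain ⟨c, hc, hc1⟩ := Root.exists_ne_one hS hBS
  -- step 1
  have step1 : ∃ P ∈ S, P ≤ A ⊔ B ∧ RootCommutatorCase S D P ∧ c ∈ A ⊔ P := by
    rcases hS.pair D hD B hBS with h | hq | h
    · exfalso
      obtain ⟨a, ha, ha1⟩ := Root.exists_ne_one hS hA
      have hz : c ∈ Subgroup.centralizer ((A ⊔ D : Subgroup G) : Set G) := by
        have h1 : Cm (A ⊔ D) B :=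
          Cm.sup_left hAB (fun b hb c hc => comm_of_commutator_eq_bot h hb hc)
        rw [Subgroup.mem_centralizer_iff]
        intro x hx
        exact h1 x hx c hc
      apply Cfsg.Agent.S5025.result hS hA ⟨hD, hp⟩ hz hc1 a ha ha1
      have hne : c * a ≠ 1 := by
        intro e1
        apply hc1
        apply hint' c _ hc
        rw [eq_inv_of_mul_eq_one_left e1]
        exact A.inv_mem ha
      obtain ⟨P, ⟨hP, _⟩, hm⟩ := hpart.2.1 (c * a)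
        (mul_mem (Subgroup.mem_sup_right hc) (Subgroup.mem_sup_left ha)) hne
      exact ⟨hne, P, hP, hm⟩
    · obtain ⟨d, hd, hd1, he1⟩ := (RankOnePair_symm hq).cond_left c hc hc1
      obtain ⟨a, ha, ha1, he2⟩ := hp.cond_right d hd hd1
      have h1 : Cm (conjBy D a⁻¹) (conjBy D c⁻¹) := by
        rw [he2, ← he1]
        exact cm_conj hAB d⁻¹
      have h2 : Cm D (conjBy D (a * c⁻¹)) := by
        have := cm_conj h1 a
        rwa [conjBy_conjBy_inv, conjBy_conjBy] at this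
      have hx1 : a * c⁻¹ ≠ 1 := by
        intro e1
        apply hc1
        apply hint' c _ hc
        rw [← mul_inv_eq_one.1 e1]
        exact ha
      obtain ⟨P, ⟨hPS, hPle⟩, hm⟩ := hpart.2.1 (a * c⁻¹)
        (mul_mem (Subgroup.mem_sup_left ha) (Subgroup.mem_sup_right (inv_mem hc))) hx1
      refine ⟨P, hPS, hPle, ?_, ?_⟩
      · rcases hS.pair D hD _ hPS with h3 | h3 | h3
        · exfalso
          have h4 : conjBy D (a * c⁻¹) = D :=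
            conjBy_of_central (fun y hy => (comm_of_commutator_eq_bot h3 hy hm).symm)
          rw [conjBy_mul, conjBy_eq_iff, ← he1, he2, conjBy_inj] at h4
          exact hBA h4
        · exfalso
          have h3' := RankOnePair_symm h3
          have hne : conjBy D (a * c⁻¹) ≠ D := fun he => hx1 (RankOne.eq_one_of_conjBy_eq h3' hm he)
          have hp2 : IsRankOnePair (conjBy D (a * c⁻¹)) D :=
            RankOne.pair_of_unipotents h3' ((RankOne.mem_unipotent_iff h3').2 (Or.inr ⟨_, hm, rfl⟩))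
              (RankOne.right_mem_unipotent h3') hne
          exact RankOne.commutator_ne_bot hp2 (commutator_eq_bot_of_comm h2.symm)
        · exact h3
      · have : c = (a * c⁻¹)⁻¹ * a := by group
        rw [this]
        exact mul_mem (inv_mem (Subgroup.mem_sup_right hm)) (Subgroup.mem_sup_left ha)
    · exact ⟨B, hBS, le_sup_right, h, Subgroup.mem_sup_right hc⟩
  obtain ⟨P, hPS, hPle, hDP, hcP⟩ := step1
  have hAP : Cm A P := cm_mono hAl le_rfl hPle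
  have hcov : ∀ x ∈ A ⊔ P, x ≠ 1 → ∃ P' ∈ S, x ∈ P' := by
    intro x hx hx1
    obtain ⟨P', ⟨hP', _⟩, hm⟩ := hpart.2.1 x ((sup_le le_sup_left hPle) hx) hx1
    exact ⟨P', hP', hm⟩
  -- step 2
  obtain ⟨a, ha, ha1⟩ := Root.exists_ne_one hS hA
  obtain ⟨d, hd, hd1, he⟩ := hp.cond_left a ha ha1
  have hPK : P ≤ ⁅A, ⁅D, P⁆⁆ := by
    intro p hpP
    have h1 := stepA' hS hall hA hD hp hPS hAP hcov hDP ha ha1 hd hd1 he hpP
    have hf : p⁻¹ * d⁻¹ * p * d ∈ ⁅D, P⁆ := by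
      rw [Subgroup.commutator_comm]; exact psi_mem hpP hd
    generalize p⁻¹ * d⁻¹ * p * d = f at h1 hf
    have h2 : p = (a * f * a⁻¹ * f⁻¹)⁻¹ := by
      have : a * f * a⁻¹ * f⁻¹ = (a * f * a⁻¹) * f⁻¹ := by group
      rw [this, h1]
      have hfp : f * p = p * f := hDP.2.1 f hf p (Subgroup.mem_sup_right hpP)
      have c1 : Commute f p := hfp
      have : f * p⁻¹ * f⁻¹ = p⁻¹ := by
        rw [(c1.inv_right).eq]; group
      rw [this, inv_inv]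
    rw [h2]
    exact inv_mem (commutator_mem ha hf)
  have hAF : RootCommutatorCase S A ⁅D, P⁆ := by
    rcases pairAM hS hA hPS hDP hAP hD with h | h
    · exfalso
      rw [h] at hPK
      exact hS.ne_bot P hPS (le_bot_iff.1 hPK)
    · exact h
  have hPeq : P = ⁅A, ⁅D, P⁆⁆ := by
    rcases Cfsg.Agent.S5028.result hS (hall P hPS) hPS _ hAF.1 with h | h
    · exfalso
      rw [inf_eq_left.2 hPK] at h
      exact hS.ne_bot P hPS h
    · exact h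
  refine ⟨⁅D, P⁆, hDP.1, hAF, ?_, by rw [← hPeq]⟩
  apply le_antisymm
  · rw [← hPeq]; exact sup_le le_sup_left hPle
  · apply sup_le le_sup_left
    rw [hPeq] at hcP
    obtain ⟨P', ⟨hP', hP'le⟩, hm⟩ := (partition hS (hall A hA) hA hAF).2.1 c hcP hc1
    rcases Cfsg.Agent.S5028.result hS (hall B hBS) hBS P' hP' with h | h
    · exfalso
      have : c ∈ B ⊓ P' := ⟨hc, hm⟩
      rw [h] at this
      exact hc1 (Subgroup.mem_bot.1 this)
    · rw [h]; exact hP'le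



theorem line_conj (hS : IsRootSubgroupSet S) (hall : ∀ B ∈ S, ¬ IsIsolatedIn (FAdj S) S B)
    {E : Subgroup G} (hC : C ∈ linePartners S E) (g : G) :
    conjBy C g ∈ linePartners S (conjBy E g) := by
  obtain ⟨⟨hCS, hne, hcomm⟩, hpart⟩ := hC
  refine ⟨⟨hS.conj_mem C hCS g, fun h => hne (conjBy_inj.1 h), ?_⟩, fun T hT => hT.2, ?_, ?_⟩
  · rw [conjBy_comm, hcomm, conjBy_bot]
  · intro x hx hx1
    rw [← conjBy_sup, mem_conjBy] at hx
    have hx1' : g⁻¹ * x * g ≠ 1 := by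
      intro e
      apply hx1
      have : x = g * (g⁻¹ * x * g) * g⁻¹ := by group
      rw [this, e]; group
    obtain ⟨T, ⟨hT, hTle⟩, hm⟩ := hpart.2.1 _ hx hx1'
    refine ⟨conjBy T g, ⟨hS.conj_mem T hT g, ?_⟩, mem_conjBy.2 hm⟩
    rw [← conjBy_sup]
    exact conjBy_mono hTle g
  · intro T hT T' hT' hne'
    exact (Cfsg.Agent.S5028.result hS (hall T hT.1) hT.1 T' hT'.1).resolve_right hne'

theorem orbit_step (hS : IsRootSubgroupSet S) (hall : ∀ B ∈ S, ¬ IsIsolatedIn (FAdj S) S B)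
    (hAS : A ∈ S) (hBS : B ∈ S) (hp : IsRankOnePair A B) {Y : Subgroup G}
    (hΛ : ∀ C ∈ linePartners S A, C ≤ Y) (hBY : B ≤ Y)
    (hC : C ∈ linePartners S A) : A ≤ Y ∧ ∃ y ∈ Y, C = conjBy A y := by
  obtain ⟨F₁, hF₁, hAF₁, e₁, hFeq⟩ := lemmaZ2 hS hall hAS hC hBS hp
  have hP₁ : ⁅A, F₁⁆ ∈ S := hAF₁.1
  have hl := line_partner hS (hall A hAS) hAS hAF₁
  have hP₁Λ : ⁅A, F₁⁆ ∈ linePartners S A := (eadj_symm (step_line hS (hall A hAS) hAS hAF₁)).2.2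
  have hP₁Y : ⁅A, F₁⁆ ≤ Y := hΛ _ hP₁Λ
  have hN1 : F₁ ≤ Y := by
    rw [hFeq]
    exact (Trip.comm_le_sup _ _).trans (sup_le hBY hP₁Y)
  obtain ⟨F₂', hF₂', hPF₂', e₂⟩ := lemmaZ hS hall hP₁ hl
  have mem := members_eq hS (hall A hAS) hAS hAF₁
  have pts : ∀ R ∈ membersIn S (A ⊔ ⁅A, F₁⁆), R ≠ ⁅A, F₁⁆ → ∃ f ∈ F₁, R = conjBy A f := by
    intro R hR hne
    rw [mem] at hR
    rcases hR with ⟨f, hf, rfl⟩ | hR
    · exact ⟨f, hf, rfl⟩
    · exact absurd (Set.mem_singleton_iff.1 hR) hne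
  have hm2' : ⁅⁅A, F₁⁆, F₂'⁆ ∈ membersIn S (A ⊔ ⁅A, F₁⁆) :=
    ⟨hPF₂'.1, by rw [sup_comm, ← e₂]; exact le_sup_right⟩
  have hne2' : ⁅⁅A, F₁⁆, F₂'⁆ ≠ ⁅A, F₁⁆ := by
    intro h
    obtain ⟨c, hc, hc1⟩ := Root.exists_ne_one hS hP₁
    apply hc1
    apply RootComm.eq_one_of_mem_left hS hPF₂' _ hc
    rw [h]; exact hc
  obtain ⟨f₀, hf₀, eP₂⟩ := pts _ hm2' hne2'
  have hF₂S : conjBy F₂' f₀⁻¹ ∈ S := hS.conj_mem F₂' hF₂' f₀⁻¹
  have hPf : conjBy ⁅A, F₁⁆ f₀⁻¹ = ⁅A, F₁⁆ := conjBy_of_central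
    (fun c hc => (hAF₁.2.1 c hc f₀⁻¹ (Subgroup.mem_sup_right (F₁.inv_mem hf₀))).symm)
  have hcomA : ⁅⁅A, F₁⁆, conjBy F₂' f₀⁻¹⁆ = A := by
    calc ⁅⁅A, F₁⁆, conjBy F₂' f₀⁻¹⁆ = ⁅conjBy ⁅A, F₁⁆ f₀⁻¹, conjBy F₂' f₀⁻¹⁆ := by rw [hPf]
      _ = conjBy ⁅⁅A, F₁⁆, F₂'⁆ f₀⁻¹ := conjBy_comm _ _ _
      _ = A := by rw [eP₂, conjBy_inv_conjBy]
  generalize conjBy F₂' f₀⁻¹ = F₂ at hF₂S hcomA
  have hPF₂ : RootCommutatorCase S ⁅A, F₁⁆ F₂ := comm_case hS hP₁ hF₂S (by rw [hcomA]; exact hAS)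
  have hF₂Λ : F₂ ∈ linePartners S A := by
    have := line_partner hS (hall F₂ hF₂S) hF₂S (RootComm_symm hPF₂)
    rwa [Subgroup.commutator_comm, hcomA] at this
  have hN2 : F₂ ≤ Y := hΛ _ hF₂Λ
  have hAY : A ≤ Y := by
    rw [← hcomA]
    exact (Trip.comm_le_sup _ _).trans (sup_le hP₁Y hN2)
  refine ⟨hAY, ?_⟩
  have hCm : C ∈ membersIn S (A ⊔ ⁅A, F₁⁆) := ⟨hC.1.1, by rw [e₁]; exact le_sup_right⟩
  by_cases hCP : C = ⁅A, F₁⁆
  · have part2 := partition hS (hall _ hP₁) hP₁ hPF₂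
    have T2 := lemmaT hS (hall _ hP₁) hP₁ hPF₂
    rw [hcomA, sup_comm] at part2 T2
    have hm1 : ⁅A, F₁⁆ ∈ membersIn S (A ⊔ ⁅A, F₁⁆) := ⟨hP₁, le_sup_right⟩
    have hint : ∀ x, x ∈ ⁅A, F₁⁆ → x ∈ A → x = 1 :=
      fun x h1 h2 => RootComm.eq_one_of_mem_left hS hAF₁ h1 h2
    obtain ⟨p₁, hp₁, hp₁1⟩ := Root.exists_ne_one hS hP₁
    obtain ⟨p₂, hp₂, hp₂1⟩ := Root.exists_ne_one hS hAS
    have h12 : ⁅A, F₁⁆ ≠ A := by
      intro h
      apply hp₁1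
      apply hint p₁ hp₁
      rw [← h]; exact hp₁
    have hne : p₁ * p₂ ≠ 1 := by
      intro e
      apply hp₁1
      apply hint p₁ hp₁
      rw [eq_inv_of_mul_eq_one_left e]
      exact inv_mem hp₂
    obtain ⟨R₃, hR₃, hm⟩ := part2.2.1 (p₁ * p₂)
      (mul_mem (Subgroup.mem_sup_right hp₁) (Subgroup.mem_sup_left hp₂)) hne
    have h31 : R₃ ≠ ⁅A, F₁⁆ := by
      rintro rfl
      apply hp₂1
      apply hint p₂ _ hp₂
      have : p₂ = p₁⁻¹ * (p₁ * p₂) := by group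
      rw [this]
      exact mul_mem (inv_mem hp₁) hm
    have h32 : R₃ ≠ A := by
      rintro rfl
      apply hp₁1
      apply hint p₁ hp₁
      have : p₁ = (p₁ * p₂) * p₂⁻¹ := by group
      rw [this]
      exact mul_mem hm (inv_mem hp₂)
    obtain ⟨f, hf, eR⟩ := pts R₃ hR₃ h31
    obtain ⟨x, hx, ex, -⟩ := T2 R₃ hR₃ ⁅A, F₁⁆ hm1 h32 h12
    exact ⟨x * f, mul_mem (hN2 hx) (hN1 hf), by rw [hCP, conjBy_mul, ← eR, ex]⟩
  · obtain ⟨f, hf, e⟩ := pts C hCm hCP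
    exact ⟨f, hN1 hf, e⟩

end aux

/-- Let S be a non-degenerate class of abstract root subgroups of G, A ∈ S and B a rank one partner of A. Then G is generated by the line partners of A together with B. -/
theorem result {G : Type*} [Group G] {S : Set (Subgroup G)} (hS : Cfsg.IsRootSubgroupClass S) (hnd : Cfsg.IsNondegenerateRootSet S)
    {A B : Subgroup G} (hA : A ∈ S) (hB : B ∈ Cfsg.rankOnePartners S A) :
    (⨆ C ∈ Cfsg.linePartners S A, C) ⊔ B = ⊤ := by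
  have hE := (Cfsg.Agent.S5041.result hS hnd).1
  obtain ⟨hS, _, hconj⟩ := hS
  obtain ⟨-, ⟨A₀, hA₀, B₀, hB₀, hp₀⟩, ⟨A₁, hA₁, B₁, hB₁, hc₁⟩⟩ := hnd
  have hall : ∀ B ∈ S, ¬ Cfsg.IsIsolatedIn (Cfsg.FAdj S) S B := by
    intro B hB
    obtain ⟨g, rfl⟩ := hconj A₀ hA₀ B hB
    exact nonisolated_conj hS (nonisolated_of_partner hA₀ hB₀ hp₀) hA₀ g
  have hpsi : ∀ A ∈ S, ∃ E ∈ S, RootCommutatorCase S A E := by
    intro A hA
    obtain ⟨g, rfl⟩ := hconj A₁ hA₁ A hA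
    exact ⟨conjBy B₁ g, hS.conj_mem B₁ hB₁ g, conj_case hS hA₁ hB₁ hc₁ g⟩
  obtain ⟨Y, hY⟩ : ∃ Y, Y = (⨆ C ∈ Cfsg.linePartners S A, C) ⊔ B := ⟨_, rfl⟩
  rw [← hY]
  have hΛ : ∀ C ∈ Cfsg.linePartners S A, C ≤ Y := by
    intro C hC
    rw [hY]
    exact (le_iSup₂ (f := fun (E : Subgroup G) (_ : E ∈ Cfsg.linePartners S A) => E) C hC).trans
      le_sup_left
  have hBY : B ≤ Y := by rw [hY]; exact le_sup_right
  obtain ⟨C₀, hC₀, -⟩ := Cfsg.Agent.S5034.exists_C' hS hall hpsi hA hB.1 hB.2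
  have hAY : A ≤ Y := (orbit_step hS hall hA hB.1 hB.2 hΛ hBY hC₀).1
  have good : ∀ E, Relation.ReflTransGen (Cfsg.EAdj S S) A E → ∃ y ∈ Y, E = conjBy A y := by
    intro E h
    induction h with
    | refl => exact ⟨1, one_mem _, (conjBy_one A).symm⟩
    | @tail X Z _ hstep ih =>
      obtain ⟨y, hy, rfl⟩ := ih
      have h1 := line_conj hS hall hstep.2.2 y⁻¹
      rw [conjBy_inv_conjBy] at h1
      obtain ⟨y', hy', e⟩ := (orbit_step hS hall hA hB.1 hB.2 hΛ hBY h1).2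
      refine ⟨y * y', mul_mem hy hy', ?_⟩
      rw [conjBy_mul, ← e, conjBy_conjBy_inv]
  rw [eq_top_iff, ← hS.generates]
  apply iSup₂_le
  intro E hES
  obtain ⟨y, hy, rfl⟩ := good E (hE A hA E hES)
  exact conjBy_le_of_mem hAY hy

end Cfsg.Agent.S5042
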