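import Cfsg.Statements.S5049
import Cfsg.Agent.Lib.Helper27.XS7

set_option autoImplicit false
open Cfsg

namespace Cfsg.Agent.S5049

open Cfsg.Agent.Lib.Helper27 Cfsg.Agent.Lib.Helper27.XS
open scoped commutatorElement

/-- Let G be a finite group generated by a set D of odd transpositions (root involutions with no product of order 4), Q = O₂(G), and for a ∈ D let Q_a be the commutator subgroup of Q with a. Then every member of D commuting with a centralizes Q_a; and for b ∈ D with ab of odd order greater than 1, the centralizer of ab in Q is the intersection of the centralizers of a and b in Q. -/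
theorem result {G : Type*} [Group G] [Finite G] {D : Set G} (hD : Cfsg.IsOddTranspositionSet D) {a : G} (ha : a ∈ D) :
    (∀ e ∈ Cfsg.commutingMembers D a, ∀ q ∈ ⁅Cfsg.pCore 2 G, Subgroup.zpowers a⁆, e * q = q * e) ∧
    (∀ b ∈ Cfsg.oddPartners D a,
      Cfsg.pCore 2 G ⊓ Subgroup.centralizer {a * b} = Cfsg.pCore 2 G ⊓ Subgroup.centralizer {a} ⊓ Subgroup.centralizer {b}) := by
  obtain ⟨Q, hQ⟩ : ∃ Q : Subgroup G, Q = Cfsg.pCore 2 G := ⟨_, rfl⟩
  rw [← hQ]
  have hQp : IsPGroup 2 ↥Q := hQ ▸ isPGroup_pCore 2 G
  have hQn : Q.Normal := hQ ▸ pCore_normal 2 G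
  have hinv : ∀ d ∈ D, d * d = 1 := by
    intro d hd
    rw [← pow_two, ← hD.1.orderOf_eq d hd]; exact pow_orderOf_eq_one d
  have hinv' : ∀ d ∈ D, d⁻¹ = d := fun d hd => inv_eq_of_mul_eq_one_left (hinv d hd)
  -- an element of `Q` of odd order is trivial
  have lemA : ∀ x ∈ Q, Odd (orderOf x) → x = 1 := by
    intro x hx hodd
    obtain ⟨k, hk⟩ := hQp ⟨x, hx⟩
    have hk' : x ^ 2 ^ k = 1 := congrArg Subtype.val hk
    have h1 : orderOf x ∣ 2 ^ k := orderOf_dvd_of_pow_eq_one hk'
    have h2 : Nat.Coprime (orderOf x) (2 ^ k) := (Nat.Coprime.pow_right k hodd.coprime_two_right)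
    have h3 : orderOf x = 1 := Nat.Coprime.eq_one_of_dvd h2 h1
    exact orderOf_eq_one_iff.1 h3
  have lemB : ∀ c ∈ D, ∀ d ∈ D, (c * d) * (c * d) ∈ Q → c * d = d * c := by
    intro c hc d hd h
    rcases hD.1.pair c hc d hd with h1 | h1 | h1
    · exact h1
    · have h2 : Odd (orderOf ((c * d) * (c * d))) := by
        rw [← pow_two]
        exact Odd.of_dvd_nat h1 (orderOf_pow_dvd 2)
      have h3 := lemA _ h h2
      have h4 : orderOf (c * d) ∣ 2 := orderOf_dvd_of_pow_eq_one (by rw [pow_two]; exact h3)
      have h5 : orderOf (c * d) = 1 :=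
        Nat.Coprime.eq_one_of_dvd h1.coprime_two_right h4
      have h6 : c * d = 1 := orderOf_eq_one_iff.1 h5
      have h7 : c = d := by
        rw [← hinv' d hd]; exact eq_inv_of_mul_eq_one_left h6
      rw [h7]
    · exact absurd h1.1 (hD.2 c hc d hd)
  constructor
  · rintro e ⟨heD, hea⟩
    have hle : ⁅Q, Subgroup.zpowers a⁆ ≤ Subgroup.centralizer ({e} : Set G) := by
      rw [Subgroup.commutator_le]
      intro q hq y hy
      rw [Subgroup.mem_centralizer_singleton_iff]
      rcases (mem_zpowers_invol (hinv a ha)).1 hy with rfl | rfl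
      · simp
      · have ha' : q * y * q⁻¹ ∈ D := hD.1.conj_mem y ha q
        have hss : (e * y) * (e * y) = 1 := by
          calc (e * y) * (e * y) = e * (y * e) * y := by group
            _ = e * (e * y) * y := by rw [hea]
            _ = (e * e) * (y * y) := by group
            _ = 1 := by rw [hinv e heD, hinv y ha, one_mul]
        have h1 : (e * (q * y * q⁻¹)) * (e * (q * y * q⁻¹)) ∈ Q := by
          have e1 : (e * (q * y * q⁻¹)) * (e * (q * y * q⁻¹)) =
              (e * q * e⁻¹) * ((e * y) * (q⁻¹ * (e * q * e⁻¹)) * (e * y)⁻¹) *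
                ((e * y) * (e * y)) * q⁻¹ := by group
          rw [e1, hss, mul_one]
          exact Q.mul_mem (Q.mul_mem (hQn.conj_mem _ hq _)
            (hQn.conj_mem _ (Q.mul_mem (Q.inv_mem hq) (hQn.conj_mem _ hq _)) _)) (Q.inv_mem hq)
        have h2 := lemB e heD _ ha' h1
        rw [commutatorElement_def, hinv' y ha]
        calc q * y * q⁻¹ * y * e = (q * y * q⁻¹) * (y * e) := by group
          _ = (q * y * q⁻¹) * (e * y) := by rw [hea]
          _ = ((q * y * q⁻¹) * e) * y := by group
          _ = (e * (q * y * q⁻¹)) * y := by rw [h2]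
          _ = _ := by group
    intro q hq
    exact (Subgroup.mem_centralizer_singleton_iff.1 (hle hq)).symm
  · rintro b ⟨hbD, hba, hodd⟩
    ext q
    simp only [Subgroup.mem_inf, Subgroup.mem_centralizer_singleton_iff]
    constructor
    · rintro ⟨hq, hqr⟩
      obtain ⟨r, hr⟩ : ∃ r, r = a * b := ⟨_, rfl⟩
      rw [← hr] at hqr hodd
      have hai := hinv' a ha
      have haa := hinv a ha
      have hbb := hinv b hbD
      have hbr : b = a * r := by rw [hr, ← mul_assoc, haa, one_mul]
      have hara : a * r * a = r⁻¹ := by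
        rw [hr]
        have : (a * b)⁻¹ = b * a := by rw [mul_inv_rev, hai, hinv' b hbD]
        rw [this]
        calc a * (a * b) * a = (a * a) * b * a := by group
          _ = b * a := by rw [haa, one_mul]
      obtain ⟨a', ha'⟩ : ∃ a', a' = q * a * q⁻¹ := ⟨_, rfl⟩
      have ha'D : a' ∈ D := ha' ▸ hD.1.conj_mem a ha q
      have ha'a' := hinv a' ha'D
      obtain ⟨w, hw⟩ : ∃ w, w = a * a' := ⟨_, rfl⟩
      have hwQ : w ∈ Q := by
        rw [hw, ha']
        have : a * (q * a * q⁻¹) = (a * q * a⁻¹) * q⁻¹ := by rw [hai]; group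
        rw [this]
        exact Q.mul_mem (hQn.conj_mem _ hq _) (Q.inv_mem hq)
      have hcomm : a * a' = a' * a := lemB a ha a' ha'D (hw ▸ Q.mul_mem hwQ hwQ)
      have ha'w : a' = a * w := by rw [hw, ← mul_assoc, haa, one_mul]
      have ha'r : a' * r * a' = r⁻¹ := by
        have hqr' : q⁻¹ * r = r * q⁻¹ := by
          calc q⁻¹ * r = q⁻¹ * (r * q) * q⁻¹ := by group
            _ = q⁻¹ * (q * r) * q⁻¹ := by rw [hqr]
            _ = _ := by group
        have hqri : q * r⁻¹ = r⁻¹ * q := by
          calc q * r⁻¹ = r⁻¹ * (r * q) * r⁻¹ := by group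
            _ = r⁻¹ * (q * r) * r⁻¹ := by rw [hqr]
            _ = _ := by group
        rw [ha']
        calc q * a * q⁻¹ * r * (q * a * q⁻¹) = q * a * (q⁻¹ * r) * q * a * q⁻¹ := by group
          _ = q * a * (r * q⁻¹) * q * a * q⁻¹ := by rw [hqr']
          _ = q * (a * r * a) * q⁻¹ := by group
          _ = (q * r⁻¹) * q⁻¹ := by rw [hara]
          _ = (r⁻¹ * q) * q⁻¹ := by rw [hqri]
          _ = r⁻¹ := by group
      have hwr : w * r = r * w := by
        have h1 : a * r⁻¹ * a = r := by
          calc a * r⁻¹ * a = a * (a * r * a) * a := by rw [hara]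
            _ = (a * a) * r * (a * a) := by group
            _ = r := by rw [haa]; group
        have h2 : a' * r = r⁻¹ * a' := by
          calc a' * r = (a' * r * a') * a' := by rw [mul_assoc (a' * r), ha'a', mul_one]
            _ = r⁻¹ * a' := by rw [ha'r]
        have h3 : a * r⁻¹ = r * a := by
          calc a * r⁻¹ = (a * r⁻¹ * a) * a := by rw [mul_assoc (a * r⁻¹), haa, mul_one]
            _ = r * a := by rw [h1]
        rw [hw]
        calc a * a' * r = a * (a' * r) := by group
          _ = a * (r⁻¹ * a') := by rw [h2]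
          _ = (a * r⁻¹) * a' := by group
          _ = (r * a) * a' := by rw [h3]
          _ = _ := by group
      obtain ⟨y, hy⟩ : ∃ y, y = b * a' := ⟨_, rfl⟩
      have hyw : y = r⁻¹ * w := by
        rw [hy, hbr, ha'w]
        calc a * r * (a * w) = (a * r * a) * w := by group
          _ = r⁻¹ * w := by rw [hara]
      have hw1 : w = 1 := by
        rcases hD.1.pair b hbD a' ha'D with h1 | h1 | h1
        · exfalso
          have h2 : y * y = 1 := by
            rw [hy]
            calc b * a' * (b * a') = b * (a' * b) * a' := by group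
              _ = b * (b * a') * a' := by rw [h1]
              _ = (b * b) * (a' * a') := by group
              _ = 1 := by rw [hbb, ha'a', one_mul]
          have hww : w * w = 1 := by
            rw [hw]
            calc a * a' * (a * a') = a * (a' * a) * a' := by group
              _ = a * (a * a') * a' := by rw [hcomm]
              _ = (a * a) * (a' * a') := by group
              _ = 1 := by rw [haa, ha'a', one_mul]
          have hwri : w * r⁻¹ = r⁻¹ * w := by
            calc w * r⁻¹ = r⁻¹ * (r * w) * r⁻¹ := by group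
              _ = r⁻¹ * (w * r) * r⁻¹ := by rw [hwr]
              _ = _ := by group
          have h3 : r⁻¹ * r⁻¹ = 1 := by
            calc r⁻¹ * r⁻¹ = r⁻¹ * r⁻¹ * (w * w) := by rw [hww, mul_one]
              _ = r⁻¹ * (r⁻¹ * w) * w := by group
              _ = r⁻¹ * (w * r⁻¹) * w := by rw [hwri]
              _ = (r⁻¹ * w) * (r⁻¹ * w) := by group
              _ = 1 := by rw [← hyw]; exact h2
          have h4 : r * r = 1 := by
            have : (r * r)⁻¹ = 1 := by rw [mul_inv_rev]; exact h3
            exact inv_eq_one.1 this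
          have h5 : orderOf r ∣ 2 := orderOf_dvd_of_pow_eq_one (by rw [pow_two]; exact h4)
          have h6 : orderOf r = 1 := Nat.Coprime.eq_one_of_dvd hodd.coprime_two_right h5
          have h7 : a * b = 1 := by rw [← hr]; exact orderOf_eq_one_iff.1 h6
          apply hba
          rw [← hai]; exact (eq_inv_of_mul_eq_one_right h7)
        · apply lemA w hwQ
          have hwy : w = r * y := by rw [hyw]; group
          have hc : Commute r y := by
            show r * y = y * r
            rw [hyw]
            calc r * (r⁻¹ * w) = w := by group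
              _ = r⁻¹ * (r * w) := by group
              _ = r⁻¹ * (w * r) := by rw [hwr]
              _ = _ := by group
          rw [← hy] at h1
          rw [hwy]
          exact Odd.of_dvd_nat (hodd.mul h1) (hc.orderOf_mul_dvd_lcm.trans (Nat.lcm_dvd_mul _ _))
        · exact absurd h1.1 (hD.2 b hbD a' ha'D)
      have hqa : q * a = a * q := by
        have h1 : a' = a := by rw [ha'w, hw1, mul_one]
        calc q * a = (q * a * q⁻¹) * q := by group
          _ = a * q := by rw [← ha', h1]
      refine ⟨⟨hq, hqa⟩, ?_⟩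
      rw [hbr]
      calc q * (a * r) = (q * a) * r := by group
        _ = (a * q) * r := by rw [hqa]
        _ = a * (q * r) := by group
        _ = a * (r * q) := by rw [hqr]
        _ = _ := by group
    · rintro ⟨⟨hq, hqa⟩, hqb⟩
      refine ⟨hq, ?_⟩
      calc q * (a * b) = (q * a) * b := by group
        _ = (a * q) * b := by rw [hqa]
        _ = a * (q * b) := by group
        _ = a * (b * q) := by rw [hqb]
        _ = _ := by group

end Cfsg.Agent.S5049
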