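import Cfsg.Statements.S5057

set_option autoImplicit false
open Cfsg

namespace Cfsg.Agent.S5057

set_option maxRecDepth 100000 in
theorem pairs : ∀ a : alternatingGroup (Fin 6), a ^ 2 = 1 → ∀ b : alternatingGroup (Fin 6), b ^ 2 = 1 →
    ((a * b) ^ 2 = 1 ∨ (a * b) ^ 3 = 1 ∨ (a * b) ^ 4 = 1 ∨ (a * b) ^ 5 = 1) := by decide +kernel

/-- the base involution `(0 1)(2 3)`. -/
def t0 : alternatingGroup (Fin 6) := ⟨Equiv.swap 0 1 * Equiv.swap 2 3, Equiv.Perm.mem_alternatingGroup.2 (by decide)⟩

set_option maxRecDepth 100000 in
theorem conj0 : ∀ b : alternatingGroup (Fin 6), b ^ 2 = 1 → b ≠ 1 →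
    ∃ g : alternatingGroup (Fin 6), b = g * t0 * g⁻¹ := by decide +kernel

theorem t0_order : orderOf t0 = 2 := by
  apply orderOf_eq_prime
  · decide
  · decide

theorem inv_iff (g : alternatingGroup (Fin 6)) : orderOf g = 2 ↔ g ^ 2 = 1 ∧ g ≠ 1 := by
  constructor
  · intro h
    refine ⟨by rw [← h, pow_orderOf_eq_one], ?_⟩
    rintro rfl
    rw [orderOf_one] at h
    exact absurd h (by decide)
  · rintro ⟨h1, h2⟩
    exact orderOf_eq_prime h1 h2

/-- The involutions of the alternating group of degree 6 form a class of root involutions (a single conjugacy class of involutions generating the group, any two of which commute, have product of odd order, or have product of order 4 whose square is again an involution of the class), and the product of any two of them has order at most 5. -/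
theorem result :
    Cfsg.IsRootInvolutionClass {g : ↥(alternatingGroup (Fin 6)) | orderOf g = 2} ∧
    ∀ d ∈ {g : ↥(alternatingGroup (Fin 6)) | orderOf g = 2}, ∀ e ∈ {g : ↥(alternatingGroup (Fin 6)) | orderOf g = 2},
      orderOf (d * e) ≤ 5 := by
  have hconj : ∀ d ∈ {g : ↥(alternatingGroup (Fin 6)) | orderOf g = 2}, ∀ g : ↥(alternatingGroup (Fin 6)),
      g * d * g⁻¹ ∈ {g : ↥(alternatingGroup (Fin 6)) | orderOf g = 2} := by
    intro d hd g
    have h1 : orderOf (g * d * g⁻¹) = orderOf d := by
      have := (MulAut.conj g).orderOf_eq d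
      simpa [MulAut.conj_apply] using this
    exact h1.trans hd
  refine ⟨⟨⟨fun d hd => hd, ?_, hconj, ?_⟩, ⟨t0, t0_order⟩, ?_⟩, ?_⟩
  · have hs : IsSimpleGroup (alternatingGroup (Fin 6)) :=
      alternatingGroup.isSimpleGroup (by simp)
    have hn : (Subgroup.closure {g : ↥(alternatingGroup (Fin 6)) | orderOf g = 2}).Normal := by
      have h1 : Group.conjugatesOfSet {g : ↥(alternatingGroup (Fin 6)) | orderOf g = 2} =
          {g : ↥(alternatingGroup (Fin 6)) | orderOf g = 2} := by
        apply Set.Subset.antisymm
        · intro x hx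
          obtain ⟨a, ha, hax⟩ := Group.mem_conjugatesOfSet_iff.1 hx
          obtain ⟨c, hc⟩ := isConj_iff.1 hax
          rw [← hc]
          exact hconj a ha c
        · exact Group.subset_conjugatesOfSet
      have h2 : Subgroup.normalClosure {g : ↥(alternatingGroup (Fin 6)) | orderOf g = 2} =
          Subgroup.closure {g : ↥(alternatingGroup (Fin 6)) | orderOf g = 2} := by
        unfold Subgroup.normalClosure
        rw [h1]
      rw [← h2]
      exact Subgroup.normalClosure_normal
    rcases hn.eq_bot_or_eq_top with h | h
    · exfalso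
      have h1 : t0 ∈ Subgroup.closure {g : ↥(alternatingGroup (Fin 6)) | orderOf g = 2} :=
        Subgroup.subset_closure t0_order
      rw [h, Subgroup.mem_bot] at h1
      have := t0_order
      rw [h1, orderOf_one] at this
      exact absurd this (by decide)
    · exact h
  · intro a ha b hb
    obtain ⟨ha2, -⟩ := (inv_iff a).1 ha
    obtain ⟨hb2, -⟩ := (inv_iff b).1 hb
    rcases pairs a ha2 b hb2 with h | h | h | h
    · left
      have h1 : a * b * (a * b) = 1 := by rw [← pow_two]; exact h
      have ha' : a * a = 1 := by rw [← pow_two]; exact ha2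
      have hb' : b * b = 1 := by rw [← pow_two]; exact hb2
      calc a * b = a * b * (a * b * (b * a)) := by
            rw [show a * b * (b * a) = a * (b * b) * a by group, hb', mul_one, ha', mul_one]
        _ = (a * b * (a * b)) * (b * a) := by group
        _ = b * a := by rw [h1, one_mul]
    · right; left
      have := orderOf_dvd_of_pow_eq_one h
      rcases (Nat.dvd_prime Nat.prime_three).1 this with h1 | h1 <;> rw [h1] <;> decide
    · by_cases h2 : (a * b) ^ 2 = 1
      · left
        have h1 : a * b * (a * b) = 1 := by rw [← pow_two]; exact h2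
        have ha' : a * a = 1 := by rw [← pow_two]; exact ha2
        have hb' : b * b = 1 := by rw [← pow_two]; exact hb2
        calc a * b = a * b * (a * b * (b * a)) := by
              rw [show a * b * (b * a) = a * (b * b) * a by group, hb', mul_one, ha', mul_one]
          _ = (a * b * (a * b)) * (b * a) := by group
          _ = b * a := by rw [h1, one_mul]
      · right; right
        refine ⟨?_, ?_⟩
        · have := orderOf_eq_prime_pow (p := 2) (n := 1) (x := a * b) (by simpa using h2) (by simpa using h)
          simpa using this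
        · exact (inv_iff _).2 ⟨by rw [← pow_mul]; exact h, h2⟩
    · right; left
      have := orderOf_dvd_of_pow_eq_one h
      rcases (Nat.dvd_prime Nat.prime_five).1 this with h1 | h1 <;> rw [h1] <;> decide
  · intro a ha b hb
    obtain ⟨ha2, ha1⟩ := (inv_iff a).1 ha
    obtain ⟨hb2, hb1⟩ := (inv_iff b).1 hb
    obtain ⟨g, hg⟩ := conj0 a ha2 ha1
    obtain ⟨k, hk⟩ := conj0 b hb2 hb1
    refine ⟨k * g⁻¹, ?_⟩
    rw [hk, hg]; group
  · intro a ha b hb
    obtain ⟨ha2, -⟩ := (inv_iff a).1 ha
    obtain ⟨hb2, -⟩ := (inv_iff b).1 hb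
    rcases pairs a ha2 b hb2 with h | h | h | h
    · exact (orderOf_le_of_pow_eq_one (by norm_num) h).trans (by norm_num)
    · exact (orderOf_le_of_pow_eq_one (by norm_num) h).trans (by norm_num)
    · exact (orderOf_le_of_pow_eq_one (by norm_num) h).trans (by norm_num)
    · exact (orderOf_le_of_pow_eq_one (by norm_num) h)

end Cfsg.Agent.S5057
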