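import Cfsg.Statements.S5059
import Mathlib

set_option autoImplicit false
universe u
open Cfsg

namespace Cfsg.Agent.S5059

section aux
variable {k : Type*} [Field k] {M : Type*} [AddCommGroup M] [Module k M]

def PP (G : Subgroup (LinearMap.GeneralLinearGroup k M)) (C I : Submodule k M)
    (τ : LinearMap.GeneralLinearGroup k M) : Prop :=
  τ ∈ G ∧ LinearMap.range ((τ : M →ₗ[k] M) - 1) ≤ I ∧ C ≤ LinearMap.ker ((τ : M →ₗ[k] M) - 1) ∧
    Cfsg.scalarFamily τ ⊆ (G : Set (LinearMap.GeneralLinearGroup k M))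

theorem mul_zero_aux {C I : Submodule k M} (hIC : I ≤ C) {a b : M →ₗ[k] M}
    (ha : C ≤ LinearMap.ker a) (hb : LinearMap.range b ≤ I) : a * b = 0 := by
  ext m
  have : b m ∈ LinearMap.ker a := ha (hIC (hb ⟨m, rfl⟩))
  simpa using this

theorem PP_one (G : Subgroup (LinearMap.GeneralLinearGroup k M)) (C I : Submodule k M) :
    PP G C I 1 := by
  refine ⟨G.one_mem, ?_, ?_, ?_⟩
  · simp
  · simp
  · rintro ρ ⟨c, hc⟩
    have : ρ = 1 := Units.ext (by simpa using hc)
    rw [this]; exact G.one_mem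

theorem val_mul_aux {C I : Submodule k M} (hIC : I ≤ C)
    {G : Subgroup (LinearMap.GeneralLinearGroup k M)} {x y : LinearMap.GeneralLinearGroup k M}
    (hx : PP G C I x) (hy : PP G C I y) :
    ((x * y : LinearMap.GeneralLinearGroup k M) : M →ₗ[k] M) - 1
      = ((x : M →ₗ[k] M) - 1) + ((y : M →ₗ[k] M) - 1) := by
  have h := mul_zero_aux hIC hx.2.2.1 hy.2.1
  rw [Units.val_mul]
  have : (x : M →ₗ[k] M) * y - 1 = ((x : M →ₗ[k] M) - 1) + ((y : M →ₗ[k] M) - 1)
      + ((x : M →ₗ[k] M) - 1) * ((y : M →ₗ[k] M) - 1) := by noncomm_ring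
  rw [this, h, add_zero]

def uu (a : M →ₗ[k] M) (ha : a * a = 0) (c : k) : LinearMap.GeneralLinearGroup k M where
  val := 1 + c • a
  inv := 1 - c • a
  val_inv := by
    have h1 : ∀ b : M →ₗ[k] M, (1 + b) * (1 - b) = 1 - b * b := fun b => by noncomm_ring
    rw [h1, smul_mul_smul_comm, ha, smul_zero, sub_zero]
  inv_val := by
    have h1 : ∀ b : M →ₗ[k] M, (1 - b) * (1 + b) = 1 - b * b := fun b => by noncomm_ring
    rw [h1, smul_mul_smul_comm, ha, smul_zero, sub_zero]

theorem PP_mul {C I : Submodule k M} (hIC : I ≤ C)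
    {G : Subgroup (LinearMap.GeneralLinearGroup k M)} {x y : LinearMap.GeneralLinearGroup k M}
    (hx : PP G C I x) (hy : PP G C I y) : PP G C I (x * y) := by
  have hv := val_mul_aux hIC hx hy
  refine ⟨G.mul_mem hx.1 hy.1, ?_, ?_, ?_⟩
  · rw [hv]
    rintro _ ⟨m, rfl⟩
    rw [LinearMap.add_apply]
    exact I.add_mem (hx.2.1 ⟨m, rfl⟩) (hy.2.1 ⟨m, rfl⟩)
  · rw [hv]
    intro m hm
    rw [LinearMap.mem_ker, LinearMap.add_apply]
    have h1 := hx.2.2.1 hm
    have h2 := hy.2.2.1 hm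
    rw [LinearMap.mem_ker] at h1 h2
    rw [h1, h2, add_zero]
  · rintro ρ ⟨c, hc⟩
    rw [hv] at hc
    have hxx := mul_zero_aux hIC hx.2.2.1 hx.2.1
    have hyy := mul_zero_aux hIC hy.2.2.1 hy.2.1
    have hxy := mul_zero_aux hIC hx.2.2.1 hy.2.1
    have h1 : uu _ hxx c ∈ G := hx.2.2.2 ⟨c, rfl⟩
    have h2 : uu _ hyy c ∈ G := hy.2.2.2 ⟨c, rfl⟩
    have h3 : ρ = uu _ hxx c * uu _ hyy c := by
      apply Units.ext
      rw [hc, Units.val_mul]
      show _ = (1 + c • ((x : M →ₗ[k] M) - 1)) * (1 + c • ((y : M →ₗ[k] M) - 1))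
      have h4 : ∀ b d : M →ₗ[k] M, (1 + b) * (1 + d) = 1 + b + d + b * d :=
        fun b d => by noncomm_ring
      rw [h4, smul_mul_smul_comm, hxy, smul_zero, add_zero, smul_add, add_assoc]
    rw [h3]
    exact G.mul_mem h1 h2

theorem val_inv_aux {C I : Submodule k M} (hIC : I ≤ C)
    {G : Subgroup (LinearMap.GeneralLinearGroup k M)} {x : LinearMap.GeneralLinearGroup k M}
    (hx : PP G C I x) :
    ((x⁻¹ : LinearMap.GeneralLinearGroup k M) : M →ₗ[k] M) - 1 = - ((x : M →ₗ[k] M) - 1) := by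
  have hxx := mul_zero_aux hIC hx.2.2.1 hx.2.1
  have h1 : (x : M →ₗ[k] M) * (1 - ((x : M →ₗ[k] M) - 1)) = 1 := by
    have : (x : M →ₗ[k] M) * (1 - ((x : M →ₗ[k] M) - 1))
        = 1 - ((x : M →ₗ[k] M) - 1) * ((x : M →ₗ[k] M) - 1) := by noncomm_ring
    rw [this, hxx, sub_zero]
  rw [Units.inv_eq_of_mul_eq_one_right h1]
  abel

theorem PP_inv {C I : Submodule k M} (hIC : I ≤ C)
    {G : Subgroup (LinearMap.GeneralLinearGroup k M)} {x : LinearMap.GeneralLinearGroup k M}
    (hx : PP G C I x) : PP G C I x⁻¹ := by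
  have hv := val_inv_aux hIC hx
  refine ⟨G.inv_mem hx.1, ?_, ?_, ?_⟩
  · rw [hv]
    rintro _ ⟨m, rfl⟩
    rw [LinearMap.neg_apply]
    exact I.neg_mem (hx.2.1 ⟨m, rfl⟩)
  · rw [hv]
    intro m hm
    have h1 := hx.2.2.1 hm
    rw [LinearMap.mem_ker] at h1
    rw [LinearMap.mem_ker, LinearMap.neg_apply, h1, neg_zero]
  · rintro ρ ⟨c, hc⟩
    rw [hv] at hc
    exact hx.2.2.2 ⟨-c, by rw [hc, smul_neg, neg_smul]⟩

theorem PP_pow {C I : Submodule k M} (hIC : I ≤ C)
    {G : Subgroup (LinearMap.GeneralLinearGroup k M)} {x : LinearMap.GeneralLinearGroup k M}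
    (hx : PP G C I x) (n : ℕ) : PP G C I (x ^ n) ∧
    ((x ^ n : LinearMap.GeneralLinearGroup k M) : M →ₗ[k] M) - 1 = (n : k) • ((x : M →ₗ[k] M) - 1) := by
  induction n with
  | zero => exact ⟨by rw [pow_zero]; exact PP_one G C I, by simp⟩
  | succ n ih =>
    refine ⟨by rw [pow_succ]; exact PP_mul hIC ih.1 hx, ?_⟩
    rw [pow_succ, val_mul_aux hIC ih.1 hx, ih.2]
    push_cast
    rw [add_smul, one_smul]

theorem PP_class [FiniteDimensional k M] {G : Subgroup (LinearMap.GeneralLinearGroup k M)}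
    {σ : LinearMap.GeneralLinearGroup k M} (hσ : σ ∈ Cfsg.minimalQuadraticElements G)
    {τ : LinearMap.GeneralLinearGroup k M}
    (hτ : PP G (LinearMap.ker ((σ : M →ₗ[k] M) - 1)) (LinearMap.range ((σ : M →ₗ[k] M) - 1)) τ)
    (hIC : LinearMap.range ((σ : M →ₗ[k] M) - 1) ≤ LinearMap.ker ((σ : M →ₗ[k] M) - 1)) :
    τ ∈ Cfsg.sameActionClass G σ ∪ {1} := by
  by_cases h0 : (τ : M →ₗ[k] M) - 1 = 0
  · right
    show τ = 1
    apply Units.ext
    rw [Units.val_one]
    exact sub_eq_zero.mp h0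
  left
  have hq : τ ∈ Cfsg.quadraticElements G :=
    ⟨hτ.1, ⟨mul_zero_aux hIC hτ.2.2.1 hτ.2.1, h0⟩, hτ.2.2.2⟩
  have h1 : Cfsg.commutatorRank σ ≤ Cfsg.commutatorRank τ := hσ.2 τ hq
  have h2 : LinearMap.range ((τ : M →ₗ[k] M) - 1) = LinearMap.range ((σ : M →ₗ[k] M) - 1) :=
    Submodule.eq_of_le_of_finrank_le hτ.2.1 h1
  have h3 := LinearMap.finrank_range_add_finrank_ker ((τ : M →ₗ[k] M) - 1)
  have h4 := LinearMap.finrank_range_add_finrank_ker ((σ : M →ₗ[k] M) - 1)
  have h5 : LinearMap.ker ((σ : M →ₗ[k] M) - 1) = LinearMap.ker ((τ : M →ₗ[k] M) - 1) := by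
    apply Submodule.eq_of_le_of_finrank_le hτ.2.2.1
    rw [h2] at h3
    omega
  refine ⟨⟨hq, fun ρ hρ => ?_⟩, h5.symm, h2⟩
  have : Cfsg.commutatorRank τ = Cfsg.commutatorRank σ := by
    unfold Cfsg.commutatorRank
    rw [h2]
  rw [this]
  exact hσ.2 ρ hρ

end aux


/-- Let k be a field of characteristic not 2 with k not of order 3, M a finite-dimensional k-vector space and G ≤ GL(M) such that (G, M) is a quadratic pair (M irreducible for G, and G generated by its quadratically acting elements σ whose scalar family 1 + c(σ − 1), c ∈ k, lies in G). Write 𝒬_d for the quadratic elements of G of minimal commutator rank, E(σ) for the subgroup generated by the members of 𝒬_d with the same fixed space and commutator space as σ, and Σ for the set of these subgroups. Then for σ ∈ 𝒬_d the subgroup E(σ) consists exactly of those members together with the identity, it is abelian, and if k has prime characteristic p every element of E(σ) has order dividing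 p. -/
theorem result {k : Type u} [Field k] (hk2 : ringChar k ≠ 2) (hk3 : Nat.card k ≠ 3)
    {M : Type u} [AddCommGroup M] [Module k M] [FiniteDimensional k M]
    {G : Subgroup (LinearMap.GeneralLinearGroup k M)} (hG : Cfsg.IsQuadraticPair G)
    {σ : LinearMap.GeneralLinearGroup k M} (hσ : σ ∈ Cfsg.minimalQuadraticElements G) :
    (Cfsg.sameActionSubgroup G σ : Set (LinearMap.GeneralLinearGroup k M)) = Cfsg.sameActionClass G σ ∪ {1} ∧
    IsMulCommutative ↥(Cfsg.sameActionSubgroup G σ) ∧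
    (∀ p : ℕ, p.Prime → ringChar k = p → ∀ x ∈ Cfsg.sameActionSubgroup G σ, x ^ p = 1) := by
  have hIC : LinearMap.range ((σ : M →ₗ[k] M) - 1) ≤ LinearMap.ker ((σ : M →ₗ[k] M) - 1) := by
    rintro _ ⟨m, rfl⟩
    rw [LinearMap.mem_ker]
    have := hσ.1.2.1.1
    exact congrArg (fun f : M →ₗ[k] M => f m) this
  have hP : ∀ x ∈ Cfsg.sameActionSubgroup G σ,
      PP G (LinearMap.ker ((σ : M →ₗ[k] M) - 1)) (LinearMap.range ((σ : M →ₗ[k] M) - 1)) x := by
    intro x hx
    induction hx using Subgroup.closure_induction with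
    | mem x hx => exact ⟨hx.1.1.1, hx.2.2.le, hx.2.1.ge, hx.1.1.2.2⟩
    | one => exact PP_one _ _ _
    | mul x y _ _ ihx ihy => exact PP_mul hIC ihx ihy
    | inv x _ ih => exact PP_inv hIC ih
  refine ⟨?_, ?_, ?_⟩
  · apply Set.Subset.antisymm
    · intro x hx
      exact PP_class hσ (hP x hx) hIC
    · rintro x (hx | hx)
      · exact Subgroup.subset_closure hx
      · rw [Set.mem_singleton_iff.mp hx]
        exact Subgroup.one_mem _
  · refine ⟨⟨fun x y => ?_⟩⟩
    apply Subtype.ext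
    apply Units.ext
    have h1 := val_mul_aux hIC (hP x x.2) (hP y y.2)
    have h2 := val_mul_aux hIC (hP y y.2) (hP x x.2)
    rw [add_comm, ← h2] at h1
    exact sub_left_injective h1
  · intro p hp hchar x hx
    have h1 := (PP_pow hIC (hP x hx) p).2
    have h2 : (p : k) = 0 := by
      rw [← hchar]
      exact ringChar.Nat.cast_ringChar
    rw [h2, zero_smul] at h1
    apply Units.ext
    rw [Units.val_one]
    exact sub_eq_zero.mp h1

end Cfsg.Agent.S5059
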