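import Cfsg.Statements.S5067
import Mathlib
-- import your own Cfsg.Agent.* helpers here

set_option autoImplicit false
open Cfsg

namespace Cfsg.Agent.S5067

open scoped commutatorElement

theorem key {P : Type*} [Group P] [Group.IsNilpotent P] (hna : ¬ IsMulCommutative P)
    {E : Subgroup P} (hE : IsMulCommutative ↥E) :
    Group.nilpotencyClass ↥(Subgroup.normalClosure (E : Set P)) < Group.nilpotencyClass P := by
  set N := Subgroup.normalClosure (E : Set P) with hN
  set D : Subgroup P := (⊤ : Subgroup P).lowerCentralSeries 1 with hD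
  set K : Subgroup P := (⊤ : Subgroup P).lowerCentralSeries 2 with hK
  haveI hDn : D.Normal := Subgroup.lowerCentralSeries_normal ⊤ 1
  haveI hKn : K.Normal := Subgroup.lowerCentralSeries_normal ⊤ 2
  have hNED : N ≤ E ⊔ D := by
    haveI : (E ⊔ D).Normal := Subgroup.Normal.of_commutator_le (h := (le_sup_right (a := E) (b := D)))
    exact Subgroup.normalClosure_le_normal (le_sup_left (a := E) (b := D))
  have hNN : ⁅N, N⁆ ≤ K := by
    rw [Subgroup.commutator_le]
    intro x hx y hy
    obtain ⟨e1, he1, d1, hd1, rfl⟩ := Subgroup.mem_sup_of_normal_right.1 (hNED hx)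
    obtain ⟨e2, he2, d2, hd2, rfl⟩ := Subgroup.mem_sup_of_normal_right.1 (hNED hy)
    set π := QuotientGroup.mk' K with hπ
    have hc : ∀ d ∈ D, ∀ g : P, Commute (π d) (π g) := by
      intro d hd g
      rw [← commutatorElement_eq_one_iff_commute, ← map_commutatorElement]
      exact (QuotientGroup.eq_one_iff _).2
        (Subgroup.commutator_mem_commutator hd (Subgroup.mem_top g))
    have hee : Commute (π e1) (π e2) := by
      have h1 : e1 * e2 = e2 * e1 := congrArg Subtype.val (hE.is_comm.comm ⟨e1, he1⟩ ⟨e2, he2⟩)
      exact Commute.map (show Commute e1 e2 from h1) π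
    rw [← QuotientGroup.eq_one_iff]
    show π _ = 1
    rw [map_commutatorElement, commutatorElement_eq_one_iff_commute, map_mul, map_mul]
    exact (hee.mul_right ((hc d2 hd2 e1).symm)).mul_left (by rw [← map_mul]; exact hc d1 hd1 _)
  have hstep : ∀ k, N.lowerCentralSeries (k + 1) ≤ (⊤ : Subgroup P).lowerCentralSeries (k + 2) := by
    intro k
    induction k with
    | zero => exact hNN
    | succ k ih =>
      rw [Subgroup.lowerCentralSeries_succ, Subgroup.lowerCentralSeries_succ ⊤ (k + 2)]
      exact Subgroup.commutator_mono ih le_top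
  obtain ⟨k, hk⟩ : ∃ k, Group.nilpotencyClass P = k + 2 := by
    by_contra hcon
    have hle : Group.nilpotencyClass P ≤ 1 := by
      by_contra h
      exact hcon ⟨Group.nilpotencyClass P - 2, by omega⟩
    rw [← Subgroup.lowerCentralSeries_eq_bot_iff_nilpotencyClass_le] at hle
    apply hna
    constructor
    constructor
    intro a b
    have : ⁅a, b⁆ ∈ (⊤ : Subgroup P).lowerCentralSeries 1 :=
      Subgroup.commutator_mem_commutator (Subgroup.mem_top a) (Subgroup.mem_top b)
    rw [hle, Subgroup.mem_bot, commutatorElement_eq_one_iff_mul_comm] at this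
    exact this
  rw [hk, Nat.lt_succ_iff, ← Subgroup.lowerCentralSeries_eq_bot_iff_nilpotencyClass_le]
  have h1 : N.lowerCentralSeries (k + 1) = ⊥ := by
    rw [eq_bot_iff]
    refine (hstep k).trans ?_
    rw [← hk, Subgroup.lowerCentralSeries_nilpotencyClass]
  rw [← Subgroup.top_subtype_lowerCentralSeries] at h1
  exact (Subgroup.map_eq_bot_iff_of_injective _ N.subtype_injective).1 h1


/-- Let P be a non-abelian nilpotent p-group (every element of p-power order; P possibly infinite) generated by two abelian subgroups E and F. Then the normal closure of E in P, and likewise that of F, has nilpotency class strictly smaller than that of P. -/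
theorem result {P : Type*} [Group P] {p : ℕ} [Fact p.Prime] (hP : IsPGroup p P) [Group.IsNilpotent P]
    (hna : ¬ IsMulCommutative P) {E F : Subgroup P} (hE : IsMulCommutative ↥E) (hF : IsMulCommutative ↥F) (hgen : E ⊔ F = ⊤) :
    Group.nilpotencyClass ↥(Subgroup.normalClosure (E : Set P)) < Group.nilpotencyClass P ∧
    Group.nilpotencyClass ↥(Subgroup.normalClosure (F : Set P)) < Group.nilpotencyClass P := by
  exact ⟨key hna hE, key hna hF⟩

end Cfsg.Agent.S5067
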