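import Cfsg.Statements.S5079
import Cfsg.Agent.Fus.Sat2

set_option autoImplicit false
open Cfsg

namespace Cfsg.Agent.S5079

/-- In any fusion system over a finite p-group S: if P is fully automized and receptive and Q is conjugate to P in the system, then there is a map of the system with source N_S(Q) and values in N_S(P) carrying Q onto P. -/
theorem result {Ω : Type*} [Group Ω] {S : Subgroup Ω} [Finite S] (p : ℕ) [Fact p.Prime] (hS : IsPGroup p S) (F : Cfsg.FusionSystem S) (P Q : Subgroup Ω) (h₁ : F.IsFullyAutomized p P) (h₂ : F.IsReceptive P) (hQ : F.IsConj Q P) : ∃ φ ∈ F.Hom (Cfsg.FusionSystem.normalizerIn S Q), (∀ x, φ x ∈ Cfsg.FusionSystem.normalizerIn S P) ∧ (Q.subgroupOf (Cfsg.FusionSystem.normalizerIn S Q)).map φ = P := by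
  obtain ⟨e, ρ, he, hρ, hρe⟩ := F.exists_normalizer_map p hS h₁ h₂ hQ
  have hQS : Q ≤ S := he.le F
  refine ⟨_, hρ, fun x => (ρ x).2, ?_⟩
  ext y
  constructor
  · rintro ⟨x, hx, rfl⟩
    have hx' : (x : Ω) ∈ Q := Subgroup.mem_subgroupOf.1 hx
    have := hρe ⟨x, hx'⟩ x rfl
    show ((ρ x : Cfsg.FusionSystem.normalizerIn S P) : Ω) ∈ P
    rw [this]; exact (e _).2
  · intro hy
    refine ⟨⟨e.symm ⟨y, hy⟩, Cfsg.FusionSystem.le_normalizerIn hQS (e.symm ⟨y, hy⟩).2⟩, ?_, ?_⟩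
    · exact Subgroup.mem_subgroupOf.2 (e.symm ⟨y, hy⟩).2
    · have := hρe (e.symm ⟨y, hy⟩) ⟨e.symm ⟨y, hy⟩, Cfsg.FusionSystem.le_normalizerIn hQS (e.symm ⟨y, hy⟩).2⟩ rfl
      rw [MulEquiv.apply_symm_apply] at this
      exact this

end Cfsg.Agent.S5079
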