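import Cfsg.Statements.S5094
import Cfsg.Agent.Lib.Helper8.ZS12
import Cfsg.Agent.Fus.Normal

set_option autoImplicit false
open Cfsg

namespace Cfsg.Agent.S5094

/-- Glauberman's Z*-Theorem in fusion language: for a finite group G with Sylow 2-subgroup S, the centre of the fusion system of G on S is the set of elements of S whose image in G/O(G) is central, O(G) being the largest normal subgroup of odd order. -/
theorem result {G : Type*} [Group G] [Finite G] (S : Sylow 2 G) : (Cfsg.groupFusionSystem (S : Subgroup G)).center = (S : Subgroup G) ⊓ (Subgroup.center (G ⧸ Cfsg.oddCore G)).comap (QuotientGroup.mk' (Cfsg.oddCore G)) := by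
  classical
  haveI : Fact (Nat.Prime 2) := ⟨Nat.prime_two⟩
  haveI hWn : (Cfsg.oddCore G).Normal := Cfsg.Agent.Lib.Helper8.ZS.pPrimeCore_two_normal G
  set W : Subgroup G := Cfsg.oddCore G with hWdef
  set F := Cfsg.groupFusionSystem (S : Subgroup G) with hF
  have hWS : ∀ y : G, y ∈ W → y ∈ S → y = 1 := by
    intro y hyW hyS
    have h1 : (Nat.card (S : Subgroup G)).Coprime (Nat.card W) := by
      obtain ⟨k, hk⟩ := S.2.exists_card_eq
      have hk' : Nat.card (S : Subgroup G) = 2 ^ k := hk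
      rw [hk']
      exact Nat.Coprime.pow_left _
        (Nat.coprime_two_left.2 (Cfsg.Agent.Lib.Helper8.ZS.odd_card_pPrimeCore_two G))
    have h2 := Subgroup.disjoint_of_coprime_natCard h1
    exact (Subgroup.disjoint_def.1 h2) hyS hyW
  have hmemZ : ∀ x : G, x ∈ (Subgroup.center (G ⧸ W)).comap (QuotientGroup.mk' W) ↔
      ∀ g : G, g * x * g⁻¹ * x⁻¹ ∈ W := by
    intro x
    rw [Subgroup.mem_comap, Subgroup.mem_center_iff]
    constructor
    · intro h g
      rw [← QuotientGroup.eq_one_iff]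
      show QuotientGroup.mk' W (g * x * g⁻¹ * x⁻¹) = 1
      rw [map_mul, map_mul, map_mul, map_inv, map_inv, h]; group
    · intro h g'
      obtain ⟨g, rfl⟩ := QuotientGroup.mk'_surjective W g'
      have h1 : QuotientGroup.mk' W (g * x * g⁻¹ * x⁻¹) = 1 := (QuotientGroup.eq_one_iff _).2 (h g)
      rw [map_mul, map_mul, map_mul, map_inv, map_inv] at h1
      have h2 := congrArg (· * (QuotientGroup.mk' W x * QuotientGroup.mk' W g)) h1
      simpa [mul_assoc] using h2
  apply le_antisymm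
  · -- the centre of the fusion system lies in `Z*`
    have hc : F.IsCentral F.center := Cfsg.FusionSystem.isCentral_center F
    intro x hx
    have hxS : x ∈ S := hc.1 hx
    refine ⟨hxS, ?_⟩
    have hWC : Cfsg.Agent.Lib.Helper8.ZS.WC S x := by
      intro j g hg
      have hxj : x ^ j ∈ F.center := Subgroup.pow_mem _ hx j
      have hP : Subgroup.zpowers (x ^ j) ≤ (S : Subgroup G) :=
        (Subgroup.zpowers_le).2 (Subgroup.pow_mem _ hxS j)
      have hφ : Cfsg.conjHom (Subgroup.zpowers (x ^ j)) g ∈ F.Hom (Subgroup.zpowers (x ^ j)) := by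
        refine ⟨hP, ?_, g, fun y => rfl⟩
        rintro ⟨y, hy⟩
        obtain ⟨i, rfl⟩ := Subgroup.mem_zpowers_iff.1 hy
        show g * (x ^ j) ^ i * g⁻¹ ∈ S
        rw [← conj_zpow]
        exact Subgroup.zpow_mem _ hg i
      obtain ⟨ψ, -, h1, h2⟩ := hc.2 _ _ hφ
      have h3 := h1 ⟨x ^ j, Subgroup.mem_zpowers _⟩
      have h4 := h2 ⟨x ^ j, hxj⟩
      have h5 : (Subgroup.inclusion le_sup_left ⟨x ^ j, Subgroup.mem_zpowers _⟩ :
          (Subgroup.zpowers (x ^ j) ⊔ F.center : Subgroup G)) =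
          Subgroup.inclusion le_sup_right ⟨x ^ j, hxj⟩ := Subtype.ext rfl
      rw [h5, h4] at h3
      exact h3.symm
    show x ∈ (Subgroup.center (G ⧸ W)).comap (QuotientGroup.mk' W)
    rw [hmemZ]
    intro g
    have h1 := Cfsg.Agent.Lib.Helper8.ZS.gen_zstar S x hxS hWC g
    have e : g * x * g⁻¹ * x⁻¹ = (x * g * x⁻¹ * g⁻¹)⁻¹ := by group
    rw [e]
    exact inv_mem h1
  · apply le_sSup
    set Z : Subgroup G := (S : Subgroup G) ⊓ (Subgroup.center (G ⧸ W)).comap (QuotientGroup.mk' W)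
      with hZ
    refine ⟨inf_le_left, ?_⟩
    rintro P φ ⟨hPS, hφS, g, hg⟩
    have hPZ : P ⊔ Z ≤ (S : Subgroup G) := sup_le hPS inf_le_left
    -- the conjugate of `P ⊔ Z` lies in `W S`
    set U : Subgroup G := (P ⊔ Z).map (MulAut.conj g).toMonoidHom with hU
    have hUp : IsPGroup 2 U := (S.2.to_le hPZ).map _
    have hUW : U ≤ W ⊔ S := by
      rw [hU, Subgroup.map_sup]
      apply sup_le
      · rintro _ ⟨x, hx, rfl⟩
        apply Subgroup.mem_sup_right
        have := hφS ⟨x, hx⟩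
        rw [hg] at this
        exact this
      · rintro _ ⟨x, hx, rfl⟩
        have h1 := (hmemZ x).1 hx.2 g
        have e : (MulAut.conj g).toMonoidHom x = (g * x * g⁻¹ * x⁻¹) * x := by
          simp
        rw [e]
        exact mul_mem (Subgroup.mem_sup_left h1) (Subgroup.mem_sup_right hx.1)
    obtain ⟨w, hw, hwU⟩ := Cfsg.Agent.Lib.Helper8.ZS.exists_conj_le_of_le_sup S W hUp hUW
    have hh : ∀ x ∈ P ⊔ Z, (w * g) * x * (w * g)⁻¹ ∈ S := by
      intro x hx
      have := hwU _ (Subgroup.mem_map_of_mem (MulAut.conj g).toMonoidHom hx)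
      have e : (w * g) * x * (w * g)⁻¹ = w * (MulAut.conj g).toMonoidHom x * w⁻¹ := by
        simp [mul_assoc]
      rw [e]; exact this
    refine ⟨Cfsg.conjHom (P ⊔ Z) (w * g), ⟨hPZ, fun x => hh x x.2, w * g, fun x => rfl⟩, ?_, ?_⟩
    · intro x
      show (w * g) * (x : G) * (w * g)⁻¹ = φ x
      rw [hg]
      have h1 : (w * g) * (x : G) * (w * g)⁻¹ * (g * (x : G) * g⁻¹)⁻¹ ∈ W := by
        have e : (w * g) * (x : G) * (w * g)⁻¹ * (g * (x : G) * g⁻¹)⁻¹ =
            w * ((g * (x : G) * g⁻¹) * w⁻¹ * (g * (x : G) * g⁻¹)⁻¹) := by group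
        rw [e]
        exact mul_mem hw (hWn.conj_mem _ (inv_mem hw) _)
      have h2 : (w * g) * (x : G) * (w * g)⁻¹ * (g * (x : G) * g⁻¹)⁻¹ ∈ S := by
        have h3 := hφS x
        rw [hg] at h3
        exact mul_mem (hh x (Subgroup.mem_sup_left x.2)) (inv_mem h3)
      exact mul_inv_eq_one.1 (hWS _ h1 h2)
    · intro x
      show (w * g) * (x : G) * (w * g)⁻¹ = x
      have h1 := (hmemZ x).1 x.2.2 (w * g)
      have h2 : (w * g) * (x : G) * (w * g)⁻¹ * (x : G)⁻¹ ∈ S :=
        mul_mem (hh x (Subgroup.mem_sup_right x.2)) (inv_mem x.2.1)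
      exact mul_inv_eq_one.1 (hWS _ h1 h2)

end Cfsg.Agent.S5094
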