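import Cfsg.Statements.S5107
import Cfsg.Agent.Fus.WeakChain
import Cfsg.Agent.Fus.Grp

set_option autoImplicit false
open Cfsg

namespace Cfsg.Agent.S5107

/-- If a Sylow p-subgroup S of a finite group G has nilpotency class at most two and its centre is strongly closed in S with respect to G, then every map of the fusion system of G on S is conjugation by an element of N_G(S), and S is the largest subgroup normal in that fusion system. -/
theorem result {G : Type*} [Group G] [Finite G] (p : ℕ) [Fact p.Prime] (S : Sylow p G) (hcl : ⁅(S : Subgroup G), (S : Subgroup G)⁆ ≤ (S : Subgroup G) ⊓ Subgroup.centralizer ((S : Subgroup G) : Set G)) (hZ : Cfsg.IsStronglyClosed ((S : Subgroup G) ⊓ Subgroup.centralizer ((S : Subgroup G) : Set G)) (S : Subgroup G)) : (∀ (P : Subgroup G) (φ : P →* G), φ ∈ (Cfsg.groupFusionSystem (S : Subgroup G)).Hom P → ∃ g ∈ Subgroup.normalizer ((S : Subgroup G) : Set G), ∀ x : P, φ x = g * (x : G) * g⁻¹) ∧ (Cfsg.groupFusionSystem (S : Subgroup G)).core = S := by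
  have hsat := Cfsg.FusionSystem.isSaturated_groupFusionSystem S
  have hSp : IsPGroup p (S : Subgroup G) := S.2
  have hZsc : (Cfsg.groupFusionSystem (S : Subgroup G)).StronglyClosed
      ((S : Subgroup G) ⊓ Subgroup.centralizer ((S : Subgroup G) : Set G)) := by
    refine ⟨inf_le_left, ?_⟩
    rintro R hR φ ⟨-, hφS, g, hg⟩ x
    have h1 := hφS x
    rw [hg] at h1 ⊢
    exact hZ.2 x (hR x.2) g h1
  have hN : (Cfsg.groupFusionSystem (S : Subgroup G)).IsNormal (S : Subgroup G) := by
    rw [Cfsg.FusionSystem.isNormal_iff_weaklyClosed_series _ hSp hsat]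
    refine ⟨Cfsg.FusionSystem.stronglyClosed_self _, 2,
      ![⊥, (S : Subgroup G) ⊓ Subgroup.centralizer ((S : Subgroup G) : Set G), (S : Subgroup G)], rfl, rfl, ?_, ?_, ?_⟩
    · rw [Fin.monotone_iff_le_succ]
      intro i
      fin_cases i
      · exact bot_le
      · exact inf_le_left
    · intro i
      fin_cases i
      · show ⁅(S : Subgroup G) ⊓ Subgroup.centralizer ((S : Subgroup G) : Set G), (S : Subgroup G)⁆ ≤ ⊥
        rw [le_bot_iff, Subgroup.commutator_eq_bot_iff_le_centralizer]
        exact inf_le_right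
      · exact hcl
    · intro i
      fin_cases i
      · exact (Cfsg.FusionSystem.stronglyClosed_bot _).weaklyClosed
      · exact hZsc.weaklyClosed
  refine ⟨?_, ?_⟩
  · intro P φ hφ
    obtain ⟨ψ, ⟨-, -, g, hg⟩, hψ, hmap⟩ := hN.2 P φ hφ
    refine ⟨g, ?_, fun x => ?_⟩
    · rw [Subgroup.mem_normalizer_iff_map_conj_eq]
      conv_rhs => rw [← hmap]
      ext y
      constructor
      · rintro ⟨x, hx, rfl⟩
        exact ⟨⟨x, le_sup_right (a := P) hx⟩, hx, hg _⟩
      · rintro ⟨x, hx, rfl⟩
        exact ⟨x, hx, (hg _).symm⟩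
    · rw [← hψ, hg]; rfl
  · apply le_antisymm
    · exact sSup_le (fun Q hQ => hQ.1)
    · exact le_sSup hN

end Cfsg.Agent.S5107
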