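import Cfsg.Statements.S5112
import Cfsg.Agent.Tr.MC13
import Cfsg.Agent.Fus.Normal2
-- import your own Cfsg.Agent.* helpers here

set_option autoImplicit false
open Cfsg

open Cfsg.Agent.Tr

namespace Cfsg.Agent.S5112

/-- If S is a dihedral or generalized quaternion 2-group of order at least 16, then in every saturated fusion system over S (at the prime 2) the automorphism group Aut_F(S) consists of the inner automorphisms of S. -/
theorem result {Ω : Type*} [Group Ω] {S : Subgroup Ω} [Finite S] (n : ℕ) (hn : 4 ≤ n) (hshape : Nonempty (S ≃* DihedralGroup (2 ^ (n - 1))) ∨ Nonempty (S ≃* QuaternionGroup (2 ^ (n - 2)))) (F : Cfsg.FusionSystem S) (hF : F.IsSaturated 2) : F.autGroup S = Cfsg.Inn S := by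

  have haut : IsPGroup 2 (MulAut S) := by
    rcases hshape with ⟨⟨e⟩⟩ | ⟨⟨e⟩⟩
    · exact ((MC.dat_dihedral (n - 1)).of_equiv e).isPGroup_aut (by omega)
    · have h1 := (MC.dat_quaternion (m := n - 1) (by omega))
      have e2 : n - 1 - 1 = n - 2 := by omega
      rw [e2] at h1
      exact (h1.of_equiv e).isPGroup_aut (by omega)
  obtain ⟨Q, hQ, ⟨-, R, hR⟩, -⟩ := hF S le_rfl
  have h1 : Q = S := Subgroup.eq_of_le_of_card_ge (hQ.le_right F) (hQ.card_eq F).le
  subst h1
  have hA : IsPGroup 2 (F.autGroup Q) := haut.to_subgroup _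
  have hRtop : (R : Subgroup (F.autGroup Q)) = ⊤ := by
    have := R.is_maximal' (Q := ⊤) (hA.to_subgroup _) le_top
    exact this.symm
  rw [hRtop] at hR
  have hle : F.autGroup Q ≤ autInducedBy Q Q := Subgroup.subgroupOf_eq_top.1 hR.symm
  rw [← FusionSystem.autInducedBy_self]
  exact le_antisymm hle (FusionSystem.autInducedBy_le_autGroup F le_rfl)

end Cfsg.Agent.S5112
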