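import Cfsg.Statements.S5123
import Cfsg.Agent.Fus.Grp

set_option autoImplicit false
open Cfsg

namespace Cfsg.Agent.S5123

/-- Let G be a finite group with Sylow p-subgroup S, P, Q ≤ S and g ∈ G with gPg⁻¹ = Q, and suppose N_S(Q) is a Sylow p-subgroup of N_G(Q). Let N be the set of x ∈ N_S(P) with gxg⁻¹ ∈ N_S(Q)C_G(Q). Then some h ∈ C_G(Q) satisfies (hg)N(hg)⁻¹ ≤ S. -/
theorem result {G : Type*} [Group G] [Finite G] (p : ℕ) [Fact p.Prime] (S : Sylow p G) (P Q : Subgroup G) (hP : P ≤ S) (hQ : Q ≤ S) (g : G) (hg : P.map (MulAut.conj g).toMonoidHom = Q) (hN : (∃ R : Sylow p ↥(Subgroup.normalizer (Q : Set G)), (R : Subgroup ↥(Subgroup.normalizer (Q : Set G))) = (Cfsg.FusionSystem.normalizerIn (S : Subgroup G) Q).subgroupOf (Subgroup.normalizer (Q : Set G)))) : ∃ h ∈ Subgroup.centralizer (Q : Set G), ((Cfsg.FusionSystem.normalizerIn (S : Subgroup G) P) ⊓ (Cfsg.FusionSystem.normalizerIn (S : Subgroup G) Q ⊔ Subgroup.centralizer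 (Q : Set G)).comap (MulAut.conj g).toMonoidHom).map (MulAut.conj (h * g)).toMonoidHom ≤ S := by
  have hN' : Cfsg.Agent.Fus.IsSylowIn p (Cfsg.FusionSystem.normalizerIn (S : Subgroup G) Q)
      (Cfsg.FusionSystem.normalizerIn ⊤ Q) := by
    rw [Cfsg.FusionSystem.normalizerIn_top]
    exact hN
  have hK : ((Cfsg.FusionSystem.normalizerIn (S : Subgroup G) P) ⊓
      (Cfsg.FusionSystem.normalizerIn (S : Subgroup G) Q ⊔ Subgroup.centralizer (Q : Set G)).comap
        (MulAut.conj g).toMonoidHom).map (MulAut.conj g).toMonoidHom ≤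
      Cfsg.FusionSystem.normalizerIn (S : Subgroup G) Q ⊔ Cfsg.FusionSystem.centralizerIn ⊤ Q := by
    rw [Cfsg.FusionSystem.centralizerIn_top]
    rintro _ ⟨x, hx, rfl⟩
    exact hx.2
  have hp : IsPGroup p ↥((Cfsg.FusionSystem.normalizerIn (S : Subgroup G) P) ⊓
      (Cfsg.FusionSystem.normalizerIn (S : Subgroup G) Q ⊔ Subgroup.centralizer (Q : Set G)).comap
        (MulAut.conj g).toMonoidHom) :=
    Cfsg.FusionSystem.isPGroup_of_le S.2 (inf_le_left.trans Cfsg.FusionSystem.normalizerIn_le)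
  obtain ⟨c, hc, hcK⟩ := Cfsg.FusionSystem.exists_centralizer_conj le_top hN' hK (hp.map _)
  rw [Cfsg.FusionSystem.centralizerIn_top] at hc
  refine ⟨c, hc, ?_⟩
  rintro _ ⟨x, hx, rfl⟩
  have h1 := hcK _ (Cfsg.Agent.Fus.conj_mem_map_conj (g := g) hx)
  have h2 : c * (g * x * g⁻¹) * c⁻¹ = (MulAut.conj (c * g)).toMonoidHom x := by
    show _ = c * g * x * (c * g)⁻¹
    group
  rw [h2] at h1
  exact Cfsg.FusionSystem.normalizerIn_le h1

end Cfsg.Agent.S5123
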