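import Cfsg.Statements.S5160
import Cfsg.Agent.Fus.Invariant

set_option autoImplicit false
open Cfsg

namespace Cfsg.Agent.S5160

/-- Let G be a finite group with nontrivial Sylow p-subgroup S and F its fusion system on S. Suppose (a) no nontrivial proper subgroup of S is strongly closed in F, and (b) the automorphisms of S induced by G are generated by those induced, for R running over the fully normalized radical centric subgroups of F, by the subgroup of N_G(R) generated by its elements of p-power order. Then F is simple. -/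
theorem result {G : Type*} [Group G] [Finite G] (p : ℕ) [Fact p.Prime] (S : Sylow p G) (hS1 : (S : Subgroup G) ≠ ⊥) (ha : ∀ T : Subgroup G, (Cfsg.groupFusionSystem (S : Subgroup G)).StronglyClosed T → T = ⊥ ∨ T = (S : Subgroup G)) (hb : Cfsg.autInducedBy ⊤ (S : Subgroup G) = ⨆ (R : Subgroup G) (_ : (Cfsg.groupFusionSystem (S : Subgroup G)).IsFullyNormalized R ∧ (Cfsg.groupFusionSystem (S : Subgroup G)).IsRadical p R ∧ (Cfsg.groupFusionSystem (S : Subgroup G)).IsCentric R), Cfsg.autInducedBy (Subgroup.closure {g : G | g ∈ Subgroup.normalizer (R : Set G) ∧ ∃ k : ℕ, orderOf g = p ^ k}) (S : Subgroup G)) : (Cfsg.groupFusionSystem (S : Subgroup G)).IsSimple p := by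
  have hSp : IsPGroup p (S : Subgroup G) := S.2
  have hF : (Cfsg.groupFusionSystem (S : Subgroup G)).IsSaturated p :=
    Cfsg.FusionSystem.isSaturated_groupFusionSystem S
  refine ⟨hF, hS1, fun T E hE => ?_⟩
  have hinv := hE.1.2.2
  rcases ha T hinv.2.1 with h | h
  · exact Or.inl h
  · right
    subst h
    refine ⟨rfl, hinv.hom_eq_of_autGroup_le ?_⟩
    have hAut : ∀ R : Subgroup G, R ≤ (S : Subgroup G) →
        (Cfsg.groupFusionSystem (S : Subgroup G)).autGroup R = Cfsg.autInducedBy ⊤ R := by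
      intro R hR
      rw [Cfsg.FusionSystem.groupFusionSystem_eq, Cfsg.FusionSystem.autGroup_ofSubgroup le_top hR]
    rw [hAut _ le_rfl, hb]
    refine iSup_le fun R => iSup_le fun hR => ?_
    obtain ⟨hRn, hRr, hRc⟩ := hR
    have hRS : R ≤ (S : Subgroup G) := hRn.1
    have hK : Subgroup.closure {g : G | g ∈ Subgroup.normalizer (R : Set G) ∧ ∃ k : ℕ, orderOf g = p ^ k} ≤
        ((E.autGroup R).comap (Cfsg.FusionSystem.conjAutHom ⊤ R)).map
          (Cfsg.FusionSystem.normalizerIn ⊤ R).subtype := by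
      rw [Subgroup.closure_le]
      rintro g ⟨hgN, k, hk⟩
      have hgN' : g ∈ Cfsg.FusionSystem.normalizerIn ⊤ R :=
        Cfsg.FusionSystem.mem_normalizerIn.2 ⟨Subgroup.mem_top g, hgN⟩
      refine ⟨⟨g, hgN'⟩, ?_, rfl⟩
      show Cfsg.FusionSystem.conjAutHom ⊤ R ⟨g, hgN'⟩ ∈ E.autGroup R
      have h1 : Cfsg.FusionSystem.conjAutHom ⊤ R ⟨g, hgN'⟩ ∈
          (Cfsg.groupFusionSystem (S : Subgroup G)).autGroup R := by
        rw [hAut R hRS, ← Cfsg.FusionSystem.conjAutHom_range]
        exact ⟨_, rfl⟩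
      have h2 : (Cfsg.FusionSystem.conjAutHom ⊤ R ⟨g, hgN'⟩) ^ (p ^ k) = 1 := by
        rw [← map_pow]
        have : (⟨g, hgN'⟩ : Cfsg.FusionSystem.normalizerIn ⊤ R) ^ (p ^ k) = 1 := by
          apply Subtype.ext
          show g ^ (p ^ k) = 1
          rw [← hk]
          exact pow_orderOf_eq_one g
        rw [this, map_one]
      obtain ⟨j, -, hj⟩ := (Nat.dvd_prime_pow (Fact.out : p.Prime)).1 (orderOf_dvd_of_pow_eq_one h2)
      exact hinv.pElement_mem hSp hF hRn h1 hj
    intro α hα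
    obtain ⟨g, hg, hgα⟩ := (Cfsg.FusionSystem.mem_autInducedBy_iff α).1 hα
    obtain ⟨n, hn, rfl⟩ := hK hg
    have hn' : Cfsg.FusionSystem.conjAutHom ⊤ R n ∈ E.autGroup R := hn
    rw [E.mem_autGroup_iff le_rfl]
    refine Cfsg.Agent.Lib.Helper27.Fus.mem_of_restrict_mem_centric (Cfsg.groupFusionSystem (S : Subgroup G)) E
      hSp hF hE.1.1 hinv.1 hRS hRc ⟨le_rfl, fun x => (α x).2, _, hgα⟩ ?_
    have h3 := (E.mem_autGroup_iff hRS _).1 hn'
    have h4 : ((S : Subgroup G).subtype.comp (MulEquiv.toMonoidHom α)).comp (Subgroup.inclusion hRS) =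
        R.subtype.comp (MulEquiv.toMonoidHom (Cfsg.FusionSystem.conjAutHom ⊤ R n)) := by
      ext x
      exact hgα _
    rw [h4]
    exact h3

end Cfsg.Agent.S5160
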