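import Cfsg.Statements.S5164
import Cfsg.Agent.Fus.AltSylow

set_option autoImplicit false
open Cfsg

namespace Cfsg.Agent.S5164

/-- For n ≥ 6 and a prime p, a nontrivial Sylow p-subgroup of the alternating group of degree n is abelian if and only if n < p². -/
theorem result (n p : ℕ) (hn : 6 ≤ n) [Fact p.Prime] (S : Sylow p (alternatingGroup (Fin n))) (hS : (S : Subgroup (alternatingGroup (Fin n))) ≠ ⊥) : IsMulCommutative S ↔ n < p ^ 2 := by
  constructor
  · intro hc
    by_contra hlt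
    have hpn : p ^ 2 ≤ n := not_lt.1 hlt
    obtain ⟨D, hD, a, ha, b, hb, hab⟩ := Cfsg.Agent.Fus.exists_noncomm_pSubgroup_alternating n p hn hpn
    obtain ⟨S', hS'⟩ := hD.exists_le_sylow
    let e : S ≃* S' := Sylow.equiv S S'
    apply hab
    have h1 : (⟨a, hS' ha⟩ : S') * ⟨b, hS' hb⟩ = ⟨b, hS' hb⟩ * ⟨a, hS' ha⟩ := by
      apply e.symm.injective
      rw [map_mul, map_mul]
      exact hc.is_comm.comm _ _
    exact congrArg Subtype.val h1
  · intro hlt
    refine ⟨⟨fun x y => ?_⟩⟩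
    have h1 := Cfsg.Agent.Fus.comm_of_isPGroup_perm (α := Fin n) (p := p) (by rw [Nat.card_fin]; exact hlt)
      ((S : Subgroup (alternatingGroup (Fin n))).map (alternatingGroup (Fin n)).subtype)
      (S.isPGroup'.map _) ((x : alternatingGroup (Fin n)) : Equiv.Perm (Fin n))
      ((y : alternatingGroup (Fin n)) : Equiv.Perm (Fin n)) ⟨x, x.2, rfl⟩ ⟨y, y.2, rfl⟩
    exact Subtype.ext (Subtype.ext h1)

end Cfsg.Agent.S5164
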