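import Mathlib
import Cfsg.Statements.S5167
import Cfsg.Agent.Lib.Helper3.FusM12

set_option autoImplicit false
open Cfsg

namespace Cfsg.Agent.S5167

/-- The 2-fusion system of the Mathieu group M₁₂ (as the explicit permutation group carved out of the automorphism group of the binary Golay code) on a Sylow 2-subgroup is simple: saturated, over a nontrivial 2-group, with no normal subsystem other than the trivial one and itself. -/
theorem result (S : Sylow 2 Cfsg.Spor.M12) : (Cfsg.groupFusionSystem (S : Subgroup Cfsg.Spor.M12)).IsSimple 2 := by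
  open Cfsg.Agent.Lib.Helper3 in
  exact (FusM12.C.main Spor.M12 FusGrp.good12 FusGrp.hcol12 FusGrp.base12
    FusM12.c1 FusM12.c2 FusM12.c3 FusM12.c4 FusM12.c5 FusM12.c6 FusM12.c7 S).1

end Cfsg.Agent.S5167
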