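import Mathlib
import Cfsg.Statements.S5170
import Cfsg.Agent.Lib.Helper3.FusM24

set_option autoImplicit false
open Cfsg

namespace Cfsg.Agent.S5170

/-- The 2-fusion system of the Mathieu group M₂₄ (as the explicit permutation group of the 24 points preserving the binary Golay code) on a Sylow 2-subgroup is simple: saturated, over a nontrivial 2-group, with no normal subsystem other than the trivial one and itself. -/
theorem result (S : Sylow 2 Cfsg.M24) : (Cfsg.groupFusionSystem (S : Subgroup Cfsg.M24)).IsSimple 2 := by
  open Cfsg.Agent.Lib.Helper3 in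
  exact (FusM24.C.main M24 FusGrp.good24 FusGrp.hcol24 FusGrp.base24
    FusM24.c1 FusM24.c2 FusM24.c3 FusM24.c4 FusM24.c5 FusM24.c6 FusM24.c7 S).1

end Cfsg.Agent.S5170
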