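import Cfsg.Statements.S5345

set_option autoImplicit false
open Cfsg

namespace Cfsg.Agent.S5345

theorem inv_of_order_two {G : Type*} [Group G] {d : G} (h : orderOf d = 2) : d * d = 1 := by
  have := pow_orderOf_eq_one d
  rwa [h, pow_two] at this

/-- Two involutions whose product is a 2-element and squares or cubes to one commute. -/
theorem commute_of_two_elt {G : Type*} [Group G] {a b : G} (ha : a * a = 1) (hb : b * b = 1)
    (k : ℕ) (hk : (a * b) ^ (2 ^ k) = 1) (h : (a * b) ^ 2 = 1 ∨ (a * b) ^ 3 = 1) : Commute a b := by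
  have hainv : a⁻¹ = a := inv_eq_of_mul_eq_one_left ha
  have hbinv : b⁻¹ = b := inv_eq_of_mul_eq_one_left hb
  have h2 : (a * b) ^ 2 = 1 := by
    rcases h with h | h
    · exact h
    · have hc : Nat.Coprime (2 ^ k) 3 := Nat.Coprime.pow_left _ (by norm_num)
      have := pow_gcd_eq_one.mpr ⟨hk, h⟩
      rw [hc, pow_one] at this
      rw [this, one_pow]
  show a * b = b * a
  have h3 : (a * b) * (a * b) = 1 := by rwa [pow_two] at h2
  have : a * b = (a * b)⁻¹ := eq_inv_of_mul_eq_one_left h3
  rw [this, mul_inv_rev, hainv, hbinv]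

/-- Let D be a conjugation-invariant generating set of 3-transpositions of a finite group G and T a Sylow 2-subgroup of G. Then the members of D lying in T generate an abelian subgroup, and their number is the width of D (the largest number of pairwise commuting members of D). -/
theorem result {G : Type*} [Group G] [Finite G] {D : Set G} (hD : Cfsg.IsThreeTranspositionGroup D) (T : Sylow 2 G) : IsMulCommutative (Subgroup.closure {d : G | d ∈ D ∧ d ∈ T}) ∧ {d : G | d ∈ D ∧ d ∈ T}.ncard = Cfsg.commutingWidth D := by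
  obtain ⟨⟨hord, hprod⟩, hconj, -⟩ := hD
  have hcomm : ∀ a ∈ {d : G | d ∈ D ∧ d ∈ T}, ∀ b ∈ {d : G | d ∈ D ∧ d ∈ T}, Commute a b := by
    rintro a ⟨haD, haT⟩ b ⟨hbD, hbT⟩
    obtain ⟨k, hk⟩ := T.isPGroup' ⟨a * b, T.mul_mem haT hbT⟩
    have hk' : (a * b) ^ (2 ^ k) = 1 := by
      have := congrArg Subtype.val hk
      simpa using this
    exact commute_of_two_elt (inv_of_order_two (hord a haD)) (inv_of_order_two (hord b hbD)) k hk'
      (hprod a haD b hbD)
  refine ⟨Subgroup.isMulCommutative_closure hcomm, ?_⟩
  symm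
  apply IsGreatest.csSup_eq
  constructor
  · exact ⟨{d : G | d ∈ D ∧ d ∈ T}, fun x hx => hx.1, Set.toFinite _, hcomm, rfl⟩
  · rintro n ⟨E, hED, hEfin, hEc, rfl⟩
    -- closure E is a 2-group
    have hE2 : ∀ x ∈ Subgroup.closure E, x * x = 1 := by
      have hcl : IsMulCommutative (Subgroup.closure E) := Subgroup.isMulCommutative_closure hEc
      intro x hx
      induction hx using Subgroup.closure_induction with
      | mem x hx => exact inv_of_order_two (hord x (hED hx))
      | one => simp
      | mul x y hx hy ihx ihy =>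
        have hxy : x * y = y * x := Subgroup.mul_comm_of_mem_isMulCommutative _ hx hy
        calc x * y * (x * y) = x * y * (y * x) := by rw [← hxy]
          _ = x * (y * y) * x := by group
          _ = 1 := by rw [ihy, mul_one, ihx]
      | inv x hx ih =>
        have : (x * x)⁻¹ = 1 := by rw [ih, inv_one]
        rwa [mul_inv_rev] at this
    have hP : IsPGroup 2 (Subgroup.closure E) := by
      rintro ⟨x, hx⟩
      refine ⟨1, ?_⟩
      apply Subtype.ext
      simp only [pow_one, Subgroup.coe_pow, Subgroup.coe_one]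
      rw [pow_two]
      exact hE2 x hx
    obtain ⟨Q, hQ⟩ := hP.exists_le_sylow
    obtain ⟨g, hg⟩ := MulAction.exists_smul_eq G Q T
    apply Set.ncard_le_ncard_of_injOn (fun x => g * x * g⁻¹) _ _ (Set.toFinite _)
    · intro x hx
      refine ⟨hconj g x (hED hx), ?_⟩
      have hxQ : x ∈ Q := hQ (Subgroup.subset_closure hx)
      rw [← hg]
      show g * x * g⁻¹ ∈ ((g • Q : Sylow 2 G) : Subgroup G)
      rw [Sylow.coe_subgroup_smul]
      exact ⟨x, hxQ, rfl⟩
    · intro x _ y _ hxy
      simpa using hxy

end Cfsg.Agent.S5345
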