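import Cfsg.Statements.S5346
import Cfsg.Agent.Lib.Helper27.ThreeTr

set_option autoImplicit false
open Cfsg

namespace Cfsg.Agent.S5346

open Cfsg.Agent.Lib.Helper27 Cfsg.Agent.Lib.Helper27.W1 Cfsg.Agent.Lib.Helper27.TT

theorem bdd {G : Type*} [Group G] [Finite G] (D : Set G) :
    BddAbove {n : ℕ | ∃ E : Set G, E ⊆ D ∧ E.Finite ∧ (∀ a ∈ E, ∀ b ∈ E, Commute a b) ∧ E.ncard = n} := by
  refine ⟨Nat.card G, ?_⟩
  rintro n ⟨E, -, -, -, rfl⟩
  rw [← Set.ncard_univ]
  exact Set.ncard_le_ncard (Set.subset_univ _) (Set.toFinite _)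

/-- Let D be a conjugation-invariant generating set of 3-transpositions of a finite group G and d a member of D. Then D has width 1 (no two different members of D commute) if and only if G is the product of the subgroup generated by d with the largest normal 3-subgroup of G. -/
theorem result {G : Type*} [Group G] [Finite G] {D : Set G} (hD : Cfsg.IsThreeTranspositionGroup D) {d : G} (hd : d ∈ D) : Cfsg.commutingWidth D = 1 ↔ Subgroup.zpowers d ⊔ Cfsg.pCore 3 G = ⊤ := by
  obtain ⟨hT, hconj, hgen⟩ := hD
  constructor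
  · intro hw
    have hnc : ∀ a ∈ D, ∀ b ∈ D, Commute a b → a = b := by
      intro a ha b hb hab
      by_contra hne
      have h2 : 2 ≤ commutingWidth D := by
        apply le_csSup (bdd D)
        refine ⟨{a, b}, ?_, Set.toFinite _, ?_, Set.ncard_pair hne⟩
        · rintro x (rfl | rfl)
          · exact ha
          · exact hb
        · rintro x (rfl | rfl) y (rfl | rfl)
          · exact Commute.refl _
          · exact hab
          · exact hab.symm
          · exact Commute.refl _
      omega
    have hH : IsHall D := by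
      refine ⟨fun x hx => sq hT hx, fun x hx y hy => ?_, fun x hx y hy => ?_⟩
      · by_cases hxy : Commute x y
        · rw [hnc x hx y hy hxy, sq hT hy, one_pow]
        · exact cube_of_not_commute hT hx hy hxy
      · have := hconj x y hy
        rwa [inv_eq hT hx] at this
    rw [eq_top_iff, ← hgen, Subgroup.closure_le]
    intro a ha
    have h1 : a = d * (d * a) := by rw [← mul_assoc, sq hT hd, one_mul]
    rw [h1]
    exact Subgroup.mul_mem _ (Subgroup.mem_sup_left (Subgroup.mem_zpowers d))
      (Subgroup.mem_sup_right (mul_mem_pCore_three hH hconj hd ha))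
  · intro htop
    have hN := pCore_normal 3 G
    have hcoset : ∀ a ∈ D, d * a ∈ pCore 3 G := by
      intro a ha
      have ha' : a ∈ Subgroup.zpowers d ⊔ pCore 3 G := htop ▸ Subgroup.mem_top a
      obtain ⟨y, hy, z, hz, hyz⟩ := Subgroup.mem_sup_of_normal_right.1 ha'
      obtain ⟨k, rfl⟩ := Subgroup.mem_zpowers_iff.1 hy
      have hd2 : d ^ (2 : ℤ) = 1 := by
        rw [show (2 : ℤ) = ((2 : ℕ) : ℤ) from rfl, zpow_natCast, pow_two, sq hT hd]
      rcases Int.even_or_odd' k with ⟨m, rfl | rfl⟩
      · exfalso
        rw [zpow_mul, hd2, one_zpow, one_mul] at hyz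
        exact notMem_pCore_three hT ha (hyz ▸ hz)
      · rw [zpow_add, zpow_mul, hd2, one_zpow, one_mul, zpow_one] at hyz
        rw [← hyz, ← mul_assoc, sq hT hd, one_mul]
        exact hz
    apply le_antisymm
    · have hne : {n : ℕ | ∃ E : Set G, E ⊆ D ∧ E.Finite ∧ (∀ a ∈ E, ∀ b ∈ E, Commute a b) ∧
          E.ncard = n}.Nonempty :=
        ⟨1, {d}, by simpa using hd, Set.toFinite _, by simp, Set.ncard_singleton d⟩
      apply csSup_le hne
      rintro n ⟨E, hED, -, hE, rfl⟩
      rw [Set.ncard_le_one_iff]
      intro a b ha hb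
      have h1 : a * b ∈ pCore 3 G := by
        have h2 := (pCore 3 G).mul_mem ((pCore 3 G).inv_mem (hcoset a (hED ha))) (hcoset b (hED hb))
        have h3 : (d * a)⁻¹ * (d * b) = a * b := by
          rw [mul_inv_rev, inv_eq hT (hED ha)]; group
        rwa [h3] at h2
      have h4 := eq_one_of_sq_of_mem_pCore_three h1 ((commute_iff hT (hED ha) (hED hb)).1 (hE a ha b hb))
      rw [← inv_eq hT (hED ha)]
      exact (eq_inv_of_mul_eq_one_right h4).symm
    · apply le_csSup (bdd D)
      exact ⟨{d}, by simpa using hd, Set.toFinite _, by simp, Set.ncard_singleton d⟩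

end Cfsg.Agent.S5346
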