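import Cfsg.Statements.S5347

set_option autoImplicit false
open Cfsg

namespace Cfsg.Agent.S5347

/-- Let D be a conjugation-invariant generating set of 3-transpositions of a finite group G, p a prime bigger than 3, and P a p-subgroup of G. If a member d of D normalizes P then d centralizes P. -/
theorem result {G : Type*} [Group G] [Finite G] {D : Set G} (hD : Cfsg.IsThreeTranspositionGroup D) {p : ℕ} (hp : p.Prime) (hp3 : 3 < p) (P : Subgroup G) (hP : IsPGroup p P) {d : G} (hd : d ∈ D) (hnorm : d ∈ Subgroup.normalizer (P : Set G)) : ∀ x ∈ P, Commute d x := by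
  intro x hx
  obtain ⟨⟨hord, hprod⟩, hconj, -⟩ := hD
  have hd2 : d * d = 1 := by
    have := pow_orderOf_eq_one d
    rw [hord d hd, pow_two] at this
    exact this
  have hdinv : d⁻¹ = d := inv_eq_of_mul_eq_one_left hd2
  -- y = d * (x d x⁻¹) ∈ P
  set y : G := d * (x * d * x⁻¹) with hy
  have hyP : y ∈ P := by
    have h1 : d * x * d⁻¹ ∈ P := (Subgroup.mem_normalizer_iff.mp hnorm x).mp hx
    have : y = (d * x * d⁻¹) * x⁻¹ := by
      rw [hy, hdinv]; group
    rw [this]
    exact P.mul_mem h1 (P.inv_mem hx)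
  obtain ⟨k, hk⟩ := hP ⟨y, hyP⟩
  have hk' : y ^ (p ^ k) = 1 := by
    have := congrArg Subtype.val hk
    simpa using this
  have hy1 : y = 1 := by
    rcases hprod d hd (x * d * x⁻¹) (hconj x d hd) with h | h
    · have hc : Nat.Coprime (p ^ k) 2 := by
        apply Nat.Coprime.pow_left
        exact (Nat.coprime_primes hp Nat.prime_two).mpr (by omega)
      have := pow_gcd_eq_one.mpr ⟨hk', h⟩
      rw [hc] at this
      simpa using this
    · have hc : Nat.Coprime (p ^ k) 3 := by
        apply Nat.Coprime.pow_left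
        exact (Nat.coprime_primes hp Nat.prime_three).mpr (by omega)
      have := pow_gcd_eq_one.mpr ⟨hk', h⟩
      rw [hc] at this
      simpa using this
  -- d * (x d x⁻¹) = 1 → x d x⁻¹ = d
  have h3 : x * d * x⁻¹ = d := by
    have : x * d * x⁻¹ = d⁻¹ := eq_inv_of_mul_eq_one_right hy1
    rw [this, hdinv]
  show d * x = x * d
  calc d * x = (x * d * x⁻¹) * x := by rw [h3]
    _ = x * d := by group

end Cfsg.Agent.S5347
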