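import Cfsg.Statements.S5349
import Cfsg.Agent.Lib.Helper27.ThreeTrV

set_option autoImplicit false
open Cfsg

namespace Cfsg.Agent.S5349

open Cfsg.Agent.Lib.Helper27 Cfsg.Agent.Lib.Helper27.TT

/-- Let D be a conjugacy class of 3-transpositions generating the finite group G, with at least two members, and d a member of D. Then the set of members of D commuting with exactly the same members of D as d coincides with the set of members of D lying in the coset of d modulo the largest normal 2-subgroup of G, and also with the orbit of d under conjugation by that normal 2-subgroup. -/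
theorem result {G : Type*} [Group G] [Finite G] {D : Set G} (hD : Cfsg.IsThreeTranspositionClass D) (hD2 : ∃ a ∈ D, ∃ b ∈ D, a ≠ b) {d : G} (hd : d ∈ D) : {v : G | v ∈ D ∧ ∀ e ∈ D, Commute v e ↔ Commute d e} = {v : G | v ∈ D ∧ d⁻¹ * v ∈ Cfsg.pCore 2 G} ∧ {v : G | v ∈ D ∧ ∀ e ∈ D, Commute v e ↔ Commute d e} = {v : G | ∃ g ∈ Cfsg.pCore 2 G, v = g * d * g⁻¹} := by
  have hT := hD.1
  have hconj := conj_mem_of_class hD
  have hN := pCore_normal 2 G
  have first : {v : G | v ∈ D ∧ ∀ e ∈ D, Commute v e ↔ Commute d e} =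
      {v : G | v ∈ D ∧ d⁻¹ * v ∈ Cfsg.pCore 2 G} := by
    ext v
    constructor
    · rintro ⟨hv, h⟩
      refine ⟨hv, ?_⟩
      rw [inv_eq hT hd]
      exact (Vrel_iff_mul_mem hT hconj hd hv).1 h
    · rintro ⟨hv, h⟩
      rw [inv_eq hT hd] at h
      exact ⟨hv, (Vrel_iff_mul_mem hT hconj hd hv).2 h⟩
  refine ⟨first, ?_⟩
  ext v
  constructor
  · rintro ⟨hv, h⟩
    obtain ⟨e, he, hne⟩ := exists_not_commute hD hD2 hd
    exact exists_conj_of_Vrel hT hconj hd hv he h hne
  · intro hv
    rw [first]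
    obtain ⟨g, hg, rfl⟩ := hv
    refine ⟨hconj g d hd, ?_⟩
    have h1 := hN.conj_mem g hg d⁻¹
    have h2 := (pCore 2 G).mul_mem h1 ((pCore 2 G).inv_mem hg)
    have h3 : d⁻¹ * g * d⁻¹⁻¹ * g⁻¹ = d⁻¹ * (g * d * g⁻¹) := by group
    rwa [h3] at h2

end Cfsg.Agent.S5349
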