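import Cfsg.Statements.S5350
import Cfsg.Agent.Lib.Helper27.ThreeTrW

set_option autoImplicit false
open Cfsg

namespace Cfsg.Agent.S5350

open Cfsg.Agent.Lib.Helper27 Cfsg.Agent.Lib.Helper27.W1 Cfsg.Agent.Lib.Helper27.TT

/-- Let D be a conjugacy class of 3-transpositions generating the finite group G, with at least two members, and d a member of D. Then the set of members w of D whose commuting partners in D (other than w) are exactly those of d (other than d) coincides with the set of members of D lying in the coset of d modulo the largest normal 3-subgroup of G, and also with the orbit of d under conjugation by that normal 3-subgroup. -/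
theorem result {G : Type*} [Group G] [Finite G] {D : Set G} (hD : Cfsg.IsThreeTranspositionClass D) (hD2 : ∃ a ∈ D, ∃ b ∈ D, a ≠ b) {d : G} (hd : d ∈ D) : {w : G | w ∈ D ∧ {y : G | y ∈ D ∧ y ≠ d ∧ Commute d y} = {y : G | y ∈ D ∧ y ≠ w ∧ Commute w y}} = {w : G | w ∈ D ∧ d⁻¹ * w ∈ Cfsg.pCore 3 G} ∧ {w : G | w ∈ D ∧ {y : G | y ∈ D ∧ y ≠ d ∧ Commute d y} = {y : G | y ∈ D ∧ y ≠ w ∧ Commute w y}} = {w : G | ∃ g ∈ Cfsg.pCore 3 G, w = g * d * g⁻¹} := by
  obtain ⟨hT, ⟨d₀, hd₀, hcl⟩, hgen⟩ := hD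
  have hconj : ∀ g : G, ∀ x ∈ D, g * x * g⁻¹ ∈ D := by
    intro g x hx
    rw [hcl] at hx ⊢
    have hx' : IsConj d₀ x := hx
    exact hx'.trans (isConj_iff.2 ⟨g, rfl⟩)
  have hN := pCore_normal 3 G
  have key : ∀ w : G, w ∈ D → (({y : G | y ∈ D ∧ y ≠ d ∧ Commute d y} = {y : G | y ∈ D ∧ y ≠ w ∧ Commute w y}) ↔
      d⁻¹ * w ∈ pCore 3 G) := by
    intro w hw
    rw [inv_eq hT hd]
    exact Dd_eq_iff_mul_mem hT hconj hd hw
  have first : {w : G | w ∈ D ∧ {y : G | y ∈ D ∧ y ≠ d ∧ Commute d y} = {y : G | y ∈ D ∧ y ≠ w ∧ Commute w y}} =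
      {w : G | w ∈ D ∧ d⁻¹ * w ∈ Cfsg.pCore 3 G} := by
    ext w
    constructor
    · rintro ⟨hw, h⟩
      exact ⟨hw, (key w hw).1 h⟩
    · rintro ⟨hw, h⟩
      exact ⟨hw, (key w hw).2 h⟩
  refine ⟨first, ?_⟩
  rw [first]
  ext w
  constructor
  · rintro ⟨hw, h⟩
    rw [inv_eq hT hd] at h
    refine ⟨d * w, h, ?_⟩
    have h3 : (d * w) ^ 3 = 1 := by
      rcases hT.2 d hd w hw with h2 | h3
      · rw [eq_one_of_sq_of_mem_pCore_three h h2, one_pow]
      · exact h3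
    have h6 : d * w * d * w * d * w = 1 := by
      rw [← h3]; simp only [pow_succ, pow_zero, one_mul, mul_assoc]
    rw [mul_inv_rev, inv_eq hT hd, inv_eq hT hw]
    calc w = (d * w * d * w * d * w) * w := by rw [h6, one_mul]
      _ = d * w * d * w * d * (w * w) := by group
      _ = d * w * d * (w * d) := by rw [sq hT hw]; group
  · rintro ⟨g, hg, rfl⟩
    refine ⟨hconj g d hd, ?_⟩
    have h1 := hN.conj_mem g hg d⁻¹
    have h2 := (pCore 3 G).mul_mem h1 ((pCore 3 G).inv_mem hg)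
    have h3 : d⁻¹ * g * d⁻¹⁻¹ * g⁻¹ = d⁻¹ * (g * d * g⁻¹) := by group
    rwa [h3] at h2

end Cfsg.Agent.S5350
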