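import Cfsg.Statements.S5353
import Cfsg.Agent.Lib.Helper27.ThreeTrC

set_option autoImplicit false
open Cfsg

namespace Cfsg.Agent.S5353

open Cfsg.Agent.Lib.Helper27.TT

/-- Let D be a conjugacy class of 3-transpositions generating the finite group G, with at least two members, such that the largest normal 2-subgroup and the largest normal 3-subgroup of G are central, and let L be a quasisimple normal subgroup with generalized Fitting subgroup of G equal to L times the centre. If L has index at most 2 then G acts primitively on D by conjugation; and if the commuting graph of D is connected then L has index at most 2. -/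
theorem result {G : Type*} [Group G] [Finite G] {D : Set G} (hD : Cfsg.IsThreeTranspositionClass D) (hD2 : ∃ a ∈ D, ∃ b ∈ D, a ≠ b) (h2 : Cfsg.pCore 2 G ≤ Subgroup.center G) (h3 : Cfsg.pCore 3 G ≤ Subgroup.center G) (L : Subgroup G) [L.Normal] (hL : Cfsg.IsQuasisimple L) (hF : Cfsg.generalizedFittingSubgroup G = L ⊔ Subgroup.center G) : (L.index ≤ 2 → Cfsg.IsPrimitiveUnderConj D) ∧ ((Cfsg.commutingGraph D).Connected → L.index ≤ 2) := by
  have hLn : L.Normal := inferInstance
  have hLc : IsComponent L := ⟨hLn.isSubnormal, hL⟩
  constructor
  · intro hidx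
    apply isPrimitive_of_normal hD hD2
    intro K hK
    rcases Cfsg.H9.component_le_or_comm hLc hK.isSubnormal with h | h
    · exact Or.inl (fun a ha b hb => h (mul_mem_of_index_le_two hD hLn hidx ha hb))
    · exact Or.inr (le_center_of_comm_component hD h2 h3 hLc h)
  · intro hconn
    obtain ⟨d, hd, -⟩ := hD2
    apply index_le_two_of_mul_mem hD.1 hD.2.2 ⟨d, hd⟩ hLn
    intro a ha b hb
    exact mul_mem_of_reachable hD.1 (fun a ha b hb hc => mul_mem_component hD hLc ha hb hc)
      (hconn.preconnected ⟨a, ha⟩ ⟨b, hb⟩)

end Cfsg.Agent.S5353
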