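import Cfsg.Statements.S5354
import Cfsg.Agent.Lib.Helper27.ThreeTrM
import Cfsg.Agent.S5361

set_option autoImplicit false
open Cfsg

namespace Cfsg.Agent.S5354

open Cfsg.Agent.Lib.Helper27.TT

/-- Let D be a conjugation-invariant generating set of 3-transpositions of the finite group G on which G acts primitively by conjugation, and suppose two different members of D commute (width at least 2). Then G has a quasisimple normal subgroup L of index at most 2 with the generalized Fitting subgroup of G equal to L times the centre, the commuting graph of D is connected, and for d in D the subgroup generated by the members of D commuting with d is a maximal D-subgroup: it is proper, and every subgroup generated by members of D that contains it is either it or G. -/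
theorem result {G : Type*} [Group G] [Finite G] {D : Set G} (hD : Cfsg.IsThreeTranspositionGroup D) (hprim : Cfsg.IsPrimitiveUnderConj D) (hw : ∃ a ∈ D, ∃ b ∈ D, a ≠ b ∧ Commute a b) : (∃ L : Subgroup G, L.Normal ∧ Cfsg.IsQuasisimple L ∧ L.index ≤ 2 ∧ Cfsg.generalizedFittingSubgroup G = L ⊔ Subgroup.center G) ∧ (Cfsg.commutingGraph D).Connected ∧ ∀ d ∈ D, Subgroup.closure {y : G | y ∈ D ∧ Commute d y} ≠ ⊤ ∧ ∀ H : Subgroup G, Cfsg.IsDSubgroup D H → Subgroup.closure {y : G | y ∈ D ∧ Commute d y} ≤ H → H = Subgroup.closure {y : G | y ∈ D ∧ Commute d y} ∨ H = ⊤ := by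
  have hcl : IsThreeTranspositionClass D := by
    refine ⟨hD.1, ?_, hD.2.2⟩
    obtain ⟨d, hd, -⟩ := hprim.2.1
    refine ⟨d, hd, ?_⟩
    ext x
    constructor
    · intro hx
      obtain ⟨g, hg⟩ := hprim.1 d hd x hx
      exact isConj_iff.2 ⟨g, hg⟩
    · intro hx
      obtain ⟨g, hg⟩ := isConj_iff.1 (show IsConj d x from hx)
      rw [← hg]
      exact hD.2.1 g d hd
  have hD2 := hprim.2.1
  have h2 := pCore_two_le_center_of_prim hcl hprim
  have h3 := pCore_three_le_center_of_prim hcl hprim hw
  have hconn := connected_of_prim hD.2.1 hprim hw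
  refine ⟨?_, hconn, ?_⟩
  · obtain ⟨L, hLc, hLn, hidx, -⟩ := Cfsg.Agent.S5361.prim_of_connected hcl hD2 h2 h3 hconn
    refine ⟨L, hLn, hLc.2, hidx, ?_⟩
    unfold generalizedFittingSubgroup
    rw [layer_eq_of_component hcl hLc, fitting_eq_center hcl h2 h3]
  · intro d hd
    constructor
    · intro htop
      obtain ⟨e, he, hne⟩ := exists_not_commute hcl hD2 hd
      have hle : Subgroup.closure {y : G | y ∈ D ∧ Commute d y} ≤ Subgroup.centralizer {d} := by
        rw [Subgroup.closure_le]
        intro y hy
        rw [SetLike.mem_coe, Subgroup.mem_centralizer_singleton_iff]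
        exact hy.2.symm.eq
      have h1 : e ∈ Subgroup.centralizer {d} := hle (htop ▸ Subgroup.mem_top e)
      rw [Subgroup.mem_centralizer_singleton_iff] at h1
      exact hne (Commute.symm h1)
    · intro H hH hle
      by_cases hex : ∃ e ∈ D, e ∈ H ∧ ¬ Commute d e
      · obtain ⟨e, he, heH, hne⟩ := hex
        right
        exact eq_top_of_perp_le hcl hprim hconn hd hH
          (fun y hy hc => hle (Subgroup.subset_closure ⟨hy, hc⟩)) he heH hne
      · left
        push Not at hex
        apply le_antisymm _ hle
        have h1 : Subgroup.closure {x : G | x ∈ D ∧ x ∈ H} = H := hH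
        rw [← h1]
        apply Subgroup.closure_mono
        intro x hx
        exact ⟨hx.1, hex x hx.1 hx.2⟩

end Cfsg.Agent.S5354
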