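import Cfsg.Statements.S5356
import Cfsg.Agent.Lib.Helper27.ThreeTrV
import Cfsg.Agent.Fus.Embedded

set_option autoImplicit false
open Cfsg Cfsg.Agent.Lib.Helper27 Cfsg.Agent.Lib.Helper27.TT Cfsg.Agent.Lib.Helper27.W1

namespace Cfsg.Agent.S5356

variable {G : Type*} [Group G]

theorem isPGroup_sup_zpowers {p : ℕ} {R : Subgroup G} (hR : IsPGroup p R) {y : G}
    (hy : y ∈ Subgroup.normalizer (R : Set G)) (hyp : y ^ p ∈ R) :
    IsPGroup p (Subgroup.zpowers y ⊔ R : Subgroup G) := by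
  obtain ⟨k, hk⟩ := hR ⟨y ^ p, hyp⟩
  have h1 : y ^ p ^ (k + 1) = 1 := by
    have := congrArg Subtype.val hk
    simp only [Subgroup.coe_pow, Subgroup.coe_one] at this
    rw [pow_succ', pow_mul]; exact this
  exact IsPGroup.to_sup_of_normal_right' (isPGroup_zpowers_of_pow h1) hR
    (by rw [Subgroup.zpowers_le]; exact hy)

theorem extend {d : G} (sd : d * d = 1) {R : Subgroup G} (hR : IsPGroup 3 R)
    (hinv : ∀ r ∈ R, d * r * d ∈ R) {y : G} (hyN : y ∈ Subgroup.normalizer (R : Set G))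
    (hy3 : y ^ 3 ∈ R) (hyR : y ∉ R) (hdy : d * y * d ∈ Subgroup.zpowers y ⊔ R) :
    ∃ R' : Subgroup G, IsPGroup 3 R' ∧ (∀ r ∈ R', d * r * d ∈ R') ∧ R < R' := by
  have hdinv : d⁻¹ = d := inv_eq_of_mul_eq_one_left sd
  refine ⟨Subgroup.zpowers y ⊔ R, isPGroup_sup_zpowers hR hyN hy3, ?_, ?_⟩
  · have hle : Subgroup.zpowers y ⊔ R ≤ (Subgroup.zpowers y ⊔ R).comap (MulAut.conj d).toMonoidHom := by
      refine sup_le ?_ ?_
      · rw [Subgroup.zpowers_le, Subgroup.mem_comap]
        show d * y * d⁻¹ ∈ _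
        rw [hdinv]; exact hdy
      · intro r hr
        rw [Subgroup.mem_comap]
        show d * r * d⁻¹ ∈ _
        rw [hdinv]; exact (le_sup_right : R ≤ Subgroup.zpowers y ⊔ R) (hinv r hr)
    intro r hr
    have := hle hr
    rw [Subgroup.mem_comap] at this
    have h2 : d * r * d⁻¹ ∈ Subgroup.zpowers y ⊔ R := this
    rwa [hdinv] at h2
  · refine lt_of_le_of_ne le_sup_right ?_
    intro h
    apply hyR
    rw [h]
    exact (le_sup_left : Subgroup.zpowers y ≤ Subgroup.zpowers y ⊔ R) (Subgroup.mem_zpowers y)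

theorem step [Finite G] {D : Set G} (hD : IsThreeTranspositionClass D) (hD2 : ∃ a ∈ D, ∃ b ∈ D, a ≠ b)
    {d : G} (hd : d ∈ D) (hV : ∀ y ∈ D, Commute d y → Vrel D d y)
    (R : Subgroup G) (hR : IsPGroup 3 R) (hinv : ∀ r ∈ R, d * r * d ∈ R)
    (hX : 3 ^ (Nat.card (Subgroup.centralizer ({d} : Set G))).factorization 3 ≤ Nat.card R)
    (n : ℕ) (hn : Nat.card R = 3 ^ n) (hdvd : 3 ^ (n + 1) ∣ Nat.card G) :
    ∃ R' : Subgroup G, IsPGroup 3 R' ∧ (∀ r ∈ R', d * r * d ∈ R') ∧ R < R' := by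
  have : Fact (Nat.Prime 3) := ⟨Nat.prime_three⟩
  have hT := hD.1
  have hconj := conj_mem_of_class hD
  have sd := sq hT hd
  have hdinv : d⁻¹ = d := inv_eq hT hd
  have hdN : d ∈ Subgroup.normalizer (R : Set G) := by
    rw [Subgroup.mem_normalizer_iff]
    intro h
    rw [hdinv]
    constructor
    · exact hinv h
    · intro hh
      have := hinv _ hh
      have e : d * (d * h * d) * d = h := by
        calc d * (d * h * d) * d = (d * d) * h * (d * d) := by group
          _ = h := by rw [sd]; group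
      rwa [e] at this
  obtain ⟨y0, hy0N, hy0R, hy03⟩ : ∃ y0 ∈ Subgroup.normalizer (R : Set G), y0 ∉ R ∧ y0 ^ 3 ∈ R := by
    have h3 := Sylow.prime_dvd_card_quotient_normalizer hdvd hn
    have hnorm : (R.comap (Subgroup.normalizer (R : Set G)).subtype).Normal :=
      Subgroup.normal_in_normalizer
    obtain ⟨q, hq⟩ := exists_prime_orderOf_dvd_card' 3 h3
    obtain ⟨y, rfl⟩ := QuotientGroup.mk_surjective q
    refine ⟨y.1, y.2, ?_, ?_⟩
    · intro hy
      have : (QuotientGroup.mk y : _ ⧸ R.comap (Subgroup.normalizer (R : Set G)).subtype) = 1 := by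
        rw [QuotientGroup.eq_one_iff]; exact hy
      rw [this, orderOf_one] at hq
      omega
    · have h1 := pow_orderOf_eq_one
        (QuotientGroup.mk y : _ ⧸ R.comap (Subgroup.normalizer (R : Set G)).subtype)
      rw [hq, ← QuotientGroup.mk_pow, QuotientGroup.eq_one_iff] at h1
      exact h1
  by_cases hA : ∃ w ∈ Subgroup.normalizer (R : Set G),
      ¬ Commute d (w * d * w⁻¹) ∧ d * (w * d * w⁻¹) ∉ R
  · obtain ⟨w, hw, hnc, hnR⟩ := hA
    have hwD : w * d * w⁻¹ ∈ D := hconj w d hd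
    have hy3 : (d * (w * d * w⁻¹)) ^ 3 = 1 := cube_of_not_commute hT hd hwD hnc
    refine extend sd hR hinv (y := d * (w * d * w⁻¹)) ?_ (by rw [hy3]; exact R.one_mem) hnR ?_
    · exact mul_mem hdN (mul_mem (mul_mem hw hdN) (inv_mem hw))
    · have : d * (d * (w * d * w⁻¹)) * d = (d * (w * d * w⁻¹))⁻¹ := by
        rw [mul_inv_rev, hdinv, inv_eq hT hwD]
        calc d * (d * (w * d * w⁻¹)) * d = (d * d) * (w * d * w⁻¹) * d := by group
          _ = _ := by rw [sd, one_mul]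
      rw [this]
      exact (le_sup_left : Subgroup.zpowers _ ≤ Subgroup.zpowers _ ⊔ R)
        (inv_mem (Subgroup.mem_zpowers _))
  push Not at hA
  by_cases hB : ∀ w ∈ Subgroup.normalizer (R : Set G), d * (w * d * w⁻¹) ∈ R
  · refine extend sd hR hinv hy0N hy03 hy0R ?_
    have h1 := hB y0 hy0N
    have : d * y0 * d = (d * (y0 * d * y0⁻¹)) * y0 := by group
    rw [this]
    exact mul_mem ((le_sup_right : R ≤ Subgroup.zpowers y0 ⊔ R) h1)
      ((le_sup_left : Subgroup.zpowers y0 ≤ Subgroup.zpowers y0 ⊔ R) (Subgroup.mem_zpowers _))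
  push Not at hB
  obtain ⟨w0, hw0, hw0R⟩ := hB
  exfalso
  have hall : ∀ w ∈ Subgroup.normalizer (R : Set G), Commute d (w * d * w⁻¹) := by
    intro w hw
    by_contra hnc
    have hdb : d * (w * d * w⁻¹) ∈ R := hA w hw hnc
    have hca : Commute d (w0 * d * w0⁻¹) := by
      by_contra h; exact hw0R (hA w0 hw0 h)
    have haD : w0 * d * w0⁻¹ ∈ D := hconj w0 d hd
    have hbD : w * d * w⁻¹ ∈ D := hconj w d hd
    have hVa := hV _ haD hca
    have hw' : w0⁻¹ * w ∈ Subgroup.normalizer (R : Set G) := mul_mem (inv_mem hw0) hw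
    by_cases hc2 : Commute d ((w0⁻¹ * w) * d * (w0⁻¹ * w)⁻¹)
    · have : Commute (w0 * d * w0⁻¹) (w * d * w⁻¹) := by
        have h := (Commute.conj_iff w0).2 hc2
        have e : w0 * ((w0⁻¹ * w) * d * (w0⁻¹ * w)⁻¹) * w0⁻¹ = w * d * w⁻¹ := by group
        rwa [e] at h
      exact hnc ((hVa _ hbD).1 this)
    · have h := hA _ hw' hc2
      have h2 : w0 * (d * ((w0⁻¹ * w) * d * (w0⁻¹ * w)⁻¹)) * w0⁻¹ ∈ R :=
        (Subgroup.mem_normalizer_iff.1 hw0 _).1 h
      have e : w0 * (d * ((w0⁻¹ * w) * d * (w0⁻¹ * w)⁻¹)) * w0⁻¹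
          = (w0 * d * w0⁻¹) * (w * d * w⁻¹) := by group
      rw [e] at h2
      apply hw0R
      have e2 : d * (w0 * d * w0⁻¹)
          = (d * (w * d * w⁻¹)) * ((w0 * d * w0⁻¹) * (w * d * w⁻¹))⁻¹ := by
        rw [mul_inv_rev, inv_eq hT haD, inv_eq hT hbD, mul_assoc d, ← mul_assoc (w * d * w⁻¹),
          sq hT hbD, one_mul]
      rw [e2]; exact mul_mem hdb (inv_mem h2)
  obtain ⟨e, heD, hde⟩ := exists_not_commute hD hD2 hd
  have hQn : (pCore 2 G).Normal := pCore_normal 2 G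
  have hU : IsPGroup 3 (Subgroup.zpowers y0 ⊔ R : Subgroup G) := isPGroup_sup_zpowers hR hy0N hy03
  have hUN : Subgroup.zpowers y0 ⊔ R ≤ Subgroup.normalizer (R : Set G) :=
    sup_le (by rw [Subgroup.zpowers_le]; exact hy0N) Subgroup.le_normalizer
  have hUle : Subgroup.zpowers y0 ⊔ R ≤ pCore 2 G ⊔ Subgroup.centralizer ({d} : Set G) := by
    intro w hw
    have hc := hall w (hUN hw)
    have hwD : w * d * w⁻¹ ∈ D := hconj w d hd
    obtain ⟨g, hg, hgw⟩ := exists_conj_of_Vrel hT hconj hd hwD heD (hV _ hwD hc) hde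
    have h1 : g⁻¹ * w ∈ Subgroup.centralizer ({d} : Set G) := by
      rw [Subgroup.mem_centralizer_singleton_iff]
      calc g⁻¹ * w * d = g⁻¹ * (w * d * w⁻¹) * w := by group
        _ = g⁻¹ * (g * d * g⁻¹) * w := by rw [hgw]
        _ = d * (g⁻¹ * w) := by group
    have h2 : w = g * (g⁻¹ * w) := by group
    rw [h2]
    exact mul_mem ((le_sup_left : pCore 2 G ≤ _) hg) ((le_sup_right : Subgroup.centralizer ({d} : Set G) ≤ _) h1)
  have hlt : Nat.card R < Nat.card (Subgroup.zpowers y0 ⊔ R : Subgroup G) := by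
    have hlt' : R < Subgroup.zpowers y0 ⊔ R := by
      refine lt_of_le_of_ne le_sup_right ?_
      intro h
      apply hy0R
      rw [h]
      exact (le_sup_left : Subgroup.zpowers y0 ≤ Subgroup.zpowers y0 ⊔ R) (Subgroup.mem_zpowers y0)
    by_contra hge
    exact hlt'.ne (Subgroup.eq_of_le_of_card_ge hlt'.le (not_lt.1 hge))
  obtain ⟨m, hm⟩ := IsPGroup.iff_card.1 hU
  obtain ⟨a, ha⟩ := IsPGroup.iff_card.1 (isPGroup_pCore 2 G)
  have hd1 : Nat.card (Subgroup.zpowers y0 ⊔ R : Subgroup G)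
      ∣ Nat.card (pCore 2 G ⊔ Subgroup.centralizer ({d} : Set G) : Subgroup G) :=
    Subgroup.card_dvd_of_le hUle
  have hd2 : Nat.card (pCore 2 G ⊔ Subgroup.centralizer ({d} : Set G) : Subgroup G)
      ∣ Nat.card (pCore 2 G) * Nat.card (Subgroup.centralizer ({d} : Set G)) := by
    have h1 := Subgroup.relIndex_mul_relIndex ⊥ (pCore 2 G)
      (pCore 2 G ⊔ Subgroup.centralizer ({d} : Set G)) bot_le le_sup_left
    rw [Subgroup.relIndex_bot_left, Subgroup.relIndex_bot_left, Subgroup.relIndex_sup_left] at h1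
    rw [← h1]
    exact Nat.mul_dvd_mul_left _ (Subgroup.relIndex_dvd_card _ _)
  have hd3 : 3 ^ m ∣ Nat.card (Subgroup.centralizer ({d} : Set G)) := by
    have h1 := hd1.trans hd2
    rw [hm, ha] at h1
    exact (Nat.Coprime.pow m a (by norm_num)).dvd_of_dvd_mul_left h1
  have hm2 : m ≤ (Nat.card (Subgroup.centralizer ({d} : Set G))).factorization 3 :=
    (Nat.Prime.pow_dvd_iff_le_factorization Nat.prime_three Nat.card_pos.ne').1 hd3
  have h5 : 3 ^ m ≤ 3 ^ (Nat.card (Subgroup.centralizer ({d} : Set G))).factorization 3 :=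
    Nat.pow_le_pow_right (by norm_num) hm2
  omega

/-- Let D be a conjugacy class of 3-transpositions generating the finite group G, with at least two members, and d a member of D such that every member of D commuting with d commutes with exactly the same members of D as d. Then there is a Sylow 3-subgroup P of G normalized by d such that G is generated by d, P and the largest normal 2-subgroup of G. -/
theorem result {G : Type*} [Group G] [Finite G] {D : Set G} (hD : Cfsg.IsThreeTranspositionClass D) (hD2 : ∃ a ∈ D, ∃ b ∈ D, a ≠ b) {d : G} (hd : d ∈ D) (hV : {y : G | y ∈ D ∧ Commute d y} = {v : G | v ∈ D ∧ ∀ e ∈ D, Commute v e ↔ Commute d e}) : ∃ P : Sylow 3 G, d ∈ Subgroup.normalizer (P : Set G) ∧ Subgroup.zpowers d ⊔ (P : Subgroup G) ⊔ Cfsg.pCore 2 G = ⊤ := by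
  have : Fact (Nat.Prime 3) := ⟨Nat.prime_three⟩
  have hT := hD.1
  have hconj := conj_mem_of_class hD
  have sd := sq hT hd
  have hdinv : d⁻¹ = d := inv_eq hT hd
  have hV' : ∀ y ∈ D, Commute d y → Vrel D d y := by
    intro y hy hc
    have : y ∈ {v : G | v ∈ D ∧ ∀ e ∈ D, Commute v e ↔ Commute d e} := hV ▸ ⟨hy, hc⟩
    exact this.2
  let good : Set (Subgroup G) := {R | IsPGroup 3 R ∧ (∀ r ∈ R, d * r * d ∈ R) ∧
    3 ^ (Nat.card (Subgroup.centralizer ({d} : Set G))).factorization 3 ≤ Nat.card R}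
  have hne : good.Nonempty := by
    obtain ⟨X⟩ : Nonempty (Sylow 3 (Subgroup.centralizer ({d} : Set G))) := inferInstance
    refine ⟨(X : Subgroup (Subgroup.centralizer ({d} : Set G))).map
      (Subgroup.centralizer ({d} : Set G)).subtype, X.2.map _, ?_, ?_⟩
    · rintro _ ⟨x, hx, rfl⟩
      have h1 : d * (x : G) * d = x := by
        have h2 := Subgroup.mem_centralizer_singleton_iff.1 x.2
        rw [← h2, mul_assoc, sd, mul_one]
      refine ⟨x, hx, ?_⟩
      exact h1.symm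
    · rw [Subgroup.card_map_of_injective (Subgroup.subtype_injective _), X.card_eq_multiplicity]
  obtain ⟨R, hRmax⟩ := (Set.toFinite good).exists_maximal hne
  obtain ⟨hRp, hRinv, hRX⟩ := hRmax.prop
  obtain ⟨n, hn⟩ := IsPGroup.iff_card.1 hRp
  have hnd : ¬ 3 ^ (n + 1) ∣ Nat.card G := by
    intro hdvd
    obtain ⟨R', h1, h2, h3⟩ := step hD hD2 hd hV' R hRp hRinv hRX n hn hdvd
    have hg : R' ∈ good := ⟨h1, h2, hRX.trans (Subgroup.card_le_of_le h3.le)⟩
    exact h3.not_ge (hRmax.le_of_ge hg h3.le)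
  obtain ⟨P, hP⟩ := hRp.exists_le_sylow
  have hPR : R = (P : Subgroup G) := by
    apply Subgroup.eq_of_le_of_card_ge hP
    rw [P.card_eq_multiplicity, hn]
    apply Nat.pow_le_pow_right (by norm_num)
    by_contra h
    push Not at h
    exact hnd ((pow_dvd_pow 3 h).trans (Nat.ordProj_dvd _ _))
  refine ⟨P, ?_, ?_⟩
  · show d ∈ Subgroup.normalizer (((P : Subgroup G)) : Set G)
    rw [Subgroup.mem_normalizer_iff]
    intro h
    rw [hdinv, ← hPR]
    constructor
    · exact hRinv h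
    · intro hh
      have := hRinv _ hh
      have e : d * (d * h * d) * d = h := by
        calc d * (d * h * d) * d = (d * d) * h * (d * d) := by group
          _ = h := by rw [sd]; group
      rwa [e] at this
  · have hQn : (pCore 2 G).Normal := pCore_normal 2 G
    have hπ : Function.Surjective (QuotientGroup.mk' (pCore 2 G)) :=
      QuotientGroup.mk'_surjective (pCore 2 G)
    have hVall : ∀ x ∈ D, ∀ y ∈ D, Commute x y → x * y ∈ pCore 2 G := by
      intro x hx y hy hc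
      obtain ⟨g, hg⟩ := exists_conj_of_class hD hd hx
      have hy' : g⁻¹ * y * g⁻¹⁻¹ ∈ D := hconj g⁻¹ y hy
      have hc' : Commute d (g⁻¹ * y * g⁻¹⁻¹) := by
        have h := (Commute.conj_iff g⁻¹).2 hc
        rw [← hg] at h
        have e : g⁻¹ * (g * d * g⁻¹) * g⁻¹⁻¹ = d := by group
        rwa [e] at h
      have h1 := mul_mem_pCore_two_of_Vrel hT hconj hd hy' (hV' _ hy' hc')
      have h2 := hQn.conj_mem _ h1 g
      have e : g * (d * (g⁻¹ * y * g⁻¹⁻¹)) * g⁻¹ = x * y := by rw [← hg]; group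
      rwa [e] at h2
    have hHall : IsHall ((QuotientGroup.mk' (pCore 2 G)) '' D) := by
      refine ⟨?_, ?_, ?_⟩
      · rintro _ ⟨x, hx, rfl⟩; rw [← map_mul, sq hT hx, map_one]
      · rintro _ ⟨x, hx, rfl⟩ _ ⟨y, hy, rfl⟩
        rw [← map_mul, ← map_pow]
        by_cases hc : Commute x y
        · have h1 : (QuotientGroup.mk' (pCore 2 G)) (x * y) = 1 :=
            (QuotientGroup.eq_one_iff _).2 (hVall x hx y hy hc)
          rw [map_pow, h1, one_pow]
        · rw [cube_of_not_commute hT hx hy hc, map_one]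
      · rintro _ ⟨x, hx, rfl⟩ _ ⟨y, hy, rfl⟩
        exact ⟨x * y * x, conj_mem' hT hconj hx hy, by simp⟩
    have hconjπ : ∀ g, ∀ x ∈ (QuotientGroup.mk' (pCore 2 G)) '' D,
        g * x * g⁻¹ ∈ (QuotientGroup.mk' (pCore 2 G)) '' D := by
      intro g
      obtain ⟨g, rfl⟩ := hπ g
      rintro _ ⟨x, hx, rfl⟩
      exact ⟨g * x * g⁻¹, hconj g x hx, by simp⟩
    rw [eq_top_iff, ← hD.2.2, Subgroup.closure_le]
    intro e he
    have h1 : (QuotientGroup.mk' (pCore 2 G)) d * (QuotientGroup.mk' (pCore 2 G)) e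
        ∈ pCore 3 (G ⧸ pCore 2 G) :=
      mul_mem_pCore_three hHall hconjπ ⟨d, hd, rfl⟩ ⟨e, he, rfl⟩
    have h2 := Cfsg.Agent.Fus.pCore_le_sylow (P.mapSurjective hπ) h1
    obtain ⟨x, hx, hxe⟩ : ∃ x ∈ (P : Subgroup G), (QuotientGroup.mk' (pCore 2 G)) x
        = (QuotientGroup.mk' (pCore 2 G)) d * (QuotientGroup.mk' (pCore 2 G)) e := h2
    have h3 : x⁻¹ * (d * e) ∈ pCore 2 G := by
      rw [← QuotientGroup.eq_one_iff, ← QuotientGroup.mk'_apply, map_mul, map_inv, map_mul, hxe]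
      group
    have h4 : e = d * x * (x⁻¹ * (d * e)) := by
      calc e = (d * d) * e := by rw [sd, one_mul]
        _ = _ := by group
    show e ∈ Subgroup.zpowers d ⊔ (P : Subgroup G) ⊔ Cfsg.pCore 2 G
    rw [h4]
    refine mul_mem (le_sup_left (a := Subgroup.zpowers d ⊔ (P : Subgroup G)) (mul_mem ?_ ?_))
      (le_sup_right (a := Subgroup.zpowers d ⊔ (P : Subgroup G)) h3)
    · exact (le_sup_left : Subgroup.zpowers d ≤ Subgroup.zpowers d ⊔ (P : Subgroup G))
        (Subgroup.mem_zpowers d)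
    · exact (le_sup_right : (P : Subgroup G) ≤ Subgroup.zpowers d ⊔ (P : Subgroup G)) hx

end Cfsg.Agent.S5356
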