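import Cfsg.Statements.S5357
import Cfsg.Agent.Lib.Helper15.ThreeTr

set_option autoImplicit false
open scoped MatrixGroups
open Cfsg

namespace Cfsg.Agent.S5357


open Cfsg.Agent.Lib.Helper15 QuadraticMap Module

theorem sq_eq_one (x : ZMod 3) (hx : x ≠ 0) : x * x = 1 := by
  revert x; decide

variable {n : ℕ} (Q : QuadraticForm (ZMod 3) (Fin n → ZMod 3))

theorem braid (c : ZMod 3) (hc : c ≠ 0) (u v : Fin n → ZMod 3) (hu : Q u = c) (hv : Q v = c)
    (hu0 : Q u ≠ 0) (hv0 : Q v ≠ 0) (h : polar Q u v ≠ 0) :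
    act Q (refl Q v hv0) u = (-(c⁻¹ * polar Q u v)) • act Q (refl Q u hu0) v := by
  rw [act_refl, act_refl, hu, hv, polar_comm Q v u]
  have h1 := sq_eq_one (c⁻¹ * polar Q u v) (mul_ne_zero (inv_ne_zero hc) h)
  rw [smul_sub, smul_smul]
  have : -(c⁻¹ * polar Q u v) * (c⁻¹ * polar Q u v) = -1 := by rw [neg_mul, h1]
  rw [this, neg_smul, neg_smul, one_smul]
  abel

theorem exists_mid (hn : 5 ≤ n) (hQ : (polarBilin Q).Nondegenerate) (c : ZMod 3) (hc : c ≠ 0)
    (u v : Fin n → ZMod 3) (hu : Q u = c) (hv : Q v = c) (h : polar Q u v = 0) :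
    ∃ w, Q w = c ∧ polar Q u w ≠ 0 ∧ polar Q v w ≠ 0 := by
  have h2 : (2 : ZMod 3) ≠ 0 := by decide
  have h2c : 2 * c ≠ 0 := mul_ne_zero h2 hc
  have huu : polar Q u u = 2 * c := by rw [polar_self, hu]; simp
  have hvv : polar Q v v = 2 * c := by rw [polar_self, hv]; simp
  have hvu : polar Q v u = 0 := by rw [polar_comm]; exact h
  set W := pairPerp Q u v with hW
  have hdec : ∀ x, x - ((2 * c)⁻¹ * polar Q u x) • u - ((2 * c)⁻¹ * polar Q v x) • v ∈ W := by
    intro x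
    rw [hW, mem_pairPerp]
    simp only [polar_sub_right, polar_smul_right, huu, hvv, h, hvu, smul_eq_mul]
    constructor <;> field_simp <;> ring
  have hnd : ND (Q.comp W.subtype) := by
    intro w hw
    apply Subtype.ext
    apply hQ.1
    intro x
    show polar Q w x = 0
    have h1 := hw ⟨_, hdec x⟩
    rw [polar_comp_subtype] at h1
    have hwm := (mem_pairPerp Q u v w).1 w.2
    simp only [polar_sub_right, polar_smul_right] at h1
    rw [polar_comm Q w u, polar_comm Q w v, hwm.1, hwm.2] at h1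
    simpa using h1
  have hfr : 2 ≤ finrank (ZMod 3) W := by
    have h1 := LinearMap.finrank_range_add_finrank_ker ((polarBilin Q u).prod (polarBilin Q v))
    have h3 : finrank (ZMod 3) (LinearMap.range ((polarBilin Q u).prod (polarBilin Q v))) ≤ 2 := by
      have := Submodule.finrank_le (LinearMap.range ((polarBilin Q u).prod (polarBilin Q v)))
      rwa [finrank_prod, finrank_self] at this
    rw [finrank_fintype_fun_eq_card, Fintype.card_fin] at h1
    have h4 : finrank (ZMod 3) W = finrank (ZMod 3) (LinearMap.ker ((polarBilin Q u).prod (polarBilin Q v))) := rfl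
    omega
  obtain ⟨z, hz⟩ := exists_represent_nd (Q.comp W.subtype) hnd hfr (-c)
  have hz' : Q (z : Fin n → ZMod 3) = -c := hz
  have hzm := (mem_pairPerp Q u v z).1 z.2
  refine ⟨u + v + z, ?_, ?_, ?_⟩
  · rw [QuadraticMap.map_add Q, QuadraticMap.map_add Q, hu, hv, h, hz', polar_add_left, hzm.1, hzm.2]
    ring
  · rw [polar_add_right, polar_add_right, huu, h, hzm.1]
    simpa using h2c
  · rw [polar_add_right, polar_add_right, hvv, hvu, hzm.2]
    simpa using h2c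


/-- Let Q be a non-degenerate quadratic form on the n-dimensional coordinate space over the field with three elements, n ≥ 5, and c a non-zero scalar. In the subgroup of the isometry group of Q generated by the reflections in vectors v with Q(v) = c, these reflections form a single conjugacy class of 3-transpositions generating that subgroup. -/
theorem result (n : ℕ) (hn : 5 ≤ n) (Q : QuadraticForm (ZMod 3) (Fin n → ZMod 3)) (hQ : (QuadraticMap.polarBilin Q).Nondegenerate) (c : ZMod 3) (hc : c ≠ 0) : Cfsg.IsThreeTranspositionClass {g : ↥(Cfsg.reflectionSubgroup (⇑Q) c) | (g : ↥(Cfsg.isometryGroup (ZMod 3) (⇑Q))) ∈ Cfsg.reflectionsOfNorm (⇑Q) c} := by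
  have hform : ∀ g : Cfsg.isometryGroup (ZMod 3) ⇑Q, g ∈ Cfsg.reflectionsOfNorm (⇑Q) c ↔
      ∃ (v : Fin n → ZMod 3) (hv : Q v ≠ 0), Q v = c ∧ g = refl Q v hv := by
    intro g
    constructor
    · rintro ⟨v, hv, hg⟩
      exact ⟨v, by rw [hv]; exact hc, hv, Subtype.ext (Units.ext hg)⟩
    · rintro ⟨v, hv0, hv, rfl⟩
      exact ⟨v, hv, rfl⟩
  have hmemR : ∀ (v : Fin n → ZMod 3) (hv : Q v ≠ 0), Q v = c → refl Q v hv ∈ Cfsg.reflectionSubgroup (⇑Q) c :=
    fun v hv0 hv => Subgroup.subset_closure ((hform _).2 ⟨v, hv0, hv, rfl⟩)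
  -- conjugacy inside the reflection subgroup
  have hconj1 : ∀ (u v : Fin n → ZMod 3) (hu0 : Q u ≠ 0) (hv0 : Q v ≠ 0), Q u = c → Q v = c → polar Q u v ≠ 0 →
      ∃ h ∈ Cfsg.reflectionSubgroup (⇑Q) c, h * refl Q u hu0 * h⁻¹ = refl Q v hv0 := by
    intro u v hu0 hv0 hu hv hne
    refine ⟨refl Q u hu0 * refl Q v hv0, Subgroup.mul_mem _ (hmemR u hu0 hu) (hmemR v hv0 hv), ?_⟩
    have hb := braid Q c hc u v hu hv hu0 hv0 hne
    have hact : act Q (refl Q u hu0 * refl Q v hv0) u = (-(c⁻¹ * polar Q u v)) • v := by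
      rw [act_mul, hb, act_smul, ← act_mul, refl_mul_self, act_one]
    have ha : -(c⁻¹ * polar Q u v) ≠ 0 := neg_ne_zero.2 (mul_ne_zero (inv_ne_zero hc) hne)
    have h1 : Q (act Q (refl Q u hu0 * refl Q v hv0) u) ≠ 0 := by rw [Q_act]; exact hu0
    have h3 : Q ((-(c⁻¹ * polar Q u v)) • v) ≠ 0 := by rw [← hact]; exact h1
    rw [conj_refl Q _ u hu0 h1, refl_congr Q hact h1 h3, refl_smul Q v hv0 _ ha h3]
  have hconj : ∀ (u v : Fin n → ZMod 3) (hu0 : Q u ≠ 0) (hv0 : Q v ≠ 0), Q u = c → Q v = c →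
      ∃ h ∈ Cfsg.reflectionSubgroup (⇑Q) c, h * refl Q u hu0 * h⁻¹ = refl Q v hv0 := by
    intro u v hu0 hv0 hu hv
    by_cases hne : polar Q u v ≠ 0
    · exact hconj1 u v hu0 hv0 hu hv hne
    · push Not at hne
      obtain ⟨w, hw, hw1, hw2⟩ := exists_mid Q hn hQ c hc u v hu hv hne
      have hw0 : Q w ≠ 0 := by rw [hw]; exact hc
      obtain ⟨a, ha, ha'⟩ := hconj1 u w hu0 hw0 hu hw hw1
      obtain ⟨b, hb, hb'⟩ := hconj1 w v hw0 hv0 hw hv (by rw [polar_comm]; exact hw2)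
      refine ⟨b * a, Subgroup.mul_mem _ hb ha, ?_⟩
      rw [← hb', ← ha']
      group
  refine ⟨⟨?_, ?_⟩, ?_, ?_⟩
  · rintro ⟨d, hdR⟩ hd
    obtain ⟨v, hv0, hv, rfl⟩ := (hform d).1 hd
    rw [← Subgroup.orderOf_coe]
    exact orderOf_refl Q hQ v hv0
  · rintro ⟨d, hdR⟩ hd ⟨e, heR⟩ he
    obtain ⟨u, hu0, hu, rfl⟩ := (hform d).1 hd
    obtain ⟨v, hv0, hv, rfl⟩ := (hform e).1 he
    by_cases hne : polar Q u v = 0
    · left
      apply Subtype.ext
      exact refl_mul_refl_sq_of_perp Q u v hu0 hv0 hne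
    · right
      apply Subtype.ext
      exact refl_mul_refl_cube Q u v hu0 hv0 ⟨_, neg_ne_zero.2 (mul_ne_zero (inv_ne_zero hc) hne),
        braid Q c hc u v hu hv hu0 hv0 hne⟩
  · obtain ⟨v₀, hv₀⟩ := exists_represent_nd Q (nd_of_nondegenerate hQ)
      (by rw [finrank_fintype_fun_eq_card, Fintype.card_fin]; omega) c
    have hv₀0 : Q v₀ ≠ 0 := by rw [hv₀]; exact hc
    refine ⟨⟨refl Q v₀ hv₀0, hmemR v₀ hv₀0 hv₀⟩, (hform _).2 ⟨v₀, hv₀0, hv₀, rfl⟩, ?_⟩
    ext ⟨g, hgR⟩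
    show g ∈ Cfsg.reflectionsOfNorm (⇑Q) c ↔ IsConj _ _
    rw [hform, isConj_iff]
    constructor
    · rintro ⟨v, hv0, hv, rfl⟩
      obtain ⟨h, hh, hh'⟩ := hconj v₀ v hv₀0 hv0 hv₀ hv
      exact ⟨⟨h, hh⟩, Subtype.ext hh'⟩
    · rintro ⟨⟨h, hh⟩, hh'⟩
      have hh'' : h * refl Q v₀ hv₀0 * h⁻¹ = g := congrArg Subtype.val hh'
      refine ⟨act Q h v₀, by rw [Q_act]; exact hv₀0, by rw [Q_act]; exact hv₀, ?_⟩
      rw [← hh'']
      exact conj_refl Q h v₀ hv₀0 _
  · exact Subgroup.closure_closure_coe_preimage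

end Cfsg.Agent.S5357
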