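import Cfsg.Statements.S5358

set_option autoImplicit false
open Cfsg
open scoped MatrixGroups

namespace Cfsg.Agent.S5358

theorem polarVec_dot {n : ℕ} {F : Type*} [Field F] (Q : QuadraticForm F (Fin n → F)) (u x : Fin n → F) :
    Cfsg.polarVec (⇑Q) u ⬝ᵥ x = QuadraticMap.polar (⇑Q) u x := by
  have h := (QuadraticMap.polarBilin Q u).pi_apply_eq_sum_univ x
  rw [QuadraticMap.polarBilin_apply_apply] at h
  rw [h]
  unfold dotProduct Cfsg.polarVec
  apply Finset.sum_congr rfl
  intro i _
  rw [QuadraticMap.polarBilin_apply_apply, smul_eq_mul, mul_comm]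
  congr 2
  ext j
  simp [Pi.single_apply, eq_comm]

theorem commute_one_sub {R : Type*} [Ring R] (X Y : R) (h : Commute X Y) : Commute (1 - X) (1 - Y) :=
  (Commute.one_left (1 - Y)).sub_left ((Commute.one_right X).sub_right h)

theorem commute_one_sub_smul {F R : Type*} [Field F] [Ring R] [Algebra F R] {a : F} (ha : a ≠ 0) (A B : R) :
    Commute (1 - a • A) (1 - a • B) ↔ A * B = B * A := by
  constructor
  · intro h
    have h1 := commute_one_sub _ _ h
    rw [sub_sub_cancel, sub_sub_cancel] at h1
    have h2 := (h1.smul_left a⁻¹).smul_right a⁻¹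
    rw [smul_smul, smul_smul, inv_mul_cancel₀ ha, one_smul, one_smul] at h2
    exact h2.eq
  · intro h
    apply commute_one_sub
    exact (Commute.smul_left (Commute.smul_right h a) a)

/-- Let Q be a non-degenerate quadratic form on the n-dimensional coordinate space over the field with three elements and u, v vectors of the same non-zero norm Q(u) = Q(v) spanning different lines (v ≠ u and v ≠ −u). Then the reflection matrices of u and v commute if and only if u and v are orthogonal for the polar form of Q. -/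
theorem result (n : ℕ) (Q : QuadraticForm (ZMod 3) (Fin n → ZMod 3)) (hQ : (QuadraticMap.polarBilin Q).Nondegenerate) (u v : Fin n → ZMod 3) (hu : Q u ≠ 0) (huv : Q u = Q v) (h1 : v ≠ u) (h2 : v ≠ -u) : Commute (Cfsg.reflectionMatrix (⇑Q) u) (Cfsg.reflectionMatrix (⇑Q) v) ↔ QuadraticMap.polar (⇑Q) u v = 0 := by
  set β := QuadraticMap.polar (⇑Q) u v with hβ
  set a := (Q u)⁻¹ with ha
  have ha0 : a ≠ 0 := inv_ne_zero hu
  set pu := Cfsg.polarVec (⇑Q) u with hpu
  set pv := Cfsg.polarVec (⇑Q) v with hpv
  have hAB : Matrix.vecMulVec u pu * Matrix.vecMulVec v pv = β • Matrix.vecMulVec u pv := by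
    rw [Matrix.vecMulVec_mul_vecMulVec, polarVec_dot, Matrix.vecMulVec_smul]
  have hBA : Matrix.vecMulVec v pv * Matrix.vecMulVec u pu = β • Matrix.vecMulVec v pu := by
    rw [Matrix.vecMulVec_mul_vecMulVec, polarVec_dot, Matrix.vecMulVec_smul, QuadraticMap.polar_comm]
  have hRu : Cfsg.reflectionMatrix (⇑Q) u = 1 - a • Matrix.vecMulVec u pu := rfl
  have hRv : Cfsg.reflectionMatrix (⇑Q) v = 1 - a • Matrix.vecMulVec v pv := by
    unfold Cfsg.reflectionMatrix
    rw [← huv]
  have hcomm : Commute (Cfsg.reflectionMatrix (⇑Q) u) (Cfsg.reflectionMatrix (⇑Q) v) ↔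
      β • Matrix.vecMulVec u pv = β • Matrix.vecMulVec v pu := by
    rw [hRu, hRv, ← hAB, ← hBA]
    exact commute_one_sub_smul ha0 _ _
  rw [hcomm]
  constructor
  · intro h
    by_contra hβ0
    have h3 : Matrix.vecMulVec u pv = Matrix.vecMulVec v pu := smul_right_injective _ hβ0 h
    have h4 := congrArg (fun M => Matrix.mulVec M u) h3
    simp only [Matrix.vecMulVec_mulVec] at h4
    rw [hpv, hpu, polarVec_dot, polarVec_dot, QuadraticMap.polar_comm, ← hβ, QuadraticMap.polar_self] at h4
    simp only [op_smul_eq_smul] at h4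
    -- β • u = (2 • Q u) • v
    have h5 : v = (-(β * a)) • u := by
      have e : (2 • Q u) = - Q u := by
        have : (2 : ZMod 3) = -1 := by decide
        rw [nsmul_eq_mul]; push_cast; rw [this]; ring
      rw [e] at h4
      have : (-(β * a)) • u = (-a) • (β • u) := by rw [smul_smul]; congr 1; ring
      rw [this, h4, smul_smul]
      have : -a * -Q u = 1 := by
        rw [ha]; field_simp
      rw [this, one_smul]
    set c := -(β * a) with hc
    have h6 : Q v = (c * c) • Q u := by rw [h5]; exact QuadraticMap.map_smul Q c u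
    rw [← huv, smul_eq_mul] at h6
    have h7 : c * c = 1 := by
      have : (c * c - 1) * Q u = 0 := by rw [sub_mul, one_mul, ← h6, sub_self]
      rcases mul_eq_zero.mp this with h | h
      · exact sub_eq_zero.mp h
      · exact absurd h hu
    have h8 : ∀ c : ZMod 3, c * c = 1 → c = 1 ∨ c = -1 := by decide
    rcases h8 c h7 with h | h
    · apply h1; rw [h5, h, one_smul]
    · apply h2; rw [h5, h, neg_smul, one_smul]
  · intro h
    rw [h, zero_smul, zero_smul]

end Cfsg.Agent.S5358
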