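import Cfsg.Statements.S5359
import Cfsg.Agent.Lib.Helper15.OneClass

set_option autoImplicit false
open scoped MatrixGroups
open Cfsg

namespace Cfsg.Agent.S5359


theorem sq_eq_one (x : ZMod 3) (hx : x ≠ 0) : x * x = 1 := by
  revert x; decide

open Cfsg.Agent.Lib.Helper15


/-- Let Q be a non-degenerate quadratic form on the n-dimensional coordinate space over the field with three elements, n odd and at least 5, and c a non-zero scalar. Then the subgroup of the isometry group of Q generated by the reflections in vectors of norm c has index 2 in the isometry group. -/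
theorem result (n : ℕ) (hn : 5 ≤ n) (hodd : Odd n) (Q : QuadraticForm (ZMod 3) (Fin n → ZMod 3)) (hQ : (QuadraticMap.polarBilin Q).Nondegenerate) (c : ZMod 3) (hc : c ≠ 0) : (Cfsg.reflectionSubgroup (⇑Q) c).index = 2 := by
  have h2 : (2 : ZMod 3) ≠ 0 := by decide
  have hset : Cfsg.reflectionsOfNorm (⇑Q) c = classSet Q (sqs c) := by
    ext g
    constructor
    · rintro ⟨v, hv, hg⟩
      exact ⟨v, by rw [hv]; exact hc, by rw [hv], Subtype.ext (Units.ext hg)⟩
    · rintro ⟨v, hv0, hs, rfl⟩
      refine ⟨v, ?_, rfl⟩
      have h1 : IsSquare (c * Q v) := by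
        rw [← sqs_eq_one_iff, sqs_mul h2 hc hv0, hs, Int.units_mul_self]
      obtain ⟨r, hr⟩ := h1
      have hr0 : r ≠ 0 := by
        rintro rfl
        rw [mul_zero] at hr
        exact (mul_ne_zero hc hv0) hr
      rw [sq_eq_one r hr0] at hr
      have := sq_eq_one c hc
      calc Q v = (c * c) * Q v := by rw [this, one_mul]
        _ = c * (c * Q v) := by ring
        _ = c := by rw [hr, mul_one]
  unfold Cfsg.reflectionSubgroup
  rw [hset]
  exact index_closure_classSet Q h2 (by simp; omega) hQ (Or.inr (Or.inl (by simpa using hn))) _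

end Cfsg.Agent.S5359
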