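import Cfsg.Statements.S5363

set_option autoImplicit false
open Cfsg

namespace Cfsg.Agent.S5363

theorem sq_of_order_two {G : Type*} [Group G] {d : G} (h : orderOf d = 2) : d * d = 1 := by
  have := pow_orderOf_eq_one d
  rwa [h, pow_two] at this

/-- if `t` inverts `r` then `r^k t r^-k = r^(2k) t`. -/
theorem conj_pow_of_inverts {G : Type*} [Group G] {t r : G} (h : t * r * t⁻¹ = r⁻¹) (k : ℕ) :
    r ^ k * t * (r ^ k)⁻¹ = r ^ (2 * k) * t := by
  have h1 : t * (r ^ k)⁻¹ * t⁻¹ = r ^ k := by
    have : t * (r ^ k)⁻¹ * t⁻¹ = ((t * r * t⁻¹) ^ k)⁻¹ := by
      rw [conj_pow, mul_inv_rev, mul_inv_rev, inv_inv, mul_assoc]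
    rw [this, h, inv_pow, inv_inv]
  have h2 : t * (r ^ k)⁻¹ = r ^ k * t := by
    calc t * (r ^ k)⁻¹ = t * (r ^ k)⁻¹ * t⁻¹ * t := by group
      _ = r ^ k * t := by rw [h1]
  rw [mul_assoc, h2, ← mul_assoc, two_mul, pow_add]

/-- Let D be a conjugation-invariant set of involutions of a finite group G. Then every product of two members of D has odd order or order 2 if and only if, for every a in D and every b in D different from a and commuting with a, the members of D commuting with a b are exactly those commuting with both a and b. -/
theorem result {G : Type*} [Group G] [Finite G] {D : Set G} (hinv : ∀ d ∈ D, orderOf d = 2) (hconj : ∀ g : G, ∀ d ∈ D, g * d * g⁻¹ ∈ D) : (∀ a ∈ D, ∀ b ∈ D, Odd (orderOf (a * b)) ∨ orderOf (a * b) = 2) ↔ ∀ a ∈ D, ∀ b ∈ D, b ≠ a → Commute a b → {y : G | y ∈ D ∧ Commute (a * b) y} = {y : G | y ∈ D ∧ Commute a y} ∩ {y : G | y ∈ D ∧ Commute b y} := by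
  constructor
  · intro h a ha b hb hba hab
    have ha2 := sq_of_order_two (hinv a ha)
    have hb2 := sq_of_order_two (hinv b hb)
    have hainv : a⁻¹ = a := inv_eq_of_mul_eq_one_left ha2
    have hbinv : b⁻¹ = b := inv_eq_of_mul_eq_one_left hb2
    ext y
    constructor
    · rintro ⟨hy, hyc⟩
      have hy2 := sq_of_order_two (hinv y hy)
      have hyinv : y⁻¹ = y := inv_eq_of_mul_eq_one_left hy2
      have key : Commute a y := by
        rcases h y hy a ha with hodd | h2
        · -- order of y * b = 2 * n
          have hz2 : orderOf (a * b) = 2 := by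
            apply orderOf_eq_prime
            · rw [pow_two]
              calc a * b * (a * b) = a * (b * a) * b := by group
                _ = a * (a * b) * b := by rw [hab.eq]
                _ = (a * a) * (b * b) := by group
                _ = 1 := by rw [ha2, hb2, one_mul]
            · intro h1
              apply hba
              have : b = a⁻¹ := eq_inv_of_mul_eq_one_right h1
              rw [this, hainv]
          have hc : Commute (y * a) (a * b) := by
            apply Commute.mul_left hyc.symm
            exact (Commute.refl a).mul_right hab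
          have hcop : Nat.Coprime (orderOf (y * a)) (orderOf (a * b)) := by
            rw [hz2]
            exact Nat.Coprime.symm (Nat.coprime_two_left.mpr hodd)
          have hord := hc.orderOf_mul_eq_mul_orderOf_of_coprime hcop
          have hyb : y * a * (a * b) = y * b := by
            calc y * a * (a * b) = y * (a * a) * b := by group
              _ = y * b := by rw [ha2, mul_one]
          rw [hyb, hz2] at hord
          have hn1 : orderOf (y * a) = 1 := by
            rcases h y hy b hb with hodd' | h2'
            · rw [hord] at hodd'
              exact absurd hodd' (by simp)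
            · omega
          have hya : y * a = 1 := orderOf_eq_one_iff.mp hn1
          have : y = a := by
            have : y = a⁻¹ := eq_inv_of_mul_eq_one_left hya
            rw [this, hainv]
          rw [this]
        · have h3 : (y * a) * (y * a) = 1 := sq_of_order_two h2
          have : y * a = (y * a)⁻¹ := eq_inv_of_mul_eq_one_left h3
          rw [mul_inv_rev, hainv, hyinv] at this
          exact this.symm
      refine ⟨⟨hy, key⟩, hy, ?_⟩
      have hb' : b = a * (a * b) := by
        rw [← mul_assoc, ha2, one_mul]
      rw [hb']
      exact key.mul_left hyc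
    · rintro ⟨⟨hy, h1⟩, -, h2⟩
      exact ⟨hy, h1.mul_left h2⟩
  · intro h a ha b hb
    have ha2 := sq_of_order_two (hinv a ha)
    have hb2 := sq_of_order_two (hinv b hb)
    have hainv : a⁻¹ = a := inv_eq_of_mul_eq_one_left ha2
    have hbinv : b⁻¹ = b := inv_eq_of_mul_eq_one_left hb2
    rcases Nat.even_or_odd (orderOf (a * b)) with heven | hodd
    swap
    · exact Or.inl hodd
    right
    obtain ⟨m, hm⟩ := heven
    set r := a * b with hr
    have hrinv : r⁻¹ = b * a := by rw [hr, mul_inv_rev, hainv, hbinv]
    have hpos : 0 < orderOf r := orderOf_pos r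
    have hm0 : 0 < m := by omega
    set w := r ^ m with hw
    have hw2 : w * w = 1 := by
      rw [hw, ← pow_add, ← hm, pow_orderOf_eq_one]
    have hw1 : w ≠ 1 := by
      intro h1
      have := orderOf_le_of_pow_eq_one hm0 h1
      omega
    have hwinv : w⁻¹ = w := inv_eq_of_mul_eq_one_left hw2
    have har : a * r * a⁻¹ = r⁻¹ := by
      rw [hrinv, hr, hainv]
      calc a * (a * b) * a = (a * a) * b * a := by group
        _ = b * a := by rw [ha2, one_mul]
    have hbr : b * r * b⁻¹ = r⁻¹ := by
      rw [hrinv, hr, hbinv]
      calc b * (a * b) * b = b * a * (b * b) := by group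
        _ = b * a := by rw [hb2, mul_one]
    have haw : Commute a w := by
      have : a * w * a⁻¹ = w := by
        rw [hw, ← conj_pow, har, inv_pow, ← hw, hwinv]
      show a * w = w * a
      calc a * w = a * w * a⁻¹ * a := by group
        _ = w * a := by rw [this]
    have hbw : Commute b w := by
      have : b * w * b⁻¹ = w := by
        rw [hw, ← conj_pow, hbr, inv_pow, ← hw, hwinv]
      show b * w = w * b
      calc b * w = b * w * b⁻¹ * b := by group
        _ = w * b := by rw [this]
    have hwaD : w * a ∈ D := by
      rcases Nat.even_or_odd' m with ⟨k, hk | hk⟩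
      · have := conj_pow_of_inverts har k
        rw [← hk, ← hw] at this
        rw [← this]
        exact hconj _ a ha
      · set x := a * b * a⁻¹ with hx
        have hxD : x ∈ D := hconj a b hb
        have hxr : x * r * x⁻¹ = r⁻¹ := by
          rw [hrinv, hx, hr, hainv]
          simp only [mul_inv_rev, hainv, hbinv]
          calc a * b * a * (a * b) * (a * (b * a)) = a * b * (a * a) * b * a * b * a := by group
            _ = a * (b * b) * a * b * a := by rw [ha2]; group
            _ = (a * a) * b * a := by rw [hb2]; group
            _ = b * a := by rw [ha2, one_mul]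
        have := conj_pow_of_inverts hxr k
        have hwa : w * a = r ^ (2 * k) * x := by
          rw [hw, hk, pow_succ, hx, hr, hainv]
          group
        rw [hwa, ← this]
        exact hconj _ x hxD
    have hne : w * a ≠ a := by
      intro h1
      apply hw1
      simpa using h1
    have hcomm : Commute a (w * a) := haw.mul_right (Commute.refl a)
    have hset := h a ha (w * a) hwaD hne hcomm
    have hprod : a * (w * a) = w := by
      rw [← mul_assoc, haw.eq, mul_assoc, ha2, mul_one]
    rw [hprod] at hset
    have hbmem : b ∈ {y : G | y ∈ D ∧ Commute w y} := ⟨hb, hbw.symm⟩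
    rw [hset] at hbmem
    have hab : Commute a b := hbmem.1.2
    have hr2 : r ^ 2 = 1 := by
      rw [pow_two, hr]
      calc a * b * (a * b) = a * (b * a) * b := by group
        _ = a * (a * b) * b := by rw [hab.eq]
        _ = (a * a) * (b * b) := by group
        _ = 1 := by rw [ha2, hb2, one_mul]
    have hdvd : orderOf r ∣ 2 := orderOf_dvd_of_pow_eq_one hr2
    have := Nat.le_of_dvd (by norm_num) hdvd
    omega

end Cfsg.Agent.S5363
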