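import Cfsg.Statements.S5364

set_option autoImplicit false
open Cfsg

namespace Cfsg.Agent.S5364

theorem sq_of_order_two {G : Type*} [Group G] {d : G} (h : orderOf d = 2) : d * d = 1 := by
  have := pow_orderOf_eq_one d
  rwa [h, pow_two] at this

theorem mem_zpowers_invol {G : Type*} [Group G] {t x : G} (ht : t * t = 1) (hx : x ∈ Subgroup.zpowers t) :
    x = 1 ∨ x = t := by
  obtain ⟨k, rfl⟩ := Subgroup.mem_zpowers_iff.mp hx
  have ht2 : t ^ (2 : ℤ) = 1 := by
    rw [zpow_two]; exact ht
  rcases Int.even_or_odd' k with ⟨m, hm | hm⟩
  · left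
    rw [hm, zpow_mul, ht2, one_zpow]
  · right
    rw [hm, zpow_add, zpow_mul, ht2, one_zpow, one_mul, zpow_one]

/-- Let D be a conjugation-invariant set of involutions of a finite group G and t an involution in the centre of G such that d t does not lie in D for any d in D. If the images of the members of D in G modulo the subgroup generated by t satisfy the 3-transposition order conditions (each has order 2 and any two have product of order at most 3), then so do the members of D. -/
theorem result {G : Type*} [Group G] [Finite G] {D : Set G} (hinv : ∀ d ∈ D, orderOf d = 2) (hconj : ∀ g : G, ∀ d ∈ D, g * d * g⁻¹ ∈ D) (t : G) (ht : orderOf t = 2) (htZ : t ∈ Subgroup.center G) (hDt : ∀ d ∈ D, d * t ∉ D) [(Subgroup.zpowers t).Normal] (himg : Cfsg.IsThreeTranspositionSet ((QuotientGroup.mk : G → G ⧸ Subgroup.zpowers t) '' D)) : Cfsg.IsThreeTranspositionSet D := by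
  refine ⟨hinv, ?_⟩
  intro d hd e he
  have hd2 := sq_of_order_two (hinv d hd)
  have he2 := sq_of_order_two (hinv e he)
  have ht2 := sq_of_order_two ht
  have hdinv : d⁻¹ = d := inv_eq_of_mul_eq_one_left hd2
  have heinv : e⁻¹ = e := inv_eq_of_mul_eq_one_left he2
  rcases himg.2 _ ⟨d, hd, rfl⟩ _ ⟨e, he, rfl⟩ with h | h
  · left
    have h1 : (d * e) ^ 2 ∈ Subgroup.zpowers t := by
      rw [← QuotientGroup.eq_one_iff]
      simpa using h
    rcases mem_zpowers_invol ht2 h1 with h2 | h2
    · exact h2
    · exfalso
      apply hDt d hd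
      have : d * t = e * d * e⁻¹ := by
        rw [← h2, heinv, pow_two]
        calc d * (d * e * (d * e)) = (d * d) * e * d * e := by group
          _ = e * d * e := by rw [hd2, one_mul]
      rw [this]
      exact hconj e d hd
  · right
    have h1 : (d * e) ^ 3 ∈ Subgroup.zpowers t := by
      rw [← QuotientGroup.eq_one_iff]
      simpa using h
    rcases mem_zpowers_invol ht2 h1 with h2 | h2
    · exact h2
    · exfalso
      apply hDt d hd
      have : d * t = (e * d) * e * (e * d)⁻¹ := by
        rw [← h2, mul_inv_rev, heinv, hdinv, pow_succ, pow_two]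
        calc d * (d * e * (d * e) * (d * e)) = (d * d) * e * d * e * d * e := by group
          _ = e * d * e * (d * e) := by rw [hd2, one_mul]; group
      rw [this]
      exact hconj (e * d) e he

end Cfsg.Agent.S5364
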