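import Cfsg.Statements.S5393
import Cfsg.Agent.Lib.Helper28.GolayIrr

set_option autoImplicit false
open Cfsg

namespace Cfsg.Agent.S5393

/-- The length-24 code built from the squares modulo 23 contains the all-ones word, and the code modulo the all-ones word is an irreducible module over the field with two elements for the code's automorphism group: a subspace of the code that contains the all-ones word and is invariant under every coordinate permutation preserving the code is either the span of the all-ones word or the whole code. -/
theorem result : (fun _ : Cfsg.GolayPt => (1 : ZMod 2)) ∈ Cfsg.golayCode ∧ ∀ W : Submodule (ZMod 2) (Cfsg.GolayPt → ZMod 2), (fun _ => (1 : ZMod 2)) ∈ W → W ≤ Cfsg.golayCode → (∀ σ ∈ Cfsg.M24, ∀ w ∈ W, (fun p => w (σ.symm p)) ∈ W) → W = Submodule.span (ZMod 2) {fun _ => (1 : ZMod 2)} ∨ W = Cfsg.golayCode := by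
  open Cfsg.Agent.Lib.Helper28 in
  open scoped Pointwise in
  have hone : (fun _ : Cfsg.GolayPt => (1 : ZMod 2)) = wordOf Finset.univ := by
    rw [wordOf_univ]; rfl
  refine ⟨?_, ?_⟩
  · rw [hone, wordOf_mem_iff, mk_univ]; exact isCode_full
  intro W h1 hW hinv
  by_cases hcase : ∃ s : Finset GolayPt, wordOf s ∈ W ∧ s ≠ ∅ ∧ s ≠ Finset.univ
  · right
    apply le_antisymm hW
    have key := golay_irreducible {s | wordOf s ∈ W}
      (fun s hs t ht => by
        show wordOf (symmDiff s t) ∈ W
        rw [wordOf_symmDiff]; exact W.add_mem hs ht)
      (by show wordOf Finset.univ ∈ W; rw [← hone]; exact h1)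
      (fun σ hσ s hs => by
        show wordOf (σ • s) ∈ W
        have : wordOf (σ • s) = fun p => wordOf s (σ.symm p) := by
          funext p
          have h : p ∈ σ • s ↔ σ.symm p ∈ s := by
            have := mem_smul_finset_iff σ s (σ.symm p)
            rwa [Equiv.apply_symm_apply] at this
          simp only [wordOf, h]
        rw [this]
        exact hinv σ hσ _ hs)
      (fun s hs => (wordOf_mem_iff s).1 (hW hs))
      (by
        obtain ⟨s, hs, h⟩ := hcase
        exact ⟨s, hs, h⟩)
    intro w hw
    have := key (support₂ w) ((mem_golayCode_iff w).1 hw)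
    have h2 : wordOf (support₂ w) ∈ W := this
    rwa [wordOf_support₂] at h2
  · left
    push Not at hcase
    apply le_antisymm
    · intro w hw
      have h2 := hcase (support₂ w) (by rw [wordOf_support₂]; exact hw)
      by_cases h0 : support₂ w = ∅
      · have : w = 0 := by rw [← wordOf_support₂ w, h0, wordOf_empty]
        rw [this]; exact Submodule.zero_mem _
      · have : w = fun _ => (1 : ZMod 2) := by rw [← wordOf_support₂ w, h2 (Finset.nonempty_iff_ne_empty.2 h0), hone]
        rw [this]; exact Submodule.subset_span rfl
    · rw [Submodule.span_le]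
      intro x hx
      rw [Set.mem_singleton_iff.1 hx]; exact h1

end Cfsg.Agent.S5393
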