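import Cfsg.Statements.S5394
import Cfsg.Agent.Lib.Helper28.M24Cls2

set_option autoImplicit false
open Cfsg

namespace Cfsg.Agent.S5394

/-- The automorphism group of the length-24 code built from the squares modulo 23 has exactly two conjugacy classes of involutions: an involution either fixes exactly the eight points of an octad or has no fixed points, both kinds occur, and any two involutions of the same kind are conjugate in the group. -/
theorem result : (∀ g ∈ Cfsg.M24, orderOf g = 2 → (Finset.univ.filter fun p => g p = p) ∈ Cfsg.octads ∨ ∀ p, g p ≠ p) ∧ (∃ g ∈ Cfsg.M24, orderOf g = 2 ∧ (Finset.univ.filter fun p => g p = p) ∈ Cfsg.octads) ∧ (∃ g ∈ Cfsg.M24, orderOf g = 2 ∧ ∀ p, g p ≠ p) ∧ ∀ g ∈ Cfsg.M24, ∀ h ∈ Cfsg.M24, orderOf g = 2 → orderOf h = 2 → ((∀ p, g p ≠ p) ↔ (∀ p, h p ≠ p)) → ∃ k ∈ Cfsg.M24, k * g * k⁻¹ = h := by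
  open Cfsg.Agent.Lib.Helper28 in
  refine ⟨?_, ?_, ?_, ?_⟩
  · intro g hg h2
    rcases invol_cases hg h2 with ⟨_, _, _, h⟩ | ⟨_, _, _, h⟩
    · exact Or.inl h
    · exact Or.inr (fixSet_eq_empty_iff.1 h)
  · refine ⟨permOf r2A, permOf_mem_M24 inM24_r2A, orderOf_r2A, ?_⟩
    have : fixSet (permOf r2A) ∈ octads := by
      rw [fixSet_r2A]; exact un_mem_octads (by decide +kernel)
    exact this
  · exact ⟨permOf r2B, permOf_mem_M24 inM24_r2B, orderOf_r2B, fixSet_eq_empty_iff.1 fixSet_r2B⟩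
  · intro g hg h hh hg2 hh2 hiff
    rw [← fixSet_eq_empty_iff, ← fixSet_eq_empty_iff] at hiff
    have hne : ∀ s : Finset GolayPt, s ∈ octads → s ≠ ∅ := by
      intro s hs e
      have := hs.2
      rw [e] at this
      simp at this
    rcases invol_cases hg hg2 with ⟨k1, hk1, e1, f1⟩ | ⟨k1, hk1, e1, f1⟩ <;>
    rcases invol_cases hh hh2 with ⟨k2, hk2, e2, f2⟩ | ⟨k2, hk2, e2, f2⟩
    · exact ⟨k2⁻¹ * k1, M24.mul_mem (M24.inv_mem hk2) hk1, conj_of_conj_conj e1 e2⟩
    · exact absurd (hiff.2 f2) (hne _ f1)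
    · exact absurd (hiff.1 f1) (hne _ f2)
    · exact ⟨k2⁻¹ * k1, M24.mul_mem (M24.inv_mem hk2) hk1, conj_of_conj_conj e1 e2⟩

end Cfsg.Agent.S5394
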