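import Cfsg.Statements.S5395
import Cfsg.Agent.Lib.Helper27.Extra

set_option autoImplicit false

open Cfsg

namespace Cfsg.Agent.S5395

theorem result {E : Type*} [Group E] [Finite E] (hE : Cfsg.IsExtraspecial 2 E) (φ : E ≃* E) (hφ : ∀ x : E, φ x * x⁻¹ ∈ Subgroup.center E) : ∃ g : E, ∀ x : E, φ x = g * x * g⁻¹ := by
  exact Cfsg.Agent.Lib.Helper27.Extra.inner_of_central hE φ.toMonoidHom hφ

end Cfsg.Agent.S5395
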