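import Cfsg.Statements.S5396
import Cfsg.Agent.Tr.ES7

set_option autoImplicit false
open Cfsg

namespace Cfsg.Agent.S5396

open Cfsg.Agent.Tr.E2

theorem sSup_eq {E : Type} [Group E] {r : ℕ} (h1 : HasEA E r) (h2 : Cfsg.PRankLE 2 r E) :
    sSup {k : ℕ | ∃ A : Subgroup E, Cfsg.IsElementaryAbelian 2 A ∧ Nat.card A = 2 ^ k} = r := by
  apply IsGreatest.csSup_eq
  constructor
  · obtain ⟨A, hA, hA2, hAc⟩ := h1
    exact ⟨A, ⟨hA, hA2⟩, hAc⟩
  · rintro k ⟨A, ⟨hA, hA2⟩, hAc⟩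
    have := h2 A hA hA2
    rw [hAc] at this
    exact (Nat.pow_le_pow_iff_right (by norm_num)).1 this

theorem card_ne_two {n : ℕ} (hn : 1 ≤ n) : 2 ^ (2 * n + 1) ≠ 2 := by
  intro h
  have h1 : 2 ^ (2 * n + 1) = 2 ^ 1 := by rw [h]; norm_num
  have := Nat.pow_right_injective (le_refl 2) h1
  omega

/-- For every n ≥ 1 there exist finite extraspecial 2-groups of order 2^(2n+1) whose 2-rank (the largest rank of an elementary abelian subgroup) is n, and ones whose 2-rank is n + 1 (so for each such order there are two non-isomorphic extraspecial 2-groups, told apart by their 2-rank). -/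
theorem result (n : ℕ) (hn : 1 ≤ n) : ∀ r ∈ ({n, n + 1} : Set ℕ), ∃ (E : Type) (_ : Group E) (_ : Finite E), Cfsg.IsExtraspecial 2 E ∧ Nat.card E = 2 ^ (2 * n + 1) ∧ sSup {k : ℕ | ∃ A : Subgroup E, Cfsg.IsElementaryAbelian 2 A ∧ Nat.card A = 2 ^ k} = r := by
  intro r hr
  rcases hr with rfl | hr
  · obtain ⟨μ, rfl⟩ : ∃ μ, r = μ + 1 := ⟨r - 1, by omega⟩
    obtain ⟨E, _, _, z, hE, hc, hk⟩ := exists_minus μ
    have hX : Cfsg.IsExtraspecial 2 E := hE.isExtraspecial (by rw [hc]; exact card_ne_two hn)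
    refine ⟨E, inferInstance, inferInstance, hX, hc, ?_⟩
    exact sSup_eq ((ea_aux _ E z hE le_rfl (μ + 1) hc).2 hk) (rank_minus hX hn hc hk).1
  · rw [Set.mem_singleton_iff] at hr
    subst hr
    obtain ⟨E, _, _, z, hE, hc, hk⟩ := exists_plus n
    have hX : Cfsg.IsExtraspecial 2 E := hE.isExtraspecial (by rw [hc]; exact card_ne_two hn)
    refine ⟨E, inferInstance, inferInstance, hX, hc, ?_⟩
    exact sSup_eq ((ea_aux _ E z hE le_rfl n hc).1 hk) (rank_upper hX hc)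

end Cfsg.Agent.S5396
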