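import Cfsg.Statements.S5422
import Cfsg.Agent.Lib.Helper27.XS3
import Cfsg.Agent.Lib.Helper27.Basic
import Cfsg.Agent.S5421

set_option autoImplicit false

open Cfsg Subgroup
open Cfsg.Agent.Lib.Helper27

namespace Cfsg.Agent.S5422

theorem result {G : Type*} [Group G] [Finite G] (Q : Subgroup G) (hL1 : Cfsg.IsExtraspecial 2 ↥Q) (hL2 : Subgroup.centralizer (Q : Set G) = ((Subgroup.center ↥Q).map Q.subtype)) (hL3 : Subgroup.centralizer (((Subgroup.center ↥Q).map Q.subtype) : Set G) ≤ Subgroup.normalizer (Q : Set G)) (w : ℕ) (hw : 2 ≤ w) (hcard : Nat.card ↥Q = 2 ^ (2 * w + 1)) (g : G) (hg : g ∉ Subgroup.normalizer (((Subgroup.center ↥Q).map Q.subtype) : Set G)) (hZg : (((Subgroup.center ↥Q).map Q.subtype)).map (MulAut.conj g).toMonoidHom ≤ Q) : ((Subgroup.center ↥Q).map Q.subtype) ≤ (Q).map (MulAut.conj g).toMonoidHom ∧ (Subgroup.centralizer ((((Subgroup.center ↥Q).map Q.subtype) ⊔ (((Subgroup.center ↥Q).map Q.subtype)).map (MulAut.conj g).toMonoidHom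 : Subgroup G) : Set G)).relIndex (Subgroup.normalizer ((((Subgroup.center ↥Q).map Q.subtype) ⊔ (((Subgroup.center ↥Q).map Q.subtype)).map (MulAut.conj g).toMonoidHom : Subgroup G) : Set G)) = 6 ∧ Cfsg.IsLargeExtraspecial Q := by
  have hp2 : Fact (Nat.Prime 2) := ⟨Nat.prime_two⟩
  obtain ⟨⟨z, hzZ⟩, hw1, -⟩ :=
    (Nat.card_eq_two_iff' (1 : ↥((Subgroup.center ↥Q).map Q.subtype))).1 (XS.card_Z hL1)
  have hz1 : z ≠ 1 := fun h => hw1 (Subtype.ext h)
  have S := XS.Setup.of_hyp hL1 hL2 hL3 hzZ hz1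
  obtain ⟨t, htg⟩ : ∃ t, t = g * z * g⁻¹ := ⟨_, rfl⟩
  have ht : t ∈ Q := hZg ⟨z, hzZ, by rw [htg]; rfl⟩
  have htz : t ≠ z := by
    intro h
    apply hg
    apply XS.mem_normalizer_of_conj_mem
    intro x hx
    rcases S.mem_Z.1 hx with rfl | rfl
    · rw [mul_one, mul_inv_cancel]; exact Subgroup.one_mem _
    · rw [← htg, h]; exact hzZ
  have ht1 : t ≠ 1 := htg ▸ XS.Setup.conj_ne_one hz1
  have htt : t * t = 1 := by
    rw [htg]
    calc g * z * g⁻¹ * (g * z * g⁻¹) = g * (z * z) * g⁻¹ := by group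
      _ = 1 := by rw [S.zz]; group
  have htZ : t ∉ (Subgroup.center ↥Q).map Q.subtype := fun h => (S.mem_Z.1 h).elim ht1 htz
  have hzQt : z ∈ Q.map (MulAut.conj g).toMonoidHom :=
    Cfsg.Agent.H17.mem_map_conj_iff.2 (S.z_mem_conj (htg ▸ ht) (htg ▸ htz))
  have part1 : ((Subgroup.center ↥Q).map Q.subtype) ≤ (Q).map (MulAut.conj g).toMonoidHom := by
    intro x hx
    rcases S.mem_Z.1 hx with rfl | rfl
    · exact Subgroup.one_mem _
    · exact hzQt
  refine ⟨part1, ?_, ?_⟩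
  · obtain ⟨q₀, hq₀, hq₀t⟩ := XS.exists_conj_mul S.ex S.zZ S.z1 ht htZ
    obtain ⟨n, hn1, hn2⟩ := S.exists_three htg ht htz
    have hV : ∀ x, x ∈ (((Subgroup.center ↥Q).map Q.subtype) ⊔
        (((Subgroup.center ↥Q).map Q.subtype)).map (MulAut.conj g).toMonoidHom : Subgroup G) ↔
        x = 1 ∨ x = z ∨ x = t ∨ x = z * t := by
      intro x
      rw [← XS.mem_four (zz := S.zz) (tt := htt) (tz := S.zc ht)]
      constructor
      · intro hx
        refine (sup_le ?_ ?_ : _ ≤ XS.four z t S.zz htt (S.zc ht)) hx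
        · intro y hy
          rw [XS.mem_four]
          rcases S.mem_Z.1 hy with rfl | rfl
          · exact Or.inl rfl
          · exact Or.inr (Or.inl rfl)
        · rintro _ ⟨y, hy, rfl⟩
          rw [XS.mem_four]
          rcases S.mem_Z.1 hy with rfl | rfl
          · left; simp
          · right; right; left; rw [htg]; rfl
      · intro hx
        have h1 : z ∈ (((Subgroup.center ↥Q).map Q.subtype) ⊔
          (((Subgroup.center ↥Q).map Q.subtype)).map (MulAut.conj g).toMonoidHom : Subgroup G) :=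
          Subgroup.mem_sup_left hzZ
        have h2 : t ∈ (((Subgroup.center ↥Q).map Q.subtype) ⊔
          (((Subgroup.center ↥Q).map Q.subtype)).map (MulAut.conj g).toMonoidHom : Subgroup G) :=
          Subgroup.mem_sup_right ⟨z, hzZ, by rw [htg]; rfl⟩
        rcases XS.mem_four.1 hx with rfl | rfl | rfl | rfl
        · exact Subgroup.one_mem _
        · exact h1
        · exact h2
        · exact Subgroup.mul_mem _ h1 h2
    refine XS.relIndex_six hV hz1 ht1 htz.symm S.zz (a := q₀) (n := n) ?_ hq₀t hn1 hn2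
    rw [S.zc hq₀]; group
  · refine Cfsg.Agent.S5421.result Q hL1 hL2 hL3 t ht htZ
      (orderOf_eq_prime (by rw [pow_two]; exact htt) ht1) ?_
    obtain ⟨C, hC⟩ : ∃ C : Subgroup G, C = Subgroup.centralizer ({t} : Set G) := ⟨_, rfl⟩
    rw [← hC]
    have memC : ∀ x, x ∈ C ↔ x * t = t * x := by
      intro x; rw [hC]; exact Subgroup.mem_centralizer_singleton_iff
    obtain ⟨Qt, hQt⟩ : ∃ Qt : Subgroup G, Qt = Q.map (MulAut.conj g).toMonoidHom := ⟨_, rfl⟩
    have memQt : ∀ x, x ∈ Qt ↔ g⁻¹ * x * g ∈ Q := by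
      intro x; rw [hQt]; exact Cfsg.Agent.H17.mem_map_conj_iff
    have hQtp : IsPGroup 2 ↥Qt := hQt ▸ S.ex.1.1.map _
    have hn : (Qt.subgroupOf C).Normal := by
      constructor
      intro y hy c
      rw [Subgroup.mem_subgroupOf] at hy ⊢
      have hc := (memC _).1 c.2
      have h1 : (g⁻¹ * c * g) * z = z * (g⁻¹ * c * g) := by
        calc (g⁻¹ * c * g) * z = g⁻¹ * (c * (g * z * g⁻¹)) * g := by group
          _ = g⁻¹ * ((g * z * g⁻¹) * c) * g := by rw [← htg, hc]
          _ = _ := by group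
      have h2 := (Subgroup.mem_normalizer_iff.1 (S.norm _ h1) _).1 ((memQt _).1 hy)
      rw [memQt]
      have : g⁻¹ * ((c * y * c⁻¹ : ↥C) : G) * g
          = g⁻¹ * c * g * (g⁻¹ * y * g) * (g⁻¹ * c * g)⁻¹ := by
        simp only [Subgroup.coe_mul, Subgroup.coe_inv]; group
      rw [this]; exact h2
    have hle := le_pCore hn (hQtp.comap_subtype (K := C))
    intro x hx
    have hxQt : x ∈ Qt := hQt ▸ part1 hx
    have hxC : x ∈ C := by
      rw [memC]
      rcases S.mem_Z.1 hx with rfl | rfl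
      · simp
      · exact (S.zc ht).symm
    exact ⟨⟨x, hxC⟩, hle (Subgroup.mem_subgroupOf.2 hxQt), rfl⟩

end Cfsg.Agent.S5422
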