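import Cfsg.Statements.S5427
import Cfsg.Agent.Lib.Helper27.XS4
import Cfsg.Agent.S5421
import Cfsg.Agent.S5422

set_option autoImplicit false

open Cfsg Subgroup
open Cfsg.Agent.Lib.Helper27

namespace Cfsg.Agent.S5427

theorem result {G : Type*} [Group G] [Finite G] (z : G) (hz : orderOf z = 2) (Q : Subgroup G) (hQC : Q ≤ Subgroup.centralizer ({z} : Set G)) (hF : (Cfsg.generalizedFittingSubgroup ↥(Subgroup.centralizer ({z} : Set G))).map (Subgroup.centralizer ({z} : Set G)).subtype = Q) (hQ : Cfsg.IsExtraspecial 2 ↥Q) (w : ℕ) (hw : 2 ≤ w) (hcard : Nat.card ↥Q = 2 ^ (2 * w + 1)) (K U : Subgroup G) (hU : U = Subgroup.closure {x : G | ∃ k ∈ K, x = k * z * k⁻¹}) (hUab : IsMulCommutative ↥U) (hgen : Subgroup.closure {x : G | ∃ c ∈ Subgroup.centralizer ({z} : Set G), ∃ u ∈ U, x = c * u * c⁻¹} = Subgroup.centralizer ({z} : Set G)) (h3 : (∃ k ∈ K, k * z * k⁻¹ ∈ Q ∧ k * z * k⁻¹ ≠ z) ∨ ∃ u ∈ U ⊓ Q, u ∉ Subgroup.zpowers z ∧ (∃ hz' : z ∈ Subgroup.centralizer ({u}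 : Set G), (⟨z, hz'⟩ : ↥(Subgroup.centralizer ({u} : Set G))) ∈ Cfsg.pCore 2 ↥(Subgroup.centralizer ({u} : Set G)))) : IsSimpleGroup G ∧ Cfsg.IsLargeExtraspecial Q := by
  have hp2 : Fact (Nat.Prime 2) := ⟨Nat.prime_two⟩
  have S : XS.Setup Q z := XS.Setup.of_fstar hz hF hQ
  have hlarge : Cfsg.IsLargeExtraspecial Q := by
    rcases h3 with ⟨k, -, hkQ, hkz⟩ | ⟨u, hu, huz, hz', hzO⟩
    · refine (Cfsg.Agent.S5422.result Q hQ S.hL2 S.hL3 w hw hcard k ?_ ?_).2.2
      · intro hk
        have h1 := (Subgroup.mem_normalizer_iff.1 hk z).1 S.zZ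
        rcases S.mem_Z.1 h1 with h | h
        · exact XS.Setup.conj_ne_one S.z1 h
        · exact hkz h
      · rintro _ ⟨y, hy, rfl⟩
        rcases S.mem_Z.1 hy with rfl | rfl
        · simp
        · exact hkQ
    · have huu : ∀ x ∈ U, x * x = 1 := by
        intro x hx
        rw [hU] at hx
        induction hx using Subgroup.closure_induction with
        | mem a ha =>
          obtain ⟨k, -, rfl⟩ := ha
          calc k * z * k⁻¹ * (k * z * k⁻¹) = k * (z * z) * k⁻¹ := by group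
            _ = 1 := by rw [S.zz]; group
        | one => simp
        | mul a b ha hb iha ihb =>
          have hab : a * b = b * a :=
            congrArg Subtype.val (mul_comm' (⟨a, hU ▸ ha⟩ : ↥U) ⟨b, hU ▸ hb⟩)
          calc a * b * (a * b) = a * (b * a) * b := by group
            _ = a * (a * b) * b := by rw [hab]
            _ = (a * a) * (b * b) := by group
            _ = 1 := by rw [iha, ihb, one_mul]
        | inv a _ iha =>
          have : a⁻¹ * a⁻¹ = (a * a)⁻¹ := by group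
          rw [this, iha, inv_one]
      have hu1 : u ≠ 1 := fun h => huz (h ▸ Subgroup.one_mem _)
      refine Cfsg.Agent.S5421.result Q hQ S.hL2 S.hL3 u hu.2 ?_
        (orderOf_eq_prime (by rw [pow_two]; exact huu u hu.1) hu1) ?_
      · intro h
        rcases S.mem_Z.1 h with h | h
        · exact hu1 h
        · exact huz (h ▸ Subgroup.mem_zpowers z)
      · intro x hx
        rcases S.mem_Z.1 hx with rfl | rfl
        · exact Subgroup.one_mem _
        · exact ⟨⟨x, hz'⟩, hzO, rfl⟩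
  refine ⟨?_, hlarge⟩
  refine { exists_pair_ne := ⟨z, 1, S.z1⟩, eq_bot_or_eq_top_of_normal := ?_ }
  intro N hN
  by_cases hN1 : N = ⊥
  · exact Or.inl hN1
  right
  obtain ⟨n, hn, hn1, hnz⟩ := S.exists_fixed_of_large hlarge.2.2.2 hN hN1
  have hzN : z ∈ N := S.z_mem_of_normal hN hn hn1 hnz
  have hUN : U ≤ N := by
    rw [hU, Subgroup.closure_le]
    rintro _ ⟨k, -, rfl⟩
    exact hN.conj_mem z hzN k
  have hCN : Subgroup.centralizer ({z} : Set G) ≤ N := by
    rw [← hgen, Subgroup.closure_le]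
    rintro _ ⟨c, -, u, hu, rfl⟩
    exact hN.conj_mem u (hUN hu) c
  exact S.eq_top_of_centralizer_le hN
    (fun x hx => hCN (Subgroup.mem_centralizer_singleton_iff.2 hx))

end Cfsg.Agent.S5427
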