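import Cfsg.Statements.S5428
import Cfsg.Agent.Lib.Helper27.XS8
import Cfsg.Agent.Lib.Helper2.SimpleSmallIndex

set_option autoImplicit false

open Cfsg Subgroup
open scoped commutatorElement
open Cfsg.Agent.Lib.Helper27

namespace Cfsg.Agent.S5428

set_option maxHeartbeats 1000000 in
theorem result {G : Type*} [Group G] [Finite G] (z : G) (hz : orderOf z = 2) (Q : Subgroup G) (hQC : Q ≤ Subgroup.centralizer ({z} : Set G)) (hF : (Cfsg.generalizedFittingSubgroup ↥(Subgroup.centralizer ({z} : Set G))).map (Subgroup.centralizer ({z} : Set G)).subtype = Q) (hQ : Cfsg.IsExtraspecial 2 ↥Q) (A : Subgroup G) (hA : A ≤ Subgroup.centralizer ({z} : Set G)) (hAodd : Odd (Nat.card ↥A)) (R : Subgroup G) (hR : R = Q ⊓ Subgroup.centralizer (A : Set G)) (hR32 : 32 ≤ Nat.card ↥R) (hO : (Cfsg.oddCore ↥(Subgroup.centralizer ((A ⊔ R : Subgroup G) : Set G))).map (Subgroup.centralizer ((A ⊔ R : Subgroup G) : Set G)).subtype ≤ A) (h4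 : ¬ 4 ∣ Nat.card ↥(Subgroup.centralizer ((A ⊔ R : Subgroup G) : Set G))) (g : G) (hgR : g * z * g⁻¹ ∈ R) (hgZ : g * z * g⁻¹ ∉ ((Subgroup.center ↥Q).map Q.subtype)) (M : Subgroup G) (hM : M = Subgroup.centralizer (A : Set G) ⊔ A) [hn : (A.subgroupOf M).Normal] : (M ⊓ Subgroup.centralizer ((R ⊔ A : Subgroup G) : Set G)) ⊔ A = A ⊔ ((Subgroup.center ↥Q).map Q.subtype) ∧ Cfsg.IsLargeExtraspecial ((R.subgroupOf M).map (QuotientGroup.mk' (A.subgroupOf M))) ∧ ∃ x ∈ R ⊔ ((Q).map (MulAut.conj g).toMonoidHom ⊓ Subgroup.centralizer (A : Set G)), x * (g * z * g⁻¹) * x⁻¹ = z := by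
  have hp2 : Fact (Nat.Prime 2) := ⟨Nat.prime_two⟩
  have S : XS.Setup Q z := XS.Setup.of_fstar hz hF hQ
  have memR : ∀ x, x ∈ R ↔ x ∈ Q ∧ ∀ a ∈ A, a * x = x * a := by
    intro x; rw [hR, Subgroup.mem_inf, Subgroup.mem_centralizer_iff]; rfl
  have hgQ : g * z * g⁻¹ ∈ Q := ((memR _).1 hgR).1
  obtain ⟨s, hsg⟩ : ∃ s, s = g * z * g⁻¹ := ⟨_, rfl⟩
  have hzQs0 : z ∈ Q.map (MulAut.conj g).toMonoidHom :=
    XS.mem_conj_iff.2 (S.z_mem_conj hgQ (fun h => hgZ (by rw [h]; exact S.zZ)))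
  have S'0 : XS.Setup (Q.map (MulAut.conj g).toMonoidHom) s := by rw [hsg]; exact S.conj g
  rw [← hsg] at hgQ hgZ hgR ⊢
  obtain ⟨Qs, hQs⟩ : ∃ Qs : Subgroup G, Qs = Q.map (MulAut.conj g).toMonoidHom := ⟨_, rfl⟩
  rw [← hQs] at hzQs0 S'0 ⊢
  have S' := S'0
  have hzQs := hzQs0
  have hz1 := S.z1
  have zz := S.zz
  have ss := S'.zz
  have hs1 : s ≠ 1 := S'.z1
  have hsz : s ≠ z := fun h => hgZ (h ▸ S.zZ)
  have sz : s * z = z * s := S.zc hgQ
  have hAz : ∀ a ∈ A, a * z = z * a := fun a ha => Subgroup.mem_centralizer_singleton_iff.1 (hA ha)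
  have hAs : ∀ a ∈ A, a * s = s * a := ((memR s).1 hgR).2
  have memCA : ∀ x, x ∈ Subgroup.centralizer (A : Set G) ↔ ∀ a ∈ A, a * x = x * a := by
    intro x; rw [Subgroup.mem_centralizer_iff]; rfl
  have hzR : z ∈ R := (memR z).2 ⟨S.zQ, hAz⟩
  -- part (c)
  have hr : ∃ r ∈ R, r * s = z * (s * r) := by
    by_contra hno
    push Not at hno
    have h1 : ∀ y ∈ Q, (∀ a ∈ A, a * y = y * a) → y * s = s * y := by
      intro y hy hyA
      rcases S.comm hy hgQ with h | h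
      · exact h
      · exact absurd h (hno y ((memR y).2 ⟨hy, hyA⟩))
    rcases S.center_fixed hAz hAodd hgQ hAs h1 with h | h
    · exact hs1 h
    · exact hsz h
  have hr' : ∃ r ∈ Qs, (∀ a ∈ A, a * r = r * a) ∧ r * z = s * (z * r) := by
    by_contra hno
    push Not at hno
    have h1 : ∀ y ∈ Qs, (∀ a ∈ A, a * y = y * a) → y * z = z * y := by
      intro y hy hyA
      rcases S'.comm hy hzQs with h | h
      · exact h
      · exact absurd h (hno y hy hyA)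
    rcases S'.center_fixed hAs hAodd hzQs hAz h1 with h | h
    · exact hz1 h
    · exact hsz h.symm
  obtain ⟨r, hrR, hrs⟩ := hr
  obtain ⟨r', hr'Q, hr'A, hr'z⟩ := hr'
  have hrQ : r ∈ Q := ((memR r).1 hrR).1
  have hr's : r' * s = s * r' := S'.zc hr'Q
  have hx : (r' * r) * s * (r' * r)⁻¹ = z := by
    calc (r' * r) * s * (r' * r)⁻¹ = r' * (r * s) * r⁻¹ * r'⁻¹ := by group
      _ = r' * (z * (s * r)) * r⁻¹ * r'⁻¹ := by rw [hrs]
      _ = (r' * z) * s * r'⁻¹ := by group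
      _ = (s * (z * r')) * s * r'⁻¹ := by rw [hr'z]
      _ = s * z * (r' * s) * r'⁻¹ := by group
      _ = s * z * (s * r') * r'⁻¹ := by rw [hr's]
      _ = (s * z) * s := by group
      _ = (z * s) * s := by rw [sz]
      _ = z * (s * s) := by group
      _ = z := by rw [ss, mul_one]
  have hxmem : r' * r ∈ R ⊔ (Qs ⊓ Subgroup.centralizer (A : Set G)) :=
    Subgroup.mul_mem _ (Subgroup.mem_sup_right ⟨hr'Q, (memCA r').2 hr'A⟩) (Subgroup.mem_sup_left hrR)
  -- `Q ∩ A = 1`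
  have hQA : ∀ x ∈ Q, x ∈ A → x = 1 := fun x hx hxA => XS.eq_one_of_pow_four hAodd hxA (S.pow_four hx)
  have hzA : z ∉ A := fun h => hz1 (hQA z S.zQ h)
  -- part (a), elementwise
  have hD : ∀ d, (∀ y ∈ R, y * d = d * y) → (∀ a ∈ A, a * d = d * a) → d ∈ A ∨ z * d ∈ A := by
    intro d hdR hdA
    obtain ⟨D, hDdef⟩ : ∃ D : Subgroup G, D = Subgroup.centralizer ((A ⊔ R : Subgroup G) : Set G) :=
      ⟨_, rfl⟩
    rw [← hDdef] at hO h4
    have memD : ∀ x, x ∈ D ↔ (∀ y ∈ R, y * x = x * y) ∧ (∀ a ∈ A, a * x = x * a) := by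
      intro x
      rw [hDdef, Subgroup.mem_centralizer_iff]
      constructor
      · intro h
        exact ⟨fun y hy => h y (Subgroup.mem_sup_right hy), fun a ha => h a (Subgroup.mem_sup_left ha)⟩
      · rintro ⟨h1, h2⟩
        have : A ⊔ R ≤ Subgroup.centralizer {x} := by
          refine sup_le ?_ ?_
          · intro a ha; exact Subgroup.mem_centralizer_singleton_iff.2 (h2 a ha)
          · intro y hy; exact Subgroup.mem_centralizer_singleton_iff.2 (h1 y hy)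
        intro y hy
        exact Subgroup.mem_centralizer_singleton_iff.1 (this hy)
    have hzD : z ∈ D := (memD z).2 ⟨fun y hy => S.zc ((memR y).1 hy).1, hAz⟩
    have hdD : d ∈ D := (memD d).2 ⟨hdR, hdA⟩
    have ho : orderOf (⟨z, hzD⟩ : ↥D) = 2 := by rw [Subgroup.orderOf_mk]; exact hz
    have h2 : 2 ∣ Nat.card ↥D := ho ▸ orderOf_dvd_natCard _
    obtain ⟨q, hq⟩ := h2
    have hqodd : Odd q := by
      by_contra hne
      rw [Nat.not_odd_iff_even] at hne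
      obtain ⟨k, hk⟩ := hne
      apply h4
      exact ⟨k, by rw [hq, hk]; ring⟩
    obtain ⟨H, hH⟩ := Cfsg.Agent.Lib.Helper2.exists_index_two_of_two_mul_odd (G := ↥D) q hqodd
      (by rw [hq, mul_comm])
    have hHn : H.Normal := Subgroup.normal_of_index_eq_two hH
    have hHcard : Nat.card ↥H = q := by
      have := H.card_mul_index
      rw [hH, hq, mul_comm] at this
      exact Nat.eq_of_mul_eq_mul_left (by norm_num) this
    have hHA : ∀ x : ↥D, x ∈ H → (x : G) ∈ A := by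
      intro x hx
      apply hO
      refine ⟨x, ?_, rfl⟩
      exact (le_sSup ⟨hHn, by rw [hHcard]; exact Nat.coprime_two_right.2 hqodd⟩ :
        H ≤ Cfsg.pPrimeCore 2 ↥D) hx
    have hzH : (⟨z, hzD⟩ : ↥D) ∉ H := fun h => hzA (hHA _ h)
    by_cases hdH : (⟨d, hdD⟩ : ↥D) ∈ H
    · exact Or.inl (hHA _ hdH)
    · right
      have := (Subgroup.mul_mem_iff_of_index_two hH (a := (⟨z, hzD⟩ : ↥D)) (b := ⟨d, hdD⟩)).2
        ⟨fun h => absurd h hzH, fun h => absurd h hdH⟩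
      exact hHA _ this
  have hCAM : Subgroup.centralizer (A : Set G) ≤ M := hM ▸ le_sup_left
  have hAM : A ≤ M := hM ▸ le_sup_right
  have hRCA : R ≤ Subgroup.centralizer (A : Set G) := hR ▸ inf_le_right
  have hRM : R ≤ M := hRCA.trans hCAM
  refine ⟨?_, ?_, r' * r, hxmem, hx⟩
  · apply le_antisymm
    · refine sup_le ?_ le_sup_left
      rintro d ⟨-, hd0⟩
      have hd : d ∈ Subgroup.centralizer ((R ⊔ A : Subgroup G) : Set G) := hd0
      rw [Subgroup.mem_centralizer_iff] at hd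
      rcases hD d (fun y hy => hd y (Subgroup.mem_sup_left hy))
        (fun a ha => hd a (Subgroup.mem_sup_right ha)) with h | h
      · exact Subgroup.mem_sup_left h
      · have : d = (z * d) * z := by
          have hzd : z * d = d * z := hd z (Subgroup.mem_sup_left hzR)
          calc d = d * (z * z) := by rw [zz, mul_one]
            _ = (d * z) * z := by group
            _ = (z * d) * z := by rw [hzd]
        rw [this]
        exact Subgroup.mul_mem_sup h S.zZ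
    · refine sup_le le_sup_right ?_
      intro x hx
      apply Subgroup.mem_sup_left
      have hxz : x = 1 ∨ x = z := S.mem_Z.1 hx
      have hzmem : z ∈ M ⊓ Subgroup.centralizer ((R ⊔ A : Subgroup G) : Set G) := by
        refine ⟨hRM hzR, ?_⟩
        have : R ⊔ A ≤ Subgroup.centralizer {z} := by
          refine sup_le ?_ hA
          intro y hy
          exact Subgroup.mem_centralizer_singleton_iff.2 (S.zc ((memR y).1 hy).1)
        show z ∈ Subgroup.centralizer ((R ⊔ A : Subgroup G) : Set G)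
        rw [Subgroup.mem_centralizer_iff]
        intro y hy
        exact Subgroup.mem_centralizer_singleton_iff.1 (this hy)
      rcases hxz with rfl | rfl
      · exact Subgroup.one_mem _
      · exact hzmem
  -- part (b)
  have hMdec : ∀ c ∈ M, ∃ c₀ ∈ Subgroup.centralizer (A : Set G), ∃ a ∈ A, c = c₀ * a := by
    intro c hc
    have hM' : M = Subgroup.closure (((Subgroup.centralizer (A : Set G) : Subgroup G) : Set G) ∪ A) := by
      rw [hM, Subgroup.closure_union, Subgroup.closure_eq, Subgroup.closure_eq]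
    rw [hM'] at hc
    induction hc using Subgroup.closure_induction with
    | mem x hx =>
      rcases hx with hx | hx
      · exact ⟨x, hx, 1, A.one_mem, by rw [mul_one]⟩
      · exact ⟨1, Subgroup.one_mem _, x, hx, by rw [one_mul]⟩
    | one => exact ⟨1, Subgroup.one_mem _, 1, A.one_mem, by rw [mul_one]⟩
    | mul x y _ _ ihx ihy =>
      obtain ⟨c₁, hc₁, a₁, ha₁, rfl⟩ := ihx
      obtain ⟨c₂, hc₂, a₂, ha₂, rfl⟩ := ihy
      refine ⟨c₁ * c₂, Subgroup.mul_mem _ hc₁ hc₂, a₁ * a₂, A.mul_mem ha₁ ha₂, ?_⟩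
      have := (memCA c₂).1 hc₂ a₁ ha₁
      calc c₁ * a₁ * (c₂ * a₂) = c₁ * (a₁ * c₂) * a₂ := by group
        _ = c₁ * (c₂ * a₁) * a₂ := by rw [this]
        _ = _ := by group
    | inv x _ ihx =>
      obtain ⟨c₁, hc₁, a₁, ha₁, rfl⟩ := ihx
      refine ⟨c₁⁻¹, Subgroup.inv_mem _ hc₁, a₁⁻¹, A.inv_mem ha₁, ?_⟩
      have := (memCA c₁).1 hc₁ a₁ ha₁
      calc (c₁ * a₁)⁻¹ = (a₁ * c₁)⁻¹ := by rw [this]
        _ = _ := by group
  let π : ↥M →* ↥M ⧸ A.subgroupOf M := QuotientGroup.mk' (A.subgroupOf M)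
  have hπsurj : Function.Surjective π := QuotientGroup.mk'_surjective _
  have peq : ∀ x y : ↥M, π x = π y ↔ (x : G)⁻¹ * y ∈ A := by
    intro x y
    exact QuotientGroup.eq.trans Subgroup.mem_subgroupOf
  have peq1 : ∀ x : ↥M, π x = 1 ↔ (x : G) ∈ A := by
    intro x
    exact (QuotientGroup.eq_one_iff x).trans Subgroup.mem_subgroupOf
  -- representatives in `C(A)`
  have hrep : ∀ γ, ∃ c₀, ∃ h : c₀ ∈ Subgroup.centralizer (A : Set G), γ = π ⟨c₀, hCAM h⟩ := by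
    intro γ
    obtain ⟨c, rfl⟩ := hπsurj γ
    obtain ⟨c₀, hc₀, a, ha, hca⟩ := hMdec c c.2
    refine ⟨c₀, hc₀, ?_⟩
    rw [eq_comm, peq]
    show c₀⁻¹ * (c : G) ∈ A
    rw [hca]
    have : c₀⁻¹ * (c₀ * a) = a := by group
    rw [this]; exact ha
  obtain ⟨Rb, hRb⟩ : ∃ Rb, Rb = (R.subgroupOf M).map π := ⟨_, rfl⟩
  show Cfsg.IsLargeExtraspecial ((R.subgroupOf M).map π)
  rw [← hRb]
  have memRb : ∀ γ, γ ∈ Rb ↔ ∃ x : ↥M, (x : G) ∈ R ∧ π x = γ := by
    intro γ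
    rw [hRb, Subgroup.mem_map]
    constructor
    · rintro ⟨x, hx, rfl⟩; exact ⟨x, Subgroup.mem_subgroupOf.1 hx, rfl⟩
    · rintro ⟨x, hx, rfl⟩; exact ⟨x, Subgroup.mem_subgroupOf.2 hx, rfl⟩
  obtain ⟨zb, hzb⟩ : ∃ zb, zb = π ⟨z, hRM hzR⟩ := ⟨_, rfl⟩
  have hzbR : zb ∈ Rb := (memRb zb).2 ⟨_, hzR, hzb.symm⟩
  have hzb1 : zb ≠ 1 := by
    rw [hzb, Ne, peq1]; exact hzA
  -- the trick: if `c₀⁻¹ y c₀ ∈ y A` with `y ∈ R` then they commute
  have trick : ∀ y ∈ R, ∀ c₀ : G, (y * c₀)⁻¹ * (c₀ * y) ∈ A → y * c₀ = c₀ * y := by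
    intro y hy c₀ h
    obtain ⟨a₁, ha₁⟩ : ∃ a₁, a₁ = (y * c₀)⁻¹ * (c₀ * y) := ⟨_, rfl⟩
    rw [← ha₁] at h
    have hyQ := ((memR y).1 hy).1
    have hya : a₁ * y⁻¹ = y⁻¹ * a₁ := ((memR _).1 (R.inv_mem hy)).2 a₁ h
    have e1 : c₀⁻¹ * y⁻¹ * c₀ = a₁ * y⁻¹ := by rw [ha₁]; group
    have e2 : (a₁ * y⁻¹) ^ 4 = 1 := by
      rw [← e1]
      have : (c₀⁻¹ * y⁻¹ * c₀) ^ 4 = c₀⁻¹ * (y⁻¹) ^ 4 * c₀ := by
        have := conj_pow (a := c₀⁻¹) (b := y⁻¹) (i := 4)
        simpa using this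
      rw [this, S.pow_four (Q.inv_mem hyQ)]; group
    have e3 : a₁ ^ 4 = 1 := by
      have hcm : Commute a₁ y⁻¹ := hya
      rw [hcm.mul_pow, S.pow_four (Q.inv_mem hyQ), mul_one] at e2
      exact e2
    have e4 : a₁ = 1 := XS.eq_one_of_pow_four hAodd h e3
    rw [e4] at ha₁
    exact inv_mul_eq_one.1 ha₁.symm
  have K3 : ∀ x : ↥M, (x : G) ∈ R → (∀ γ ∈ Rb, γ * π x = π x * γ) → π x = 1 ∨ π x = zb := by
    intro x hx hc
    have h1 : ∀ y ∈ Q, (∀ a ∈ A, a * y = y * a) → y * (x : G) = x * y := by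
      intro y hy hyA
      have hyR : y ∈ R := (memR y).2 ⟨hy, hyA⟩
      have h2 := hc (π ⟨y, hRM hyR⟩) ((memRb _).2 ⟨_, hyR, rfl⟩)
      rw [← map_mul, ← map_mul, peq] at h2
      exact trick y hyR x h2
    rcases S.center_fixed hAz hAodd ((memR _).1 hx).1 ((memR _).1 hx).2 h1 with h | h
    · left; rw [peq1, h]; exact A.one_mem
    · right; rw [hzb]; congr 1; exact Subtype.ext h
  have hRp : IsPGroup 2 ↥Rb := by
    rw [hRb]
    exact ((S.ex.1.1.to_le (hR ▸ inf_le_left : R ≤ Q)).comap_subtype (K := M)).map π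
  have hzbc : ∀ γ ∈ Rb, γ * zb = zb * γ := by
    intro γ hγ
    obtain ⟨y, hy, rfl⟩ := (memRb γ).1 hγ
    rw [hzb, ← map_mul, ← map_mul]
    congr 1
    exact Subtype.ext (S.zc ((memR _).1 hy).1)
  have hex : Cfsg.IsExtraspecial 2 ↥Rb := by
    refine XS.extraspecial_of_elementwise hRp hzbR hzb1 hzbc ?_ ?_ ?_ ?_
    · intro a ha b hb
      obtain ⟨x, hx, rfl⟩ := (memRb a).1 ha
      obtain ⟨y, hy, rfl⟩ := (memRb b).1 hb
      rcases S.comm ((memR _).1 hx).1 ((memR _).1 hy).1 with h | h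
      · left
        rw [← map_mul, ← map_mul]
        congr 1
        exact Subtype.ext h
      · right
        rw [hzb, ← map_mul, ← map_mul, ← map_mul]
        congr 1
        exact Subtype.ext h
    · intro a ha
      obtain ⟨x, hx, rfl⟩ := (memRb a).1 ha
      rcases S.sq ((memR _).1 hx).1 with h | h
      · left
        rw [← map_mul, ← map_one π]
        congr 1
        exact Subtype.ext h
      · right
        rw [hzb, ← map_mul]
        congr 1
        exact Subtype.ext h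
    · intro a ha hc
      obtain ⟨x, hx, rfl⟩ := (memRb a).1 ha
      exact K3 x hx hc
    · refine ⟨π ⟨r, hRM hrR⟩, (memRb _).2 ⟨_, hrR, rfl⟩, π ⟨s, hRM hgR⟩,
        (memRb _).2 ⟨_, hgR, rfl⟩, ?_⟩
      rw [← map_mul, ← map_mul, Ne, peq]
      intro h
      have h' := trick r hrR s h
      rw [hrs] at h'
      exact hz1 (mul_eq_right.1 h')
  have Sb : XS.Setup Rb zb := by
    refine ⟨hex, XS.mem_Z_iff.2 ⟨hzbR, hzbc⟩, hzb1, ?_, ?_⟩
    · intro γ hγ
      obtain ⟨c₀, hc₀, rfl⟩ := hrep γ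
      have h1 : ∀ y ∈ R, y * c₀ = c₀ * y := by
        intro y hy
        have h2 := hγ (π ⟨y, hRM hy⟩) ((memRb _).2 ⟨_, hy, rfl⟩)
        rw [← map_mul, ← map_mul, peq] at h2
        exact trick y hy c₀ h2
      rcases hD c₀ h1 ((memCA c₀).1 hc₀) with h | h
      · left; rw [peq1]; exact h
      · right
        rw [hzb, eq_comm, peq]
        show z⁻¹ * c₀ ∈ A
        rw [S.zinv]; exact h
    · intro γ hγ
      obtain ⟨c₀, hc₀, rfl⟩ := hrep γ
      have hcz : z * c₀ = c₀ * z := by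
        rw [hzb, ← map_mul, ← map_mul, eq_comm, peq] at hγ
        exact trick z hzR c₀ hγ
      apply XS.mem_normalizer_of_conj_mem
      intro δ hδ
      obtain ⟨x, hx, rfl⟩ := (memRb δ).1 hδ
      rw [← map_inv, ← map_mul, ← map_mul, memRb]
      refine ⟨_, ?_, rfl⟩
      show c₀ * x * c₀⁻¹ ∈ R
      rw [memR]
      refine ⟨(Subgroup.mem_normalizer_iff.1 (S.norm c₀ hcz.symm) x).1 ((memR _).1 hx).1, ?_⟩
      intro a ha
      have h1 := (memCA c₀).1 hc₀ a ha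
      have h2 := ((memR _).1 hx).2 a ha
      have h3 := (memCA _).1 (Subgroup.inv_mem _ hc₀) a ha
      calc a * (c₀ * x * c₀⁻¹) = (a * c₀) * x * c₀⁻¹ := by group
        _ = (c₀ * a) * x * c₀⁻¹ := by rw [h1]
        _ = c₀ * (a * x) * c₀⁻¹ := by group
        _ = c₀ * (x * a) * c₀⁻¹ := by rw [h2]
        _ = c₀ * x * (a * c₀⁻¹) := by group
        _ = c₀ * x * (c₀⁻¹ * a) := by rw [h3]
        _ = _ := by group
  have hxM : r' * r ∈ M := M.mul_mem (hCAM ((memCA r').2 hr'A)) (hRM hrR)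
  have hconj : (π ⟨r' * r, hxM⟩)⁻¹ * zb * (π ⟨r' * r, hxM⟩)⁻¹⁻¹ = π ⟨s, hRM hgR⟩ := by
    rw [hzb, inv_inv, ← map_inv, ← map_mul, ← map_mul]
    congr 1
    apply Subtype.ext
    show (r' * r)⁻¹ * z * (r' * r) = s
    rw [← hx]; group
  refine Sb.large_of_conj (g := (π ⟨r' * r, hxM⟩)⁻¹) ?_ ?_
  · rw [hconj]; exact (memRb _).2 ⟨_, hgR, rfl⟩
  · rw [hconj, hzb, Ne, peq]
    intro h
    have h' : s⁻¹ * z ∈ A := h
    have h2 := hQA _ (Q.mul_mem (Q.inv_mem hgQ) S.zQ) h'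
    exact hsz (inv_mul_eq_one.1 h2)

end Cfsg.Agent.S5428
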