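import Cfsg.Statements.S5429
import Cfsg.Agent.Lib.Helper27.XS7

set_option autoImplicit false

open Cfsg Subgroup
open scoped commutatorElement
open Cfsg.Agent.Lib.Helper27

namespace Cfsg.Agent.S5429

set_option maxHeartbeats 1000000 in
theorem aux {G : Type*} [Group G] [Finite G] (z : G) (Q : Subgroup G) (S : XS.Setup Q z) (g : G) (hgQ : g * z * g⁻¹ ∈ Q) (hgZ : g * z * g⁻¹ ∉ ((Subgroup.center ↥Q).map Q.subtype)) (t : G) (ht : orderOf t = 2) (htQ : t ∈ Q ⊓ (Q).map (MulAut.conj g).toMonoidHom) (htz : ¬ IsConj z t) (P : Subgroup G) (hP : P = Q ⊓ Subgroup.centralizer ({t} : Set G)) (hCP : ∀ c ∈ Subgroup.centralizer ({z} : Set G), (∀ x ∈ P, ∃ y ∈ Subgroup.closure ({t, z} : Set G), c * x * c⁻¹ = x * y) ↔ c ∈ Q) (Ct : Subgroup G) (hCt : Ct = Subgroup.centralizer ({t} : Set G)) [hn : ((Subgroup.zpowers t).subgroupOf Ct).Normal] : Cfsg.IsLargeExtraspecial ((P.subgroupOf Ct).map (QuotientGroup.mk' ((Subgroup.zpowers t).subgroupOf Ct)))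 ∧ ∃ x ∈ P ⊔ ((Q).map (MulAut.conj g).toMonoidHom ⊓ Ct), x * (g * z * g⁻¹) * x⁻¹ = z := by
  have hp2 : Fact (Nat.Prime 2) := ⟨Nat.prime_two⟩
  obtain ⟨s, hsg⟩ : ∃ s, s = g * z * g⁻¹ := ⟨_, rfl⟩
  have hzQs0 : z ∈ Q.map (MulAut.conj g).toMonoidHom :=
    XS.mem_conj_iff.2 (S.z_mem_conj hgQ (fun h => hgZ (by rw [h]; exact S.zZ)))
  have S'0 : XS.Setup (Q.map (MulAut.conj g).toMonoidHom) s := by rw [hsg]; exact S.conj g
  rw [← hsg] at hgQ hgZ ⊢
  obtain ⟨Qs, hQs⟩ : ∃ Qs : Subgroup G, Qs = Q.map (MulAut.conj g).toMonoidHom := ⟨_, rfl⟩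
  rw [← hQs] at htQ hzQs0 S'0 ⊢
  have S' := S'0
  have hzQs := hzQs0
  have hz1 := S.z1
  have zz := S.zz
  have ss := S'.zz
  have hs1 : s ≠ 1 := S'.z1
  have hsz : s ≠ z := fun h => hgZ (h ▸ S.zZ)
  have ht1 : t ≠ 1 := by rintro rfl; simp at ht
  have tt : t * t = 1 := by rw [← pow_two, ← ht]; exact pow_orderOf_eq_one t
  have htQ1 : t ∈ Q := htQ.1
  have htQ2 : t ∈ Qs := htQ.2
  have hnc : ∀ y, y * z * y⁻¹ ≠ t := fun y h => htz (isConj_iff.2 ⟨y, h⟩)
  have htz' : t ≠ z := by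
    intro h
    apply hnc 1
    rw [h]; group
  have htZ : t ∉ (Subgroup.center ↥Q).map Q.subtype := fun h => (S.mem_Z.1 h).elim ht1 htz'
  obtain ⟨q, hq, hqt⟩ := XS.exists_conj_mul S.ex S.zZ S.z1 htQ1 htZ
  have hnc' : ∀ y, y * z * y⁻¹ ≠ z * t := by
    intro y h
    apply hnc (q⁻¹ * y)
    calc q⁻¹ * y * z * (q⁻¹ * y)⁻¹ = q⁻¹ * (y * z * y⁻¹) * q := by group
      _ = q⁻¹ * (q * t * q⁻¹) * q := by rw [h, hqt]
      _ = t := by group
  have hst : s ≠ t := hsg ▸ hnc g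
  have hszt : s ≠ z * t := hsg ▸ hnc' g
  have tz : t * z = z * t := S.zc htQ1
  have ts : t * s = s * t := S'.zc htQ2
  have sz : s * z = z * s := S.zc hgQ
  have memP : ∀ x, x ∈ P ↔ x ∈ Q ∧ x * t = t * x := by
    intro x; rw [hP, Subgroup.mem_inf, Subgroup.mem_centralizer_singleton_iff]
  have memCt : ∀ x, x ∈ Ct ↔ x * t = t * x := by
    intro x; rw [hCt, Subgroup.mem_centralizer_singleton_iff]
  -- part (b)
  have hr : ∃ r ∈ Q, r * t = t * r ∧ r * s = z * (s * r) := by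
    by_contra hno
    push Not at hno
    have h1 : ∀ r ∈ Q, r * t = t * r → r * s = s * r := by
      intro r hr hrt
      rcases S.comm hr hgQ with h | h
      · exact h
      · exact absurd h (hno r hr hrt)
    rcases S.cent_R htQ1 ht1 htz' tt h1 with h | h | h | h
    · exact hs1 h
    · exact hsz h
    · exact hst h
    · exact hszt (h.trans tz)
  have hr' : ∃ r ∈ Qs, r * t = t * r ∧ r * z = s * (z * r) := by
    by_contra hno
    push Not at hno
    have h1 : ∀ r ∈ Qs, r * t = t * r → r * z = z * r := by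
      intro r hr hrt
      rcases S'.comm hr hzQs with h | h
      · exact h
      · exact absurd h (hno r hr hrt)
    rcases S'.cent_R htQ2 ht1 hst.symm tt h1 with h | h | h | h
    · exact hz1 h
    · exact hsz h.symm
    · exact htz' h.symm
    · apply hszt
      calc s = (t * t) * s := by rw [tt, one_mul]
        _ = t * (t * s) := by group
        _ = t * z := by rw [← h]
        _ = z * t := tz
  obtain ⟨r, hrQ, hrt, hrs⟩ := hr
  obtain ⟨r', hr'Q, hr't, hr'z⟩ := hr'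
  have hr's : r' * s = s * r' := S'.zc hr'Q
  have hx : (r' * r) * s * (r' * r)⁻¹ = z := by
    calc (r' * r) * s * (r' * r)⁻¹ = r' * (r * s) * r⁻¹ * r'⁻¹ := by group
      _ = r' * (z * (s * r)) * r⁻¹ * r'⁻¹ := by rw [hrs]
      _ = (r' * z) * s * r'⁻¹ := by group
      _ = (s * (z * r')) * s * r'⁻¹ := by rw [hr'z]
      _ = s * z * (r' * s) * r'⁻¹ := by group
      _ = s * z * (s * r') * r'⁻¹ := by rw [hr's]
      _ = (s * z) * s := by group
      _ = (z * s) * s := by rw [sz]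
      _ = z * (s * s) := by group
      _ = z := by rw [ss, mul_one]
  have hrP : r ∈ P := (memP r).2 ⟨hrQ, hrt⟩
  have hxmem : r' * r ∈ P ⊔ (Qs ⊓ Ct) := by
    refine Subgroup.mul_mem _ (Subgroup.mem_sup_right ⟨hr'Q, (memCt r').2 hr't⟩)
      (Subgroup.mem_sup_left hrP)
  refine ⟨?_, r' * r, hxmem, hx⟩
  -- part (a)
  have hPCt : P ≤ Ct := fun x hx => (memCt x).2 ((memP x).1 hx).2
  let π : ↥Ct →* ↥Ct ⧸ (Subgroup.zpowers t).subgroupOf Ct :=
    QuotientGroup.mk' ((Subgroup.zpowers t).subgroupOf Ct)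
  have hπsurj : Function.Surjective π := QuotientGroup.mk'_surjective _
  have peq : ∀ x y : ↥Ct, π x = π y ↔ ((x : G)⁻¹ * y = 1 ∨ (x : G)⁻¹ * y = t) := by
    intro x y
    refine (QuotientGroup.eq.trans Subgroup.mem_subgroupOf).trans ?_
    exact XS.mem_zpowers_invol tt
  have peq1 : ∀ x : ↥Ct, π x = 1 ↔ ((x : G) = 1 ∨ (x : G) = t) := by
    intro x
    refine ((QuotientGroup.eq_one_iff x).trans Subgroup.mem_subgroupOf).trans ?_
    exact XS.mem_zpowers_invol tt
  obtain ⟨Pb, hPb⟩ : ∃ Pb, Pb = (P.subgroupOf Ct).map π := ⟨_, rfl⟩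
  show Cfsg.IsLargeExtraspecial ((P.subgroupOf Ct).map π)
  rw [← hPb]
  have memPb : ∀ γ, γ ∈ Pb ↔ ∃ x : ↥Ct, (x : G) ∈ P ∧ π x = γ := by
    intro γ
    rw [hPb, Subgroup.mem_map]
    constructor
    · rintro ⟨x, hx, rfl⟩; exact ⟨x, Subgroup.mem_subgroupOf.1 hx, rfl⟩
    · rintro ⟨x, hx, rfl⟩; exact ⟨x, Subgroup.mem_subgroupOf.2 hx, rfl⟩
  have hzP : z ∈ P := (memP z).2 ⟨S.zQ, tz.symm⟩
  have hsP : s ∈ P := (memP s).2 ⟨hgQ, ts.symm⟩
  obtain ⟨zb, hzb⟩ : ∃ zb, zb = π ⟨z, hPCt hzP⟩ := ⟨_, rfl⟩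
  have hzbP : zb ∈ Pb := (memPb zb).2 ⟨_, hzP, hzb.symm⟩
  have hzb1 : zb ≠ 1 := by
    rw [hzb, Ne, peq1]
    rintro (h | h)
    · exact hz1 h
    · exact htz' h.symm
  -- K1
  have K1 : ∀ c : ↥Ct, π c * zb = zb * π c → (c : G) * z = z * c := by
    intro c h
    rw [hzb, ← map_mul, ← map_mul, peq] at h
    rcases h with h | h
    · have h' : ((c : G) * z)⁻¹ * (z * c) = 1 := h
      exact (inv_mul_eq_one.1 h')
    · exfalso
      have h' : ((c : G) * z)⁻¹ * (z * c) = t := h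
      apply hnc' (c : G)⁻¹
      calc (c : G)⁻¹ * z * (c : G)⁻¹⁻¹ = z * (((c : G) * z)⁻¹ * (z * c)) := by
            rw [mul_inv_rev]
            have : z * (z⁻¹ * (c : G)⁻¹ * (z * c)) = (c : G)⁻¹ * z * c := by group
            rw [this, inv_inv]
        _ = z * t := by rw [h']
  -- K3
  have K3 : ∀ x : ↥Ct, (x : G) ∈ P → (∀ γ ∈ Pb, γ * π x = π x * γ) → π x = 1 ∨ π x = zb := by
    intro x hx hc
    have h1 : ∀ y ∈ Q, y * t = t * y → y * (x : G) = x * y := by
      intro y hy hyt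
      have hyP : y ∈ P := (memP y).2 ⟨hy, hyt⟩
      have h2 := hc (π ⟨y, hPCt hyP⟩) ((memPb _).2 ⟨_, hyP, rfl⟩)
      rw [← map_mul, ← map_mul, peq] at h2
      rcases h2 with h2 | h2
      · have h' : (y * (x : G))⁻¹ * (x * y) = 1 := h2
        exact inv_mul_eq_one.1 h'
      · exfalso
        have h' : (y * (x : G))⁻¹ * (x * y) = t := h2
        rcases S.comm ((memP _).1 hx).1 hy with h3 | h3
        · rw [h3, inv_mul_cancel] at h'
          exact ht1 h'.symm
        · rw [h3] at h'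
          have hyx : y * (x : G) ∈ Q := Q.mul_mem hy ((memP _).1 hx).1
          have h4 : (y * (x : G))⁻¹ * (z * (y * x)) = z := by
            rw [← S.zc hyx]; group
          rw [h4] at h'
          exact htz' h'.symm
    rcases S.cent_R htQ1 ht1 htz' tt h1 with h | h | h | h
    · left; rw [peq1]; exact Or.inl h
    · right; rw [hzb, peq]; left
      show (x : G)⁻¹ * z = 1
      rw [h, inv_mul_cancel]
    · left; rw [peq1]; exact Or.inr h
    · right; rw [hzb, peq]; right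
      show (x : G)⁻¹ * z = t
      rw [h, tz]
      calc (z * t)⁻¹ * z = t⁻¹ := by group
        _ = t := inv_eq_of_mul_eq_one_left tt
  have hPp : IsPGroup 2 ↥Pb := by
    rw [hPb]
    exact ((S.ex.1.1.to_le (hP ▸ inf_le_left : P ≤ Q)).comap_subtype (K := Ct)).map π
  have hzbc : ∀ γ ∈ Pb, γ * zb = zb * γ := by
    intro γ hγ
    obtain ⟨y, hy, rfl⟩ := (memPb γ).1 hγ
    rw [hzb, ← map_mul, ← map_mul]
    congr 1
    exact Subtype.ext (S.zc ((memP _).1 hy).1)
  have hex : Cfsg.IsExtraspecial 2 ↥Pb := by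
    refine XS.extraspecial_of_elementwise hPp hzbP hzb1 hzbc ?_ ?_ ?_ ?_
    · intro a ha b hb
      obtain ⟨x, hx, rfl⟩ := (memPb a).1 ha
      obtain ⟨y, hy, rfl⟩ := (memPb b).1 hb
      rcases S.comm ((memP _).1 hx).1 ((memP _).1 hy).1 with h | h
      · left
        rw [← map_mul, ← map_mul]
        congr 1
        exact Subtype.ext h
      · right
        rw [hzb, ← map_mul, ← map_mul, ← map_mul]
        congr 1
        exact Subtype.ext h
    · intro a ha
      obtain ⟨x, hx, rfl⟩ := (memPb a).1 ha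
      rcases S.sq ((memP _).1 hx).1 with h | h
      · left
        rw [← map_mul, ← map_one π]
        congr 1
        exact Subtype.ext h
      · right
        rw [hzb, ← map_mul]
        congr 1
        exact Subtype.ext h
    · intro a ha hc
      obtain ⟨x, hx, rfl⟩ := (memPb a).1 ha
      exact K3 x hx hc
    · refine ⟨π ⟨r, hPCt hrP⟩, (memPb _).2 ⟨_, hrP, rfl⟩, π ⟨s, hPCt hsP⟩,
        (memPb _).2 ⟨_, hsP, rfl⟩, ?_⟩
      rw [← map_mul, ← map_mul, Ne, peq]
      have h4 : (r * s)⁻¹ * (s * r) = z := by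
        rw [hrs]
        have hsr : s * r ∈ Q := Q.mul_mem hgQ hrQ
        have : ((s * r) * z)⁻¹ * (s * r) = z⁻¹ := by group
        rw [← S.zc hsr, this, S.zinv]
      rintro (h | h)
      · have h' : (r * s)⁻¹ * (s * r) = 1 := h
        rw [h4] at h'
        exact hz1 h'
      · have h' : (r * s)⁻¹ * (s * r) = t := h
        rw [h4] at h'
        exact htz' h'.symm
  have Sb : XS.Setup Pb zb := by
    refine ⟨hex, XS.mem_Z_iff.2 ⟨hzbP, hzbc⟩, hzb1, ?_, ?_⟩
    · intro γ hγ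
      obtain ⟨c, rfl⟩ := hπsurj γ
      have hcz : (c : G) * z = z * c := K1 c (hγ zb hzbP).symm
      have hct : (c : G) * t = t * c := (memCt _).1 c.2
      have hcQ : (c : G) ∈ Q := by
        rw [← hCP c (Subgroup.mem_centralizer_singleton_iff.2 hcz)]
        intro x hx
        have h2 := hγ (π ⟨x, hPCt hx⟩) ((memPb _).2 ⟨_, hx, rfl⟩)
        rw [← map_mul, ← map_mul, peq] at h2
        rcases h2 with h2 | h2
        · have h' : (x * (c : G))⁻¹ * (c * x) = 1 := h2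
          have h3 : x * (c : G) = c * x := inv_mul_eq_one.1 h'
          refine ⟨1, Subgroup.one_mem _, ?_⟩
          rw [← h3]; group
        · have h' : (x * (c : G))⁻¹ * (c * x) = t := h2
          refine ⟨t, Subgroup.subset_closure (by simp), ?_⟩
          have h3 : (c : G) * x = x * c * t := by rw [← h']; group
          calc (c : G) * x * (c : G)⁻¹ = x * c * t * (c : G)⁻¹ := by rw [h3]
            _ = x * (c * t) * (c : G)⁻¹ := by group
            _ = x * (t * c) * (c : G)⁻¹ := by rw [hct]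
            _ = x * t := by group
      exact K3 c ((memP _).2 ⟨hcQ, hct⟩) hγ
    · intro γ hγ
      obtain ⟨c, rfl⟩ := hπsurj γ
      have hcz : (c : G) * z = z * c := K1 c hγ
      have hct : (c : G) * t = t * c := (memCt _).1 c.2
      apply XS.mem_normalizer_of_conj_mem
      intro δ hδ
      obtain ⟨x, hx, rfl⟩ := (memPb δ).1 hδ
      rw [← map_inv, ← map_mul, ← map_mul, memPb]
      refine ⟨_, ?_, rfl⟩
      show (c : G) * x * (c : G)⁻¹ ∈ P
      rw [memP]
      refine ⟨(Subgroup.mem_normalizer_iff.1 (S.norm c hcz) x).1 ((memP _).1 hx).1, ?_⟩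
      have hxt := ((memP _).1 hx).2
      have hcit : (c : G)⁻¹ * t = t * (c : G)⁻¹ := by
        calc (c : G)⁻¹ * t = (c : G)⁻¹ * (t * c) * (c : G)⁻¹ := by group
          _ = (c : G)⁻¹ * (c * t) * (c : G)⁻¹ := by rw [hct]
          _ = _ := by group
      calc (c : G) * x * (c : G)⁻¹ * t = c * x * ((c : G)⁻¹ * t) := by group
        _ = c * x * (t * (c : G)⁻¹) := by rw [hcit]
        _ = c * (x * t) * (c : G)⁻¹ := by group
        _ = c * (t * x) * (c : G)⁻¹ := by rw [hxt]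
        _ = (c * t) * x * (c : G)⁻¹ := by group
        _ = (t * c) * x * (c : G)⁻¹ := by rw [hct]
        _ = _ := by group
  -- the conjugating element
  have hxCt : r' * r ∈ Ct := Ct.mul_mem ((memCt r').2 hr't) (hPCt hrP)
  have hconj : (π ⟨r' * r, hxCt⟩)⁻¹ * zb * (π ⟨r' * r, hxCt⟩)⁻¹⁻¹ = π ⟨s, hPCt hsP⟩ := by
    rw [hzb, inv_inv, ← map_inv, ← map_mul, ← map_mul]
    congr 1
    apply Subtype.ext
    show (r' * r)⁻¹ * z * (r' * r) = s
    rw [← hx]; group
  refine Sb.large_of_conj (g := (π ⟨r' * r, hxCt⟩)⁻¹) ?_ ?_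
  · rw [hconj]; exact (memPb _).2 ⟨_, hsP, rfl⟩
  · rw [hconj, hzb, Ne, peq]
    rintro (h | h)
    · have h' : s⁻¹ * z = 1 := h
      exact hsz (inv_mul_eq_one.1 h')
    · have h' : s⁻¹ * z = t := h
      apply hszt
      have h5 : z = s * t := by rw [← h']; group
      calc s = s * (t * t) := by rw [tt, mul_one]
        _ = (s * t) * t := by group
        _ = z * t := by rw [← h5]

theorem result {G : Type*} [Group G] [Finite G] (z : G) (hz : orderOf z = 2) (Q : Subgroup G) (hQC : Q ≤ Subgroup.centralizer ({z} : Set G)) (hF : (Cfsg.generalizedFittingSubgroup ↥(Subgroup.centralizer ({z} : Set G))).map (Subgroup.centralizer ({z} : Set G)).subtype = Q) (hQ : Cfsg.IsExtraspecial 2 ↥Q) (w : ℕ) (hw : 3 ≤ w) (hcard : Nat.card ↥Q = 2 ^ (2 * w + 1)) (g : G) (hgQ : g * z * g⁻¹ ∈ Q) (hgZ : g * z * g⁻¹ ∉ ((Subgroup.center ↥Q).map Q.subtype)) (t : G) (ht : orderOf t = 2) (htQ : t ∈ Q ⊓ (Q).map (MulAut.conj g).toMonoidHom) (htz : ¬ IsConj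 z t) (P : Subgroup G) (hP : P = Q ⊓ Subgroup.centralizer ({t} : Set G)) (hCP : ∀ c ∈ Subgroup.centralizer ({z} : Set G), (∀ x ∈ P, ∃ y ∈ Subgroup.closure ({t, z} : Set G), c * x * c⁻¹ = x * y) ↔ c ∈ Q) [hn : ((Subgroup.zpowers t).subgroupOf (Subgroup.centralizer ({t} : Set G))).Normal] : Cfsg.IsLargeExtraspecial ((P.subgroupOf (Subgroup.centralizer ({t} : Set G))).map (QuotientGroup.mk' ((Subgroup.zpowers t).subgroupOf (Subgroup.centralizer ({t} : Set G))))) ∧ ∃ x ∈ P ⊔ ((Q).map (MulAut.conj g).toMonoidHom ⊓ Subgroup.centralizer ({t} : Set G)), x * (g * z * g⁻¹) * x⁻¹ = z :=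
  aux z Q (XS.Setup.of_fstar hz hF hQ) g hgQ hgZ t ht htQ htz P hP hCP _ rfl

end Cfsg.Agent.S5429
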