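import Cfsg.Statements.S5430
import Cfsg.Agent.Lib.Helper27.XS6
import Cfsg.Agent.Lib.Helper27.Basic

set_option autoImplicit false

open Cfsg Subgroup
open scoped commutatorElement
open Cfsg.Agent.Lib.Helper27

namespace Cfsg.Agent.S5430

set_option maxHeartbeats 1000000 in
theorem result {G : Type*} [Group G] [Finite G] (Q : Subgroup G) (hQ : Cfsg.IsLargeExtraspecial Q) (z : G) (hz : ((Subgroup.center ↥Q).map Q.subtype) = Subgroup.zpowers z) (hz2 : orderOf z = 2) (w : ℕ) (hw : 2 ≤ w) (hcard : Nat.card ↥Q = 2 ^ (2 * w + 1)) (g : G) (hgH : g ∉ Subgroup.centralizer ({z} : Set G)) (hgQ : g * z * g⁻¹ ∈ Q) (V X R E : Subgroup G) (hV : V = Subgroup.closure ({z, g * z * g⁻¹} : Set G)) (hX : X = Q ⊔ (Q).map (MulAut.conj g).toMonoidHom) (hR : R = ((Q).map (MulAut.conj g).toMonoidHom ⊓ Subgroup.centralizer ({z} : Set G)) ⊔ (Q ⊓ Subgroup.centralizer ({g * z * g⁻¹} : Set G))) (hE : E = Q ⊓ (Q).map (MulAut.conj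 g).toMonoidHom) : R = X ⊓ Subgroup.centralizer (V : Set G) ∧ R = (Cfsg.pCore 2 ↥X).map X.subtype ∧ (∃ h : (R.subgroupOf X).Normal, Nonempty (↥X ⧸ R.subgroupOf X ≃* Equiv.Perm (Fin 3))) ∧ Subgroup.normalizer (V : Set G) = X ⊔ (Subgroup.centralizer ({z} : Set G) ⊓ Subgroup.centralizer (V : Set G)) ∧ (∀ y ∈ Subgroup.normalizer (V : Set G), ∀ x ∈ X, y * x * y⁻¹ ∈ X) ∧ R ≤ Subgroup.centralizer ({z} : Set G) ⊓ Subgroup.centralizer (V : Set G) ∧ (∀ x ∈ X, ∀ c ∈ Subgroup.centralizer ({z} : Set G) ⊓ Subgroup.centralizer (V : Set G), x * c * x⁻¹ * c⁻¹ ∈ R) ∧ X ⊓ (Subgroup.centralizer ({z} : Set G) ⊓ Subgroup.centralizer (V : Set G)) = R := by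
  have hp2 : Fact (Nat.Prime 2) := ⟨Nat.prime_two⟩
  have hzZ : z ∈ (Subgroup.center ↥Q).map Q.subtype := by rw [hz]; exact Subgroup.mem_zpowers z
  have hz1 : z ≠ 1 := by rintro rfl; simp at hz2
  have S := XS.Setup.of_hyp hQ.1 hQ.2.1 hQ.2.2.1 hzZ hz1
  obtain ⟨t, htg⟩ : ∃ t, t = g * z * g⁻¹ := ⟨_, rfl⟩
  rw [← htg] at hgQ hV hR
  have htz : t ≠ z := by
    intro h
    apply hgH
    rw [Subgroup.mem_centralizer_singleton_iff]
    calc g * z = (g * z * g⁻¹) * g := by group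
      _ = z * g := by rw [← htg, h]
  have hzQt0 : z ∈ Q.map (MulAut.conj g).toMonoidHom :=
    XS.mem_conj_iff.2 (S.z_mem_conj (htg ▸ hgQ) (htg ▸ htz))
  have S'0 : XS.Setup (Q.map (MulAut.conj g).toMonoidHom) t := by rw [htg]; exact S.conj g
  obtain ⟨Qt, hQt⟩ : ∃ Qt : Subgroup G, Qt = Q.map (MulAut.conj g).toMonoidHom := ⟨_, rfl⟩
  rw [← hQt] at hX hR hE hzQt0 S'0
  have S' := S'0
  have hzQt := hzQt0
  have memQt : ∀ x, x ∈ Qt ↔ g⁻¹ * x * g ∈ Q := by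
    intro x; rw [hQt]; exact XS.mem_conj_iff
  have ht1 : t ≠ 1 := S'.z1
  have zz := S.zz
  have tt := S'.zz
  have tz : t * z = z * t := S.zc hgQ
  have memV : ∀ x, x ∈ V ↔ x = 1 ∨ x = z ∨ x = t ∨ x = z * t := by
    intro x
    rw [hV, XS.closure_pair_eq_four zz tt tz]; exact XS.mem_four
  have memCV : ∀ c, c ∈ Subgroup.centralizer (V : Set G) ↔ c * z = z * c ∧ c * t = t * c := by
    intro c
    rw [Subgroup.mem_centralizer_iff]
    constructor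
    · intro h
      exact ⟨(h z ((memV z).2 (Or.inr (Or.inl rfl)))).symm,
        (h t ((memV t).2 (Or.inr (Or.inr (Or.inl rfl))))).symm⟩
    · rintro ⟨h1, h2⟩ v hv
      rcases (memV v).1 hv with rfl | rfl | rfl | rfl
      · simp
      · exact h1.symm
      · exact h2.symm
      · calc z * t * c = z * (t * c) := by group
          _ = z * (c * t) := by rw [h2]
          _ = (z * c) * t := by group
          _ = (c * z) * t := by rw [h1]
          _ = _ := by group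
  have memA : ∀ c, c ∈ Subgroup.centralizer ({z} : Set G) ⊓ Subgroup.centralizer (V : Set G) ↔
      c * z = z * c ∧ c * t = t * c := by
    intro c
    rw [Subgroup.mem_inf, memCV, Subgroup.mem_centralizer_singleton_iff]
    exact ⟨fun h => h.2, fun h => ⟨h.1, h⟩⟩
  obtain ⟨Rz, hRz⟩ : ∃ Rz : Subgroup G, Rz = Q ⊓ Subgroup.centralizer ({t} : Set G) := ⟨_, rfl⟩
  obtain ⟨Rt, hRt⟩ : ∃ Rt : Subgroup G, Rt = Qt ⊓ Subgroup.centralizer ({z} : Set G) := ⟨_, rfl⟩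
  rw [← hRz, ← hRt] at hR
  have memRz : ∀ x, x ∈ Rz ↔ x ∈ Q ∧ x * t = t * x := by
    intro x; rw [hRz, Subgroup.mem_inf, Subgroup.mem_centralizer_singleton_iff]
  have memRt : ∀ x, x ∈ Rt ↔ x ∈ Qt ∧ x * z = z * x := by
    intro x; rw [hRt, Subgroup.mem_inf, Subgroup.mem_centralizer_singleton_iff]
  have hRcl : R = Subgroup.closure ((Rt : Set G) ∪ Rz) := by
    rw [hR, Subgroup.closure_union, Subgroup.closure_eq, Subgroup.closure_eq]
  have hS₀ : ∀ x ∈ ((Rt : Set G) ∪ Rz), x * z = z * x ∧ x * t = t * x := by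
    rintro x (hx | hx)
    · exact ⟨((memRt x).1 hx).2, S'.zc ((memRt x).1 hx).1⟩
    · exact ⟨S.zc ((memRz x).1 hx).1, ((memRz x).1 hx).2⟩
  have hRc : ∀ x ∈ R, x * z = z * x ∧ x * t = t * x := by
    have : R ≤ Subgroup.centralizer ({z} : Set G) ⊓ Subgroup.centralizer ({t} : Set G) := by
      rw [hRcl, Subgroup.closure_le]
      intro x hx
      exact ⟨Subgroup.mem_centralizer_singleton_iff.2 (hS₀ x hx).1,
        Subgroup.mem_centralizer_singleton_iff.2 (hS₀ x hx).2⟩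
    intro x hx
    exact ⟨Subgroup.mem_centralizer_singleton_iff.1 (this hx).1,
      Subgroup.mem_centralizer_singleton_iff.1 (this hx).2⟩
  have hRzR : Rz ≤ R := hR ▸ le_sup_right
  have hRtR : Rt ≤ R := hR ▸ le_sup_left
  have hXcl : X = Subgroup.closure ((Q : Set G) ∪ Qt) := by
    rw [hX, Subgroup.closure_union, Subgroup.closure_eq, Subgroup.closure_eq]
  have hQX : Q ≤ X := hX ▸ le_sup_left
  have hQtX : Qt ≤ X := hX ▸ le_sup_right
  have hRX : R ≤ X := by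
    rw [hR]
    exact sup_le (fun x hx => hQtX ((memRt x).1 hx).1) (fun x hx => hQX ((memRz x).1 hx).1)
  have hN : ((Q : Set G) ∪ Qt) ⊆ Subgroup.normalizer (V : Set G) := by
    rintro q (hq | hq)
    · apply XS.mem_normalizer_of_conj_mem
      intro y hy
      have e1 : q * z * q⁻¹ = z := by rw [S.zc hq]; group
      have e2 : q * t * q⁻¹ = t ∨ q * t * q⁻¹ = z * t := by
        rcases S.comm hq hgQ with h | h
        · left; rw [h]; group
        · right; rw [h]; group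
      have e2' : q * t * q⁻¹ ∈ V := by
        rcases e2 with h | h
        · rw [h, memV]; exact Or.inr (Or.inr (Or.inl rfl))
        · rw [h, memV]; exact Or.inr (Or.inr (Or.inr rfl))
      have e1' : q * z * q⁻¹ ∈ V := by rw [e1, memV]; exact Or.inr (Or.inl rfl)
      rcases (memV y).1 hy with rfl | rfl | rfl | rfl
      · simp
      · exact e1'
      · exact e2'
      · have : q * (z * t) * q⁻¹ = (q * z * q⁻¹) * (q * t * q⁻¹) := by group
        rw [this]; exact V.mul_mem e1' e2'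
    · apply XS.mem_normalizer_of_conj_mem
      intro y hy
      have e1 : q * t * q⁻¹ = t := by rw [S'.zc hq]; group
      have e2 : q * z * q⁻¹ = z ∨ q * z * q⁻¹ = t * z := by
        rcases S'.comm hq hzQt with h | h
        · left; rw [h]; group
        · right; rw [h]; group
      have e2' : q * z * q⁻¹ ∈ V := by
        rcases e2 with h | h
        · rw [h, memV]; exact Or.inr (Or.inl rfl)
        · rw [h, memV]; exact Or.inr (Or.inr (Or.inr tz))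
      have e1' : q * t * q⁻¹ ∈ V := by rw [e1, memV]; exact Or.inr (Or.inr (Or.inl rfl))
      rcases (memV y).1 hy with rfl | rfl | rfl | rfl
      · simp
      · exact e2'
      · exact e1'
      · have : q * (z * t) * q⁻¹ = (q * z * q⁻¹) * (q * t * q⁻¹) := by group
        rw [this]; exact V.mul_mem e2' e1'
  have hXN : X ≤ Subgroup.normalizer (V : Set G) := by
    rw [hXcl, Subgroup.closure_le]; exact hN
  -- `N(V)` normalizes `C(V)`
  have hNA : ∀ y ∈ Subgroup.normalizer (V : Set G), ∀ c, (c * z = z * c ∧ c * t = t * c) →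
      ((y * c * y⁻¹) * z = z * (y * c * y⁻¹) ∧ (y * c * y⁻¹) * t = t * (y * c * y⁻¹)) := by
    intro y hy c hc
    rw [← memCV] at hc ⊢
    rw [Subgroup.mem_centralizer_iff] at hc ⊢
    intro v hv
    have hv' : y⁻¹ * v * y ∈ V := by
      have := (Subgroup.mem_normalizer_iff.1 (Subgroup.inv_mem _ hy) v).1 hv
      simpa using this
    have h1 := hc _ hv'
    calc v * (y * c * y⁻¹) = y * ((y⁻¹ * v * y) * c) * y⁻¹ := by group
      _ = y * (c * (y⁻¹ * v * y)) * y⁻¹ := by rw [h1]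
      _ = _ := by group
  have hinvA : ∀ c, (c * z = z * c ∧ c * t = t * c) → (c⁻¹ * z = z * c⁻¹ ∧ c⁻¹ * t = t * c⁻¹) := by
    intro c hc
    rw [← memCV] at hc ⊢
    exact Subgroup.inv_mem _ hc
  have hmulA : ∀ c d, (c * z = z * c ∧ c * t = t * c) → (d * z = z * d ∧ d * t = t * d) →
      ((c * d) * z = z * (c * d) ∧ (c * d) * t = t * (c * d)) := by
    intro c d hc hd
    rw [← memCV] at hc hd ⊢
    exact Subgroup.mul_mem _ hc hd
  have gen7 : ∀ q ∈ ((Q : Set G) ∪ Qt), ∀ c, (c * z = z * c ∧ c * t = t * c) →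
      q * c * q⁻¹ * c⁻¹ ∈ R := by
    rintro q hq c hc
    have hA := hmulA _ _ (hNA q (hN hq) c hc) (hinvA c hc)
    rcases hq with hq | hq
    · apply hRzR
      rw [memRz]
      refine ⟨?_, hA.2⟩
      have h1 : c * q⁻¹ * c⁻¹ ∈ Q :=
        (Subgroup.mem_normalizer_iff.1 (S.norm c hc.1) _).1 (Q.inv_mem hq)
      have : q * c * q⁻¹ * c⁻¹ = q * (c * q⁻¹ * c⁻¹) := by group
      rw [this]; exact Q.mul_mem hq h1
    · apply hRtR
      rw [memRt]
      refine ⟨?_, hA.1⟩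
      have h1 : c * q⁻¹ * c⁻¹ ∈ Qt :=
        (Subgroup.mem_normalizer_iff.1 (S'.norm c hc.2) _).1 (Qt.inv_mem hq)
      have : q * c * q⁻¹ * c⁻¹ = q * (c * q⁻¹ * c⁻¹) := by group
      rw [this]; exact Qt.mul_mem hq h1
  have hS₀NR : ((Q : Set G) ∪ Qt) ⊆ Subgroup.normalizer (R : Set G) := by
    intro q hq
    apply XS.mem_normalizer_of_conj_mem
    intro r hr
    have : q * r * q⁻¹ = (q * r * q⁻¹ * r⁻¹) * r := by group
    rw [this]
    exact R.mul_mem (gen7 q hq r (hRc r hr)) hr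
  have c7 : ∀ x ∈ X, ∀ c, (c * z = z * c ∧ c * t = t * c) → x * c * x⁻¹ * c⁻¹ ∈ R := by
    intro x hx c hc
    rw [hXcl] at hx
    exact XS.comm_mem_left hS₀NR (fun q hq => gen7 q hq c hc) x hx
  have hXNR : X ≤ Subgroup.normalizer (R : Set G) := by
    rw [hXcl, Subgroup.closure_le]; exact hS₀NR
  have hn : (R.subgroupOf X).Normal := (Subgroup.normal_subgroupOf_iff_le_normalizer hRX).2 hXNR
  -- the two special elements
  have htZ : t ∉ (Subgroup.center ↥Q).map Q.subtype := fun h => (S.mem_Z.1 h).elim ht1 htz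
  have hzZ' : z ∉ (Subgroup.center ↥Qt).map Qt.subtype := fun h => (S'.mem_Z.1 h).elim hz1 htz.symm
  obtain ⟨q₀, hq₀, hq₀t⟩ := XS.exists_conj_mul S.ex S.zZ S.z1 hgQ htZ
  obtain ⟨x₀, hx₀, hx₀z⟩ := XS.exists_conj_mul S'.ex S'.zZ S'.z1 hzQt hzZ'
  have hq₀z : q₀ * z * q₀⁻¹ = z := by rw [S.zc hq₀]; group
  have hx₀t : x₀ * t * x₀⁻¹ = t := by rw [S'.zc hx₀]; group
  have hq₀zt : q₀ * (z * t) * q₀⁻¹ = t := by
    calc q₀ * (z * t) * q₀⁻¹ = (q₀ * z * q₀⁻¹) * (q₀ * t * q₀⁻¹) := by group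
      _ = z * (z * t) := by rw [hq₀z, hq₀t]
      _ = (z * z) * t := by group
      _ = t := by rw [zz, one_mul]
  have hx₀zt : x₀ * (z * t) * x₀⁻¹ = z := by
    calc x₀ * (z * t) * x₀⁻¹ = (x₀ * z * x₀⁻¹) * (x₀ * t * x₀⁻¹) := by group
      _ = (t * z) * t := by rw [hx₀z, hx₀t]
      _ = (z * t) * t := by rw [tz]
      _ = z * (t * t) := by group
      _ = z := by rw [tt, mul_one]
  have hq₀it : q₀⁻¹ * t * q₀ = z * t := by
    calc q₀⁻¹ * t * q₀ = q₀⁻¹ * (q₀ * (z * t) * q₀⁻¹) * q₀ := by rw [hq₀zt]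
      _ = z * t := by group
  have hx₀iz : x₀⁻¹ * z * x₀ = z * t := by
    calc x₀⁻¹ * z * x₀ = x₀⁻¹ * (x₀ * (z * t) * x₀⁻¹) * x₀ := by rw [hx₀zt]
      _ = z * t := by group
  have hx₀it : x₀⁻¹ * t * x₀ = t := by
    calc x₀⁻¹ * t * x₀ = x₀⁻¹ * (x₀ * t * x₀⁻¹) * x₀ := by rw [hx₀t]
      _ = t := by group
  have hx₀izt : x₀⁻¹ * (z * t) * x₀ = z := by
    calc x₀⁻¹ * (z * t) * x₀ = (x₀⁻¹ * z * x₀) * (x₀⁻¹ * t * x₀) := by group
      _ = (z * t) * t := by rw [hx₀iz, hx₀it]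
      _ = z * (t * t) := by group
      _ = z := by rw [tt, mul_one]
  -- the key relation
  obtain ⟨u, hu⟩ : ∃ u, u = x₀⁻¹ * q₀ * x₀ * q₀⁻¹ * x₀ := ⟨_, rfl⟩
  have huQ : u ∈ Q := by
    have h1 : (x₀⁻¹ * q₀ * g) * z = z * (x₀⁻¹ * q₀ * g) := by
      have : (x₀⁻¹ * q₀ * g) * z * (x₀⁻¹ * q₀ * g)⁻¹ = z := by
        calc (x₀⁻¹ * q₀ * g) * z * (x₀⁻¹ * q₀ * g)⁻¹
            = x₀⁻¹ * (q₀ * (g * z * g⁻¹) * q₀⁻¹) * x₀ := by group
          _ = z := by rw [← htg, hq₀t, hx₀izt]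
      calc (x₀⁻¹ * q₀ * g) * z = ((x₀⁻¹ * q₀ * g) * z * (x₀⁻¹ * q₀ * g)⁻¹) * (x₀⁻¹ * q₀ * g) := by
            group
        _ = _ := by rw [this]
    have h2 := (Subgroup.mem_normalizer_iff.1 (S.norm _ h1) _).1 ((memQt x₀).1 hx₀)
    have h3 : x₀⁻¹ * q₀ * g * (g⁻¹ * x₀ * g) * (x₀⁻¹ * q₀ * g)⁻¹ = u := by rw [hu]; group
    rwa [h3] at h2
  have hut : u * t * u⁻¹ = z * t := by
    calc u * t * u⁻¹ = x₀⁻¹ * (q₀ * (x₀ * (q₀⁻¹ * (x₀ * t * x₀⁻¹) * q₀) * x₀⁻¹) * q₀⁻¹) * x₀ := by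
          rw [hu]; group
      _ = z * t := by rw [hx₀t, hq₀it, hx₀zt, hq₀z, hx₀iz]
  have huR : q₀⁻¹ * u ∈ R := by
    apply hRzR
    rw [memRz]
    refine ⟨Q.mul_mem (Q.inv_mem hq₀) huQ, ?_⟩
    rcases S.dichotomy hgQ hq₀t huQ with h | h
    · exfalso
      have : u * t * u⁻¹ = t := by rw [h]; group
      rw [hut] at this
      exact hz1 (mul_eq_right.1 this)
    · exact h
  -- the quotient
  let π : ↥X →* ↥X ⧸ R.subgroupOf X := QuotientGroup.mk' (R.subgroupOf X)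
  have hπ : ∀ x y : ↥X, π x = π y ↔ (x : G)⁻¹ * y ∈ R := by
    intro x y
    exact QuotientGroup.eq.trans Subgroup.mem_subgroupOf
  have hπ1 : ∀ x : ↥X, π x = 1 ↔ (x : G) ∈ R := by
    intro x
    exact (QuotientGroup.eq_one_iff x).trans Subgroup.mem_subgroupOf
  obtain ⟨a, ha⟩ : ∃ a, a = π ⟨q₀, hQX hq₀⟩ := ⟨_, rfl⟩
  obtain ⟨b, hb⟩ : ∃ b, b = π ⟨x₀, hQtX hx₀⟩ := ⟨_, rfl⟩
  have haa : a * a = 1 := by
    rw [ha, ← map_mul, hπ1]
    show q₀ * q₀ ∈ R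
    rcases S.sq hq₀ with h | h
    · rw [h]; exact R.one_mem
    · rw [h]; exact hRzR ((memRz z).2 ⟨S.zQ, tz.symm⟩)
  have hbb : b * b = 1 := by
    rw [hb, ← map_mul, hπ1]
    show x₀ * x₀ ∈ R
    rcases S'.sq hx₀ with h | h
    · rw [h]; exact R.one_mem
    · rw [h]; exact hRzR ((memRz t).2 ⟨hgQ, rfl⟩)
  have hai : a⁻¹ = a := inv_eq_of_mul_eq_one_left haa
  have hbi : b⁻¹ = b := inv_eq_of_mul_eq_one_left hbb
  have hrel : b * a * b = a * b * a := by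
    have h1 : b⁻¹ * a * b * a⁻¹ * b = a := by
      rw [ha, hb, ← map_inv, ← map_inv, ← map_mul, ← map_mul, ← map_mul, ← map_mul, eq_comm, hπ]
      show q₀⁻¹ * (x₀⁻¹ * q₀ * x₀ * q₀⁻¹ * x₀) ∈ R
      rw [← hu]; exact huR
    rw [hbi, hai] at h1
    calc b * a * b = b * a * b * (a * (b * b) * a) := by rw [hbb, mul_one, haa, mul_one]
      _ = (b * a * b * a * b) * b * a := by group
      _ = a * b * a := by rw [h1]
  have hgen : ∀ x (hx : x ∈ X), π ⟨x, hx⟩ ∈ Subgroup.closure ({a, b} : Set (↥X ⧸ R.subgroupOf X)) := by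
    intro x hx
    have hx' : x ∈ Subgroup.closure ((Q : Set G) ∪ Qt) := hXcl ▸ hx
    revert hx
    induction hx' using Subgroup.closure_induction with
    | mem s hs =>
      intro hx
      rcases hs with hs | hs
      · rcases S.dichotomy hgQ hq₀t hs with h | h
        · have : π ⟨s, hx⟩ = 1 := (hπ1 _).2 (hRzR ((memRz s).2 ⟨hs, h⟩))
          rw [this]; exact Subgroup.one_mem _
        · have : a = π ⟨s, hx⟩ := by
            rw [ha, hπ]
            exact hRzR ((memRz _).2 ⟨Q.mul_mem (Q.inv_mem hq₀) hs, h⟩)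
          rw [← this]; exact Subgroup.subset_closure (by simp)
      · rcases S'.dichotomy hzQt hx₀z hs with h | h
        · have : π ⟨s, hx⟩ = 1 := (hπ1 _).2 (hRtR ((memRt s).2 ⟨hs, h⟩))
          rw [this]; exact Subgroup.one_mem _
        · have : b = π ⟨s, hx⟩ := by
            rw [hb, hπ]
            exact hRtR ((memRt _).2 ⟨Qt.mul_mem (Qt.inv_mem hx₀) hs, h⟩)
          rw [← this]; exact Subgroup.subset_closure (by simp)
    | one =>
      intro hx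
      have : (⟨1, hx⟩ : ↥X) = 1 := rfl
      rw [this, map_one]; exact Subgroup.one_mem _
    | mul x y hx' hy' ihx ihy =>
      intro hxy
      have hxX : x ∈ X := hXcl ▸ hx'
      have hyX : y ∈ X := hXcl ▸ hy'
      have : (⟨x * y, hxy⟩ : ↥X) = ⟨x, hxX⟩ * ⟨y, hyX⟩ := rfl
      rw [this, map_mul]
      exact Subgroup.mul_mem _ (ihx hxX) (ihy hyX)
    | inv x hx' ihx =>
      intro hxi
      have hxX : x ∈ X := hXcl ▸ hx'
      have : (⟨x⁻¹, hxi⟩ : ↥X) = ⟨x, hxX⟩⁻¹ := rfl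
      rw [this, map_inv]
      exact Subgroup.inv_mem _ (ihx hxX)
  -- (1)
  have c1 : ∀ x ∈ X, (x * z = z * x ∧ x * t = t * x) → x ∈ R := by
    intro x hx hxA
    -- if `π x = π w` then `w` centralizes `V`
    have hw : ∀ w : ↥X, π w = π ⟨x, hx⟩ → ((w : G) * z = z * w ∧ (w : G) * t = t * w) := by
      intro w h
      have h1 : (w : G)⁻¹ * x ∈ R := (hπ _ _).1 h
      have h2 := hmulA _ _ hxA (hinvA _ (hRc _ h1))
      have h3 : x * ((w : G)⁻¹ * x)⁻¹ = w := by group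
      rwa [h3] at h2
    rcases XS.six_of_rel haa hbb hrel _ (hgen x hx) with h | h | h | h | h | h
    · exact (hπ1 _).1 h
    · exfalso
      have := (hw ⟨q₀, hQX hq₀⟩ (by rw [h, ha])).2
      have h' : q₀ * t * q₀⁻¹ = t := by
        show q₀ * t * q₀⁻¹ = t
        have e : q₀ * t = t * q₀ := this
        rw [e]; group
      rw [hq₀t] at h'
      exact hz1 (mul_eq_right.1 h')
    · exfalso
      have := (hw ⟨x₀, hQtX hx₀⟩ (by rw [h, hb])).1
      have h' : x₀ * z * x₀⁻¹ = z := by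
        have e : x₀ * z = z * x₀ := this
        rw [e]; group
      rw [hx₀z] at h'
      exact ht1 (mul_eq_right.1 h')
    · exfalso
      have := (hw (⟨q₀, hQX hq₀⟩ * ⟨x₀, hQtX hx₀⟩) (by rw [h, ha, hb, map_mul])).1
      have e : (q₀ * x₀) * z = z * (q₀ * x₀) := this
      have h' : (q₀ * x₀) * z * (q₀ * x₀)⁻¹ = z := by rw [e]; group
      have h'' : (q₀ * x₀) * z * (q₀ * x₀)⁻¹ = t := by
        calc (q₀ * x₀) * z * (q₀ * x₀)⁻¹ = q₀ * (x₀ * z * x₀⁻¹) * q₀⁻¹ := by group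
          _ = t := by rw [hx₀z, tz, hq₀zt]
      exact htz (h''.symm.trans h')
    · exfalso
      have := (hw (⟨x₀, hQtX hx₀⟩ * ⟨q₀, hQX hq₀⟩) (by rw [h, ha, hb, map_mul])).1
      have e : (x₀ * q₀) * z = z * (x₀ * q₀) := this
      have h' : (x₀ * q₀) * z * (x₀ * q₀)⁻¹ = z := by rw [e]; group
      have h'' : (x₀ * q₀) * z * (x₀ * q₀)⁻¹ = t * z := by
        calc (x₀ * q₀) * z * (x₀ * q₀)⁻¹ = x₀ * (q₀ * z * q₀⁻¹) * x₀⁻¹ := by group
          _ = t * z := by rw [hq₀z, hx₀z]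
      rw [h''] at h'
      exact ht1 (mul_eq_right.1 h')
    · exfalso
      have := (hw (⟨q₀, hQX hq₀⟩ * ⟨x₀, hQtX hx₀⟩ * ⟨q₀, hQX hq₀⟩)
        (by rw [h, ha, hb, map_mul, map_mul])).1
      have e : (q₀ * x₀ * q₀) * z = z * (q₀ * x₀ * q₀) := this
      have h' : (q₀ * x₀ * q₀) * z * (q₀ * x₀ * q₀)⁻¹ = z := by rw [e]; group
      have h'' : (q₀ * x₀ * q₀) * z * (q₀ * x₀ * q₀)⁻¹ = t := by
        calc (q₀ * x₀ * q₀) * z * (q₀ * x₀ * q₀)⁻¹
            = q₀ * (x₀ * (q₀ * z * q₀⁻¹) * x₀⁻¹) * q₀⁻¹ := by group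
          _ = t := by rw [hq₀z, hx₀z, tz, hq₀zt]
      exact htz (h''.symm.trans h')
  have e1 : R = X ⊓ Subgroup.centralizer (V : Set G) := by
    apply le_antisymm
    · intro r hr
      exact ⟨hRX hr, (memCV r).2 (hRc r hr)⟩
    · rintro x ⟨hx, hxc⟩
      exact c1 x hx ((memCV x).1 hxc)
  -- the homomorphism onto `S₃`
  have hn1 : (q₀ * x₀) * z * (q₀ * x₀)⁻¹ = t := by
    calc (q₀ * x₀) * z * (q₀ * x₀)⁻¹ = q₀ * (x₀ * z * x₀⁻¹) * q₀⁻¹ := by group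
      _ = t := by rw [hx₀z, tz, hq₀zt]
  have hn2 : (q₀ * x₀) * t * (q₀ * x₀)⁻¹ = z * t := by
    calc (q₀ * x₀) * t * (q₀ * x₀)⁻¹ = q₀ * (x₀ * t * x₀⁻¹) * q₀⁻¹ := by group
      _ = z * t := by rw [hx₀t, hq₀t]
  obtain ⟨ψN, hψker, hψtop⟩ := XS.exists_hom_perm3 memV hz1 ht1 htz.symm zz hq₀z hq₀t hn1 hn2
  let ι : ↥X →* ↥(Subgroup.normalizer (V : Set G)) := Subgroup.inclusion hXN
  have htop : ι.range.map ψN = ⊤ := by
    apply hψtop
    · exact ⟨hXN (hQX hq₀), ⟨⟨q₀, hQX hq₀⟩, rfl⟩⟩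
    · exact ⟨hXN (X.mul_mem (hQX hq₀) (hQtX hx₀)), ⟨⟨q₀ * x₀, X.mul_mem (hQX hq₀) (hQtX hx₀)⟩, rfl⟩⟩
  let ψ : ↥X →* Equiv.Perm (Fin 3) := ψN.comp ι
  have hsurjN : ∀ σ : Equiv.Perm (Fin 3), ∃ x : ↥X, ψ x = σ := by
    intro σ
    have : σ ∈ ι.range.map ψN := htop ▸ Subgroup.mem_top σ
    obtain ⟨_, ⟨x, rfl⟩, hx⟩ := this
    exact ⟨x, hx⟩
  have hψ1 : ∀ x : ↥X, ψ x = 1 ↔ (x : G) ∈ R := by
    intro x
    have h1 : ψ x = 1 ↔ ((x : G) * z = z * x ∧ (x : G) * t = t * x) := hψker (ι x)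
    rw [h1]
    exact ⟨fun h => c1 x x.2 h, fun h => hRc x h⟩
  have hker : ψ.ker = R.subgroupOf X := by
    ext x
    rw [MonoidHom.mem_ker, hψ1, Subgroup.mem_subgroupOf]
  -- decomposition of `N(V)`
  have hdec : ∀ y ∈ Subgroup.normalizer (V : Set G), ∃ x ∈ X, ∃ c, (c * z = z * c ∧ c * t = t * c) ∧
      y = x * c := by
    intro y hy
    obtain ⟨x, hx⟩ := hsurjN (ψN ⟨y, hy⟩)
    have h1 : ψN ((ι x)⁻¹ * ⟨y, hy⟩) = 1 := by
      rw [map_mul, map_inv]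
      have : ψN (ι x) = ψN ⟨y, hy⟩ := hx
      rw [this, inv_mul_cancel]
    have h2 := (hψker _).1 h1
    exact ⟨x, x.2, (x : G)⁻¹ * y, h2, by group⟩
  have hRp : IsPGroup 2 ↥R := by
    rw [hR]
    refine (S'.ex.1.1.to_le (hRt ▸ inf_le_left)).to_sup_of_normal_right'
      (S.ex.1.1.to_le (hRz ▸ inf_le_left)) ?_
    intro b hb
    apply XS.mem_normalizer_of_conj_mem
    intro x hx
    have hbA := hS₀ b (Or.inl hb)
    rw [memRz] at hx ⊢
    refine ⟨(Subgroup.mem_normalizer_iff.1 (S.norm b hbA.1) x).1 hx.1, ?_⟩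
    have h3 : b⁻¹ * t = t * b⁻¹ := (hinvA b hbA).2
    calc b * x * b⁻¹ * t = b * x * (b⁻¹ * t) := by group
      _ = b * x * (t * b⁻¹) := by rw [h3]
      _ = b * (x * t) * b⁻¹ := by group
      _ = b * (t * x) * b⁻¹ := by rw [hx.2]
      _ = (b * t) * x * b⁻¹ := by group
      _ = (t * b) * x * b⁻¹ := by rw [hbA.2]
      _ = _ := by group
  refine ⟨e1, ?_, ⟨hn, ⟨(QuotientGroup.quotientMulEquivOfEq hker.symm).trans
    (QuotientGroup.quotientKerEquivOfSurjective ψ hsurjN)⟩⟩, ?_, ?_, ?_, ?_, ?_⟩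
  · -- O₂(X)
    apply le_antisymm
    · intro r hr
      exact ⟨⟨r, hRX hr⟩, le_pCore hn (hRp.comap_subtype (K := X)) (Subgroup.mem_subgroupOf.2 hr), rfl⟩
    · rintro _ ⟨x, hx, rfl⟩
      show (x : G) ∈ R
      rw [← hψ1]
      have h2el : ∀ y ∈ Cfsg.pCore 2 ↥X, (ψ y) ^ 2 = 1 := by
        intro y hy
        obtain ⟨k, hk⟩ := isPGroup_pCore 2 ↥X ⟨y, hy⟩
        have hk' : y ^ 2 ^ k = 1 := congrArg Subtype.val hk
        apply XS.perm3_sq_of_two_pow (k := k)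
        rw [← map_pow, hk', map_one]
      apply XS.perm3_eq_one _ (h2el x hx)
      intro τ
      obtain ⟨y, rfl⟩ := hsurjN τ
      rw [← map_inv, ← map_mul, ← map_mul, ← map_mul]
      apply h2el
      exact Subgroup.mul_mem _ hx ((pCore_normal 2 ↥X).conj_mem _ hx _)
  · apply le_antisymm
    · intro y hy
      obtain ⟨x, hx, c, hc, rfl⟩ := hdec y hy
      exact Subgroup.mul_mem_sup hx ((memA c).2 hc)
    · refine sup_le hXN ?_
      exact inf_le_right.trans (Subgroup.centralizer_le_normalizer _)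
  · intro y hy x hx
    obtain ⟨x₁, hx₁, c, hc, rfl⟩ := hdec y hy
    have h1 : c * x * c⁻¹ ∈ X := by
      have h2 := c7 x hx c hc
      have : c * x * c⁻¹ = (x * c * x⁻¹ * c⁻¹)⁻¹ * x := by group
      rw [this]
      exact X.mul_mem (X.inv_mem (hRX h2)) hx
    have : x₁ * c * x * (x₁ * c)⁻¹ = x₁ * (c * x * c⁻¹) * x₁⁻¹ := by group
    rw [this]
    exact X.mul_mem (X.mul_mem hx₁ h1) (X.inv_mem hx₁)
  · intro r hr
    exact (memA r).2 (hRc r hr)
  · intro x hx c hc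
    exact c7 x hx c ((memA c).1 hc)
  · apply le_antisymm
    · rintro x ⟨hx, hxc⟩
      exact c1 x hx ((memA x).1 hxc)
    · intro r hr
      exact ⟨hRX hr, (memA r).2 (hRc r hr)⟩

end Cfsg.Agent.S5430
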