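import Cfsg.Statements.S5431
import Cfsg.Agent.Lib.Helper27.XS5

set_option autoImplicit false

open Cfsg Subgroup
open scoped commutatorElement
open Cfsg.Agent.Lib.Helper27

namespace Cfsg.Agent.S5431

theorem comm_val {G : Type*} [Group G] {Q : Subgroup G} {z : G} (S : XS.Setup Q z) {a b : G}
    (ha : a ∈ Q) (hb : b ∈ Q) : a * b * a⁻¹ * b⁻¹ = 1 ∨ a * b * a⁻¹ * b⁻¹ = z := by
  rcases S.comm ha hb with h | h
  · left; rw [h]; group
  · right; rw [h]; group

theorem result {G : Type*} [Group G] [Finite G] (Q : Subgroup G) (hQ : Cfsg.IsLargeExtraspecial Q) (z : G) (hz : ((Subgroup.center ↥Q).map Q.subtype) = Subgroup.zpowers z) (hz2 : orderOf z = 2) (w : ℕ) (hw : 2 ≤ w) (hcard : Nat.card ↥Q = 2 ^ (2 * w + 1)) (g : G) (hgH : g ∉ Subgroup.centralizer ({z} : Set G)) (hgQ : g * z * g⁻¹ ∈ Q) (V X R E : Subgroup G) (hV : V = Subgroup.closure ({z, g * z * g⁻¹} : Set G)) (hX : X = Q ⊔ (Q).map (MulAut.conj g).toMonoidHom) (hR : R = ((Q).map (MulAut.conj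 g).toMonoidHom ⊓ Subgroup.centralizer ({z} : Set G)) ⊔ (Q ⊓ Subgroup.centralizer ({g * z * g⁻¹} : Set G))) (hE : E = Q ⊓ (Q).map (MulAut.conj g).toMonoidHom) : (Subgroup.center ↥R).map R.subtype = V ∧ E ≤ (Subgroup.upperCentralSeries ↥R 2).map R.subtype ∧ Subgroup.upperCentralSeries ↥R 3 = ⊤ ∧ Cfsg.IsElementaryAbelian 2 E ∧ (∀ x ∈ R, ∀ y ∈ R, x * y * x⁻¹ * y⁻¹ ∈ E ∧ x ^ 2 ∈ E) ∧ ((Q).map (MulAut.conj g).toMonoidHom ⊓ Subgroup.centralizer ({z} : Set G)) ⊓ (Q ⊓ Subgroup.centralizer ({g * z * g⁻¹} : Set G)) = E ∧ ⁅X, E⁆ ≤ V := by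
  have hzZ : z ∈ (Subgroup.center ↥Q).map Q.subtype := by rw [hz]; exact Subgroup.mem_zpowers z
  have hz1 : z ≠ 1 := by rintro rfl; simp at hz2
  have S := XS.Setup.of_hyp hQ.1 hQ.2.1 hQ.2.2.1 hzZ hz1
  obtain ⟨t, htg⟩ : ∃ t, t = g * z * g⁻¹ := ⟨_, rfl⟩
  rw [← htg] at hgQ hV hR ⊢
  have htz : t ≠ z := by
    intro h
    apply hgH
    rw [Subgroup.mem_centralizer_singleton_iff]
    calc g * z = (g * z * g⁻¹) * g := by group
      _ = z * g := by rw [← htg, h]
  have hzQt0 : z ∈ Q.map (MulAut.conj g).toMonoidHom :=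
    XS.mem_conj_iff.2 (S.z_mem_conj (htg ▸ hgQ) (htg ▸ htz))
  have S'0 : XS.Setup (Q.map (MulAut.conj g).toMonoidHom) t := by rw [htg]; exact S.conj g
  obtain ⟨Qt, hQt⟩ : ∃ Qt : Subgroup G, Qt = Q.map (MulAut.conj g).toMonoidHom := ⟨_, rfl⟩
  rw [← hQt] at hX hR hE hzQt0 S'0 ⊢
  have S' := S'0
  have hzQt := hzQt0
  have ht1 : t ≠ 1 := S'.z1
  have zz := S.zz
  have tt := S'.zz
  have tz : t * z = z * t := S.zc hgQ
  have memV : ∀ x, x ∈ V ↔ x = 1 ∨ x = z ∨ x = t ∨ x = z * t := by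
    intro x
    rw [hV, XS.closure_pair_eq_four zz tt tz]; exact XS.mem_four
  have memE : ∀ x, x ∈ E ↔ x ∈ Q ∧ x ∈ Qt := by
    intro x; rw [hE]; exact Subgroup.mem_inf
  have hzE : z ∈ E := (memE z).2 ⟨S.zQ, hzQt⟩
  have htE : t ∈ E := (memE t).2 ⟨hgQ, S'.zQ⟩
  have hVE : V ≤ E := by
    intro x hx
    rcases (memV x).1 hx with rfl | rfl | rfl | rfl
    · exact E.one_mem
    · exact hzE
    · exact htE
    · exact E.mul_mem hzE htE
  obtain ⟨Rz, hRz⟩ : ∃ Rz : Subgroup G, Rz = Q ⊓ Subgroup.centralizer ({t} : Set G) := ⟨_, rfl⟩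
  obtain ⟨Rt, hRt⟩ : ∃ Rt : Subgroup G, Rt = Qt ⊓ Subgroup.centralizer ({z} : Set G) := ⟨_, rfl⟩
  rw [← hRz, ← hRt] at hR ⊢
  have memRz : ∀ x, x ∈ Rz ↔ x ∈ Q ∧ x * t = t * x := by
    intro x; rw [hRz, Subgroup.mem_inf, Subgroup.mem_centralizer_singleton_iff]
  have memRt : ∀ x, x ∈ Rt ↔ x ∈ Qt ∧ x * z = z * x := by
    intro x; rw [hRt, Subgroup.mem_inf, Subgroup.mem_centralizer_singleton_iff]
  have hRcl : R = Subgroup.closure ((Rt : Set G) ∪ Rz) := by
    rw [hR, Subgroup.closure_union, Subgroup.closure_eq, Subgroup.closure_eq]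
  have hS₀ : ∀ x ∈ ((Rt : Set G) ∪ Rz), x * z = z * x ∧ x * t = t * x := by
    rintro x (hx | hx)
    · exact ⟨((memRt x).1 hx).2, S'.zc ((memRt x).1 hx).1⟩
    · exact ⟨S.zc ((memRz x).1 hx).1, ((memRz x).1 hx).2⟩
  have hRc : ∀ x ∈ R, x * z = z * x ∧ x * t = t * x := by
    have : R ≤ Subgroup.centralizer ({z} : Set G) ⊓ Subgroup.centralizer ({t} : Set G) := by
      rw [hRcl, Subgroup.closure_le]
      intro x hx
      exact ⟨Subgroup.mem_centralizer_singleton_iff.2 (hS₀ x hx).1,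
        Subgroup.mem_centralizer_singleton_iff.2 (hS₀ x hx).2⟩
    intro x hx
    exact ⟨Subgroup.mem_centralizer_singleton_iff.1 (this hx).1,
      Subgroup.mem_centralizer_singleton_iff.1 (this hx).2⟩
  have hNE : ∀ x, x * z = z * x → x * t = t * x → x ∈ Subgroup.normalizer (E : Set G) := by
    intro x h1 h2
    rw [Subgroup.mem_normalizer_iff]
    intro y
    rw [memE, memE, Subgroup.mem_normalizer_iff.1 (S.norm x h1) y,
      Subgroup.mem_normalizer_iff.1 (S'.norm x h2) y]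
  have hNV : ∀ x, x * z = z * x → x * t = t * x → x ∈ Subgroup.normalizer (V : Set G) := by
    intro x h1 h2
    apply XS.mem_normalizer_of_conj_mem
    intro y hy
    have e1 : x * z * x⁻¹ = z := by rw [h1]; group
    have e2 : x * t * x⁻¹ = t := by rw [h2]; group
    rcases (memV y).1 hy with rfl | rfl | rfl | rfl
    · simp
    · rw [e1]; exact hy
    · rw [e2]; exact hy
    · have : x * (z * t) * x⁻¹ = (x * z * x⁻¹) * (x * t * x⁻¹) := by group
      rw [this, e1, e2]; exact hy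
  have hS₀NE : ((Rt : Set G) ∪ Rz) ⊆ Subgroup.normalizer (E : Set G) :=
    fun x hx => hNE x (hS₀ x hx).1 (hS₀ x hx).2
  have hS₀NV : ((Rt : Set G) ∪ Rz) ⊆ Subgroup.normalizer (V : Set G) :=
    fun x hx => hNV x (hS₀ x hx).1 (hS₀ x hx).2
  have hmix : ∀ a ∈ Rz, ∀ b ∈ Rt, a * b * a⁻¹ * b⁻¹ ∈ E ∧ b * a * b⁻¹ * a⁻¹ ∈ E := by
    intro a ha b hb
    obtain ⟨haQ, hat⟩ := (memRz a).1 ha
    obtain ⟨hbQ, hbz⟩ := (memRt b).1 hb
    have h1 : a * b * a⁻¹ ∈ Qt := (Subgroup.mem_normalizer_iff.1 (S'.norm a hat) b).1 hbQ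
    have h2 : b * a * b⁻¹ ∈ Q := (Subgroup.mem_normalizer_iff.1 (S.norm b hbz) a).1 haQ
    have h3 : a * b * a⁻¹ * b⁻¹ ∈ E := by
      rw [memE]
      refine ⟨?_, Qt.mul_mem h1 (Qt.inv_mem hbQ)⟩
      have : a * b * a⁻¹ * b⁻¹ = a * (b * a * b⁻¹)⁻¹ := by group
      rw [this]; exact Q.mul_mem haQ (Q.inv_mem h2)
    refine ⟨h3, ?_⟩
    have : b * a * b⁻¹ * a⁻¹ = (a * b * a⁻¹ * b⁻¹)⁻¹ := by group
    rw [this]; exact E.inv_mem h3
  have hcomm₀ : ∀ x ∈ ((Rt : Set G) ∪ Rz), ∀ y ∈ ((Rt : Set G) ∪ Rz), x * y * x⁻¹ * y⁻¹ ∈ E := by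
    rintro x (hx | hx) y (hy | hy)
    · rcases comm_val S' ((memRt x).1 hx).1 ((memRt y).1 hy).1 with h | h
      · rw [h]; exact E.one_mem
      · rw [h]; exact htE
    · exact (hmix y hy x hx).2
    · exact (hmix x hx y hy).1
    · rcases comm_val S ((memRz x).1 hx).1 ((memRz y).1 hy).1 with h | h
      · rw [h]; exact E.one_mem
      · rw [h]; exact hzE
  have hsq₀ : ∀ x ∈ ((Rt : Set G) ∪ Rz), x * x ∈ E := by
    rintro x (hx | hx)
    · rcases S'.sq ((memRt x).1 hx).1 with h | h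
      · rw [h]; exact E.one_mem
      · rw [h]; exact htE
    · rcases S.sq ((memRz x).1 hx).1 with h | h
      · rw [h]; exact E.one_mem
      · rw [h]; exact hzE
  have c5a : ∀ x ∈ R, ∀ y ∈ R, x * y * x⁻¹ * y⁻¹ ∈ E := by
    intro x hx y hy
    rw [hRcl] at hx hy
    exact XS.comm_mem_closure hS₀NE hcomm₀ x hx y hy
  have c5b : ∀ x ∈ R, x ^ 2 ∈ E := by
    intro x hx
    rw [hRcl] at hx
    rw [pow_two]
    exact XS.sq_mem_closure hS₀NE hcomm₀ hsq₀ x hx
  have hRzR : Rz ≤ R := hR ▸ le_sup_right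
  have hRtR : Rt ≤ R := hR ▸ le_sup_left
  have hERz : E ≤ Rz := fun x hx => (memRz x).2 ⟨((memE x).1 hx).1, S'.zc ((memE x).1 hx).2⟩
  have hER : E ≤ R := hERz.trans hRzR
  have hVR : V ≤ R := hVE.trans hER
  -- centre
  have c1 : (Subgroup.center ↥R).map R.subtype = V := by
    apply le_antisymm
    · intro c hc
      obtain ⟨hcR, hcc⟩ := XS.mem_Z_iff.1 hc
      rw [memV]
      rcases S.cent_R hgQ ht1 htz tt
        (fun r hr hrt => hcc r (hRzR ((memRz r).2 ⟨hr, hrt⟩))) with h | h | h | h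
      · exact Or.inl h
      · exact Or.inr (Or.inl h)
      · exact Or.inr (Or.inr (Or.inl h))
      · exact Or.inr (Or.inr (Or.inr (h.trans tz)))
    · intro v hv
      refine XS.mem_Z_iff.2 ⟨hVR hv, fun y hy => ?_⟩
      obtain ⟨h1, h2⟩ := hRc y hy
      rcases (memV v).1 hv with rfl | rfl | rfl | rfl
      · simp
      · exact h1
      · exact h2
      · calc y * (z * t) = (y * z) * t := by group
          _ = (z * y) * t := by rw [h1]
          _ = z * (y * t) := by group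
          _ = z * (t * y) := by rw [h2]
          _ = _ := by group
  -- [E, R] ≤ V
  have hEV : ∀ e ∈ E, ∀ y ∈ R, e * y * e⁻¹ * y⁻¹ ∈ V := by
    intro e he y hy
    rw [hRcl] at hy
    refine XS.comm_mem_right hS₀NV ?_ y hy
    rintro b (hb | hb)
    · rcases comm_val S' ((memE e).1 he).2 ((memRt b).1 hb).1 with h | h
      · rw [h]; exact V.one_mem
      · rw [h, memV]; exact Or.inr (Or.inr (Or.inl rfl))
    · rcases comm_val S ((memE e).1 he).1 ((memRz b).1 hb).1 with h | h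
      · rw [h]; exact V.one_mem
      · rw [h, memV]; exact Or.inr (Or.inl rfl)
  have memc : ∀ x : ↥R, x ∈ Subgroup.center ↥R ↔ (x : G) ∈ V := by
    intro x
    rw [← c1]
    constructor
    · intro h; exact ⟨x, h, rfl⟩
    · rintro ⟨y, hy, hyx⟩
      have : y = x := Subtype.ext hyx
      rw [← this]; exact hy
  have mem2 : ∀ x : ↥R, (x : G) ∈ E → x ∈ Subgroup.upperCentralSeries ↥R 2 := by
    intro x hx
    rw [Subgroup.mem_upperCentralSeries_succ_iff]
    intro y
    rw [Subgroup.upperCentralSeries_one, memc, commutatorElement_def]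
    exact hEV x hx y y.2
  refine ⟨c1, ?_, ?_, ?_, fun x hx y hy => ⟨c5a x hx y hy, c5b x hx⟩, ?_, ?_⟩
  · intro e he
    exact ⟨⟨e, hER he⟩, mem2 _ he, rfl⟩
  · rw [eq_top_iff]
    intro x _
    rw [Subgroup.mem_upperCentralSeries_succ_iff]
    intro y
    apply mem2
    rw [commutatorElement_def]
    exact c5a x x.2 y y.2
  · refine ⟨⟨⟨fun a b => Subtype.ext ?_⟩⟩, ?_⟩
    · show (a : G) * b = b * a
      rcases S.comm ((memE _).1 a.2).1 ((memE _).1 b.2).1 with h | h
      · exact h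
      · rcases S'.comm ((memE _).1 a.2).2 ((memE _).1 b.2).2 with h' | h'
        · exact h'
        · exfalso
          apply htz
          rw [h] at h'
          exact (mul_right_cancel h').symm
    · intro a ha
      rw [pow_two]
      rcases S.sq ((memE _).1 ha).1 with h | h
      · exact h
      · rcases S'.sq ((memE _).1 ha).2 with h' | h'
        · exact h'
        · exact absurd (h'.symm.trans h) htz
  · ext x
    rw [Subgroup.mem_inf, memRt, memRz, memE]
    constructor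
    · rintro ⟨⟨h1, -⟩, ⟨h2, -⟩⟩; exact ⟨h2, h1⟩
    · rintro ⟨h1, h2⟩; exact ⟨⟨h2, S.zc h1⟩, ⟨h1, S'.zc h2⟩⟩
  · rw [Subgroup.commutator_le]
    intro x hx e he
    rw [commutatorElement_def]
    have hXcl : X = Subgroup.closure ((Q : Set G) ∪ Qt) := by
      rw [hX, Subgroup.closure_union, Subgroup.closure_eq, Subgroup.closure_eq]
    rw [hXcl] at hx
    have hN : ((Q : Set G) ∪ Qt) ⊆ Subgroup.normalizer (V : Set G) := by
      rintro q (hq | hq)
      · apply XS.mem_normalizer_of_conj_mem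
        intro y hy
        have e1 : q * z * q⁻¹ = z := by rw [S.zc hq]; group
        have e2 : q * t * q⁻¹ = t ∨ q * t * q⁻¹ = z * t := by
          rcases S.comm hq hgQ with h | h
          · left; rw [h]; group
          · right; rw [h]; group
        have e2' : q * t * q⁻¹ ∈ V := by
          rcases e2 with h | h
          · rw [h, memV]; exact Or.inr (Or.inr (Or.inl rfl))
          · rw [h, memV]; exact Or.inr (Or.inr (Or.inr rfl))
        have e1' : q * z * q⁻¹ ∈ V := by rw [e1, memV]; exact Or.inr (Or.inl rfl)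
        rcases (memV y).1 hy with rfl | rfl | rfl | rfl
        · simp
        · exact e1'
        · exact e2'
        · have : q * (z * t) * q⁻¹ = (q * z * q⁻¹) * (q * t * q⁻¹) := by group
          rw [this]; exact V.mul_mem e1' e2'
      · apply XS.mem_normalizer_of_conj_mem
        intro y hy
        have e1 : q * t * q⁻¹ = t := by rw [S'.zc hq]; group
        have e2 : q * z * q⁻¹ = z ∨ q * z * q⁻¹ = t * z := by
          rcases S'.comm hq hzQt with h | h
          · left; rw [h]; group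
          · right; rw [h]; group
        have e2' : q * z * q⁻¹ ∈ V := by
          rcases e2 with h | h
          · rw [h, memV]; exact Or.inr (Or.inl rfl)
          · rw [h, memV]; exact Or.inr (Or.inr (Or.inr tz))
        have e1' : q * t * q⁻¹ ∈ V := by rw [e1, memV]; exact Or.inr (Or.inr (Or.inl rfl))
        rcases (memV y).1 hy with rfl | rfl | rfl | rfl
        · simp
        · exact e2'
        · exact e1'
        · have : q * (z * t) * q⁻¹ = (q * z * q⁻¹) * (q * t * q⁻¹) := by group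
          rw [this]; exact V.mul_mem e2' e1'
    refine XS.comm_mem_left hN ?_ x hx
    rintro a (ha | ha)
    · rcases comm_val S ha ((memE e).1 he).1 with h | h
      · rw [h]; exact V.one_mem
      · rw [h, memV]; exact Or.inr (Or.inl rfl)
    · rcases comm_val S' ha ((memE e).1 he).2 with h | h
      · rw [h]; exact V.one_mem
      · rw [h, memV]; exact Or.inr (Or.inr (Or.inl rfl))

end Cfsg.Agent.S5431
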