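import Cfsg.Statements.S5433

set_option autoImplicit false
open Cfsg

namespace Cfsg.Agent.S5433

theorem eq_of_card_two {G : Type*} [Group G] (Z : Subgroup G) (h : Nat.card Z = 2) {a b : G}
    (ha : a ∈ Z) (hb : b ∈ Z) (ha1 : a ≠ 1) (hb1 : b ≠ 1) : a = b := by
  obtain ⟨y, -, hy⟩ := (Nat.card_eq_two_iff' (1 : Z)).mp h
  have h1 := hy ⟨a, ha⟩ (by intro h; exact ha1 (congrArg Subtype.val h))
  have h2 := hy ⟨b, hb⟩ (by intro h; exact hb1 (congrArg Subtype.val h))
  exact congrArg Subtype.val (h1.trans h2.symm)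

/-- Let Q be a large extraspecial 2-subgroup of the finite group G (extraspecial; centralizer equal to its centre; normal in the centralizer of its centre; normalizing no non-trivial subgroup of odd order), and L a normal subgroup of G containing Q. Then G is the product of L and the normalizer of Q. -/
theorem result {G : Type*} [Group G] [Finite G] (Q : Subgroup G) (hQ : Cfsg.IsLargeExtraspecial Q) (L : Subgroup G) [L.Normal] (hQL : Q ≤ L) : L ⊔ Subgroup.normalizer (Q : Set G) = ⊤ := by
  have : Fact (Nat.Prime 2) := ⟨Nat.prime_two⟩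
  obtain ⟨⟨⟨hQ2, -, -⟩, hcard⟩, hCQ, hCZ, -⟩ := hQ
  set Z := (Subgroup.center Q).map Q.subtype with hZ
  have hZcard : Nat.card Z = 2 := by
    rw [hZ, Subgroup.card_map_of_injective Q.subtype_injective, hcard]
  have hQL2 : IsPGroup 2 (Q.subgroupOf L) := hQ2.comap_subtype
  obtain ⟨T, hT⟩ := hQL2.exists_le_sylow
  have hfrat := Sylow.normalizer_sup_eq_top T
  set TG := (T : Subgroup L).map L.subtype with hTG
  suffices key : Subgroup.normalizer (TG : Set G) ≤ Subgroup.normalizer (Q : Set G) by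
    rw [eq_top_iff, ← hfrat]
    exact sup_le (le_sup_of_le_right key) le_sup_left
  have hQT : Q ≤ TG := by
    intro q hq
    exact ⟨⟨q, hQL hq⟩, hT (Subgroup.mem_subgroupOf.mpr hq), rfl⟩
  -- nontrivial
  have hZne : ∃ z ∈ Z, z ≠ 1 := by
    obtain ⟨y, hy, -⟩ := (Nat.card_eq_two_iff' (1 : Z)).mp hZcard
    exact ⟨y, y.2, fun h => hy (Subtype.ext h)⟩
  obtain ⟨z, hzZ, hz1⟩ := hZne
  have hZQ : Z ≤ Q := Subgroup.map_subtype_le _
  have hTnt : Nontrivial (T : Subgroup L) := by
    refine ⟨⟨⟨⟨z, hQL (hZQ hzZ)⟩, hT (Subgroup.mem_subgroupOf.mpr (hZQ hzZ))⟩, 1, ?_⟩⟩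
    intro h
    apply hz1
    have := congrArg (fun x : (T : Subgroup L) => ((x : L) : G)) h
    simpa using this
  have hcn : Nontrivial (Subgroup.center (T : Subgroup L)) := T.isPGroup'.center_nontrivial
  obtain ⟨t, ht1⟩ := exists_ne (1 : Subgroup.center (T : Subgroup L))
  set tG : G := (((t : (T : Subgroup L)) : L) : G) with htG
  have htG1 : tG ≠ 1 := by
    intro h
    apply ht1
    apply Subtype.ext; apply Subtype.ext; apply Subtype.ext
    exact h
  have htTG : tG ∈ TG := ⟨_, (t : (T : Subgroup L)).2, rfl⟩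
  have htc : ∀ s ∈ TG, s * tG = tG * s := by
    rintro _ ⟨s, hs, rfl⟩
    have := Subgroup.mem_center_iff.mp t.2 ⟨s, hs⟩
    have := congrArg (fun x : (T : Subgroup L) => ((x : L) : G)) this
    simpa using this
  -- any nontrivial central element of TG equals z
  have hcen : ∀ u ∈ TG, (∀ s ∈ TG, s * u = u * s) → u ≠ 1 → u = z := by
    intro u _ huc hu1
    have huZ : u ∈ Z := by
      rw [← hCQ, Subgroup.mem_centralizer_iff]
      intro q hq
      exact huc q (hQT hq)
    exact eq_of_card_two Z hZcard huZ hzZ hu1 hz1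
  have htz : tG = z := hcen tG htTG htc htG1
  intro n hn
  apply hCZ
  rw [Subgroup.mem_centralizer_iff]
  intro y hy
  have hnz : n * z * n⁻¹ = z := by
    apply hcen
    · rw [← htz]
      exact (Subgroup.mem_normalizer_iff.mp hn tG).mp htTG
    · intro s hs
      have hs' : n⁻¹ * s * n ∈ TG := (Subgroup.mem_normalizer_iff''.mp hn s).mp hs
      have := htc _ hs'
      rw [htz] at this
      calc s * (n * z * n⁻¹) = n * ((n⁻¹ * s * n) * z) * n⁻¹ := by group
        _ = n * (z * (n⁻¹ * s * n)) * n⁻¹ := by rw [this]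
        _ = n * z * n⁻¹ * s := by group
    · intro h
      apply hz1
      have : z = n⁻¹ * (n * z * n⁻¹) * n := by group
      rw [this, h]; group
  by_cases hy1 : y = 1
  · rw [hy1]; simp
  · have : y = z := eq_of_card_two Z hZcard hy hzZ hy1 hz1
    rw [this]
    calc z * n = (n * z * n⁻¹) * n := by rw [hnz]
      _ = n * z := by group

end Cfsg.Agent.S5433
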