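import Cfsg.Statements.S5434
import Cfsg.Agent.H1.Coprime
import Cfsg.Agent.H1.Small2

set_option autoImplicit false

open Cfsg Subgroup
open scoped commutatorElement

namespace Cfsg.Agent.S5434

variable {G : Type*} [Group G] [Finite G]

/-- the derived group of an extraspecial subgroup, seen in `G`. -/
theorem comm_eq {Q : Subgroup G} (hQ : Cfsg.IsExtraspecial 2 ↥Q) :
    ⁅Q, Q⁆ = (Subgroup.center ↥Q).map Q.subtype := by
  rw [← hQ.1.2.2, _root_.commutator_def, Subgroup.map_commutator, ← MonoidHom.range_eq_map,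
    Subgroup.range_subtype]

theorem sq_mem {Q : Subgroup G} (hQ : Cfsg.IsExtraspecial 2 ↥Q) {x : G} (hx : x ∈ Q) :
    x ^ 2 ∈ (Subgroup.center ↥Q).map Q.subtype := by
  have : Fact (Nat.Prime 2) := ⟨Nat.prime_two⟩
  have h := (Cfsg.H1.frattini_pgroup_ge 2 hQ.1.1).2 ⟨x, hx⟩
  rw [hQ.1.2.1] at h
  exact ⟨_, h, rfl⟩

theorem card_Z {Q : Subgroup G} (hQ : Cfsg.IsExtraspecial 2 ↥Q) :
    Nat.card ↥((Subgroup.center ↥Q).map Q.subtype) = 2 := by
  rw [Subgroup.card_map_of_injective Q.subtype_injective]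
  exact hQ.2

theorem mem_Z_iff {Q : Subgroup G} {x : G} :
    x ∈ (Subgroup.center ↥Q).map Q.subtype ↔ x ∈ Q ∧ ∀ y ∈ Q, y * x = x * y := by
  constructor
  · rintro ⟨⟨x, hx⟩, h, rfl⟩
    refine ⟨hx, fun y hy => ?_⟩
    have := Subgroup.mem_center_iff.1 h ⟨y, hy⟩
    exact congrArg Subtype.val this
  · rintro ⟨hx, h⟩
    refine ⟨⟨x, hx⟩, ?_, rfl⟩
    show (⟨x, hx⟩ : ↥Q) ∈ Subgroup.center ↥Q
    rw [Subgroup.mem_center_iff]
    rintro ⟨y, hy⟩
    exact Subtype.ext (h y hy)

/-- A non-abelian subgroup of an extraspecial `2`-group whose centre lies in the big centre is extraspecial. -/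
theorem extraspecial_of_le {Q R : Subgroup G} (hQ : Cfsg.IsExtraspecial 2 ↥Q) (hRQ : R ≤ Q)
    (hna : ∃ x ∈ R, ∃ y ∈ R, x * y ≠ y * x)
    (hc : ∀ x ∈ R, (∀ y ∈ R, y * x = x * y) → x ∈ (Subgroup.center ↥Q).map Q.subtype) :
    Cfsg.IsExtraspecial 2 ↥R := by
  have : Fact (Nat.Prime 2) := ⟨Nat.prime_two⟩
  set Z := (Subgroup.center ↥Q).map Q.subtype with hZ
  have hRp : IsPGroup 2 ↥R := hQ.1.1.to_le hRQ
  have hRR : ⁅R, R⁆ = Z := by
    have hle : ⁅R, R⁆ ≤ Z := by
      rw [hZ, ← comm_eq hQ]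
      exact Subgroup.commutator_mono hRQ hRQ
    refine Subgroup.eq_of_le_of_card_ge hle ?_
    rw [card_Z hQ]
    by_contra hlt
    have h1 : Nat.card ↥⁅R, R⁆ = 1 := by
      have : 0 < Nat.card ↥⁅R, R⁆ := Nat.card_pos
      omega
    have h2 : ⁅R, R⁆ = ⊥ := Subgroup.card_eq_one.1 h1
    obtain ⟨x, hx, y, hy, hxy⟩ := hna
    have h3 : ⁅x, y⁆ ∈ ⁅R, R⁆ := Subgroup.commutator_mem_commutator hx hy
    rw [h2, Subgroup.mem_bot, commutatorElement_eq_one_iff_mul_comm] at h3
    exact hxy h3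
  have hZR : Z ≤ R := hRR ▸ Subgroup.commutator_le.2 (fun a ha b hb =>
    R.mul_mem (R.mul_mem (R.mul_mem ha hb) (R.inv_mem ha)) (R.inv_mem hb))
  have hcen : (Subgroup.center ↥R).map R.subtype = Z := by
    apply le_antisymm
    · intro x hx
      obtain ⟨hxR, h⟩ := mem_Z_iff.1 hx
      exact hc x hxR h
    · intro x hx
      refine mem_Z_iff.2 ⟨hZR hx, fun y hy => ?_⟩
      exact (mem_Z_iff.1 hx).2 y (hRQ hy)
  have hcomm : commutator ↥R = Subgroup.center ↥R := by
    apply Subgroup.map_injective R.subtype_injective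
    rw [hcen, ← hRR, _root_.commutator_def, Subgroup.map_commutator, ← MonoidHom.range_eq_map,
      Subgroup.range_subtype]
  refine ⟨⟨hRp, ?_, hcomm⟩, ?_⟩
  · apply le_antisymm
    · refine Cfsg.H1.frattini_pgroup_le 2 (Subgroup.center ↥R) hcomm.le ?_
      rintro ⟨x, hx⟩
      have h1 : x ^ 2 ∈ Z := sq_mem hQ (hRQ hx)
      rw [← hcen] at h1
      obtain ⟨y, hy, hyx⟩ := h1
      have : y = (⟨x, hx⟩ : ↥R) ^ 2 := Subtype.ext hyx
      rw [← this]; exact hy
    · rw [← hcomm]
      exact (Cfsg.H1.frattini_pgroup_ge 2 hRp).1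
  · rw [← Subgroup.card_map_of_injective R.subtype_injective, hcen]
    exact card_Z hQ

theorem result {G : Type*} [Group G] [Finite G] (Q : Subgroup G) (hQ : Cfsg.IsLargeExtraspecial Q) (A : Subgroup G) (hA : A ≤ Subgroup.normalizer (Q : Set G)) (hAodd : Odd (Nat.card ↥A)) (hA1 : A ≠ ⊥) : (Q ⊓ Subgroup.centralizer (A : Set G)) ⊔ ⁅Q, A⁆ = Q ∧ (∀ x ∈ Q ⊓ Subgroup.centralizer (A : Set G), ∀ y ∈ ⁅Q, A⁆, x * y = y * x) ∧ Cfsg.IsExtraspecial 2 ↥⁅Q, A⁆ ∧ (Q ⊓ Subgroup.centralizer (A : Set G) = ((Subgroup.center ↥Q).map Q.subtype) ∨ Cfsg.IsExtraspecial 2 ↥(Q ⊓ Subgroup.centralizer (A : Set G))) := by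
  have : Fact (Nat.Prime 2) := ⟨Nat.prime_two⟩
  obtain ⟨hE, hCQ, -, -⟩ := hQ
  set Z := (Subgroup.center ↥Q).map Q.subtype with hZ
  set C := Q ⊓ Subgroup.centralizer (A : Set G) with hC
  set R := ⁅Q, A⁆ with hR
  have hQp : IsPGroup 2 ↥Q := hE.1.1
  have hcop : (Nat.card A).Coprime (Nat.card Q) := by
    obtain ⟨t, ht⟩ := IsPGroup.iff_card.1 hQp
    rw [ht]
    exact Nat.Coprime.pow_right _ (Nat.coprime_two_right.2 hAodd)
  have hsolv : Group.IsSolvable A ∨ Group.IsSolvable Q := by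
    right
    have := hQp.isNilpotent
    infer_instance
  have hdec : R ⊔ C = Q := Cfsg.H1.coprime_commutator_sup_centralizer A Q hA hcop hsolv
  have hstab : ⁅R, A⁆ = R := Cfsg.H1.coprime_commutator_stable A Q hA hcop hsolv
  have hRQ : R ≤ Q := Cfsg.H1.commutator_le_of_le_normalizer hA
  have hCle : C ≤ Q := inf_le_left
  -- `A` centralizes `Z`
  have hZA : ⁅Z, A⁆ = ⊥ := by
    rw [Subgroup.commutator_eq_bot_iff_le_centralizer]
    intro x hx
    rw [Subgroup.mem_centralizer_iff]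
    intro a ha
    have haN := hA ha
    have h1 : a * x * a⁻¹ ∈ Z := by
      rw [← hCQ, Subgroup.mem_centralizer_iff]
      intro q hq
      have hq' : a⁻¹ * q * a ∈ Q := by
        have := (Subgroup.mem_normalizer_iff.1 (Subgroup.inv_mem _ haN) q).1 hq
        simpa using this
      have hx' : x ∈ Subgroup.centralizer (Q : Set G) := hCQ ▸ hx
      have h2 := Subgroup.mem_centralizer_iff.1 hx' _ hq'
      calc q * (a * x * a⁻¹) = a * ((a⁻¹ * q * a) * x) * a⁻¹ := by group
        _ = a * (x * (a⁻¹ * q * a)) * a⁻¹ := by rw [h2]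
        _ = a * x * a⁻¹ * q := by group
    obtain ⟨w, -, hw⟩ := (Nat.card_eq_two_iff' (1 : ↥Z)).1 (card_Z hE)
    by_cases hx1 : x = 1
    · subst hx1; simp
    · have e1 := hw ⟨x, hx⟩ (fun h => hx1 (congrArg Subtype.val h))
      have e2 := hw ⟨a * x * a⁻¹, h1⟩ (fun h => hx1 (by
        have h3 : a * x * a⁻¹ = 1 := congrArg Subtype.val h
        have : x = a⁻¹ * (a * x * a⁻¹) * a := by group
        rw [this, h3]; group))
      have e3 : a * x * a⁻¹ = x := congrArg Subtype.val (e2.trans e1.symm)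
      calc a * x = (a * x * a⁻¹) * a := by group
        _ = x * a := by rw [e3]
  have hRC : ⁅R, C⁆ = ⊥ := by
    apply Subgroup.commutator_commutator_eq_bot_of_rotate
    · have : ⁅A, C⁆ = ⊥ := by
        rw [Subgroup.commutator_eq_bot_iff_le_centralizer, Subgroup.le_centralizer_iff]
        exact inf_le_right
      rw [this]
      exact Subgroup.commutator_bot_left _
    · have h1 : ⁅C, Q⁆ ≤ Z := by
        rw [hZ, ← comm_eq hE]
        exact Subgroup.commutator_mono hCle le_rfl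
      rw [eq_bot_iff, ← hZA]
      exact Subgroup.commutator_mono h1 le_rfl
  have hcomm : ∀ x ∈ C, ∀ y ∈ R, x * y = y * x := by
    intro x hx y hy
    have h3 : ⁅y, x⁆ ∈ ⁅R, C⁆ := Subgroup.commutator_mem_commutator hy hx
    rw [hRC, Subgroup.mem_bot, commutatorElement_eq_one_iff_mul_comm] at h3
    exact h3.symm
  -- an element of `Q` commuting with `R` and `C` is in `Z`
  have hkey : ∀ x ∈ Q, (∀ y ∈ R, y * x = x * y) → (∀ y ∈ C, y * x = x * y) → x ∈ Z := by
    intro x hx h1 h2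
    refine mem_Z_iff.2 ⟨hx, ?_⟩
    have h3 : R ⊔ C ≤ Subgroup.centralizer {x} := by
      refine sup_le ?_ ?_
      · intro y hy
        rw [Subgroup.mem_centralizer_singleton_iff]
        exact h1 y hy
      · intro y hy
        rw [Subgroup.mem_centralizer_singleton_iff]
        exact h2 y hy
    intro y hy
    rw [← hdec] at hy
    exact Subgroup.mem_centralizer_singleton_iff.1 (h3 hy)
  refine ⟨by rw [sup_comm]; exact hdec, hcomm, ?_, ?_⟩
  · refine extraspecial_of_le hE hRQ ?_ ?_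
    · by_contra hab
      push Not at hab
      have h1 : R ≤ Z := by
        intro x hx
        exact hkey x (hRQ hx) (fun y hy => hab y hy x hx) (fun y hy => hcomm y hy x hx)
      have h2 : R = ⊥ := by
        rw [eq_bot_iff, ← hZA, ← hstab]
        exact Subgroup.commutator_mono h1 le_rfl
      have h3 : A ≤ Z := by
        rw [← hCQ, ← Subgroup.commutator_eq_bot_iff_le_centralizer, Subgroup.commutator_comm]
        exact h2
      have h4 : Nat.card ↥A ∣ 2 := (card_Z hE) ▸ Subgroup.card_dvd_of_le h3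
      have h5 : Nat.card ↥A = 1 := by
        rcases (Nat.dvd_prime Nat.prime_two).1 h4 with h | h
        · exact h
        · rw [h] at hAodd; exact absurd hAodd (by decide)
      exact hA1 (Subgroup.card_eq_one.1 h5)
    · intro x hx h
      exact hkey x (hRQ hx) h (fun y hy => hcomm y hy x hx)
  · by_cases hab : ∃ x ∈ C, ∃ y ∈ C, x * y ≠ y * x
    · right
      refine extraspecial_of_le hE hCle hab ?_
      intro x hx h
      exact hkey x (hCle hx) (fun y hy => (hcomm x hx y hy).symm) h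
    · left
      push Not at hab
      apply le_antisymm
      · intro x hx
        exact hkey x (hCle hx) (fun y hy => (hcomm x hx y hy).symm) (fun y hy => hab y hy x hx)
      · intro x hx
        refine ⟨(mem_Z_iff.1 hx).1, ?_⟩
        have : Z ≤ Subgroup.centralizer (A : Set G) := by
          rw [← Subgroup.commutator_eq_bot_iff_le_centralizer]
          exact hZA
        exact this hx

end Cfsg.Agent.S5434
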