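import Cfsg.Statements.S5436
import Cfsg.Agent.Lib.Helper27.XS
import Cfsg.Agent.S1265

set_option autoImplicit false

open Cfsg Subgroup
open scoped commutatorElement
open Cfsg.Agent.Lib.Helper27

namespace Cfsg.Agent.S5436

theorem aux {G : Type*} [Group G] [Finite G] (z : G) (hz : orderOf z = 2) (H : Subgroup G) (hH : H = Subgroup.centralizer ({z} : Set G)) (Q : Subgroup H) [Q.Normal] (hF : Cfsg.generalizedFittingSubgroup ↥H = Q) (hQ : Cfsg.IsExtraspecial 2 ↥Q) (hnwc : ∃ g : G, (∃ hq : g * z * g⁻¹ ∈ H, (⟨g * z * g⁻¹, hq⟩ : H) ∈ Q) ∧ g * z * g⁻¹ ≠ z) (hsimp : IsSimpleGroup (↥H ⧸ Q)) (hirr : ∀ W : Subgroup H, W.Normal → W ≤ Q → (W = Q ∨ ∀ x ∈ W, (x : G) ∈ Subgroup.zpowers z)) (hwcl : Subgroup.closure {x : H | IsConj z (x : G)} ≠ Q) : IsSimpleGroup G := by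
  have hp2 : Fact (Nat.Prime 2) := ⟨Nat.prime_two⟩
  have hQn : Q.Normal := inferInstance
  have hz1 : z ≠ 1 := by rintro rfl; simp at hz
  have hzz : z * z = 1 := by rw [← pow_two, ← hz]; exact pow_orderOf_eq_one z
  have memH : ∀ x : G, x ∈ H ↔ x * z = z * x := fun x => by
    rw [hH]; exact Subgroup.mem_centralizer_singleton_iff
  have hzH : z ∈ H := (memH z).2 rfl
  set zH : ↥H := ⟨z, hzH⟩ with hzHdef
  have hCQ : Subgroup.centralizer (Q : Set ↥H) ≤ Q := by
    have := Cfsg.Agent.S1265.result (G := ↥H)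
    rwa [hF] at this
  have hzcen : ∀ x : ↥H, x * zH = zH * x := fun x => Subtype.ext ((memH _).1 x.2)
  have hzQ : zH ∈ Q := hCQ (Subgroup.mem_centralizer_iff.2 (fun q _ => hzcen q))
  have hzZ : zH ∈ (Subgroup.center ↥Q).map Q.subtype := XS.mem_Z_iff.2 ⟨hzQ, fun y _ => hzcen y⟩
  have hzH1 : zH ≠ 1 := fun h => hz1 (congrArg Subtype.val h)
  -- elements of G centralizing Q
  have hcent : ∀ c : G, (∀ q : ↥H, q ∈ Q → (q : G) * c = c * q) → c = 1 ∨ c = z := by
    intro c hc
    have hcH : c ∈ H := (memH c).2 (hc zH hzQ).symm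
    have h1 : (⟨c, hcH⟩ : ↥H) ∈ Subgroup.centralizer (Q : Set ↥H) :=
      Subgroup.mem_centralizer_iff.2 (fun q hq => Subtype.ext (hc q hq))
    have h2 : (⟨c, hcH⟩ : ↥H) ∈ (Subgroup.center ↥Q).map Q.subtype :=
      XS.mem_Z_iff.2 ⟨hCQ h1, fun y hy => Subtype.ext (hc y hy)⟩
    rcases XS.eq_of_mem_Z hQ hzZ hzH1 h2 with h | h
    · left; exact congrArg Subtype.val h
    · right; exact congrArg Subtype.val h
  have hzp : ∀ x ∈ Subgroup.zpowers z, x = 1 ∨ x = z := by
    intro x hx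
    obtain ⟨k, rfl⟩ := Subgroup.mem_zpowers_iff.1 hx
    rcases Int.even_or_odd' k with ⟨m, rfl | rfl⟩
    · left; rw [zpow_mul, zpow_two, hzz, one_zpow]
    · right; rw [zpow_add, zpow_mul, zpow_two, hzz, one_zpow, one_mul, zpow_one]
  obtain ⟨g, ⟨htH, htQ⟩, htz⟩ := hnwc
  obtain ⟨t, ht⟩ : ∃ t, t = g * z * g⁻¹ := ⟨_, rfl⟩
  simp only [← ht] at htH htQ htz
  have ht1 : t ≠ 1 := by
    intro h
    apply hz1
    have : z = g⁻¹ * t * g := by rw [ht]; group
    rw [this, h]; group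
  have htZ : (⟨t, htH⟩ : ↥H) ∉ (Subgroup.center ↥Q).map Q.subtype := by
    intro h
    rcases XS.eq_of_mem_Z hQ hzZ hzH1 h with h | h
    · exact ht1 (congrArg Subtype.val h)
    · exact htz (congrArg Subtype.val h)
  obtain ⟨q, hq, hqt⟩ := XS.exists_conj_mul hQ hzZ hzH1 htQ htZ
  have hqt' : (q : G) * t * (q : G)⁻¹ = z * t := congrArg Subtype.val hqt
  have htnz : t ∉ Subgroup.zpowers z := fun h => (hzp t h).elim ht1 htz
  refine { exists_pair_ne := ⟨z, 1, hz1⟩, eq_bot_or_eq_top_of_normal := ?_ }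
  intro N hN
  by_contra hcon
  push Not at hcon
  obtain ⟨hNbot, hNtop⟩ := hcon
  -- Step A
  have hA : ∃ n ∈ N, n ≠ 1 ∧ n * z = z * n := by
    by_contra hno
    push Not at hno
    have hfix : ∀ y : G, ∀ n ∈ N, n * (y * z * y⁻¹) = (y * z * y⁻¹) * n → n = 1 := by
      intro y n hn h
      by_contra hn1
      have h1 : y⁻¹ * n * y ∈ N := by simpa using hN.conj_mem n hn y⁻¹
      have h2 : y⁻¹ * n * y ≠ 1 := by
        intro h3
        apply hn1
        have : n = y * (y⁻¹ * n * y) * y⁻¹ := by group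
        rw [this, h3]; group
      apply hno _ h1 h2
      calc y⁻¹ * n * y * z = y⁻¹ * (n * (y * z * y⁻¹)) * y := by group
        _ = y⁻¹ * ((y * z * y⁻¹) * n) * y := by rw [h]
        _ = z * (y⁻¹ * n * y) := by group
    have hsq : ∀ y : G, (y * z * y⁻¹) * (y * z * y⁻¹) = 1 := by
      intro y
      have : (y * z * y⁻¹) * (y * z * y⁻¹) = y * (z * z) * y⁻¹ := by group
      rw [this, hzz]; group
    have i1 := XS.inverts_of_fpf N (hsq 1) (hfix 1)
    have i2 := XS.inverts_of_fpf N (hsq g) (hfix g)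
    have i3 := XS.inverts_of_fpf N (hsq (q * g)) (hfix (q * g))
    have e3 : (q : G) * g * z * ((q : G) * g)⁻¹ = z * t := by
      rw [← hqt', ht]; group
    rw [e3] at i3
    rw [← ht] at i2
    simp only [one_mul, inv_one, mul_one] at i1
    apply hNbot
    rw [eq_bot_iff]
    intro n hn
    have j1 := i1 n hn
    have j2 := i2 n hn
    have j3 := i3 n hn
    have j4 := i1 n⁻¹ (N.inv_mem hn)
    have j5 : z * t * n * (z * t)⁻¹ = n := by
      calc z * t * n * (z * t)⁻¹ = z * (t * n * t⁻¹) * z⁻¹ := by group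
        _ = n := by rw [j2, j4, inv_inv]
    have j6 : n⁻¹ = n := j3.symm.trans j5
    rw [Subgroup.mem_bot]
    by_contra hn1
    apply hno n hn hn1
    rw [j6] at j1
    calc n * z = (z * n * z⁻¹) * z := by rw [j1]
      _ = z * n := by group
  obtain ⟨n, hnN, hn1, hnz⟩ := hA
  obtain ⟨K, hK⟩ : ∃ K : Subgroup ↥H, K = N.subgroupOf H := ⟨_, rfl⟩
  have hKn : K.Normal := by rw [hK]; infer_instance
  have memK : ∀ x : ↥H, x ∈ K ↔ (x : G) ∈ N := by
    intro x; rw [hK]; exact Subgroup.mem_subgroupOf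
  have hnH : n ∈ H := (memH n).2 hnz
  have hzN : z ∈ N := by
    have hx : ∃ x : ↥H, x ∈ K ∧ x ∈ Q ∧ x ≠ 1 := by
      by_cases hc : (⟨n, hnH⟩ : ↥H) ∈ Subgroup.centralizer (Q : Set ↥H)
      · exact ⟨⟨n, hnH⟩, (memK _).2 hnN, hCQ hc, fun h => hn1 (congrArg Subtype.val h)⟩
      · rw [Subgroup.mem_centralizer_iff] at hc
        push Not at hc
        obtain ⟨q', hq', hne⟩ := hc
        have hnK : (⟨n, hnH⟩ : ↥H) ∈ K := (memK _).2 hnN
        refine ⟨⁅(⟨n, hnH⟩ : ↥H), q'⁆, ?_, ?_, ?_⟩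
        · rw [commutatorElement_def]
          have := K.mul_mem hnK (hKn.conj_mem _ (K.inv_mem hnK) q')
          simpa [mul_assoc] using this
        · rw [commutatorElement_def]
          exact Q.mul_mem (hQn.conj_mem _ hq' _) (Q.inv_mem hq')
        · rw [Ne, commutatorElement_eq_one_iff_mul_comm]; exact fun h => hne h.symm
    obtain ⟨x, hxK, hxQ, hx1⟩ := hx
    by_cases hxZ : x ∈ (Subgroup.center ↥Q).map Q.subtype
    · rcases XS.eq_of_mem_Z hQ hzZ hzH1 hxZ with h | h
      · exact absurd h hx1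
      · have := (memK _).1 hxK; rw [h] at this; exact this
    · obtain ⟨q', hq', hq'x⟩ := XS.exists_conj_mul hQ hzZ hzH1 hxQ hxZ
      have : zH = q' * x * q'⁻¹ * x⁻¹ := by rw [hq'x]; group
      have h2 : zH ∈ K := by rw [this]; exact K.mul_mem (hKn.conj_mem _ hxK _) (K.inv_mem hxK)
      exact (memK _).1 h2
  have htN : t ∈ N := ht ▸ hN.conj_mem z hzN g
  have hQK : Q ≤ K := by
    have hW : (K ⊓ Q).Normal := inferInstance
    rcases hirr (K ⊓ Q) hW inf_le_right with h | h
    · rw [← h]; exact inf_le_left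
    · exact absurd (h ⟨t, htH⟩ ⟨(memK _).2 htN, htQ⟩) htnz
  have hKtop : K = ⊤ := by
    have hmapn : (K.map (QuotientGroup.mk' Q)).Normal := hKn.map _ (QuotientGroup.mk'_surjective Q)
    rcases hsimp.eq_bot_or_eq_top_of_normal _ hmapn with h | h
    · exfalso
      have hKQ : K ≤ Q := by
        rw [Subgroup.map_eq_bot_iff, QuotientGroup.ker_mk'] at h; exact h
      apply hwcl
      obtain ⟨W, hWdef⟩ : ∃ W : Subgroup ↥H, W = Subgroup.closure {x : ↥H | IsConj z (x : G)} :=
        ⟨_, rfl⟩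
      rw [← hWdef]
      have hWn : W.Normal := by
        constructor
        intro x hx y
        rw [hWdef] at hx ⊢
        induction hx using Subgroup.closure_induction with
        | mem a ha =>
          apply Subgroup.subset_closure
          show IsConj z ((y * a * y⁻¹ : ↥H) : G)
          have ha' : IsConj z (a : G) := ha
          refine ha'.trans ?_
          exact isConj_iff.2 ⟨(y : G), rfl⟩
        | one => simp
        | mul a b _ _ iha ihb =>
          have : y * (a * b) * y⁻¹ = (y * a * y⁻¹) * (y * b * y⁻¹) := by group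
          rw [this]; exact Subgroup.mul_mem _ iha ihb
        | inv a _ iha =>
          have : y * a⁻¹ * y⁻¹ = (y * a * y⁻¹)⁻¹ := by group
          rw [this]; exact Subgroup.inv_mem _ iha
      have hWQ : W ≤ Q := by
        rw [hWdef, Subgroup.closure_le]
        intro x hx
        apply hKQ
        rw [memK]
        obtain ⟨c, hc⟩ := isConj_iff.1 (show IsConj z (x : G) from hx)
        rw [← hc]; exact hN.conj_mem z hzN c
      rcases hirr W hWn hWQ with h | h
      · exact h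
      · refine absurd (h ⟨t, htH⟩ ?_) htnz
        rw [hWdef]
        apply Subgroup.subset_closure
        exact isConj_iff.2 ⟨g, ht.symm⟩
    · have := congrArg (Subgroup.comap (QuotientGroup.mk' Q)) h
      rw [Subgroup.comap_map_eq, QuotientGroup.ker_mk', Subgroup.comap_top, sup_eq_left.2 hQK] at this
      exact this
  have hHN : H ≤ N := by
    intro x hx
    have : (⟨x, hx⟩ : ↥H) ∈ K := hKtop ▸ Subgroup.mem_top _
    exact (memK _).1 this
  have hQGp : IsPGroup 2 ↥(Q.map H.subtype) := hQ.1.1.map _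
  obtain ⟨P, hQP⟩ := hQGp.exists_le_sylow
  have hPz : ∀ c : G, c ≠ 1 → (∀ x ∈ (P : Subgroup G), x * c = c * x) → c = z := by
    intro c hc1 hc
    rcases hcent c (fun q hq => hc _ (hQP ⟨q, hq, rfl⟩)) with h | h
    · exact absurd h hc1
    · exact h
  have hPnt : Nontrivial ↥(P : Subgroup G) :=
    ⟨⟨⟨z, hQP ⟨zH, hzQ, rfl⟩⟩, 1, fun h => hz1 (congrArg Subtype.val h)⟩⟩
  have hcenP := P.2.center_nontrivial
  obtain ⟨c, hc⟩ := exists_ne (1 : Subgroup.center ↥(P : Subgroup G))
  have hzP : ∀ x ∈ (P : Subgroup G), x * z = z * x := by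
    have hcz : ((c : ↥(P : Subgroup G)) : G) = z := by
      apply hPz
      · intro h
        apply hc
        exact Subtype.ext (Subtype.ext h)
      · intro x hx
        have := Subgroup.mem_center_iff.1 c.2 ⟨x, hx⟩
        exact congrArg Subtype.val this
    intro x hx
    rw [← hcz]
    have := Subgroup.mem_center_iff.1 c.2 ⟨x, hx⟩
    exact congrArg Subtype.val this
  have hPH : (P : Subgroup G) ≤ H := fun x hx => (memH x).2 (hzP x hx)
  have hNP : Subgroup.normalizer ((P : Subgroup G) : Set G) ≤ H := by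
    intro x hx
    rw [memH]
    have h1 : x * z * x⁻¹ = z := by
      apply hPz
      · intro h
        apply hz1
        have : z = x⁻¹ * (x * z * x⁻¹) * x := by group
        rw [this, h]; group
      · intro y hy
        have hy' : x⁻¹ * y * x ∈ (P : Subgroup G) := by
          have := (Subgroup.mem_normalizer_iff.1 (Subgroup.inv_mem _ hx) y).1 hy
          simpa using this
        have h2 := hzP _ hy'
        calc y * (x * z * x⁻¹) = x * ((x⁻¹ * y * x) * z) * x⁻¹ := by group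
          _ = x * (z * (x⁻¹ * y * x)) * x⁻¹ := by rw [h2]
          _ = x * z * x⁻¹ * y := by group
    calc x * z = (x * z * x⁻¹) * x := by group
      _ = z * x := by rw [h1]
  have hfr := Sylow.normalizer_sup_eq_top' P (hPH.trans hHN)
  apply hNtop
  rw [eq_top_iff, ← hfr]
  exact sup_le (hNP.trans hHN) le_rfl

theorem result {G : Type*} [Group G] [Finite G] (z : G) (hz : orderOf z = 2) (Q : Subgroup (Subgroup.centralizer ({z} : Set G))) [Q.Normal] (hF : Cfsg.generalizedFittingSubgroup ↥(Subgroup.centralizer ({z} : Set G)) = Q) (hQ : Cfsg.IsExtraspecial 2 ↥Q) (w : ℕ) (hw : 2 ≤ w) (hcard : Nat.card ↥Q = 2 ^ (2 * w + 1)) (hnwc : ∃ g : G, (∃ hq : g * z * g⁻¹ ∈ Subgroup.centralizer ({z} : Set G), (⟨g * z * g⁻¹, hq⟩ : Subgroup.centralizer ({z} : Set G)) ∈ Q) ∧ g * z * g⁻¹ ≠ z) (hsimp : IsSimpleGroup (↥(Subgroup.centralizer ({z} : Set G)) ⧸ Q)) (hna : ¬ IsMulCommutative (↥(Subgroup.centralizer ({z} : Set G)) ⧸ Q)) (hirr : ∀ W : Subgroup (Subgroup.centralizer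 ({z} : Set G)), W.Normal → W ≤ Q → (W = Q ∨ ∀ x ∈ W, (x : G) ∈ Subgroup.zpowers z)) (hwcl : Subgroup.closure {x : Subgroup.centralizer ({z} : Set G) | IsConj z (x : G)} ≠ Q) : IsSimpleGroup G :=
  aux z hz _ rfl Q hF hQ hnwc hsimp hirr hwcl

end Cfsg.Agent.S5436
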