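import Cfsg.Statements.S5437

set_option autoImplicit false
open Cfsg

namespace Cfsg.Agent.S5437

theorem mem_map_conj {G : Type*} [Group G] (H : Subgroup G) (g x : G) :
    x ∈ H.map (MulAut.conj g).toMonoidHom ↔ g⁻¹ * x * g ∈ H := by
  constructor
  · rintro ⟨y, hy, rfl⟩
    have : g⁻¹ * ((MulAut.conj g).toMonoidHom y) * g = y := by
      simp [MulAut.conj_apply, mul_assoc]
    rw [this]; exact hy
  · intro h
    refine ⟨g⁻¹ * x * g, h, ?_⟩
    simp [MulAut.conj_apply, mul_assoc]

theorem smul_coset_eq {G : Type*} [Group G] (H : Subgroup G) (g x : G) :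
    x • (g : G ⧸ H) = (g : G ⧸ H) ↔ g⁻¹ * x * g ∈ H := by
  have h1 : x • (g : G ⧸ H) = ((x * g : G) : G ⧸ H) := rfl
  rw [h1, eq_comm, QuotientGroup.eq, ← mul_assoc]

/-- Let I be a set of involutions of the finite group G closed under conjugation, and H a subgroup of G. The following are equivalent: (1) for every member x of I lying in H, the conjugates of x lying in H form a single H-class and the centralizer of x lies in H; (2) for every g outside H, no member of I lies in both H and g H g⁻¹; (3) every member of I lying in H fixes exactly one coset in the action of G on the cosets of H. -/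
theorem result {G : Type*} [Group G] [Finite G] (I : Set G) (hI : ∀ x ∈ I, orderOf x = 2) (hIc : ∀ g : G, ∀ x ∈ I, g * x * g⁻¹ ∈ I) (H : Subgroup G) : ((∀ x ∈ I, x ∈ H → (∀ g : G, g * x * g⁻¹ ∈ H → ∃ h ∈ H, h * x * h⁻¹ = g * x * g⁻¹) ∧ Subgroup.centralizer ({x} : Set G) ≤ H) ↔ (∀ g : G, g ∉ H → ∀ x ∈ I, ¬ (x ∈ H ∧ x ∈ (H : Subgroup G).map (MulAut.conj g).toMonoidHom))) ∧ ((∀ g : G, g ∉ H → ∀ x ∈ I, ¬ (x ∈ H ∧ x ∈ (H : Subgroup G).map (MulAut.conj g).toMonoidHom)) ↔ ∀ x ∈ I, x ∈ H → ∃! c : G ⧸ H, x • c = c) := by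
  simp only [mem_map_conj]
  refine ⟨⟨?_, ?_⟩, ⟨?_, ?_⟩⟩
  · intro h1 g hg x hx ⟨hxH, hxg⟩
    apply hg
    set y := g⁻¹ * x * g with hy
    have hyI : y ∈ I := by
      have := hIc g⁻¹ x hx
      rwa [inv_inv] at this
    have hgy : g * y * g⁻¹ = x := by rw [hy]; group
    obtain ⟨hfus, hcent⟩ := h1 y hyI hxg
    obtain ⟨h, hh, hhy⟩ := hfus g (by rw [hgy]; exact hxH)
    have hc : g⁻¹ * h ∈ Subgroup.centralizer ({y} : Set G) := by
      rw [Subgroup.mem_centralizer_singleton_iff]
      have : h * y = g * y * g⁻¹ * h := by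
        rw [← hhy]; group
      calc g⁻¹ * h * y = g⁻¹ * (h * y) := by group
        _ = g⁻¹ * (g * y * g⁻¹ * h) := by rw [this]
        _ = y * (g⁻¹ * h) := by group
    have h2 : g⁻¹ * h ∈ H := hcent hc
    have h3 : g⁻¹ ∈ H := by
      have := H.mul_mem h2 (H.inv_mem hh)
      simpa using this
    simpa using H.inv_mem h3
  · intro h2 x hx hxH
    constructor
    · intro g hg
      refine ⟨g, ?_, rfl⟩
      by_contra hgH
      apply h2 g hgH (g * x * g⁻¹) (hIc g x hx)
      refine ⟨hg, ?_⟩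
      have : g⁻¹ * (g * x * g⁻¹) * g = x := by group
      rw [this]; exact hxH
    · intro c hc
      by_contra hcH
      apply h2 c hcH x hx
      refine ⟨hxH, ?_⟩
      rw [Subgroup.mem_centralizer_singleton_iff] at hc
      have : c⁻¹ * x * c = x := by
        calc c⁻¹ * x * c = c⁻¹ * (x * c) := by group
          _ = c⁻¹ * (c * x) := by rw [hc]
          _ = x := by group
      rw [this]; exact hxH
  · intro h2 x hx hxH
    refine ⟨((1 : G) : G ⧸ H), ?_, ?_⟩
    · show x • ((1 : G) : G ⧸ H) = _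
      rw [smul_coset_eq]
      simpa using hxH
    · intro c hc
      induction c using QuotientGroup.induction_on with
      | H g =>
        have hc' : x • (g : G ⧸ H) = (g : G ⧸ H) := hc
        rw [smul_coset_eq] at hc'
        have hgH : g ∈ H := by
          by_contra hgH
          exact h2 g hgH x hx ⟨hxH, hc'⟩
        rw [eq_comm, QuotientGroup.eq]
        simpa using hgH
  · intro h3 g hg x hx ⟨hxH, hxg⟩
    apply hg
    obtain ⟨c, -, huniq⟩ := h3 x hx hxH
    have e1 : ((1 : G) : G ⧸ H) = c := huniq _ ((smul_coset_eq H 1 x).mpr (by simpa using hxH))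
    have e2 : (g : G ⧸ H) = c := huniq _ ((smul_coset_eq H g x).mpr hxg)
    have : ((1 : G) : G ⧸ H) = (g : G ⧸ H) := e1.trans e2.symm
    rw [QuotientGroup.eq] at this
    simpa using this

end Cfsg.Agent.S5437
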