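import Cfsg.Statements.S5438

set_option autoImplicit false
open Cfsg

namespace Cfsg.Agent.S5438

theorem mem_smul_sylow {G : Type*} [Group G] {p : ℕ} (g x : G) (P : Sylow p G) :
    x ∈ (g • P : Sylow p G) ↔ g⁻¹ * x * g ∈ P := by
  have h0 : x ∈ (g • P : Sylow p G) ↔ x ∈ ((g • P : Sylow p G) : Subgroup G) := Iff.rfl
  have h1 : g⁻¹ * x * g ∈ P ↔ g⁻¹ * x * g ∈ (P : Subgroup G) := Iff.rfl
  rw [h0, h1, Sylow.coe_subgroup_smul, Subgroup.mem_pointwise_smul_iff_inv_smul_mem, ← map_inv,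
    MulAut.smul_def, MulAut.conj_apply, inv_inv]

theorem orderOf_conj' {G : Type*} [Group G] (g x : G) : orderOf (g * x * g⁻¹) = orderOf x := by
  have : SemiconjBy g x (g * x * g⁻¹) := by
    show g * x = g * x * g⁻¹ * g
    group
  exact (this.orderOf_eq).symm

theorem isPGroup_zpowers {G : Type*} [Group G] {p : ℕ} {x : G} {k : ℕ} (h : orderOf x = p ^ k) :
    IsPGroup p (Subgroup.zpowers x) := by
  rintro ⟨y, hy⟩
  refine ⟨k, ?_⟩
  obtain ⟨n, rfl⟩ := Subgroup.mem_zpowers_iff.mp hy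
  apply Subtype.ext
  simp only [Subgroup.coe_pow, Subgroup.coe_one]
  rw [← zpow_natCast, ← zpow_mul, mul_comm, zpow_mul, zpow_natCast, ← h, pow_orderOf_eq_one, one_zpow]

/-- Let z be a 2-central involution of the finite group G (an involution central in some Sylow 2-subgroup) and H a subgroup containing z such that the coset H is the only coset of H fixed by z (in the action of G on the cosets of H). Then H has odd index in G, and for every 2-element x of H the conjugates of x lying in H form a single H-class. -/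
theorem result {G : Type*} [Group G] [Finite G] (z : G) (hz : Cfsg.IsTwoCentralInvolution z) (H : Subgroup G) (hzH : z ∈ H) (hfix : ∀ g : G, g⁻¹ * z * g ∈ H → g ∈ H) : Odd H.index ∧ ∀ x ∈ H, (∃ k : ℕ, orderOf x = 2 ^ k) → ∀ g : G, g * x * g⁻¹ ∈ H → ∃ h ∈ H, h * x * h⁻¹ = g * x * g⁻¹ := by
  obtain ⟨hz2, P, hzP, hPz⟩ := hz
  have : Fact (Nat.Prime 2) := ⟨Nat.prime_two⟩
  -- anything commuting with z lies in H
  have hcent : ∀ c : G, c * z = z * c → c ∈ H := by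
    intro c hc
    apply hfix
    have : c⁻¹ * z * c = z := by
      calc c⁻¹ * z * c = c⁻¹ * (z * c) := by group
        _ = c⁻¹ * (c * z) := by rw [hc]
        _ = z := by group
    rw [this]; exact hzH
  have hPH : (P : Subgroup G) ≤ H := fun x hx => hcent x (hPz x hx)
  refine ⟨?_, ?_⟩
  · have h1 : H.index ∣ (P : Subgroup G).index := Subgroup.index_dvd_of_le hPH
    have h2 : ¬ 2 ∣ (P : Subgroup G).index := P.not_dvd_index
    rw [← Nat.not_even_iff_odd, even_iff_two_dvd]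
    exact fun h => h2 (h.trans h1)
  -- Step A
  have stepA : ∀ x ∈ H, (∃ k : ℕ, orderOf x = 2 ^ k) → ∃ h ∈ H, Commute (h * z * h⁻¹) x := by
    intro x hx ⟨k, hk⟩
    have hk' : orderOf (⟨x, hx⟩ : H) = 2 ^ k := by
      rw [← hk]; exact Subgroup.orderOf_mk x hx
    obtain ⟨Q, hQ⟩ := (isPGroup_zpowers hk').exists_le_sylow
    obtain ⟨h, hh⟩ := MulAction.exists_smul_eq H (P.subtype hPH) Q
    have hxQ : (⟨x, hx⟩ : H) ∈ Q := hQ (Subgroup.mem_zpowers _)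
    rw [← hh, mem_smul_sylow] at hxQ
    have hxP : (h : G)⁻¹ * x * h ∈ P := by
      have : h⁻¹ * (⟨x, hx⟩ : H) * h ∈ ((P.subtype hPH : Sylow 2 H) : Subgroup H) := hxQ
      rw [Sylow.coe_subtype, Subgroup.mem_subgroupOf] at this
      exact this
    refine ⟨h, h.2, ?_⟩
    have hc := hPz _ hxP
    show (h : G) * z * (h : G)⁻¹ * x = x * ((h : G) * z * (h : G)⁻¹)
    calc (h : G) * z * (h : G)⁻¹ * x = h * (z * ((h : G)⁻¹ * x * h)) * (h : G)⁻¹ := by group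
      _ = h * (((h : G)⁻¹ * x * h) * z) * (h : G)⁻¹ := by rw [hc]
      _ = x * ((h : G) * z * (h : G)⁻¹) := by group
  intro x hx hx2 g hg
  obtain ⟨h1, hh1, hc1⟩ := stepA x hx hx2
  have hy2 : ∃ k : ℕ, orderOf (g * x * g⁻¹) = 2 ^ k := by
    obtain ⟨k, hk⟩ := hx2
    exact ⟨k, by rw [← hk]; exact orderOf_conj' ..⟩
  obtain ⟨h2, hh2, hc2⟩ := stepA _ hg hy2
  set C := Subgroup.centralizer ({x} : Set G) with hC
  set z1 : G := h1 * z * h1⁻¹ with hz1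
  set z2 : G := g⁻¹ * (h2 * z * h2⁻¹) * g with hz2'
  have hz1C : z1 ∈ C := by
    rw [hC, Subgroup.mem_centralizer_singleton_iff]
    exact hc1.eq
  have hz2C : z2 ∈ C := by
    rw [hC, Subgroup.mem_centralizer_singleton_iff]
    have := hc2.eq
    calc z2 * x = g⁻¹ * ((h2 * z * h2⁻¹) * (g * x * g⁻¹)) * g := by rw [hz2']; group
      _ = g⁻¹ * ((g * x * g⁻¹) * (h2 * z * h2⁻¹)) * g := by rw [this]
      _ = x * z2 := by rw [hz2']; group
  have ho1 : orderOf (⟨z1, hz1C⟩ : C) = 2 ^ 1 := by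
    rw [Subgroup.orderOf_mk, hz1, orderOf_conj', hz2, pow_one]
  have ho2 : orderOf (⟨z2, hz2C⟩ : C) = 2 ^ 1 := by
    have : z2 = (g⁻¹ * h2) * z * (g⁻¹ * h2)⁻¹ := by rw [hz2']; group
    rw [Subgroup.orderOf_mk, this, orderOf_conj', hz2, pow_one]
  obtain ⟨R1, hR1⟩ := (isPGroup_zpowers ho1).exists_le_sylow
  obtain ⟨R2, hR2⟩ := (isPGroup_zpowers ho2).exists_le_sylow
  obtain ⟨c, hc⟩ := MulAction.exists_smul_eq C R1 R2
  have hz1R : (⟨z1, hz1C⟩ : C) ∈ R1 := hR1 (Subgroup.mem_zpowers _)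
  have hz2R : (⟨z2, hz2C⟩ : C) ∈ R2 := hR2 (Subgroup.mem_zpowers _)
  rw [← hc, mem_smul_sylow] at hz2R
  obtain ⟨P1, hP1⟩ := (R1.isPGroup'.map C.subtype).exists_le_sylow
  obtain ⟨a, ha⟩ := MulAction.exists_smul_eq G P P1
  have hz1P : z1 ∈ P1 := hP1 ⟨_, hz1R, rfl⟩
  have hz3P : (c : G)⁻¹ * z2 * c ∈ P1 := hP1 ⟨_, hz2R, by simp⟩
  rw [← ha, mem_smul_sylow] at hz1P hz3P
  have e1 := hPz _ hz1P
  have e3 := hPz _ hz3P
  -- a ∈ H
  have haH : a ∈ H := by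
    -- (h1⁻¹ a) z (h1⁻¹ a)⁻¹ commutes with z
    have h3 : (h1⁻¹ * a) * z * (h1⁻¹ * a)⁻¹ ∈ H := by
      apply hcent
      calc (h1⁻¹ * a) * z * (h1⁻¹ * a)⁻¹ * z
          = h1⁻¹ * a * (z * (a⁻¹ * z1 * a)) * a⁻¹ * h1 := by rw [hz1]; group
        _ = h1⁻¹ * a * ((a⁻¹ * z1 * a) * z) * a⁻¹ * h1 := by rw [e1]
        _ = z * ((h1⁻¹ * a) * z * (h1⁻¹ * a)⁻¹) := by rw [hz1]; group
    have h4 : (h1⁻¹ * a)⁻¹ ∈ H := by
      apply hfix
      simpa using h3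
    have h5 : h1⁻¹ * a ∈ H := by simpa using H.inv_mem h4
    have := H.mul_mem hh1 h5
    simpa using this
  -- b = c⁻¹ g⁻¹ h2
  set b : G := (c : G)⁻¹ * g⁻¹ * h2 with hb
  have hbH : b ∈ H := by
    have h3 : (b⁻¹ * a) * z * (b⁻¹ * a)⁻¹ ∈ H := by
      apply hcent
      calc (b⁻¹ * a) * z * (b⁻¹ * a)⁻¹ * z
          = b⁻¹ * a * (z * (a⁻¹ * ((c : G)⁻¹ * z2 * c) * a)) * a⁻¹ * b := by rw [hz2', hb]; group
        _ = b⁻¹ * a * ((a⁻¹ * ((c : G)⁻¹ * z2 * c) * a) * z) * a⁻¹ * b := by rw [e3]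
        _ = z * ((b⁻¹ * a) * z * (b⁻¹ * a)⁻¹) := by rw [hz2', hb]; group
    have h4 : (b⁻¹ * a)⁻¹ ∈ H := by
      apply hfix
      simpa using h3
    have := H.mul_mem haH h4
    simpa using this
  have hgc : g * c ∈ H := by
    have h6 : b * h2⁻¹ ∈ H := H.mul_mem hbH (H.inv_mem hh2)
    have h7 : (b * h2⁻¹)⁻¹ ∈ H := H.inv_mem h6
    have : (b * h2⁻¹)⁻¹ = g * c := by rw [hb]; group
    rwa [this] at h7
  refine ⟨g * c, hgc, ?_⟩
  have hcx : (c : G) * x = x * c := by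
    have h8 : (c : G) ∈ Subgroup.centralizer ({x} : Set G) := c.2
    rw [Subgroup.mem_centralizer_singleton_iff] at h8
    exact h8
  calc g * c * x * (g * c)⁻¹ = g * (c * x) * (c : G)⁻¹ * g⁻¹ := by group
    _ = g * (x * c) * (c : G)⁻¹ * g⁻¹ := by rw [hcx]
    _ = g * x * g⁻¹ := by group

end Cfsg.Agent.S5438
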