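import Cfsg.Statements.S5439

set_option autoImplicit false
open Cfsg

namespace Cfsg.Agent.S5439

theorem sq_of_order_two {G : Type*} [Group G] {d : G} (h : orderOf d = 2) : d * d = 1 := by
  have := pow_orderOf_eq_one d
  rwa [h, pow_two] at this

theorem orderOf_conj' {G : Type*} [Group G] (g x : G) : orderOf (g * x * g⁻¹) = orderOf x := by
  have : SemiconjBy g x (g * x * g⁻¹) := by
    show g * x = g * x * g⁻¹ * g
    group
  exact (this.orderOf_eq).symm

/-- if `t` inverts `r` then `r^k t r^-k = r^(2k) t`. -/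
theorem conj_pow_of_inverts {G : Type*} [Group G] {t r : G} (h : t * r * t⁻¹ = r⁻¹) (k : ℕ) :
    r ^ k * t * (r ^ k)⁻¹ = r ^ (2 * k) * t := by
  have h1 : t * (r ^ k)⁻¹ * t⁻¹ = r ^ k := by
    have : t * (r ^ k)⁻¹ * t⁻¹ = ((t * r * t⁻¹) ^ k)⁻¹ := by
      rw [conj_pow, mul_inv_rev, mul_inv_rev, inv_inv, mul_assoc]
    rw [this, h, inv_pow, inv_inv]
  have h2 : t * (r ^ k)⁻¹ = r ^ k * t := by
    calc t * (r ^ k)⁻¹ = t * (r ^ k)⁻¹ * t⁻¹ * t := by group
      _ = r ^ k * t := by rw [h1]
  rw [mul_assoc, h2, ← mul_assoc, two_mul, pow_add]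

theorem smul_coset_eq {G : Type*} [Group G] (H : Subgroup G) (g x : G) :
    x • (g : G ⧸ H) = (g : G ⧸ H) ↔ g⁻¹ * x * g ∈ H := by
  have h1 : x • (g : G ⧸ H) = ((x * g : G) : G ⧸ H) := rfl
  rw [h1, eq_comm, QuotientGroup.eq, ← mul_assoc]

theorem isConj_conj {G : Type*} [Group G] (g x : G) : IsConj x (g * x * g⁻¹) :=
  isConj_iff.mpr ⟨g, rfl⟩

/-- Let I and J be two different conjugacy classes of involutions of the finite group G and H a subgroup such that every member of I ∪ J fixes exactly one coset in the action on the cosets of H, and such that for every a in I ∩ H and every b in (I ∪ J) ∩ H different from a and commuting with it, the centralizer of a b lies in H. Then H = G. -/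
theorem result {G : Type*} [Group G] [Finite G] (I J : Set G) (a₀ b₀ : G) (ha₀ : orderOf a₀ = 2) (hb₀ : orderOf b₀ = 2) (hI : I = {x | IsConj a₀ x}) (hJ : J = {x | IsConj b₀ x}) (hIJ : I ≠ J) (H : Subgroup G) (hfix : ∀ x ∈ I ∪ J, ∃! c : G ⧸ H, x • c = c) (hcent : ∀ a ∈ I, a ∈ H → ∀ b ∈ I ∪ J, b ∈ H → a ≠ b → a * b = b * a → Subgroup.centralizer ({a * b} : Set G) ≤ H) : H = ⊤ := by
  have hIconj : ∀ g x, x ∈ I → g * x * g⁻¹ ∈ I := by
    intro g x hx
    rw [hI] at hx ⊢
    exact IsConj.trans hx (isConj_conj g x)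
  have hJconj : ∀ g x, x ∈ J → g * x * g⁻¹ ∈ J := by
    intro g x hx
    rw [hJ] at hx ⊢
    exact IsConj.trans hx (isConj_conj g x)
  have hIord : ∀ x ∈ I, orderOf x = 2 := by
    intro x hx
    rw [hI] at hx
    obtain ⟨g, hg⟩ := isConj_iff.mp hx
    rw [← hg, orderOf_conj', ha₀]
  have hJord : ∀ x ∈ J, orderOf x = 2 := by
    intro x hx
    rw [hJ] at hx
    obtain ⟨g, hg⟩ := isConj_iff.mp hx
    rw [← hg, orderOf_conj', hb₀]
  -- (i)
  have hcomm : ∀ a ∈ I ∪ J, a ∈ H → ∀ y : G, y⁻¹ * a * y ∈ H → y ∈ H := by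
    intro a ha haH y hy
    obtain ⟨c, -, huniq⟩ := hfix a ha
    have e1 : ((1 : G) : G ⧸ H) = c := huniq _ ((smul_coset_eq H 1 a).mpr (by simpa using haH))
    have e2 : (y : G ⧸ H) = c := huniq _ ((smul_coset_eq H y a).mpr hy)
    have : ((1 : G) : G ⧸ H) = (y : G ⧸ H) := e1.trans e2.symm
    rw [QuotientGroup.eq] at this
    simpa using this
  have claim1 : ∀ a ∈ I, a ∈ H → ∀ b ∈ J, b ∈ H := by
    intro a ha haH b hb
    have ha2 := sq_of_order_two (hIord a ha)
    have hb2 := sq_of_order_two (hJord b hb)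
    have hainv : a⁻¹ = a := inv_eq_of_mul_eq_one_left ha2
    have hbinv : b⁻¹ = b := inv_eq_of_mul_eq_one_left hb2
    set r := a * b with hr
    have hrinv : r⁻¹ = b * a := by rw [hr, mul_inv_rev, hainv, hbinv]
    have har : a * r * a⁻¹ = r⁻¹ := by
      rw [hrinv, hr, hainv]
      calc a * (a * b) * a = (a * a) * b * a := by group
        _ = b * a := by rw [ha2, one_mul]
    have hbr : b * r * b⁻¹ = r⁻¹ := by
      rw [hrinv, hr, hbinv]
      calc b * (a * b) * b = b * a * (b * b) := by group
        _ = b * a := by rw [hb2, mul_one]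
    rcases Nat.even_or_odd' (orderOf r) with ⟨m, hm | hm⟩
    swap
    · exfalso
      have h1 := conj_pow_of_inverts har m
      have h2 : r ^ (2 * m) = r⁻¹ := by
        apply eq_inv_of_mul_eq_one_left
        rw [← pow_succ, ← hm, pow_orderOf_eq_one]
      rw [h2, hrinv, mul_assoc b a a, ha2, mul_one] at h1
      have hbI : b ∈ I := by
        rw [← h1]; exact hIconj _ a ha
      apply hIJ
      rw [hI] at hbI
      rw [hJ] at hb
      rw [hI, hJ]
      ext x
      constructor
      · intro hx
        exact (hb.trans hbI.symm).trans hx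
      · intro hx
        exact (hbI.trans hb.symm).trans hx
    have hpos : 0 < orderOf r := orderOf_pos r
    have hm0 : 0 < m := by omega
    set w := r ^ m with hw
    have hw2 : w * w = 1 := by
      rw [hw, ← pow_add, ← two_mul, ← hm, pow_orderOf_eq_one]
    have hw1 : w ≠ 1 := by
      intro h1
      have := orderOf_le_of_pow_eq_one hm0 h1
      omega
    have hwinv : w⁻¹ = w := inv_eq_of_mul_eq_one_left hw2
    have haw : Commute a w := by
      have : a * w * a⁻¹ = w := by
        rw [hw, ← conj_pow, har, inv_pow, ← hw, hwinv]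
      show a * w = w * a
      calc a * w = a * w * a⁻¹ * a := by group
        _ = w * a := by rw [this]
    have hbw : Commute b w := by
      have : b * w * b⁻¹ = w := by
        rw [hw, ← conj_pow, hbr, inv_pow, ← hw, hwinv]
      show b * w = w * b
      calc b * w = b * w * b⁻¹ * b := by group
        _ = w * b := by rw [this]
    have hwaD : w * a ∈ I ∪ J := by
      rcases Nat.even_or_odd' m with ⟨k, hk | hk⟩
      · have := conj_pow_of_inverts har k
        rw [← hk, ← hw] at this
        rw [← this]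
        exact Or.inl (hIconj _ a ha)
      · set x := a * b * a⁻¹ with hx
        have hxD : x ∈ J := hJconj a b hb
        have hxr : x * r * x⁻¹ = r⁻¹ := by
          rw [hrinv, hx, hr, hainv]
          simp only [mul_inv_rev, hainv, hbinv]
          calc a * b * a * (a * b) * (a * (b * a)) = a * b * (a * a) * b * a * b * a := by group
            _ = a * (b * b) * a * b * a := by rw [ha2]; group
            _ = (a * a) * b * a := by rw [hb2]; group
            _ = b * a := by rw [ha2, one_mul]
        have := conj_pow_of_inverts hxr k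
        have hwa : w * a = r ^ (2 * k) * x := by
          rw [hw, hk, pow_succ, hx, hr, hainv]
          group
        rw [hwa, ← this]
        exact Or.inr (hJconj _ x hxD)
    have hne : a ≠ w * a := by
      intro h1
      apply hw1
      have : w * a = 1 * a := by rw [one_mul]; exact h1.symm
      exact mul_right_cancel this
    have hcomm' : a * (w * a) = (w * a) * a := (haw.mul_right (Commute.refl a)).eq
    have hwaH : w * a ∈ H := by
      apply hcomm a (Or.inl ha) haH
      have : (w * a)⁻¹ * a * (w * a) = a := by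
        calc (w * a)⁻¹ * a * (w * a) = (w * a)⁻¹ * (a * (w * a)) := by group
          _ = (w * a)⁻¹ * ((w * a) * a) := by rw [hcomm']
          _ = a := by group
      rw [this]; exact haH
    have hC := hcent a ha haH (w * a) hwaD hwaH hne hcomm'
    have hprod : a * (w * a) = w := by
      rw [← mul_assoc, haw.eq, mul_assoc, ha2, mul_one]
    rw [hprod] at hC
    apply hC
    rw [Subgroup.mem_centralizer_singleton_iff]
    exact hbw.eq
  -- find a ∈ I ∩ H
  have ha₀I : a₀ ∈ I := by rw [hI]; exact IsConj.refl a₀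
  have hb₀J : b₀ ∈ J := by rw [hJ]; exact IsConj.refl b₀
  obtain ⟨c, hc, -⟩ := hfix a₀ (Or.inl ha₀I)
  induction c using QuotientGroup.induction_on with
  | H g =>
    have hc' : a₀ • (g : G ⧸ H) = (g : G ⧸ H) := hc
    rw [smul_coset_eq] at hc'
    have haI : g⁻¹ * a₀ * g ∈ I := by
      have := hIconj g⁻¹ a₀ ha₀I
      rwa [inv_inv] at this
    have hJH := claim1 _ haI hc'
    rw [eq_top_iff]
    intro y _
    apply hcomm b₀ (Or.inr hb₀J) (hJH b₀ hb₀J)
    apply hJH
    have := hJconj y⁻¹ b₀ hb₀J
    rwa [inv_inv] at this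

end Cfsg.Agent.S5439
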