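import Cfsg.Statements.S5459
import Mathlib
import Cfsg.Agent.Lib.Helper16.MinOver

set_option autoImplicit false
open Cfsg

namespace Cfsg.Agent.S5459

def stp {G : Type*} [Group G] (d a b : G) : Prop :=
  a ∈ conjugatesOf d ∧ b ∈ conjugatesOf d ∧ Commute a b

theorem conj_mem_conjugatesOf {G : Type*} [Group G] {d a : G} (g : G) (ha : a ∈ conjugatesOf d) :
    g * a * g⁻¹ ∈ conjugatesOf d := by
  have ha' : IsConj d a := ha
  rw [isConj_iff] at ha'
  obtain ⟨c, rfl⟩ := ha'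
  show IsConj d _
  rw [isConj_iff]
  exact ⟨g * c, by group⟩

theorem stp_conj {G : Type*} [Group G] {d a b : G} (g : G) (h : stp d a b) :
    stp d (g * a * g⁻¹) (g * b * g⁻¹) := by
  refine ⟨conj_mem_conjugatesOf g h.1, conj_mem_conjugatesOf g h.2.1, ?_⟩
  have := h.2.2.eq
  show g * a * g⁻¹ * (g * b * g⁻¹) = g * b * g⁻¹ * (g * a * g⁻¹)
  calc g * a * g⁻¹ * (g * b * g⁻¹) = g * (a * b) * g⁻¹ := by group
    _ = g * (b * a) * g⁻¹ := by rw [this]
    _ = g * b * g⁻¹ * (g * a * g⁻¹) := by group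

theorem rtg_conj {G : Type*} [Group G] {d a b : G} (g : G)
    (h : Relation.ReflTransGen (stp d) a b) :
    Relation.ReflTransGen (stp d) (g * a * g⁻¹) (g * b * g⁻¹) :=
  h.lift (fun x => g * x * g⁻¹) (fun _ _ hab => stp_conj g hab)

theorem rtg_symm {G : Type*} [Group G] {d a b : G}
    (h : Relation.ReflTransGen (stp d) a b) : Relation.ReflTransGen (stp d) b a := by
  induction h with
  | refl => exact Relation.ReflTransGen.refl
  | tail _ hbc ih => exact Relation.ReflTransGen.head ⟨hbc.2.1, hbc.1, hbc.2.2.symm⟩ ih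

theorem rtg_mem {G : Type*} [Group G] {d b : G}
    (h : Relation.ReflTransGen (stp d) d b) : b ∈ conjugatesOf d := by
  cases h with
  | refl => exact mem_conjugatesOf_self
  | tail _ hbc => exact hbc.2.1

def HH {G : Type*} [Group G] (d : G) : Subgroup G where
  carrier := {g | Relation.ReflTransGen (stp d) d (g * d * g⁻¹)}
  one_mem' := by
    show Relation.ReflTransGen (stp d) d (1 * d * 1⁻¹)
    rw [one_mul, inv_one, mul_one]
  mul_mem' := by
    intro g h hg hh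
    have h1 := rtg_conj g hh
    have e : g * (h * d * h⁻¹) * g⁻¹ = (g * h) * d * (g * h)⁻¹ := by group
    rw [e] at h1
    exact Relation.ReflTransGen.trans hg h1
  inv_mem' := by
    intro g hg
    have h1 := rtg_conj g⁻¹ hg
    have e : g⁻¹ * (g * d * g⁻¹) * g⁻¹⁻¹ = d := by group
    rw [e] at h1
    exact rtg_symm h1

theorem mem_HH {G : Type*} [Group G] {d g : G} :
    g ∈ HH d ↔ Relation.ReflTransGen (stp d) d (g * d * g⁻¹) := Iff.rfl

theorem graph_to_rtg {G : Type*} [Group G] {d : G} {a b : conjugatesOf d}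
    (h : (Cfsg.commutingGraph (conjugatesOf d)).Reachable a b) :
    Relation.ReflTransGen (stp d) (a : G) (b : G) := by
  rw [SimpleGraph.reachable_iff_reflTransGen] at h
  refine h.lift (fun x : conjugatesOf d => (x : G)) ?_
  intro x y hxy
  unfold Cfsg.commutingGraph at hxy
  rw [SimpleGraph.fromRel_adj] at hxy
  refine ⟨x.2, y.2, ?_⟩
  rcases hxy.2 with h1 | h1
  · exact h1
  · exact h1.symm

theorem rtg_to_graph {G : Type*} [Group G] {d : G} {b : G}
    (h : Relation.ReflTransGen (stp d) d b) :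
    ∃ hb : b ∈ conjugatesOf d, (Cfsg.commutingGraph (conjugatesOf d)).Reachable
      ⟨d, mem_conjugatesOf_self⟩ ⟨b, hb⟩ := by
  induction h with
  | refl => exact ⟨mem_conjugatesOf_self, SimpleGraph.Reachable.refl _⟩
  | @tail b c _ hbc ih =>
    obtain ⟨hb, hr⟩ := ih
    refine ⟨hbc.2.1, ?_⟩
    by_cases hbc' : b = c
    · subst hbc'
      exact hr
    · refine hr.trans (SimpleGraph.Adj.reachable ?_)
      unfold Cfsg.commutingGraph
      rw [SimpleGraph.fromRel_adj]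
      exact ⟨fun h0 => hbc' (congrArg Subtype.val h0), Or.inl hbc.2.2⟩

theorem core {G : Type*} [Group G] [Finite G] (L Z : Subgroup G) [hZn : Z.Normal] (d : G)
    (hZL : Z ≤ L) (hZc : ∀ z ∈ Z, ∀ x ∈ L, z * x = x * z) (hperf : L ≤ ⁅L, L⁆)
    (hodd : Odd (Nat.card Z)) (hinv : ∀ c ∈ Z, d * c * d⁻¹ = c⁻¹)
    (hconn : (Cfsg.commutingGraph (conjugatesOf (QuotientGroup.mk d : G ⧸ Z))).Connected) :
    (Cfsg.commutingGraph (conjugatesOf d)).Connected := by
  have hinvD : ∀ a ∈ conjugatesOf d, ∀ z ∈ Z, a * z * a⁻¹ = z⁻¹ := by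
    intro a ha z hz
    obtain ⟨g, rfl⟩ := isConj_iff.mp ha
    have h1 : g⁻¹ * z * g ∈ Z := by
      have := hZn.conj_mem z hz g⁻¹
      rwa [inv_inv] at this
    have h2 := hinv _ h1
    calc g * d * g⁻¹ * z * (g * d * g⁻¹)⁻¹ = g * (d * (g⁻¹ * z * g) * d⁻¹) * g⁻¹ := by group
      _ = g * (g⁻¹ * z * g)⁻¹ * g⁻¹ := by rw [h2]
      _ = z⁻¹ := by group
  have hroot : ∀ z ∈ Z, ∀ m : ℕ, m.Coprime (Nat.card Z) → ∃ w ∈ Z, w ^ m = z := by
    intro z hz m hm
    have h1 : orderOf z ∣ Nat.card Z := by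
      have := orderOf_dvd_natCard (⟨z, hz⟩ : Z)
      rwa [Subgroup.orderOf_mk] at this
    obtain ⟨k, hk⟩ := exists_pow_eq_self_of_coprime (hm.coprime_dvd_right h1)
    exact ⟨z ^ k, pow_mem hz k, by rw [← pow_mul, mul_comm, pow_mul]; exact hk⟩
  have h2cop : (2 : ℕ).Coprime (Nat.card Z) := hodd.coprime_two_left
  have h4cop : (4 : ℕ).Coprime (Nat.card Z) := by
    have : (2 ^ 2 : ℕ).Coprime (Nat.card Z) := Nat.Coprime.pow_left 2 h2cop
    simpa using this
  have hconjZ : ∀ a ∈ conjugatesOf d, ∀ w ∈ Z, w * a * w⁻¹ = w * w * a := by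
    intro a ha w hw
    have h1 := hinvD a ha w⁻¹ (inv_mem hw)
    rw [inv_inv] at h1
    calc w * a * w⁻¹ = w * (a * w⁻¹ * a⁻¹) * a := by group
      _ = w * w * a := by rw [h1]
  have hlift : ∀ x : G ⧸ Z, Relation.ReflTransGen (stp (QuotientGroup.mk d : G ⧸ Z))
      (QuotientGroup.mk d : G ⧸ Z) x →
      ∃ b, Relation.ReflTransGen (stp d) d b ∧ (QuotientGroup.mk b : G ⧸ Z) = x := by
    intro x hx
    induction hx with
    | refl => exact ⟨d, Relation.ReflTransGen.refl, rfl⟩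
    | @tail y x _ hyx ih =>
      obtain ⟨b, hb, rfl⟩ := ih
      have hbD := rtg_mem hb
      obtain ⟨gq, hgq⟩ := isConj_iff.mp hyx.2.1
      obtain ⟨g, rfl⟩ := QuotientGroup.mk_surjective gq
      obtain ⟨c₀, hc₀⟩ : ∃ c₀, c₀ = g * d * g⁻¹ := ⟨_, rfl⟩
      have hc₀D : c₀ ∈ conjugatesOf d := hc₀ ▸ conj_mem_conjugatesOf g mem_conjugatesOf_self
      have hx : (QuotientGroup.mk c₀ : G ⧸ Z) = x := by rw [hc₀, ← hgq]; rfl
      have hz : b * c₀ * b⁻¹ * c₀⁻¹ ∈ Z := by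
        rw [← QuotientGroup.eq_one_iff]
        have h0 := hyx.2.2.eq
        rw [← hx] at h0
        simp only [QuotientGroup.mk_mul, QuotientGroup.mk_inv]
        rw [h0]
        group
      obtain ⟨w, hw, hw4⟩ := hroot _ hz 4 h4cop
      refine ⟨w * c₀ * w⁻¹, hb.tail ⟨hbD, conj_mem_conjugatesOf w hc₀D, ?_⟩, ?_⟩
      · rw [hconjZ c₀ hc₀D w hw]
        have h1 := hinvD b hbD w hw
        show b * (w * w * c₀) = w * w * c₀ * b
        have h2 : b * c₀ * b⁻¹ = w ^ 4 * c₀ := by rw [hw4]; group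
        calc b * (w * w * c₀) = (b * w * b⁻¹) * (b * w * b⁻¹) * (b * c₀ * b⁻¹) * b := by group
          _ = w⁻¹ * w⁻¹ * (w ^ 4 * c₀) * b := by rw [h1, h2]
          _ = w ^ 2 * c₀ * b := by group
          _ = w * w * c₀ * b := by rw [pow_two]
      · rw [← hx]
        have h0 : (QuotientGroup.mk w : G ⧸ Z) = 1 := (QuotientGroup.eq_one_iff w).mpr hw
        simp only [QuotientGroup.mk_mul, QuotientGroup.mk_inv, h0]
        group
  have hsup : HH d ⊔ Z = ⊤ := by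
    rw [eq_top_iff]
    intro g _
    have hxD : (QuotientGroup.mk (g * d * g⁻¹) : G ⧸ Z) ∈
        conjugatesOf (QuotientGroup.mk d : G ⧸ Z) := by
      show IsConj _ _
      rw [isConj_iff]
      exact ⟨(QuotientGroup.mk g : G ⧸ Z), rfl⟩
    have hr := graph_to_rtg (hconn.preconnected ⟨_, mem_conjugatesOf_self⟩ ⟨_, hxD⟩)
    obtain ⟨b, hb, hbx⟩ := hlift _ hr
    obtain ⟨h, rfl⟩ := isConj_iff.mp (rtg_mem hb)
    have hhH : h ∈ HH d := hb
    have hz1 : (h * d * h⁻¹)⁻¹ * (g * d * g⁻¹) ∈ Z := QuotientGroup.eq.mp hbx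
    obtain ⟨k, hk⟩ : ∃ k, k = h⁻¹ * g := ⟨_, rfl⟩
    have hz2 : d⁻¹ * (k * d * k⁻¹) ∈ Z := by
      have h0 := hZn.conj_mem _ hz1 h⁻¹
      have e : h⁻¹ * ((h * d * h⁻¹)⁻¹ * (g * d * g⁻¹)) * h⁻¹⁻¹ = d⁻¹ * (k * d * k⁻¹) := by
        rw [hk]; group
      rwa [e] at h0
    obtain ⟨w, hw, hw2⟩ := hroot _ (inv_mem hz2) 2 h2cop
    have h3 : w * d * w⁻¹ = k * d * k⁻¹ := by
      rw [hconjZ d mem_conjugatesOf_self w hw, ← pow_two, hw2]
      have h4 := hinv _ hz2
      rw [← h4]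
      group
    have h5 : w⁻¹ * k ∈ HH d := by
      rw [mem_HH]
      have e : w⁻¹ * k * d * (w⁻¹ * k)⁻¹ = w⁻¹ * (k * d * k⁻¹) * w := by group
      rw [e, ← h3]
      have e2 : w⁻¹ * (w * d * w⁻¹) * w = d := by group
      rw [e2]
    have e : g = h * w * (w⁻¹ * k) := by rw [hk]; group
    rw [e]
    exact mul_mem (mul_mem (Subgroup.mem_sup_left hhH) (Subgroup.mem_sup_right hw))
      (Subgroup.mem_sup_left h5)
  have hdec : ∀ x ∈ L, ∃ z ∈ Z, ∃ h ∈ HH d, x = z * h ∧ h ∈ L := by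
    intro x hx
    have h0 : x ∈ Z ⊔ HH d := by rw [sup_comm, hsup]; exact Subgroup.mem_top x
    rw [Cfsg.Agent.Lib.Helper16.mem_sup_of_le_normalizer (by
      rw [Subgroup.normalizer_eq_top Z]; exact le_top)] at h0
    obtain ⟨z, hz, h, hh, rfl⟩ := h0
    refine ⟨z, hz, h, hh, rfl, ?_⟩
    have e : h = z⁻¹ * (z * h) := by group
    rw [e]
    exact mul_mem (inv_mem (hZL hz)) hx
  have hLH : L ≤ HH d := by
    refine hperf.trans ?_
    rw [Subgroup.commutator_le]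
    intro x hx y hy
    obtain ⟨z₁, hz₁, h₁, hh₁, rfl, hh₁L⟩ := hdec x hx
    obtain ⟨z₂, hz₂, h₂, hh₂, rfl, hh₂L⟩ := hdec y hy
    have e : z₁ * h₁ * (z₂ * h₂) * (z₁ * h₁)⁻¹ * (z₂ * h₂)⁻¹ = h₁ * h₂ * h₁⁻¹ * h₂⁻¹ := by
      have c1 := hZc z₁ hz₁ (h₁ * (z₂ * h₂) * h₁⁻¹) (mul_mem (mul_mem hh₁L hy) (inv_mem hh₁L))
      have c2 := hZc z₂ hz₂ h₁ hh₁L
      have c3 := hZc z₂ hz₂ (h₁ * h₂ * h₁⁻¹ * h₂⁻¹)
        (mul_mem (mul_mem (mul_mem hh₁L hh₂L) (inv_mem hh₁L)) (inv_mem hh₂L))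
      calc z₁ * h₁ * (z₂ * h₂) * (z₁ * h₁)⁻¹ * (z₂ * h₂)⁻¹
          = (z₁ * (h₁ * (z₂ * h₂) * h₁⁻¹)) * z₁⁻¹ * (z₂ * h₂)⁻¹ := by group
        _ = (h₁ * (z₂ * h₂) * h₁⁻¹) * (z₂ * h₂)⁻¹ := by rw [c1]; group
        _ = (h₁ * z₂) * (h₂ * h₁⁻¹ * h₂⁻¹) * z₂⁻¹ := by group
        _ = (z₂ * (h₁ * h₂ * h₁⁻¹ * h₂⁻¹)) * z₂⁻¹ := by rw [← c2]; group
        _ = h₁ * h₂ * h₁⁻¹ * h₂⁻¹ := by rw [c3]; group
    rw [commutatorElement_def, e]
    exact mul_mem (mul_mem (mul_mem hh₁ hh₂) (inv_mem hh₁)) (inv_mem hh₂)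
  have hHtop : HH d = ⊤ := by
    rw [← hsup]
    exact (sup_eq_left.mpr (hZL.trans hLH)).symm
  have key : ∀ a : conjugatesOf d, (Cfsg.commutingGraph (conjugatesOf d)).Reachable
      ⟨d, mem_conjugatesOf_self⟩ a := by
    intro a
    obtain ⟨g, hg⟩ := isConj_iff.mp a.2
    have h0 : g ∈ HH d := hHtop ▸ Subgroup.mem_top g
    obtain ⟨hb, hr⟩ := rtg_to_graph (mem_HH.mp h0)
    have e : (⟨g * d * g⁻¹, hb⟩ : conjugatesOf d) = a := Subtype.ext hg
    rwa [e] at hr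
  haveI : Nonempty (conjugatesOf d) := ⟨⟨d, mem_conjugatesOf_self⟩⟩
  exact ⟨fun a b => (key a).symm.trans (key b)⟩


/-- Let G be a finite group with a quasisimple normal subgroup L and an involution d such that G is generated by L and d, the centre of L has odd order, and d inverts every element of the centre of L. If the commuting graph on the conjugacy class of the image of d in G modulo the centre of L is connected, then the commuting graph on the conjugacy class of d is connected. -/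
theorem result {G : Type*} [Group G] [Finite G] (L : Subgroup G) [L.Normal] (hL : Cfsg.IsQuasisimple ↥L) (d : G) (hd : orderOf d = 2) (hgen : L ⊔ Subgroup.zpowers d = ⊤) (hodd : Odd (Nat.card ↥(Subgroup.center ↥L))) (hinv : ∀ c ∈ (Subgroup.center ↥L).map L.subtype, d * c * d⁻¹ = c⁻¹) [hn : ((Subgroup.center ↥L).map L.subtype).Normal] (hconn : (Cfsg.commutingGraph (conjugatesOf (QuotientGroup.mk d : G ⧸ (Subgroup.center ↥L).map L.subtype))).Connected) : (Cfsg.commutingGraph (conjugatesOf d)).Connected := by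
  apply core L ((Subgroup.center ↥L).map L.subtype) d
  · exact Subgroup.map_subtype_le _
  · rintro _ ⟨z, hz, rfl⟩ x hx
    have := Subgroup.mem_center_iff.mp hz ⟨x, hx⟩
    exact (congrArg Subtype.val this).symm
  · have h1 : commutator ↥L = ⊤ := hL.1.commutator_eq_top
    have h2 : (commutator ↥L).map L.subtype = ⁅L, L⁆ := by
      rw [commutator_def, Subgroup.map_commutator, ← MonoidHom.range_eq_map, Subgroup.range_subtype]
    rw [← h2, h1, ← MonoidHom.range_eq_map, Subgroup.range_subtype]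
  · rw [Subgroup.card_map_of_injective (Subgroup.subtype_injective _)]
    exact hodd
  · exact hinv
  · exact hconn

end Cfsg.Agent.S5459
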