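import Cfsg.Statements.S5541
import Mathlib
-- import your own Cfsg.Agent.* helpers here

set_option autoImplicit false
open Cfsg

namespace Cfsg.Agent.S5541

/-- Let ρ be a representation of a group H on a finite-dimensional real vector space U whose only ρ-invariant subspaces are the zero subspace and U, and suppose U carries a non-zero ρ-invariant symmetric bilinear form. Then the following are equivalent: (1) there is a non-zero ρ-equivariant commutative bilinear product on U of which every ρ-equivariant bilinear product is a scalar multiple; (2) there is a non-zero ρ-invariant trilinear form on U that is symmetric under all permutations of its arguments and of which every ρ-invariant trilinear form is a scalar multiple. -/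
theorem result {H : Type*} [Group H] {U : Type*} [AddCommGroup U] [Module ℝ U] [FiniteDimensional ℝ U] (ρ : Representation ℝ H U) (hirr : ∀ W : Submodule ℝ U, (∀ g : H, W.map (ρ g) ≤ W) → W = ⊥ ∨ W = ⊤) (B : LinearMap.BilinForm ℝ U) (hB0 : B ≠ 0) (hBs : ∀ u v, B u v = B v u) (hBi : ∀ (g : H) (u v : U), B (ρ g u) (ρ g v) = B u v) : (∃ m : U →ₗ[ℝ] U →ₗ[ℝ] U, m ≠ 0 ∧ (∀ u v, m u v = m v u) ∧ (∀ (g : H) (u v : U), m (ρ g u) (ρ g v) = ρ g (m u v)) ∧ ∀ m' : U →ₗ[ℝ] U →ₗ[ℝ] U, (∀ (g : H) (u v : U), m' (ρ g u) (ρ g v) = ρ g (m' u v)) → ∃ c : ℝ, m' = c • m) ↔ (∃ t : U →ₗ[ℝ] U →ₗ[ℝ] U →ₗ[ℝ] ℝ, t ≠ 0 ∧ (∀ u v w, t u v w = t v u w ∧ t u v w = t u w v) ∧ (∀ (g : H) (u v w : U), t (ρ g u) (ρ g v) (ρ g w) = t u v w) ∧ ∀ t' : U →ₗ[ℝ] U →ₗ[ℝ] U →ₗ[ℝ] ℝ, (∀ (g : H) (u v w : U), t' (ρ g u) (ρ g v) (ρ g w) = t' u v w) → ∃ c : ℝ, t' = c • t) := by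
  classical
  have hinv : ∀ (g : H) (w : U), ρ g (ρ g⁻¹ w) = w := by
    intro g w
    rw [← Module.End.mul_apply, ← map_mul, mul_inv_cancel, map_one, Module.End.one_apply]
  have hker : LinearMap.ker B = ⊥ := by
    rcases hirr (LinearMap.ker B) (by
      intro g
      rintro _ ⟨u, hu, rfl⟩
      have hu' : B u = 0 := LinearMap.mem_ker.mp hu
      rw [LinearMap.mem_ker]
      ext v
      have h1 : B (ρ g u) v = B u (ρ g⁻¹ v) := by
        conv_lhs => rw [← hinv g v]
        exact hBi g u _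
      rw [h1, hu']; simp) with h | h
    · exact h
    · exfalso
      apply hB0
      ext u v
      have h1 : u ∈ LinearMap.ker B := h ▸ Submodule.mem_top
      rw [LinearMap.mem_ker] at h1
      rw [h1]
      simp
  have hnd : B.Nondegenerate := LinearMap.BilinForm.nondegenerate_iff_ker_eq_bot.mpr hker
  have hsep : ∀ a b : U, (∀ w, B a w = B b w) → a = b := by
    intro a b h
    have h1 : a - b ∈ LinearMap.ker B := by
      rw [LinearMap.mem_ker]
      ext w
      simp [h w]
    rw [hker, Submodule.mem_bot, sub_eq_zero] at h1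
    exact h1
  let toM : (U →ₗ[ℝ] U →ₗ[ℝ] U →ₗ[ℝ] ℝ) → (U →ₗ[ℝ] U →ₗ[ℝ] U) :=
    fun t => t.compr₂ (B.toDual hnd).symm.toLinearMap
  have htoM : ∀ (t : U →ₗ[ℝ] U →ₗ[ℝ] U →ₗ[ℝ] ℝ) (u v w : U), B (toM t u v) w = t u v w := by
    intro t u v w
    exact LinearMap.BilinForm.apply_toDual_symm_apply (hB := hnd) (t u v) w
  let toT : (U →ₗ[ℝ] U →ₗ[ℝ] U) → (U →ₗ[ℝ] U →ₗ[ℝ] U →ₗ[ℝ] ℝ) := fun m => m.compr₂ B
  have htoT : ∀ (m : U →ₗ[ℝ] U →ₗ[ℝ] U) (u v w : U), toT m u v w = B (m u v) w :=
    fun _ _ _ _ => rfl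
  have eqM : ∀ t : U →ₗ[ℝ] U →ₗ[ℝ] U →ₗ[ℝ] ℝ,
      (∀ (g : H) (u v w : U), t (ρ g u) (ρ g v) (ρ g w) = t u v w) →
      ∀ (g : H) (u v : U), toM t (ρ g u) (ρ g v) = ρ g (toM t u v) := by
    intro t ht g u v
    apply hsep
    intro w
    rw [htoM]
    calc t (ρ g u) (ρ g v) w = t (ρ g u) (ρ g v) (ρ g (ρ g⁻¹ w)) := by rw [hinv]
      _ = t u v (ρ g⁻¹ w) := ht g u v _
      _ = B (toM t u v) (ρ g⁻¹ w) := (htoM _ _ _ _).symm
      _ = B (ρ g (toM t u v)) (ρ g (ρ g⁻¹ w)) := (hBi g _ _).symm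
      _ = B (ρ g (toM t u v)) w := by rw [hinv]
  have eqT : ∀ m : U →ₗ[ℝ] U →ₗ[ℝ] U, (∀ (g : H) (u v : U), m (ρ g u) (ρ g v) = ρ g (m u v)) →
      ∀ (g : H) (u v w : U), toT m (ρ g u) (ρ g v) (ρ g w) = toT m u v w := by
    intro m hm g u v w
    rw [htoT, htoT, hm, hBi]
  constructor
  · rintro ⟨m, hm0, hmc, hme, hmu⟩
    have ht0 : toT m ≠ 0 := by
      intro h
      apply hm0
      refine LinearMap.ext fun u => LinearMap.ext fun v => ?_
      apply hsep
      intro w
      rw [← htoT, h]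
      simp
    have sym1 : ∀ u v w, toT m u v w = toT m v u w := by
      intro u v w
      rw [htoT, htoT, hmc]
    let t2 : U →ₗ[ℝ] U →ₗ[ℝ] U →ₗ[ℝ] ℝ := LinearMap.mk₂ ℝ (fun u v => (toT m u).flip v)
      (by intros; ext; simp) (by intros; ext; simp) (by intros; simp) (by intros; simp)
    have ht2 : ∀ u v w, t2 u v w = toT m u w v := fun _ _ _ => rfl
    obtain ⟨c, hc⟩ := hmu (toM t2) (eqM t2 (by
      intro g u v w
      rw [ht2, ht2]
      exact eqT m hme g u w v))
    have hc' : ∀ u v w, toT m u w v = c * toT m u v w := by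
      intro u v w
      rw [← ht2, ← htoM, hc, htoT]
      simp
    obtain ⟨u0, v0, w0, h0⟩ : ∃ u v w, toT m u v w ≠ 0 := by
      by_contra hall
      push_neg at hall
      apply ht0
      refine LinearMap.ext fun u => LinearMap.ext fun v => LinearMap.ext fun w => ?_
      rw [hall]; simp
    have hcc : c * c = 1 := by
      have h1 := hc' u0 v0 w0
      have h2 := hc' u0 w0 v0
      rw [h1] at h2
      have h3 : (c * c - 1) * toT m u0 v0 w0 = 0 := by linarith
      rcases mul_eq_zero.mp h3 with h | h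
      · linarith
      · exact absurd h h0
    have hc1 : c = 1 := by
      have h1 : (c - 1) * (c + 1) = 0 := by ring_nf; linarith
      rcases mul_eq_zero.mp h1 with h | h
      · linarith
      · exfalso
        have hcm : c = -1 := by linarith
        apply h0
        have a1 := hc' u0 v0 w0
        have a2 := hc' w0 u0 v0
        have a3 := hc' v0 u0 w0
        have s1 := sym1 u0 w0 v0
        have s2 := sym1 w0 v0 u0
        have s3 := sym1 v0 u0 w0
        rw [hcm] at a1 a2 a3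
        linarith
    refine ⟨toT m, ht0, fun u v w => ⟨sym1 u v w, ?_⟩, eqT m hme, ?_⟩
    · have := hc' u v w
      rw [hc1, one_mul] at this
      exact this.symm
    · intro t' ht'
      obtain ⟨c', hc2⟩ := hmu (toM t') (eqM t' ht')
      refine ⟨c', ?_⟩
      refine LinearMap.ext fun u => LinearMap.ext fun v => LinearMap.ext fun w => ?_
      rw [← htoM, hc2]
      simp [htoT]
  · rintro ⟨t, ht0, hts, hti, htu⟩
    refine ⟨toM t, ?_, ?_, eqM t hti, ?_⟩
    · intro h
      apply ht0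
      refine LinearMap.ext fun u => LinearMap.ext fun v => LinearMap.ext fun w => ?_
      rw [← htoM, h]
      simp
    · intro u v
      apply hsep
      intro w
      rw [htoM, htoM]
      exact (hts u v w).1
    · intro m' hm'
      obtain ⟨c, hc⟩ := htu (toT m') (eqT m' hm')
      refine ⟨c, ?_⟩
      refine LinearMap.ext fun u => LinearMap.ext fun v => ?_
      apply hsep
      intro w
      rw [← htoT, hc]
      simp [htoM]

end Cfsg.Agent.S5541
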