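import Cfsg.Statements.S5543
import Mathlib
-- import your own Cfsg.Agent.* helpers here

set_option autoImplicit false
open Cfsg

namespace Cfsg.Agent.S5543

theorem vec {V : Type*} [AddCommGroup V] [Module ℝ V] (mul : V →ₗ[ℝ] V →ₗ[ℝ] V)
    (B : LinearMap.BilinForm ℝ V) (ax ay az axy axz ayz aw : V)
    (p1 : mul ax ay = (1 / 8 : ℝ) • (ax + ay - axy)) (p2 : mul ax axy = (1 / 8 : ℝ) • (ax + axy - ay))
    (p3 : mul ax az = (1 / 8 : ℝ) • (ax + az - axz)) (p4 : mul ax axz = (1 / 8 : ℝ) • (ax + axz - az))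
    (p5 : mul ax ayz = (1 / 8 : ℝ) • (ax + ayz - aw)) (p6 : mul ax aw = (1 / 8 : ℝ) • (ax + aw - ayz))
    (q1 : mul ay az = (1 / 8 : ℝ) • (ay + az - ayz)) (q2 : mul ay axz = (1 / 8 : ℝ) • (ay + axz - aw))
    (q3 : mul axy az = (1 / 8 : ℝ) • (axy + az - aw)) (q4 : mul axy axz = (1 / 8 : ℝ) • (axy + axz - ayz))
    (r : mul ayz aw = (1 / 8 : ℝ) • (ayz + aw - ax)) (idem : mul ayz ayz = ayz)
    (fusion : ∀ u v, mul ax u = (1 / 4 : ℝ) • u → mul ax v = (1 / 4 : ℝ) • v →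
      ∃ w1 w0, mul ax w1 = w1 ∧ mul ax w0 = 0 ∧ w1 + w0 = mul u v)
    (n1 : B ax ax = 1) (n2 : B ayz ayz = 1) : False := by
  have e1 : mul ax (ay - axy) = (1 / 4 : ℝ) • (ay - axy) := by rw [map_sub, p1, p2]; module
  have e2 : mul ax (az - axz) = (1 / 4 : ℝ) • (az - axz) := by rw [map_sub, p3, p4]; module
  have e3 : mul ax (ayz - aw) = (1 / 4 : ℝ) • (ayz - aw) := by rw [map_sub, p5, p6]; module
  have pr : mul (ay - axy) (az - axz) = (-(1 / 4) : ℝ) • (ayz - aw) := by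
    simp only [map_sub, LinearMap.sub_apply]
    rw [q1, q2, q3, q4]; module
  obtain ⟨w1, w0, h1, h0, hs⟩ := fusion _ _ e1 e2
  have eW : mul ax (mul (ay - axy) (az - axz)) = (1 / 4 : ℝ) • (mul (ay - axy) (az - axz)) := by
    rw [pr, map_smul, e3]; module
  have hw1 : w1 = (1 / 4 : ℝ) • (w1 + w0) := by
    have h := eW
    rw [← hs, map_add, h1, h0, add_zero] at h
    exact h
  have hw1' : w1 = (1 / 4 : ℝ) • w1 := by
    have h := congrArg (mul ax) hw1
    rw [map_smul, map_add, h1, h0, add_zero] at h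
    exact h
  have hw10 : w1 = 0 := by
    have h : (3 / 4 : ℝ) • w1 = 0 := by
      calc (3 / 4 : ℝ) • w1 = w1 - (1 / 4 : ℝ) • w1 := by module
        _ = 0 := sub_eq_zero.mpr hw1'
    exact (smul_eq_zero.mp h).resolve_left (by norm_num)
  have hw00 : w0 = 0 := by
    rw [hw10, zero_add] at hw1
    exact (smul_eq_zero.mp hw1.symm).resolve_left (by norm_num)
  have hW0 : mul (ay - axy) (az - axz) = 0 := by rw [← hs, hw10, hw00, add_zero]
  have hd : ayz - aw = 0 := by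
    rw [pr] at hW0
    exact (smul_eq_zero.mp hW0).resolve_left (by norm_num)
  have haw : aw = ayz := (sub_eq_zero.mp hd).symm
  rw [haw, idem] at r
  have hax : ax = (-6 : ℝ) • ayz := by
    calc ax = (ayz + ayz) - (8 : ℝ) • ((1 / 8 : ℝ) • (ayz + ayz - ax)) := by module
      _ = (ayz + ayz) - (8 : ℝ) • ayz := by rw [← r]
      _ = (-6 : ℝ) • ayz := by module
  have h36 : B ax ax = 36 := by
    rw [hax]
    simp only [map_smul, LinearMap.smul_apply, smul_eq_mul, n2]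
    norm_num
  rw [n1] at h36
  norm_num at h36


/-- Let V be a finite-dimensional real vector space with a commutative bilinear product and a positive-definite symmetric bilinear form that associates with the product and satisfies the Norton inequality (the Majorana setting of the definitions). Let X be a group of linear automorphisms of V in which every element squares to the identity, and suppose every non-identity element x of X is a Majorana involution with an axial vector a(x) of squared length 1, such that for any two distinct non-identity x, y the product a(x) ∘ a(y) equals (1/8)(a(x) + a(y) − a(xy)) (the dihedral subalgebra of type 2A whose third axis belongs to the involution xy). Then X has order at most 4. -/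
theorem result {V : Type*} [AddCommGroup V] [Module ℝ V] [FiniteDimensional ℝ V] (mul : V →ₗ[ℝ] V →ₗ[ℝ] V) (B : LinearMap.BilinForm ℝ V) (hV : Cfsg.Axial.IsMajoranaAmbient mul B) (X : Subgroup (V ≃ₗ[ℝ] V)) (hX : ∀ x ∈ X, x * x = 1) (ax : (V ≃ₗ[ℝ] V) → V) (hax : ∀ x ∈ X, x ≠ 1 → Cfsg.Axial.IsMajoranaPair mul B x (ax x)) (h1 : ∀ x ∈ X, x ≠ 1 → B (ax x) (ax x) = 1) (h2A : ∀ x ∈ X, ∀ y ∈ X, x ≠ 1 → y ≠ 1 → x ≠ y → mul (ax x) (ax y) = (1 / 8 : ℝ) • (ax x + ax y - ax (x * y))) : Nat.card ↥X ≤ 4 := by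
  classical
  by_contra hcard
  push_neg at hcard
  have hXn : 4 < (X : Set (V ≃ₗ[ℝ] V)).ncard := by rw [← Nat.card_coe_set_eq]; exact hcard
  obtain ⟨x, hxX, hx⟩ : ∃ b ∈ (X : Set (V ≃ₗ[ℝ] V)), b ∉ ({1} : Set (V ≃ₗ[ℝ] V)) :=
    Set.exists_mem_notMem_of_ncard_lt_ncard (by rw [Set.ncard_singleton]; omega)
  obtain ⟨y, hyX, hy⟩ : ∃ b ∈ (X : Set (V ≃ₗ[ℝ] V)), b ∉ ({1, x} : Set (V ≃ₗ[ℝ] V)) :=
    Set.exists_mem_notMem_of_ncard_lt_ncard
      (lt_of_le_of_lt (Set.ncard_insert_le _ _) (by rw [Set.ncard_singleton]; omega))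
  obtain ⟨z, hzX, hz⟩ : ∃ b ∈ (X : Set (V ≃ₗ[ℝ] V)),
      b ∉ ((({1, x, y, x * y} : Finset (V ≃ₗ[ℝ] V)) : Set (V ≃ₗ[ℝ] V))) :=
    Set.exists_mem_notMem_of_ncard_lt_ncard
      (lt_of_le_of_lt (by rw [Set.ncard_coe_finset]; exact Finset.card_le_four) hXn)
  have hx1 : x ≠ 1 := hx
  have hy' : y ≠ 1 ∧ y ≠ x := by
    simp only [Set.mem_insert_iff, Set.mem_singleton_iff, not_or] at hy
    exact hy
  have hz' : z ≠ 1 ∧ z ≠ x ∧ z ≠ y ∧ z ≠ x * y := by
    simp only [Finset.coe_insert, Finset.coe_singleton, Set.mem_insert_iff,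
      Set.mem_singleton_iff, not_or] at hz
    exact hz
  have hx' : x ∈ X := hxX
  have hyX' : y ∈ X := hyX
  have hzX' : z ∈ X := hzX
  have hinv : ∀ a ∈ X, a⁻¹ = a := fun a ha => inv_eq_of_mul_eq_one_left (hX a ha)
  have hcomm : ∀ a ∈ X, ∀ b ∈ X, a * b = b * a := by
    intro a ha b hb
    calc a * b = (a * b)⁻¹ := (hinv _ (X.mul_mem ha hb)).symm
      _ = b⁻¹ * a⁻¹ := mul_inv_rev a b
      _ = b * a := by rw [hinv a ha, hinv b hb]
  have hone : ∀ a ∈ X, ∀ b, a * b = 1 → b = a := by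
    intro a ha b h
    exact mul_left_cancel (h.trans (hX a ha).symm)
  have hcan : ∀ g, x * (x * g) = g := by
    intro g
    rw [← mul_assoc, hX x hx', one_mul]
  -- group identities
  have i1 : y * (x * z) = x * (y * z) := by rw [← mul_assoc, hcomm y hyX' x hx', mul_assoc]
  have i2 : (x * y) * z = x * (y * z) := mul_assoc x y z
  have i3 : (x * y) * (x * z) = y * z := by
    rw [hcomm x hx' y hyX', mul_assoc, hcan]
  have hyzX : y * z ∈ X := X.mul_mem hyX' hzX'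
  have i4 : (y * z) * (x * (y * z)) = x := by
    rw [hcomm (y * z) hyzX (x * (y * z)) (X.mul_mem hx' hyzX), mul_assoc, hX _ hyzX, mul_one]
  -- non-identity facts
  have nxy : x * y ≠ 1 := fun h => hy'.2 (hone x hx' y h)
  have nxz : x * z ≠ 1 := fun h => hz'.2.1 (hone x hx' z h)
  have nyz : y * z ≠ 1 := fun h => hz'.2.2.1 (hone y hyX' z h)
  have nyzx : y * z ≠ x := by
    intro h
    apply hz'.2.2.2
    calc z = y * (y * z) := by rw [← mul_assoc, hX y hyX', one_mul]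
      _ = y * x := by rw [h]
      _ = x * y := hcomm y hyX' x hx'
  have nw : x * (y * z) ≠ 1 := fun h => nyzx (hone x hx' _ h)
  have nx : ∀ g, g ≠ 1 → x ≠ x * g := by
    intro g hg h
    exact hg (by simpa using h.symm)
  have P : ∀ g ∈ X, g ≠ 1 → g ≠ x →
      mul (ax x) (ax g) = (1 / 8 : ℝ) • (ax x + ax g - ax (x * g)) ∧
      mul (ax x) (ax (x * g)) = (1 / 8 : ℝ) • (ax x + ax (x * g) - ax g) := by
    intro g hg hg1 hgx
    refine ⟨h2A x hx' g hg hx1 hg1 hgx.symm, ?_⟩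
    have h := h2A x hx' (x * g) (X.mul_mem hx' hg) hx1 (fun h => hgx (hone x hx' g h)) (nx g hg1)
    rw [hcan] at h
    exact h
  obtain ⟨p1, p2⟩ := P y hyX' hy'.1 hy'.2
  obtain ⟨p3, p4⟩ := P z hzX' hz'.1 hz'.2.1
  obtain ⟨p5, p6⟩ := P (y * z) hyzX nyz nyzx
  have q1 := h2A y hyX' z hzX' hy'.1 hz'.1 hz'.2.2.1.symm
  have q2 := h2A y hyX' (x * z) (X.mul_mem hx' hzX') hy'.1 nxz (by
    intro h
    apply hz'.2.2.2
    rw [h, hcan])
  have q3 := h2A (x * y) (X.mul_mem hx' hyX') z hzX' nxy hz'.1 hz'.2.2.2.symm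
  have q4 := h2A (x * y) (X.mul_mem hx' hyX') (x * z) (X.mul_mem hx' hzX') nxy nxz
    (fun h => hz'.2.2.1 (mul_left_cancel h).symm)
  have r := h2A (y * z) hyzX (x * (y * z)) (X.mul_mem hx' hyzX) nyz nw (by
    intro h
    exact hx1 (by simpa using h.symm))
  rw [i1] at q2
  rw [i2] at q3
  rw [i3] at q4
  rw [i4] at r
  have hAx := (hax x hx' hx1).2.2.1.1
  have hAyz := (hax (y * z) hyzX nyz).2.2.1.1
  have hlaw : Cfsg.Axial.monsterLaw (1 / 4 : ℝ) (1 / 32) (1 / 4) (1 / 4) = {1, 0} := by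
    unfold Cfsg.Axial.monsterLaw
    rw [if_neg (by norm_num), if_neg (by norm_num), if_pos ⟨rfl, rfl⟩]
  have hmem : (1 / 4 : ℝ) ∈ Cfsg.Axial.majoranaSpectrum := by
    unfold Cfsg.Axial.majoranaSpectrum
    simp
  refine vec mul B (ax x) (ax y) (ax z) (ax (x * y)) (ax (x * z)) (ax (y * z)) (ax (x * (y * z)))
    p1 p2 p3 p4 p5 p6 q1 q2 q3 q4 r hAyz.2.1 ?_ (h1 x hx' hx1) (h1 _ hyzX nyz)
  intro u v hu hv
  have h := hAx.2.2.2 (1 / 4) hmem (1 / 4) hmem u (Module.End.mem_eigenspace_iff.mpr hu) v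
    (Module.End.mem_eigenspace_iff.mpr hv)
  rw [hlaw] at h
  unfold Cfsg.Axial.eigenSum at h
  rw [iSup_insert, iSup_singleton] at h
  obtain ⟨w1, hw1, w0, hw0, hs⟩ := Submodule.mem_sup.mp h
  refine ⟨w1, w0, ?_, ?_, hs⟩
  · have := Module.End.mem_eigenspace_iff.mp hw1
    rw [one_smul] at this
    exact this
  · have := Module.End.mem_eigenspace_iff.mp hw0
    rw [zero_smul] at this
    exact this

end Cfsg.Agent.S5543
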