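import Cfsg.Statements.S5546
import Cfsg.Agent.Lib.Helper28.LeechRep13

set_option autoImplicit false
open Cfsg

namespace Cfsg.Agent.S5546

/-- The second Conway group (the stabilizer in the Leech lattice automorphism group of the short vector fixed in the definitions) is isomorphic to a subgroup of the general linear group of degree 23 over the field with 13 elements: there is an injective homomorphism into it. -/
theorem result : ∃ f : ↥Cfsg.Spor.Co2 →* GL (Fin 23) (ZMod 13), Function.Injective f := by
  obtain ⟨f, hf⟩ := Cfsg.Agent.Lib.Helper28.exists_rep23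
  have hU : Cfsg.Spor.leechU = Cfsg.Agent.Lib.Helper28.vPlus := by
    apply Subtype.ext
    funext k
    rw [Cfsg.Agent.Lib.Helper28.vPlus_apply]
    rfl
  let ι : ↥Cfsg.Spor.Co2 →* MulAction.stabilizer Co0 Cfsg.Agent.Lib.Helper28.vPlus :=
    { toFun := fun x => ⟨⟨x.1, x.2.1⟩, by
        have h := x.2.2
        rw [hU] at h
        exact h⟩
      map_one' := rfl
      map_mul' := fun _ _ => rfl }
  refine ⟨f.comp ι, ?_⟩
  intro x y h
  have h1 := hf h
  apply Subtype.ext
  exact congrArg (fun z : MulAction.stabilizer Co0 Cfsg.Agent.Lib.Helper28.vPlus => (z.1.1)) h1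

end Cfsg.Agent.S5546
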