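import Mathlib
import Cfsg.Statements.S5599
import Cfsg.Agent.Lib.Helper3.SetSys3
import Cfsg.Agent.Lib.Helper3.SmallSets

set_option autoImplicit false
open scoped Pointwise
open Cfsg

namespace Cfsg.Agent.S5599

open MulAction Cfsg.Agent.Lib.Helper28 Cfsg.Agent.Lib.Helper3.M24T Cfsg.Agent.Lib.Helper3.Orb
open Cfsg.Agent.Lib.Helper3 Cfsg.Agent.Lib.Helper3.SS

theorem mem_M22 {x : Equiv.Perm GolayPt} :
    x ∈ Spor.M22 ↔ x ∈ M24 ∧ x none = none ∧ x (some 0) = some 0 := by
  unfold Spor.M22 Spor.M23
  rw [Subgroup.mem_inf, Subgroup.mem_inf, mem_stabilizer_iff, mem_stabilizer_iff]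
  simp only [Equiv.Perm.smul_def]
  tauto

theorem card_pair : Nat.card ↥(stabIn ({none, some 0} : Finset GolayPt)) = 887040 := by
  have hs : ({none, some 0} : Finset GolayPt).card = 2 := by decide
  have h1 := card_stabIn ({none, some 0} : Finset GolayPt)
  have h2 : {Z | ∃ g ∈ M24, g • ({none, some 0} : Finset GolayPt) = Z} =
      {Z : Finset GolayPt | Z.card = 2 ∧ ((∅ : Finset GolayPt) ∩ Z).card = 0} := by
    ext Z
    constructor
    · rintro ⟨g, hg, rfl⟩
      exact ⟨by rw [Finset.card_smul_finset, hs], by simp⟩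
    · rintro ⟨hZ, _⟩
      obtain ⟨g, hg, _, hgZ⟩ := Small.exists_map_pair ∅ _ Z (hs.trans hZ.symm) (by simp)
        (by rw [Finset.empty_union]; omega)
      exact ⟨g, hg, hgZ⟩
  rw [h2, Small.ncard_card_inter ∅ 2 0 (by omega), Finset.card_empty, Finset.compl_empty,
    Finset.card_univ, Sext.card_pts] at h1
  have h3 : Nat.choose 0 0 * Nat.choose 24 (2 - 0) = 276 := by decide
  rw [h3] at h1
  omega

/-- an octad through `∞` missing `0` -/
def oct1 : ℕ := 8536111 ^^^ 0

theorem exists_oct : ∃ o ∈ octads, (none : GolayPt) ∈ o ∧ (some 0 : GolayPt) ∉ o := by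
  obtain ⟨g, hg, hmap⟩ := exists_M24_map_list [ptOf 23, ptOf 4] [none, some 0] rfl (by simp)
    (by decide) (by decide)
  simp only [List.map_cons, List.map_nil, List.cons.injEq, and_true] at hmap
  refine ⟨g • un O5, smul_mem_octads hg (un_mem_octads isOct_O5), ?_, ?_⟩
  · rw [← hmap.1, mem_smul_finset_iff, mem_un, idx_ptOf (by norm_num)]
    decide
  · rw [← hmap.2, mem_smul_finset_iff, mem_un, idx_ptOf (by norm_num)]
    decide

/-- In the automorphism group of the length-24 code, the two-point Mathieu group (permutations of the code's group fixing the extra point and the residue 0) has index 2 in the setwise stabiliser of that pair of points, and an element of the code's group interchanging the two points normalises the two-point group and induces on it, by conjugation, an automorphism that is not inner. -/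
theorem result (g : Equiv.Perm Cfsg.GolayPt) (hg : g ∈ Cfsg.M24) (h₁ : g none = some 0) (h₂ : g (some 0) = none) : Cfsg.Spor.M22.relIndex (Cfsg.M24 ⊓ MulAction.stabilizer (Equiv.Perm Cfsg.GolayPt) ({none, some 0} : Finset Cfsg.GolayPt)) = 2 ∧ (∀ x ∈ Cfsg.Spor.M22, g * x * g⁻¹ ∈ Cfsg.Spor.M22) ∧ ¬ ∃ h ∈ Cfsg.Spor.M22, ∀ x ∈ Cfsg.Spor.M22, g * x * g⁻¹ = h * x * h⁻¹ := by
  refine ⟨?_, ?_, ?_⟩
  · have hle : Spor.M22 ≤ Cfsg.M24 ⊓ MulAction.stabilizer (Equiv.Perm Cfsg.GolayPt)
        ({none, some 0} : Finset Cfsg.GolayPt) := by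
      intro x hx
      rw [mem_M22] at hx
      refine ⟨hx.1, ?_⟩
      change x • ({none, some 0} : Finset GolayPt) = {none, some 0}
      rw [Finset.smul_finset_insert, Finset.smul_finset_singleton, Equiv.Perm.smul_def,
        Equiv.Perm.smul_def, hx.2.1, hx.2.2]
    have h1 := Subgroup.index_mul_card (Spor.M22.subgroupOf (Cfsg.M24 ⊓
      MulAction.stabilizer (Equiv.Perm Cfsg.GolayPt) ({none, some 0} : Finset Cfsg.GolayPt)))
    rw [Nat.card_congr (Subgroup.subgroupOfEquivOfLe hle).toEquiv, card_M22] at h1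
    have h2 : Nat.card ↥(Cfsg.M24 ⊓ MulAction.stabilizer (Equiv.Perm Cfsg.GolayPt)
      ({none, some 0} : Finset Cfsg.GolayPt)) = 887040 := card_pair
    rw [h2] at h1
    have hn : ∀ n : ℕ, n * 443520 = 887040 → n = 2 := by
      intro n hn
      omega
    exact hn _ h1
  · intro x hx
    rw [mem_M22] at hx ⊢
    have e1 : g⁻¹ none = some 0 := by rw [Equiv.Perm.inv_eq_iff_eq, h₂]
    have e2 : g⁻¹ (some 0) = none := by rw [Equiv.Perm.inv_eq_iff_eq, h₁]
    refine ⟨M24.mul_mem (M24.mul_mem hg hx.1) (M24.inv_mem hg), ?_, ?_⟩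
    · simp only [Equiv.Perm.mul_apply, e1, hx.2.2, h₂]
    · simp only [Equiv.Perm.mul_apply, e2, hx.2.1, h₁]
  · rintro ⟨h, hh, hconj⟩
    rw [mem_M22] at hh
    set c := h⁻¹ * g with hc
    have hcM : c ∈ M24 := M24.mul_mem (M24.inv_mem hh.1) hg
    have hcomm : ∀ x ∈ Spor.M22, c * x = x * c := by
      intro x hx
      have := hconj x hx
      rw [hc]
      have e : g * x = h * x * h⁻¹ * g := by rw [← this]; group
      calc h⁻¹ * g * x = h⁻¹ * (g * x) := by group
        _ = h⁻¹ * (h * x * h⁻¹ * g) := by rw [e]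
        _ = x * (h⁻¹ * g) := by group
    have c1 : c none = some 0 := by
      rw [hc, Equiv.Perm.mul_apply, h₁, Equiv.Perm.inv_eq_iff_eq, hh.2.2]
    have c2 : c (some 0) = none := by
      rw [hc, Equiv.Perm.mul_apply, h₂, Equiv.Perm.inv_eq_iff_eq, hh.2.1]
    have hfix : ∀ y : GolayPt, y ≠ none → y ≠ some 0 → c y = y := by
      intro y hy1 hy2
      by_contra hne
      have hz1 : c y ≠ none := fun h => hy2 (c.injective (h.trans c2.symm))
      have hz2 : c y ≠ some 0 := fun h => hy1 (c.injective (h.trans c1.symm))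
      -- a further point
      have hex : ∃ w : GolayPt, w ∉ ({none, some 0, y, c y} : Finset GolayPt) := by
        by_contra hcon
        push Not at hcon
        have : (Finset.univ : Finset GolayPt) ⊆ {none, some 0, y, c y} := fun w _ => hcon w
        have h1 := Finset.card_le_card this
        have h2 : ({none, some 0, y, c y} : Finset GolayPt).card ≤ 4 := Finset.card_le_four
        rw [Finset.card_univ, Sext.card_pts] at h1
        omega
      obtain ⟨w, hw⟩ := hex
      simp only [Finset.mem_insert, Finset.mem_singleton, not_or] at hw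
      obtain ⟨x, hx, hmap⟩ := exists_M24_map_list [none, some 0, y, c y] [none, some 0, y, w] rfl
        (by simp)
        (by
          simp only [List.nodup_cons, List.mem_cons, List.not_mem_nil, or_false, not_or,
            List.nodup_nil, not_false_eq_true, and_true]
          refine ⟨⟨by simp, Ne.symm hy1, Ne.symm hz1⟩, ⟨Ne.symm hy2, Ne.symm hz2⟩, Ne.symm hne⟩)
        (by
          simp only [List.nodup_cons, List.mem_cons, List.not_mem_nil, or_false, not_or,
            List.nodup_nil, not_false_eq_true, and_true]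
          refine ⟨⟨by simp, Ne.symm hy1, Ne.symm hw.1⟩, ⟨Ne.symm hy2, Ne.symm hw.2.1⟩, Ne.symm hw.2.2.1⟩)
      simp only [List.map_cons, List.map_nil, List.cons.injEq, and_true] at hmap
      have hxM : x ∈ Spor.M22 := mem_M22.2 ⟨hx, hmap.1, hmap.2.1⟩
      have := congrArg (fun e : Equiv.Perm GolayPt => e y) (hcomm x hxM)
      simp only [Equiv.Perm.mul_apply, hmap.2.2.1, hmap.2.2.2] at this
      exact hw.2.2.2 this.symm
    obtain ⟨o, ho, ho1, ho2⟩ := exists_oct
    have h8 : o.card = 8 := by
      have := ho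
      rw [mem_octads_iff, ← card_eq_popc] at this; exact this.2
    have heq : c • o = o := by
      apply octad_eq_of_five (smul_mem_octads hcM ho) ho
      have hsub : o.erase none ⊆ c • o ∩ o := by
        intro y hy
        rw [Finset.mem_erase] at hy
        refine Finset.mem_inter.2 ⟨?_, hy.2⟩
        have hy0 : y ≠ some 0 := fun h => ho2 (h ▸ hy.2)
        rw [← hfix y hy.1 hy0, mem_smul_finset_iff]
        exact hy.2
      have := Finset.card_le_card hsub
      rw [Finset.card_erase_of_mem ho1] at this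
      omega
    apply ho2
    rw [← c1, ← heq, mem_smul_finset_iff]
    exact ho1

end Cfsg.Agent.S5599
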