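import Cfsg.Statements.S5600
import Cfsg.Agent.Lib.Helper28.M24Six2

set_option autoImplicit false
open scoped Pointwise
open Cfsg

namespace Cfsg.Agent.S5600

/-- Although the group of the length-24 code is only 5-transitive on the 24 points, it induces the full symmetric group on every 6-element subset: every permutation of a 6-set E is the restriction of an element of the group mapping E to itself. The pointwise stabiliser of E has order 16 when E lies in an octad and order 3 otherwise; in the latter case the setwise stabiliser of E has order 2160. -/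
theorem result (E : Finset Cfsg.GolayPt) (hE : E.card = 6) : (∀ σ : Equiv.Perm ↥E, ∃ g ∈ Cfsg.M24, ∀ p : ↥E, g p = σ p) ∧ ((∃ o ∈ Cfsg.octads, E ⊆ o) → Nat.card {g : Equiv.Perm Cfsg.GolayPt // g ∈ Cfsg.M24 ∧ ∀ p ∈ E, g p = p} = 16) ∧ ((¬ ∃ o ∈ Cfsg.octads, E ⊆ o) → Nat.card {g : Equiv.Perm Cfsg.GolayPt // g ∈ Cfsg.M24 ∧ ∀ p ∈ E, g p = p} = 3 ∧ Nat.card ↥(MulAction.stabilizer Cfsg.M24 E) = 2160) := by
  classical
  have hcard : Nat.card {g : Equiv.Perm Cfsg.GolayPt // g ∈ Cfsg.M24 ∧ ∀ p ∈ E, g p = p} =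
      if Cfsg.Agent.Lib.Helper28.Special E then 16 else 3 :=
    Cfsg.Agent.Lib.Helper28.ncard_fix_six hE
  have hind : ∀ σ : Equiv.Perm ↥E, ∃ g ∈ Cfsg.M24, ∀ p : ↥E, g p = σ p := by
    intro σ
    obtain ⟨g, hg, h⟩ := Cfsg.Agent.Lib.Helper28.exists_induce_six hE
      (fun p => if h : p ∈ E then (σ ⟨p, h⟩ : GolayPt) else p) (by
        intro x hx y hy hxy
        have hx' : x ∈ E := hx
        have hy' : y ∈ E := hy
        simp only [hx', hy', dif_pos] at hxy
        have := σ.injective (Subtype.ext hxy)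
        exact congrArg Subtype.val this) (by
        ext y
        simp only [Finset.mem_image]
        constructor
        · rintro ⟨x, hx, rfl⟩
          simp only [hx, dif_pos]
          exact (σ ⟨x, hx⟩).2
        · intro hy
          refine ⟨(σ.symm ⟨y, hy⟩ : GolayPt), (σ.symm ⟨y, hy⟩).2, ?_⟩
          simp)
    refine ⟨g, hg, fun p => ?_⟩
    rw [h p p.2]
    simp
  refine ⟨hind, fun hs => ?_, fun hs => ⟨?_, ?_⟩⟩
  · rw [hcard]; exact if_pos hs
  · rw [hcard]; exact if_neg hs
  · -- the homomorphism to the symmetric group on `E`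
    have hst : ∀ g : ↥(MulAction.stabilizer Cfsg.M24 E), ∀ x, ((g : ↥M24) : Equiv.Perm GolayPt) x ∈ E ↔ x ∈ E := by
      intro g x
      have h1 : ((g : ↥M24) : Equiv.Perm GolayPt) • E = E := g.2
      have h2 := Cfsg.Agent.Lib.Helper28.mem_smul_finset_iff ((g : ↥M24) : Equiv.Perm GolayPt) E x
      rw [h1] at h2
      exact h2
    let φ : ↥(MulAction.stabilizer Cfsg.M24 E) →* Equiv.Perm ↥E :=
      { toFun := fun g => Equiv.Perm.subtypePerm ((g : ↥M24) : Equiv.Perm GolayPt) (hst g)
        map_one' := by apply Equiv.ext; intro x; apply Subtype.ext; rfl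
        map_mul' := by intro a b; apply Equiv.ext; intro x; apply Subtype.ext; rfl }
    have hφ : ∀ g x, ((φ g x : ↥E) : GolayPt) = ((g : ↥M24) : Equiv.Perm GolayPt) x := fun g x => rfl
    have hsurj : Function.Surjective φ := by
      intro σ
      obtain ⟨g, hg, h⟩ := hind σ
      have hgE : (⟨g, hg⟩ : ↥M24) ∈ MulAction.stabilizer Cfsg.M24 E := by
        rw [MulAction.mem_stabilizer_iff]
        change g • E = E
        apply Finset.eq_of_subset_of_card_le
        · intro y hy
          rw [Cfsg.Agent.Lib.Helper28.smul_finset_eq_image, Finset.mem_image] at hy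
          obtain ⟨x, hx, rfl⟩ := hy
          rw [h ⟨x, hx⟩]
          exact (σ ⟨x, hx⟩).2
        · rw [Finset.card_smul_finset]
      refine ⟨⟨⟨g, hg⟩, hgE⟩, ?_⟩
      apply Equiv.ext; intro x; apply Subtype.ext
      rw [hφ]
      exact h x
    have hker : Nat.card φ.ker = 3 := by
      have h3 : Nat.card {g : Equiv.Perm Cfsg.GolayPt // g ∈ Cfsg.M24 ∧ ∀ p ∈ E, g p = p} = 3 := by
        rw [hcard]; exact if_neg hs
      rw [← h3]
      apply Nat.card_congr
      refine ⟨fun g => ⟨((g : ↥(MulAction.stabilizer Cfsg.M24 E)) : ↥M24), (g : ↥(MulAction.stabilizer Cfsg.M24 E)).1.2, fun p hp => ?_⟩,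
        fun g => ⟨⟨⟨g.1, g.2.1⟩, ?_⟩, ?_⟩, fun g => rfl, fun g => rfl⟩
      · have h1 : φ g = 1 := g.2
        have h2 := hφ g ⟨p, hp⟩
        rw [h1] at h2
        exact h2.symm
      · rw [MulAction.mem_stabilizer_iff]
        change g.1 • E = E
        rw [Cfsg.Agent.Lib.Helper28.smul_finset_eq_image]
        ext y
        simp only [Finset.mem_image]
        constructor
        · rintro ⟨x, hx, rfl⟩
          rw [g.2.2 x hx]; exact hx
        · intro hy
          exact ⟨y, hy, g.2.2 y hy⟩
      · rw [MonoidHom.mem_ker]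
        apply Equiv.ext; intro x; apply Subtype.ext
        rw [hφ]
        exact g.2.2 x x.2
    have h1 := φ.ker.card_mul_index
    have h2 : φ.ker.index = Nat.card (Equiv.Perm ↥E) := by
      rw [Subgroup.index, Nat.card_congr (QuotientGroup.quotientKerEquivOfSurjective φ hsurj).toEquiv]
    rw [← h1, hker, h2, Nat.card_eq_fintype_card, Fintype.card_perm, Fintype.card_coe, hE]
    rfl

end Cfsg.Agent.S5600
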