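import Cfsg.Statements.S5601
import Cfsg.Agent.Lib.Helper28.M24Cls2

set_option autoImplicit false
open scoped Pointwise
open Cfsg

namespace Cfsg.Agent.S5601

/-- The group of the length-24 code has exactly two conjugacy classes of subgroups of order 3: a subgroup of order 3 fixes either exactly 6 of the 24 points or none of them, both cases occur, and two subgroups of order 3 with the same number of fixed points are conjugate. -/
theorem result : (∀ X : Subgroup ↥Cfsg.M24, Nat.card X = 3 → {p : Cfsg.GolayPt | ∀ x ∈ X, ((x : ↥Cfsg.M24) : Equiv.Perm Cfsg.GolayPt) p = p}.ncard = 6 ∨ {p : Cfsg.GolayPt | ∀ x ∈ X, ((x : ↥Cfsg.M24) : Equiv.Perm Cfsg.GolayPt) p = p}.ncard = 0) ∧ (∃ X : Subgroup ↥Cfsg.M24, Nat.card X = 3 ∧ {p : Cfsg.GolayPt | ∀ x ∈ X, ((x : ↥Cfsg.M24) : Equiv.Perm Cfsg.GolayPt) p = p}.ncard = 6) ∧ (∃ X : Subgroup ↥Cfsg.M24, Nat.card X = 3 ∧ {p : Cfsg.GolayPt | ∀ x ∈ X, ((x : ↥Cfsg.M24)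 : Equiv.Perm Cfsg.GolayPt) p = p}.ncard = 0) ∧ ∀ X Y : Subgroup ↥Cfsg.M24, Nat.card X = 3 → Nat.card Y = 3 → {p : Cfsg.GolayPt | ∀ x ∈ X, ((x : ↥Cfsg.M24) : Equiv.Perm Cfsg.GolayPt) p = p}.ncard = {p : Cfsg.GolayPt | ∀ x ∈ Y, ((x : ↥Cfsg.M24) : Equiv.Perm Cfsg.GolayPt) p = p}.ncard → ∃ k : ↥Cfsg.M24, MulAut.conj k • X = Y := by
  open Cfsg.Agent.Lib.Helper28 in
  have key : ∀ X : Subgroup ↥Cfsg.M24, Nat.card X = 3 → ∃ x : ↥Cfsg.M24, orderOf x = 3 ∧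
      X = Subgroup.zpowers x := by
    intro X hX
    have : Finite X := Nat.finite_of_card_ne_zero (by rw [hX]; norm_num)
    have hnt : X ≠ ⊥ := by
      rintro rfl
      simp at hX
    obtain ⟨x, hx, hx1⟩ : ∃ x ∈ X, x ≠ 1 := by
      obtain ⟨x, hx⟩ := (Subgroup.ne_bot_iff_exists_ne_one).1 hnt
      exact ⟨x.1, x.2, fun h => hx (Subtype.ext h)⟩
    have ho : orderOf x = 3 := by
      have h1 : orderOf (⟨x, hx⟩ : X) ∣ 3 := hX ▸ orderOf_dvd_natCard _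
      rw [Subgroup.orderOf_mk] at h1
      rcases (Nat.dvd_prime (by norm_num : Nat.Prime 3)).1 h1 with h | h
      · exact absurd (orderOf_eq_one_iff.1 h) hx1
      · exact h
    refine ⟨x, ho, ?_⟩
    symm
    apply Subgroup.eq_of_le_of_card_ge (Subgroup.zpowers_le.2 hx)
    rw [hX, Nat.card_zpowers, ho]
  have hfix : ∀ x : ↥Cfsg.M24, {p : Cfsg.GolayPt | ∀ y ∈ Subgroup.zpowers x,
      ((y : ↥Cfsg.M24) : Equiv.Perm Cfsg.GolayPt) p = p} = ↑(fixSet (x : Equiv.Perm GolayPt)) := by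
    intro x
    ext p
    simp only [Set.mem_ofPred_eq, Finset.mem_coe, mem_fixSet]
    constructor
    · intro h; exact h x (Subgroup.mem_zpowers x)
    · intro h y hy
      obtain ⟨n, rfl⟩ := Subgroup.mem_zpowers_iff.1 hy
      have h2 : (x : Equiv.Perm GolayPt) ∈ MulAction.stabilizer (Equiv.Perm GolayPt) p := h
      have h3 := Subgroup.zpow_mem _ h2 n
      simpa using h3
  have hord : ∀ x : ↥Cfsg.M24, orderOf (x : Equiv.Perm GolayPt) = orderOf x := fun x =>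
    Subgroup.orderOf_coe x
  have hcases : ∀ x : ↥Cfsg.M24, orderOf x = 3 →
      (∃ k : ↥Cfsg.M24, k * x * k⁻¹ = ⟨permOf r3A, permOf_mem_M24 inM24_r3A⟩ ∧
        (fixSet (x : Equiv.Perm GolayPt)).card = 6) ∨
      (∃ k : ↥Cfsg.M24, k * x * k⁻¹ = ⟨permOf r3B, permOf_mem_M24 inM24_r3B⟩ ∧
        (fixSet (x : Equiv.Perm GolayPt)).card = 0) := by
    intro x hx
    rcases order3_cases x.2 (by rw [hord, hx]) with ⟨k, hk, e, f⟩ | ⟨k, hk, e, f⟩
    · exact Or.inl ⟨⟨k, hk⟩, Subtype.ext e, f⟩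
    · exact Or.inr ⟨⟨k, hk⟩, Subtype.ext e, by rw [f]; rfl⟩
  have hconj : ∀ (k x y : ↥Cfsg.M24), k * x * k⁻¹ = y →
      MulAut.conj k • Subgroup.zpowers x = Subgroup.zpowers y := by
    intro k x y h
    have h1 : MulAut.conj k • Subgroup.zpowers x
        = (Subgroup.zpowers x).map (MulAut.conj k).toMonoidHom := rfl
    rw [h1, MonoidHom.map_zpowers, ← h]
    rfl
  refine ⟨?_, ?_, ?_, ?_⟩
  · intro X hX
    obtain ⟨x, hx, rfl⟩ := key X hX
    rw [hfix, Set.ncard_coe_finset]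
    rcases hcases x hx with ⟨_, _, f⟩ | ⟨_, _, f⟩
    · exact Or.inl f
    · exact Or.inr f
  · refine ⟨Subgroup.zpowers ⟨permOf r3A, permOf_mem_M24 inM24_r3A⟩, ?_, ?_⟩
    · rw [Nat.card_zpowers, ← hord]; exact orderOf_r3A
    · rw [hfix, Set.ncard_coe_finset]
      show (fixSet (permOf r3A)).card = 6
      rw [fixSet_r3A]; decide +kernel
  · refine ⟨Subgroup.zpowers ⟨permOf r3B, permOf_mem_M24 inM24_r3B⟩, ?_, ?_⟩
    · rw [Nat.card_zpowers, ← hord]; exact orderOf_r3B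
    · rw [hfix, Set.ncard_coe_finset]
      show (fixSet (permOf r3B)).card = 0
      rw [fixSet_r3B]; rfl
  · intro X Y hX hY hXY
    obtain ⟨x, hx, rfl⟩ := key X hX
    obtain ⟨y, hy, rfl⟩ := key Y hY
    rw [hfix, hfix, Set.ncard_coe_finset, Set.ncard_coe_finset] at hXY
    have fin : ∀ (k1 k2 r : ↥Cfsg.M24), k1 * x * k1⁻¹ = r → k2 * y * k2⁻¹ = r →
        ∃ k : ↥Cfsg.M24, MulAut.conj k • Subgroup.zpowers x = Subgroup.zpowers y := by
      intro k1 k2 r h1 h2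
      refine ⟨k2⁻¹ * k1, hconj _ _ _ ?_⟩
      have : (k2⁻¹ * k1) * x * (k2⁻¹ * k1)⁻¹ = k2⁻¹ * (k1 * x * k1⁻¹) * k2 := by group
      rw [this, h1, ← h2]; group
    rcases hcases x hx with ⟨k1, e1, f1⟩ | ⟨k1, e1, f1⟩ <;>
    rcases hcases y hy with ⟨k2, e2, f2⟩ | ⟨k2, e2, f2⟩
    · exact fin k1 k2 _ e1 e2
    · omega
    · omega
    · exact fin k1 k2 _ e1 e2

end Cfsg.Agent.S5601
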