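import Cfsg.Statements.S5603
import Cfsg.Agent.Lib.Helper28.M24FixR3B

set_option autoImplicit false
open scoped Pointwise
open Cfsg

namespace Cfsg.Agent.S5603

/-- A fixed-point-free element of order 3 of the group of the length-24 code maps to themselves exactly 7 sextets and exactly 15 trios. -/
theorem result (g : Equiv.Perm Cfsg.GolayPt) (hg : g ∈ Cfsg.M24) (h₃ : orderOf g = 3) (h₀ : ∀ p, g p ≠ p) : {S : Finset (Finset Cfsg.GolayPt) | S ∈ Cfsg.sextets ∧ g • S = S}.ncard = 7 ∧ {T : Finset (Finset Cfsg.GolayPt) | T ∈ Cfsg.trios ∧ g • T = T}.ncard = 15 := by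
  open Cfsg.Agent.Lib.Helper28 Cfsg.Agent.Lib.Helper3.Sext Cfsg.Agent.Lib.Helper3.Trio in
  rcases order3_cases hg h₃ with ⟨_, _, _, h⟩ | ⟨k, hk, e, _⟩
  · exfalso
    rw [fixSet_eq_empty_iff.2 h₀] at h
    simp at h
  · refine ⟨?_, ?_⟩
    · rw [ncard_fix_transport sextets (fun k hk x hx => smul_mem_sextets hk hx) hk e]; exact fix_sextets_r3B
    · rw [ncard_fix_transport trios (fun k hk x hx => smul_mem_trios hk hx) hk e]; exact fix_trios_r3B

end Cfsg.Agent.S5603
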