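import Cfsg.Statements.S5606
import Cfsg.Agent.Lib.Helper28.M24FixR2B

set_option autoImplicit false
open scoped Pointwise
open Cfsg

namespace Cfsg.Agent.S5606

/-- A fixed-point-free involution of the group of the length-24 code maps to themselves exactly 15 octads, exactly 75 trios and exactly 51 sextets. -/
theorem result (g : Equiv.Perm Cfsg.GolayPt) (hg : g ∈ Cfsg.M24) (h₂ : orderOf g = 2) (h₀ : ∀ p, g p ≠ p) : {o : Finset Cfsg.GolayPt | o ∈ Cfsg.octads ∧ g • o = o}.ncard = 15 ∧ {T : Finset (Finset Cfsg.GolayPt) | T ∈ Cfsg.trios ∧ g • T = T}.ncard = 75 ∧ {S : Finset (Finset Cfsg.GolayPt) | S ∈ Cfsg.sextets ∧ g • S = S}.ncard = 51 := by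
  open Cfsg.Agent.Lib.Helper28 Cfsg.Agent.Lib.Helper3.Sext Cfsg.Agent.Lib.Helper3.Trio in
  rcases invol_cases hg h₂ with ⟨_, _, _, h⟩ | ⟨k, hk, e, _⟩
  · exfalso
    have h1 := h.2
    rw [fixSet_eq_empty_iff.2 h₀] at h1
    simp at h1
  · refine ⟨?_, ?_, ?_⟩
    · rw [ncard_fix_transport octads (fun k hk x hx => smul_mem_octads hk hx) hk e]; exact fix_octads_r2B
    · rw [ncard_fix_transport trios (fun k hk x hx => smul_mem_trios hk hx) hk e]; exact fix_trios_r2B
    · rw [ncard_fix_transport sextets (fun k hk x hx => smul_mem_sextets hk hx) hk e]; exact fix_sextets_r2B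

end Cfsg.Agent.S5606
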