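import Cfsg.Statements.S5608
import Cfsg.Agent.Lib.Helper28.M24Ord6

set_option autoImplicit false
open scoped Pointwise
open Cfsg

namespace Cfsg.Agent.S5608

/-- If an element of order 3 and an involution of the group of the length-24 code commute, then either the element of order 3 has exactly 6 fixed points and the involution exactly 8, or both are fixed-point-free. -/
theorem result (x s : Equiv.Perm Cfsg.GolayPt) (hx : x ∈ Cfsg.M24) (hs : s ∈ Cfsg.M24) (h₃ : orderOf x = 3) (h₂ : orderOf s = 2) (hc : Commute x s) : ((Finset.univ.filter fun p => x p = p).card = 6 ∧ (Finset.univ.filter fun p => s p = p).card = 8) ∨ ((Finset.univ.filter fun p => x p = p).card = 0 ∧ (Finset.univ.filter fun p => s p = p).card = 0) := by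
  open Cfsg.Agent.Lib.Helper28 in
  have hx3 : x * x * x = 1 := by
    have := pow_orderOf_eq_one x
    rw [h₃] at this
    rw [← this, pow_succ, pow_succ, pow_one]
  have hs2 : s * s = 1 := by
    have := pow_orderOf_eq_one s
    rw [h₂] at this
    rw [← this, sq]
  have hx1 : x ≠ 1 := by rintro rfl; simp at h₃
  have hs1 : s ≠ 1 := by rintro rfl; simp at h₂
  have hcs : s * x = x * s := hc.eq.symm
  have e2 : (x * s) * (x * s) = x * x := by
    calc (x * s) * (x * s) = x * (s * x) * s := by group
      _ = x * (x * s) * s := by rw [hcs]
      _ = x * x * (s * s) := by group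
      _ = x * x := by rw [hs2, mul_one]
  have e3 : (x * s) * (x * x) = s := by
    calc (x * s) * (x * x) = x * (s * x) * x := by group
      _ = x * (x * s) * x := by rw [hcs]
      _ = x * x * (s * x) := by group
      _ = x * x * (x * s) := by rw [hcs]
      _ = (x * x * x) * s := by group
      _ = s := by rw [hx3, one_mul]
  have e4 : (x * x) * (x * x) = x := by
    calc (x * x) * (x * x) = (x * x * x) * x := by group
      _ = x := by rw [hx3, one_mul]
  have hxx : x * x ≠ 1 := by
    intro h
    apply hx1
    have := hx3
    rw [h, one_mul] at this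
    exact this
  have := order6_fix (y := x * s) (M24.mul_mem hx hs) (by rw [e2, e3, hs2]) (by rw [e2]; exact hxx)
    (by rw [e2, e3]; exact hs1)
  rw [e2, e3, e4] at this
  exact this

end Cfsg.Agent.S5608
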