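import Mathlib
import Cfsg.Statements.S5613
import Cfsg.Agent.Lib.Helper3.OrbitTool2
import Cfsg.Agent.Lib.Helper3.OctOrb
import Cfsg.Agent.Lib.Helper3.StabCard

set_option autoImplicit false
open scoped Pointwise
open Cfsg

namespace Cfsg.Agent.S5613

open Cfsg.Agent.Lib.Helper28 Cfsg.Agent.Lib.Helper3.M24T Cfsg.Agent.Lib.Helper3.Orb Cfsg.Agent.Lib.Helper3

theorem cnt (j : ℕ) (hj : j < 5) : {x : Finset GolayPt | isCode (mk x) = true ∧ (popc (mk x) = 8 ∧ popc (O5 &&& (mk x)) = j)}.ncard = [30, 0, 448, 0, 280].getD j 0 := by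
  refine (ncard_code (fun m => popc m = 8 ∧ popc (O5 &&& m) = j)).trans ?_
  revert j
  decide +kernel

theorem main (o o' : Finset GolayPt) (ho : o ∈ octads) (ho' : o' ∈ octads) (j : ℕ) (hj : j < 5)
    (h : (o ∩ o').card = j) :
    Nat.card ↥(MulAction.stabilizer Cfsg.M24 o ⊓ MulAction.stabilizer Cfsg.M24 o') *
      [30, 0, 448, 0, 280].getD j 0 = 322560 := by
  obtain ⟨k, hk, hko⟩ := exists_M24_smul_octad ho
  have h1 := StabCard.card_inf_stabilizer_mul (MulAction.stabilizer Cfsg.M24 o) o'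
  have h2 := StabCard.card_stabilizer_mul_orbit (G := Cfsg.M24) o
  have e2 : MulAction.orbit Cfsg.M24 o = octads := by
    ext y
    constructor
    · rintro ⟨⟨g, hg⟩, rfl⟩
      exact smul_mem_octads hg ho
    · intro hy
      obtain ⟨g, hg, hgo⟩ := exists_M24_smul_octad hy
      refine ⟨⟨g⁻¹ * k, M24.mul_mem (M24.inv_mem hg) hk⟩, ?_⟩
      change (g⁻¹ * k) • o = y
      rw [mul_smul, hko, ← hgo, inv_smul_smul]
  have e1 : MulAction.orbit ↥(MulAction.stabilizer Cfsg.M24 o) o' =
      {y | y ∈ octads ∧ (o ∩ y).card = j} := by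
    ext y
    constructor
    · rintro ⟨⟨⟨g, hg⟩, hgo⟩, rfl⟩
      have hgo' : g • o = o := hgo
      refine ⟨smul_mem_octads hg ho', ?_⟩
      change (o ∩ g • o').card = j
      rw [← h]
      conv_lhs => rw [← hgo']
      rw [← Finset.smul_finset_inter, Finset.card_smul_finset]
    · rintro ⟨hy, hyj⟩
      obtain ⟨g, hg, hg1, hg2⟩ := OctOrb.same_orbit ho ho' hy (by rw [h, hyj])
      exact ⟨⟨⟨g, hg⟩, hg1⟩, hg2⟩
  have e3 : {y | y ∈ octads ∧ (o ∩ y).card = j}.ncard = [30, 0, 448, 0, 280].getD j 0 := by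
    rw [← cnt j hj]
    apply ncard_transport k
    intro y
    rw [oct_iff hk y, card_inter_eq hko OctOrb.O5_lt y]
    tauto
  rw [e2, ncard_octads, card_M24] at h2
  rw [e1, e3] at h1
  rw [h1]
  omega

/-- In the group of the length-24 code, the joint stabiliser of two octads has order 10752, 1152 or 720 according as the octads meet in 0, 4 or 2 points. -/
theorem result (o o' : Finset Cfsg.GolayPt) (ho : o ∈ Cfsg.octads) (ho' : o' ∈ Cfsg.octads) : ((o ∩ o').card = 0 → Nat.card ↥(MulAction.stabilizer Cfsg.M24 o ⊓ MulAction.stabilizer Cfsg.M24 o') = 10752) ∧ ((o ∩ o').card = 4 → Nat.card ↥(MulAction.stabilizer Cfsg.M24 o ⊓ MulAction.stabilizer Cfsg.M24 o') = 1152) ∧ ((o ∩ o').card = 2 → Nat.card ↥(MulAction.stabilizer Cfsg.M24 o ⊓ MulAction.stabilizer Cfsg.M24 o') = 720) := by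
  refine ⟨fun h => ?_, fun h => ?_, fun h => ?_⟩
  · have := main o o' ho ho' 0 (by norm_num) h
    simp only [List.getD_cons_zero] at this
    omega
  · have := main o o' ho ho' 4 (by norm_num) h
    simp only [List.getD_cons_succ, List.getD_cons_zero] at this
    omega
  · have := main o o' ho ho' 2 (by norm_num) h
    simp only [List.getD_cons_succ, List.getD_cons_zero] at this
    omega

end Cfsg.Agent.S5613
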