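import Mathlib
import Cfsg.Statements.S5614
import Cfsg.Agent.Lib.Helper3.SymIso
import Cfsg.Agent.Lib.Helper3.SmallSets
import Cfsg.Agent.S5613

set_option autoImplicit false
open scoped Pointwise
open Cfsg

namespace Cfsg.Agent.S5614

open MulAction Cfsg.Agent.Lib.Helper28 Cfsg.Agent.Lib.Helper3.M24T Cfsg.Agent.Lib.Helper3.Orb
open Cfsg.Agent.Lib.Helper3

def tst (m : ℕ) : Bool :=
  !(popc m == 8 && popc (O5 &&& m) == 2 && [23, 0, 1, 2, 3, 5].all (fun i => !m.testBit i)) ||
    U7.all (fun u => img u m != m || u == idT)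

theorem chk : allRange 12 0 (fun a => tst (enc B12 a)) = true := by decide +kernel

theorem tst_code {m : ℕ} (hm : isCode m = true) : tst m = true :=
  forall_isCode (P := fun m => tst m = true) (forall_lt_of_allRange 12 _ chk) m hm

theorem faithful {o o' : Finset GolayPt} (ho : o ∈ octads) (ho' : o' ∈ octads)
    (h₂ : (o ∩ o').card = 2) {g : Equiv.Perm GolayPt} (hg : g ∈ M24) (hgo' : g • o' = o')
    (hfix : ∀ p ∈ o \ o', g p = p) : g = 1 := by
  have h8 : o.card = 8 := by
    have := ho
    rw [mem_octads_iff, ← card_eq_popc] at this; exact this.2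
  have h6 : (o \ o').card = 6 := by
    have := Finset.card_inter_add_card_sdiff o o'
    omega
  obtain ⟨s, hs, hs5⟩ := Finset.exists_subset_card_eq (show 5 ≤ (o \ o').card by omega)
  have h1 : ((o \ o') \ s).card = 1 := by rw [Finset.card_sdiff_of_subset hs]; omega
  obtain ⟨q, hq⟩ := Finset.card_eq_one.1 h1
  have hqm : q ∈ (o \ o') \ s := by rw [hq]; exact Finset.mem_singleton_self _
  rw [Finset.mem_sdiff] at hqm
  obtain ⟨k, hk, hko, hkx, hkq⟩ := Small.exists_map_six_in ho s.toList s.nodup_toList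
    (fun x hx => (Finset.mem_sdiff.1 (hs (Finset.mem_toList.1 hx))).1) (by simp [hs5])
    (Finset.mem_sdiff.1 hqm.1).1 (fun h => hqm.2 (Finset.mem_toList.1 h))
  -- every base point is the image of a point of `o \ o'`
  have hbase : ∀ i ∈ [23, 0, 1, 2, 3, 5], ∃ x ∈ o \ o', k x = ptOf i := by
    intro i hi
    by_cases h5 : i = 5
    · subst h5
      exact ⟨q, hqm.1, hkq⟩
    · have hi' : ptOf i ∈ basePts.map ptOf := by
        apply List.mem_map_of_mem
        simp only [basePts, List.mem_cons, List.not_mem_nil, or_false] at hi ⊢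
        tauto
      rw [← hkx, List.mem_map] at hi'
      obtain ⟨x, hx, hxi⟩ := hi'
      exact ⟨x, hs (Finset.mem_toList.1 hx), hxi⟩
  have hg' : k * g * k⁻¹ ∈ stabL [23, 0, 1, 2, 3, 5] := by
    rw [mem_stabL]
    refine ⟨M24.mul_mem (M24.mul_mem hk hg) (M24.inv_mem hk), fun i hi => ?_⟩
    obtain ⟨x, hx, hxi⟩ := hbase i hi
    rw [← hxi]
    simp [hfix x hx]
  obtain ⟨u, hu, hu1, hgu⟩ := stab6_enum hg'
  have hoct := smul_mem_octads hk ho'
  rw [mem_octads_iff] at hoct
  have ht := tst_code hoct.1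
  have hc2 : popc (O5 &&& mk (k • o')) = 2 := by
    rw [← card_inter_eq hko OctOrb.O5_lt o', h₂]
  have hbits : ([23, 0, 1, 2, 3, 5].all (fun i => !(mk (k • o')).testBit i)) = true := by
    rw [List.all_eq_true]
    intro i hi
    obtain ⟨x, hx, hxi⟩ := hbase i hi
    have hi24 : i < 24 := by
      simp only [List.mem_cons, List.not_mem_nil, or_false] at hi
      omega
    have : ¬ (mk (k • o')).testBit i = true := by
      rw [← mem_iff_bit hxi hi24 o']
      exact (Finset.mem_sdiff.1 hx).2
    simpa using this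
  simp only [tst, hoct.2, hc2, hbits, beq_self_eq_true, Bool.and_self, Bool.not_true,
    Bool.false_or, List.all_eq_true, Bool.or_eq_true, bne_iff_ne, beq_iff_eq] at ht
  have himg : img u (mk (k • o')) = mk (k • o') := by
    rw [← mk_permOf_smul (isTbl_of_inM24 hu1), ← hgu, mul_smul, mul_smul, inv_smul_smul, hgo']
  rcases ht u hu with h | h
  · exact absurd himg h
  · rw [h, permOf_idT] at hgu
    have : g = k⁻¹ * (k * g * k⁻¹) * k := by group
    rw [this, hgu]
    group

/-- In the group of the length-24 code, the joint stabiliser of two octads meeting in exactly two points is isomorphic to the symmetric group of degree 6. -/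
theorem result (o o' : Finset Cfsg.GolayPt) (ho : o ∈ Cfsg.octads) (ho' : o' ∈ Cfsg.octads) (h₂ : (o ∩ o').card = 2) : Nonempty (↥(MulAction.stabilizer Cfsg.M24 o ⊓ MulAction.stabilizer Cfsg.M24 o') ≃* Equiv.Perm (Fin 6)) := by
  have h8 : o.card = 8 := by
    have := ho
    rw [mem_octads_iff, ← card_eq_popc] at this; exact this.2
  have h6 : (o \ o').card = 6 := by
    have := Finset.card_inter_add_card_sdiff o o'
    omega
  have hcard := (Cfsg.Agent.S5613.result o o' ho ho').2.2 h₂
  have hinv : ∀ g ∈ MulAction.stabilizer Cfsg.M24 o ⊓ MulAction.stabilizer Cfsg.M24 o',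
      ((g : ↥Cfsg.M24) : Equiv.Perm Cfsg.GolayPt) • (o \ o') = o \ o' := by
    rintro ⟨g, hg⟩ ⟨h1, h2⟩
    have h1' : g • o = o := h1
    have h2' : g • o' = o' := h2
    change g • (o \ o') = o \ o'
    rw [Finset.smul_finset_sdiff, h1', h2']
  refine SymIso.nonempty_mulEquiv_perm
    (SymIso.restr (MulAction.stabilizer Cfsg.M24 o ⊓ MulAction.stabilizer Cfsg.M24 o') (o \ o') hinv)
    (SymIso.restr_injective _ _ _ ?_) 6 (by rw [Fintype.card_coe, h6]) (by rw [hcard]; decide)
  rintro ⟨g, hg⟩ ⟨_, h2⟩ hfix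
  apply Subtype.ext
  exact faithful ho ho' h₂ hg h2 hfix

end Cfsg.Agent.S5614
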