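import Mathlib
import Cfsg.Statements.S5618
import Cfsg.Agent.Lib.Helper3.SymIso
import Cfsg.Agent.Lib.Helper3.M12
import Cfsg.Agent.Lib.Helper3.StabCard

set_option autoImplicit false
open scoped Pointwise
open Cfsg

namespace Cfsg.Agent.S5618

open MulAction Cfsg.Agent.Lib.Helper28 Cfsg.Agent.Lib.Helper3.M24T Cfsg.Agent.Lib.Helper3.Orb
open Cfsg.Agent.Lib.Helper3 Cfsg.Agent.Lib.Helper3.Dod

theorem cnt : {x : Finset GolayPt | isCode (mk x) = true ∧ (popc (mk x) = 8 ∧ popc (D0 &&& (mk x)) = 6)}.ncard = 132 :=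
  (ncard_code (fun m => popc m = 8 ∧ popc (D0 &&& m) = 6)).trans (by decide +kernel)

theorem eq_one_of_fixes_set {d : Finset GolayPt} (hd : d ∈ dodecads) {s : Finset GolayPt}
    (hs : s ⊆ d) (h5 : 5 ≤ s.card) {g : Equiv.Perm GolayPt} (hg : g ∈ M24) (hgd : g • d = d)
    (hgx : ∀ x ∈ s, g x = x) : g = 1 := by
  obtain ⟨t, ht, ht5⟩ := Finset.exists_subset_card_eq h5
  exact eq_one_of_fixes hd t.toList (by simp [ht5]) t.nodup_toList
    (fun x hx => hs (ht (Finset.mem_toList.1 hx))) hg hgd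
    (fun x hx => hgx x (ht (Finset.mem_toList.1 hx)))

theorem ncard_hexads {d : Finset GolayPt} (hd : d ∈ dodecads) : (hexadsOn d).ncard = 132 := by
  obtain ⟨k, hk, hkd⟩ := exists_smul_eq hd D0_dod
  have key : hexadsOn d = (fun o => o ∩ d) '' {o | o ∈ octads ∧ (d ∩ o).card = 6} := by
    ext h
    constructor
    · rintro ⟨h6, o, ho, rfl⟩
      exact ⟨o, ⟨ho, by rw [Finset.inter_comm]; exact h6⟩, rfl⟩
    · rintro ⟨o, ⟨ho, h6⟩, rfl⟩
      exact ⟨by change (o ∩ d).card = 6; rw [Finset.inter_comm]; exact h6, o, ho, rfl⟩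
  rw [key, Set.InjOn.ncard_image, ← cnt]
  · apply ncard_transport k
    intro y
    rw [oct_iff hk y, card_inter_eq hkd D0_lt y]
    tauto
  · rintro o ⟨ho, h6⟩ o' ⟨ho', _⟩ h
    simp only at h
    apply octad_eq_of_five ho ho'
    have hsub : o ∩ d ⊆ o ∩ o' := by
      intro x hx
      have hx' : x ∈ o' ∩ d := h ▸ hx
      exact Finset.mem_inter.2 ⟨(Finset.mem_inter.1 hx).1, (Finset.mem_inter.1 hx').1⟩
    have := Finset.card_le_card hsub
    rw [Finset.inter_comm o d] at this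
    omega

theorem hexad_trans {d : Finset GolayPt} (hd : d ∈ dodecads) {C C' : Finset GolayPt}
    (hC : C ∈ hexadsOn d) (hC' : C' ∈ hexadsOn d) : ∃ g ∈ M24, g • d = d ∧ g • C = C' := by
  obtain ⟨h6, o, ho, rfl⟩ := hC
  obtain ⟨h6', o', ho', rfl⟩ := hC'
  obtain ⟨s, hs, hs5⟩ := Finset.exists_subset_card_eq (show 5 ≤ (o ∩ d).card by omega)
  obtain ⟨s', hs', hs5'⟩ := Finset.exists_subset_card_eq (show 5 ≤ (o' ∩ d).card by omega)
  obtain ⟨g, hg, hgd, hgx⟩ := exists_of_lists hd s.toList s'.toList (by simp [hs5]) s.nodup_toList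
    (fun x hx => (Finset.mem_inter.1 (hs (Finset.mem_toList.1 hx))).2) (by simp [hs5'])
    s'.nodup_toList (fun x hx => (Finset.mem_inter.1 (hs' (Finset.mem_toList.1 hx))).2)
  refine ⟨g, hg, hgd, ?_⟩
  have hgo : g • o = o' := by
    apply octad_eq_of_five (smul_mem_octads hg ho) ho'
    have hsub : s' ⊆ g • o ∩ o' := by
      intro x hx
      have hx1 : x ∈ s'.toList := Finset.mem_toList.2 hx
      rw [← hgx, List.mem_map] at hx1
      obtain ⟨y, hy, rfl⟩ := hx1
      refine Finset.mem_inter.2 ⟨(mem_smul_finset_iff g o y).2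
        (Finset.mem_inter.1 (hs (Finset.mem_toList.1 hy))).1, (Finset.mem_inter.1 (hs' hx)).1⟩
    have := Finset.card_le_card hsub
    omega
  rw [Finset.smul_finset_inter, hgo, hgd]

/-- For a dodecad d of the length-24 code and a hexad C on it (a 6-point intersection of d with an octad): the joint stabiliser of d and C in the code's group is isomorphic to the symmetric group of degree 6, and it acts faithfully both on the six points of C and on the six points of d outside C. -/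
theorem result (d : Finset Cfsg.GolayPt) (hd : d ∈ Cfsg.dodecads) (C : Finset Cfsg.GolayPt) (hC : C ∈ Cfsg.hexadsOn d) : Nonempty (↥(MulAction.stabilizer Cfsg.M24 d ⊓ MulAction.stabilizer Cfsg.M24 C) ≃* Equiv.Perm (Fin 6)) ∧ (∀ g ∈ MulAction.stabilizer Cfsg.M24 d ⊓ MulAction.stabilizer Cfsg.M24 C, (∀ p ∈ C, ((g : ↥Cfsg.M24) : Equiv.Perm Cfsg.GolayPt) p = p) → g = 1) ∧ ∀ g ∈ MulAction.stabilizer Cfsg.M24 d ⊓ MulAction.stabilizer Cfsg.M24 C, (∀ p ∈ d \ C, ((g : ↥Cfsg.M24) : Equiv.Perm Cfsg.GolayPt) p = p) → g = 1 := by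
  have hCd : C ⊆ d := by
    obtain ⟨_, o, _, rfl⟩ := hC
    exact Finset.inter_subset_right
  have hC6 : C.card = 6 := hC.1
  have hd12 : d.card = 12 := hd.2
  have hb : ∀ g ∈ MulAction.stabilizer Cfsg.M24 d ⊓ MulAction.stabilizer Cfsg.M24 C,
      (∀ p ∈ C, ((g : ↥Cfsg.M24) : Equiv.Perm Cfsg.GolayPt) p = p) → g = 1 := by
    rintro ⟨g, hg⟩ ⟨hgd, _⟩ hfix
    apply Subtype.ext
    exact eq_one_of_fixes_set hd hCd (by omega) hg hgd hfix
  refine ⟨?_, hb, ?_⟩
  · have c1 := M12.card_stab hd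
    have c2 := StabCard.card_inf_stabilizer_mul (MulAction.stabilizer Cfsg.M24 d) C
    have o2 : MulAction.orbit ↥(MulAction.stabilizer Cfsg.M24 d) C = hexadsOn d := by
      ext x
      constructor
      · rintro ⟨⟨⟨g, hg⟩, hgd⟩, rfl⟩
        have hgd' : g • d = d := hgd
        obtain ⟨h6, o, ho, rfl⟩ := hC
        refine ⟨?_, g • o, smul_mem_octads hg ho, ?_⟩
        · change (g • (o ∩ d)).card = 6
          rw [Finset.card_smul_finset]; exact h6
        · change g • o ∩ d = g • (o ∩ d)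
          rw [Finset.smul_finset_inter, hgd']
      · intro hx
        obtain ⟨g, hg, hgd, hgC⟩ := hexad_trans hd hC hx
        exact ⟨⟨⟨g, hg⟩, hgd⟩, hgC⟩
    rw [o2, ncard_hexads hd, c1] at c2
    have hcard : Nat.card ↥(MulAction.stabilizer Cfsg.M24 d ⊓ MulAction.stabilizer Cfsg.M24 C) =
        Nat.factorial 6 := by
      have : Nat.factorial 6 = 720 := by decide
      omega
    exact SymIso.nonempty_mulEquiv_perm
      (SymIso.restr (MulAction.stabilizer Cfsg.M24 d ⊓ MulAction.stabilizer Cfsg.M24 C) C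
        (fun g hg => hg.2))
      (SymIso.restr_injective _ _ _ hb) 6 (by rw [Fintype.card_coe, hC6]) hcard
  · rintro ⟨g, hg⟩ ⟨hgd, _⟩ hfix
    apply Subtype.ext
    exact eq_one_of_fixes_set hd Finset.sdiff_subset
      (by rw [Finset.card_sdiff_of_subset hCd]; omega) hg hgd hfix

end Cfsg.Agent.S5618
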