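import Mathlib
import Cfsg.Statements.S5620
import Cfsg.Agent.Lib.Helper3.OrbitTool2
import Cfsg.Agent.Lib.Helper3.Dodecad
import Cfsg.Agent.Lib.Helper3.M11Compl
import Cfsg.Agent.Lib.Helper3.DodPair

set_option autoImplicit false
open scoped Pointwise
open Cfsg

namespace Cfsg.Agent.S5620

open MulAction Cfsg.Agent.Lib.Helper28 Cfsg.Agent.Lib.Helper3.M24T Cfsg.Agent.Lib.Helper3.Orb
open Cfsg.Agent.Lib.Helper3 Cfsg.Agent.Lib.Helper3.Dod

theorem sq_eq : Spor.squareDodecad = un 340831 := by
  unfold Spor.squareDodecad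
  rw [support₂_qrWord]; rfl

theorem sq_dod : Spor.squareDodecad ∈ dodecads := by
  rw [sq_eq, mem_dodecads_iff, mk_un (by norm_num)]
  decide +kernel

theorem zero_mem : (some 0 : GolayPt) ∈ Spor.squareDodecad := by
  rw [sq_eq, mem_un]; decide

theorem none_not_mem : (none : GolayPt) ∉ Spor.squareDodecad := by
  rw [sq_eq, mem_un]; decide

theorem mem_M11 {x : Equiv.Perm GolayPt} :
    x ∈ Spor.M11 ↔ x ∈ M24 ∧ x • Spor.squareDodecad = Spor.squareDodecad ∧ x (some 0) = some 0 := by
  unfold Spor.M11 Spor.M12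
  rw [Subgroup.mem_inf, Subgroup.mem_inf, mem_stabilizer_iff, mem_stabilizer_iff]
  tauto

theorem mem_L {x : Equiv.Perm GolayPt} :
    x ∈ Spor.M12 ⊓ stabilizer (Equiv.Perm GolayPt) (none : GolayPt) ↔
      x ∈ M24 ∧ x • Spor.squareDodecad = Spor.squareDodecad ∧ x none = none := by
  unfold Spor.M12
  rw [Subgroup.mem_inf, Subgroup.mem_inf, mem_stabilizer_iff, mem_stabilizer_iff]
  tauto

/-- a list of five points of a dodecad starting with a given one -/
theorem exists_five_from {d : Finset GolayPt} (hd : d ∈ dodecads) {p : GolayPt} (hp : p ∈ d) :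
    ∃ ys : List GolayPt, (p :: ys).length = 5 ∧ (p :: ys).Nodup ∧ ∀ x ∈ p :: ys, x ∈ d := by
  have hc : d.card = 12 := hd.2
  obtain ⟨ys, h1, h2, h3⟩ := extend_list (d := d) (by omega) [p] (by simp) (by simpa using hp) (by simp)
  exact ⟨ys, h1, h2, h3⟩

theorem exists_swap : ∃ g ∈ M24, g • Spor.squareDodecad = Finset.univ \ Spor.squareDodecad ∧
    g (some 0) = none := by
  have hc := DodPair.compl_mem sq_dod
  have hn : (none : GolayPt) ∈ Finset.univ \ Spor.squareDodecad := by simp [none_not_mem]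
  obtain ⟨ys, a1, a2, a3⟩ := exists_five_from sq_dod zero_mem
  obtain ⟨zs, b1, b2, b3⟩ := exists_five_from hc hn
  obtain ⟨k1, hk1, e1, f1⟩ := exists_map_dodecad sq_dod _ a1 a2 a3
  obtain ⟨k2, hk2, e2, f2⟩ := exists_map_dodecad hc _ b1 b2 b3
  refine ⟨k2⁻¹ * k1, M24.mul_mem (M24.inv_mem hk2) hk1, ?_, ?_⟩
  · rw [mul_smul, e1, ← e2, inv_smul_smul]
  · rw [← f2] at f1
    simp only [List.map_cons, List.cons.injEq] at f1
    rw [Equiv.Perm.mul_apply, f1.1]
    simp

theorem conj_eq {g : Equiv.Perm GolayPt} (hg : g ∈ M24)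
    (h1 : g • Spor.squareDodecad = Finset.univ \ Spor.squareDodecad) (h2 : g (some 0) = none) :
    MulAut.conj g • Spor.M11 = Spor.M12 ⊓ stabilizer (Equiv.Perm GolayPt) (none : GolayPt) := by
  have h3 : g • (Finset.univ \ Spor.squareDodecad) = Spor.squareDodecad := by
    rw [DodPair.smul_sdiff_univ, h1, Finset.sdiff_sdiff_eq_self (Finset.subset_univ _)]
  have h4 : g⁻¹ • Spor.squareDodecad = Finset.univ \ Spor.squareDodecad := by
    rw [inv_smul_eq_iff, h3]
  have h5 : g⁻¹ • (Finset.univ \ Spor.squareDodecad) = Spor.squareDodecad := by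
    rw [inv_smul_eq_iff, h1]
  ext y
  rw [Subgroup.mem_pointwise_smul_iff_inv_smul_mem, mem_L, mem_M11]
  have hy : (MulAut.conj g)⁻¹ • y = g⁻¹ * y * g := by
    rw [← map_inv, MulAut.smul_def, MulAut.conj_apply, inv_inv]
  rw [hy]
  constructor
  · rintro ⟨a, b, c⟩
    refine ⟨?_, ?_, ?_⟩
    · have := M24.mul_mem (M24.mul_mem hg a) (M24.inv_mem hg)
      have e : g * (g⁻¹ * y * g) * g⁻¹ = y := by group
      rwa [e] at this
    · rw [mul_smul, mul_smul, h1, inv_smul_eq_iff, h1, DodPair.smul_sdiff_univ] at b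
      have := congrArg (fun s => Finset.univ \ s) b
      simp only [Finset.sdiff_sdiff_eq_self (Finset.subset_univ _)] at this
      exact this
    · simp only [Equiv.Perm.mul_apply, h2] at c
      rw [Equiv.Perm.inv_eq_iff_eq, h2] at c
      exact c
  · rintro ⟨a, b, c⟩
    refine ⟨M24.mul_mem (M24.mul_mem (M24.inv_mem hg) a) hg, ?_, ?_⟩
    · rw [mul_smul, mul_smul, h1, DodPair.smul_sdiff_univ, b, h5]
    · simp only [Equiv.Perm.mul_apply, h2, c]
      rw [Equiv.Perm.inv_eq_iff_eq, h2]

/-- Inside the stabiliser of the dodecad of squares (a Mathieu group of degree 12), the stabiliser of the residue 0 (a point of the dodecad) and the stabiliser of the extra point (a point outside the dodecad) are isomorphic but not conjugate; conjugation by a suitable element of the code's group that maps the dodecad of squares onto its complement carries the first onto the second. -/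
theorem result : Nonempty (↥(Cfsg.Spor.M12 ⊓ MulAction.stabilizer (Equiv.Perm Cfsg.GolayPt) (none : Cfsg.GolayPt)) ≃* ↥Cfsg.Spor.M11) ∧ (¬ ∃ k ∈ Cfsg.Spor.M12, MulAut.conj k • Cfsg.Spor.M11 = Cfsg.Spor.M12 ⊓ MulAction.stabilizer (Equiv.Perm Cfsg.GolayPt) (none : Cfsg.GolayPt)) ∧ ∃ g ∈ Cfsg.M24, g • Cfsg.Spor.squareDodecad = Finset.univ \ Cfsg.Spor.squareDodecad ∧ MulAut.conj g • Cfsg.Spor.M11 = Cfsg.Spor.M12 ⊓ MulAction.stabilizer (Equiv.Perm Cfsg.GolayPt) (none : Cfsg.GolayPt) := by
  obtain ⟨g, hg, h1, h2⟩ := exists_swap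
  have hconj := conj_eq hg h1 h2
  refine ⟨?_, ?_, g, hg, h1, hconj⟩
  · rw [← hconj]
    exact ⟨(Subgroup.equivSMul (MulAut.conj g) Spor.M11).symm⟩
  · rintro ⟨k, hk, hkc⟩
    have hk' : k ∈ M24 ∧ k • Spor.squareDodecad = Spor.squareDodecad := hk
    -- the point `p = k 0` of the dodecad is fixed by the conjugate
    have hp : k (some 0) ∈ Spor.squareDodecad := by
      rw [← hk'.2, mem_smul_finset_iff]; exact zero_mem
    have hfix : ∀ y ∈ Spor.M12 ⊓ stabilizer (Equiv.Perm GolayPt) (none : GolayPt),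
        y (k (some 0)) = k (some 0) := by
      intro y hy
      rw [← hkc, Subgroup.mem_pointwise_smul_iff_inv_smul_mem, mem_M11] at hy
      have hy' : (MulAut.conj k)⁻¹ • y = k⁻¹ * y * k := by
        rw [← map_inv, MulAut.smul_def, MulAut.conj_apply, inv_inv]
      rw [hy'] at hy
      have := hy.2.2
      simp only [Equiv.Perm.mul_apply] at this
      rw [Equiv.Perm.inv_eq_iff_eq] at this
      exact this
    -- but the stabiliser of `∞` is transitive on the dodecad
    have hc := DodPair.compl_mem sq_dod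
    have hn : (none : GolayPt) ∈ Finset.univ \ Spor.squareDodecad := by simp [none_not_mem]
    obtain ⟨ys, b1, b2, b3⟩ := exists_five_from hc hn
    match ys, b1, b2, b3 with
    | [a, b, _, _], _, b2, b3 =>
      have hex : ∃ q ∈ Spor.squareDodecad, q ≠ k (some 0) := by
        have h12 : Spor.squareDodecad.card = 12 := sq_dod.2
        have : 1 < Spor.squareDodecad.card := by omega
        obtain ⟨q, hq, hne⟩ := Finset.exists_mem_ne this (k (some 0))
        exact ⟨q, hq, hne⟩
      obtain ⟨q, hq, hne⟩ := hex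
      simp only [List.nodup_cons, List.mem_cons, List.not_mem_nil, or_false, not_or] at b2
      obtain ⟨x, hx, hxd, hxf, hxq⟩ := M11C.exists_fix3 hc
        ⟨![none, a, b], by
          intro i j hij
          fin_cases i <;> fin_cases j <;> simp_all⟩
        (by
          intro i
          fin_cases i
          · exact hn
          · exact b3 a (by simp)
          · exact b3 b (by simp))
        (q := k (some 0)) (q' := q) (by simp [hp]) (by simp [hq])
      have hxL : x ∈ Spor.M12 ⊓ stabilizer (Equiv.Perm GolayPt) (none : GolayPt) := by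
        rw [mem_L]
        refine ⟨hx, ?_, hxf 0⟩
        rw [DodPair.smul_sdiff_univ] at hxd
        have := congrArg (fun s => Finset.univ \ s) hxd
        simp only [Finset.sdiff_sdiff_eq_self (Finset.subset_univ _)] at this
        exact this
      exact hne ((hfix x hxL).symm.trans hxq).symm

end Cfsg.Agent.S5620
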