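import Cfsg.Statements.S5621
import Mathlib
-- import your own Cfsg.Agent.* helpers here
import Cfsg.Agent.H5.Golay24b

set_option autoImplicit false
open Cfsg

namespace Cfsg.Agent.S5621



/-- Let C be a self-dual binary code of length 24 with minimum weight at least 8 (a 12-dimensional subspace of the 24-dimensional space over the field with two elements, any two of whose words have dot product zero, with no non-zero word of weight below 8 — an abstract extended binary Golay code). Then C is doubly even: every word of C has weight divisible by 4. -/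
theorem result (C : Submodule (ZMod 2) (Fin 24 → ZMod 2)) (hdim : Module.finrank (ZMod 2) C = 12) (horth : ∀ v ∈ C, ∀ w ∈ C, ∑ i, v i * w i = 0) (hmin : ∀ w ∈ C, w ≠ 0 → 8 ≤ hammingNorm w) : ∀ w ∈ C, 4 ∣ hammingNorm w := by
  have hcard : Nat.card C = 4096 := by
    rw [Module.natCard_eq_pow_finrank (K := ZMod 2), hdim, Nat.card_zmod]; norm_num
  have h24 : Fintype.card (Fin 24) = 24 := by simp
  -- orthogonality means even intersection
  have hdot : ∀ v w : Fin 24 → ZMod 2, ∑ i, v i * w i
      = (((Cfsg.Agent.H5Golay24.S v ∩ Cfsg.Agent.H5Golay24.S w).card : ℕ) : ZMod 2) := by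
    intro v w
    rw [Finset.card_eq_sum_ones, Nat.cast_sum, ← Finset.sum_filter_add_sum_filter_not Finset.univ
      (fun i => i ∈ Cfsg.Agent.H5Golay24.S v ∩ Cfsg.Agent.H5Golay24.S w)]
    have h1 : ∑ i ∈ Finset.univ.filter
        (fun i => ¬ i ∈ Cfsg.Agent.H5Golay24.S v ∩ Cfsg.Agent.H5Golay24.S w), v i * w i = 0 := by
      apply Finset.sum_eq_zero
      intro i hi
      simp only [Cfsg.Agent.H5Golay24.S, Finset.mem_filter, Finset.mem_univ, true_and,
        Finset.mem_inter, not_and_or, not_not] at hi
      rcases hi with h | h <;> simp [h]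
    rw [h1, add_zero]
    have h2 : Finset.univ.filter
        (fun i => i ∈ Cfsg.Agent.H5Golay24.S v ∩ Cfsg.Agent.H5Golay24.S w)
        = Cfsg.Agent.H5Golay24.S v ∩ Cfsg.Agent.H5Golay24.S w := by
      ext i; simp
    rw [h2]
    apply Finset.sum_congr rfl
    intro i hi
    simp only [Cfsg.Agent.H5Golay24.S, Finset.mem_filter, Finset.mem_univ, true_and,
      Finset.mem_inter] at hi
    rcases Cfsg.Agent.H5Golay24.zmod2_cases (v i) with h | h
    · exact absurd h hi.1
    rcases Cfsg.Agent.H5Golay24.zmod2_cases (w i) with h' | h'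
    · exact absurd h' hi.2
    simp [h, h']
  intro w hw
  have hspan := Cfsg.Agent.H5Golay24.mem_span_octads h24 C hcard hmin _ w hw le_rfl
  clear hw
  have key : w ∈ C ∧ 4 ∣ hammingNorm w := by
    induction hspan using Submodule.span_induction with
    | mem x hx => exact ⟨hx.1, by rw [hx.2]; norm_num⟩
    | zero => exact ⟨C.zero_mem, by simp⟩
    | add x y _ _ hx hy =>
      refine ⟨C.add_mem hx.1 hy.1, ?_⟩
      have h1 := Cfsg.Agent.H5Golay24.norm_sub x y
      have h2 : x - y = x + y := by
        funext i
        simp only [Pi.sub_apply, Pi.add_apply]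
        rcases Cfsg.Agent.H5Golay24.zmod2_cases (y i) with h | h <;> rw [h]
        · simp
        · rcases Cfsg.Agent.H5Golay24.zmod2_cases (x i) with h' | h' <;> rw [h'] <;> decide
      rw [h2] at h1
      have h3 := horth x hx.1 y hy.1
      rw [hdot, ZMod.natCast_eq_zero_iff] at h3
      obtain ⟨a, ha⟩ := hx.2
      obtain ⟨b, hb⟩ := hy.2
      obtain ⟨c, hc⟩ := h3
      omega
    | smul a x _ hx =>
      rcases Cfsg.Agent.H5Golay24.zmod2_cases a with h | h
      · rw [h, zero_smul]; exact ⟨C.zero_mem, by simp⟩
      · rw [h, one_smul]; exact hx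
  exact key.2

end Cfsg.Agent.S5621
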