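import Cfsg.Statements.S5625
import Mathlib
-- import your own Cfsg.Agent.* helpers here
import Cfsg.Agent.Lib.Helper3.Steiner

set_option autoImplicit false
open Cfsg

namespace Cfsg.Agent.S5625



/-- In any Steiner system S(5, 8, 24) and for any set Y of three points, the blocks meeting Y in exactly 3, 2, 1 and 0 points number 21, 168, 360 and 210 respectively (so there are 759 blocks in all). -/
theorem result (α : Type*) [Fintype α] [DecidableEq α] (hα : Fintype.card α = 24) (B : Set (Finset α)) (hB : Cfsg.IsSteinerSystem 5 8 B) (Y : Finset α) (hY : Y.card = 3) : {b : Finset α | b ∈ B ∧ (b ∩ Y).card = 3}.ncard = 21 ∧ {b : Finset α | b ∈ B ∧ (b ∩ Y).card = 2}.ncard = 168 ∧ {b : Finset α | b ∈ B ∧ (b ∩ Y).card = 1}.ncard = 360 ∧ {b : Finset α | b ∈ B ∧ (b ∩ Y).card = 0}.ncard = 210 := by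
  have hN : ∀ j : ℕ, {b : Finset α | b ∈ B ∧ (b ∩ Y).card = j}.ncard
      = Cfsg.Agent.Lib.Helper3.Steiner.N B Y j := by
    intro j
    rw [Cfsg.Agent.Lib.Helper3.Steiner.ncard_setOf_eq]
    rfl
  rw [hN, hN, hN, hN]
  have hz : ∀ j : ℕ, 3 < j → Cfsg.Agent.Lib.Helper3.Steiner.N B Y j = 0 := by
    intro j hj
    unfold Cfsg.Agent.Lib.Helper3.Steiner.N
    rw [Finset.card_eq_zero, Finset.filter_eq_empty_iff]
    intro c _ hc
    have := Finset.card_le_card (Finset.inter_subset_right (s₁ := c) (s₂ := Y))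
    omega
  have h0 := Cfsg.Agent.Lib.Helper3.Steiner.sum_N hB (by norm_num) Y 0 (by norm_num)
  have h1 := Cfsg.Agent.Lib.Helper3.Steiner.sum_N hB (by norm_num) Y 1 (by norm_num)
  have h2 := Cfsg.Agent.Lib.Helper3.Steiner.sum_N hB (by norm_num) Y 2 (by norm_num)
  have h3 := Cfsg.Agent.Lib.Helper3.Steiner.sum_N hB (by norm_num) Y 3 (by norm_num)
  rw [hα, hY] at h0 h1 h2 h3
  simp only [Finset.sum_range_succ, Finset.sum_range_zero, hz 4 (by norm_num), hz 5 (by norm_num),
    hz 6 (by norm_num), hz 7 (by norm_num), hz 8 (by norm_num)] at h0 h1 h2 h3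
  norm_num [Nat.choose] at h0 h1 h2 h3
  omega

end Cfsg.Agent.S5625
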