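import Cfsg.Statements.S5627
import Cfsg.Agent.Lib.Helper28.Plane4C

set_option autoImplicit false
open Cfsg

namespace Cfsg.Agent.S5627

/-- In a projective plane of order 4 (a Steiner system S(2, 5, 21)), call a set of points independent when no line meets it in more than two points. There are exactly 2520 independent 4-sets and exactly 168 independent 6-sets (hyperovals), and every independent 4-set lies in exactly one hyperoval. -/
theorem result {α : Type*} [Fintype α] [DecidableEq α] (hα : Fintype.card α = 21) (L : Set (Finset α)) (hL : Cfsg.IsSteinerSystem 2 5 L) : {S : Finset α | (S.card = 4 ∧ ∀ l ∈ L, (l ∩ S).card ≤ 2)}.ncard = 2520 ∧ {H : Finset α | (H.card = 6 ∧ ∀ l ∈ L, (l ∩ H).card ≤ 2)}.ncard = 168 ∧ ∀ S : Finset α, (S.card = 4 ∧ ∀ l ∈ L, (l ∩ S).card ≤ 2) → ∃! H : Finset α, (H.card = 6 ∧ ∀ l ∈ L, (l ∩ H).card ≤ 2) ∧ S ⊆ H := by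
  obtain ⟨e, he⟩ := Cfsg.Agent.Lib.Helper28.Plane4.iso_table hα hL
  have h1 : {S : Finset α | S.card = 4 ∧ Cfsg.Agent.Lib.Helper28.Plane4.Arc L S}.ncard = 2520 := by
    rw [Cfsg.Agent.Lib.Helper28.Plane4.ncard_arcs e he 4,
      Cfsg.Agent.Lib.Helper28.Plane4.ncard_subs 4 Cfsg.Agent.Lib.Helper28.Plane4.arcL
        (Cfsg.Agent.Lib.Helper28.Plane4.Arc Cfsg.Agent.Lib.Helper28.Plane4.Lst)
        Cfsg.Agent.Lib.Helper28.Plane4.arcL_iff]
    exact Cfsg.Agent.Lib.Helper28.Plane4.count4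
  have h3 := Cfsg.Agent.Lib.Helper28.Plane4.existsUnique_transport e he
    Cfsg.Agent.Lib.Helper28.Plane4.unique_hyperoval
  exact ⟨h1, Cfsg.Agent.Lib.Helper28.Plane4.hyperoval_count L h1 h3, h3⟩

end Cfsg.Agent.S5627
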