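import Cfsg.Statements.S5632
import Cfsg.Agent.Lib.Helper29.Transv

open Cfsg.Agent.Lib.Helper29

set_option autoImplicit false
open Cfsg

namespace Cfsg.Agent.S5632

/-- For a finite field F and subspaces 0 < W < U of F^n with dim W + dim U = n, the elements of SL_n(F) stabilising both W and U form a subgroup that is not maximal in SL_n(F): some subgroup lies strictly between it and SL_n(F). -/
theorem result {F : Type*} [Field F] [Fintype F] (n : ℕ) (W U : Submodule F (Fin n → F)) (hW0 : W ≠ ⊥) (hWU : W < U) (hdim : Module.finrank F W + Module.finrank F U = n) : ∃ K : Subgroup (Matrix.GeneralLinearGroup (Fin n) F), Cfsg.Geo.subspaceStabilizer W ⊓ Cfsg.Geo.subspaceStabilizer U ⊓ Cfsg.Geo.specialLinear (Fin n) F < K ∧ K < Cfsg.Geo.specialLinear (Fin n) F := by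
  have hU1 : U ≠ ⊤ := by
    rintro rfl
    have h1 : 0 < Module.finrank F W := by
      rw [Module.finrank_pos_iff_exists_ne_zero]
      obtain ⟨w, hw, hw0⟩ := Submodule.exists_mem_ne_zero_of_ne_bot hW0
      exact ⟨⟨w, hw⟩, fun h => hw0 (by simpa using congrArg Subtype.val h)⟩
    rw [finrank_top, Module.finrank_fin_fun] at hdim
    omega
  have hW1 : W ≠ ⊤ := fun h => by
    rw [h] at hWU
    exact not_top_lt hWU
  refine ⟨Cfsg.Geo.subspaceStabilizer W ⊓ Cfsg.Geo.specialLinear (Fin n) F, ?_,
    (stab_isMaximalIn W hW0 hW1).1⟩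
  refine lt_of_le_of_ne (fun x hx => ⟨hx.1.1, hx.2⟩) ?_
  intro heq
  obtain ⟨u, huU, huW⟩ := SetLike.exists_of_lt hWU
  obtain ⟨v, hv⟩ : ∃ v, v ∉ U := by
    by_contra hcon
    push Not at hcon
    exact hU1 (eq_top_iff.mpr fun x _ => hcon x)
  have hu : u ∉ W ⊔ Submodule.span F {v} := by
    intro hmem
    obtain ⟨w, hw, y, hy, hwy⟩ := Submodule.mem_sup.mp hmem
    obtain ⟨c, rfl⟩ := Submodule.mem_span_singleton.mp hy
    by_cases hc : c = 0
    · subst hc
      apply huW
      rw [← hwy]; simpa using hw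
    · apply hv
      have h1 : c • v ∈ U := by
        have : c • v = u - w := by rw [← hwy]; simp
        rw [this]
        exact U.sub_mem huU (hWU.le hw)
      have := U.smul_mem c⁻¹ h1
      rwa [smul_smul, inv_mul_cancel₀ hc, one_smul] at this
  obtain ⟨f, h, hA, hfu⟩ := exists_tv_fix _ hu
    (Submodule.mem_sup_right (Submodule.mem_span_singleton_self v))
  have hmem : tv f v h ∈ Cfsg.Geo.subspaceStabilizer W ⊓ Cfsg.Geo.specialLinear (Fin n) F :=
    ⟨tv_mem_stab_of_le_ker W f v h (fun w hw => hA w (Submodule.mem_sup_left hw)),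
      tv_mem_specialLinear f v h⟩
  rw [← heq] at hmem
  have := ((mem_subspaceStabilizer_iff U _).mp hmem.1.2 u).mp huU
  rw [hfu] at this
  exact hv ((U.add_mem_iff_right huU).mp this)

end Cfsg.Agent.S5632
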