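import Cfsg.Statements.S5633
import Cfsg.Agent.Lib.Helper29.Transv

open Cfsg.Agent.Lib.Helper29

set_option autoImplicit false
open Cfsg

namespace Cfsg.Agent.S5633

/-- For a finite field F and complementary non-zero subspaces W ⊕ U = F^n with dim W < dim U, the elements of SL_n(F) stabilising both W and U form a subgroup that is not maximal in SL_n(F): some subgroup lies strictly between it and SL_n(F). -/
theorem result {F : Type*} [Field F] [Fintype F] (n : ℕ) (W U : Submodule F (Fin n → F)) (hW0 : W ≠ ⊥) (hWU : W ⊓ U = ⊥) (hWU' : W ⊔ U = ⊤) (hdim : Module.finrank F W < Module.finrank F U) : ∃ K : Subgroup (Matrix.GeneralLinearGroup (Fin n) F), Cfsg.Geo.subspaceStabilizer W ⊓ Cfsg.Geo.subspaceStabilizer U ⊓ Cfsg.Geo.specialLinear (Fin n) F < K ∧ K < Cfsg.Geo.specialLinear (Fin n) F := by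
  have hU0 : U ≠ ⊥ := by
    rintro rfl
    simp at hdim
  have hW1 : W ≠ ⊤ := by
    rintro rfl
    apply hU0
    simpa using hWU
  refine ⟨Cfsg.Geo.subspaceStabilizer W ⊓ Cfsg.Geo.specialLinear (Fin n) F, ?_,
    (stab_isMaximalIn W hW0 hW1).1⟩
  refine lt_of_le_of_ne (fun x hx => ⟨hx.1.1, hx.2⟩) ?_
  intro heq
  obtain ⟨u, huU, hu0⟩ := Submodule.exists_mem_ne_zero_of_ne_bot hU0
  obtain ⟨w, hwW, hw0⟩ := Submodule.exists_mem_ne_zero_of_ne_bot hW0
  have hu : u ∉ W := by
    intro hmem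
    have : u ∈ W ⊓ U := ⟨hmem, huU⟩
    rw [hWU] at this
    exact hu0 (by simpa using this)
  obtain ⟨f, h, hA, hfu⟩ := exists_tv_fix _ hu hwW
  have hmem : tv f w h ∈ Cfsg.Geo.subspaceStabilizer W ⊓ Cfsg.Geo.specialLinear (Fin n) F :=
    ⟨tv_mem_stab_of_le_ker W f w h hA, tv_mem_specialLinear f w h⟩
  rw [← heq] at hmem
  have := ((mem_subspaceStabilizer_iff U _).mp hmem.1.2 u).mp huU
  rw [hfu] at this
  have hwU := (U.add_mem_iff_right huU).mp this
  have : w ∈ W ⊓ U := ⟨hwW, hwU⟩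
  rw [hWU] at this
  exact hw0 (by simpa using this)

end Cfsg.Agent.S5633
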