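import Cfsg.Statements.S5638

set_option autoImplicit false
open Cfsg

namespace Cfsg.Agent.S5638

open Matrix
open scoped Kronecker MatrixGroups

/-- The elements conjugating `c` to `c` or to `c⁻¹`. -/
def extCent {G : Type*} [Group G] (c : G) : Subgroup G where
  carrier := {g | g * c * g⁻¹ = c ∨ g * c * g⁻¹ = c⁻¹}
  mul_mem' := by
    intro g h hg hh
    have e1 : g * h * c * (g * h)⁻¹ = g * (h * c * h⁻¹) * g⁻¹ := by group
    have e2 : g * c⁻¹ * g⁻¹ = (g * c * g⁻¹)⁻¹ := by group
    rcases hh with hh | hh <;> rcases hg with hg | hg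
    · left; rw [e1, hh, hg]
    · right; rw [e1, hh, hg]
    · right; rw [e1, hh, e2, hg]
    · left; rw [e1, hh, e2, hg, inv_inv]
  one_mem' := by left; simp
  inv_mem' := by
    intro g hg
    rcases hg with hg | hg
    · left
      calc g⁻¹ * c * g⁻¹⁻¹ = g⁻¹ * (g * c * g⁻¹) * g := by rw [hg, inv_inv]
        _ = c := by group
    · right
      calc g⁻¹ * c * g⁻¹⁻¹ = (g⁻¹ * c⁻¹ * g)⁻¹ := by group
        _ = (g⁻¹ * (g * c * g⁻¹) * g)⁻¹ := by rw [hg]
        _ = c⁻¹ := by group

theorem two_by_two {F : Type*} [Field F] (hF : ∀ x : F, x = 0 ∨ x = 1) (h2 : (1:F) + 1 = 0)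
    (a : Matrix (Fin 2) (Fin 2) F) (ha : a.det ≠ 0) :
    a * !![0,1;1,1] = !![0,1;1,1] * a ∨ !![0,1;1,1] * a * !![0,1;1,1] = a := by
  rw [Matrix.eta_fin_two a] at ha ⊢
  rw [Matrix.det_fin_two_of] at ha
  rcases hF (a 0 0) with h00 | h00 <;> rcases hF (a 0 1) with h01 | h01 <;>
  rcases hF (a 1 0) with h10 | h10 <;> rcases hF (a 1 1) with h11 | h11 <;>
  simp only [h00, h01, h10, h11] at ha ⊢ <;>
  simp [h2] at ha ⊢

variable {F : Type*} [Field F]

/-- Block diagonal elements of GL. -/
def bd (k : ℕ) : (Fin k → GL (Fin 2) F) →* GL (Fin 2 × Fin k) F :=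
  (Units.map (blockDiagonalRingHom (Fin 2) (Fin k) F).toMonoidHom).comp
    MulEquiv.piUnits.symm.toMonoidHom

theorem bd_val (k : ℕ) (f : Fin k → GL (Fin 2) F) :
    ((bd k f : GL (Fin 2 × Fin k) F) : Matrix (Fin 2 × Fin k) (Fin 2 × Fin k) F) =
      blockDiagonal (fun i => (f i : Matrix (Fin 2) (Fin 2) F)) := rfl

theorem bd_injective (k : ℕ) : Function.Injective (bd (F := F) k) := by
  intro f g h
  have h1 := congrArg Units.val h
  rw [bd_val, bd_val] at h1
  have h2 := blockDiagonal_injective h1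
  funext i
  exact Units.ext (congrFun h2 i)

/-- The element of order three. -/
noncomputable def om : GL (Fin 2) F :=
  GeneralLinearGroup.mkOfDetNeZero !![0,1;1,1] (by simp [Matrix.det_fin_two_of])

/-- An involution inverting `om` (in characteristic two). -/
noncomputable def sw : GL (Fin 2) F :=
  GeneralLinearGroup.mkOfDetNeZero !![0,1;1,0] (by simp [Matrix.det_fin_two_of])

theorem om_val : ((om : GL (Fin 2) F) : Matrix (Fin 2) (Fin 2) F) = !![0,1;1,1] := rfl
theorem sw_val : ((sw : GL (Fin 2) F) : Matrix (Fin 2) (Fin 2) F) = !![0,1;1,0] := rfl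

theorem om_sw_om (h2 : (1:F) + 1 = 0) : (om : GL (Fin 2) F) * sw * om = sw := by
  apply Units.ext
  rw [Units.val_mul, Units.val_mul, om_val, sw_val]
  simp [h2]

theorem om_ne_inv : (om : GL (Fin 2) F) ≠ om⁻¹ := by
  intro h
  have h1 : (om : GL (Fin 2) F) * om = 1 := by
    nth_rewrite 1 [h]; simp
  have h3 := congrArg Units.val h1
  rw [Units.val_mul, om_val, Units.val_one] at h3
  have h4 := congrFun (congrFun h3 0) 1
  simp at h4

theorem kron_lt_extCent (hF : ∀ x : F, x = 0 ∨ x = 1) (h2 : (1:F) + 1 = 0) (k : ℕ)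
    (k₀ k₁ : Fin k) (hk : k₀ ≠ k₁) :
    Cfsg.Geo.kroneckerSubgroup 2 k F < extCent (bd k (fun _ => (om : GL (Fin 2) F))) := by
  have hc : ((bd k (fun _ => (om : GL (Fin 2) F)) : GL (Fin 2 × Fin k) F) :
      Matrix (Fin 2 × Fin k) (Fin 2 × Fin k) F) = (!![0,1;1,1] : Matrix (Fin 2) (Fin 2) F) ⊗ₖ
        (1 : Matrix (Fin k) (Fin k) F) := by
    rw [bd_val, Matrix.kronecker_one]; rfl
  refine lt_of_le_of_ne ?_ ?_
  · rintro g ⟨a, b, hg⟩
    have hdet : (a : Matrix (Fin 2) (Fin 2) F).det ≠ 0 := by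
      have := (Matrix.isUnit_iff_isUnit_det _).mp a.isUnit
      exact this.ne_zero
    rcases two_by_two hF h2 (a : Matrix (Fin 2) (Fin 2) F) hdet with h | h
    · left
      rw [mul_inv_eq_iff_eq_mul]
      apply Units.ext
      rw [Units.val_mul, Units.val_mul, hc, hg, ← Matrix.mul_kronecker_mul,
        ← Matrix.mul_kronecker_mul, h, mul_one, one_mul]
    · right
      rw [mul_inv_eq_iff_eq_mul, eq_inv_mul_iff_mul_eq, ← mul_assoc]
      apply Units.ext
      rw [Units.val_mul, Units.val_mul, hc, hg, ← Matrix.mul_kronecker_mul,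
        ← Matrix.mul_kronecker_mul, h, mul_one, one_mul]
  · intro heq
    have hd : bd k (Pi.mulSingle k₀ (om : GL (Fin 2) F)) ∈
        extCent (bd k (fun _ => (om : GL (Fin 2) F))) := by
      left
      rw [← map_mul, ← map_inv, ← map_mul]
      congr 1
      funext i
      by_cases hi : i = k₀
      · subst hi; simp
      · simp [Pi.mulSingle_eq_of_ne hi]
    rw [← heq] at hd
    obtain ⟨a, b, hab⟩ := hd
    rw [bd_val] at hab
    have e1 := congrFun (congrFun hab (0, k₁)) (0, k₁)
    have e2 := congrFun (congrFun hab (0, k₁)) (1, k₁)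
    have e3 := congrFun (congrFun hab (0, k₀)) (1, k₀)
    simp only [blockDiagonal_apply, Matrix.kroneckerMap_apply, if_true,
      Pi.mulSingle_eq_of_ne hk.symm, Pi.mulSingle_eq_same, om_val, Units.val_one] at e1 e2 e3
    simp at e1 e2 e3
    rcases e2 with e2 | e2
    · rw [e2] at e3; simp at e3
    · rw [e2] at e1; simp at e1

theorem extCent_lt_top (h2 : (1:F) + 1 = 0) (k : ℕ) (k₀ k₁ : Fin k) (hk : k₀ ≠ k₁) :
    extCent (bd k (fun _ => (om : GL (Fin 2) F))) < ⊤ := by
  rw [lt_top_iff_ne_top]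
  intro heq
  have ht : bd k (Pi.mulSingle k₀ (sw : GL (Fin 2) F)) ∈
      extCent (bd k (fun _ => (om : GL (Fin 2) F))) := by rw [heq]; trivial
  have hsw : (sw : GL (Fin 2) F) * om * sw⁻¹ = om⁻¹ := by
    rw [mul_inv_eq_iff_eq_mul, eq_inv_mul_iff_mul_eq, ← mul_assoc]
    exact om_sw_om h2
  rcases ht with ht | ht
  · rw [← map_mul, ← map_inv, ← map_mul] at ht
    have := congrFun (bd_injective k ht) k₀
    simp only [Pi.mul_apply, Pi.inv_apply, Pi.mulSingle_eq_same] at this
    rw [hsw] at this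
    exact om_ne_inv this.symm
  · rw [← map_mul, ← map_inv, ← map_mul, ← map_inv] at ht
    have := congrFun (bd_injective k ht) k₁
    simp only [Pi.mul_apply, Pi.inv_apply, Pi.mulSingle_eq_of_ne hk.symm] at this
    simp at this
    exact om_ne_inv this

/-- Over the field with 2 elements, for n = 2 n₂ ≥ 13, the stabiliser in SL_n of a tensor decomposition with factors of dimensions 2 and n₂ (the conjugate by any P of the Kronecker-product subgroup transported along any bijection Fin n ≃ Fin 2 × Fin n₂, intersected with SL_n) is not a maximal subgroup: some subgroup lies strictly between it and SL_n. -/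
theorem result {F : Type*} [Field F] [Fintype F] (n : ℕ) (hn : 13 ≤ n) (hq : Fintype.card F = 2) (n₂ : ℕ) (e : Fin n ≃ Fin 2 × Fin n₂) (P : Matrix.GeneralLinearGroup (Fin n) F) : ∃ K : Subgroup (Matrix.GeneralLinearGroup (Fin n) F), Cfsg.Geo.tensorProductSubgroup 2 n₂ e P ⊓ Cfsg.Geo.specialLinear (Fin n) F < K ∧ K < Cfsg.Geo.specialLinear (Fin n) F := by
  classical
  have hunits : Subsingleton Fˣ := by
    rw [← Fintype.card_le_one_iff_subsingleton, Fintype.card_units, hq]
  have hF : ∀ x : F, x = 0 ∨ x = 1 := by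
    intro x
    by_cases hx : x = 0
    · exact Or.inl hx
    · right
      have := Subsingleton.elim (Units.mk0 x hx) 1
      simpa using congrArg Units.val this
  have h2 : (1:F) + 1 = 0 := by
    rcases hF (1 + 1) with h | h
    · exact h
    · exfalso
      simp at h
  have hSL : Cfsg.Geo.specialLinear (Fin n) F = ⊤ := by
    rw [eq_top_iff]
    intro g _
    exact Subsingleton.elim _ _
  have hcard : n = 2 * n₂ := by
    have := Fintype.card_congr e
    simpa using this
  have hn₂ : 2 ≤ n₂ := by omega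
  have hk : (⟨0, by omega⟩ : Fin n₂) ≠ ⟨1, by omega⟩ := by simp
  have h1 := kron_lt_extCent hF h2 n₂ _ _ hk
  have h3 := extCent_lt_top (F := F) h2 n₂ _ _ hk
  have i1 : Function.Injective (Cfsg.Geo.glReindex (F := F) e.symm).toMonoidHom :=
    (Cfsg.Geo.glReindex (F := F) e.symm).injective
  have i2 : Function.Injective (MulAut.conj P).toMonoidHom := (MulAut.conj P).injective
  refine ⟨((extCent (bd n₂ (fun _ => (om : GL (Fin 2) F)))).map
    (Cfsg.Geo.glReindex e.symm).toMonoidHom).map (MulAut.conj P).toMonoidHom, ?_, ?_⟩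
  · rw [hSL, inf_top_eq]
    unfold Cfsg.Geo.tensorProductSubgroup
    rw [Subgroup.map_lt_map_iff_of_injective i2, Subgroup.map_lt_map_iff_of_injective i1]
    exact h1
  · rw [hSL]
    have t1 : (⊤ : Subgroup (GL (Fin n) F)) = ((⊤ : Subgroup (GL (Fin 2 × Fin n₂) F)).map
        (Cfsg.Geo.glReindex e.symm).toMonoidHom).map (MulAut.conj P).toMonoidHom := by
      have s1 : Function.Surjective (Cfsg.Geo.glReindex (F := F) e.symm).toMonoidHom :=
        (Cfsg.Geo.glReindex (F := F) e.symm).surjective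
      have s2 : Function.Surjective (MulAut.conj P).toMonoidHom := (MulAut.conj P).surjective
      rw [Subgroup.map_top_of_surjective _ s1, Subgroup.map_top_of_surjective _ s2]
    rw [t1, Subgroup.map_lt_map_iff_of_injective i2, Subgroup.map_lt_map_iff_of_injective i1]
    exact h3

end Cfsg.Agent.S5638
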