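import Cfsg.Statements.S5639
import Cfsg.Agent.Lib.Helper29.SubfieldSL
import Cfsg.Agent.Lib.Helper29.MaxConj

set_option autoImplicit false
open Cfsg

namespace Cfsg.Agent.S5639

open Matrix Cfsg.Agent.Lib.Helper29

/-- For a finite field F, a subfield F₀ with |F| = |F₀| ^ r for a prime r, and n ≥ 13, the subfield group (the conjugate by any P of the product of GL_n(F₀) with the non-zero scalars of F, intersected with SL_n(F)) is a maximal subgroup of SL_n(F). -/
theorem result {F : Type*} [Field F] [Fintype F] (n : ℕ) (hn : 13 ≤ n) (F₀ : Subfield F) (r : ℕ) (hr : r.Prime) (hcard : Fintype.card F = Nat.card F₀ ^ r) (P : Matrix.GeneralLinearGroup (Fin n) F) : Cfsg.Geo.IsMaximalIn (Cfsg.Geo.specialLinear (Fin n) F) (Cfsg.Geo.subfieldSubgroup F₀ P ⊓ Cfsg.Geo.specialLinear (Fin n) F) := by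
  have hfin : Module.finrank F₀ F = r := by
    have h1 := Module.natCard_eq_pow_finrank (K := F₀) (V := F)
    rw [Nat.card_eq_fintype_card, hcard] at h1
    have h2 : 2 ≤ Nat.card F₀ := Finite.one_lt_card
    exact (Nat.pow_right_injective h2 h1).symm
  have hmax := ratGL_isMaximalIn (ι := Fin n) F₀ (by simp; omega) (hfin ▸ hr)
  refine isMaximalIn_conj P ?_ ?_ hmax
  · intro x
    rw [mem_specialLinear_iff, mem_specialLinear_iff, Units.val_mul, Units.val_mul, Matrix.det_mul,
      Matrix.det_mul, mul_right_comm, ← Matrix.det_mul, ← Units.val_mul, mul_inv_cancel,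
      Units.val_one, Matrix.det_one, one_mul]
  · intro x
    have hS : x ∈ ratGL (Fin n) F₀ ↔ P * x * P⁻¹ ∈ Cfsg.Geo.subfieldSubgroup F₀ P := by
      unfold Cfsg.Geo.subfieldSubgroup
      rw [Subgroup.mem_map]
      constructor
      · intro hx
        exact ⟨x, hx, rfl⟩
      · rintro ⟨y, hy, hyx⟩
        have : y = x := (MulAut.conj P).injective hyx
        rw [← this]
        exact hy
    have hL : x ∈ Cfsg.Geo.specialLinear (Fin n) F ↔
        P * x * P⁻¹ ∈ Cfsg.Geo.specialLinear (Fin n) F := by
      rw [mem_specialLinear_iff, mem_specialLinear_iff, Units.val_mul, Units.val_mul,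
        Matrix.det_mul, Matrix.det_mul, mul_right_comm, ← Matrix.det_mul, ← Units.val_mul,
        mul_inv_cancel, Units.val_one, Matrix.det_one, one_mul]
    rw [Subgroup.mem_inf, Subgroup.mem_inf, hS, hL]

end Cfsg.Agent.S5639
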