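import Cfsg.Statements.S5642
import Cfsg.Agent.Lib.Helper29.SLtv
import Cfsg.Agent.Lib.Helper29.SpTransv

set_option autoImplicit false
open Cfsg

namespace Cfsg.Agent.S5642


open Matrix Module Cfsg.Agent.Lib.Helper29

section aux

variable {ι : Type} [Fintype ι] [DecidableEq ι] {F : Type*} [Field F]
variable {f : (ι → F) → (ι → F) → F} (hf : Cfsg.Geo.IsSymplecticForm f)

/-- The functional `x ↦ f x v`. -/
def fDual (v : ι → F) : Dual F (ι → F) where
  toFun x := f x v
  map_add' x y := hf.bilinear.add_left x y v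
  map_smul' a x := by simp [hf.bilinear.smul_left]

@[simp] theorem fDual_apply (v x : ι → F) : fDual hf v x = f x v := rfl

def fMap : (ι → F) →ₗ[F] Dual F (ι → F) where
  toFun v := fDual hf v
  map_add' x y := by ext z; simp [hf.bilinear.add_right]
  map_smul' a x := by ext z; simp [hf.bilinear.smul_right]

theorem fMap_injective : Function.Injective (fMap hf) := by
  rw [← LinearMap.ker_eq_bot, LinearMap.ker_eq_bot']
  intro v hv
  by_contra hne
  obtain ⟨⟨z, hz⟩, -⟩ := hf.nondegenerate v hne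
  apply hz
  have : fMap hf v z = 0 := by rw [hv]; rfl
  exact this

include hf in
theorem riesz (φ : Dual F (ι → F)) : ∃ v : ι → F, ∀ x, φ x = f x v := by
  have hs : Function.Surjective (fMap hf) :=
    (LinearMap.injective_iff_surjective_of_finrank_eq_finrank
      (Subspace.dual_finrank_eq).symm).mp (fMap_injective hf)
  obtain ⟨v, hv⟩ := hs φ
  exact ⟨v, fun x => by rw [← hv]; rfl⟩

include hf in
theorem f_sub_left (x y v : ι → F) : f (x - y) v = f x v - f y v :=
  map_sub (fDual hf v) x y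

include hf in
theorem f_sub_right (v x y : ι → F) : f v (x - y) = f v x - f v y := by
  rw [hf.skew, f_sub_left hf, hf.skew x, hf.skew y]; ring

include hf in
theorem f_zero_left (v : ι → F) : f 0 v = 0 := map_zero (fDual hf v)

include hf in
theorem f_zero_right (v : ι → F) : f v 0 = 0 := by rw [hf.skew, f_zero_left hf, neg_zero]

/-- The symplectic transvection `x ↦ x + c f(x, v) v`. -/
noncomputable def tau (v : ι → F) (c : F) : GL ι F :=
  tv (c • fDual hf v) v (by simp [hf.alternating])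

theorem tau_mulVec (v : ι → F) (c : F) (x : ι → F) :
    (tau hf v c : Matrix ι ι F) *ᵥ x = x + (c * f x v) • v := by
  rw [tau, tv_mulVec]; simp

theorem tau_isom (v : ι → F) (c : F) (x y : ι → F) :
    f ((tau hf v c : Matrix ι ι F) *ᵥ x) ((tau hf v c : Matrix ι ι F) *ᵥ y) = f x y := by
  rw [tau_mulVec, tau_mulVec]
  simp only [hf.bilinear.add_left, hf.bilinear.add_right, hf.bilinear.smul_left,
    hf.bilinear.smul_right, hf.alternating]
  rw [hf.skew v y]; ring

theorem tau_mem (v : ι → F) (c : F) :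
    tau hf v c ∈ Cfsg.Geo.similarityGroup f ⊓ Cfsg.Geo.specialLinear ι F :=
  ⟨⟨1, fun x y => by rw [tau_isom hf]; simp⟩, tv_mem_specialLinear _ _ _⟩

/-- `x ↦ x + f(x, u) w` lies in `M`. -/
def PP (f : (ι → F) → (ι → F) → F) (M : Subgroup (GL ι F)) (w u : ι → F) : Prop :=
  f w u = 0 ∧ ∃ t ∈ M, ∀ x, (t : Matrix ι ι F) *ᵥ x = x + f x u • w

theorem PP_conj {M : Subgroup (GL ι F)} {h : GL ι F} (hM : h ∈ M)
    (hiso : ∀ x y, f ((h : Matrix ι ι F) *ᵥ x) ((h : Matrix ι ι F) *ᵥ y) = f x y)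
    {w u : ι → F} (hP : PP f M w u) :
    PP f M ((h : Matrix ι ι F) *ᵥ w) ((h : Matrix ι ι F) *ᵥ u) := by
  obtain ⟨h0, t, ht, htx⟩ := hP
  refine ⟨by rw [hiso, h0], h * t * h⁻¹, M.mul_mem (M.mul_mem hM ht) (M.inv_mem hM), fun x => ?_⟩
  rw [gl_mul_mulVec, gl_mul_mulVec, htx, Matrix.mulVec_add, gl_mulVec_inv, Matrix.mulVec_smul]
  congr 2
  rw [← hiso, gl_mulVec_inv]

include hf in
theorem PP_add {M : Subgroup (GL ι F)} {w u u' : ι → F} (hP : PP f M w u) (hP' : PP f M w u') :
    PP f M w (u + u') := by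
  obtain ⟨h0, t, ht, htx⟩ := hP
  obtain ⟨h0', t', ht', htx'⟩ := hP'
  refine ⟨by rw [hf.bilinear.add_right, h0, h0', add_zero], t * t', M.mul_mem ht ht', fun x => ?_⟩
  rw [gl_mul_mulVec, htx, htx', hf.bilinear.add_left, hf.bilinear.smul_left, h0,
    hf.bilinear.add_right]
  module

/-- all scalar multiples -/
def PS (f : (ι → F) → (ι → F) → F) (M : Subgroup (GL ι F)) (w u : ι → F) : Prop :=
  ∀ c : F, PP f M w (c • u)

theorem PS_conj {M : Subgroup (GL ι F)} {h : GL ι F} (hM : h ∈ M)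
    (hiso : ∀ x y, f ((h : Matrix ι ι F) *ᵥ x) ((h : Matrix ι ι F) *ᵥ y) = f x y)
    {w u : ι → F} (hP : PS f M w u) :
    PS f M ((h : Matrix ι ι F) *ᵥ w) ((h : Matrix ι ι F) *ᵥ u) := by
  intro c
  rw [← Matrix.mulVec_smul]
  exact PP_conj hM hiso (hP c)

include hf in
theorem PS_add {M : Subgroup (GL ι F)} {w u u' : ι → F} (hP : PS f M w u) (hP' : PS f M w u') :
    PS f M w (u + u') := by
  intro c
  rw [smul_add]
  exact PP_add hf (hP c) (hP' c)

theorem PS_smul {M : Subgroup (GL ι F)} {w u : ι → F} (hP : PS f M w u) (a : F) :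
    PS f M w (a • u) := by
  intro c
  rw [smul_smul]
  exact hP _

include hf in
theorem full_of_pair {M : Subgroup (GL ι F)} (hτ : ∀ v c, tau hf v c ∈ M) {w u : ι → F}
    (hP : PS f M w u) (hu : u ∉ Submodule.span F {w}) (b : ι → F) (hb : f w b = 0) :
    PS f M w b := by
  have step : ∀ a : ι → F, f w a = 0 → f u a ≠ 0 → PS f M w a := by
    intro a ha hua
    have h1 := PS_conj (hτ a (f u a)⁻¹) (tau_isom hf a _) hP
    rw [tau_mulVec, tau_mulVec, ha, mul_zero, zero_smul, add_zero, inv_mul_cancel₀ hua,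
      one_smul] at h1
    have h2 := PS_add hf h1 (PS_smul hP (-1))
    have : u + a + (-1 : F) • u = a := by module
    rwa [this] at h2
  obtain ⟨φ, hφ0, hφ1⟩ := exists_dual_eq_one (Submodule.span F {w}) hu
  obtain ⟨a, ha⟩ := riesz hf φ
  have haw : f w a = 0 := by rw [← ha]; exact hφ0 w (Submodule.mem_span_singleton_self w)
  have hau : f u a = 1 := by rw [← ha]; exact hφ1
  by_cases hub : f u b = 0
  · have h1 := step a haw (by rw [hau]; exact one_ne_zero)
    have h2 := step (a + b) (by rw [hf.bilinear.add_right, haw, hb, add_zero])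
      (by rw [hf.bilinear.add_right, hau, hub, add_zero]; exact one_ne_zero)
    have h3 := PS_add hf h2 (PS_smul h1 (-1))
    have : a + b + (-1 : F) • a = b := by module
    rwa [this] at h3
  · exact step b hb hub

include hf in
theorem full_move {M : Subgroup (GL ι F)} (hτ : ∀ v c, tau hf v c ∈ M) {w w' : ι → F}
    (hw : ∀ b, f w b = 0 → PS f M w b) (hww : f w w' ≠ 0) :
    ∀ b, f w' b = 0 → PS f M w' b := by
  intro b hb
  have hmv : (tau hf (w' - w) (f w w')⁻¹ : Matrix ι ι F) *ᵥ w = w' := by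
    rw [tau_mulVec, f_sub_right hf, hf.alternating, sub_zero, inv_mul_cancel₀ hww, one_smul]
    abel
  set h := tau hf (w' - w) (f w w')⁻¹ with hh
  have h1 : f w (((h⁻¹ : GL ι F) : Matrix ι ι F) *ᵥ b) = 0 := by
    rw [← tau_isom hf (w' - w) (f w w')⁻¹, ← hh, hmv, gl_mulVec_inv, hb]
  have h2 := PS_conj (hτ (w' - w) (f w w')⁻¹) (tau_isom hf _ _) (hw _ h1)
  rw [← hh, hmv, gl_mulVec_inv] at h2
  exact h2

include hf in
theorem all_tv_of_pair {M : Subgroup (GL ι F)} (hτ : ∀ v c, tau hf v c ∈ M) {w u : ι → F}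
    (hw0 : w ≠ 0) (hP : PS f M w u) (hu : u ∉ Submodule.span F {w})
    (φ : Dual F (ι → F)) (v : ι → F) (h : φ v = 0) : tv φ v h ∈ M := by
  by_cases hv : v = 0
  · subst hv
    have : tv φ 0 h = 1 := by
      apply gl_ext; intro x; rw [tv_mulVec]; simp
    rw [this]; exact M.one_mem
  have hfull := full_of_pair hf hτ hP hu
  obtain ⟨z, -, hz1, hz2⟩ := exists_both_ne_zero (⊤ : Submodule F (ι → F)) (fDual hf w)
    (fDual hf v)
    (by obtain ⟨⟨y, hy⟩, -⟩ := hf.nondegenerate w hw0; exact ⟨y, trivial, hy⟩)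
    (by obtain ⟨⟨y, hy⟩, -⟩ := hf.nondegenerate v hv; exact ⟨y, trivial, hy⟩)
  rw [fDual_apply] at hz1 hz2
  have hfz := full_move hf hτ hfull (w' := z) (by rw [hf.skew]; exact neg_ne_zero.mpr hz1)
  have hfv := full_move hf hτ hfz hz2
  obtain ⟨a, ha⟩ := riesz hf φ
  obtain ⟨-, t, ht, htx⟩ := hfv a (by rw [← ha]; exact h) 1
  have : tv φ v h = t := by
    apply gl_ext; intro x
    rw [tv_mulVec, htx, one_smul, ha]
  rw [this]; exact ht

include hf in
theorem mem_similarity_of (g : GL ι F)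
    (h : ∀ v, ∃ l : F, ∀ x, f x v = l * f ((g : Matrix ι ι F) *ᵥ x) ((g : Matrix ι ι F) *ᵥ v))
    (hne : ∃ v : ι → F, v ≠ 0) :
    g ∈ Cfsg.Geo.similarityGroup f := by
  choose l hl using h
  have h1 : ∀ x v, f x v ≠ 0 → l x = l v := by
    intro x v hxv
    have e1 := hl v x
    have e2 := hl x v
    rw [hf.skew v x, hf.skew ((g : Matrix ι ι F) *ᵥ v)] at e2
    have e3 : (l x - l v) * f ((g : Matrix ι ι F) *ᵥ x) ((g : Matrix ι ι F) *ᵥ v) = 0 := by
      linear_combination e1 + e2
    rcases mul_eq_zero.mp e3 with e | e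
    · exact sub_eq_zero.mp e
    · rw [e, mul_zero] at e1; exact absurd e1 hxv
  obtain ⟨v₀, hv₀⟩ := hne
  have h2 : ∀ v, v ≠ 0 → l v = l v₀ := by
    intro v hv
    obtain ⟨z, -, hz1, hz2⟩ := exists_both_ne_zero (⊤ : Submodule F (ι → F)) (fDual hf v)
      (fDual hf v₀)
      (by obtain ⟨⟨y, hy⟩, -⟩ := hf.nondegenerate v hv; exact ⟨y, trivial, hy⟩)
      (by obtain ⟨⟨y, hy⟩, -⟩ := hf.nondegenerate v₀ hv₀; exact ⟨y, trivial, hy⟩)
    rw [fDual_apply] at hz1 hz2
    rw [← h1 z v hz1, h1 z v₀ hz2]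
  have hl0 : l v₀ ≠ 0 := by
    intro h0
    obtain ⟨⟨y, hy⟩, -⟩ := hf.nondegenerate v₀ hv₀
    apply hy
    rw [hl v₀ y, h0, zero_mul]
  refine ⟨Units.mk0 (l v₀)⁻¹ (inv_ne_zero hl0), fun x v => ?_⟩
  rw [Units.val_mk0]
  by_cases hv : v = 0
  · subst hv
    rw [Matrix.mulVec_zero, f_zero_right hf, f_zero_right hf, mul_zero]
  · rw [hl v x, h2 v hv, ← mul_assoc, inv_mul_cancel₀ hl0, one_mul]

end aux

/-- For a finite field F and n ≥ 13, let f be a non-degenerate symplectic form on F^n (so n is even). Then the elements of SL_n(F) that are similarities of f (f(gu, gv) = c f(u, v) for a non-zero scalar c depending on g) form a maximal subgroup of SL_n(F). -/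
theorem result {F : Type*} [Field F] [Fintype F] (n : ℕ) (hn : 13 ≤ n) (f : (Fin n → F) → (Fin n → F) → F) (hf : Cfsg.Geo.IsSymplecticForm f) : Cfsg.Geo.IsMaximalIn (Cfsg.Geo.specialLinear (Fin n) F) (Cfsg.Geo.similarityGroup f ⊓ Cfsg.Geo.specialLinear (Fin n) F) := by
  have hnt : Nontrivial (Fin n) := Fin.nontrivial_iff_two_le.mpr (by omega)
  have hτ := tau_mem hf
  -- a perpendicular independent pair
  obtain ⟨w, u, hw0, hwu, hu⟩ : ∃ w u : Fin n → F, w ≠ 0 ∧ f w u = 0 ∧
      u ∉ Submodule.span F {w} := by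
    obtain ⟨w, hw0⟩ : ∃ w : Fin n → F, w ≠ 0 :=
      ⟨Pi.single ⟨0, by omega⟩ 1, by
        intro h
        have := congrFun h ⟨0, by omega⟩
        simp at this⟩
    have h1 := LinearMap.finrank_range_add_finrank_ker (fDual hf w)
    have h2 : finrank F (LinearMap.range (fDual hf w)) ≤ 1 := by
      calc _ ≤ finrank F F := Submodule.finrank_le _
        _ = 1 := Module.finrank_self F
    rw [Module.finrank_fintype_fun_eq_card, Fintype.card_fin] at h1
    have h3 : finrank F (Submodule.span F {w}) ≤ 1 := (finrank_span_singleton hw0).le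
    have h4 : ¬ LinearMap.ker (fDual hf w) ≤ Submodule.span F {w} := fun h => by
      have := Submodule.finrank_mono h
      omega
    obtain ⟨u, hu1, hu2⟩ := SetLike.not_le_iff_exists.mp h4
    refine ⟨w, u, hw0, ?_, hu2⟩
    rw [hf.skew]
    have : f u w = 0 := hu1
    rw [this, neg_zero]
  refine ⟨lt_of_le_of_ne inf_le_right ?_, ?_⟩
  · intro heq
    have h1 : tv (fDual hf u) w hwu ∈ Cfsg.Geo.specialLinear (Fin n) F := tv_mem_specialLinear _ _ _
    rw [← heq] at h1
    obtain ⟨c, hc⟩ := h1.1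
    have hc : ∀ x y : Fin n → F, f (x + f x u • w) (y + f y u • w) = (c : F) * f x y := by
      intro x y
      have := hc x y
      have e1 := tv_mulVec (fDual hf u) w hwu x
      have e2 := tv_mulVec (fDual hf u) w hwu y
      rw [e1, e2] at this
      exact this
    obtain ⟨⟨x₀, hx₀⟩, -⟩ := hf.nondegenerate w hw0
    have hc1 : (c : F) = 1 := by
      have := hc x₀ w
      rw [hwu, zero_smul, add_zero, hf.bilinear.add_left, hf.bilinear.smul_left, hf.alternating,
        mul_zero, add_zero] at this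
      have h2 : ((c : F) - 1) * f x₀ w = 0 := by linear_combination -this
      rcases mul_eq_zero.mp h2 with h | h
      · exact sub_eq_zero.mp h
      · exact absurd h hx₀
    obtain ⟨φ, hφ0, hφ1⟩ := exists_dual_eq_one (Submodule.span F {w}) hu
    obtain ⟨a, ha⟩ := riesz hf φ
    have haw : f w a = 0 := by rw [← ha]; exact hφ0 w (Submodule.mem_span_singleton_self w)
    have hau : f u a = 1 := by rw [← ha]; exact hφ1
    have := hc x₀ a
    simp only [hf.bilinear.add_left, hf.bilinear.add_right, hf.bilinear.smul_left,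
      hf.bilinear.smul_right, hf.alternating, haw, hc1] at this
    rw [hf.skew a u, hau] at this
    apply hx₀
    linear_combination -this
  · intro M hHM hMS
    by_cases hMH : M ≤ Cfsg.Geo.similarityGroup f
    · left
      exact le_antisymm (le_inf hMH hMS) hHM
    · right
      obtain ⟨g, hg, hgQ⟩ := SetLike.not_le_iff_exists.mp hMH
      obtain ⟨v, hv⟩ : ∃ v, ∀ l : F, ∃ x, f x v ≠
          l * f ((g : Matrix (Fin n) (Fin n) F) *ᵥ x) ((g : Matrix (Fin n) (Fin n) F) *ᵥ v) := by
        by_contra hcon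
        push Not at hcon
        exact hgQ (mem_similarity_of hf g hcon ⟨w, hw0⟩)
      have hv0 : v ≠ 0 := by
        rintro rfl
        obtain ⟨x, hx⟩ := hv 0
        apply hx
        rw [f_zero_right hf, zero_mul]
      obtain ⟨u', hu'⟩ := riesz hf
        ((fDual hf v) ∘ₗ Matrix.toLin' ((g⁻¹ : GL (Fin n) F) : Matrix (Fin n) (Fin n) F))
      simp only [LinearMap.comp_apply, Matrix.toLin'_apply, fDual_apply] at hu'
      have hgv0 : (g : Matrix (Fin n) (Fin n) F) *ᵥ v ≠ 0 := by
        intro h0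
        apply hv0
        have := gl_inv_mulVec g v
        rw [h0, Matrix.mulVec_zero] at this
        exact this.symm
      have hP : PS f M ((g : Matrix (Fin n) (Fin n) F) *ᵥ v) u' := by
        intro c
        refine ⟨?_, g * tau hf v c * g⁻¹,
          M.mul_mem (M.mul_mem hg (hHM (hτ v c))) (M.inv_mem hg), fun x => ?_⟩
        · rw [hf.bilinear.smul_right, ← hu', gl_inv_mulVec, hf.alternating, mul_zero]
        · rw [gl_mul_mulVec, gl_mul_mulVec, tau_mulVec, Matrix.mulVec_add, gl_mulVec_inv,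
            Matrix.mulVec_smul, hf.bilinear.smul_right, ← hu']
      have hnot : u' ∉ Submodule.span F {(g : Matrix (Fin n) (Fin n) F) *ᵥ v} := by
        intro hmem
        obtain ⟨l, hl⟩ := Submodule.mem_span_singleton.mp hmem
        obtain ⟨x, hx⟩ := hv l
        apply hx
        have := hu' ((g : Matrix (Fin n) (Fin n) F) *ᵥ x)
        rw [gl_inv_mulVec, ← hl, hf.bilinear.smul_right] at this
        exact this
      exact le_antisymm hMS (specialLinear_le_of_tv M
        (all_tv_of_pair hf (fun v c => hHM (hτ v c)) hgv0 hP hnot))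

end Cfsg.Agent.S5642
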