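import Cfsg.Statements.S5643
import Cfsg.Agent.Lib.Helper29.SuInSL
import Cfsg.Agent.Lib.Helper29.UnitaryStd
import Cfsg.Agent.Lib.Helper29.MaxConj

set_option autoImplicit false
open Cfsg

namespace Cfsg.Agent.S5643

open Matrix Cfsg.Agent.Lib.Helper29

/-- For a finite field F and n ≥ 13, let σ be a field automorphism of F of order two and f a non-degenerate unitary form on F^n with respect to σ. Then the elements of SL_n(F) that are similarities of f form a maximal subgroup of SL_n(F). -/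
theorem result {F : Type*} [Field F] [Fintype F] (n : ℕ) (hn : 13 ≤ n) (σ : F ≃+* F) (f : (Fin n → F) → (Fin n → F) → F) (hf : Cfsg.Geo.IsUnitaryForm σ f) : Cfsg.Geo.IsMaximalIn (Cfsg.Geo.specialLinear (Fin n) F) (Cfsg.Geo.similarityGroup f ⊓ Cfsg.Geo.specialLinear (Fin n) F) := by
  obtain ⟨q, hF, hσq⟩ := exists_q_of_involution σ hf.ne_refl hf.involutive
  have hq : q ≠ 0 := by have := Cfsg.Agent.H6.q_pos hF; omega
  obtain ⟨g₀, hg₀⟩ := exists_gl_herm hq σ f hf hσq
  refine isMaximalIn_conj g₀ ?_ ?_ (herm_similarity_isMaximalIn hF hn)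
  · intro x
    rw [mem_specialLinear_iff, mem_specialLinear_iff, Units.val_mul, Units.val_mul, Matrix.det_mul,
      Matrix.det_mul, mul_right_comm, ← Matrix.det_mul, ← Units.val_mul, mul_inv_cancel,
      Units.val_one, Matrix.det_one, one_mul]
  · intro x
    have hS : x ∈ Cfsg.Geo.similarityGroup (Cfsg.hermForm n F q) ↔
        g₀ * x * g₀⁻¹ ∈ Cfsg.Geo.similarityGroup f := by
      constructor
      · rintro ⟨c, hc⟩
        refine ⟨c, fun u v => ?_⟩
        rw [gl_mul_mulVec, gl_mul_mulVec, gl_mul_mulVec, gl_mul_mulVec, hg₀, hc, ← hg₀,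
          gl_mulVec_inv, gl_mulVec_inv]
      · rintro ⟨c, hc⟩
        refine ⟨c, fun u v => ?_⟩
        have := hc ((g₀ : Matrix (Fin n) (Fin n) F) *ᵥ u) ((g₀ : Matrix (Fin n) (Fin n) F) *ᵥ v)
        rw [gl_mul_mulVec, gl_mul_mulVec, gl_mul_mulVec, gl_mul_mulVec, gl_inv_mulVec,
          gl_inv_mulVec, hg₀, hg₀] at this
        exact this
    have hL : x ∈ Cfsg.Geo.specialLinear (Fin n) F ↔
        g₀ * x * g₀⁻¹ ∈ Cfsg.Geo.specialLinear (Fin n) F := by
      rw [mem_specialLinear_iff, mem_specialLinear_iff, Units.val_mul, Units.val_mul,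
        Matrix.det_mul, Matrix.det_mul, mul_right_comm, ← Matrix.det_mul, ← Units.val_mul,
        mul_inv_cancel, Units.val_one, Matrix.det_one, one_mul]
    rw [Subgroup.mem_inf, Subgroup.mem_inf, hS, hL]

end Cfsg.Agent.S5643
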