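import Cfsg.Statements.S5644
import Cfsg.Agent.Lib.Helper29.OinSL2

set_option autoImplicit false
open Cfsg

namespace Cfsg.Agent.S5644

/-- For a finite field F of odd order and n ≥ 13, let Q be a non-degenerate quadratic form on F^n (its polar form is non-degenerate). Then the elements of SL_n(F) that are similarities of Q (Q(gv) = c Q(v) for a non-zero scalar c depending on g) form a maximal subgroup of SL_n(F). -/
theorem result {F : Type*} [Field F] [Fintype F] (n : ℕ) (hn : 13 ≤ n) (hodd : Odd (Fintype.card F)) (Q : (Fin n → F) → F) (hQ : Cfsg.Geo.IsNondegenerateQuadraticForm Q) : Cfsg.Geo.IsMaximalIn (Cfsg.Geo.specialLinear (Fin n) F) (Cfsg.Geo.quadSimilarityGroup Q ⊓ Cfsg.Geo.specialLinear (Fin n) F) := by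
  have h2 : (2 : F) ≠ 0 := by
    intro h
    have : CharP F 2 := CharTwo.of_one_ne_zero_of_two_eq_zero one_ne_zero h
    obtain ⟨k, -, hk⟩ := FiniteField.card F 2
    rw [hk] at hodd
    have h3 : Even (2 ^ (k : ℕ)) := (Nat.even_pow.2 ⟨even_two, k.ne_zero⟩)
    exact (Nat.not_even_iff_odd.2 hodd) h3
  obtain ⟨Q', rfl, hQ'⟩ := Cfsg.Agent.Lib.Helper15.exists_bundled hQ
  exact Cfsg.Agent.Lib.Helper29.quadSim_isMaximalIn hQ' (by simp; omega) h2

end Cfsg.Agent.S5644
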