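import Cfsg.Statements.S5648
import Cfsg.Agent.Lib.Helper29.SpTransv
import Cfsg.Agent.Lib.Helper29.Decomp

set_option autoImplicit false
open Cfsg

namespace Cfsg.Agent.S5648

open Matrix Module Cfsg.Agent.Lib.Helper29
open Cfsg.Agent.H5Symp (form_add_left form_add_right form_smul_left form_smul_right form_neg_left
  form_neg_right form_sub_left form_sub_right form_zero_left form_zero_right form_swap form_self)

variable {m : ℕ} {F : Type*} [Field F]

local notation "Vm" => (Fin m ⊕ Fin m → F)
local notation "B" => Cfsg.sympForm m F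

open Classical in
/-- `1` if `x` is not orthogonal to `W`, `0` otherwise. -/
noncomputable def qq (W : Submodule F Vm) (x : Vm) : F := if ∃ d ∈ W, B x d ≠ 0 then 1 else 0

/-- The quadratic form attached to the decomposition. -/
noncomputable def QQ {t : ℕ} (D : Fin t → Submodule F Vm) (x : Vm) : F := ∑ j, qq (D j) x

/-- The isometries of `QQ` in the symplectic group. -/
noncomputable def KK {t : ℕ} (D : Fin t → Submodule F Vm) : Subgroup (GL (Fin m ⊕ Fin m) F) where
  carrier := {g | g ∈ Cfsg.spGL m F ∧ ∀ x, QQ D ((g : Matrix _ _ F) *ᵥ x) = QQ D x}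
  mul_mem' := by
    rintro a b ⟨ha, ha'⟩ ⟨hb, hb'⟩
    refine ⟨(Cfsg.spGL m F).mul_mem ha hb, fun x => ?_⟩
    rw [gl_mul_mulVec, ha', hb']
  one_mem' := ⟨(Cfsg.spGL m F).one_mem, fun x => by simp⟩
  inv_mem' := by
    rintro a ⟨ha, ha'⟩
    refine ⟨(Cfsg.spGL m F).inv_mem ha, fun x => ?_⟩
    rw [← ha', gl_mulVec_inv]

theorem form_sum_right {κ : Type*} (s : Finset κ) (x : Vm) (v : κ → Vm) :
    B x (∑ i ∈ s, v i) = ∑ i ∈ s, B x (v i) := by
  classical
  induction s using Finset.induction_on with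
  | empty => simp [form_zero_right]
  | insert a s ha ih => rw [Finset.sum_insert ha, Finset.sum_insert ha, form_add_right, ih]

theorem form_sum_left {κ : Type*} (s : Finset κ) (x : Vm) (v : κ → Vm) :
    B (∑ i ∈ s, v i) x = ∑ i ∈ s, B (v i) x := by
  classical
  induction s using Finset.induction_on with
  | empty => simp [form_zero_left]
  | insert a s ha ih => rw [Finset.sum_insert ha, Finset.sum_insert ha, form_add_left, ih]

theorem qq_eq (hF : ∀ x : F, x = 0 ∨ x = 1) (h2 : (1:F) + 1 = 0) (W : Submodule F Vm)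
    (hdim : finrank F W = 2) {e f : Vm} (he : e ∈ W) (hf : f ∈ W) (hef : B e f = 1) (x : Vm) :
    qq W x = B x f + B x f * B x e + B x e := by
  have hli : LinearIndependent F ![e, f] := by
    rw [LinearIndependent.pair_iff]
    intro s t hst
    have h1 : B (s • e + t • f) f = 0 := by rw [hst, form_zero_left]
    have h3 : B e (s • e + t • f) = 0 := by rw [hst, form_zero_right]
    rw [form_add_left, form_smul_left, form_smul_left, form_self, hef] at h1
    rw [form_add_right, form_smul_right, form_smul_right, form_self, hef] at h3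
    constructor
    · simpa using h1
    · simpa using h3
  have hspan : Submodule.span F (Set.range ![e, f]) = W := by
    apply Submodule.eq_of_le_of_finrank_eq
    · rw [Submodule.span_le]
      rintro _ ⟨i, rfl⟩
      fin_cases i
      · exact he
      · exact hf
    · rw [finrank_span_eq_card hli, hdim]; rfl
  have hiff : (∃ d ∈ W, B x d ≠ 0) ↔ (B x f ≠ 0 ∨ B x e ≠ 0) := by
    constructor
    · rintro ⟨d, hd, hne⟩
      by_contra hcon
      push Not at hcon
      apply hne
      rw [← hspan] at hd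
      have : Set.range ![e, f] = {e, f} := by
        ext y; simp [eq_comm, or_comm]
      rw [this, Submodule.mem_span_pair] at hd
      obtain ⟨a, b, rfl⟩ := hd
      rw [form_add_right, form_smul_right, form_smul_right, hcon.1, hcon.2]
      simp
    · rintro (h | h)
      · exact ⟨f, hf, h⟩
      · exact ⟨e, he, h⟩
  unfold qq
  by_cases hc : ∃ d ∈ W, B x d ≠ 0
  · rw [if_pos hc]
    have hc' := hiff.mp hc
    rcases hF (B x f) with h1 | h1 <;> rcases hF (B x e) with h3 | h3 <;>
      simp [h1, h3, h2] at hc' ⊢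
  · rw [if_neg hc]
    have hc' := (not_congr hiff).mp hc
    push Not at hc'
    rw [hc'.1, hc'.2]; simp

/-- The effect on `QQ` of the transvection in a sum of the `e i`. -/
theorem QQ_stv (hF : ∀ x : F, x = 0 ∨ x = 1) (h2 : (1:F) + 1 = 0) {t : ℕ}
    (D : Fin t → Submodule F Vm) (hdim : ∀ i, finrank F (D i) = 2)
    (horth : ∀ i j, i ≠ j → Cfsg.Geo.AreOrthogonalFor (Cfsg.sympForm m F) (D i) (D j))
    (e f : Fin t → Vm) (he : ∀ i, e i ∈ D i) (hf : ∀ i, f i ∈ D i) (hef : ∀ i, B (e i) (f i) = 1)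
    (S : Finset (Fin t)) (x : Vm) :
    QQ D ((stv (∑ i ∈ S, e i) 1 : Matrix _ _ F) *ᵥ x) =
      QQ D x + B x (∑ i ∈ S, e i) * ((S.card : F) + B x (∑ i ∈ S, e i)) := by
  classical
  set v := ∑ i ∈ S, e i with hv
  set lam := B x v with hlam
  have hvf : ∀ j, B v (f j) = if j ∈ S then 1 else 0 := by
    intro j
    rw [hv, form_sum_left]
    have : ∀ i ∈ S, B (e i) (f j) = if i = j then 1 else 0 := by
      intro i _
      by_cases hij : i = j
      · subst hij; simp [hef]
      · rw [if_neg hij]; exact horth i j hij _ (he i) _ (hf j)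
    rw [Finset.sum_congr rfl this, Finset.sum_ite_eq']
  have hve : ∀ j, B v (e j) = 0 := by
    intro j
    rw [hv, form_sum_left]
    apply Finset.sum_eq_zero
    intro i _
    by_cases hij : i = j
    · subst hij; exact form_self _
    · exact horth i j hij _ (he i) _ (he j)
  unfold QQ
  rw [stv_mulVec, one_mul]
  have hterm : ∀ j, qq (D j) (x + lam • v) = qq (D j) x +
      (if j ∈ S then lam * (1 + B x (e j)) else 0) := by
    intro j
    rw [qq_eq hF h2 (D j) (hdim j) (he j) (hf j) (hef j),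
      qq_eq hF h2 (D j) (hdim j) (he j) (hf j) (hef j)]
    simp only [form_add_left, form_smul_left, hvf, hve]
    by_cases hj : j ∈ S
    · simp only [if_pos hj]; ring
    · simp only [if_neg hj]; ring
  rw [Finset.sum_congr rfl (fun j _ => hterm j), Finset.sum_add_distrib]
  congr 1
  rw [Finset.sum_ite_mem, Finset.univ_inter, ← Finset.mul_sum, Finset.sum_add_distrib]
  congr 1
  rw [hlam, hv, form_sum_right]
  simp

/-- Over the field with 2 elements and for m ≥ 7, let D be a decomposition of F^(2m) into t pairwise orthogonal non-degenerate 2-dimensional subspaces for the standard alternating form (t = m ≥ 2). Then the elements of Sp_2m(2) permuting the members of D form a subgroup that is not maximal: some subgroup lies strictly between it and Sp_2m(2). -/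
theorem result {F : Type*} [Field F] [Fintype F] (m : ℕ) (hm : 7 ≤ m) (hq : Fintype.card F = 2) {t : ℕ} (D : Fin t → Submodule F (Fin m ⊕ Fin m → F)) (hD : Cfsg.Geo.IsNondegenerateMDecomposition (Cfsg.sympForm m F) 2 D) : ∃ K : Subgroup (Matrix.GeneralLinearGroup (Fin m ⊕ Fin m) F), Cfsg.Geo.decompositionStabilizer D ⊓ Cfsg.spGL m F < K ∧ K < Cfsg.spGL m F := by
  classical
  have hunits : Subsingleton Fˣ := by
    rw [← Fintype.card_le_one_iff_subsingleton, Fintype.card_units, hq]
  have hF : ∀ x : F, x = 0 ∨ x = 1 := by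
    intro x
    by_cases hx : x = 0
    · exact Or.inl hx
    · right
      have := Subsingleton.elim (Units.mk0 x hx) 1
      simpa using congrArg Units.val this
  have h2 : (1:F) + 1 = 0 := by
    rcases hF (1 + 1) with h | h
    · exact h
    · exfalso
      simp at h
  have hneg : ∀ a : F, -a = a := by
    intro a
    rw [neg_eq_iff_add_eq_zero, ← two_mul, ← one_add_one_eq_two, h2, zero_mul]
  have ht : t = m := by
    have := card_eq_of_isMDecomposition hD.decomp
    simp at this
    omega
  -- symplectic pairs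
  have hpair : ∀ i, ∃ ef : (Fin m ⊕ Fin m → F) × (Fin m ⊕ Fin m → F),
      ef.1 ∈ D i ∧ ef.2 ∈ D i ∧ Cfsg.sympForm m F ef.1 ef.2 = 1 := by
    intro i
    have hne : D i ≠ ⊥ := by
      intro h
      have := hD.decomp.finrank_eq i
      rw [h, finrank_bot] at this
      omega
    obtain ⟨e, he, he0⟩ := Submodule.exists_mem_ne_zero_of_ne_bot hne
    obtain ⟨-, f, hf, hef⟩ := hD.nondegenerate i e he he0
    exact ⟨(e, f), he, hf, (hF _).resolve_left hef⟩
  choose ef hef using hpair
  set e : Fin t → (Fin m ⊕ Fin m → F) := fun i => (ef i).1 with hedef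
  set f : Fin t → (Fin m ⊕ Fin m → F) := fun i => (ef i).2 with hfdef
  have he : ∀ i, e i ∈ D i := fun i => (hef i).1
  have hf : ∀ i, f i ∈ D i := fun i => (hef i).2.1
  have hef' : ∀ i, Cfsg.sympForm m F (e i) (f i) = 1 := fun i => (hef i).2.2
  have hQ := QQ_stv hF h2 D hD.decomp.finrank_eq hD.orthogonal e f he hf hef'
  let i₁ : Fin t := ⟨0, by omega⟩
  let i₂ : Fin t := ⟨1, by omega⟩
  let i₃ : Fin t := ⟨2, by omega⟩
  have h12 : i₁ ≠ i₂ := by simp [i₁, i₂]
  have h13 : i₁ ≠ i₃ := by simp [i₁, i₃]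
  have h23 : i₂ ≠ i₃ := by simp [i₂, i₃]
  refine ⟨KK D, lt_of_le_of_ne ?_ ?_, lt_of_le_of_ne ?_ ?_⟩
  · -- the stabiliser preserves QQ
    rintro g ⟨⟨σ, hσ⟩, hgS⟩
    refine ⟨hgS, fun x => ?_⟩
    unfold QQ
    rw [← Equiv.sum_comp σ]
    apply Finset.sum_congr rfl
    intro j _
    unfold qq
    have hiff : (∃ d ∈ D (σ j), Cfsg.sympForm m F ((g : Matrix _ _ F) *ᵥ x) d ≠ 0) ↔
        (∃ d ∈ D j, Cfsg.sympForm m F x d ≠ 0) := ?_
    · by_cases hc : ∃ d ∈ D j, Cfsg.sympForm m F x d ≠ 0
      · rw [if_pos hc, if_pos (hiff.mpr hc)]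
      · rw [if_neg hc, if_neg (fun h => hc (hiff.mp h))]
    constructor
    · rintro ⟨d, hd, hne⟩
      rw [← hσ j] at hd
      obtain ⟨d', hd', rfl⟩ := hd
      refine ⟨d', hd', ?_⟩
      rwa [Matrix.toLin'_apply, (mem_spGL_iff g).mp hgS] at hne
    · rintro ⟨d, hd, hne⟩
      refine ⟨(g : Matrix _ _ F) *ᵥ d, ?_, ?_⟩
      · rw [← hσ j]
        exact ⟨d, hd, by rw [Matrix.toLin'_apply]⟩
      · rwa [(mem_spGL_iff g).mp hgS]
  · intro heq
    have hmem : stv (∑ i ∈ ({i₁, i₂, i₃} : Finset (Fin t)), e i) 1 ∈ KK D := by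
      refine ⟨stv_mem_spGL _ _, fun x => ?_⟩
      rw [hQ]
      have hc : (({i₁, i₂, i₃} : Finset (Fin t)).card : F) = 1 := by
        rw [Finset.card_insert_of_notMem (by simp [h12, h13]),
          Finset.card_insert_of_notMem (by simp [h23]), Finset.card_singleton]
        push_cast
        linear_combination h2
      rw [hc]
      rcases hF (Cfsg.sympForm m F x (∑ i ∈ ({i₁, i₂, i₃} : Finset (Fin t)), e i)) with h | h <;>
        rw [h] <;> simp [h2]
    rw [← heq] at hmem
    obtain ⟨⟨σ, hσ⟩, -⟩ := hmem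
    have hsum : ∑ i ∈ ({i₁, i₂, i₃} : Finset (Fin t)), e i = e i₁ + e i₂ + e i₃ := by
      rw [Finset.sum_insert (by simp [h12, h13]), Finset.sum_insert (by simp [h23]),
        Finset.sum_singleton, add_assoc]
    rw [hsum] at hσ
    have hy : (stv (e i₁ + e i₂ + e i₃) 1 : Matrix _ _ F) *ᵥ f i₁ ∈ D (σ i₁) := by
      rw [← hσ i₁]
      exact ⟨f i₁, hf i₁, by rw [Matrix.toLin'_apply]⟩
    rw [stv_mulVec, one_mul] at hy
    have hlam : Cfsg.sympForm m F (f i₁) (e i₁ + e i₂ + e i₃) = 1 := by
      rw [form_add_right, form_add_right, form_swap (f i₁) (e i₁), hef',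
        hD.orthogonal i₁ i₂ h12 _ (hf i₁) _ (he i₂), hD.orthogonal i₁ i₃ h13 _ (hf i₁) _ (he i₃), hneg]
      simp
    rw [hlam, one_smul] at hy
    have key : ∀ k, k ≠ i₁ → (k = i₂ ∨ k = i₃) → σ i₁ = k := by
      intro k hk1 hk
      by_contra hne
      have h0 := hD.orthogonal (σ i₁) k hne _ hy _ (hf k)
      rw [form_add_left, form_add_left, form_add_left,
        hD.orthogonal i₁ k hk1.symm _ (hf i₁) _ (hf k),
        hD.orthogonal i₁ k hk1.symm _ (he i₁) _ (hf k)] at h0
      rcases hk with rfl | rfl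
      · rw [hef', hD.orthogonal i₃ i₂ h23.symm _ (he i₃) _ (hf i₂)] at h0
        simp at h0
      · rw [hef', hD.orthogonal i₂ i₃ h23 _ (he i₂) _ (hf i₃)] at h0
        simp at h0
    exact h23 ((key i₂ h12.symm (Or.inl rfl)).symm.trans (key i₃ h13.symm (Or.inr rfl)))
  · rintro g ⟨hg, -⟩
    exact hg
  · intro heq
    have hmem : stv (∑ i ∈ ({i₁, i₂} : Finset (Fin t)), e i) 1 ∈ KK D := by
      rw [heq]; exact stv_mem_spGL _ _
    have h1 := hmem.2 (f i₁)
    rw [hQ] at h1
    have hsum : ∑ i ∈ ({i₁, i₂} : Finset (Fin t)), e i = e i₁ + e i₂ := by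
      rw [Finset.sum_insert (by simp [h12]), Finset.sum_singleton]
    have hlam : Cfsg.sympForm m F (f i₁) (e i₁ + e i₂) = 1 := by
      rw [form_add_right, form_swap (f i₁) (e i₁), hef',
        hD.orthogonal i₁ i₂ h12 _ (hf i₁) _ (he i₂), hneg]
      simp
    have hc : (({i₁, i₂} : Finset (Fin t)).card : F) = 0 := by
      rw [Finset.card_insert_of_notMem (by simp [h12]), Finset.card_singleton]
      push_cast
      linear_combination h2
    rw [hsum, hlam, hc] at h1
    simp at h1

end Cfsg.Agent.S5648
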