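import Cfsg.Statements.S5649
import Cfsg.Agent.Lib.Helper29.SpPair2
import Cfsg.Agent.Lib.Helper29.Decomp

set_option autoImplicit false
open Cfsg

namespace Cfsg.Agent.S5649

open Matrix Cfsg.Agent.Lib.Helper29

/-- For a finite field F of odd order and m ≥ 7, let D be a decomposition of F^(2m) into two complementary subspaces of dimension m on each of which the standard alternating form vanishes identically. Then the elements of Sp_2m(F) preserving or interchanging the two subspaces form a maximal subgroup of Sp_2m(F). -/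
theorem result {F : Type*} [Field F] [Fintype F] (m : ℕ) (hm : 7 ≤ m) (hodd : Odd (Fintype.card F)) (D : Fin 2 → Submodule F (Fin m ⊕ Fin m → F)) (hD : Cfsg.Geo.IsMDecomposition m D) (hts : ∀ i, Cfsg.Geo.IsTotallySingularFor (Cfsg.sympForm m F) (D i)) : Cfsg.Geo.IsMaximalIn (Cfsg.spGL m F) (Cfsg.Geo.decompositionStabilizer D ⊓ Cfsg.spGL m F) := by
  have h2 : (2 : F) ≠ 0 := by
    intro h0
    have hc : CharP F 2 := CharTwo.of_one_ne_zero_of_two_eq_zero one_ne_zero h0
    obtain ⟨k, hp, hk⟩ := FiniteField.card F 2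
    rw [hk] at hodd
    exact (Nat.not_even_iff_odd.mpr hodd) (Even.pow_of_ne_zero even_two k.ne_zero)
  have hsup : D 0 ⊔ D 1 = ⊤ := by
    apply le_antisymm le_top
    rw [← hD.iSup_eq_top]
    apply iSup_le
    intro i
    fin_cases i
    · exact le_sup_left
    · exact le_sup_right
  have h : TSPair (D 0) (D 1) := by
    refine ⟨hts 0, hts 1, fun v => ?_⟩
    have hv : v ∈ D 0 ⊔ D 1 := by rw [hsup]; trivial
    obtain ⟨w, hw, w', hw', e⟩ := Submodule.mem_sup.mp hv
    exact ⟨w, hw, w', hw', e.symm⟩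
  have hf0 := hD.finrank_eq 0
  have hf1 := hD.finrank_eq 1
  have memStab : ∀ g : GL (Fin m ⊕ Fin m) F,
      (∀ w ∈ D 0, (g : Matrix (Fin m ⊕ Fin m) (Fin m ⊕ Fin m) F) *ᵥ w ∈ D 0) →
      (∀ w ∈ D 1, (g : Matrix (Fin m ⊕ Fin m) (Fin m ⊕ Fin m) F) *ᵥ w ∈ D 1) →
      g ∈ Cfsg.Geo.decompositionStabilizer D := by
    intro g h0 h1
    rw [mem_decompositionStabilizer_iff]
    refine ⟨1, fun i => ?_⟩
    fin_cases i
    · exact glMap_eq_of_forall_mem g _ _ h0 rfl
    · exact glMap_eq_of_forall_mem g _ _ h1 rfl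
  have memStab' : ∀ g : GL (Fin m ⊕ Fin m) F,
      (∀ w ∈ D 0, (g : Matrix (Fin m ⊕ Fin m) (Fin m ⊕ Fin m) F) *ᵥ w ∈ D 1) →
      (∀ w ∈ D 1, (g : Matrix (Fin m ⊕ Fin m) (Fin m ⊕ Fin m) F) *ᵥ w ∈ D 0) →
      g ∈ Cfsg.Geo.decompositionStabilizer D := by
    intro g h0 h1
    rw [mem_decompositionStabilizer_iff]
    refine ⟨Equiv.swap 0 1, fun i => ?_⟩
    fin_cases i
    · exact glMap_eq_of_forall_mem g _ _ h0 ((hD.finrank_eq _).trans (hD.finrank_eq _).symm)
    · exact glMap_eq_of_forall_mem g _ _ h1 ((hD.finrank_eq _).trans (hD.finrank_eq _).symm)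
  have hLH : ∀ a ∈ D 0, ∀ a' ∈ D 1, Cfsg.sympForm m F a a' = 0 →
      eich a a' ∈ Cfsg.Geo.decompositionStabilizer D ⊓ Cfsg.spGL m F := by
    intro a ha a' ha' haa
    refine ⟨memStab _ ?_ ?_, eich_mem_spGL _ _⟩
    · intro w hw
      rw [eich_mulVec haa, h.ts w hw a ha, zero_smul, add_zero]
      exact (D 0).add_mem hw ((D 0).smul_mem _ ha)
    · intro w hw
      rw [eich_mulVec haa, h.ts' w hw a' ha', zero_smul, add_zero]
      exact (D 1).add_mem hw ((D 1).smul_mem _ ha')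
  obtain ⟨s, hsS, hs0, hs1⟩ := h.exists_swap
  refine ⟨lt_of_le_of_ne inf_le_right ?_, ?_⟩
  · intro heq
    obtain ⟨w, hw, -, hw0⟩ := exists_mem_ker_notMem (D 0) ⊥ (k := 0) (fun i => i.elim0)
      (by simp; omega)
    have hw0' : w ≠ 0 := by simpa using hw0
    obtain ⟨w', hw', -, hww⟩ := h.exists_dual ⊥ bot_le hw hw0
    have hw'0 : w' ≠ 0 := by
      rintro rfl
      rw [Cfsg.Agent.H5Symp.form_zero_right] at hww
      exact zero_ne_one hww
    have ht : stv w 1 ∈ Cfsg.Geo.decompositionStabilizer D ⊓ Cfsg.spGL m F := by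
      rw [heq]; exact stv_mem_spGL w 1
    obtain ⟨σ, hσ⟩ := (mem_decompositionStabilizer_iff D _).mp ht.1
    have h1 := mulVec_mem_glMap (stv w 1) (D 1) hw'
    rw [hσ 1, stv_mulVec, Cfsg.Agent.H5Symp.form_swap, hww] at h1
    have hcases : σ 1 = 0 ∨ σ 1 = 1 := by
      generalize σ 1 = j
      fin_cases j
      · left; rfl
      · right; rfl
    rcases hcases with hc | hc
    · rw [hc] at h1
      have h3 := ((D 0).add_mem_iff_left ((D 0).smul_mem _ hw)).mp h1
      exact hw'0 (h.disj h3 hw')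
    · rw [hc] at h1
      have h3 := ((D 1).add_mem_iff_right hw').mp h1
      have h4 : w ∈ D 1 := by
        have := (D 1).smul_mem (-1 : F) h3
        simpa using this
      exact hw0' (h.disj hw h4)
  · intro M hHM hMS
    by_cases hSp : Cfsg.spGL m F ≤ M
    · exact Or.inr (le_antisymm hMS hSp)
    left
    apply le_antisymm _ hHM
    intro g hg
    refine ⟨?_, hMS hg⟩
    rcases h.main M h2 (by omega) (by omega) hMS (fun a ha a' ha' haa => hHM (hLH a ha a' ha' haa))
      (hHM ⟨memStab' s hs0 hs1, hsS⟩) hs0 hs1 hSp hg with ⟨h0, h1⟩ | ⟨h0, h1⟩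
    · exact memStab g h0 h1
    · exact memStab' g h0 h1

end Cfsg.Agent.S5649
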