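import Cfsg.Statements.S5650
import Cfsg.Agent.Lib.Helper29.SubfieldSp3
import Cfsg.Agent.Lib.Helper29.MaxConj

set_option autoImplicit false
open Cfsg

namespace Cfsg.Agent.S5650

open Matrix Cfsg.Agent.Lib.Helper29

/-- For a finite field F, a subfield F₀ with |F| = |F₀| ^ r for a prime r, and m ≥ 7, let P be an invertible matrix and ζ a non-zero scalar such that ζ times the standard alternating form takes values in F₀ on the F₀-span of the columns of P. Then the elements of Sp_2m(F) lying in the subfield group of P (the conjugate by P of the product of GL_2m(F₀) with the scalars) form a maximal subgroup of Sp_2m(F). -/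
theorem result {F : Type*} [Field F] [Fintype F] (m : ℕ) (hm : 7 ≤ m) (F₀ : Subfield F) (r : ℕ) (hr : r.Prime) (hcard : Fintype.card F = Nat.card F₀ ^ r) (P : Matrix.GeneralLinearGroup (Fin m ⊕ Fin m) F) (ζ : F) (hζ : ζ ≠ 0) (hP : Cfsg.Geo.IsFormRationalStructure (Cfsg.sympForm m F) F₀ ζ P) : Cfsg.Geo.IsMaximalIn (Cfsg.spGL m F) (Cfsg.Geo.subfieldSubgroup F₀ P ⊓ Cfsg.spGL m F) := by
  have hfin : Module.finrank F₀ F = r := by
    have h1 := Module.natCard_eq_pow_finrank (K := F₀) (V := F)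
    rw [Nat.card_eq_fintype_card, hcard] at h1
    have h2 : 2 ≤ Nat.card F₀ := Finite.one_lt_card
    exact (Nat.pow_right_injective h2 h1).symm
  have hmax := sp_ratGL_isMaximalIn (m := m) F₀ (by omega) (hfin ▸ hr)
  obtain ⟨R, hR, hstd⟩ := exists_std F₀ P ζ hζ hP
  have hstd' : ∀ u v : Fin m ⊕ Fin m → F, Cfsg.sympForm m F u v = ζ⁻¹ * Cfsg.sympForm m F
      ((((P * R)⁻¹ : GL (Fin m ⊕ Fin m) F) : Matrix (Fin m ⊕ Fin m) (Fin m ⊕ Fin m) F) *ᵥ u)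
      ((((P * R)⁻¹ : GL (Fin m ⊕ Fin m) F) : Matrix (Fin m ⊕ Fin m) (Fin m ⊕ Fin m) F) *ᵥ v) := by
    intro u v
    have h1 := hstd
      ((((P * R)⁻¹ : GL (Fin m ⊕ Fin m) F) : Matrix (Fin m ⊕ Fin m) (Fin m ⊕ Fin m) F) *ᵥ u)
      ((((P * R)⁻¹ : GL (Fin m ⊕ Fin m) F) : Matrix (Fin m ⊕ Fin m) (Fin m ⊕ Fin m) F) *ᵥ v)
    rw [gl_mulVec_inv, gl_mulVec_inv] at h1
    rw [← h1, inv_mul_cancel_left₀ hζ]
  have hL : ∀ x : GL (Fin m ⊕ Fin m) F, x ∈ Cfsg.spGL m F ↔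
      (P * R) * x * (P * R)⁻¹ ∈ Cfsg.spGL m F := by
    intro x
    rw [mem_spGL_iff, mem_spGL_iff]
    constructor
    · intro hx u v
      rw [gl_mul_mulVec, gl_mul_mulVec, gl_mul_mulVec (P * R * x), gl_mul_mulVec (P * R) x]
      have h1 := hstd ((x : Matrix (Fin m ⊕ Fin m) (Fin m ⊕ Fin m) F) *ᵥ
        ((((P * R)⁻¹ : GL (Fin m ⊕ Fin m) F) : Matrix (Fin m ⊕ Fin m) (Fin m ⊕ Fin m) F) *ᵥ u))
        ((x : Matrix (Fin m ⊕ Fin m) (Fin m ⊕ Fin m) F) *ᵥ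
        ((((P * R)⁻¹ : GL (Fin m ⊕ Fin m) F) : Matrix (Fin m ⊕ Fin m) (Fin m ⊕ Fin m) F) *ᵥ v))
      rw [hx] at h1
      rw [hstd' u v, ← h1, inv_mul_cancel_left₀ hζ]
    · intro hx u v
      have h1 := hx (((P * R : GL (Fin m ⊕ Fin m) F) : Matrix (Fin m ⊕ Fin m) (Fin m ⊕ Fin m) F) *ᵥ u)
        (((P * R : GL (Fin m ⊕ Fin m) F) : Matrix (Fin m ⊕ Fin m) (Fin m ⊕ Fin m) F) *ᵥ v)
      rw [gl_mul_mulVec, gl_mul_mulVec, gl_mul_mulVec (P * R * x), gl_mul_mulVec (P * R) x,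
        gl_inv_mulVec, gl_inv_mulVec] at h1
      rw [← hstd, h1, hstd]
  refine isMaximalIn_conj (P * R) hL ?_ hmax
  intro x
  have hS : x ∈ ratGL (Fin m ⊕ Fin m) F₀ ↔
      (P * R) * x * (P * R)⁻¹ ∈ Cfsg.Geo.subfieldSubgroup F₀ P := by
    unfold Cfsg.Geo.subfieldSubgroup
    rw [Subgroup.mem_map]
    constructor
    · intro hx
      refine ⟨R * x * R⁻¹, Subgroup.mul_mem _ (Subgroup.mul_mem _ hR hx) (Subgroup.inv_mem _ hR), ?_⟩
      show P * (R * x * R⁻¹) * P⁻¹ = _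
      group
    · rintro ⟨y, hy, hyx⟩
      have h1 : P * y * P⁻¹ = (P * R) * x * (P * R)⁻¹ := hyx
      have h2 : x = R⁻¹ * y * R := by
        have : y = R * x * R⁻¹ := by
          have h3 : y = P⁻¹ * (P * y * P⁻¹) * P := by group
          rw [h3, h1]; group
        rw [this]; group
      rw [h2]
      exact Subgroup.mul_mem _ (Subgroup.mul_mem _ (Subgroup.inv_mem _ hR) hy) hR
  rw [Subgroup.mem_inf, Subgroup.mem_inf, hS, hL]

end Cfsg.Agent.S5650
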