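import Cfsg.Statements.S5652
import Cfsg.Agent.Lib.Helper29.SpNondeg

set_option autoImplicit false
open Cfsg

namespace Cfsg.Agent.S5652


open Matrix Module Cfsg.Agent.Lib.Helper29
open Cfsg.Agent.H5Symp (form_add_left form_add_right form_smul_left form_smul_right form_neg_left
  form_neg_right form_sub_left form_sub_right form_zero_left form_zero_right form_swap form_self)

section aux

variable {m : ℕ} {F : Type*} [Field F]

local notation "Vm" => (Fin m ⊕ Fin m → F)
local notation "B" => Cfsg.sympForm m F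

theorem le_finrank_perp (W : Submodule F Vm) : 2 * m ≤ finrank F W + finrank F (perp W) := by
  let φ : Vm →ₗ[F] Dual F W := (Submodule.dualRestrict W) ∘ₗ formMap
  have hker : LinearMap.ker φ = perp W := by
    ext z
    rw [LinearMap.mem_ker, mem_perp]
    constructor
    · intro h a ha
      have : φ z ⟨a, ha⟩ = 0 := by rw [h]; rfl
      exact this
    · intro h
      ext ⟨a, ha⟩
      exact h a ha
  have h1 := LinearMap.finrank_range_add_finrank_ker φ
  have h2 : finrank F (LinearMap.range φ) ≤ finrank F W := by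
    calc _ ≤ finrank F (Dual F W) := Submodule.finrank_le _
      _ = finrank F W := Subspace.dual_finrank_eq
  rw [hker, Module.finrank_fintype_fun_eq_card] at h1
  simp at h1
  omega

variable {Q : (Fin m ⊕ Fin m → F) → F}
  (hadd : ∀ u v : Fin m ⊕ Fin m → F, Q (u + v) = Q u + Q v + Cfsg.sympForm m F u v)
  (hsm : ∀ (c : F) (v : Fin m ⊕ Fin m → F), Q (c • v) = c ^ 2 * Q v)
  (hsq : ∀ a : F, ∃ s : F, s ^ 2 = a)

include hadd in
theorem exists_nonsing (A : Submodule F Vm) (hA : finrank F A < m) :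
    ∃ y : Vm, (∀ a ∈ A, B a y = 0) ∧ Q y ≠ 0 := by
  have h1 := le_finrank_perp A
  have h2 : ¬ perp A ≤ A := fun h => by
    have := Submodule.finrank_mono h
    omega
  obtain ⟨a, ha, haA⟩ := SetLike.not_le_iff_exists.mp h2
  obtain ⟨b, hb, hab⟩ := exists_perp_form_eq_one A haA
  by_cases h3 : Q a = 0
  · by_cases h4 : Q b = 0
    · refine ⟨a + b, ?_, ?_⟩
      · intro x hx; rw [form_add_right, ha x hx, hb x hx, add_zero]
      · rw [hadd, h3, h4, hab]; simp
    · exact ⟨b, hb, h4⟩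
  · exact ⟨a, ha, h3⟩

include hadd hsm hsq in
theorem exists_Q_eq (A : Submodule F Vm) (hA : finrank F A < m) (t : F) :
    ∃ y : Vm, (∀ a ∈ A, B a y = 0) ∧ Q y = t := by
  obtain ⟨y, hy, hQ⟩ := exists_nonsing hadd A hA
  obtain ⟨s, hs⟩ := hsq (t / Q y)
  refine ⟨s • y, fun a ha => by rw [form_smul_right, hy a ha, mul_zero], ?_⟩
  rw [hsm, hs]; field_simp

include hadd hsm hsq in
theorem exists_Q_eq3 (hm : 3 < m) (a b c : Vm) (t : F) :
    ∃ y : Vm, B a y = 0 ∧ B b y = 0 ∧ B c y = 0 ∧ Q y = t := by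
  have h := finrank_range_le_card (R := F) ![a, b, c]
  have h' : finrank F (Submodule.span F (Set.range ![a, b, c])) < m := by
    have : finrank F (Submodule.span F (Set.range ![a, b, c])) ≤ 3 := by
      have h2 : Fintype.card (Fin 3) = 3 := by simp
      rw [h2] at h
      exact h
    omega
  obtain ⟨y, hy, hQ⟩ := exists_Q_eq hadd hsm hsq _ h' t
  exact ⟨y, hy _ (Submodule.subset_span ⟨0, rfl⟩), hy _ (Submodule.subset_span ⟨1, rfl⟩),
    hy _ (Submodule.subset_span ⟨2, rfl⟩), hQ⟩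

include hadd hsm in
theorem Q_stv (u x : Vm) (d : F) :
    Q ((stv u d : Matrix _ _ F) *ᵥ x) = Q x + (B x u) ^ 2 * (d * (1 + d * Q u)) := by
  rw [stv_mulVec, hadd, hsm, form_smul_right]; ring

include hadd in
theorem move_of_ne [CharP F 2] {M : Subgroup (GL (Fin m ⊕ Fin m) F)} (hM : M ≤ Cfsg.spGL m F)
    (hHM : ∀ u : Vm, Q u ≠ 0 → stv u (Q u)⁻¹ ∈ M) {w w' : Vm} (hQ : Q w = Q w')
    (hB : B w w' ≠ 0) {c : F} (h : stv w c ∈ M) : stv w' c ∈ M := by
  have h1 : Q (w + w') = B w w' := by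
    rw [hadd, hQ, CharTwo.add_self_eq_zero, zero_add]
  have h2 := hHM (w + w') (by rw [h1]; exact hB)
  have h3 : (stv (w + w') (Q (w + w'))⁻¹ : Matrix _ _ F) *ᵥ w = w' := by
    rw [stv_mulVec, h1, form_add_right, form_self, zero_add, inv_mul_cancel₀ hB, one_smul]
    funext i
    simp only [Pi.add_apply]
    rw [← add_assoc, CharTwo.add_self_eq_zero, zero_add]
  have h4 := conj_stv (hM h2) w c
  rw [h3] at h4
  rw [← h4]
  exact M.mul_mem (M.mul_mem h2 h) (M.inv_mem h2)

include hadd hsm hsq in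
theorem move [CharP F 2] (hm : 3 < m) {M : Subgroup (GL (Fin m ⊕ Fin m) F)}
    (hM : M ≤ Cfsg.spGL m F)
    (hHM : ∀ u : Vm, Q u ≠ 0 → stv u (Q u)⁻¹ ∈ M) {w w' : Vm} (hw : w ≠ 0) (hw' : w' ≠ 0)
    (hQ : Q w = Q w') {c : F} (h : stv w c ∈ M) : stv w' c ∈ M := by
  by_cases hB : B w w' = 0
  · obtain ⟨z, -, hz1, hz2⟩ := exists_both_ne_zero (⊤ : Submodule F Vm) (formDual w) (formDual w')
        (by
          obtain ⟨y, hy⟩ := exists_form_ne_zero hw
          exact ⟨y, trivial, by rw [formDual_apply, form_swap]; exact neg_ne_zero.mpr hy⟩)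
        (by
          obtain ⟨y, hy⟩ := exists_form_ne_zero hw'
          exact ⟨y, trivial, by rw [formDual_apply, form_swap]; exact neg_ne_zero.mpr hy⟩)
    rw [formDual_apply] at hz1 hz2
    obtain ⟨y, hy1, hy2, hy3, hy4⟩ := exists_Q_eq3 hadd hsm hsq hm w w' z (Q w + Q z)
    have hQ'' : Q (z + y) = Q w := by
      rw [hadd, hy4, hy3, add_zero, add_comm (Q w), ← add_assoc, CharTwo.add_self_eq_zero, zero_add]
    have h1 : stv (z + y) c ∈ M := by
      refine move_of_ne hadd hM hHM hQ''.symm ?_ h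
      rw [form_add_right, hy1, add_zero, form_swap]
      exact neg_ne_zero.mpr hz1
    refine move_of_ne hadd hM hHM (hQ''.trans hQ) ?_ h1
    rw [form_add_left, form_swap y, hy2, neg_zero, add_zero]
    exact hz2
  · exact move_of_ne hadd hM hHM hQ hB h

include hadd hsm hsq in
theorem all_stv [CharP F 2] (hm : 3 < m) {M : Subgroup (GL (Fin m ⊕ Fin m) F)}
    (hM : M ≤ Cfsg.spGL m F)
    (hHM : ∀ u : Vm, Q u ≠ 0 → stv u (Q u)⁻¹ ∈ M) {u : Vm} (hu : u ≠ 0) {d : F}
    (hud : stv u d ∈ M) (he : d * (1 + d * Q u) ≠ 0) (w : Vm) (c : F) : stv w c ∈ M := by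
  -- independence of the vector
  have key : ∀ w w' : Vm, w ≠ 0 → w' ≠ 0 → ∀ c : F, stv w c ∈ M → stv w' c ∈ M := by
    intro w w' hw hw' c h
    by_cases hQ : Q w = Q w'
    · exact move hadd hsm hsq hm hM hHM hw hw' hQ h
    · obtain ⟨β, hβ⟩ := hsq ((Q w + Q w') / (d * (1 + d * Q u)))
      have hβ0 : β ≠ 0 := by
        rintro rfl
        have h0 : (Q w + Q w') / (d * (1 + d * Q u)) = 0 := by rw [← hβ]; ring
        rw [div_eq_zero_iff] at h0
        rcases h0 with h0 | h0
        · exact hQ (CharTwo.add_eq_zero.mp h0)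
        · exact he h0
      obtain ⟨z₀, hz₀⟩ := exists_form_ne_zero hu
      set z : Vm := (- β / B u z₀) • z₀ with hz
      have hzu : B z u = β := by
        have hz₀' : B z₀ u ≠ 0 := by rw [form_swap]; exact neg_ne_zero.mpr hz₀
        rw [hz, form_smul_left, form_swap u z₀]; field_simp
      obtain ⟨y, hy1, hy2, -, hy4⟩ := exists_Q_eq3 hadd hsm hsq hm u z 0 (Q w + Q z)
      have hQ1 : Q (z + y) = Q w := by
        rw [hadd, hy4, hy2, add_zero, add_comm (Q w), ← add_assoc, CharTwo.add_self_eq_zero,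
          zero_add]
      have hB1 : B (z + y) u = β := by
        rw [form_add_left, hzu, form_swap y, hy1, neg_zero, add_zero]
      have hne1 : z + y ≠ 0 := by
        intro h0
        rw [h0, form_zero_left] at hB1
        exact hβ0 hB1.symm
      have h1 : stv (z + y) c ∈ M := move hadd hsm hsq hm hM hHM hw hne1 hQ1.symm h
      have h2 : stv ((stv u d : Matrix _ _ F) *ᵥ (z + y)) c ∈ M := by
        rw [← conj_stv (hM hud)]
        exact M.mul_mem (M.mul_mem hud h1) (M.inv_mem hud)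
      have hQ2 : Q ((stv u d : Matrix _ _ F) *ᵥ (z + y)) = Q w' := by
        rw [Q_stv hadd hsm, hQ1, hB1, hβ, div_mul_cancel₀ _ he, ← add_assoc,
          CharTwo.add_self_eq_zero, zero_add]
      have hne2 : (stv u d : Matrix (Fin m ⊕ Fin m) (Fin m ⊕ Fin m) F) *ᵥ (z + y) ≠ 0 := by
        intro h0
        apply hne1
        have := gl_inv_mulVec (stv u d) (z + y)
        rw [h0, Matrix.mulVec_zero] at this
        exact this.symm
      exact move hadd hsm hsq hm hM hHM hne2 hw' hQ2 h2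
  by_cases hw : w = 0
  · rw [hw, stv_zero]; exact M.one_mem
  by_cases hc : c = 0
  · have : stv w c = 1 := by
      apply gl_ext; intro x; rw [stv_mulVec, hc]; simp
    rw [this]; exact M.one_mem
  obtain ⟨y, -, -, -, hy⟩ := exists_Q_eq3 hadd hsm hsq hm 0 0 0 c⁻¹
  have hy0 : Q y ≠ 0 := by rw [hy]; exact inv_ne_zero hc
  have hyne : y ≠ 0 := by
    rintro rfl
    apply hy0
    have := hsm 0 0
    simpa using this
  have h1 := hHM y hy0
  rw [hy, inv_inv] at h1
  exact key y w hyne hw c h1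

end aux

/-- For a finite field F of characteristic two and m ≥ 7, let Q be a non-degenerate quadratic form on F^(2m) whose polar form is the standard alternating form. Then the elements of Sp_2m(F) that are similarities of Q (they are exactly the isometries of Q) form a maximal subgroup of Sp_2m(F). -/
theorem result {F : Type*} [Field F] [Fintype F] (m : ℕ) (hm : 7 ≤ m) (heven : ¬ Odd (Fintype.card F)) (Q : (Fin m ⊕ Fin m → F) → F) (hQ : Cfsg.Geo.IsNondegenerateQuadraticForm Q) (hpol : ∀ u v, QuadraticMap.polar Q u v = Cfsg.sympForm m F u v) : Cfsg.Geo.IsMaximalIn (Cfsg.spGL m F) (Cfsg.Geo.quadSimilarityGroup Q ⊓ Cfsg.spGL m F) := by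
  have hadd : ∀ u v : Fin m ⊕ Fin m → F, Q (u + v) = Q u + Q v + Cfsg.sympForm m F u v := by
    intro u v
    rw [← hpol u v, QuadraticMap.polar]; ring
  have hsm := hQ.smul
  have hchar : ringChar F = 2 := by
    rw [FiniteField.even_card_iff_char_two]
    exact Nat.even_iff.mp (Nat.not_odd_iff_even.mp heven)
  have hcp : CharP F 2 := by
    rw [← hchar]; exact ringChar.charP F
  have hsq : ∀ a : F, ∃ s : F, s ^ 2 = a := by
    intro a
    obtain ⟨s, hs⟩ := FiniteField.isSquare_of_char_two hchar a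
    exact ⟨s, by rw [hs]; ring⟩
  have hm3 : 3 < m := by omega
  have hH : ∀ u : Fin m ⊕ Fin m → F, Q u ≠ 0 →
      stv u (Q u)⁻¹ ∈ Cfsg.Geo.quadSimilarityGroup Q ⊓ Cfsg.spGL m F := by
    intro u hu
    refine ⟨⟨1, fun v => ?_⟩, stv_mem_spGL _ _⟩
    rw [Q_stv hadd hsm, inv_mul_cancel₀ hu, CharTwo.add_self_eq_zero]
    simp
  -- elements of H are isometries
  have hiso : ∀ g ∈ Cfsg.Geo.quadSimilarityGroup Q ⊓ Cfsg.spGL m F,
      ∀ v, Q ((g : Matrix _ _ F) *ᵥ v) = Q v := by
    rintro g ⟨⟨c, hc⟩, hg⟩ v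
    obtain ⟨y, -, -, -, hy⟩ := exists_Q_eq3 hadd hsm hsq hm3 0 0 0 1
    have hyne : y ≠ 0 := by
      rintro rfl
      have := hsm 0 0
      rw [zero_smul, hy] at this
      simp at this
    obtain ⟨z, hz⟩ := exists_form_ne_zero hyne
    have h1 := hadd ((g : Matrix _ _ F) *ᵥ y) ((g : Matrix _ _ F) *ᵥ z)
    rw [← Matrix.mulVec_add, hc, hc, hc, hadd, (mem_spGL_iff g).mp hg] at h1
    have h2 : ((c : F) - 1) * Cfsg.sympForm m F y z = 0 := by linear_combination h1
    have h3 : (c : F) = 1 := by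
      rcases mul_eq_zero.mp h2 with h | h
      · exact sub_eq_zero.mp h
      · exact absurd h hz
    rw [hc, h3, one_mul]
  refine ⟨lt_of_le_of_ne inf_le_right ?_, ?_⟩
  · intro heq
    -- a singular non-zero vector
    obtain ⟨y₁, -, -, -, hy₁⟩ := exists_Q_eq3 hadd hsm hsq hm3 0 0 0 1
    have hy₁ne : y₁ ≠ 0 := by
      rintro rfl
      have := hsm 0 0
      rw [zero_smul, hy₁] at this
      simp at this
    obtain ⟨z, hz⟩ := exists_form_ne_zero hy₁ne
    obtain ⟨y₂, h21, h22, -, hy₂⟩ := exists_Q_eq3 hadd hsm hsq hm3 y₁ z 0 1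
    have hu0 : y₁ + y₂ ≠ 0 := by
      intro h0
      apply hz
      have : y₁ = y₂ := by
        funext i
        have := congrFun h0 i
        simp only [Pi.add_apply, Pi.zero_apply] at this
        exact CharTwo.add_eq_zero.mp this
      rw [this, form_swap, h22, neg_zero]
    have hQu : Q (y₁ + y₂) = 0 := by
      rw [hadd, hy₁, hy₂, h21, add_zero, CharTwo.add_self_eq_zero]
    have h1 : stv (y₁ + y₂) 1 ∈ Cfsg.spGL m F := stv_mem_spGL _ _
    rw [← heq] at h1
    obtain ⟨x, hx⟩ := exists_form_ne_zero hu0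
    have h2 := hiso _ h1 x
    rw [Q_stv hadd hsm, hQu] at h2
    have h3 : (Cfsg.sympForm m F x (y₁ + y₂)) ^ 2 = 0 := by
      have : Q x + (Cfsg.sympForm m F x (y₁ + y₂)) ^ 2 * (1 * (1 + 1 * 0)) = Q x := h2
      linear_combination this
    apply hx
    rw [form_swap, pow_eq_zero_iff (two_ne_zero) |>.mp h3, neg_zero]
  · intro M hHM hMS
    by_cases hMH : M ≤ Cfsg.Geo.quadSimilarityGroup Q
    · left
      exact le_antisymm (le_inf hMH hMS) hHM
    · right
      obtain ⟨g, hg, hgQ⟩ := SetLike.not_le_iff_exists.mp hMH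
      have hgS := (mem_spGL_iff g).mp (hMS hg)
      obtain ⟨v, hv⟩ : ∃ v, Q ((g : Matrix _ _ F) *ᵥ v) ≠ Q v := by
        by_contra hcon
        push Not at hcon
        exact hgQ ⟨1, fun v => by rw [hcon v]; simp⟩
      -- a non-singular such vector
      obtain ⟨v', hv', hQv'⟩ : ∃ v, Q ((g : Matrix _ _ F) *ᵥ v) ≠ Q v ∧ Q v ≠ 0 := by
        by_cases h0 : Q v = 0
        · obtain ⟨y, hy1, -, -, hy⟩ := exists_Q_eq3 hadd hsm hsq hm3 v 0 0 1
          by_cases h1 : Q ((g : Matrix _ _ F) *ᵥ y) = Q y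
          · refine ⟨v + y, ?_, ?_⟩
            · rw [Matrix.mulVec_add, hadd, hadd, hgS, h1]
              intro h2
              exact hv (by linear_combination h2)
            · rw [hadd, h0, hy, hy1]; simp
          · exact ⟨y, h1, by rw [hy]; exact one_ne_zero⟩
        · exact ⟨v, hv, h0⟩
      have hv'0 : v' ≠ 0 := by
        rintro rfl
        apply hQv'
        have := hsm 0 0
        simpa using this
      have hu : (g : Matrix (Fin m ⊕ Fin m) (Fin m ⊕ Fin m) F) *ᵥ v' ≠ 0 := by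
        intro h0
        apply hv'0
        have := gl_inv_mulVec g v'
        rw [h0, Matrix.mulVec_zero] at this
        exact this.symm
      have hud : stv ((g : Matrix _ _ F) *ᵥ v') (Q v')⁻¹ ∈ M := by
        rw [← conj_stv (hMS hg)]
        exact M.mul_mem (M.mul_mem hg (hHM (hH v' hQv'))) (M.inv_mem hg)
      have he : (Q v')⁻¹ * (1 + (Q v')⁻¹ * Q ((g : Matrix _ _ F) *ᵥ v')) ≠ 0 := by
        apply mul_ne_zero (inv_ne_zero hQv')
        intro h0
        apply hv'
        have h1 : (Q v')⁻¹ * Q ((g : Matrix _ _ F) *ᵥ v') = 1 := (CharTwo.add_eq_zero.mp h0).symm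
        field_simp at h1
        exact h1
      exact le_antisymm hMS (spGL_le_of_stv M
        (fun w c => all_stv hadd hsm hsq hm3 hMS (fun u hu => hHM (hH u hu)) hu hud he w c))

end Cfsg.Agent.S5652
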