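import Cfsg.Statements.S5657
import Cfsg.Agent.Lib.Helper29.SuPair2
import Cfsg.Agent.Lib.Helper29.Decomp

set_option autoImplicit false
open Cfsg

namespace Cfsg.Agent.S5657

open Matrix Cfsg.Agent.Lib.Helper29

/-- Let F be the field with q² elements and n = 2k ≥ 13. Let D be a decomposition of F^n into two complementary subspaces of dimension k on each of which the standard unitary form vanishes identically. Then the elements of SU_n(q) preserving or interchanging the two subspaces form a maximal subgroup of SU_n(q). -/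
theorem result {F : Type*} [Field F] [Fintype F] (n q : ℕ) (hF : Fintype.card F = q ^ 2) (hn : 13 ≤ n) (k : ℕ) (hk : 2 * k = n) (D : Fin 2 → Submodule F (Fin n → F)) (hD : Cfsg.Geo.IsMDecomposition k D) (hts : ∀ i, Cfsg.Geo.IsTotallySingularFor (Cfsg.hermForm n F q) (D i)) : Cfsg.Geo.IsMaximalIn (Cfsg.GU n F q ⊓ Cfsg.Geo.specialLinear (Fin n) F) (Cfsg.Geo.decompositionStabilizer D ⊓ (Cfsg.GU n F q ⊓ Cfsg.Geo.specialLinear (Fin n) F)) := by
  have hsup : D 0 ⊔ D 1 = ⊤ := by
    apply le_antisymm le_top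
    rw [← hD.iSup_eq_top]
    apply iSup_le
    intro i
    fin_cases i
    · exact le_sup_left
    · exact le_sup_right
  have h : UPair q (D 0) (D 1) := by
    refine ⟨hF, hts 0, hts 1, fun v => ?_⟩
    have hv : v ∈ D 0 ⊔ D 1 := by rw [hsup]; trivial
    obtain ⟨w, hw, w', hw', e⟩ := Submodule.mem_sup.mp hv
    exact ⟨w, hw, w', hw', e.symm⟩
  have hf0 := hD.finrank_eq 0
  have hf1 := hD.finrank_eq 1
  have memStab : ∀ g : GL (Fin n) F,
      (∀ w ∈ D 0, (g : Matrix (Fin n) (Fin n) F) *ᵥ w ∈ D 0) →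
      (∀ w ∈ D 1, (g : Matrix (Fin n) (Fin n) F) *ᵥ w ∈ D 1) →
      g ∈ Cfsg.Geo.decompositionStabilizer D := by
    intro g h0 h1
    rw [mem_decompositionStabilizer_iff]
    refine ⟨1, fun i => ?_⟩
    fin_cases i
    · exact glMap_eq_of_forall_mem g _ _ h0 rfl
    · exact glMap_eq_of_forall_mem g _ _ h1 rfl
  have memStab' : ∀ g : GL (Fin n) F,
      (∀ w ∈ D 0, (g : Matrix (Fin n) (Fin n) F) *ᵥ w ∈ D 1) →
      (∀ w ∈ D 1, (g : Matrix (Fin n) (Fin n) F) *ᵥ w ∈ D 0) →
      g ∈ Cfsg.Geo.decompositionStabilizer D := by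
    intro g h0 h1
    rw [mem_decompositionStabilizer_iff]
    refine ⟨Equiv.swap 0 1, fun i => ?_⟩
    fin_cases i
    · exact glMap_eq_of_forall_mem g _ _ h0 ((hD.finrank_eq _).trans (hD.finrank_eq _).symm)
    · exact glMap_eq_of_forall_mem g _ _ h1 ((hD.finrank_eq _).trans (hD.finrank_eq _).symm)
  obtain ⟨s, hsS, hs0, hs1⟩ := h.exists_swap
  refine ⟨lt_of_le_of_ne inf_le_right ?_, ?_⟩
  · intro heq
    obtain ⟨w, hw, -, hw0⟩ := exists_mem_ker_notMem (D 0) ⊥ (k := 0) (fun i => i.elim0)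
      (by simp; omega)
    have hw0' : w ≠ 0 := by simpa using hw0
    obtain ⟨w', hw', -, hww⟩ := h.exists_dual ⊥ bot_le hw hw0
    have hq : q ≠ 0 := by have := Cfsg.Agent.H6.q_pos hF; omega
    have hw'0 : w' ≠ 0 := by
      rintro rfl
      rw [herm_zero_right hq] at hww
      exact zero_ne_one hww
    obtain ⟨θ, hθ0, hθ⟩ := exists_trace_zero hF
    have ht : utv q w θ (h.ts w hw w hw) ∈ Cfsg.Geo.decompositionStabilizer D ⊓
        (Cfsg.GU n F q ⊓ Cfsg.Geo.specialLinear (Fin n) F) := by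
      rw [heq]; exact utv_mem_SU hF w θ _ hθ
    obtain ⟨σ, hσ⟩ := (mem_decompositionStabilizer_iff D _).mp ht.1
    have h1 := mulVec_mem_glMap (utv q w θ (h.ts w hw w hw)) (D 1) hw'
    have hw'w : Cfsg.hermForm n F q w' w = 1 := by
      rw [← Cfsg.Agent.H6.hermForm_conj hF, hww, one_pow]
    rw [hσ 1, utv_mulVec, hw'w, mul_one] at h1
    have hcases : σ 1 = 0 ∨ σ 1 = 1 := by
      generalize σ 1 = j
      fin_cases j
      · left; rfl
      · right; rfl
    rcases hcases with hc | hc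
    · rw [hc] at h1
      have h3 := ((D 0).add_mem_iff_left ((D 0).smul_mem _ hw)).mp h1
      exact hw'0 (h.disj h3 hw')
    · rw [hc] at h1
      have h3 := ((D 1).add_mem_iff_right hw').mp h1
      have h4 : w ∈ D 1 := by
        have := (D 1).smul_mem θ⁻¹ h3
        rwa [smul_smul, inv_mul_cancel₀ hθ0, one_smul] at this
      exact hw0' (h.disj hw h4)
  · intro M hHM hMS
    by_cases hSp : Cfsg.GU n F q ⊓ Cfsg.Geo.specialLinear (Fin n) F ≤ M
    · exact Or.inr (le_antisymm hMS hSp)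
    left
    apply le_antisymm _ hHM
    intro g hg
    refine ⟨?_, hMS hg⟩
    rcases h.main M (by omega) (by omega) hMS (fun g hg h0 h1 => hHM ⟨memStab g h0 h1, hg⟩)
      (hHM ⟨memStab' s hs0 hs1, hsS⟩) hs0 hs1 hSp hg with ⟨h0, h1⟩ | ⟨h0, h1⟩
    · exact memStab g h0 h1
    · exact memStab' g h0 h1

end Cfsg.Agent.S5657
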