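import Cfsg.Statements.S5658
import Cfsg.Agent.Lib.Helper29.SuR5

set_option autoImplicit false
open Cfsg

namespace Cfsg.Agent.S5658

open Matrix Cfsg.Agent.Lib.Helper29
open Cfsg.Agent.H6 (add_pow_q pow_q_pow_q neg_pow_q sub_pow_q q_pos hermForm_add_left
  hermForm_smul_left hermForm_smul_right hermForm_add_right hermForm_conj)

/-- Let F be the field with q² elements, n ≥ 13, and F₀ a subfield with |F| = |F₀| ^ r for an odd prime r. Let P be an invertible matrix such that the standard unitary form takes values in F₀ on the F₀-span of the columns of P. Then the elements of SU_n(q) lying in the subfield group of P (the conjugate by P of the product of GL_n(F₀) with the scalars) form a maximal subgroup of SU_n(q). -/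
theorem result {F : Type*} [Field F] [Fintype F] (n q : ℕ) (hF : Fintype.card F = q ^ 2) (hn : 13 ≤ n) (F₀ : Subfield F) (r : ℕ) (hr : r.Prime) (hro : Odd r) (hcard : Fintype.card F = Nat.card F₀ ^ r) (P : Matrix.GeneralLinearGroup (Fin n) F) (hP : Cfsg.Geo.IsFormRationalStructure (Cfsg.hermForm n F q) F₀ 1 P) : Cfsg.Geo.IsMaximalIn (Cfsg.GU n F q ⊓ Cfsg.Geo.specialLinear (Fin n) F) (Cfsg.Geo.subfieldSubgroup F₀ P ⊓ (Cfsg.GU n F q ⊓ Cfsg.Geo.specialLinear (Fin n) F)) := by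
  letI : Fintype F₀ := Fintype.ofFinite F₀
  have hfin : Module.finrank F₀ F = r := by
    have h1 := Module.natCard_eq_pow_finrank (K := F₀) (V := F)
    rw [Nat.card_eq_fintype_card, hcard] at h1
    have h2 : 2 ≤ Nat.card F₀ := Finite.one_lt_card
    exact (Nat.pow_right_injective h2 h1).symm
  have hprime : (Module.finrank F₀ F).Prime := hfin ▸ hr
  have hne2 : Module.finrank F₀ F ≠ 2 := by
    rw [hfin]
    rintro rfl
    exact absurd hro (by decide)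
  have hP' : ∀ x y : Fin n → F₀, Cfsg.hermForm n F q (ratEmb F₀ P x) (ratEmb F₀ P y) ∈ F₀ := by
    intro x y
    have := hP (fun i => (x i : F)) (fun i => (y i : F)) (fun i => (x i).2) (fun i => (y i).2)
    rwa [one_mul] at this
  obtain ⟨q₀, g₀, S⟩ := exists_hRat hF hprime hne2 P hP'
  set e : (Fin n → F₀) → (Fin n → F) := fun x => ratEmb F₀ P ((g₀ : Matrix (Fin n) (Fin n) F₀) *ᵥ x) with he
  have hsurj : ∀ x', ∃ x, e x = ratEmb F₀ P x' := fun x' =>
    ⟨((g₀⁻¹ : GL (Fin n) F₀) : Matrix (Fin n) (Fin n) F₀) *ᵥ x', by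
      show ratEmb F₀ P _ = _
      rw [gl_mulVec_inv]⟩
  have hmemS : ∀ (g : GL (Fin n) F) (c : F), c ≠ 0 →
      (∀ x, ∃ x', (g : Matrix (Fin n) (Fin n) F) *ᵥ e x = c • e x') → g ∈ Cfsg.Geo.subfieldSubgroup F₀ P := by
    intro g c hc h
    apply mem_subfieldSubgroup_of_om P g hc
    intro x
    obtain ⟨x₁, hx₁⟩ := hsurj x
    obtain ⟨x', hx'⟩ := h x₁
    exact ⟨(g₀ : Matrix (Fin n) (Fin n) F₀) *ᵥ x', by rw [← hx₁, hx']⟩
  have hratH : ∀ (u a : Fin n → F₀) (s : F₀),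
      (s : F) + (s : F) ^ q + Cfsg.hermForm n F q (e a) (e a) = 0 →
      UE q (Cfsg.Geo.subfieldSubgroup F₀ P ⊓ (Cfsg.GU n F q ⊓ Cfsg.Geo.specialLinear (Fin n) F))
        (e u) (e a) (s : F) := by
    intro u a s hs hw haw hwa
    refine ⟨hmemS _ 1 one_ne_zero (fun x => ?_), ueich_mem_GU hF _ _ _ hw haw hwa hs, ueich_mem_SL _ _ _ _ _ _⟩
    refine ⟨x + Cfsg.hermForm n F₀ q₀ x u • a
      + (s * Cfsg.hermForm n F₀ q₀ x u - Cfsg.hermForm n F₀ q₀ x a) • u, ?_⟩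
    rw [ueich_mulVec, S.H_e, S.H_e, one_smul, S.e_add, S.e_add, S.e_smul, S.e_smul]
    push_cast
    rfl
  refine ⟨lt_of_le_of_ne inf_le_right ?_, ?_⟩
  · intro heq
    obtain ⟨c, hc⟩ := exists_notMem_subfield hprime
    obtain ⟨u, hu, -, hu2⟩ := S.sing_notMem (Fin.elim0 : Fin 0 → (Fin n → F₀))
      (Fin.elim0 : Fin 0 → (Fin n → F₀)) (by omega)
    have hu0 : u ≠ 0 := S.ne_zero_of_notMem hu2
    obtain ⟨w, w0, w1, w2⟩ := S.sing_notMem ![u] ![u] (by omega)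
    have w10 : Cfsg.hermForm n F₀ q₀ u w = 0 := w1 0
    obtain ⟨d, d1, d2⟩ := S.dual' ![u] w w2
    have d10 : Cfsg.hermForm n F₀ q₀ u d = 0 := d1 0
    obtain ⟨f, hf⟩ := S.dual0 hu0
    have a1 : Cfsg.hermForm n F q (e u) (e u) = 0 := S.H_e_zero hu
    have a2 : Cfsg.hermForm n F q (c • e w) (e u) = 0 := by
      rw [hermForm_smul_left, S.H_e_zero (S.symm₀ w10), mul_zero]
    have a3 := herm_eq_zero_symm hF a2
    have ht : ueich q (e u) (c • e w) 0 a1 a2 a3 ∈ Cfsg.Geo.subfieldSubgroup F₀ P ⊓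
        (Cfsg.GU n F q ⊓ Cfsg.Geo.specialLinear (Fin n) F) := by
      rw [heq]
      refine ⟨ueich_mem_GU hF _ _ _ a1 a2 a3 ?_, ueich_mem_SL _ _ _ _ _ _⟩
      rw [hermForm_smul_left, hermForm_smul_right, S.H_e_zero w0, zero_pow S.hq]
      ring
    obtain ⟨c₁, hc₁, h⟩ := of_mem_subfieldSubgroup_om P _ ht.1
    obtain ⟨x₁', hx₁'⟩ := h ((g₀ : Matrix (Fin n) (Fin n) F₀) *ᵥ u)
    obtain ⟨x₂', hx₂'⟩ := h ((g₀ : Matrix (Fin n) (Fin n) F₀) *ᵥ f)
    obtain ⟨x₁, hx₁⟩ := hsurj x₁'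
    obtain ⟨x₂, hx₂⟩ := hsurj x₂'
    have k1 : c₁ • ((ueich q (e u) (c • e w) 0 a1 a2 a3 : Matrix (Fin n) (Fin n) F) *ᵥ e u) = e x₁ := by
      rw [hx₁]; exact hx₁'
    have k2 : c₁ • ((ueich q (e u) (c • e w) 0 a1 a2 a3 : Matrix (Fin n) (Fin n) F) *ᵥ e f) = e x₂ := by
      rw [hx₂]; exact hx₂'
    rw [ueich_mulVec, a1, a3] at k1
    simp only [zero_smul, mul_zero, sub_zero, add_zero] at k1
    have hx₁0 : x₁ ≠ 0 := by
      rintro rfl
      rw [S.e_zero] at k1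
      exact (smul_ne_zero hc₁ (S.e_ne_zero hu0)) k1
    have hcm : c₁ ∈ F₀ := S.coeff_mem hx₁0 k1
    rw [ueich_mulVec, S.H_e_one (S.symm₁ hf)] at k2
    have h1 := congrArg (fun v => Cfsg.hermForm n F q v (e d)) k2
    simp only [hermForm_smul_left, hermForm_add_left, S.H_e_zero d10, S.H_e_one d2, S.H_e f d,
      S.H_e x₂ d] at h1
    apply hc
    have h3 : c = ((Cfsg.hermForm n F₀ q₀ x₂ d : F₀) : F) / c₁
        - ((Cfsg.hermForm n F₀ q₀ f d : F₀) : F) := by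
      rw [← h1]
      field_simp
      ring
    rw [h3]
    exact F₀.sub_mem (F₀.div_mem (Subtype.mem _) hcm) (Subtype.mem _)
  · intro M hHM hMS
    by_cases hle : M ≤ Cfsg.Geo.subfieldSubgroup F₀ P ⊓
        (Cfsg.GU n F q ⊓ Cfsg.Geo.specialLinear (Fin n) F)
    · exact Or.inl (le_antisymm hle hHM)
    right
    obtain ⟨g, hgM, hgH⟩ := SetLike.not_le_iff_exists.mp hle
    have hgS : g ∉ Cfsg.Geo.subfieldSubgroup F₀ P := fun h => hgH ⟨h, hMS hgM⟩
    have hMU : M ≤ Cfsg.GU n F q := fun x hx => (hMS hx).1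
    apply le_antisymm hMS
    apply S.su_le hn hMU (fun u a s hs hw haw hwa => hHM (hratH u a s hs hw haw hwa)) hgM
    rintro ⟨c, hc, h⟩
    exact hgS (hmemS g c hc h)

end Cfsg.Agent.S5658
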