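import Cfsg.Statements.S5659
import Cfsg.Agent.Lib.Helper29.SuO3

set_option autoImplicit false
open Cfsg

namespace Cfsg.Agent.S5659

open Matrix QuadraticMap Cfsg.Agent.Lib.Helper29
open Cfsg.Agent.H6 (add_pow_q pow_q_pow_q neg_pow_q sub_pow_q q_pos hermForm_add_left
  hermForm_smul_left hermForm_smul_right hermForm_add_right hermForm_conj)

/-- Let F be the field with q² elements, q odd, n ≥ 13, and F₀ the subfield with q elements. Let P be an invertible matrix such that the standard unitary form takes values in F₀ on the F₀-span of the columns of P (so it restricts to a non-degenerate symmetric bilinear form there). Then the elements of SU_n(q) lying in the subfield group of P form a maximal subgroup of SU_n(q). -/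
theorem result {F : Type*} [Field F] [Fintype F] (n q : ℕ) (hF : Fintype.card F = q ^ 2) (hn : 13 ≤ n) (hodd : Odd q) (F₀ : Subfield F) (hcard : Fintype.card F = Nat.card F₀ ^ 2) (P : Matrix.GeneralLinearGroup (Fin n) F) (hP : Cfsg.Geo.IsFormRationalStructure (Cfsg.hermForm n F q) F₀ 1 P) : Cfsg.Geo.IsMaximalIn (Cfsg.GU n F q ⊓ Cfsg.Geo.specialLinear (Fin n) F) (Cfsg.Geo.subfieldSubgroup F₀ P ⊓ (Cfsg.GU n F q ⊓ Cfsg.Geo.specialLinear (Fin n) F)) := by
  have h2 : (2 : F) ≠ 0 := by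
    intro h
    have : CharP F 2 := CharTwo.of_one_ne_zero_of_two_eq_zero one_ne_zero h
    have h3 : ringChar F = 2 := ringChar.eq F 2
    have h4 := FiniteField.even_card_iff_char_two.1 h3
    rw [hF] at h4
    exact (Nat.not_even_iff_odd.2 hodd.pow) (Nat.even_iff.2 h4)
  have h2mem : (2 : F) ∈ F₀ := by
    have : (2 : F) = 1 + 1 := by norm_num
    rw [this]; exact F₀.add_mem F₀.one_mem F₀.one_mem
  have hfix := subfield_fix hF F₀ hcard
  have hfix' : ∀ x : F, x ∈ F₀ → x ^ q = x := fun x hx => (hfix x).mp hx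
  have hP' : ∀ x y : Fin n → F₀, Cfsg.hermForm n F q (ratEmb F₀ P x) (ratEmb F₀ P y) ∈ F₀ := by
    intro x y
    have := hP (fun i => (x i : F)) (fun i => (y i : F)) (fun i => (x i).2) (fun i => (y i).2)
    rwa [one_mul] at this
  have hQ : (polarBilin (quadExt q F₀ P)).Nondegenerate := quadExt_nondeg hF h2 hfix' hcard P hP'
  have hQP : ∀ x, quadExt q F₀ P (ratEmb F₀ P x) ∈ F₀ := by
    intro x
    rw [quadExt_ratEmb hF hfix' P x]
    exact F₀.mul_mem (F₀.inv_mem h2mem) (hP' x x)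
  obtain ⟨θ, hθ0, hθ⟩ := exists_trace_zero hF
  have hθq : θ ^ q = -θ := by linear_combination hθ
  have hθ' : θ ∉ F₀ := by
    intro h
    have h1 := hfix' θ h
    rw [hθq] at h1
    have h3 : (2 : F) * θ = 0 := by linear_combination -h1
    rcases mul_eq_zero.mp h3 with h4 | h4
    · exact h2 h4
    · exact hθ0 h4
  have U : URat n q (quadExt q F₀ P) (ratQ (quadExt q F₀ P) P hQP) (ratEmb F₀ P) θ :=
    { S := ratS hQ P hQP
      hF := hF
      fix := hfix
      herm := fun v x => (polar_quadExt hF h2 hfix' P hP' v x).symm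
      dec := ratEmb_dec hcard P hθ'
      θ0 := hθ0
      θq := hθq
      two := h2 }
  have S := U.S
  have hratH : ∀ u a : Fin n → F₀, UE q (Cfsg.Geo.subfieldSubgroup F₀ P ⊓
      (Cfsg.GU n F q ⊓ Cfsg.Geo.specialLinear (Fin n) F)) (ratEmb F₀ P u) (ratEmb F₀ P a)
      (-((ratQ (quadExt q F₀ P) P hQP a : F₀) : F)) := by
    intro u a hw haw hwa
    refine ⟨mem_subfieldSubgroup_of_om P _ one_ne_zero (fun x => ?_),
      ueich_mem_GU hF _ _ _ hw haw hwa ?_, ueich_mem_SL _ _ _ _ _ _⟩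
    · refine ⟨x + polar (ratQ (quadExt q F₀ P) P hQP) x u • a
        + (-(ratQ (quadExt q F₀ P) P hQP a) * polar (ratQ (quadExt q F₀ P) P hQP) x u
          - polar (ratQ (quadExt q F₀ P) P hQP) x a) • u, ?_⟩
      rw [ueich_mulVec, U.herm_ee, U.herm_ee, one_smul, S.e_add, S.e_add, S.e_smul, S.e_smul]
      push_cast
      rfl
    · rw [neg_pow_q hF, U.coe_pow, U.herm_ee, polar_self]
      push_cast
      simp only [nsmul_eq_mul]
      push_cast
      ring
  refine ⟨lt_of_le_of_ne inf_le_right ?_, ?_⟩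
  · intro heq
    obtain ⟨u, hu, -, hu2⟩ := S.sing_notMem (Fin.elim0 : Fin 0 → (Fin n → F₀))
      (Fin.elim0 : Fin 0 → (Fin n → F₀)) (by simp; omega)
    have hu0 : u ≠ 0 := by
      rintro rfl
      apply hu2
      rw [S.e_zero]; exact Submodule.zero_mem _
    obtain ⟨f, hf⟩ := S.dual0 hu0
    have ht : utv q (ratEmb F₀ P u) θ (U.herm_self_zero hu) ∈ Cfsg.Geo.subfieldSubgroup F₀ P ⊓
        (Cfsg.GU n F q ⊓ Cfsg.Geo.specialLinear (Fin n) F) := by
      rw [heq]
      exact utv_mem_SU hF _ _ _ hθ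
    obtain ⟨c, hc, h⟩ := of_mem_subfieldSubgroup_om P _ ht.1
    obtain ⟨x₁, hx₁⟩ := h u
    obtain ⟨x₂, hx₂⟩ := h f
    rw [utv_mulVec, U.herm_self_zero hu, mul_zero, zero_smul, add_zero] at hx₁
    rw [utv_mulVec, U.herm_ee, polar_comm, hf] at hx₂
    have hx₁0 : x₁ ≠ 0 := by
      rintro rfl
      rw [S.e_zero] at hx₁
      exact (smul_ne_zero hc (S.e_ne_zero hu0)) hx₁
    have hcm : c ∈ F₀ := S.coeff_mem hx₁0 hx₁
    have h1 := congrArg (fun v => Cfsg.hermForm n F q v (ratEmb F₀ P f)) hx₂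
    simp only [hermForm_smul_left, hermForm_add_left, U.herm_ee, hf] at h1
    push_cast at h1
    apply hθ'
    have h3 : θ = ((polar (ratQ (quadExt q F₀ P) P hQP) x₂ f : F₀) : F) / c
        - ((polar (ratQ (quadExt q F₀ P) P hQP) f f : F₀) : F) := by
      rw [← h1]
      field_simp
      ring
    rw [h3]
    exact F₀.sub_mem (F₀.div_mem (Subtype.mem _) hcm) (Subtype.mem _)
  · intro M hHM hMS
    by_cases hle : M ≤ Cfsg.Geo.subfieldSubgroup F₀ P ⊓
        (Cfsg.GU n F q ⊓ Cfsg.Geo.specialLinear (Fin n) F)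
    · exact Or.inl (le_antisymm hle hHM)
    right
    obtain ⟨g, hgM, hgH⟩ := SetLike.not_le_iff_exists.mp hle
    have hgS : g ∉ Cfsg.Geo.subfieldSubgroup F₀ P := fun h => hgH ⟨h, hMS hgM⟩
    have hMU : M ≤ Cfsg.GU n F q := fun x hx => (hMS hx).1
    apply le_antisymm hMS
    apply U.su_le hn hMU (fun u a hw haw hwa => hHM (hratH u a hw haw hwa)) hgM
    rintro ⟨c, hc, h⟩
    exact hgS (mem_subfieldSubgroup_of_om P g hc h)

end Cfsg.Agent.S5659
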