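import Cfsg.Statements.S5660
import Cfsg.Agent.Lib.Helper29.SpInSU4

set_option autoImplicit false
open Cfsg

namespace Cfsg.Agent.S5660

open Matrix Cfsg.Agent.Lib.Helper29
open Cfsg.Agent.H6 (add_pow_q pow_q_pow_q neg_pow_q sub_pow_q q_pos hermForm_add_left
  hermForm_smul_left hermForm_smul_right hermForm_add_right hermForm_conj)

/-- Let F be the field with q² elements, n ≥ 13 even, and F₀ the subfield with q elements. Let ζ be a non-zero element with ζ + ζ^q = 0 and P an invertible matrix such that ζ times the standard unitary form takes values in F₀ on the F₀-span of the columns of P and the form vanishes on every pair (u, u) of that span (so ζ times the form restricts to a non-degenerate alternating form there). Then the elements of SU_n(q) lying in the subfield group of P form a maximal subgroup of SU_n(q). -/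
theorem result {F : Type*} [Field F] [Fintype F] (n q : ℕ) (hF : Fintype.card F = q ^ 2) (hn : 13 ≤ n) (heven : Even n) (F₀ : Subfield F) (hcard : Fintype.card F = Nat.card F₀ ^ 2) (ζ : F) (hζ0 : ζ ≠ 0) (hζ : ζ + ζ ^ q = 0) (P : Matrix.GeneralLinearGroup (Fin n) F) (hP : Cfsg.Geo.IsFormRationalStructure (Cfsg.hermForm n F q) F₀ ζ P) (halt : ∀ u : Fin n → F, (∀ i, u i ∈ F₀) → Cfsg.hermForm n F q (Matrix.mulVec (P : Matrix (Fin n) (Fin n) F) u) (Matrix.mulVec (P : Matrix (Fin n) (Fin n) F) u) = 0) : Cfsg.Geo.IsMaximalIn (Cfsg.GU n F q ⊓ Cfsg.Geo.specialLinear (Fin n) F) (Cfsg.Geo.subfieldSubgroup F₀ P ⊓ (Cfsg.GU n F q ⊓ Cfsg.Geo.specialLinear (Fin n) F)) := by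
  have D := ratStr_of hF F₀ hcard ζ hζ0 hζ P hP halt
  obtain ⟨k, e, f, hk, B, hre, hrf⟩ := exists_hypB hF F₀ hcard ζ hζ0 hζ P hP halt
  have hratutv : ∀ (u : Fin n → F) (c : F) (hu : RatP F₀ P u), c + c ^ q = 0 →
      utv q u c (D.alt hu) ∈ Cfsg.Geo.subfieldSubgroup F₀ P ⊓
        (Cfsg.GU n F q ⊓ Cfsg.Geo.specialLinear (Fin n) F) := by
    intro u c hu hc
    refine ⟨mem_subfieldSubgroup_of F₀ P _ (fun x hx => ⟨1, _, D.utv_rat hu hc hx, ?_⟩),
      utv_mem_SU hF u c _ hc⟩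
    rw [one_smul]
  have hnk : -ζ⁻¹ + (-ζ⁻¹) ^ q = 0 := by
    rw [neg_pow_q hF]; linear_combination -B.κtr
  refine ⟨lt_of_le_of_ne inf_le_right ?_, ?_⟩
  · -- properness
    intro heq
    obtain ⟨θ, hθ⟩ := exists_pow_q_ne hF
    let i0 : Fin k := ⟨0, by omega⟩
    let i1 : Fin k := ⟨1, by omega⟩
    have h01 : i0 ≠ i1 := by
      intro h
      have := congrArg Fin.val h
      simp [i0, i1] at this
    have hv : Cfsg.hermForm n F q (e i0 + θ • e i1) (e i0 + θ • e i1) = 0 := by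
      simp only [hermForm_add_left, hermForm_add_right hF, hermForm_smul_left, hermForm_smul_right,
        B.ee]
      ring
    have ht : utv q (e i0 + θ • e i1) ζ⁻¹ hv ∈ Cfsg.Geo.subfieldSubgroup F₀ P ⊓
        (Cfsg.GU n F q ⊓ Cfsg.Geo.specialLinear (Fin n) F) := by
      rw [heq]
      exact utv_mem_SU hF _ _ hv B.κtr
    obtain ⟨β, v₀, hv₀, e₁⟩ := of_mem_subfieldSubgroup F₀ P ht.1 (hrf i0)
    rw [utv_mulVec, hermForm_add_right hF, hermForm_smul_right, B.fe_self, B.fe_ne h01, mul_zero,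
      add_zero] at e₁
    have h1 := congrArg (fun x => Cfsg.hermForm n F q x (e i0)) e₁
    have h2 := congrArg (fun x => Cfsg.hermForm n F q x (f i1)) e₁
    simp only [hermForm_add_left, hermForm_smul_left, B.ee, B.fe_self, B.ff, B.ef_self,
      B.ef_ne h01, mul_zero, add_zero, zero_add] at h1 h2
    have hne : Cfsg.hermForm n F q v₀ (e i0) ≠ 0 := by
      intro h0
      rw [h0, mul_zero] at h1
      exact neg_ne_zero.mpr B.κ0 h1
    have hβ : β ∈ F₀ := by
      have : β = -ζ⁻¹ / Cfsg.hermForm n F q v₀ (e i0) := by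
        rw [h1]; field_simp
      rw [this]
      exact D.div_mem hnk (D.form hv₀ (hre i0))
    apply hθ
    rw [← D.fix]
    have h3 : θ = - (β * (Cfsg.hermForm n F q v₀ (f i1) / ζ⁻¹) / (ζ⁻¹ * ζ⁻¹)) := by
      rw [← mul_div_assoc, ← h2]
      have := B.κ0
      field_simp
    rw [h3]
    exact F₀.neg_mem (F₀.div_mem (F₀.mul_mem hβ (D.div_mem (D.form hv₀ (hrf i1)) B.κtr))
      (D.mul_mem B.κtr B.κtr))
  · intro M hHM hMS
    by_cases hle : M ≤ Cfsg.Geo.subfieldSubgroup F₀ P ⊓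
        (Cfsg.GU n F q ⊓ Cfsg.Geo.specialLinear (Fin n) F)
    · exact Or.inl (le_antisymm hle hHM)
    right
    obtain ⟨g, hgM, hgH⟩ := SetLike.not_le_iff_exists.mp hle
    have hgS : g ∉ Cfsg.Geo.subfieldSubgroup F₀ P := fun h => hgH ⟨h, hMS hgM⟩
    obtain ⟨u, hu, hgu⟩ : ∃ u, RatP F₀ P u ∧ ∀ (β : F) (v₀ : Fin n → F), RatP F₀ P v₀ →
        (g : Matrix (Fin n) (Fin n) F) *ᵥ u ≠ β • v₀ := by
      by_contra hcon
      push Not at hcon
      apply hgS
      apply mem_subfieldSubgroup_of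
      intro u hu
      obtain ⟨β, v₀, h1, h2⟩ := hcon u hu
      exact ⟨β, v₀, h1, h2⟩
    have hMU : M ≤ Cfsg.GU n F q := fun x hx => (hMS hx).1
    have hall := D.ucentres_all M hMU (fun u c hu hc => hHM (hratutv u c hu hc)) hgM hu hgu
    have hM : ∀ (v : Fin n → F) (c : F) (hv : Cfsg.hermForm n F q v v = 0), c + c ^ q = 0 →
        utv q v c hv ∈ M := by
      intro v c hv hc
      obtain ⟨_, h⟩ := hall v hv
      exact h c hc
    refine le_antisymm hMS (B.su_le M hMS hM ⟨k - 1, by omega⟩ (by simp; omega) ?_)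
    intro g' hg' l hl0 hl hform
    apply hHM
    refine ⟨mem_subfieldSubgroup_of F₀ P _ (fun x hx => ⟨1, _, ?_, (one_smul _ _).symm⟩), hg'⟩
    rw [hform x]
    have hl' : l ∈ F₀ := (D.fix l).mpr hl
    exact D.add (D.add hx (D.smul (F₀.mul_mem (F₀.sub_mem hl' F₀.one_mem)
      (D.div_mem (D.form hx (hrf _)) B.κtr)) (hre _)))
      (D.smul (F₀.mul_mem (F₀.sub_mem (F₀.inv_mem hl') F₀.one_mem)
      (D.div_mem (D.form hx (hre _)) hnk)) (hrf _))

end Cfsg.Agent.S5660
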