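import Cfsg.Statements.S5665
import Cfsg.Agent.Lib.Helper29.SpGU3

set_option autoImplicit false
open Cfsg

namespace Cfsg.Agent.S5665

open Cfsg.Agent.Lib.Helper29

/-- For a finite field F of odd order and m ≥ 7, let K be a subfield of the algebra of 2m × 2m matrices over F containing the scalars, of degree 2 over F, that is closed under adjoints for the standard alternating form on F^(2m) but whose elements are not all self-adjoint (so the adjoint map induces the automorphism of order two of K). Then the elements of Sp_2m(F) normalising K form a maximal subgroup of Sp_2m(F). -/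
theorem result {F : Type*} [Field F] [Fintype F] (m : ℕ) (hm : 7 ≤ m) (hodd : Odd (Fintype.card F)) (K : Subalgebra F (Matrix (Fin m ⊕ Fin m) (Fin m ⊕ Fin m) F)) (hK : Cfsg.Geo.IsFieldSubalgebra 2 K) (hac : Cfsg.Geo.IsAdjointClosedFor (Cfsg.sympForm m F) K) (hnsa : ¬ Cfsg.Geo.IsSelfAdjointFor (Cfsg.sympForm m F) K) : Cfsg.Geo.IsMaximalIn (Cfsg.spGL m F) (Cfsg.Geo.subalgebraNormalizer K ⊓ Cfsg.spGL m F) := by
  have hm0 : 0 < m := by omega
  have h2 : (2 : F) ≠ 0 := by
    apply Ring.two_ne_zero
    intro hc
    have h3 := FiniteField.even_card_of_char_two hc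
    have h4 := Nat.odd_iff.1 hodd
    omega
  obtain ⟨lam, δ, hlamK, hlam, hspan, S⟩ := exists_sstr hm0 h2 K hK hac hnsa
  refine ⟨lt_of_le_of_ne inf_le_right ?_, ?_⟩
  · intro heq
    obtain ⟨g, hg, hgK⟩ := S.exists_not_normalizer (by omega) K hlamK hspan
    rw [← heq] at hg
    exact hgK hg.1
  · intro M hPM hMS
    by_cases hMP : M ≤ Cfsg.Geo.subalgebraNormalizer K
    · left
      exact le_antisymm (le_inf hMP hMS) hPM
    · right
      obtain ⟨g, hg, hgK⟩ := SetLike.not_le_iff_exists.mp hMP
      apply le_antisymm hMS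
      apply spGL_le_of_stv
      intro v c
      refine S.centres_univ hm h2 hMS ?_ hg ?_ v c
      · intro x hx a
        apply hPM
        exact ⟨mem_normalizer_of_commute K hspan _ (fun v => S.rho_comm hm0 hx a v), rho_mem_spGL _ _ _ _⟩
      · rintro ⟨α, β, h⟩
        exact hgK (mem_normalizer_of_conj K hlamK hlam hspan g α β h)

end Cfsg.Agent.S5665
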