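import Cfsg.Statements.S5682
import Cfsg.Agent.Lib.Helper15.TensorBridge
import Cfsg.Agent.Lib.Helper15.Invol2
import Cfsg.Agent.Lib.Helper15.Std

set_option autoImplicit false
open Cfsg

namespace Cfsg.Agent.S5682


open Matrix QuadraticMap Module Cfsg.Agent.Lib.Helper15

variable {F : Type*} [Field F] [Fintype F]

/-- the quadratic form `u ↦ f u u` -/
noncomputable def qOf {κ : Type} [Fintype κ] [DecidableEq κ] (f : (κ → F) → (κ → F) → F) (hf : Cfsg.Geo.IsBilinearForm f) :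
    QuadraticForm F (κ → F) :=
  LinearMap.BilinMap.toQuadraticMap (LinearMap.mk₂ F f hf.add_left
    (fun c x v => by simpa using hf.smul_left c x v) hf.add_right
    (fun c x v => by simpa using hf.smul_right c x v))

omit [Fintype F] in
theorem qOf_apply {κ : Type} [Fintype κ] [DecidableEq κ] (f : (κ → F) → (κ → F) → F) (hf : Cfsg.Geo.IsBilinearForm f)
    (u : κ → F) : qOf f hf u = f u u := rfl

omit [Fintype F] in
theorem polar_qOf {κ : Type} [Fintype κ] [DecidableEq κ] (f : (κ → F) → (κ → F) → F) (hf : Cfsg.Geo.IsSymmetricForm f)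
    (u v : κ → F) : polar (qOf f hf.bilinear) u v = 2 * f u v := by
  unfold qOf
  rw [LinearMap.BilinMap.polar_toQuadraticMap]
  show f u v + f v u = _
  rw [hf.symm v u]; ring

omit [Fintype F] in
theorem qOf_nd {κ : Type} [Fintype κ] [DecidableEq κ] (h2 : (2 : F) ≠ 0) (f : (κ → F) → (κ → F) → F)
    (hf : Cfsg.Geo.IsSymmetricForm f) (x : κ → F) (h : ∀ y, polar (qOf f hf.bilinear) x y = 0) : x = 0 := by
  by_contra hne
  obtain ⟨-, y, hy⟩ := hf.nondegenerate x hne
  have := h y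
  rw [polar_qOf f hf] at this
  exact hy ((mul_eq_zero.1 this).resolve_left h2)

theorem f3_similitude_three (hq : Fintype.card F = 3) (Q1 : QuadraticForm F (Fin 3 → F))
    (hQ1 : (polarBilin Q1).Nondegenerate) (a : GL (Fin 3) F) (l : F)
    (h : ∀ u, Q1 ((a : Matrix (Fin 3) (Fin 3) F) *ᵥ u) = l * Q1 u) : l = 1 := by
  have h3 := f3_three hq
  let b := Pi.basisFun F (Fin 3)
  let b' := b.map (glEquiv a)
  have e1 := det_gram_map Q1 Q1 (glEquiv a : (Fin 3 → F) →ₗ[F] (Fin 3 → F)) l h b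
  obtain ⟨d, hd, e2⟩ := det_gram_change Q1 b b'
  have e3 : gram Q1 b' = gram Q1 ((glEquiv a : (Fin 3 → F) →ₗ[F] (Fin 3 → F)) ∘ b) := by
    ext i j
    simp [Cfsg.Agent.Lib.Helper15.gram, b']
  rw [e3, e1, Fintype.card_fin] at e2
  have e4 := mul_right_cancel₀ (det_gram_ne_zero Q1 hQ1 b) e2
  rcases f3_cases hq d with rfl | rfl | rfl
  · exact absurd rfl hd
  · rcases f3_cases hq l with rfl | rfl | rfl
    · norm_num at e4
    · rfl
    · exfalso
      have : (2 : F) = 0 := by linear_combination -e4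
      exact f3_two_ne hq this
  · rcases f3_cases hq l with rfl | rfl | rfl
    · norm_num at e4
    · rfl
    · exfalso
      have : (2 : F) = 0 := by linear_combination -e4
      exact f3_two_ne hq this

/-- vectors of the frame norm are frame vectors up to sign -/
theorem f3_frame_cls {V : Type*} [AddCommGroup V] [Module F V] (hq : Fintype.card F = 3) (Q : QuadraticForm F V)
    {k : ℕ} (hk : k ≤ 3) (c : F) (hc : c ≠ 0) (e : Fin k → V) (hQe : ∀ j, Q (e j) = c)
    (ho : ∀ j j', j ≠ j' → polar Q (e j) (e j') = 0) (x : Fin k → F) (hQv : Q (∑ j, x j • e j) = c) :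
    ∃ j, ∃ s : F, ∑ j, x j • e j = s • e j := by
  rw [Q_sum_orth' Q] at hQv
  · have h1 : ∑ j, x j * x j = 1 := by
      have : ∑ j, Q (x j • e j) = (∑ j, x j * x j) * c := by
        rw [Finset.sum_mul]
        apply Finset.sum_congr rfl
        intro j _
        rw [QuadraticMap.map_smul, hQe, smul_eq_mul]
      rw [this] at hQv
      exact mul_right_cancel₀ hc (by rw [hQv, one_mul])
    obtain ⟨j, -, hl⟩ := f3_sum_sq hq hk x h1
    refine ⟨j, x j, ?_⟩
    apply Finset.sum_eq_single j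
    · intro l _ hlj
      rw [hl l hlj, zero_smul]
    · intro h; exact absurd (Finset.mem_univ _) h
  · intro j j' hjj
    rw [polar_smul_left, polar_smul_right, ho j j' hjj]; simp

theorem not_maximal_tensor3 {ι : Type} [Fintype ι] [DecidableEq ι] (hq : Fintype.card F = 3)
    (Q : QuadraticForm F (ι → F)) (hQ : (polarBilin Q).Nondegenerate) (n₂ : ℕ) (hn₂ : 2 ≤ n₂)
    (e : ι ≃ Fin 3 × Fin n₂) (P : GL ι F) (f₁ : (Fin 3 → F) → (Fin 3 → F) → F)
    (f₂ : (Fin n₂ → F) → (Fin n₂ → F) → F) (hf₁ : Cfsg.Geo.IsSymmetricForm f₁) (hf₂ : Cfsg.Geo.IsSymmetricForm f₂)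
    (hT : Cfsg.Geo.IsTensorFormStructure id (polar Q) f₁ f₂ e P) :
    ∃ K : Subgroup (GL ι F), Cfsg.Geo.tensorProductSubgroup 3 n₂ e P ⊓ Cfsg.Geo.omegaGL ⇑Q < K ∧
      K < Cfsg.Geo.omegaGL ⇑Q := by
  have h2 := f3_two_ne hq
  obtain ⟨c, hc, hform⟩ := tensor_form hT hf₁.bilinear hf₂.bilinear
  set Q1 := qOf f₁ hf₁.bilinear with hQ1
  set Q2 := qOf f₂ hf₂.bilinear with hQ2
  have hnd1 : NDOn Q1 ⊤ := fun x _ h => qOf_nd h2 f₁ hf₁ x (fun y => h y trivial)
  have hnd2 : NDOn Q2 ⊤ := fun x _ h => qOf_nd h2 f₂ hf₂ x (fun y => h y trivial)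
  obtain ⟨c1, hc1, ε, -, hQε, hoε⟩ := exists_f3_frame3 Q1 hq ⊤ (by rw [finrank_top, finrank_fintype_fun_eq_card, Fintype.card_fin]) hnd1
  have hfε : ∀ i j, f₁ (ε i) (ε j) = if i = j then c1 else 0 := by
    intro i j
    by_cases hij : i = j
    · subst hij
      rw [if_pos rfl, ← hQε i]; rfl
    · rw [if_neg hij]
      have := hoε i j hij
      rw [hQ1, polar_qOf f₁ hf₁] at this
      exact (mul_eq_zero.1 this).resolve_left h2
  have hcoord := exists_coord_of_frame Q1 h2 ⊤ (by rw [finrank_top, finrank_fintype_fun_eq_card]) ε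
    (fun _ => trivial) (fun i => by rw [hQε]; exact hc1) hoε
  obtain ⟨w₀, -, hw₀⟩ := exists_nonsingular_mem Q2 ⊤ hnd2 (by
    intro h
    have := finrank_top F (Fin n₂ → F)
    rw [h, finrank_bot, finrank_fintype_fun_eq_card, Fintype.card_fin] at this
    omega)
  have hw₀' : f₂ w₀ w₀ ≠ 0 := hw₀
  obtain ⟨w₁, hw₁m, hw₁⟩ : ∃ w₁ ∈ perpIn Q2 ⊤ w₀, w₁ ≠ 0 := by
    apply Submodule.exists_mem_ne_zero_of_ne_bot
    intro h
    have h5 := finrank_perpIn Q2 h2 ⊤ (w := w₀) trivial hw₀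
    rw [h, finrank_bot, finrank_top, finrank_fintype_fun_eq_card, Fintype.card_fin] at h5
    omega
  have h01 : f₂ w₀ w₁ = 0 := by
    have := hw₁m.2
    have h6 : polar Q2 w₀ w₁ = 0 := this
    rw [hQ2, polar_qOf f₂ hf₂] at h6
    exact (mul_eq_zero.1 h6).resolve_left h2
  apply not_maximal_of_three_blocks Q h2 hQ (fun i => tensR e P (ε i)) (fun w w' => c * (c1 * f₂ w w'))
    ?_ ?_ w₀ w₁ (mul_ne_zero hc (mul_ne_zero hc1 hw₀')) hw₁ (by rw [h01]; ring)
  · rintro g ⟨hgT, hgΩ⟩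
    obtain ⟨a, b, hab⟩ := tensor_act e P g hgT
    obtain ⟨g', -, rfl⟩ := (mem_omegaGL _ _).1 hgΩ
    have hpres : ∀ u u' w w', f₁ ((a : Matrix _ _ F) *ᵥ u) ((a : Matrix _ _ F) *ᵥ u')
        * f₂ ((b : Matrix _ _ F) *ᵥ w) ((b : Matrix _ _ F) *ᵥ w') = f₁ u u' * f₂ w w' := by
      intro u u' w w'
      have h7 := polar_act g' (tens e P u w) (tens e P u' w')
      unfold act at h7
      rw [hab, hab, hform, hform] at h7
      exact mul_left_cancel₀ hc h7
    set μ := f₂ ((b : Matrix _ _ F) *ᵥ w₀) ((b : Matrix _ _ F) *ᵥ w₀) with hμ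
    have hμ0 : μ ≠ 0 := by
      intro h0
      have := hpres (ε 0) (ε 0) w₀ w₀
      rw [← hμ, h0, mul_zero, hfε, if_pos rfl] at this
      exact mul_ne_zero hc1 hw₀' this.symm
    have hsim : ∀ u, Q1 ((a : Matrix _ _ F) *ᵥ u) = (f₂ w₀ w₀ / μ) * Q1 u := by
      intro u
      have := hpres u u w₀ w₀
      rw [← hμ] at this
      show f₁ _ _ = _ * f₁ u u
      field_simp
      linear_combination this
    have hl := f3_similitude_three hq Q1 (nondegenerate_of_left _ (fun x hx => qOf_nd h2 f₁ hf₁ x hx)) a _ hsim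
    have hcls : ∀ i, ∃ j, ∃ s : F, (a : Matrix _ _ F) *ᵥ ε i = s • ε j := by
      intro i
      obtain ⟨x, hx⟩ := hcoord ((a : Matrix _ _ F) *ᵥ ε i) trivial
      rw [hx]
      apply f3_frame_cls hq Q1 le_rfl c1 hc1 ε hQε hoε x
      rw [← hx, hsim, hl, one_mul, hQε]
    choose σ s hs using hcls
    refine ⟨σ, s, fun w => (b : Matrix _ _ F) *ᵥ w, fun i w => ?_⟩
    show _ *ᵥ tens e P (ε i) w = s i • tens e P (ε (σ i)) _
    rw [hab, hs, tens_smul_left]
  · intro i j w w'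
    show polar Q (tens e P (ε i) w) (tens e P (ε j) w') = _
    rw [hform, hfε]
    split_ifs <;> simp
  · intro w hw
    by_contra hne
    obtain ⟨-, y, hy⟩ := hf₂.nondegenerate w hne
    exact mul_ne_zero hc (mul_ne_zero hc1 hy) (hw y)


/-- Let F be the field with 3 elements, m ≥ 6, Q the standard quadratic form on F^(2m+1) and Ω the commutator subgroup of its isometry group. Suppose the polar form of Q is similar, through P and e, to the tensor product of non-degenerate symmetric bilinear forms f₁ on F^3 and f₂ on F^(n₂) with 3 < n₂. Then the elements of Ω in the stabiliser of this tensor decomposition form a subgroup that is not maximal: some subgroup lies strictly between it and Ω. -/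
theorem result {F : Type*} [Field F] [Fintype F] (hq : Fintype.card F = 3) (m : ℕ) (hm : 6 ≤ m) (n₂ : ℕ) (h2 : 3 < n₂) (e : (Unit ⊕ (Fin m ⊕ Fin m)) ≃ Fin 3 × Fin n₂) (P : Matrix.GeneralLinearGroup (Unit ⊕ (Fin m ⊕ Fin m)) F) (f₁ : (Fin 3 → F) → (Fin 3 → F) → F) (f₂ : (Fin n₂ → F) → (Fin n₂ → F) → F) (hf₁ : Cfsg.Geo.IsSymmetricForm f₁) (hf₂ : Cfsg.Geo.IsSymmetricForm f₂) (hT : Cfsg.Geo.IsTensorFormStructure id (QuadraticMap.polar (Cfsg.quadFormOdd m F)) f₁ f₂ e P) : ∃ K : Subgroup (Matrix.GeneralLinearGroup (Unit ⊕ (Fin m ⊕ Fin m)) F), Cfsg.Geo.tensorProductSubgroup 3 n₂ e P ⊓ Cfsg.Geo.omegaGL (Cfsg.quadFormOdd m F) < K ∧ K < Cfsg.Geo.omegaGL (Cfsg.quadFormOdd m F) := by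
  have := not_maximal_tensor3 hq (oddQ m F) (oddQ_nondegenerate m (f3_two_ne hq)) n₂ (by omega) e P f₁ f₂ hf₁ hf₂
    (by rw [coe_oddQ]; exact hT)
  rw [coe_oddQ] at this
  exact this

end Cfsg.Agent.S5682
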