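import Cfsg.Statements.S5667
import Cfsg.Agent.S5682
import Cfsg.Agent.Lib.Helper18.Symp2

set_option autoImplicit false
open Cfsg

namespace Cfsg.Agent.S5667


open Matrix QuadraticMap Module Cfsg.Agent.Lib.Helper15 Cfsg.Agent.Lib.Helper18 Cfsg.Agent.S5682

variable {ι : Type} [Fintype ι] [DecidableEq ι] {F : Type*} [Field F]

/-- an invertible matrix from a linear equivalence -/
noncomputable def glOf (e : (ι → F) ≃ₗ[F] (ι → F)) : GL ι F :=
  ⟨LinearMap.toMatrix' (e : (ι → F) →ₗ[F] (ι → F)), LinearMap.toMatrix' (e.symm : (ι → F) →ₗ[F] (ι → F)),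
      by rw [← LinearMap.toMatrix'_comp]; simp, by rw [← LinearMap.toMatrix'_comp]; simp⟩

theorem glOf_mulVec (e : (ι → F) ≃ₗ[F] (ι → F)) (x : ι → F) : (glOf e : Matrix ι ι F) *ᵥ x = e x := by
  show LinearMap.toMatrix' (e : (ι → F) →ₗ[F] (ι → F)) *ᵥ x = e x
  rw [LinearMap.toMatrix'_mulVec]; rfl

/-- transvections -/
noncomputable def tvE (B : LinearMap.BilinForm F (ι → F)) (hB : B.IsAlt) (a : ι → F) : (ι → F) ≃ₗ[F] (ι → F) where
  toFun x := x + B x a • a
  map_add' x y := by rw [map_add, LinearMap.add_apply, add_smul]; abel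
  map_smul' c x := by
    rw [map_smul, LinearMap.smul_apply, RingHom.id_apply, smul_add, smul_smul, smul_eq_mul]
  invFun x := x - B x a • a
  left_inv x := by
    show x + B x a • a - B (x + B x a • a) a • a = x
    rw [map_add, LinearMap.add_apply, map_smul, LinearMap.smul_apply, hB a, smul_zero, add_zero]; abel
  right_inv x := by
    show x - B x a • a + B (x - B x a • a) a • a = x
    rw [map_sub, LinearMap.sub_apply, map_smul, LinearMap.smul_apply, hB a, smul_zero, sub_zero]; abel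

theorem tvE_apply (B : LinearMap.BilinForm F (ι → F)) (hB : B.IsAlt) (a x : ι → F) : tvE B hB a x = x + B x a • a := rfl

theorem tvE_symm_apply (B : LinearMap.BilinForm F (ι → F)) (hB : B.IsAlt) (a x : ι → F) :
    (tvE B hB a).symm x = x - B x a • a := rfl

theorem tvE_form (B : LinearMap.BilinForm F (ι → F)) (hB : B.IsAlt) (a x y : ι → F) :
    B (tvE B hB a x) (tvE B hB a y) = B x y := by
  rw [tvE_apply, tvE_apply]
  simp only [map_add, LinearMap.add_apply, map_smul, LinearMap.smul_apply, hB a, smul_eq_mul]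
  rw [← hB.neg_eq a y]
  ring

theorem not_maximal_of_three_blocks_symp (B : LinearMap.BilinForm F (ι → F)) (hB : B.IsAlt) (G : Subgroup (GL ι F))
    (hG : ∀ g : GL ι F, g ∈ G ↔ ∀ u v, B ((g : Matrix ι ι F) *ᵥ u) ((g : Matrix ι ι F) *ᵥ v) = B u v)
    {W : Type*} [AddCommGroup W] [Module F W] (τ : Fin 3 → W →ₗ[F] (ι → F)) (β : W → W → F)
    (hτ : ∀ i j w w', B (τ i w) (τ j w') = if i = j then β w w' else 0)
    (hβ : ∀ w, (∀ w', β w w' = 0) → w = 0)
    (w₀ w₁ : W) (h10 : β w₁ w₀ ≠ 0)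
    (T : Subgroup (GL ι F))
    (hT : ∀ g ∈ T ⊓ G, ∃ (σ : Fin 3 → Fin 3) (s : Fin 3 → F) (b : W → W),
      ∀ i w, (g : Matrix ι ι F) *ᵥ τ i w = s i • τ (σ i) (b w)) :
    ∃ K : Subgroup (GL ι F), T ⊓ G < K ∧ K < G := by
  classical
  let S : Set (ι → F) := {v | ∃ i w, v = τ i w}
  have hβ00 : β w₀ w₀ = 0 := by
    have := hτ 0 0 w₀ w₀
    rw [if_pos rfl, hB] at this
    exact this.symm
  have hw₀0 : w₀ ≠ 0 := by
    rintro rfl
    apply h10
    have := hτ 0 0 w₁ 0
    rw [map_zero, if_pos rfl, map_zero] at this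
    exact this.symm
  have hsep : ∀ i j w w', w ≠ 0 → τ i w = τ j w' → i = j ∧ w = w' := by
    intro i j w w' hw h
    have hij : i = j := by
      by_contra hij
      apply hw
      apply hβ
      intro w''
      have h1 := hτ i i w w''
      rw [if_pos rfl, h, hτ j i, if_neg (Ne.symm hij)] at h1
      exact h1.symm
    subst hij
    refine ⟨rfl, ?_⟩
    rw [← sub_eq_zero]
    apply hβ
    intro w''
    have h1 := hτ i i (w - w') w''
    rw [if_pos rfl, map_sub, h, sub_self] at h1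
    rw [← h1]; simp
  let K : Subgroup (GL ι F) := Cfsg.stabilizing (Cfsg.glToMat ι F) S ⊓ G
  have hKmem : ∀ g : GL ι F, (g ∈ Cfsg.stabilizing (Cfsg.glToMat ι F) S) ↔
      ∀ v, v ∈ S ↔ (g : Matrix ι ι F) *ᵥ v ∈ S := fun g => Iff.rfl
  have hTS : ∀ g ∈ T ⊓ G, ∀ v ∈ S, (g : Matrix ι ι F) *ᵥ v ∈ S := by
    rintro g hg _ ⟨i, w, rfl⟩
    obtain ⟨σ, s, b, h⟩ := hT g hg
    exact ⟨σ i, s i • b w, by rw [h, map_smul]⟩
  have htvG : ∀ a, glOf (tvE B hB a) ∈ G := by
    intro a
    rw [hG]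
    intro u v
    rw [glOf_mulVec, glOf_mulVec, tvE_form]
  refine ⟨K, ?_, ?_⟩
  · rw [SetLike.lt_iff_le_and_exists]
    constructor
    · intro g hg
      refine ⟨(hKmem g).2 fun v => ⟨hTS g hg v, fun h => ?_⟩, hg.2⟩
      have := hTS g⁻¹ (inv_mem hg) _ h
      rwa [Matrix.mulVec_mulVec, ← Units.val_mul, inv_mul_cancel, Units.val_one, Matrix.one_mulVec] at this
    · refine ⟨glOf (tvE B hB (τ 0 w₀)), ⟨(hKmem _).2 fun v => ?_, htvG _⟩, ?_⟩
      · rw [glOf_mulVec]
        constructor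
        · rintro ⟨j, w, rfl⟩
          rw [tvE_apply]
          by_cases hj : j = 0
          · subst hj
            exact ⟨0, w + B (τ 0 w) (τ 0 w₀) • w₀, by rw [map_add, map_smul]⟩
          · rw [hτ, if_neg hj, zero_smul, add_zero]
            exact ⟨j, w, rfl⟩
        · rintro ⟨j, w, hw⟩
          have hv : v = (tvE B hB (τ 0 w₀)).symm (τ j w) := by rw [← hw, LinearEquiv.symm_apply_apply]
          rw [hv, tvE_symm_apply]
          by_cases hj : j = 0
          · subst hj
            exact ⟨0, w - B (τ 0 w) (τ 0 w₀) • w₀, by rw [map_sub, map_smul]⟩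
          · rw [hτ, if_neg hj, zero_smul, sub_zero]
            exact ⟨j, w, rfl⟩
      · intro hmem
        obtain ⟨σ, s, b, h⟩ := hT _ hmem
        have a2 : ∀ w, tvE B hB (τ 0 w₀) (τ 2 w) = τ 2 w := by
          intro w
          rw [tvE_apply, hτ, if_neg (by decide), zero_smul, add_zero]
        have a0 : tvE B hB (τ 0 w₀) (τ 0 w₀) = τ 0 w₀ := by
          rw [tvE_apply, hB, zero_smul, add_zero]
        have a1 : tvE B hB (τ 0 w₀) (τ 0 w₁) = τ 0 (w₁ + β w₁ w₀ • w₀) := by
          rw [tvE_apply, hτ, if_pos rfl, map_add, map_smul]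
        have b2 : ∀ w, w ≠ 0 → w = s 2 • b w := by
          intro w hw
          have h3 : τ 2 w = τ (σ 2) (s 2 • b w) := by rw [map_smul, ← h, glOf_mulVec, a2]
          exact (hsep _ _ _ _ hw h3).2
        have c0 : w₀ = s 0 • b w₀ := by
          have h3 : τ 0 w₀ = τ (σ 0) (s 0 • b w₀) := by rw [map_smul, ← h, glOf_mulVec, a0]
          exact (hsep _ _ _ _ hw₀0 h3).2
        have hw₁0 : w₁ ≠ 0 := by
          rintro rfl
          apply h10
          have := hτ 0 0 0 w₀
          rw [map_zero, if_pos rfl, map_zero, LinearMap.zero_apply] at this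
          exact this.symm
        have hne : w₁ + β w₁ w₀ • w₀ ≠ 0 := by
          intro h0
          have h6 : B (τ 0 (w₁ + β w₁ w₀ • w₀)) (τ 0 w₀) = 0 := by
            rw [h0, map_zero, map_zero, LinearMap.zero_apply]
          rw [map_add, map_smul, map_add, map_smul, LinearMap.add_apply, LinearMap.smul_apply, hτ, hτ, if_pos rfl,
            if_pos rfl, hβ00, smul_zero, add_zero] at h6
          exact h10 h6
        have c1 : w₁ + β w₁ w₀ • w₀ = s 0 • b w₁ := by
          have h3 : τ 0 (w₁ + β w₁ w₀ • w₀) = τ (σ 0) (s 0 • b w₁) := by rw [map_smul, ← h, glOf_mulVec, a1]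
          exact (hsep _ _ _ _ hne h3).2
        have d0 : s 2 • w₀ = s 0 • w₀ := by
          conv_lhs => rw [c0]
          rw [smul_comm, ← b2 w₀ hw₀0]
        have d1 : s 2 • (w₁ + β w₁ w₀ • w₀) = s 0 • w₁ := by
          rw [c1, smul_comm, ← b2 w₁ hw₁0]
        have e0 : s 0 = s 2 := by
          have : (s 0 - s 2) • w₀ = 0 := by rw [sub_smul, ← d0, sub_self]
          rcases smul_eq_zero.1 this with h5 | h5
          · exact sub_eq_zero.1 h5
          · exact absurd h5 hw₀0
        have s20 : s 2 = 0 := by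
          rw [e0, smul_add, add_eq_left, smul_smul] at d1
          rcases smul_eq_zero.1 d1 with h5 | h5
          · exact (mul_eq_zero.1 h5).resolve_right h10
          · exact absurd h5 hw₀0
        apply hw₀0
        rw [b2 w₀ hw₀0, s20, zero_smul]
  · rw [SetLike.lt_iff_le_and_exists]
    refine ⟨inf_le_right, glOf (tvE B hB (τ 0 w₀ + τ 1 w₀)), htvG _, ?_⟩
    rintro ⟨hst, -⟩
    obtain ⟨j, w, hj⟩ := ((hKmem _).1 hst (τ 0 w₁)).1 ⟨0, _, rfl⟩
    rw [glOf_mulVec, tvE_apply, map_add, hτ, hτ, if_pos rfl, if_neg (by decide), add_zero] at hj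
    by_cases hj1 : j = 1
    · have h5 := congrArg (fun v => B v (τ 0 w₀)) hj
      simp only [map_add, map_smul, LinearMap.add_apply, LinearMap.smul_apply] at h5
      rw [hτ, hτ, hτ, hτ, hj1, hβ00] at h5
      apply h10
      simpa using h5
    · apply hw₀0
      apply hβ
      intro w'
      have h5 := congrArg (fun v => B v (τ 1 w')) hj
      simp only [map_add, map_smul, LinearMap.add_apply, LinearMap.smul_apply] at h5
      rw [hτ, hτ, hτ, hτ, if_neg hj1] at h5
      simp only [smul_eq_mul, zero_add, Fin.isValue, zero_ne_one, if_false, if_true] at h5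
      exact (mul_eq_zero.1 h5).resolve_left h10


/-- Over the field with 3 elements and for m ≥ 7, suppose the standard alternating form on F^(2m) is similar, through P and e, to the tensor product of a non-degenerate symplectic form f₁ on F^(n₁) and a non-degenerate symmetric bilinear form f₂ on F^3. Then the elements of Sp_2m(3) in the stabiliser of this tensor decomposition form a subgroup that is not maximal: some subgroup lies strictly between it and Sp_2m(3). -/
theorem result {F : Type*} [Field F] [Fintype F] (m : ℕ) (hm : 7 ≤ m) (hq : Fintype.card F = 3) (n₁ : ℕ) (e : (Fin m ⊕ Fin m) ≃ Fin n₁ × Fin 3) (P : Matrix.GeneralLinearGroup (Fin m ⊕ Fin m) F) (f₁ : (Fin n₁ → F) → (Fin n₁ → F) → F) (f₂ : (Fin 3 → F) → (Fin 3 → F) → F) (hf₁ : Cfsg.Geo.IsSymplecticForm f₁) (hf₂ : Cfsg.Geo.IsSymmetricForm f₂) (hT : Cfsg.Geo.IsTensorFormStructure id (Cfsg.sympForm m F) f₁ f₂ e P) : ∃ K : Subgroup (Matrix.GeneralLinearGroup (Fin m ⊕ Fin m) F), Cfsg.Geo.tensorProductSubgroup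 n₁ 3 e P ⊓ Cfsg.spGL m F < K ∧ K < Cfsg.spGL m F := by
  have h2 := f3_two_ne hq
  obtain ⟨c, hc, hform⟩ := tensor_form hT hf₁.bilinear hf₂.bilinear
  set Q2 := qOf f₂ hf₂.bilinear with hQ2
  have hnd2 : NDOn Q2 ⊤ := fun x _ h => qOf_nd h2 f₂ hf₂ x (fun y => h y trivial)
  obtain ⟨c1, hc1, ε, -, hQε, hoε⟩ := exists_f3_frame3 Q2 hq ⊤ (by rw [finrank_top, finrank_fintype_fun_eq_card, Fintype.card_fin]) hnd2
  have hfε : ∀ i j, f₂ (ε i) (ε j) = if i = j then c1 else 0 := by
    intro i j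
    by_cases hij : i = j
    · subst hij
      rw [if_pos rfl, ← hQε i]; rfl
    · rw [if_neg hij]
      have := hoε i j hij
      rw [hQ2, polar_qOf f₂ hf₂] at this
      exact (mul_eq_zero.1 this).resolve_left h2
  have hcoord := exists_coord_of_frame Q2 h2 ⊤ (by rw [finrank_top, finrank_fintype_fun_eq_card]) ε
    (fun _ => trivial) (fun i => by rw [hQε]; exact hc1) hoε
  have hn₁ : 0 < n₁ := by
    have := Fintype.card_congr e
    simp only [Fintype.card_sum, Fintype.card_fin, Fintype.card_prod] at this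
    omega
  obtain ⟨u₁, u₀, hu⟩ : ∃ u₁ u₀, f₁ u₁ u₀ ≠ 0 := by
    have hne : (Pi.single (⟨0, hn₁⟩ : Fin n₁) (1 : F) : Fin n₁ → F) ≠ 0 := by
      intro h
      have := congrFun h ⟨0, hn₁⟩
      simp at this
    obtain ⟨-, y, hy⟩ := hf₁.nondegenerate _ hne
    exact ⟨_, y, hy⟩
  apply not_maximal_of_three_blocks_symp (sympB m F) sympB_isAlt (Cfsg.spGL m F) ?_ (fun i => tensL e P (ε i))
    (fun u u' => c * (f₁ u u' * c1)) ?_ ?_ u₀ u₁ (mul_ne_zero hc (mul_ne_zero hu hc1))
  · rintro g ⟨hgT, hgG⟩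
    obtain ⟨a, b, hab⟩ := tensor_act e P g hgT
    have hpres : ∀ u u' w w', f₁ ((a : Matrix _ _ F) *ᵥ u) ((a : Matrix _ _ F) *ᵥ u')
        * f₂ ((b : Matrix _ _ F) *ᵥ w) ((b : Matrix _ _ F) *ᵥ w') = f₁ u u' * f₂ w w' := by
      intro u u' w w'
      have h7 : Cfsg.sympForm m F ((g : Matrix _ _ F) *ᵥ tens e P u w) ((g : Matrix _ _ F) *ᵥ tens e P u' w')
        = Cfsg.sympForm m F (tens e P u w) (tens e P u' w') := hgG _ _
      rw [hab, hab, hform, hform] at h7
      exact mul_left_cancel₀ hc h7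
    set μ := f₁ ((a : Matrix _ _ F) *ᵥ u₁) ((a : Matrix _ _ F) *ᵥ u₀) with hμ
    have hμ0 : μ ≠ 0 := by
      intro h0
      have := hpres u₁ u₀ (ε 0) (ε 0)
      rw [← hμ, h0, zero_mul, hfε, if_pos rfl] at this
      exact mul_ne_zero hu hc1 this.symm
    have hsim : ∀ w, Q2 ((b : Matrix _ _ F) *ᵥ w) = (f₁ u₁ u₀ / μ) * Q2 w := by
      intro w
      have := hpres u₁ u₀ w w
      rw [← hμ] at this
      show f₂ _ _ = _ * f₂ w w
      field_simp
      linear_combination this
    have hl := f3_similitude_three hq Q2 (nondegenerate_of_left _ (fun x hx => qOf_nd h2 f₂ hf₂ x hx)) b _ hsim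
    have hcls : ∀ i, ∃ j, ∃ s : F, (b : Matrix _ _ F) *ᵥ ε i = s • ε j := by
      intro i
      obtain ⟨x, hx⟩ := hcoord ((b : Matrix _ _ F) *ᵥ ε i) trivial
      rw [hx]
      apply f3_frame_cls hq Q2 le_rfl c1 hc1 ε hQε hoε x
      rw [← hx, hsim, hl, one_mul, hQε]
    choose σ s hs using hcls
    refine ⟨σ, s, fun u => (a : Matrix _ _ F) *ᵥ u, fun i u => ?_⟩
    show _ *ᵥ tens e P u (ε i) = s i • tens e P _ (ε (σ i))
    rw [hab, hs, tens_smul_right]
  · intro g
    constructor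
    · intro h u v
      rw [sympB_apply, sympB_apply]
      exact h u v
    · intro h u v
      have := h u v
      rw [sympB_apply, sympB_apply] at this
      exact this
  · intro i j u u'
    show sympB m F (tens e P u (ε i)) (tens e P u' (ε j)) = _
    rw [sympB_apply]
    have := hform u (ε i) u' (ε j)
    unfold Cfsg.sympForm at this
    rw [this, hfε]
    split_ifs <;> simp
  · intro u hu'
    by_contra hne
    obtain ⟨-, y, hy⟩ := hf₁.nondegenerate u hne
    exact mul_ne_zero hc (mul_ne_zero hy hc1) (hu' y)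

end Cfsg.Agent.S5667
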