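import Cfsg.Statements.S5671
import Cfsg.Agent.Lib.Helper15.SuSimple
import Cfsg.Agent.Lib.Helper15.TensorBridge
import Cfsg.Agent.S0755

set_option autoImplicit false
open Cfsg

namespace Cfsg.Agent.S5671


open Matrix Module Cfsg.Agent.H6 Cfsg.Agent.Lib.Helper29 Cfsg.Agent.Lib.Helper15
open scoped Kronecker

variable {F : Type*} [Field F] [Fintype F] {n q : ℕ}

local notation "H" => Cfsg.hermForm n F q
local notation "Vn" => (Fin n → F)
local notation "G0" => (Cfsg.GU n F q ⊓ Cfsg.Geo.specialLinear (Fin n) F)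

theorem not_maximal_of_two_blocks_unitary (hF : Fintype.card F = q ^ 2)
    {W : Type*} [AddCommGroup W] [Module F W] (τ : Fin 2 → W →ₗ[F] Vn) (β : W → W → F)
    (hτ : ∀ i j w w', H (τ i w) (τ j w') = if i = j then β w w' else 0)
    (hβ : ∀ w, (∀ w', β w w' = 0) → w = 0)
    (w₀ w₁ : W) (h00 : β w₀ w₀ = 0) (h10 : β w₁ w₀ ≠ 0)
    (T : Subgroup (GL (Fin n) F))
    (hT : ∀ g ∈ T ⊓ G0, ∃ (σ : Fin 2 → Fin 2) (s : Fin 2 → F) (b : W → W),
      ∀ i w, (g : Matrix (Fin n) (Fin n) F) *ᵥ τ i w = s i • τ (σ i) (b w)) :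
    ∃ K : Subgroup (GL (Fin n) F), T ⊓ G0 < K ∧ K < G0 := by
  classical
  have hq : q ≠ 0 := by have := q_pos hF; omega
  obtain ⟨θ, hθ0, hθ⟩ := exists_trace_zero hF
  let S : Set Vn := {v | ∃ i w, v = τ i w}
  have hw₀0 : w₀ ≠ 0 := by
    rintro rfl
    apply h10
    have := hτ 0 0 w₁ 0
    rw [map_zero, if_pos rfl, herm_zero_right hq] at this
    exact this.symm
  have hw₁0 : w₁ ≠ 0 := by
    rintro rfl
    apply h10
    have := hτ 0 0 0 w₀
    rw [map_zero, if_pos rfl, herm_zero_left hq] at this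
    exact this.symm
  have hsep : ∀ i j w w', w ≠ 0 → τ i w = τ j w' → i = j ∧ w = w' := by
    intro i j w w' hw h
    have hij : i = j := by
      by_contra hij
      apply hw
      apply hβ
      intro w''
      have h1 := hτ i i w w''
      rw [if_pos rfl, h, hτ j i, if_neg (Ne.symm hij)] at h1
      exact h1.symm
    subst hij
    refine ⟨rfl, ?_⟩
    rw [← sub_eq_zero]
    apply hβ
    intro w''
    have h1 := hτ i i (w - w') w''
    rw [if_pos rfl, map_sub, h, sub_self, herm_zero_left hq] at h1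
    exact h1.symm
  let K : Subgroup (GL (Fin n) F) := Cfsg.stabilizing (Cfsg.glToMat (Fin n) F) S ⊓ G0
  have hKmem : ∀ g : GL (Fin n) F, (g ∈ Cfsg.stabilizing (Cfsg.glToMat (Fin n) F) S) ↔
      ∀ v, v ∈ S ↔ (g : Matrix (Fin n) (Fin n) F) *ᵥ v ∈ S := fun g => Iff.rfl
  have hstab : ∀ g : GL (Fin n) F, (∀ v ∈ S, (g : Matrix (Fin n) (Fin n) F) *ᵥ v ∈ S) →
      (∀ v ∈ S, ((g⁻¹ : GL (Fin n) F) : Matrix (Fin n) (Fin n) F) *ᵥ v ∈ S) →
      g ∈ Cfsg.stabilizing (Cfsg.glToMat (Fin n) F) S := by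
    intro g h1 h2
    refine (hKmem g).2 fun v => ⟨h1 v, fun h => ?_⟩
    have := h2 _ h
    rwa [gl_inv_mulVec] at this
  have hTS : ∀ g ∈ T ⊓ G0, ∀ v ∈ S, (g : Matrix (Fin n) (Fin n) F) *ᵥ v ∈ S := by
    rintro g hg _ ⟨i, w, rfl⟩
    obtain ⟨σ, s, b, h⟩ := hT g hg
    exact ⟨σ i, s i • b w, by rw [h, map_smul]⟩
  have ha0 : H (τ 0 w₀) (τ 0 w₀) = 0 := by rw [hτ, if_pos rfl, h00]
  have ha01 : H (τ 0 w₀ + τ 1 w₀) (τ 0 w₀ + τ 1 w₀) = 0 := by
    simp only [hermForm_add_left, hermForm_add_right hF, hτ, h00]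
    simp
  refine ⟨K, ?_, ?_⟩
  · rw [SetLike.lt_iff_le_and_exists]
    constructor
    · intro g hg
      exact ⟨hstab g (hTS g hg) (hTS g⁻¹ (inv_mem hg)), hg.2⟩
    · have hS0 : ∀ c : F, ∀ v ∈ S, (utv q (τ 0 w₀) c ha0 : Matrix (Fin n) (Fin n) F) *ᵥ v ∈ S := by
        rintro c _ ⟨j, w, rfl⟩
        rw [utv_mulVec]
        by_cases hj : j = 0
        · subst hj
          exact ⟨0, w + (c * H (τ 0 w) (τ 0 w₀)) • w₀, by rw [map_add, map_smul]⟩
        · rw [hτ, if_neg hj, mul_zero, zero_smul, add_zero]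
          exact ⟨j, w, rfl⟩
      refine ⟨utv q (τ 0 w₀) θ ha0, ⟨hstab _ (hS0 θ) (by rw [utv_inv']; exact hS0 (-θ)),
        utv_mem_SU hF _ _ _ hθ⟩, ?_⟩
      intro hmem
      obtain ⟨σ, s, b, h⟩ := hT _ hmem
      set κ := θ * β w₁ w₀ with hκ
      have hκ0 : κ ≠ 0 := mul_ne_zero hθ0 h10
      have a2 : ∀ w, (utv q (τ 0 w₀) θ ha0 : Matrix (Fin n) (Fin n) F) *ᵥ (τ 1 w) = τ 1 w := by
        intro w
        rw [utv_mulVec, hτ, if_neg (by decide), mul_zero, zero_smul, add_zero]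
      have a0 : (utv q (τ 0 w₀) θ ha0 : Matrix (Fin n) (Fin n) F) *ᵥ (τ 0 w₀) = τ 0 w₀ := by
        rw [utv_mulVec, ha0, mul_zero, zero_smul, add_zero]
      have a1 : (utv q (τ 0 w₀) θ ha0 : Matrix (Fin n) (Fin n) F) *ᵥ (τ 0 w₁) = τ 0 (w₁ + κ • w₀) := by
        rw [utv_mulVec, hτ, if_pos rfl, map_add, map_smul]
      have b2 : ∀ w, w ≠ 0 → w = s 1 • b w := by
        intro w hw
        have h3 : τ 1 w = τ (σ 1) (s 1 • b w) := by rw [map_smul, ← h, a2]
        exact (hsep _ _ _ _ hw h3).2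
      have c0 : w₀ = s 0 • b w₀ := by
        have h3 : τ 0 w₀ = τ (σ 0) (s 0 • b w₀) := by rw [map_smul, ← h, a0]
        exact (hsep _ _ _ _ hw₀0 h3).2
      have hne : w₁ + κ • w₀ ≠ 0 := by
        intro h0
        have h6 : H (τ 0 (w₁ + κ • w₀)) (τ 0 w₀) = 0 := by
          rw [h0, map_zero, herm_zero_left hq]
        rw [map_add, map_smul, hermForm_add_left, hermForm_smul_left, hτ, hτ, if_pos rfl, if_pos rfl, h00,
          mul_zero, add_zero] at h6
        exact h10 h6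
      have c1 : w₁ + κ • w₀ = s 0 • b w₁ := by
        have h3 : τ 0 (w₁ + κ • w₀) = τ (σ 0) (s 0 • b w₁) := by rw [map_smul, ← h, a1]
        exact (hsep _ _ _ _ hne h3).2
      have d0 : s 1 • w₀ = s 0 • w₀ := by
        conv_lhs => rw [c0]
        rw [smul_comm, ← b2 w₀ hw₀0]
      have d1 : s 1 • (w₁ + κ • w₀) = s 0 • w₁ := by
        rw [c1, smul_comm, ← b2 w₁ hw₁0]
      have e0 : s 0 = s 1 := by
        have : (s 0 - s 1) • w₀ = 0 := by rw [sub_smul, ← d0, sub_self]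
        rcases smul_eq_zero.1 this with h5 | h5
        · exact sub_eq_zero.1 h5
        · exact absurd h5 hw₀0
      have s20 : s 1 = 0 := by
        rw [e0, smul_add, add_eq_left, smul_smul] at d1
        rcases smul_eq_zero.1 d1 with h5 | h5
        · exact (mul_eq_zero.1 h5).resolve_right hκ0
        · exact absurd h5 hw₀0
      apply hw₀0
      rw [b2 w₀ hw₀0, s20, zero_smul]
  · rw [SetLike.lt_iff_le_and_exists]
    refine ⟨inf_le_right, utv q (τ 0 w₀ + τ 1 w₀) θ ha01, utv_mem_SU hF _ _ _ hθ, ?_⟩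
    rintro ⟨hst, -⟩
    obtain ⟨j, w, hj⟩ := ((hKmem _).1 hst (τ 0 w₁)).1 ⟨0, _, rfl⟩
    rw [utv_mulVec, hermForm_add_right hF, hτ, hτ, if_pos rfl, if_neg (by decide), add_zero] at hj
    by_cases hj1 : j = 1
    · have h5 := congrArg (fun v => H v (τ 0 w₀)) hj
      simp only [hermForm_add_left, hermForm_smul_left] at h5
      rw [hτ, hτ, hτ, hτ, hj1, h00] at h5
      apply h10
      simpa using h5
    · apply hw₀0
      apply hβ
      intro w'
      have h5 := congrArg (fun v => H v (τ 1 w')) hj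
      simp only [hermForm_add_left, hermForm_smul_left] at h5
      rw [hτ, hτ, hτ, hτ, if_neg hj1] at h5
      simp only [zero_add, Fin.isValue, zero_ne_one, if_false, if_true] at h5
      exact (mul_eq_zero.1 h5).resolve_left (mul_ne_zero hθ0 h10)

section uform

variable {κ : Type} [Fintype κ] [DecidableEq κ] {f : (κ → F) → (κ → F) → F}

theorem uf_add_right (hF : Fintype.card F = q ^ 2) (hf : Cfsg.Geo.IsUnitaryFormPow q f) (x y z : κ → F) :
    f x (y + z) = f x y + f x z := by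
  rw [hf.herm, hf.add_left, add_pow_q hF, ← hf.herm, ← hf.herm]

theorem uf_smul_right (hf : Cfsg.Geo.IsUnitaryFormPow q f) (c : F) (x y : κ → F) :
    f x (c • y) = c ^ q * f x y := by
  rw [hf.herm, hf.smul_left, mul_pow, ← hf.herm]

/-- the form as a sesquilinear map -/
noncomputable def ufSesq (hF : Fintype.card F = q ^ 2) (hf : Cfsg.Geo.IsUnitaryFormPow q f) :
    (κ → F) →ₛₗ[Cfsg.Agent.Lib.Helper18.hermFrob hF] (κ → F) →ₗ[F] F :=
  LinearMap.mk₂'ₛₗ (Cfsg.Agent.Lib.Helper18.hermFrob hF) (RingHom.id F)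
    (fun x y => f y x)
    (fun x x' y => uf_add_right hF hf y x x')
    (fun c x y => by
      rw [uf_smul_right hf]; rfl)
    (fun x y y' => hf.add_left y y' x)
    (fun c x y => by
      rw [hf.smul_left]; rfl)

theorem ufSesq_apply (hF : Fintype.card F = q ^ 2) (hf : Cfsg.Geo.IsUnitaryFormPow q f) (x y : κ → F) :
    ufSesq hF hf x y = f y x := rfl

theorem uf_expand (hF : Fintype.card F = q ^ 2) (hf : Cfsg.Geo.IsUnitaryFormPow q f) {κ' : Type} [Fintype κ']
    (b : κ' → (κ → F)) (x y : κ' → F) :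
    f (∑ i, x i • b i) (∑ j, y j • b j) = ∑ i, ∑ j, x i * f (b i) (b j) * (y j) ^ q := by
  rw [← ufSesq_apply hF hf]
  simp only [map_sum, LinearMap.sum_apply, map_smulₛₗ, LinearMap.smul_apply, map_smul, smul_eq_mul,
    ufSesq_apply, RingHom.id_apply]
  apply Finset.sum_congr rfl
  intro i _
  rw [Finset.mul_sum]
  apply Finset.sum_congr rfl
  intro j _
  have : (Cfsg.Agent.Lib.Helper18.hermFrob hF) (y j) = (y j) ^ q := rfl
  rw [this]; ring

theorem formOfGram_uf (hF : Fintype.card F = q ^ 2) (hf : Cfsg.Geo.IsUnitaryFormPow q f) (x y : κ → F) :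
    Cfsg.Geo.formOfGram (fun a : F => a ^ q) (Cfsg.Geo.gramMatrix f) x y = f x y := by
  have hx : ∀ z : κ → F, z = ∑ i, z i • (Pi.single i (1 : F) : κ → F) := by
    intro z
    funext k
    simp [Finset.sum_apply, Pi.single_apply]
  conv_rhs => rw [hx x, hx y]
  rw [uf_expand hF hf]
  rfl

end uform

theorem exists_std (hF : Fintype.card F = q ^ 2) {k : ℕ} {f : (Fin k → F) → (Fin k → F) → F}
    (hf : Cfsg.Geo.IsUnitaryFormPow q f) :
    ∃ Φ : (Fin k → F) ≃ₗ[F] (Fin k → F), ∀ x y, f (Φ x) (Φ y) = Cfsg.hermForm k F q x y := by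
  have hσ : Cfsg.Agent.Lib.Helper18.hermFrob hF ≠ RingHom.id F := by
    intro h
    obtain ⟨x, hx⟩ := exists_pow_q_ne hF
    apply hx
    have := congrArg (fun f : F →+* F => f x) h
    exact this
  have hσ2 : ∀ a : F, Cfsg.Agent.Lib.Helper18.hermFrob hF (Cfsg.Agent.Lib.Helper18.hermFrob hF a) = a :=
    fun a => pow_q_pow_q hF a
  have hS : (ufSesq hF hf).IsSymm := by
    constructor
    intro x y
    exact (hf.herm x y).symm
  have hB : (ufSesq hF hf).Nondegenerate := by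
    constructor
    · intro x hx
      by_contra h0
      obtain ⟨⟨z, hz⟩, -⟩ := hf.nondegenerate x h0
      exact hz (hx z)
    · intro y hy
      by_contra h0
      obtain ⟨-, ⟨z, hz⟩⟩ := hf.nondegenerate y h0
      exact hz (hy z)
  obtain ⟨b, hb⟩ := Cfsg.Agent.S0755.result (Cfsg.Agent.Lib.Helper18.hermFrob hF) hσ hσ2 (ufSesq hF hf) hS hB
  have hk : finrank F (Fin k → F) = k := by simp
  set b' := b.reindex (finCongr hk) with hb'
  have hb'o : ∀ i j, f (b' i) (b' j) = if i = j then 1 else 0 := by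
    intro i j
    rw [hb', Basis.reindex_apply, Basis.reindex_apply, ← ufSesq_apply hF hf, hb]
    by_cases hij : i = j
    · subst hij; simp
    · rw [if_neg hij, if_neg]
      intro h
      exact hij ((finCongr hk).symm.injective h).symm
  refine ⟨b'.equivFun.symm, fun x y => ?_⟩
  rw [Basis.equivFun_symm_apply, Basis.equivFun_symm_apply, uf_expand hF hf]
  unfold Cfsg.hermForm
  apply Finset.sum_congr rfl
  intro i _
  rw [Finset.sum_eq_single i]
  · rw [hb'o, if_pos rfl, mul_one]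
  · intro j _ hj
    rw [hb'o, if_neg (Ne.symm hj)]; ring
  · simp

theorem formOfGram_pt {n₁ n₂ : ℕ} (G₁ : Matrix (Fin n₁) (Fin n₁) F) (G₂ : Matrix (Fin n₂) (Fin n₂) F)
    (u u' : Fin n₁ → F) (w w' : Fin n₂ → F) :
    Cfsg.Geo.formOfGram (fun a : F => a ^ q) (G₁ ⊗ₖ G₂) (pt u w) (pt u' w')
      = Cfsg.Geo.formOfGram (fun a : F => a ^ q) G₁ u u' * Cfsg.Geo.formOfGram (fun a : F => a ^ q) G₂ w w' := by
  simp only [Cfsg.Geo.formOfGram, pt, Matrix.kroneckerMap_apply, Fintype.sum_prod_type]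
  rw [Finset.sum_mul_sum]
  apply Finset.sum_congr rfl
  intro i _
  apply Finset.sum_congr rfl
  intro j _
  rw [Finset.sum_mul_sum]
  apply Finset.sum_congr rfl
  intro i' _
  apply Finset.sum_congr rfl
  intro j' _
  rw [mul_pow]; ring

theorem tensor_form_u (hF : Fintype.card F = q ^ 2) {ι : Type} [Fintype ι] [DecidableEq ι] {n₁ n₂ : ℕ}
    {f : (ι → F) → (ι → F) → F} {f₁ : (Fin n₁ → F) → (Fin n₁ → F) → F}
    {f₂ : (Fin n₂ → F) → (Fin n₂ → F) → F} {e : ι ≃ Fin n₁ × Fin n₂} {P : GL ι F}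
    (hT : Cfsg.Geo.IsTensorFormStructure (fun a : F => a ^ q) f f₁ f₂ e P)
    (hf₁ : Cfsg.Geo.IsUnitaryFormPow q f₁) (hf₂ : Cfsg.Geo.IsUnitaryFormPow q f₂) :
    ∃ c : F, c ≠ 0 ∧ ∀ u w u' w', f (tens e P u w) (tens e P u' w') = c * (f₁ u u' * f₂ w w') := by
  obtain ⟨c, hc, h⟩ := hT
  refine ⟨c, hc, fun u w u' w' => ?_⟩
  unfold tens
  rw [h, formOfGram_pt, formOfGram_uf hF hf₁, formOfGram_uf hF hf₂]


/-- Let F be the field with 4 elements (q = 2) and n = 2 n₂ ≥ 13. Suppose the standard unitary form Σ u_i v_i² on F^n is similar, through P and e, to the tensor product of non-degenerate unitary forms f₁ on F^2 and f₂ on F^(n₂). Then the elements of SU_n(2) in the stabiliser of this tensor decomposition form a subgroup that is not maximal: some subgroup lies strictly between it and SU_n(2). -/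
theorem result {F : Type*} [Field F] [Fintype F] (n : ℕ) (hF : Fintype.card F = 4) (hn : 13 ≤ n) (n₂ : ℕ) (e : Fin n ≃ Fin 2 × Fin n₂) (P : Matrix.GeneralLinearGroup (Fin n) F) (f₁ : (Fin 2 → F) → (Fin 2 → F) → F) (f₂ : (Fin n₂ → F) → (Fin n₂ → F) → F) (hf₁ : Cfsg.Geo.IsUnitaryFormPow 2 f₁) (hf₂ : Cfsg.Geo.IsUnitaryFormPow 2 f₂) (hT : Cfsg.Geo.IsTensorFormStructure (fun x : F => x ^ 2) (Cfsg.hermForm n F 2) f₁ f₂ e P) : ∃ K : Subgroup (Matrix.GeneralLinearGroup (Fin n) F), Cfsg.Geo.tensorProductSubgroup 2 n₂ e P ⊓ (Cfsg.GU n F 2 ⊓ Cfsg.Geo.specialLinear (Fin n) F) < K ∧ K < (Cfsg.GU n F 2 ⊓ Cfsg.Geo.specialLinear (Fin n) F) := by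
  have hF' : Fintype.card F = 2 ^ 2 := by rw [hF]; norm_num
  have h2 : (2 : F) = 0 := by
    have := add_pow_q hF' (1 : F) 1
    linear_combination this
  obtain ⟨c, hc, hform⟩ := tensor_form_u hF' hT hf₁ hf₂
  obtain ⟨Φ₁, hΦ₁⟩ := exists_std hF' hf₁
  obtain ⟨Φ₂, hΦ₂⟩ := exists_std hF' hf₂
  have hn₂ : 7 ≤ n₂ := by
    have := Fintype.card_congr e
    simp only [Fintype.card_fin, Fintype.card_prod] at this
    omega
  obtain ⟨z, hz0, -, hzz⟩ := exists_isotropic_perp (q := 2) hF' (Fin.elim0 : Fin 0 → (Fin n₂ → F)) (by omega)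
  obtain ⟨z', hz'⟩ := exists_herm_ne_zero (q := 2) hF' hz0
  set ε : Fin 2 → (Fin 2 → F) := fun i => Φ₁ (Pi.single i 1) with hε
  have hfε : ∀ i j, f₁ (ε i) (ε j) = if i = j then 1 else 0 := by
    intro i j
    rw [hε]
    simp only
    rw [hΦ₁, hermForm_single_left, Pi.single_apply]
    by_cases hij : i = j
    · subst hij; simp
    · simp [hij]
  have hcube : ∀ t : F, t ≠ 0 → t * t ^ 2 = 1 := by
    intro t ht
    have := FiniteField.pow_card_sub_one_eq_one t ht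
    rw [hF] at this
    rw [← this]; ring
  apply not_maximal_of_two_blocks_unitary hF' (fun i => tensR e P (ε i)) (fun w w' => c * f₂ w w') ?_ ?_
    (Φ₂ z) (Φ₂ z') ?_ ?_ _ ?_
  · intro i j w w'
    show Cfsg.hermForm n F 2 (tens e P (ε i) w) (tens e P (ε j) w') = _
    rw [hform, hfε]
    split_ifs <;> simp
  · intro w hw
    by_contra hne
    obtain ⟨-, y, hy⟩ := hf₂.nondegenerate w hne
    exact mul_ne_zero hc hy (hw y)
  · show c * f₂ _ _ = 0
    rw [hΦ₂, hzz, mul_zero]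
  · show c * f₂ _ _ ≠ 0
    rw [hΦ₂]
    exact mul_ne_zero hc hz'
  · rintro g ⟨hgT, hgG⟩
    obtain ⟨a, b, hab⟩ := tensor_act e P g hgT
    have hpres : ∀ u u' w w', f₁ ((a : Matrix _ _ F) *ᵥ u) ((a : Matrix _ _ F) *ᵥ u')
        * f₂ ((b : Matrix _ _ F) *ᵥ w) ((b : Matrix _ _ F) *ᵥ w') = f₁ u u' * f₂ w w' := by
      intro u u' w w'
      have h7 : Cfsg.hermForm n F 2 ((g : Matrix _ _ F) *ᵥ tens e P u w) ((g : Matrix _ _ F) *ᵥ tens e P u' w')
        = Cfsg.hermForm n F 2 (tens e P u w) (tens e P u' w') := hgG.1 _ _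
      rw [hab, hab, hform, hform] at h7
      exact mul_left_cancel₀ hc h7
    have hcls : ∀ i, ∃ j, ∃ s : F, (a : Matrix _ _ F) *ᵥ ε i = s • ε j := by
      intro i
      have hne : f₁ ((a : Matrix _ _ F) *ᵥ ε i) ((a : Matrix _ _ F) *ᵥ ε i) ≠ 0 := by
        intro h0
        have := hpres (ε i) (ε i) (Φ₂ (Pi.single ⟨0, by omega⟩ 1)) (Φ₂ (Pi.single ⟨0, by omega⟩ 1))
        rw [h0, zero_mul, hfε, if_pos rfl, hΦ₂, hermForm_single_left] at this
        simp at this
      obtain ⟨x, hx⟩ : ∃ x, (a : Matrix _ _ F) *ᵥ ε i = Φ₁ x := ⟨Φ₁.symm _, (Φ₁.apply_symm_apply _).symm⟩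
      rw [hx, hΦ₁] at hne
      have hH : Cfsg.hermForm 2 F 2 x x = x 0 * x 0 ^ 2 + x 1 * x 1 ^ 2 := by
        unfold Cfsg.hermForm
        rw [Fin.sum_univ_two]
      rw [hH] at hne
      by_cases h0 : x 0 = 0
      · refine ⟨1, x 1, ?_⟩
        rw [hx, hε]
        simp only
        rw [← map_smul]
        congr 1
        funext j
        fin_cases j <;> simp [h0]
      · by_cases h1 : x 1 = 0
        · refine ⟨0, x 0, ?_⟩
          rw [hx, hε]
          simp only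
          rw [← map_smul]
          congr 1
          funext j
          fin_cases j <;> simp [h1]
        · exfalso
          apply hne
          rw [hcube _ h0, hcube _ h1]
          linear_combination h2
    choose σ s hs using hcls
    refine ⟨σ, s, fun w => (b : Matrix _ _ F) *ᵥ w, fun i w => ?_⟩
    show _ *ᵥ tens e P (ε i) w = s i • tens e P (ε (σ i)) _
    rw [hab, hs, tens_smul_left]

end Cfsg.Agent.S5671
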