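import Cfsg.Statements.S5674
import Cfsg.Agent.Lib.Helper29.OmParabolic
import Cfsg.Agent.Lib.Helper15.Std

set_option autoImplicit false
open Cfsg

namespace Cfsg.Agent.S5674

/-- Let F be a finite field of odd order, m ≥ 6, Q the standard quadratic form x₀² + Σ x_i y_i on F^(2m+1) and Ω the commutator subgroup of its isometry group inside GL_(2m+1)(F). The elements of Ω stabilising a non-zero subspace on which Q vanishes form a maximal subgroup of Ω. -/
theorem result {F : Type*} [Field F] [Fintype F] (hodd : Odd (Fintype.card F)) (m : ℕ) (hm : 6 ≤ m) (W : Submodule F (Unit ⊕ (Fin m ⊕ Fin m) → F)) (hW0 : W ≠ ⊥) (hW : Cfsg.Geo.IsTotallySingularQuad (Cfsg.quadFormOdd m F) W) : Cfsg.Geo.IsMaximalIn (Cfsg.Geo.omegaGL (Cfsg.quadFormOdd m F)) (Cfsg.Geo.subspaceStabilizer W ⊓ Cfsg.Geo.omegaGL (Cfsg.quadFormOdd m F)) := by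
  have h2 : (2 : F) ≠ 0 := by
    intro h
    have : CharP F 2 := CharTwo.of_one_ne_zero_of_two_eq_zero one_ne_zero h
    obtain ⟨k, -, hk⟩ := FiniteField.card F 2
    rw [hk] at hodd
    have h3 : Even (2 ^ (k : ℕ)) := (Nat.even_pow.2 ⟨even_two, k.ne_zero⟩)
    exact (Nat.not_even_iff_odd.2 hodd) h3
  revert hW
  rw [← Cfsg.Agent.Lib.Helper15.coe_oddQ]
  intro hW
  apply Cfsg.Agent.Lib.Helper29.parabolic_isMaximalIn (Cfsg.Agent.Lib.Helper15.oddQ_nondegenerate m h2)
    (by simp; omega) W hW0 hW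
  intro x _ _ _
  simp
  omega

end Cfsg.Agent.S5674
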