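import Cfsg.Statements.S5675
import Cfsg.Agent.Lib.Helper29.OmNd4
import Cfsg.Agent.Lib.Helper15.Std

set_option autoImplicit false
open Cfsg

namespace Cfsg.Agent.S5675

open Cfsg.Agent.Lib.Helper15 Cfsg.Agent.Lib.Helper29

/-- Let F be a finite field of odd order q, m ≥ 6, Q the standard quadratic form on F^(2m+1) and Ω the commutator subgroup of its isometry group. Let W be a non-zero subspace of even dimension on which the polar form of Q is non-degenerate; exclude the case q = 3, dim W = 2 with Q vanishing on some line of W (a plus-type plane). Then the elements of Ω stabilising W (equivalently, stabilising its orthogonal complement, of odd dimension) form a maximal subgroup of Ω. -/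
theorem result {F : Type*} [Field F] [Fintype F] (hodd : Odd (Fintype.card F)) (m : ℕ) (hm : 6 ≤ m) (W : Submodule F (Unit ⊕ (Fin m ⊕ Fin m) → F)) (hW0 : W ≠ ⊥) (hev : Even (Module.finrank F W)) (hW : Cfsg.Geo.IsNondegenerateOn (QuadraticMap.polar (Cfsg.quadFormOdd m F)) W) (hex : ¬ (Fintype.card F = 3 ∧ Module.finrank F W = 2 ∧ Cfsg.Geo.IsPlusTypeOn (Cfsg.quadFormOdd m F) W)) : Cfsg.Geo.IsMaximalIn (Cfsg.Geo.omegaGL (Cfsg.quadFormOdd m F)) (Cfsg.Geo.subspaceStabilizer W ⊓ Cfsg.Geo.omegaGL (Cfsg.quadFormOdd m F)) := by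
  have h2 : (2 : F) ≠ 0 := by
    intro h
    have : CharP F 2 := CharTwo.of_one_ne_zero_of_two_eq_zero one_ne_zero h
    obtain ⟨k, -, hk⟩ := FiniteField.card F 2
    rw [hk] at hodd
    have h3 : Even (2 ^ (k : ℕ)) := (Nat.even_pow.2 ⟨even_two, k.ne_zero⟩)
    exact (Nat.not_even_iff_odd.2 hodd) h3
  revert hW hex
  rw [← Cfsg.Agent.Lib.Helper15.coe_oddQ]
  intro hW hex
  have hQ' := Cfsg.Agent.Lib.Helper15.oddQ_nondegenerate (F := F) m h2
  have hn5 : 5 ≤ Fintype.card (Unit ⊕ (Fin m ⊕ Fin m)) := by simp; omega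
  have P := opair_operp W hW
  have hadd := P.finrank_add hQ'
  have hcard : Fintype.card (Unit ⊕ (Fin m ⊕ Fin m)) = 2 * m + 1 := by simp; omega
  rw [hcard] at hadd
  obtain ⟨r, hr⟩ := hev
  have hperp0 : operp (Cfsg.Agent.Lib.Helper15.oddQ m F) W ≠ ⊥ := by
    intro h
    rw [h, finrank_bot] at hadd
    omega
  by_cases hc : Module.finrank F (operp (Cfsg.Agent.Lib.Helper15.oddQ m F) W) < Module.finrank F W
  · exact P.isMaximalIn hQ' hn5 (by omega) hperp0 (not_forall_act_mem_of_lt hc)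
      (fun h2 => by omega) _ (P.stab_iff hQ')
  · refine P.symm.isMaximalIn hQ' hn5 (by omega) hW0 (not_forall_act_mem_of_lt (by omega))
      ?_ _ (P.symm.stab_iff' hQ')
    rintro hW2 ⟨e, he, he0, hQe⟩
    by_contra hlt
    apply hex
    refine ⟨?_, hW2, isPlusTypeOn_of_plane hW2 he he0 hQe⟩
    have h1 := Fintype.one_lt_card (α := F)
    have h4 := Nat.odd_iff.1 hodd
    omega

end Cfsg.Agent.S5675
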