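import Cfsg.Statements.S5678
import Cfsg.Agent.Lib.Helper15.F3Frame
import Cfsg.Agent.Lib.Helper15.Std

set_option autoImplicit false
open Cfsg

namespace Cfsg.Agent.S5678


open Matrix QuadraticMap Module Cfsg.Agent.Lib.Helper15

variable {ι : Type} [Fintype ι] [DecidableEq ι] {F : Type*} [Field F] [Fintype F]

theorem card_eq_of_decomp {t k : ℕ} (D : Fin t → Submodule F (ι → F)) (hD : Cfsg.Geo.IsMDecomposition k D) :
    Fintype.card ι = t * k := by
  have hint := DirectSum.isInternal_submodule_of_iSupIndep_of_iSup_eq_top hD.indep hD.iSup_eq_top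
  have e := LinearEquiv.ofBijective (DirectSum.coeLinearMap D) hint
  have h1 := LinearEquiv.finrank_eq e
  rw [Module.finrank_directSum, finrank_fintype_fun_eq_card] at h1
  rw [← h1]
  simp [hD.finrank_eq]

/-- the imprimitive subgroups with blocks `O_3(3)` or `O_2^-(3)` are not maximal -/
theorem not_maximal_of_decomp (hq : Fintype.card F = 3) (Q : QuadraticForm F (ι → F))
    (hQ : (polarBilin Q).Nondegenerate) (hcard : 13 ≤ Fintype.card ι) {t k : ℕ}
    (D : Fin t → Submodule F (ι → F)) (hD : Cfsg.Geo.IsOrthogonalMDecomposition ⇑Q k D)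
    (hk : k = 3 ∨ (k = 2 ∧ ∀ i, ∀ w ∈ D i, Q w = 0 → w = 0)) :
    ∃ K : Subgroup (GL ι F), Cfsg.Geo.decompositionStabilizer D ⊓ Cfsg.Geo.omegaGL ⇑Q < K ∧
      K < Cfsg.Geo.omegaGL ⇑Q := by
  have h2 := f3_two_ne hq
  have hck := card_eq_of_decomp D hD.decomp.decomp
  have hk23 : 2 ≤ k ∧ k ≤ 3 := by rcases hk with rfl | ⟨rfl, -⟩ <;> omega
  have ht : 5 ≤ t := by
    by_contra hlt
    have : t * k ≤ 4 * 3 := Nat.mul_le_mul (by omega) hk23.2
    omega
  let i0 : Fin t := ⟨0, by omega⟩
  have hnd : NDOn Q (D i0) := by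
    intro x hx hxy
    by_contra hne
    obtain ⟨-, y, hy, hxy'⟩ := hD.decomp.nondegenerate i0 x hx hne
    exact hxy' (hxy y hy)
  obtain ⟨c, hc, e0, he0, hQe0, ho0⟩ : ∃ c : F, c ≠ 0 ∧ ∃ e : Fin k → ι → F, (∀ i, e i ∈ D i0) ∧ (∀ i, Q (e i) = c) ∧
      (∀ i j, i ≠ j → polar Q (e i) (e j) = 0) := by
    rcases hk with rfl | ⟨rfl, han⟩
    · exact exists_f3_frame3 Q hq (D i0) (hD.decomp.decomp.finrank_eq i0) hnd
    · exact exists_f3_frame2 Q hq (D i0) (hD.decomp.decomp.finrank_eq i0) hnd (han i0)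
  have hiso := fun i => hD.isometric i0 i
  choose φ hφ using hiso
  have hφp : ∀ i (x y : D i0), polar Q ((φ i x : D i) : ι → F) ((φ i y : D i) : ι → F) = polar Q (x : ι → F) (y : ι → F) := by
    intro i x y
    unfold polar
    have h1 := hφ i (x + y)
    rw [map_add] at h1
    rw [hφ, hφ]
    congr 2
  let e : Fin t → Fin k → ι → F := fun i j => ((φ i ⟨e0 j, he0 j⟩ : D i) : ι → F)
  have hQe : ∀ i j, Q (e i j) = c := fun i j => by rw [← hQe0 j]; exact hφ i _
  have ho : ∀ i j j', j ≠ j' → polar Q (e i j) (e i j') = 0 := by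
    intro i j j' hjj
    rw [← ho0 j j' hjj]
    exact hφp i _ _
  apply not_maximal_of_frames Q hq hQ D ht hk23.1 hk23.2 c hc e (fun i j => Subtype.coe_prop _) hQe ho
  · intro i
    apply exists_coord_of_frame Q h2 (D i) (by rw [hD.decomp.decomp.finrank_eq i, Fintype.card_fin]) (e i)
      (fun j => Subtype.coe_prop _) (fun j => by rw [hQe]; exact hc) (ho i)
  · intro i i' hii u hu v hv
    exact hD.decomp.orthogonal i i' hii u hu v hv


/-- Let F be the field with 3 elements, m ≥ 6, Q the standard quadratic form on F^(2m+1) and Ω the commutator subgroup of its isometry group. Let D be a decomposition of F^(2m+1) into t pairwise orthogonal, pairwise Q-isometric 3-dimensional subspaces on which the polar form is non-degenerate. Then the elements of Ω permuting the members of D form a subgroup that is not maximal: some subgroup lies strictly between it and Ω. -/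
theorem result {F : Type*} [Field F] [Fintype F] (hq : Fintype.card F = 3) (m : ℕ) (hm : 6 ≤ m) {t : ℕ} (D : Fin t → Submodule F (Unit ⊕ (Fin m ⊕ Fin m) → F)) (hD : Cfsg.Geo.IsOrthogonalMDecomposition (Cfsg.quadFormOdd m F) 3 D) : ∃ K : Subgroup (Matrix.GeneralLinearGroup (Unit ⊕ (Fin m ⊕ Fin m)) F), Cfsg.Geo.decompositionStabilizer D ⊓ Cfsg.Geo.omegaGL (Cfsg.quadFormOdd m F) < K ∧ K < Cfsg.Geo.omegaGL (Cfsg.quadFormOdd m F) := by
  have := not_maximal_of_decomp hq (oddQ m F) (oddQ_nondegenerate m (f3_two_ne hq))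
    (by simp only [Fintype.card_sum, Fintype.card_fin, Fintype.card_unit]; omega) D (by rw [coe_oddQ]; exact hD)
    (Or.inl rfl)
  rw [coe_oddQ] at this
  exact this

end Cfsg.Agent.S5678
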