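import Cfsg.Statements.S5683
import Cfsg.Agent.Lib.Helper29.OmRat7
import Cfsg.Agent.Lib.Helper15.Std

set_option autoImplicit false
open Cfsg

namespace Cfsg.Agent.S5683

/-- Let F be a finite field of odd order, m ≥ 6, Q the standard quadratic form on F^(2m+1) and Ω the commutator subgroup of its isometry group. Let F₀ be a subfield with |F| = |F₀| ^ r for a prime r and P an invertible matrix such that Q takes values in F₀ on the F₀-span of the columns of P. Then the elements of Ω lying in the subfield group of P (the conjugate by P of the product of GL_(2m+1)(F₀) with the scalars) form a maximal subgroup of Ω. -/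
theorem result {F : Type*} [Field F] [Fintype F] (hodd : Odd (Fintype.card F)) (m : ℕ) (hm : 6 ≤ m) (F₀ : Subfield F) (r : ℕ) (hr : r.Prime) (hcard : Fintype.card F = Nat.card F₀ ^ r) (P : Matrix.GeneralLinearGroup (Unit ⊕ (Fin m ⊕ Fin m)) F) (hP : Cfsg.Geo.IsQuadFormRationalStructure (Cfsg.quadFormOdd m F) F₀ P) : Cfsg.Geo.IsMaximalIn (Cfsg.Geo.omegaGL (Cfsg.quadFormOdd m F)) (Cfsg.Geo.subfieldSubgroup F₀ P ⊓ Cfsg.Geo.omegaGL (Cfsg.quadFormOdd m F)) := by
  have h2 : (2 : F) ≠ 0 := by
    intro h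
    have : CharP F 2 := CharTwo.of_one_ne_zero_of_two_eq_zero one_ne_zero h
    obtain ⟨k, -, hk⟩ := FiniteField.card F 2
    rw [hk] at hodd
    have h3 : Even (2 ^ (k : ℕ)) := (Nat.even_pow.2 ⟨even_two, k.ne_zero⟩)
    exact (Nat.not_even_iff_odd.2 hodd) h3
  have hfin : Module.finrank F₀ F = r := by
    have h1 := Module.natCard_eq_pow_finrank (K := F₀) (V := F)
    rw [Nat.card_eq_fintype_card, hcard] at h1
    have h2 : 2 ≤ Nat.card F₀ := Finite.one_lt_card
    exact (Nat.pow_right_injective h2 h1).symm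
  revert hP
  rw [← Cfsg.Agent.Lib.Helper15.coe_oddQ]
  intro hP
  apply Cfsg.Agent.Lib.Helper29.subfield_isMaximalIn (Cfsg.Agent.Lib.Helper15.oddQ_nondegenerate m h2)
    (by simp; omega) (hfin ▸ hr) P
  intro x
  exact hP _ (fun i => (x i).2)

end Cfsg.Agent.S5683
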