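import Cfsg.Statements.S5686
import Cfsg.Agent.Lib.Helper15.GeoBridge

set_option autoImplicit false
open Cfsg

namespace Cfsg.Agent.S5686


open Module QuadraticMap Matrix Cfsg.Agent.Lib.Helper15


/-- Let F be a finite field with q elements, n ≥ 13 even, Q a non-degenerate quadratic form on F^n of plus type (some subspace of dimension n/2 is totally singular), and Ω the commutator subgroup of the isometry group of Q, viewed inside GL_n(F). The elements of Ω stabilising a subspace of dimension n/2 − 1 on which Q vanishes form a subgroup that is not maximal: some subgroup lies strictly between it and Ω. -/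
theorem result {F : Type*} [Field F] [Fintype F] {n : ℕ} (hn : 13 ≤ n) (heven : Even n) (Q : (Fin n → F) → F) (hQ : Cfsg.Geo.IsNondegenerateQuadraticForm Q) (hplus : Cfsg.Geo.IsPlusTypeOn Q ⊤) (W : Submodule F (Fin n → F)) (hW : Cfsg.Geo.IsTotallySingularQuad Q W) (hdim : 2 * (Module.finrank F W + 1) = n) : ∃ K : Subgroup (Matrix.GeneralLinearGroup (Fin n) F), Cfsg.Geo.subspaceStabilizer W ⊓ Cfsg.Geo.omegaGL Q < K ∧ K < Cfsg.Geo.omegaGL Q := by
  obtain ⟨Q, rfl, hQ'⟩ := exists_bundled hQ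
  obtain ⟨E, -, hE, hEm⟩ := hplus
  rw [finrank_top, finrank_fintype_fun_eq_card, Fintype.card_fin] at hEm
  set m := finrank F W + 1 with hm
  have hND := nd_of_nondegenerate hQ'
  have hV : finrank F (Fin n → F) = 2 * m := by rw [finrank_fintype_fun_eq_card, Fintype.card_fin]; omega
  have hcard : Fintype.card (Fin n) = 2 * m := by rw [Fintype.card_fin]; omega
  have hn5 : 5 ≤ Fintype.card (Fin n) := by rw [Fintype.card_fin]; omega
  have hex : Fintype.card F ≠ 2 ∨ Fintype.card (Fin n) ≠ 4 := Or.inr (by rw [Fintype.card_fin]; omega)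
  obtain ⟨W₀, h1, h2, h3⟩ := exists_half_ts_ge Q hND hV E hE (by omega) W hW
  obtain ⟨W₁, k1, k2, k3, k4, k5, k6⟩ := two_max_ts Q hND hV W hm.symm W₀ h2 h3 h1
  -- a non-zero vector of `W`
  obtain ⟨x, hxW, hx0⟩ : ∃ x ∈ W, x ≠ 0 := by
    have : W ≠ ⊥ := by
      intro h
      rw [h, finrank_bot] at hm
      omega
    exact Submodule.exists_mem_ne_zero_of_ne_bot this
  have key : ∀ (T : Submodule F (Fin n → F)) (u : Fin n → F), W ≤ T → u ∉ W → x ∉ Submodule.span F {u} := by
    intro T u _ hu hx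
    obtain ⟨c, rfl⟩ := Submodule.mem_span_singleton.1 hx
    have hc : c ≠ 0 := by rintro rfl; simp at hx0
    apply hu
    have := W.smul_mem c⁻¹ hxW
    rwa [smul_smul, inv_mul_cancel₀ hc, one_smul] at this
  refine ⟨Cfsg.Geo.subspaceStabilizer W₀ ⊓ Cfsg.Geo.omegaGL ⇑Q, ?_, ?_⟩
  · rw [lt_iff_le_not_ge]
    constructor
    · intro g hg
      rw [Subgroup.mem_inf] at hg ⊢
      obtain ⟨hgW, hgO⟩ := hg
      refine ⟨?_, hgO⟩
      obtain ⟨h, hh, rfl⟩ := (mem_omegaGL _ _).1 hgO
      rw [mem_subspaceStabilizer_iff_map] at hgW ⊢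
      have hev := even_codim_of_mem_Omega Q hQ' hex (by omega) hcard W₀ h2 h3 h hh
      have hts : ∀ u ∈ W₀.map (Matrix.mulVecLin ((h : GL (Fin n) F) : Matrix (Fin n) (Fin n) F)), Q u = 0 := by
        rintro _ ⟨w, hw, rfl⟩
        exact (Q_act h w).trans (h2 w hw)
      rcases k6 _ hts ((finrank_map_GL W₀ _).trans h3) (by rw [← hgW]; exact Submodule.map_mono h1) with h | h
      · exact h
      · exfalso
        rw [h, k5] at hev
        rcases hev with ⟨c, hc⟩
        omega
    · intro hle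
      obtain ⟨u, huW₀, huW⟩ : ∃ u ∈ W₀, u ∉ W := by
        by_contra hcon
        push Not at hcon
        have := Submodule.finrank_mono (show W₀ ≤ W from hcon)
        omega
      obtain ⟨g, hg, hgx, hgy⟩ := exists_eich_move Q hQ' hn5 x u (hW x hxW) (h2 u huW₀)
        (polar_eq_zero_of_ts Q W₀ h2 (h1 hxW) huW₀) (key W₀ u h1 huW)
      have hmem : (g : GL (Fin n) F) ∈ Cfsg.Geo.subspaceStabilizer W₀ ⊓ Cfsg.Geo.omegaGL ⇑Q := by
        refine ⟨?_, (mem_omegaGL _ _).2 ⟨g, hg, rfl⟩⟩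
        apply mem_subspaceStabilizer_of_forall
        intro w hw
        obtain ⟨c, hc⟩ := hgy w (polar_eq_zero_of_ts Q W₀ h2 huW₀ hw)
        have : ((g : GL (Fin n) F) : Matrix (Fin n) (Fin n) F) *ᵥ w = w - c • u := hc
        rw [this]
        exact W₀.sub_mem hw (W₀.smul_mem c huW₀)
      have := ((mem_subspaceStabilizer W _).1 (hle hmem).1 x).1 hxW
      have e : ((g : GL (Fin n) F) : Matrix (Fin n) (Fin n) F) *ᵥ x = x - u := hgx
      rw [e] at this
      apply huW
      have h' := W.sub_mem hxW this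
      rwa [sub_sub_cancel] at h'
  · rw [lt_iff_le_not_ge]
    refine ⟨inf_le_right, ?_⟩
    intro hle
    obtain ⟨u, huW₁, huW₀⟩ : ∃ u ∈ W₁, u ∉ W₀ := by
      by_contra hcon
      push Not at hcon
      exact k4 (Submodule.eq_of_le_of_finrank_eq (show W₁ ≤ W₀ from hcon) (by omega))
    obtain ⟨g, hg, hgx, -⟩ := exists_eich_move Q hQ' hn5 x u (hW x hxW) (k1 u huW₁)
      (polar_eq_zero_of_ts Q W₁ k1 (k3 hxW) huW₁) (key W₁ u k3 (fun h => huW₀ (h1 h)))
    have := ((mem_subspaceStabilizer W₀ _).1 (hle ((mem_omegaGL _ _).2 ⟨g, hg, rfl⟩)).1 x).1 (h1 hxW)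
    have e : ((g : GL (Fin n) F) : Matrix (Fin n) (Fin n) F) *ᵥ x = x - u := hgx
    rw [e] at this
    apply huW₀
    have h' := W₀.sub_mem (h1 hxW) this
    rwa [sub_sub_cancel] at h'

end Cfsg.Agent.S5686
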