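import Cfsg.Statements.S5687
import Cfsg.Agent.Lib.Helper29.OmParabolic

set_option autoImplicit false
open Cfsg

namespace Cfsg.Agent.S5687

/-- Let F be a finite field with q elements, n ≥ 13 even, Q a non-degenerate quadratic form on F^n of minus type (no subspace of dimension n/2 is totally singular), and Ω the commutator subgroup of the isometry group of Q, viewed inside GL_n(F). The elements of Ω stabilising a non-zero subspace on which Q vanishes form a maximal subgroup of Ω. -/
theorem result {F : Type*} [Field F] [Fintype F] {n : ℕ} (hn : 13 ≤ n) (heven : Even n) (Q : (Fin n → F) → F) (hQ : Cfsg.Geo.IsNondegenerateQuadraticForm Q) (hminus : ¬ Cfsg.Geo.IsPlusTypeOn Q ⊤) (W : Submodule F (Fin n → F)) (hW0 : W ≠ ⊥) (hW : Cfsg.Geo.IsTotallySingularQuad Q W) : Cfsg.Geo.IsMaximalIn (Cfsg.Geo.omegaGL Q) (Cfsg.Geo.subspaceStabilizer W ⊓ Cfsg.Geo.omegaGL Q) := by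
  obtain ⟨Q', rfl, hQ'⟩ := Cfsg.Agent.Lib.Helper15.exists_bundled hQ
  apply Cfsg.Agent.Lib.Helper29.parabolic_isMaximalIn hQ' (by simp; omega) W hW0 hW
  intro x hx hWx hnot hdim
  apply hminus
  have h5 : Module.finrank F W < Module.finrank F (W ⊔ Submodule.span F {x} : Submodule F (Fin n → F)) := by
    apply Submodule.finrank_lt_finrank_of_lt
    refine lt_of_le_of_ne le_sup_left ?_
    intro h
    apply hnot
    rw [h]
    exact Submodule.mem_sup_right (Submodule.mem_span_singleton_self x)
  have h6 := Cfsg.Agent.Lib.Helper15.two_mul_finrank_le_of_ts Q' (Cfsg.Agent.Lib.Helper15.nd_of_nondegenerate hQ') _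
    (Cfsg.Agent.Lib.Helper29.ts_sup_span hW hx hWx)
  rw [Module.finrank_fintype_fun_eq_card] at h6
  refine ⟨W ⊔ Submodule.span F {x}, le_top, Cfsg.Agent.Lib.Helper29.ts_sup_span hW hx hWx, ?_⟩
  rw [finrank_top, Module.finrank_fintype_fun_eq_card]
  omega

end Cfsg.Agent.S5687
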