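import Cfsg.Statements.S5689
import Cfsg.Agent.Lib.Helper29.OmNd5

set_option autoImplicit false
open Cfsg

namespace Cfsg.Agent.S5689

open Cfsg.Agent.Lib.Helper15 Cfsg.Agent.Lib.Helper29

/-- Let F be a finite field with q elements, n ≥ 13 even, Q a non-degenerate quadratic form on F^n of minus type (no subspace of dimension n/2 is totally singular), and Ω the commutator subgroup of the isometry group of Q, viewed inside GL_n(F). Let W be a non-zero proper subspace on which the polar form of Q is non-degenerate, not of odd dimension n/2. Exclude the case q ≤ 3 in which W, or its orthogonal complement, is a plane containing a line on which Q vanishes. Then the elements of Ω stabilising W form a maximal subgroup of Ω. -/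
theorem result {F : Type*} [Field F] [Fintype F] {n : ℕ} (hn : 13 ≤ n) (heven : Even n) (Q : (Fin n → F) → F) (hQ : Cfsg.Geo.IsNondegenerateQuadraticForm Q) (hminus : ¬ Cfsg.Geo.IsPlusTypeOn Q ⊤) (W : Submodule F (Fin n → F)) (hW0 : W ≠ ⊥) (hW1 : W ≠ ⊤) (hdim : ¬ (2 * Module.finrank F W = n ∧ Odd (Module.finrank F W))) (hW : Cfsg.Geo.IsNondegenerateOn (QuadraticMap.polar Q) W) (hex : ¬ (Fintype.card F ≤ 3 ∧ (∃ U : Submodule F (Fin n → F), Module.finrank F U = 2 ∧ Cfsg.Geo.IsNondegenerateOn (QuadraticMap.polar Q) U ∧ Cfsg.Geo.IsPlusTypeOn Q U ∧ (U = W ∨ (Cfsg.Geo.AreOrthogonalFor (QuadraticMap.polar Q) U W ∧ Module.finrank F U + Module.finrank F W = n))))) : Cfsg.Geo.IsMaximalIn (Cfsg.Geo.omegaGL Q) (Cfsg.Geo.subspaceStabilizer W ⊓ Cfsg.Geo.omegaGL Q) := by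
  obtain ⟨Q', rfl, hQ'⟩ := exists_bundled hQ
  have hn5 : 5 ≤ Fintype.card (Fin n) := by simp; omega
  have P := opair_operp W hW
  have hadd := P.finrank_add hQ'
  rw [Fintype.card_fin] at hadd
  have hperp0 : operp Q' W ≠ ⊥ := by
    intro h
    rw [h, finrank_bot] at hadd
    apply hW1
    apply Submodule.eq_top_of_finrank_eq
    rw [Module.finrank_fintype_fun_eq_card, Fintype.card_fin]
    omega
  have hexq : ∀ U : Submodule F (Fin n → F), Module.finrank F U = 2 →
      Cfsg.Geo.IsNondegenerateOn (QuadraticMap.polar Q') U →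
      (U = W ∨ (Cfsg.Geo.AreOrthogonalFor (QuadraticMap.polar Q') U W ∧
        Module.finrank F U + Module.finrank F W = n)) →
      (∃ e ∈ U, e ≠ 0 ∧ Q' e = 0) → 4 ≤ Fintype.card F := by
    rintro U h2 hU hor ⟨e, he, he0, hQe⟩
    by_contra hlt
    exact hex ⟨by omega, U, h2, hU, isPlusTypeOn_of_plane h2 he he0 hQe, hor⟩
  by_cases hc : Module.finrank F (operp Q' W) < Module.finrank F W
  · exact P.isMaximalIn hQ' hn5 (by omega) hperp0 (not_forall_act_mem_of_lt hc)
      (fun h2 => hexq _ h2 (P.symm.nondegOn hQ') (Or.inr ⟨P.symm.perp, by omega⟩)) _ (P.stab_iff hQ')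
  · by_cases hc2 : Module.finrank F W < Module.finrank F (operp Q' W)
    · exact P.symm.isMaximalIn hQ' hn5 (by omega) hW0 (not_forall_act_mem_of_lt hc2)
        (fun h2 => hexq _ h2 hW (Or.inl rfl)) _ (P.symm.stab_iff' hQ')
    · have h2n : 2 * Module.finrank F W = n := by omega
      have hev : Even (Module.finrank F W) := by
        rw [← Nat.not_odd_iff_even]
        exact fun ho => hdim ⟨h2n, ho⟩
      exact P.isMaximalIn hQ' hn5 (by omega) hperp0
        (fun g hg => hminus (isPlusTypeOn_top_of_swap hQ' hW hev (by rw [Fintype.card_fin]; exact h2n) g hg))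
        (fun h2 => hexq _ h2 (P.symm.nondegOn hQ') (Or.inr ⟨P.symm.perp, by omega⟩)) _ (P.stab_iff hQ')

end Cfsg.Agent.S5689
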