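import Cfsg.Statements.S5697
import Cfsg.Agent.Lib.Helper29.OmSwap

set_option autoImplicit false
open Cfsg

namespace Cfsg.Agent.S5697

open Cfsg.Agent.Lib.Helper15 Cfsg.Agent.Lib.Helper29

/-- Let F be a finite field with q elements, n ≥ 13 even, Q a non-degenerate quadratic form on F^n of plus type (some subspace of dimension n/2 is totally singular), and Ω the commutator subgroup of the isometry group of Q, viewed inside GL_n(F). Suppose n/2 is even and let D be a decomposition of F^n into two complementary subspaces of dimension n/2 on each of which Q vanishes. Then the elements of Ω preserving or interchanging the two subspaces form a maximal subgroup of Ω. -/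
theorem result {F : Type*} [Field F] [Fintype F] {n : ℕ} (hn : 13 ≤ n) (heven : Even n) (Q : (Fin n → F) → F) (hQ : Cfsg.Geo.IsNondegenerateQuadraticForm Q) (hplus : Cfsg.Geo.IsPlusTypeOn Q ⊤) (k : ℕ) (hk : 2 * k = n) (hke : Even k) (D : Fin 2 → Submodule F (Fin n → F)) (hD : Cfsg.Geo.IsMDecomposition k D) (hts : ∀ i, Cfsg.Geo.IsTotallySingularQuad Q (D i)) : Cfsg.Geo.IsMaximalIn (Cfsg.Geo.omegaGL Q) (Cfsg.Geo.decompositionStabilizer D ⊓ Cfsg.Geo.omegaGL Q) := by
  obtain ⟨Q', rfl, hQ'⟩ := exists_bundled hQ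
  have hn5 : 5 ≤ Fintype.card (Fin n) := by simp; omega
  have P : OTS Q' (D 0) (D 1) := ⟨hts 0, hts 1, exists_add_of_pair hD⟩
  have hf0 := hD.finrank_eq 0
  have hf1 := hD.finrank_eq 1
  have hk7 : 7 ≤ k := by omega
  obtain ⟨s, hsΩ, hs0, hs1⟩ := P.exists_swap hQ' (by rw [hf0]; exact hke)
  apply isMaximalIn_omega_of
  · -- a proper subgroup
    obtain ⟨u, hu, -, hu0⟩ := exists_ker_notMem_om (D 0) ⊥ (k := 0) (fun i => i.elim0) (by simp; omega)
    have hu0' : u ≠ 0 := by simpa using hu0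
    obtain ⟨u', hu', hk', hu'0⟩ := exists_ker_notMem_om (D 1) ⊥ (k := 1) ![QuadraticMap.polarBilin Q' u]
      (by simp; omega)
    have hu'0' : u' ≠ 0 := by simpa using hu'0
    have huu' : QuadraticMap.polar Q' u u' = 0 := hk' 0
    have hs : Q' (u + u') = 0 := by rw [QuadraticMap.map_add Q', P.ts u hu, P.ts' u' hu', huu']; ring
    have hs0' : u + u' ≠ 0 := by
      intro h
      apply hu0'
      apply P.disj hQ' hu
      have : u = -u' := eq_neg_of_add_eq_zero_left h
      rw [this]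
      exact (D 1).neg_mem hu'
    obtain ⟨g, hg, hgu⟩ := exists_Omega_act_eq Q' hQ' hn5 u (u + u') (P.ts u hu) hs hu0' hs0'
    refine ⟨g, hg, fun hgH => ?_⟩
    rcases pairStab_cases hgH with h | h
    · have h1 := h u hu
      have h2 : u + u' ∈ D 0 := by rw [← hgu]; exact h1
      exact hu'0' (P.disj hQ' (((D 0).add_mem_iff_right hu).1 h2) hu')
    · have h1 := h u hu
      have h2 : u + u' ∈ D 1 := by rw [← hgu]; exact h1
      exact hu0' (P.disj hQ' hu (((D 1).add_mem_iff_left hu').1 h2))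
  · intro M hHM g hgM _ hgH
    have hM : ∀ g ∈ Cfsg.Omega F ⇑Q', (∀ w ∈ D 0, act Q' g w ∈ D 0) → (∀ w ∈ D 1, act Q' g w ∈ D 1) → g ∈ M :=
      fun g hg h0 h1 => hHM g hg (mem_pairStab_fix _ h0 h1)
    have hsM : s ∈ M := hHM s hsΩ (mem_pairStab_swap hD _ hs0 hs1)
    by_contra hΩ
    rcases P.main hQ' hn5 (by omega) (by omega) hM hsM hs0 hs1 hΩ hgM with ⟨h0, h1⟩ | ⟨h0, h1⟩
    · exact hgH (mem_pairStab_fix _ h0 h1)
    · exact hgH (mem_pairStab_swap hD _ h0 h1)

end Cfsg.Agent.S5697
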