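import Cfsg.Statements.S5698
import Cfsg.Agent.Lib.Helper15.GeoBridge

set_option autoImplicit false
open Cfsg

namespace Cfsg.Agent.S5698


open Module QuadraticMap Matrix Cfsg.Agent.Lib.Helper15

theorem exists_perp_ne_zero {F V : Type*} [Field F] [AddCommGroup V] [Module F V] [FiniteDimensional F V]
    (Q : QuadraticForm F V) (X : Submodule F V) (hX : 2 ≤ finrank F X) (u : V) :
    ∃ x ∈ X, x ≠ 0 ∧ polar Q x u = 0 := by
  have : (X ⊓ LinearMap.ker (polarBilin Q u) : Submodule F V) ≠ ⊥ := by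
    intro h
    by_cases hle : X ≤ LinearMap.ker (polarBilin Q u)
    · rw [inf_eq_left.2 hle] at h
      rw [h, finrank_bot] at hX
      omega
    · have := finrank_inf_ker (polarBilin Q u) X hle
      rw [h, finrank_bot] at this
      omega
  obtain ⟨x, hx, hx0⟩ := Submodule.exists_mem_ne_zero_of_ne_bot this
  refine ⟨x, hx.1, hx0, ?_⟩
  rw [polar_comm]
  exact hx.2


/-- Let F be a finite field with q elements, n ≥ 13 even, Q a non-degenerate quadratic form on F^n of plus type (some subspace of dimension n/2 is totally singular), and Ω the commutator subgroup of the isometry group of Q, viewed inside GL_n(F). Suppose n/2 is odd and let D be a decomposition of F^n into two complementary subspaces of dimension n/2 on each of which Q vanishes. Then the elements of Ω preserving or interchanging the two subspaces form a subgroup that is not maximal: some subgroup lies strictly between it and Ω. -/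
theorem result {F : Type*} [Field F] [Fintype F] {n : ℕ} (hn : 13 ≤ n) (heven : Even n) (Q : (Fin n → F) → F) (hQ : Cfsg.Geo.IsNondegenerateQuadraticForm Q) (hplus : Cfsg.Geo.IsPlusTypeOn Q ⊤) (k : ℕ) (hk : 2 * k = n) (hko : Odd k) (D : Fin 2 → Submodule F (Fin n → F)) (hD : Cfsg.Geo.IsMDecomposition k D) (hts : ∀ i, Cfsg.Geo.IsTotallySingularQuad Q (D i)) : ∃ K : Subgroup (Matrix.GeneralLinearGroup (Fin n) F), Cfsg.Geo.decompositionStabilizer D ⊓ Cfsg.Geo.omegaGL Q < K ∧ K < Cfsg.Geo.omegaGL Q := by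
  obtain ⟨Q, rfl, hQ'⟩ := exists_bundled hQ
  have hcard : Fintype.card (Fin n) = 2 * k := by rw [Fintype.card_fin]; omega
  have hn5 : 5 ≤ Fintype.card (Fin n) := by rw [Fintype.card_fin]; omega
  have hex : Fintype.card F ≠ 2 ∨ Fintype.card (Fin n) ≠ 4 := Or.inr (by rw [Fintype.card_fin]; omega)
  have hdisj : D 0 ⊓ D 1 = ⊥ := (hD.indep.pairwiseDisjoint (by decide : (0 : Fin 2) ≠ 1)).eq_bot
  -- the basic move
  have move : ∀ i j : Fin 2, i ≠ j → ∃ g : Cfsg.isometryGroup F ⇑Q, g ∈ Cfsg.Omega F ⇑Q ∧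
      (∃ x ∈ D i, act Q g x ∉ D i) ∧ ∀ w ∈ D j, act Q g w ∈ D j := by
    intro i j hij
    have hdij : D i ⊓ D j = ⊥ := (hD.indep.pairwiseDisjoint hij).eq_bot
    obtain ⟨u, huj, hu0⟩ : ∃ u ∈ D j, u ≠ 0 := by
      apply Submodule.exists_mem_ne_zero_of_ne_bot
      intro h
      have := hD.finrank_eq j
      rw [h, finrank_bot] at this
      omega
    obtain ⟨x, hxi, hx0, hxu⟩ := exists_perp_ne_zero Q (D i) (by rw [hD.finrank_eq]; omega) u
    have hnot : x ∉ Submodule.span F {u} := by
      intro hx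
      have : x ∈ D i ⊓ D j := ⟨hxi, (Submodule.span_singleton_le_iff_mem u (D j)).2 huj hx⟩
      rw [hdij] at this
      exact hx0 this
    obtain ⟨g, hg, hgx, hgy⟩ := exists_eich_move Q hQ' hn5 x u (hts i x hxi) (hts j u huj) hxu hnot
    refine ⟨g, hg, ⟨x, hxi, ?_⟩, ?_⟩
    · rw [hgx]
      intro h
      have h' := (D i).sub_mem hxi h
      rw [sub_sub_cancel] at h'
      have : u ∈ D i ⊓ D j := ⟨h', huj⟩
      rw [hdij] at this
      exact hu0 this
    · intro w hw
      obtain ⟨c, hc⟩ := hgy w (polar_eq_zero_of_ts Q (D j) (hts j) huj hw)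
      rw [hc]
      exact (D j).sub_mem hw ((D j).smul_mem c huj)
  refine ⟨Cfsg.Geo.subspaceStabilizer (D 0) ⊓ Cfsg.Geo.omegaGL ⇑Q, ?_, ?_⟩
  · rw [lt_iff_le_not_ge]
    constructor
    · intro g hg
      rw [Subgroup.mem_inf] at hg ⊢
      obtain ⟨hgD, hgO⟩ := hg
      refine ⟨?_, hgO⟩
      obtain ⟨h, hh, rfl⟩ := (mem_omegaGL _ _).1 hgO
      rw [mem_subspaceStabilizer_iff_map]
      obtain ⟨σ, hσ⟩ := hgD
      have hev := even_codim_of_mem_Omega Q hQ' hex (by omega) hcard (D 0) (hts 0) (hD.finrank_eq 0) h hh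
      have h0 := hσ 0
      rw [Matrix.toLin'_apply'] at h0
      rw [h0] at hev ⊢
      obtain h | h : σ 0 = 0 ∨ σ 0 = 1 := by
        generalize σ 0 = a
        fin_cases a <;> simp
      · rw [h]
      · exfalso
        rw [h, hdisj, finrank_bot, Nat.sub_zero] at hev
        exact (Nat.not_even_iff_odd.2 hko) hev
    · intro hle
      obtain ⟨g, hg, ⟨x, hx, hgx⟩, hst⟩ := move 1 0 (by decide)
      have hmem : (g : GL (Fin n) F) ∈ Cfsg.Geo.subspaceStabilizer (D 0) ⊓ Cfsg.Geo.omegaGL ⇑Q :=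
        ⟨mem_subspaceStabilizer_of_forall _ _ hst, (mem_omegaGL _ _).2 ⟨g, hg, rfl⟩⟩
      obtain ⟨σ, hσ⟩ := (hle hmem).1
      have h0 := hσ 0
      have h1 := hσ 1
      rw [Matrix.toLin'_apply'] at h0 h1
      rw [(mem_subspaceStabilizer_iff_map _ _).1 hmem.1] at h0
      have hne : D 0 ≠ D 1 := by
        intro h
        rw [h, inf_idem] at hdisj
        have := hD.finrank_eq 1
        rw [hdisj, finrank_bot] at this
        omega
      have hσ0 : σ 0 = 0 := by
        obtain h | h : σ 0 = 0 ∨ σ 0 = 1 := by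
          generalize σ 0 = a
          fin_cases a <;> simp
        · exact h
        · rw [h] at h0; exact absurd h0 hne
      have hσ1 : σ 1 = 1 := by
        obtain h | h : σ 1 = 0 ∨ σ 1 = 1 := by
          generalize σ 1 = a
          fin_cases a <;> simp
        · have := σ.injective (h.trans hσ0.symm)
          exact absurd this (by decide)
        · exact h
      rw [hσ1] at h1
      apply hgx
      rw [← h1]
      exact ⟨x, hx, rfl⟩
  · rw [lt_iff_le_not_ge]
    refine ⟨inf_le_right, ?_⟩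
    intro hle
    obtain ⟨g, hg, ⟨x, hx, hgx⟩, -⟩ := move 0 1 (by decide)
    exact hgx (((mem_subspaceStabilizer (D 0) _).1 (hle ((mem_omegaGL _ _).2 ⟨g, hg, rfl⟩)).1 x).1 hx)

end Cfsg.Agent.S5698
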