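import Cfsg.Statements.S5699
import Cfsg.Agent.Lib.Helper29.OmBridge

set_option autoImplicit false
open Cfsg

namespace Cfsg.Agent.S5699

open Cfsg.Agent.Lib.Helper15 Cfsg.Agent.Lib.Helper29

/-- Let F be a finite field with q elements, n ≥ 13 even, Q a non-degenerate quadratic form on F^n (of either type), and Ω the commutator subgroup of the isometry group of Q, viewed inside GL_n(F). Let D be a decomposition of F^n into two orthogonal subspaces of odd dimension n/2 on which the polar form is non-degenerate and which are not Q-isometric to each other. Then the elements of Ω permuting (necessarily fixing) the two subspaces form a maximal subgroup of Ω. -/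
theorem result {F : Type*} [Field F] [Fintype F] {n : ℕ} (hn : 13 ≤ n) (heven : Even n) (Q : (Fin n → F) → F) (hQ : Cfsg.Geo.IsNondegenerateQuadraticForm Q) (k : ℕ) (hk : 2 * k = n) (hko : Odd k) (D : Fin 2 → Submodule F (Fin n → F)) (hD : Cfsg.Geo.IsNondegenerateMDecomposition (QuadraticMap.polar Q) k D) (hni : ¬ Cfsg.Geo.AreIsometricFor Q (D 0) (D 1)) : Cfsg.Geo.IsMaximalIn (Cfsg.Geo.omegaGL Q) (Cfsg.Geo.decompositionStabilizer D ⊓ Cfsg.Geo.omegaGL Q) := by
  obtain ⟨Q', rfl, hQ'⟩ := exists_bundled hQ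
  have hn5 : 5 ≤ Fintype.card (Fin n) := by simp; omega
  have P : OPair Q' (D 0) (D 1) := ⟨hD.orthogonal 0 1 (by decide), exists_add_of_pair hD.decomp⟩
  have hf0 := hD.decomp.finrank_eq 0
  have hf1 := hD.decomp.finrank_eq 1
  have hk7 : 7 ≤ k := by omega
  apply isMaximalIn_omega_of
  · -- a proper subgroup
    obtain ⟨u, hu, hQu, -, hu0⟩ := exists_singular_ker_notMem Q' (D 0) ⊥ (k := 0) (fun i => i.elim0)
      (by simp; omega)
    obtain ⟨u', hu', hQu', -, hu'0⟩ := exists_singular_ker_notMem Q' (D 1) ⊥ (k := 0) (fun i => i.elim0)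
      (by simp; omega)
    have hu0' : u ≠ 0 := by simpa using hu0
    have hu'0' : u' ≠ 0 := by simpa using hu'0
    have hs : Q' (u + u') = 0 := by rw [QuadraticMap.map_add Q', hQu, hQu', P.perp u hu u' hu']; ring
    have hs0 : u + u' ≠ 0 := by
      intro h
      apply hu0'
      apply P.disj hQ' hu
      have : u = -u' := eq_neg_of_add_eq_zero_left h
      rw [this]
      exact (D 1).neg_mem hu'
    obtain ⟨g, hg, hgu⟩ := exists_Omega_act_eq Q' hQ' hn5 u (u + u') hQu hs hu0' hs0
    refine ⟨g, hg, fun hgH => ?_⟩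
    rcases pairStab_cases hgH with h | h
    · have h1 := h u hu
      have h2 : u + u' ∈ D 0 := by rw [← hgu]; exact h1
      exact hu'0' (P.disj hQ' (((D 0).add_mem_iff_right hu).1 h2) hu')
    · have h1 := h u hu
      have h2 : u + u' ∈ D 1 := by rw [← hgu]; exact h1
      exact hu0' (P.disj hQ' hu (((D 1).add_mem_iff_left hu').1 h2))
  · intro M hHM g hgM _ hgH
    have hM : ∀ g ∈ Cfsg.Omega F ⇑Q', (∀ w ∈ D 0, act Q' g w ∈ D 0) → (∀ w ∈ D 1, act Q' g w ∈ D 1) → g ∈ M :=
      fun g hg h0 h1 => hHM g hg (mem_pairStab_fix _ h0 h1)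
    by_cases c0 : ∀ w ∈ D 0, act Q' g w ∈ D 0
    · exfalso
      apply hgH
      apply mem_pairStab_fix _ c0
      intro w' hw'
      apply P.symm.mem_of_perp hQ'
      intro w hw
      have hmap := map_toLin_eq_of_forall (g : GL (Fin n) F) (D 0) (D 0) c0 rfl
      rw [← hmap] at hw
      obtain ⟨w₂, hw₂, rfl⟩ := hw
      have := polar_act g w₂ w'
      rw [P.perp w₂ hw₂ w' hw'] at this
      exact this
    · push Not at c0
      obtain ⟨w₀, hw₀, hgw₀⟩ := c0
      by_cases c1 : ∀ w ∈ D 0, act Q' g w ∈ D 1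
      · exfalso
        apply hni
        let f : D 0 →ₗ[F] D 1 := (Matrix.mulVecLin ((g : GL (Fin n) F) : Matrix (Fin n) (Fin n) F)).restrict c1
        have hinj : Function.Injective f := by
          intro a b hab
          apply Subtype.ext
          apply mulVec_injective_GL (g : GL (Fin n) F)
          exact congrArg Subtype.val hab
        refine ⟨LinearEquiv.ofInjectiveOfFinrankEq f hinj (by rw [hf0, hf1]), fun w => ?_⟩
        exact Q_act g (w : Fin n → F)
      · push Not at c1
        obtain ⟨w₁, hw₁, hgw₁⟩ := c1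
        exact P.omega_le hQ' hn5 (by omega) (by omega) hM hgM hw₀ hgw₀ hw₁ hgw₁

end Cfsg.Agent.S5699
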