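import Cfsg.Statements.S5700
import Cfsg.Agent.Lib.Helper29.OmCStr3

set_option autoImplicit false
open Cfsg

namespace Cfsg.Agent.S5700

open Cfsg.Agent.Lib.Helper15 Cfsg.Agent.Lib.Helper29

/-- Let F be a finite field with q elements, n ≥ 13 even, Q a non-degenerate quadratic form on F^n (of either type), and Ω the commutator subgroup of the isometry group of Q, viewed inside GL_n(F). Let K be a subfield of the algebra of n × n matrices over F containing the scalars, of degree 2 over F, closed under adjoints for the polar form of Q but not consisting of self-adjoint elements, and such that every k in K rescales Q (Q(k v) = c Q(v) for a constant c depending on k). Then the elements of Ω normalising K form a maximal subgroup of Ω. -/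
theorem result {F : Type*} [Field F] [Fintype F] {n : ℕ} (hn : 13 ≤ n) (heven : Even n) (Q : (Fin n → F) → F) (hQ : Cfsg.Geo.IsNondegenerateQuadraticForm Q) (K : Subalgebra F (Matrix (Fin n) (Fin n) F)) (hK : Cfsg.Geo.IsFieldSubalgebra 2 K) (hac : Cfsg.Geo.IsAdjointClosedFor (QuadraticMap.polar Q) K) (hnsa : ¬ Cfsg.Geo.IsSelfAdjointFor (QuadraticMap.polar Q) K) (hsc : ∀ k ∈ K, ∃ c : F, ∀ v : (Fin n → F), Q (Matrix.mulVec k v) = c * Q v) : Cfsg.Geo.IsMaximalIn (Cfsg.Geo.omegaGL Q) (Cfsg.Geo.subalgebraNormalizer K ⊓ Cfsg.Geo.omegaGL Q) := by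
  obtain ⟨Q', rfl, hQ'⟩ := exists_bundled hQ
  have hn5 : 5 ≤ Fintype.card (Fin n) := by simp; omega
  have hn11 : 11 ≤ Fintype.card (Fin n) := by simp; omega
  have : Nonempty (Fin n) := ⟨⟨0, by omega⟩⟩
  obtain ⟨lam, t, N, hlamK, hlam, hspan, S⟩ := exists_cstr hQ' K hK hac hnsa hsc
  apply isMaximalIn_omega_of
  · exact exists_omega_not_normalizer hQ' hn5 K hlamK hspan S
  · intro M hHM g hgM _ hgH
    apply S.omega_le hQ' hn11 _ _ hgM
    · rintro ⟨α, β, h⟩
      exact hgH (mem_normalizer_of_conj K hlamK hlam hspan _ α β h)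
    · intro y c hy hyc
      apply hHM _ (eich_mem_Omega Q' hQ' hn5 _ _ _ _)
      apply mem_normalizer_of_commute K hspan
      intro x
      exact S.act_T_L c hy hyc x
    · intro u w h1 h2 p1 p2 p3 p4
      apply hHM _ (Subgroup.mul_mem _ (eich_mem_Omega Q' hQ' hn5 _ _ _ _) (eich_mem_Omega Q' hQ' hn5 _ _ _ _))
      apply mem_normalizer_of_commute K hspan
      intro x
      exact S.act_U_L p1 h1 p2 p3 p4 x

end Cfsg.Agent.S5700
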