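import Cfsg.Statements.S5702
import Cfsg.Agent.Lib.Helper29.OmRat7

set_option autoImplicit false
open Cfsg

namespace Cfsg.Agent.S5702

open Cfsg.Agent.Lib.Helper15 Cfsg.Agent.Lib.Helper29

theorem comm_map_congr {G : Type*} [Group G] {K K' : Subgroup G} (h : K = K') :
    (commutator K).map K.subtype = (commutator K').map K'.subtype := by
  subst h; rfl

/-- Let F be a finite field with q elements, n ≥ 13 even, Q a non-degenerate quadratic form on F^n (of either type), and Ω the commutator subgroup of the isometry group of Q, viewed inside GL_n(F). Let F₀ be a subfield with |F| = |F₀| ^ r for a prime r, ζ a non-zero scalar and P an invertible matrix such that ζ·Q takes values in F₀ on the F₀-span of the columns of P. Then the elements of Ω lying in the subfield group of P (the conjugate by P of the product of GL_n(F₀) with the scalars) form a maximal subgroup of Ω. -/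
theorem result {F : Type*} [Field F] [Fintype F] {n : ℕ} (hn : 13 ≤ n) (heven : Even n) (Q : (Fin n → F) → F) (hQ : Cfsg.Geo.IsNondegenerateQuadraticForm Q) (F₀ : Subfield F) (r : ℕ) (hr : r.Prime) (hcard : Fintype.card F = Nat.card F₀ ^ r) (P : Matrix.GeneralLinearGroup (Fin n) F) (ζ : F) (hζ : ζ ≠ 0) (hP : Cfsg.Geo.IsQuadFormRationalStructure (fun v : Fin n → F => ζ * Q v) F₀ P) : Cfsg.Geo.IsMaximalIn (Cfsg.Geo.omegaGL Q) (Cfsg.Geo.subfieldSubgroup F₀ P ⊓ Cfsg.Geo.omegaGL Q) := by
  have hfin : Module.finrank F₀ F = r := by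
    have h1 := Module.natCard_eq_pow_finrank (K := F₀) (V := F)
    rw [Nat.card_eq_fintype_card, hcard] at h1
    have h2 : 2 ≤ Nat.card F₀ := Finite.one_lt_card
    exact (Nat.pow_right_injective h2 h1).symm
  obtain ⟨Q', rfl, hQ'⟩ := exists_bundled hQ
  have hpol : ∀ x y, QuadraticMap.polar (ζ • Q') x y = ζ * QuadraticMap.polar Q' x y := by
    intro x y
    unfold QuadraticMap.polar
    simp only [QuadraticMap.smul_apply, smul_eq_mul]
    ring
  have hnd : (QuadraticMap.polarBilin (ζ • Q')).Nondegenerate := by
    apply nondegenerate_of_left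
    intro x hx
    apply hQ'.1
    intro y
    have h1 := hx y
    rw [hpol] at h1
    exact (mul_eq_zero.mp h1).resolve_left hζ
  have hiso : Cfsg.isometryGroup F ⇑Q' = Cfsg.isometryGroup F ⇑(ζ • Q') := by
    ext g
    rw [mem_iso, mem_iso]
    constructor
    · intro h v
      simp only [QuadraticMap.smul_apply, h v]
    · intro h v
      have h1 := h v
      simp only [QuadraticMap.smul_apply, smul_eq_mul] at h1
      exact mul_left_cancel₀ hζ h1
  have hom : Cfsg.Geo.omegaGL ⇑Q' = Cfsg.Geo.omegaGL ⇑(ζ • Q') := by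
    unfold Cfsg.Geo.omegaGL Cfsg.Omega
    exact comm_map_congr hiso
  rw [hom]
  apply subfield_isMaximalIn hnd (by simp; omega) (hfin ▸ hr) P
  intro x
  exact hP _ (fun i => (x i).2)

end Cfsg.Agent.S5702
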