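import Cfsg.Statements.S5705
import Cfsg.Agent.Lib.Helper15.TensorBridge
import Cfsg.Agent.Lib.Helper15.GeoBridge
import Cfsg.Agent.Lib.Helper15.Eichler

set_option autoImplicit false
open Cfsg

namespace Cfsg.Agent.S5705


open Matrix QuadraticMap Module Cfsg.Agent.Lib.Helper15
open scoped Kronecker

/-- elements conjugating `R` to `R` or its inverse -/
def NR {G : Type*} [Group G] (R : G) : Subgroup G where
  carrier := {g | g * R * g⁻¹ = R ∨ g * R * g⁻¹ = R⁻¹}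
  one_mem' := Or.inl (by group)
  mul_mem' := by
    rintro a b ha hb
    have e : (a * b) * R * (a * b)⁻¹ = a * (b * R * b⁻¹) * a⁻¹ := by group
    show _ = _ ∨ _ = _
    rw [e]
    rcases hb with hb | hb
    · rw [hb]; exact ha
    · rw [hb]
      have e2 : a * R⁻¹ * a⁻¹ = (a * R * a⁻¹)⁻¹ := by group
      rw [e2]
      rcases ha with ha | ha
      · right; rw [ha]
      · left; rw [ha, inv_inv]
  inv_mem' := by
    rintro a ha
    show _ = _ ∨ _ = _
    rcases ha with ha | ha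
    · left
      calc a⁻¹ * R * a⁻¹⁻¹ = a⁻¹ * (a * R * a⁻¹) * a := by rw [ha, inv_inv]
        _ = R := by group
    · right
      have : R = (a * R * a⁻¹)⁻¹ := by rw [ha, inv_inv]
      calc a⁻¹ * R * a⁻¹⁻¹ = a⁻¹ * (a * R * a⁻¹)⁻¹ * a := by rw [← this, inv_inv]
        _ = R⁻¹ := by group

variable {ι : Type} [Fintype ι] [DecidableEq ι] {F : Type*} [Field F] [Fintype F]

theorem not_maximal_of_rho (Q : QuadraticForm F (ι → F)) (h2 : (2 : F) = 0) (hQ : (polarBilin Q).Nondegenerate)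
    (hn : 5 ≤ Fintype.card ι)
    {W : Type*} [AddCommGroup W] [Module F W] (τ₀ τ₁ : W →ₗ[F] (ι → F))
    (h00 : ∀ a b, polar Q (τ₀ a) (τ₀ b) = 0) (h11 : ∀ a b, polar Q (τ₁ a) (τ₁ b) = 0)
    (hQ0 : ∀ a, Q (τ₀ a) = 0) (hQ1 : ∀ a, Q (τ₁ a) = 0)
    (halt : ∀ a, polar Q (τ₀ a) (τ₁ a) = 0)
    (hsymm : ∀ a b, polar Q (τ₀ a) (τ₁ b) = polar Q (τ₀ b) (τ₁ a))
    (hnd : ∀ a, (∀ b, polar Q (τ₀ b) (τ₁ a) = 0) → a = 0)
    (R : Cfsg.isometryGroup F ⇑Q) (hR0 : ∀ a, act Q R (τ₀ a) = τ₁ a)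
    (hR1 : ∀ a, act Q R (τ₁ a) = τ₀ a + τ₁ a)
    (w₁ w₂ w' : W) (hw₂ : w₂ ≠ 0) (h12 : polar Q (τ₀ w₁) (τ₁ w₂) = 0)
    (h1' : polar Q (τ₀ w₁) (τ₁ w') = 1) (h2' : polar Q (τ₀ w₂) (τ₁ w') = 0)
    (T : Subgroup (GL ι F))
    (hT1 : ∀ g : Cfsg.isometryGroup F ⇑Q, (g : GL ι F) ∈ T → g ∈ NR R)
    (hT2 : ∀ g ∈ T, ∃ (c₀ c₁ : F) (b : W → W), ∀ w, (g : Matrix ι ι F) *ᵥ τ₀ w = c₀ • τ₀ (b w) + c₁ • τ₁ (b w)) :
    ∃ K : Subgroup (GL ι F), T ⊓ Cfsg.Geo.omegaGL ⇑Q < K ∧ K < Cfsg.Geo.omegaGL ⇑Q := by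
  have hv2 : ∀ z : ι → F, z + z = 0 := by
    intro z
    rw [← two_smul F z, h2, zero_smul]
  have h10 : ∀ a b, polar Q (τ₁ a) (τ₀ b) = polar Q (τ₀ b) (τ₁ a) := fun a b => polar_comm _ _ _
  let K : Subgroup (GL ι F) := (Cfsg.Omega F ⇑Q ⊓ NR R).map (Cfsg.isometryGroup F ⇑Q).subtype
  have hKmem : ∀ g : Cfsg.isometryGroup F ⇑Q, (g : GL ι F) ∈ K ↔ g ∈ Cfsg.Omega F ⇑Q ∧ g ∈ NR R := by
    intro g
    constructor
    · rintro ⟨g', hg', e⟩
      have : g' = g := Subtype.ext e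
      rw [← this]; exact hg'
    · intro h
      exact ⟨g, h, rfl⟩
  refine ⟨K, ?_, ?_⟩
  · rw [SetLike.lt_iff_le_and_exists]
    constructor
    · rintro g ⟨hgT, hgΩ⟩
      obtain ⟨g', hg', rfl⟩ := (mem_omegaGL _ _).1 hgΩ
      exact (hKmem g').2 ⟨hg', hT1 g' hgT⟩
    · set u : ι → F := τ₀ w₁ + τ₁ w₂ with hu
      have hQu : Q u = 0 := by
        rw [hu, QuadraticMap.map_add Q, hQ0, hQ1, h12]; ring
      have hRu : act Q R u = τ₀ w₂ + τ₁ (w₁ + w₂) := by
        rw [hu, act_add, hR0, hR1, map_add]; abel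
      have hRRu : act Q R (act Q R u) = u + act Q R u := by
        rw [hRu, act_add, hR0, hR1, hu, map_add, map_add]
        abel
      have huRu : polar Q u (act Q R u) = 0 := by
        rw [hRu, hu, polar_add_left, polar_add_right, polar_add_right, h00, h11, h10, map_add,
          polar_add_right, halt, halt, h12]
        ring
      have hpu0 : ∀ x, polar Q u (τ₀ x) = polar Q (τ₀ x) (τ₁ w₂) := by
        intro x
        rw [hu, polar_add_left, h00, h10, zero_add]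
      have hpRu0 : ∀ x, polar Q (act Q R u) (τ₀ x) = polar Q (τ₀ x) (τ₁ w₁) + polar Q (τ₀ x) (τ₁ w₂) := by
        intro x
        rw [hRu, polar_add_left, h00, h10, zero_add, map_add, polar_add_right]
      have hQRu : Q (act Q R u) = 0 := by rw [Q_act, hQu]
      let r : Cfsg.isometryGroup F ⇑Q := eich Q u (act Q R u) hQu huRu
      have hrΩ : r ∈ Cfsg.Omega F ⇑Q := eich_mem_Omega Q hQ hn u _ hQu huRu
      have hc : R * r * R⁻¹ = r := by
        show R * eich Q u (act Q R u) hQu huRu * R⁻¹ = eich Q u (act Q R u) hQu huRu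
        rw [conj_eich]
        apply iso_ext
        intro x
        rw [act_eich, act_eich, Q_act, hQRu, hRRu, polar_add_left]
        linear_combination (norm := module) (polar Q (act Q R u) x * h2) • u
          - (polar Q u x * h2) • (act Q R u)
      have hrN : r ∈ NR R := by
        left
        calc r * R * r⁻¹ = (R * r * R⁻¹) * R * r⁻¹ := by rw [hc]
          _ = R := by group
      refine ⟨(r : GL ι F), (hKmem r).2 ⟨hrΩ, hrN⟩, ?_⟩
      rintro ⟨hrT, -⟩
      obtain ⟨c₀, c₁, b, hb⟩ := hT2 _ hrT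
      have e1 : act Q r (τ₀ w₂) = τ₀ w₂ := by
        show act Q (eich Q u (act Q R u) hQu huRu) (τ₀ w₂) = τ₀ w₂
        rw [act_eich, hpu0, hpRu0, halt, hsymm w₂ w₁, h12]
        simp
      have e2 : act Q r (τ₀ w') = τ₀ w' - u := by
        show act Q (eich Q u (act Q R u) hQu huRu) (τ₀ w') = _
        rw [act_eich, hpu0, hpRu0, hsymm w' w₂, h2', hsymm w' w₁, h1']
        simp
      have f1 : τ₀ w₂ = c₀ • τ₀ (b w₂) + c₁ • τ₁ (b w₂) := by rw [← hb]; exact e1.symm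
      have f2 : τ₀ w' - u = c₀ • τ₀ (b w') + c₁ • τ₁ (b w') := by rw [← hb]; exact e2.symm
      have hc1 : c₁ = 0 := by
        by_contra hne
        have hb0 : b w₂ = 0 := by
          apply hnd
          intro x
          have := congrArg (fun v => polar Q (τ₀ x) v) f1
          simp only [polar_add_right, polar_smul_right, h00, smul_eq_mul, mul_zero, zero_add] at this
          exact (mul_eq_zero.1 this.symm).resolve_left hne
        rw [hb0, map_zero, map_zero, smul_zero, smul_zero, add_zero] at f1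
        apply hw₂
        apply hnd
        intro x
        rw [hsymm, f1]; simp
      apply hw₂
      apply hnd
      intro x
      have := congrArg (fun v => polar Q (τ₀ x) v) f2
      simp only [hc1, hu, polar_add_right, polar_sub_right, polar_smul_right, h00, smul_eq_mul, mul_zero, zero_add,
        zero_mul, add_zero, zero_sub] at this
      exact neg_eq_zero.1 this
  · rw [SetLike.lt_iff_le_and_exists]
    constructor
    · rintro _ ⟨g', hg', rfl⟩
      exact (mem_omegaGL _ _).2 ⟨g', hg'.1, rfl⟩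
    · let r : Cfsg.isometryGroup F ⇑Q := eich Q (τ₀ w₁) (τ₀ w₂) (hQ0 w₁) (h00 w₁ w₂)
      have hrΩ : r ∈ Cfsg.Omega F ⇑Q := eich_mem_Omega Q hQ hn _ _ (hQ0 w₁) (h00 w₁ w₂)
      refine ⟨(r : GL ι F), (mem_omegaGL _ _).2 ⟨r, hrΩ, rfl⟩, ?_⟩
      intro hK
      have hN := ((hKmem r).1 hK).2
      have e1 : act Q r (τ₀ w') = τ₀ w' := by
        show act Q (eich Q (τ₀ w₁) (τ₀ w₂) (hQ0 w₁) (h00 w₁ w₂)) (τ₀ w') = _
        rw [act_eich, h00, h00]; simp
      have e2 : act Q r (τ₁ w') = τ₁ w' + τ₀ w₂ := by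
        show act Q (eich Q (τ₀ w₁) (τ₀ w₂) (hQ0 w₁) (h00 w₁ w₂)) (τ₁ w') = _
        rw [act_eich, h1', h2', hQ0]; simp
      rcases hN with hN | hN
      · have h3 : r * R = R * r := by
          calc r * R = (r * R * r⁻¹) * r := by group
            _ = R * r := by rw [hN]
        have h4 := congrArg (fun g => act Q g (τ₀ w')) h3
        simp only [act_mul, hR0, e1, e2] at h4
        have h5 : τ₀ w₂ = 0 := by
          have : τ₁ w' + τ₀ w₂ = τ₁ w' + 0 := by rw [h4, add_zero]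
          exact add_left_cancel this
        apply hw₂
        apply hnd
        intro x
        rw [hsymm, h5]; simp
      · have h3 : R * r * R = r := by
          calc R * r * R = R * (r * R * r⁻¹) * r := by group
            _ = r := by rw [hN]; group
        have h4 := congrArg (fun g => act Q g (τ₀ w')) h3
        simp only [act_mul, hR0, e1, e2, act_add, hR1] at h4
        have h5 : τ₁ w' + τ₁ w₂ = 0 := by
          have : τ₀ w' + (τ₁ w' + τ₁ w₂) = τ₀ w' + 0 := by rw [add_zero, ← add_assoc]; exact h4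
          exact add_left_cancel this
        have h6 := congrArg (fun v => polar Q (τ₀ w₁) v) h5
        simp only [polar_add_right, h1', h12] at h6
        simp at h6

omit [Fintype F] in
theorem key_f2 (h01 : ∀ x : F, x = 0 ∨ x = 1) (h11 : (1 : F) + 1 = 0) (x y z t : F) (hdet : x * t - y * z ≠ 0) :
    (y = z ∧ t = x + y) ∨ (t = x ∧ y = x + z) := by
  rcases h01 x with rfl | rfl <;> rcases h01 y with rfl | rfl <;> rcases h01 z with rfl | rfl <;>
    rcases h01 t with rfl | rfl <;> simp [h11] at hdet ⊢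

theorem not_maximal_of_rho' (Q : QuadraticForm F (ι → F)) (h01 : ∀ x : F, x = 0 ∨ x = 1) (h2 : (2 : F) = 0)
    (hQ : (polarBilin Q).Nondegenerate) (hn : 5 ≤ Fintype.card ι)
    {W : Type*} [AddCommGroup W] [Module F W] (τ₀ τ₁ : W →ₗ[F] (ι → F))
    (h00 : ∀ a b, polar Q (τ₀ a) (τ₀ b) = 0) (h11 : ∀ a b, polar Q (τ₁ a) (τ₁ b) = 0)
    (hQ0 : ∀ a, Q (τ₀ a) = 0) (hQ1 : ∀ a, Q (τ₁ a) = 0)
    (halt : ∀ a, polar Q (τ₀ a) (τ₁ a) = 0)
    (hsymm : ∀ a b, polar Q (τ₀ a) (τ₁ b) = polar Q (τ₀ b) (τ₁ a))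
    (hnd : ∀ a, (∀ b, polar Q (τ₀ b) (τ₁ a) = 0) → a = 0)
    (hspan : ∀ v, ∃ a b, v = τ₀ a + τ₁ b)
    (Rg : GL ι F) (hR0 : ∀ a, (Rg : Matrix ι ι F) *ᵥ τ₀ a = τ₁ a)
    (hR1 : ∀ a, (Rg : Matrix ι ι F) *ᵥ τ₁ a = τ₀ a + τ₁ a)
    (w₁ w₂ w' : W) (hw₂ : w₂ ≠ 0) (h12 : polar Q (τ₀ w₁) (τ₁ w₂) = 0)
    (h1' : polar Q (τ₀ w₁) (τ₁ w') = 1) (h2' : polar Q (τ₀ w₂) (τ₁ w') = 0)
    (T : Subgroup (GL ι F))
    (hT : ∀ g ∈ T, ∃ (x y z t : F) (b : W → W), x * t - y * z ≠ 0 ∧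
      ∀ w, (g : Matrix ι ι F) *ᵥ τ₀ w = x • τ₀ (b w) + z • τ₁ (b w) ∧
        (g : Matrix ι ι F) *ᵥ τ₁ w = y • τ₀ (b w) + t • τ₁ (b w)) :
    ∃ K : Subgroup (GL ι F), T ⊓ Cfsg.Geo.omegaGL ⇑Q < K ∧ K < Cfsg.Geo.omegaGL ⇑Q := by
  have hRiso : Rg ∈ Cfsg.isometryGroup F ⇑Q := by
    rw [mem_iso]
    intro v
    obtain ⟨a, b, rfl⟩ := hspan v
    rw [Matrix.mulVec_add, hR0, hR1, QuadraticMap.map_add Q, QuadraticMap.map_add Q (τ₀ b),
      QuadraticMap.map_add Q (τ₀ a), hQ0, hQ1, hQ0, hQ1, halt, polar_add_right, h11, polar_comm, hsymm]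
    ring
  let R : Cfsg.isometryGroup F ⇑Q := ⟨Rg, hRiso⟩
  have hR0' : ∀ a, act Q R (τ₀ a) = τ₁ a := hR0
  have hR1' : ∀ a, act Q R (τ₁ a) = τ₀ a + τ₁ a := hR1
  have hext : ∀ g h : Cfsg.isometryGroup F ⇑Q, (∀ w, act Q g (τ₀ w) = act Q h (τ₀ w)) →
      (∀ w, act Q g (τ₁ w) = act Q h (τ₁ w)) → g = h := by
    intro g h H0 H1
    apply iso_ext
    intro v
    obtain ⟨a, b, rfl⟩ := hspan v
    rw [act_add, act_add, H0, H1]
  apply not_maximal_of_rho Q h2 hQ hn τ₀ τ₁ h00 h11 hQ0 hQ1 halt hsymm hnd R hR0' hR1' w₁ w₂ w' hw₂ h12 h1' h2' T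
  · intro g hg
    obtain ⟨x, y, z, t, b, hdet, hb⟩ := hT _ hg
    have g0 : ∀ w, act Q g (τ₀ w) = x • τ₀ (b w) + z • τ₁ (b w) := fun w => (hb w).1
    have g1 : ∀ w, act Q g (τ₁ w) = y • τ₀ (b w) + t • τ₁ (b w) := fun w => (hb w).2
    have h11' : (1 : F) + 1 = 0 := by rw [← h2]; norm_num
    have key := key_f2 h01 h11' x y z t hdet
    rcases key with ⟨rfl, rfl⟩ | ⟨rfl, rfl⟩
    · left
      have h3 : g * R = R * g := by
        apply hext
        · intro w
          rw [act_mul, act_mul, hR0', g0, g1, act_add, act_smul, act_smul, hR0', hR1']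
          module
        · intro w
          rw [act_mul, act_mul, hR1', act_add, g0, g1, act_add, act_smul, act_smul, hR0', hR1']
          module
      calc g * R * g⁻¹ = R * g * g⁻¹ := by rw [h3]
        _ = R := by group
    · right
      have h3 : R * g * R = g := by
        apply hext
        · intro w
          rw [act_mul, act_mul, hR0', g0, g1, act_add, act_smul, act_smul, hR0', hR1']
          linear_combination (norm := module) (t * h2) • τ₁ (b w)
        · intro w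
          rw [act_mul, act_mul, hR1', act_add, g0, g1, act_add, act_add, act_add, act_smul, act_smul, act_smul,
            act_smul, hR0', hR1']
          linear_combination (norm := module) ((t + z) * h2) • τ₁ (b w)
      calc g * R * g⁻¹ = R⁻¹ * (R * g * R) * g⁻¹ := by group
        _ = R⁻¹ := by rw [h3]; group
  · intro g hg
    obtain ⟨x, y, z, t, b, -, hb⟩ := hT _ hg
    exact ⟨x, z, b, fun w => (hb w).1⟩

omit [Fintype F] in
theorem tensor_mk {n₁ n₂ : ℕ} (e : ι ≃ Fin n₁ × Fin n₂) (P : GL ι F) (a : GL (Fin n₁) F) (b : GL (Fin n₂) F) :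
    ∃ g : GL ι F, ∀ u w, (g : Matrix ι ι F) *ᵥ tens e P u w
      = tens e P ((a : Matrix (Fin n₁) (Fin n₁) F) *ᵥ u) ((b : Matrix (Fin n₂) (Fin n₂) F) *ᵥ w) := by
  let k : GL (Fin n₁ × Fin n₂) F := ⟨(a : Matrix (Fin n₁) (Fin n₁) F) ⊗ₖ (b : Matrix (Fin n₂) (Fin n₂) F),
    ((a⁻¹ : GL (Fin n₁) F) : Matrix (Fin n₁) (Fin n₁) F) ⊗ₖ ((b⁻¹ : GL (Fin n₂) F) : Matrix (Fin n₂) (Fin n₂) F),
    by rw [← Matrix.mul_kronecker_mul, ← Units.val_mul, ← Units.val_mul, mul_inv_cancel, mul_inv_cancel,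
      Units.val_one, Units.val_one, Matrix.one_kronecker_one],
    by rw [← Matrix.mul_kronecker_mul, ← Units.val_mul, ← Units.val_mul, inv_mul_cancel, inv_mul_cancel,
      Units.val_one, Units.val_one, Matrix.one_kronecker_one]⟩
  have hk : (k : Matrix (Fin n₁ × Fin n₂) (Fin n₁ × Fin n₂) F)
      = (a : Matrix (Fin n₁) (Fin n₁) F) ⊗ₖ (b : Matrix (Fin n₂) (Fin n₂) F) := rfl
  refine ⟨(MulAut.conj P).toMonoidHom ((Cfsg.Geo.glReindex e.symm).toMonoidHom k), fun u w => ?_⟩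
  unfold tens
  have h1 : (((MulAut.conj P).toMonoidHom ((Cfsg.Geo.glReindex e.symm).toMonoidHom k) : GL ι F) : Matrix ι ι F)
      = (P : Matrix ι ι F) * (k : Matrix _ _ F).submatrix e e * ((P⁻¹ : GL ι F) : Matrix ι ι F) := by
    rfl
  rw [h1, Matrix.mulVec_mulVec, mul_assoc, ← Units.val_mul, inv_mul_cancel, Units.val_one, mul_one,
    ← Matrix.mulVec_mulVec, Matrix.submatrix_mulVec_equiv, hk]
  congr 2
  rw [← kron_mulVec_pt]
  congr 1
  funext p
  simp

omit [Fintype F] in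
theorem tens_span {n₂ : ℕ} (e : ι ≃ Fin 2 × Fin n₂) (P : GL ι F) (v : ι → F) :
    ∃ a b, v = tens e P (Pi.single 0 1) a + tens e P (Pi.single 1 1) b := by
  set y : Fin 2 × Fin n₂ → F := (((P⁻¹ : GL ι F) : Matrix ι ι F) *ᵥ v) ∘ e.symm with hy
  refine ⟨fun j => y (0, j), fun j => y (1, j), ?_⟩
  unfold tens
  rw [← Matrix.mulVec_add]
  have : pt (Pi.single 0 1) (fun j => y (0, j)) ∘ e + pt (Pi.single 1 1) (fun j => y (1, j)) ∘ e
      = ((P⁻¹ : GL ι F) : Matrix ι ι F) *ᵥ v := by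
    funext i
    simp only [Pi.add_apply, Function.comp, pt]
    obtain ⟨p, hp⟩ : ∃ p, e i = p := ⟨_, rfl⟩
    have hyi : y p = (((P⁻¹ : GL ι F) : Matrix ι ι F) *ᵥ v) i := by
      rw [hy, ← hp]; simp
    rw [hp, ← hyi]
    obtain ⟨p1, p2⟩ := p
    fin_cases p1 <;> simp
  rw [this, Matrix.mulVec_mulVec, ← Units.val_mul, mul_inv_cancel, Units.val_one, Matrix.one_mulVec]


/-- Let F be the field with 2 elements, n = 2 n₂ ≥ 13 even, Q a non-degenerate quadratic form on F^n of plus type and Ω the commutator subgroup of its isometry group. Suppose that, through P and e, the polar form of Q is similar to the tensor product of non-degenerate symplectic forms f₁ on F^2 and f₂ on F^(n₂), and Q vanishes on the images of all pure tensors. Then the elements of Ω in the stabiliser of this tensor decomposition form a subgroup that is not maximal: some subgroup lies strictly between it and Ω. -/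
theorem result {F : Type*} [Field F] [Fintype F] {n : ℕ} (hn : 13 ≤ n) (heven : Even n) (Q : (Fin n → F) → F) (hQ : Cfsg.Geo.IsNondegenerateQuadraticForm Q) (hplus : Cfsg.Geo.IsPlusTypeOn Q ⊤) (hq : Fintype.card F = 2) (n₂ : ℕ) (h2 : 2 < n₂) (e : (Fin n) ≃ Fin 2 × Fin n₂) (P : Matrix.GeneralLinearGroup (Fin n) F) (f₁ : (Fin 2 → F) → (Fin 2 → F) → F) (f₂ : (Fin n₂ → F) → (Fin n₂ → F) → F) (hf₁ : Cfsg.Geo.IsSymplecticForm f₁) (hf₂ : Cfsg.Geo.IsSymplecticForm f₂) (hT : Cfsg.Geo.IsTensorFormStructure id (QuadraticMap.polar Q) f₁ f₂ e P) (hpure : (∀ (x₁ : Fin 2 → F) (x₂ : Fin n₂ → F), Q (Matrix.mulVec (P : Matrix (Fin n) (Fin n) F) ((fun a : Fin 2 × Fin n₂ => x₁ a.1 * x₂ a.2) ∘ e)) = 0)) : ∃ K : Subgroup (Matrix.GeneralLinearGroup (Fin n) F), Cfsg.Geo.tensorProductSubgroup 2 n₂ e P ⊓ Cfsg.Geo.omegaGL Q < K ∧ K < Cfsg.Geo.omegaGL Q := by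
  obtain ⟨Q', rfl, hQ'⟩ := exists_bundled hQ
  have h01 : ∀ x : F, x = 0 ∨ x = 1 := by
    intro x
    have h := FiniteField.pow_card x
    rw [hq] at h
    have h3 : x * (x - 1) = 0 := by linear_combination h
    rcases mul_eq_zero.1 h3 with h4 | h4
    · exact Or.inl h4
    · exact Or.inr (sub_eq_zero.1 h4)
  have h20 : (2 : F) = 0 := by
    rcases h01 2 with h | h
    · exact h
    · exfalso
      have : (1 : F) = 0 := by linear_combination h
      exact one_ne_zero this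
  have hneg : ∀ x : F, -x = x := by
    intro x
    linear_combination (-x) * h20
  obtain ⟨c, hc, hform⟩ := tensor_form hT hf₁.bilinear hf₂.bilinear
  have hc1 : c = 1 := (h01 c).resolve_left hc
  subst hc1
  set e₀ : Fin 2 → F := Pi.single 0 1 with he₀
  set e₁ : Fin 2 → F := Pi.single 1 1 with he₁
  have hdec : ∀ y : Fin 2 → F, y = y 0 • e₀ + y 1 • e₁ := by
    intro y
    funext i
    fin_cases i <;> simp [he₀, he₁]
  have hf01 : f₁ e₀ e₁ = 1 := by
    have hne : e₀ ≠ 0 := by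
      intro h
      have := congrFun h 0
      simp [he₀] at this
    obtain ⟨-, y, hy⟩ := hf₁.nondegenerate e₀ hne
    apply (h01 _).resolve_left
    intro h0
    apply hy
    rw [hdec y, hf₁.bilinear.add_right, hf₁.bilinear.smul_right, hf₁.bilinear.smul_right, hf₁.alternating, h0]
    ring
  have hp01 : ∀ a b, polar Q' (tensR e P e₀ a) (tensR e P e₁ b) = f₂ a b := by
    intro a b
    show polar Q' (tens e P e₀ a) (tens e P e₁ b) = _
    rw [hform, hf01]; ring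
  -- the element of order three
  let ρ : GL (Fin 2) F := ⟨!![0, 1; 1, 1], !![1, 1; 1, 0],
    by
      ext i j
      fin_cases i <;> fin_cases j <;> simp [Matrix.mul_apply, Fin.sum_univ_two]
      linear_combination h20,
    by
      ext i j
      fin_cases i <;> fin_cases j <;> simp [Matrix.mul_apply, Fin.sum_univ_two]
      linear_combination h20⟩
  have hρ0 : (ρ : Matrix (Fin 2) (Fin 2) F) *ᵥ e₀ = e₁ := by
    funext i
    fin_cases i <;> simp [ρ, he₀, he₁, Matrix.mulVec, dotProduct, Fin.sum_univ_two]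
  have hρ1 : (ρ : Matrix (Fin 2) (Fin 2) F) *ᵥ e₁ = e₀ + e₁ := by
    funext i
    fin_cases i <;> simp [ρ, he₀, he₁, Matrix.mulVec, dotProduct, Fin.sum_univ_two]
  obtain ⟨Rg, hRg⟩ := tensor_mk e P ρ 1
  -- the vectors
  let B : LinearMap.BilinForm F (Fin n₂ → F) := LinearMap.mk₂ F f₂ hf₂.bilinear.add_left
    (fun c x v => by simpa using hf₂.bilinear.smul_left c x v) hf₂.bilinear.add_right
    (fun c x v => by simpa using hf₂.bilinear.smul_right c x v)
  let w₁ : Fin n₂ → F := Pi.single ⟨0, by omega⟩ 1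
  have hw₁ : w₁ ≠ 0 := by
    intro h
    have := congrFun h ⟨0, by omega⟩
    simp [w₁] at this
  obtain ⟨-, w', hw'⟩ := hf₂.nondegenerate w₁ hw₁
  have hw'1 : f₂ w₁ w' = 1 := (h01 _).resolve_left hw'
  let L : (Fin n₂ → F) →ₗ[F] F × F := (B w₁).prod (B.flip w')
  have hker : LinearMap.ker L ≠ ⊥ := by
    apply LinearMap.ker_ne_bot_of_finrank_lt
    rw [Module.finrank_prod, Module.finrank_self, Module.finrank_fintype_fun_eq_card, Fintype.card_fin]
    omega
  obtain ⟨w₂, hw₂m, hw₂⟩ := Submodule.exists_mem_ne_zero_of_ne_bot hker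
  have hL : L w₂ = 0 := hw₂m
  have hw12 : f₂ w₁ w₂ = 0 := congrArg Prod.fst hL
  have hw2' : f₂ w₂ w' = 0 := congrArg Prod.snd hL
  apply not_maximal_of_rho' Q' h01 h20 hQ' (by rw [Fintype.card_fin]; omega) (tensR e P e₀) (tensR e P e₁)
    ?_ ?_ ?_ ?_ ?_ ?_ ?_ ?_ Rg ?_ ?_ w₁ w₂ w' hw₂ ?_ ?_ ?_
  · intro g hg
    obtain ⟨a, b, hab⟩ := tensor_act e P g hg
    set A : Matrix (Fin 2) (Fin 2) F := (a : Matrix (Fin 2) (Fin 2) F) with hA
    refine ⟨A 0 0, A 0 1, A 1 0, A 1 1, fun w => (b : Matrix (Fin n₂) (Fin n₂) F) *ᵥ w, ?_, fun w => ⟨?_, ?_⟩⟩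
    · rw [← Matrix.det_fin_two]
      exact ((Matrix.isUnit_iff_isUnit_det _).1 a.isUnit).ne_zero
    · show (g : Matrix (Fin n) (Fin n) F) *ᵥ tens e P e₀ w = A 0 0 • tens e P e₀ _ + A 1 0 • tens e P e₁ _
      rw [hab, hdec (A *ᵥ e₀), tens_add_left, tens_smul_left, tens_smul_left]
      simp [he₀, Matrix.mulVec, dotProduct, Fin.sum_univ_two]
    · show (g : Matrix (Fin n) (Fin n) F) *ᵥ tens e P e₁ w = A 0 1 • tens e P e₀ _ + A 1 1 • tens e P e₁ _
      rw [hab, hdec (A *ᵥ e₁), tens_add_left, tens_smul_left, tens_smul_left]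
      simp [he₁, Matrix.mulVec, dotProduct, Fin.sum_univ_two]
  · intro a b
    show polar Q' (tens e P e₀ a) (tens e P e₀ b) = 0
    rw [hform, hf₁.alternating]; ring
  · intro a b
    show polar Q' (tens e P e₁ a) (tens e P e₁ b) = 0
    rw [hform, hf₁.alternating]; ring
  · intro a; exact hpure e₀ a
  · intro a; exact hpure e₁ a
  · intro a; rw [hp01, hf₂.alternating]
  · intro a b; rw [hp01, hp01, hf₂.skew, hneg]
  · intro a h
    by_contra hne
    obtain ⟨⟨x, hx⟩, -⟩ := hf₂.nondegenerate a hne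
    exact hx (by rw [← hp01]; exact h x)
  · intro v; exact tens_span e P v
  · intro a
    show (Rg : Matrix (Fin n) (Fin n) F) *ᵥ tens e P e₀ a = tens e P e₁ a
    rw [hRg, hρ0]; simp
  · intro a
    show (Rg : Matrix (Fin n) (Fin n) F) *ᵥ tens e P e₁ a = tens e P e₀ a + tens e P e₁ a
    rw [hRg, hρ1, tens_add_left]; simp
  · rw [hp01]; exact hw12
  · rw [hp01]; exact hw'1
  · rw [hp01]; exact hw2'

end Cfsg.Agent.S5705
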