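import Cfsg.Statements.S5952


set_option autoImplicit false
open Cfsg

namespace Cfsg.Agent.S5952


theorem exists_sub {F V : Type*} [Field F] [AddCommGroup V] [Module F V]
    [FiniteDimensional F V] (C : Submodule F V) (k : ℕ) (hk : k ≤ Module.finrank F C) :
    ∃ W : Submodule F V, W ≤ C ∧ Module.finrank F W = k := by
  let b := Module.finBasis F C
  let v : Fin k → V := fun i => (b (Fin.castLE hk i) : V)
  have hli : LinearIndependent F v := by
    have h1 : LinearIndependent F (fun i : Fin k => b (Fin.castLE hk i)) :=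
      b.linearIndependent.comp _ (Fin.castLE_injective hk)
    exact h1.map' C.subtype (Submodule.ker_subtype C)
  refine ⟨Submodule.span F (Set.range v), ?_, ?_⟩
  · rw [Submodule.span_le]
    rintro _ ⟨i, rfl⟩
    exact (b _).2
  · rw [finrank_span_eq_card hli]
    simp

theorem chain_mod {F V : Type*} [Field F] [AddCommGroup V] [Module F V]
    [FiniteDimensional F V] (f : V →ₗ[F] V) {s a : ℕ} (U : Fin s → Submodule F V)
    (hUinv : ∀ j, (U j).map f ≤ U j) (hUdim : ∀ j, Module.finrank F ↥(U j) = a)
    (hUirr : ∀ j, ∀ W : Submodule F V, W ≤ U j → W.map f ≤ W → W = ⊥ ∨ W = U j)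
    (X : Submodule F V) (hX : X.map f ≤ X) (J : Finset (Fin s)) :
    (X ⊔ J.sup U).map f ≤ X ⊔ J.sup U ∧
      ∃ c, Module.finrank F ↥(X ⊔ J.sup U) = Module.finrank F X + c * a := by
  induction J using Finset.induction_on with
  | empty =>
    have e0 : X ⊔ (∅ : Finset (Fin s)).sup U = X := by simp
    rw [e0]
    exact ⟨hX, 0, by simp⟩
  | insert j J hj ih =>
    obtain ⟨h1, c, hc⟩ := ih
    have e : X ⊔ (insert j J).sup U = (X ⊔ J.sup U) ⊔ U j := by
      rw [Finset.sup_insert, sup_assoc, sup_comm (U j)]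
    rw [e]
    generalize X ⊔ J.sup U = Y at h1 hc
    refine ⟨?_, ?_⟩
    · rw [Submodule.map_sup]
      exact sup_le_sup h1 (hUinv j)
    · have h2 := Submodule.finrank_sup_add_finrank_inf_eq Y (U j)
      have h3 : (Y ⊓ U j).map f ≤ Y ⊓ U j := by
        rintro _ ⟨x, ⟨hx1, hx2⟩, rfl⟩
        exact ⟨h1 ⟨x, hx1, rfl⟩, hUinv j ⟨x, hx2, rfl⟩⟩
      rcases hUirr j (Y ⊓ U j) inf_le_right h3 with h | h
      · rw [h, finrank_bot, hUdim, hc] at h2
        exact ⟨c + 1, by rw [add_zero] at h2; rw [h2]; ring⟩
      · rw [h, hUdim] at h2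
        exact ⟨c, by omega⟩

theorem chain_exact {F V : Type*} [Field F] [AddCommGroup V] [Module F V]
    [FiniteDimensional F V] {s a : ℕ} (U : Fin s → Submodule F V) (C : Submodule F V)
    (hind : iSupIndep (fun o : Option (Fin s) => o.elim C U))
    (hUdim : ∀ j, Module.finrank F ↥(U j) = a)
    (W₀ : Submodule F V) (hW₀ : W₀ ≤ C) (J : Finset (Fin s)) :
    Module.finrank F ↥(W₀ ⊔ J.sup U) = Module.finrank F W₀ + J.card * a := by
  induction J using Finset.induction_on with
  | empty =>
    have e0 : W₀ ⊔ (∅ : Finset (Fin s)).sup U = W₀ := by simp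
    rw [e0]
    simp
  | insert j J hj ih =>
    have e : W₀ ⊔ (insert j J).sup U = (W₀ ⊔ J.sup U) ⊔ U j := by
      rw [Finset.sup_insert, sup_assoc, sup_comm (U j)]
    have hdisj : (W₀ ⊔ J.sup U) ⊓ U j = ⊥ := by
      have h := hind (some j)
      have hY : W₀ ⊔ J.sup U ≤ ⨆ k, ⨆ (_ : k ≠ some j), (fun o : Option (Fin s) => o.elim C U) k := by
        apply sup_le
        · exact le_trans hW₀ (le_iSup₂_of_le (f := fun k (_ : k ≠ some j) => (fun o : Option (Fin s) => o.elim C U) k) none (by simp) le_rfl)
        · apply Finset.sup_le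
          intro j' hj'
          exact le_iSup₂_of_le (f := fun k (_ : k ≠ some j) => (fun o : Option (Fin s) => o.elim C U) k) (some j') (by
            simp only [ne_eq, Option.some.injEq]
            rintro rfl
            exact hj hj') le_rfl
      exact (h.symm.mono_left hY).eq_bot
    have h2 := Submodule.finrank_sup_add_finrank_inf_eq (W₀ ⊔ J.sup U) (U j)
    rw [hdisj, finrank_bot, hUdim, ih, add_zero] at h2
    rw [e, h2, Finset.card_insert_of_notMem hj]
    ring


/-- Which dimensions of invariant subspaces a semisimple linear map has. Let `V` be a finite-dimensional vector space over a field `F` and `f` an invertible semisimple linear map of `V`. Suppose `V` is the internal direct sum of the fixed space `C_V(f)` (the eigenspace for 1) and subspaces `U_1, …, U_s`, each `f`-invariant of dimension `a ≥ 1` on which `f` acts irreducibly (no `f`-invariant subspaces other than 0 and `U_j`). Let `0 < m < dim V` and `ℓ = m mod a`. Then `f` leaves some `m`-dimensional subspace invariant if and only if `dim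 C_V(f) ≥ m`, or `a ≤ m` and `dim C_V(f) ≥ ℓ`. -/
theorem result {F V : Type*} [Field F] [AddCommGroup V] [Module F V]
    [FiniteDimensional F V] (f : V →ₗ[F] V) (hf : Function.Bijective f) (hss : Module.End.IsSemisimple f)
    {s a : ℕ} (ha : 1 ≤ a) (U : Fin s → Submodule F V)
    (hUinv : ∀ j, (U j).map f ≤ U j) (hUdim : ∀ j, Module.finrank F ↥(U j) = a)
    (hUirr : ∀ j, ∀ W : Submodule F V, W ≤ U j → W.map f ≤ W → W = ⊥ ∨ W = U j)
    (hdec : DirectSum.IsInternal (fun o : Option (Fin s) => o.elim (Module.End.eigenspace f 1) U))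
    (m : ℕ) (hm : 0 < m) (hmV : m < Module.finrank F V) :
    (∃ W : Submodule F V, Module.finrank F ↥W = m ∧ W.map f ≤ W) ↔
    (m ≤ Module.finrank F ↥(Module.End.eigenspace f 1) ∨
      (a ≤ m ∧ m % a ≤ Module.finrank F ↥(Module.End.eigenspace f 1))) := by
  have hCmem : ∀ x, x ∈ Module.End.eigenspace f 1 ↔ f x = x := by
    intro x
    rw [Module.End.mem_eigenspace_iff, one_smul]
  generalize Module.End.eigenspace f 1 = C at hdec hCmem ⊢
  have hind := hdec.submodule_iSupIndep
  have htop := hdec.submodule_iSup_eq_top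
  have htop' : C ⊔ Finset.univ.sup U = ⊤ := by
    rw [iSup_option] at htop
    rw [Finset.sup_univ_eq_iSup]
    exact htop
  have hdimV : Module.finrank F V = Module.finrank F C + s * a := by
    have := chain_exact U C hind hUdim C le_rfl Finset.univ
    rw [htop', finrank_top] at this
    simpa using this
  constructor
  · rintro ⟨W, hWm, hWinv⟩
    obtain ⟨g, hg⟩ : ∃ g : V →ₗ[F] V, g = f - 1 := ⟨_, rfl⟩
    have hgx : ∀ x, g x = f x - x := by
      intro x
      rw [hg]
      simp
    have hW'inv : ((W.map g).map f) ≤ W.map g := by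
      rintro _ ⟨_, ⟨w, hw, rfl⟩, rfl⟩
      refine ⟨f w, hWinv ⟨w, hw, rfl⟩, ?_⟩
      rw [hgx, hgx, map_sub]
    obtain ⟨hUs, c1, hc1⟩ := chain_mod f U hUinv hUdim hUirr ⊥ (by simp) Finset.univ
    rw [bot_sup_eq] at hUs hc1
    rw [finrank_bot, zero_add] at hc1
    have hW'U : W.map g ≤ Finset.univ.sup U := by
      rintro _ ⟨w, hw, rfl⟩
      have hw' : w ∈ C ⊔ Finset.univ.sup U := by rw [htop']; trivial
      obtain ⟨c, hc, u, hu, rfl⟩ := Submodule.mem_sup.1 hw'
      have hc' : f c = c := (hCmem c).1 hc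
      have : g (c + u) = f u - u := by
        rw [hgx, map_add, hc']
        abel
      rw [this]
      exact Submodule.sub_mem _ (hUs ⟨u, hu, rfl⟩) hu
    obtain ⟨-, c2, hc2⟩ := chain_mod f U hUinv hUdim hUirr (W.map g) hW'inv Finset.univ
    rw [sup_eq_right.2 hW'U] at hc2
    have hrn := LinearMap.finrank_range_add_finrank_ker (g.domRestrict W)
    rw [LinearMap.range_domRestrict] at hrn
    have hker : Module.finrank F (LinearMap.ker (g.domRestrict W)) ≤ Module.finrank F C := by
      rw [← Submodule.finrank_map_subtype_eq W (LinearMap.ker (g.domRestrict W))]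
      apply Submodule.finrank_mono
      rintro _ ⟨x, hx, rfl⟩
      rw [hCmem]
      have h0 : g (x : V) = 0 := hx
      rw [hgx] at h0
      exact sub_eq_zero.1 h0
    have hdvd : a ∣ Module.finrank F (W.map g) := by
      have h : a ∣ Module.finrank F (W.map g) + c2 * a := ⟨c1, by rw [← hc2, hc1]; ring⟩
      exact (Nat.dvd_add_left (Dvd.intro_left _ rfl)).1 h
    obtain ⟨t', ht'⟩ := hdvd
    rw [hWm, ht'] at hrn
    rcases Nat.eq_zero_or_pos t' with h0 | h0
    · left
      rw [h0] at hrn
      omega
    · right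
      constructor
      · have : a ≤ a * t' := Nat.le_mul_of_pos_right a h0
        omega
      · rw [← hrn, Nat.mul_add_mod]
        exact le_trans (Nat.mod_le _ _) hker
  · rintro (h | ⟨h1, h2⟩)
    · obtain ⟨W, hWC, hWd⟩ := exists_sub C m h
      refine ⟨W, hWd, ?_⟩
      rintro _ ⟨w, hw, rfl⟩
      rw [(hCmem w).1 (hWC hw)]
      exact hw
    · obtain ⟨t, ht⟩ : ∃ t, t = min (m / a) s := ⟨_, rfl⟩
      have hta : t * a ≤ m := by
        have h3 : t ≤ m / a := by rw [ht]; exact min_le_left _ _
        exact le_trans (Nat.mul_le_mul_right a h3) (Nat.div_mul_le_self m a)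
      have hk : m - t * a ≤ Module.finrank F C := by
        rcases le_total (m / a) s with h | h
        · rw [ht, min_eq_left h]
          have := Nat.div_add_mod' m a
          omega
        · rw [ht, min_eq_right h]
          omega
      obtain ⟨W₀, hW₀, hd⟩ := exists_sub C _ hk
      obtain ⟨J, -, hJ⟩ := Finset.exists_subset_card_eq (s := (Finset.univ : Finset (Fin s))) (n := t)
        (by rw [ht]; simp)
      refine ⟨W₀ ⊔ J.sup U, ?_, ?_⟩
      · rw [chain_exact U C hind hUdim W₀ hW₀ J, hd, hJ]
        omega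
      · refine (chain_mod f U hUinv hUdim hUirr W₀ ?_ J).1
        rintro _ ⟨w, hw, rfl⟩
        rw [(hCmem w).1 (hW₀ hw)]
        exact hw

end Cfsg.Agent.S5952
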